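import Cfsg.Statements.S3116
import Mathlib

set_option autoImplicit false
open Cfsg


namespace Cfsg.Agent.S3116
theorem isPGroup_mulAut_of_index_two {X : Type*} [Group X] [Finite X] {x : X} {n : ℕ} (hn : 1 ≤ n)
    (hx : orderOf x = 2 ^ n) (hcard : Nat.card X = 2 * 2 ^ n)
    (hchar : ∀ α : MulAut X, α x ∈ Subgroup.zpowers x) : IsPGroup 2 (MulAut X) := by
  classical
  set C := Subgroup.zpowers x with hC
  have hidx : C.index = 2 := by
    have h1 := C.card_mul_index
    rw [Nat.card_zpowers, hx, hcard, mul_comm] at h1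
    exact Nat.eq_of_mul_eq_mul_right (by positivity) h1
  intro α
  -- `α x = x ^ a`
  obtain ⟨a, ha⟩ : ∃ a : ℕ, x ^ a = α x := by
    have h1 : α x ∈ Submonoid.powers x := by
      rw [mem_powers_iff_mem_zpowers]
      exact hchar α
    exact h1
  have hxx : x ^ (2 ^ n) = 1 := by rw [← hx]; exact pow_orderOf_eq_one x
  have hodd : Nat.Coprime a (2 ^ n) := by
    apply Nat.Coprime.pow_right
    apply Nat.Coprime.symm
    rw [Nat.Prime.coprime_iff_not_dvd Nat.prime_two]
    intro hev
    obtain ⟨b, rfl⟩ := hev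
    have h1 : orderOf (α x) = 2 ^ n := by rw [MulEquiv.orderOf_eq, hx]
    have h2 : (α x) ^ (2 ^ (n - 1)) = 1 := by
      rw [← ha, ← pow_mul]
      have e : 2 * b * 2 ^ (n - 1) = 2 ^ n * b := by
        obtain ⟨m, rfl⟩ : ∃ m, n = m + 1 := ⟨n - 1, by omega⟩
        simp only [Nat.add_sub_cancel]
        ring
      rw [e, pow_mul, hxx, one_pow]
    have h3 := orderOf_dvd_of_pow_eq_one h2
    rw [h1] at h3
    have h4 := Nat.le_of_dvd (by positivity) h3
    have h5 : 2 ^ (n - 1) < 2 ^ n := Nat.pow_lt_pow_right (by norm_num) (by omega)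
    omega
  have hpow : ∀ j : ℕ, (α ^ j) x = x ^ (a ^ j) := by
    intro j
    induction j with
    | zero => simp
    | succ j ih =>
      rw [pow_succ', MulAut.mul_apply, ih, map_pow, ← ha, ← pow_mul, pow_succ']
  have hmod : a ^ (2 ^ (n - 1)) ≡ 1 [MOD 2 ^ n] := by
    have := Nat.ModEq.pow_totient hodd
    obtain ⟨m, rfl⟩ : ∃ m, n = m + 1 := ⟨n - 1, by omega⟩
    rw [Nat.totient_prime_pow_succ Nat.prime_two] at this
    simpa using this
  set γ := α ^ (2 ^ (n - 1)) with hγ
  have hγx : γ x = x := by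
    rw [hγ, hpow]
    have : x ^ (a ^ (2 ^ (n - 1))) = x ^ 1 := by
      rw [pow_eq_pow_iff_modEq, hx]
      exact hmod
    rwa [pow_one] at this
  have hγC : ∀ c ∈ C, γ c = c := by
    rintro _ ⟨k, rfl⟩
    change γ (x ^ k) = x ^ k
    rw [map_zpow, hγx]
  -- an element outside C
  obtain ⟨y, hy⟩ : ∃ y, y ∉ C := by
    by_contra hcon
    push Not at hcon
    have : C = ⊤ := eq_top_iff.2 (fun z _ => hcon z)
    rw [this, Subgroup.index_top] at hidx
    omega
  have hγy : γ y ∉ C := by
    intro h
    apply hy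
    have h1 := hγC _ h
    have h2 := γ.injective h1
    rwa [h2] at h
  have hyinv : y⁻¹ ∉ C := fun h => hy (by simpa using C.inv_mem h)
  have hc : y⁻¹ * γ y ∈ C := by
    rw [Subgroup.mul_mem_iff_of_index_two hidx]
    simp [hyinv, hγy]
  set c := y⁻¹ * γ y with hcdef
  have hγpow : ∀ t : ℕ, (γ ^ t) y = y * c ^ t := by
    intro t
    induction t with
    | zero => simp
    | succ t ih =>
      rw [pow_succ', MulAut.mul_apply, ih, map_mul, map_pow, hγC c hc, pow_succ', ← mul_assoc]
      congr 1
      rw [hcdef]; group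
  have hcc : c ^ (2 ^ n) = 1 := by
    obtain ⟨k, hk⟩ := hc
    rw [← hk, ← zpow_natCast, ← zpow_mul, mul_comm, zpow_mul, zpow_natCast, hxx, one_zpow]
  set δ := γ ^ (2 ^ n) with hδ
  have hδy : δ y = y := by rw [hδ, hγpow, hcc, mul_one]
  have hδC : ∀ c ∈ C, δ c = c := by
    have : ∀ t : ℕ, ∀ c ∈ C, (γ ^ t) c = c := by
      intro t
      induction t with
      | zero => intro c _; simp
      | succ t ih =>
        intro c hc
        rw [pow_succ', MulAut.mul_apply, ih c hc, hγC c hc]
    exact this _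
  have hδ1 : δ = 1 := by
    ext z
    by_cases hz : z ∈ C
    · rw [hδC z hz]; rfl
    · have h1 : y⁻¹ * z ∈ C := by
        rw [Subgroup.mul_mem_iff_of_index_two hidx]
        simp [hyinv, hz]
      have h2 : z = y * (y⁻¹ * z) := by group
      rw [MulAut.one_apply, h2, map_mul, hδy, hδC _ h1]
  refine ⟨(n - 1) + n, ?_⟩
  rw [pow_add, pow_mul]
  exact hδ1

/-- The automorphism group of a dihedral 2-group of order at least 8, or of a quasi-dihedral (semidihedral) 2-group of order at least 16, is a 2-group. -/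
theorem result {X : Type*} [Group X] [Finite X] (h2 : IsPGroup 2 X)
    (h : (∃ n : ℕ, 4 ≤ n ∧ Nonempty (X ≃* DihedralGroup n)) ∨ Cfsg.IsQuasiDihedral X) : IsPGroup 2 (MulAut X) := by
  classical
  obtain ⟨m, hm⟩ := IsPGroup.iff_card.1 h2
  rcases h with ⟨k, hk, ⟨e⟩⟩ | ⟨n, hn, hcard, x, y, hx, hy, hyx⟩
  · -- dihedral
    haveI : NeZero k := ⟨by omega⟩
    have hcardD : Nat.card X = 2 * k := by
      rw [Nat.card_congr e.toEquiv, DihedralGroup.nat_card]
    obtain ⟨t, ht⟩ : ∃ t, k = 2 ^ t := by
      have hk2 : k ∣ 2 ^ m := by rw [← hm, hcardD]; exact dvd_mul_left _ _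
      obtain ⟨t, -, ht⟩ := (Nat.dvd_prime_pow Nat.prime_two).1 hk2
      exact ⟨t, ht⟩
    have ht1 : 1 ≤ t := by
      by_contra hcon
      have : t = 0 := by omega
      subst this
      simp at ht
      omega
    set x := e.symm (DihedralGroup.r 1) with hxdef
    have hordx : orderOf x = k := by
      rw [hxdef, MulEquiv.orderOf_eq, DihedralGroup.orderOf_r_one]
    refine isPGroup_mulAut_of_index_two (x := x) (n := t) ht1 (by rw [hordx, ht]) (by rw [hcardD, ht]) ?_
    intro α
    have hw : orderOf (e (α x)) = k := by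
      rw [MulEquiv.orderOf_eq, MulEquiv.orderOf_eq, hordx]
    rcases hcase : e (α x) with i | i
    · -- rotation
      have h3 : e (α x) = (e x) ^ (i.val) := by
        rw [hcase, hxdef]
        simp only [MulEquiv.apply_symm_apply, DihedralGroup.r_one_pow]
        congr 1
        simp
      have h4 : α x = x ^ i.val := by
        apply e.injective
        rw [h3, map_pow]
      rw [h4]
      exact Subgroup.npow_mem_zpowers x _
    · exfalso
      rw [hcase, DihedralGroup.orderOf_sr] at hw
      omega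
  · -- quasi-dihedral
    have hn' : 1 ≤ n := by omega
    have hcard' : Nat.card X = 2 * 2 ^ n := by rw [hcard, pow_succ]; ring
    refine isPGroup_mulAut_of_index_two (x := x) (n := n) hn' hx hcard' ?_
    set C := Subgroup.zpowers x with hC
    have hidx : C.index = 2 := by
      have h1 := C.card_mul_index
      rw [Nat.card_zpowers, hx, hcard', mul_comm] at h1
      exact Nat.eq_of_mul_eq_mul_right (by positivity) h1
    have hxx : x ^ (2 ^ n) = 1 := by rw [← hx]; exact pow_orderOf_eq_one x
    have hyy : y * y = 1 := by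
      have := pow_orderOf_eq_one y
      rwa [hy, pow_two] at this
    have hyinv : y⁻¹ = y := inv_eq_of_mul_eq_one_left hyy
    -- y is outside C
    have hyC : y ∉ C := by
      intro hy'
      have hcomm : Commute y x := by
        obtain ⟨k, rfl⟩ := hy'
        exact ((Commute.refl x).zpow_left k)
      have h1 : y * x * y⁻¹ = x := by rw [hcomm.eq]; group
      rw [h1] at hyx
      have h2 : x ^ 1 = x ^ (2 ^ (n - 1) - 1) := by rw [pow_one]; exact hyx
      rw [pow_eq_pow_iff_modEq, hx] at h2
      obtain ⟨m, rfl⟩ : ∃ m, n = m + 2 := ⟨n - 2, by omega⟩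
      have h3 : 2 ^ (m + 2 - 1) = 2 * 2 ^ m := by
        rw [show m + 2 - 1 = m + 1 by omega, pow_succ]; ring
      have h4 : (2 : ℕ) ^ (m + 2) = 4 * 2 ^ m := by rw [pow_add]; ring
      rw [h3, h4] at h2
      have h5 : 2 ≤ 2 ^ m := by
        calc 2 = 2 ^ 1 := by norm_num
          _ ≤ 2 ^ m := Nat.pow_le_pow_right (by norm_num) (by omega)
      have h6 : 1 % (4 * 2 ^ m) = 1 := Nat.mod_eq_of_lt (by omega)
      have h7 : (2 * 2 ^ m - 1) % (4 * 2 ^ m) = 2 * 2 ^ m - 1 := Nat.mod_eq_of_lt (by omega)
      unfold Nat.ModEq at h2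
      rw [h6, h7] at h2
      omega
    have hyinvC : y⁻¹ ∉ C := by rw [hyinv]; exact hyC
    -- elements outside C have order dividing 4
    have hfour : ∀ z, z ∉ C → z ^ 4 = 1 := by
      intro z hz
      have h1 : y⁻¹ * z ∈ C := by
        rw [Subgroup.mul_mem_iff_of_index_two hidx]
        simp [hyinvC, hz]
      obtain ⟨i, hi⟩ := h1
      have hi' : x ^ i = y⁻¹ * z := hi
      have hz' : z = y * x ^ i := by rw [hi']; group
      have hconj : y * x ^ i * y = (x ^ (2 ^ (n - 1) - 1)) ^ i := by
        have := conj_zpow (a := y) (b := x) (i := i)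
        rw [hyx, hyinv] at this
        exact this.symm
      have hsq : z * z = x ^ (2 ^ (n - 1) * i) := by
        rw [hz']
        calc y * x ^ i * (y * x ^ i) = (y * x ^ i * y) * x ^ i := by group
          _ = (x ^ (2 ^ (n - 1) - 1)) ^ i * x ^ i := by rw [hconj]
          _ = (x ^ (2 ^ (n - 1) - 1) * x) ^ i := by
            rw [((Commute.refl x).pow_left _).mul_zpow]
          _ = (x ^ (2 ^ (n - 1))) ^ i := by
            rw [← pow_succ]
            congr 2
            have : 1 ≤ 2 ^ (n - 1) := Nat.one_le_two_pow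
            omega
          _ = x ^ (2 ^ (n - 1) * i) := by
            rw [zpow_mul]
            congr 1
            rw [← zpow_natCast]
            push_cast
            rfl
      have h5 : z ^ 4 = (z * z) * (z * z) := by simp [pow_succ, mul_assoc]
      rw [h5, hsq, ← zpow_add]
      have e : (2 : ℤ) ^ (n - 1) * i + 2 ^ (n - 1) * i = 2 ^ n * i := by
        obtain ⟨m, rfl⟩ : ∃ m, n = m + 1 := ⟨n - 1, by omega⟩
        simp only [Nat.add_sub_cancel]
        ring
      rw [e, zpow_mul]
      have h6 : x ^ ((2 : ℤ) ^ n) = 1 := by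
        have := hxx
        rw [← zpow_natCast] at this
        push_cast at this
        exact this
      rw [h6, one_zpow]
    intro α
    by_contra hnot
    have h1 := hfour _ hnot
    have h2 := orderOf_dvd_of_pow_eq_one h1
    rw [MulEquiv.orderOf_eq, hx] at h2
    have h3 := Nat.le_of_dvd (by norm_num) h2
    have h4 : 2 ^ 3 ≤ 2 ^ n := Nat.pow_le_pow_right (by norm_num) hn
    omega

end Cfsg.Agent.S3116
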