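import Cfsg.Statements.S0998
import Mathlib
import Cfsg.Agent.Lib.BR.Tens7
import Cfsg.Agent.S0996

set_option autoImplicit false
open Cfsg

namespace Cfsg.Agent.S0998


open Subgroup Lib.BR

/-- The core case: the largest prime of the order other than `q` is `p`. -/
theorem aux {G : Type*} [Group G] [Finite G] [IsSimpleGroup G] (hG : ¬ IsCyclic G) (p q r b : ℕ)
    (hp : p.Prime) (hq : q.Prime) (hr : r.Prime) (hpq : p ≠ q) (hrp : r < p) (hqr : q ≠ r)
    (hG' : Nat.card G = p * r * q ^ b) :
    (∃ (F : Type) (_ : Field F) (_ : Fintype F), Fintype.card F = 5 ∧ Nonempty (G ≃* Matrix.ProjectiveSpecialLinearGroup (Fin 2) F)) ∨ (∃ (F : Type) (_ : Field F) (_ : Fintype F), Fintype.card F = 7 ∧ Nonempty (G ≃* Matrix.ProjectiveSpecialLinearGroup (Fin 2) F)) := by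
  classical
  haveI : Fintype G := Fintype.ofFinite G
  haveI hfp : Fact p.Prime := ⟨hp⟩
  haveI hfr : Fact r.Prime := ⟨hr⟩
  have hnc : ¬ IsMulCommutative G := by
    intro hc
    apply hG
    letI inst2 : CommGroup G := { (inferInstance : Group G) with mul_comm := fun a b => hc.is_comm.comm a b }
    exact @IsSimpleGroup.isCyclic G inst2 ‹_›
  have hperf : commutator G = ⊤ := by
    rcases IsSimpleGroup.eq_bot_or_eq_top_of_normal (commutator G) inferInstance with h | h
    · exfalso
      apply hnc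
      refine ⟨⟨fun a b => ?_⟩⟩
      rw [commutator_def, Subgroup.commutator_eq_bot_iff_le_centralizer] at h
      exact (Subgroup.mem_centralizer_iff.mp (h (Subgroup.mem_top a)) b (Subgroup.mem_top b)).symm
    · exact h
  have hpr : p ≠ r := by omega
  have hcopr_pr : Nat.Coprime p r := (Nat.coprime_primes hp hr).mpr hpr
  have hcopr_pq : Nat.Coprime p q := (Nat.coprime_primes hp hq).mpr hpq
  have hcopr_rq : Nat.Coprime r q := (Nat.coprime_primes hr hq).mpr hqr.symm
  -- `q < r`
  have hqlt : q < r := by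
    have hrd : r ∣ Nat.card G := by
      rw [hG']
      exact Dvd.dvd.mul_right (Dvd.intro_left p rfl) _
    obtain ⟨w, hw⟩ := exists_prime_orderOf_dvd_card' r hrd
    have hsq : ¬ r ^ 2 ∣ Nat.card G := by
      rw [hG']
      intro h
      have e1 : p * r * q ^ b = r * (p * q ^ b) := by ring
      rw [e1, pow_two] at h
      have h2 : r ∣ p * q ^ b := Nat.dvd_of_mul_dvd_mul_left hr.pos h
      rcases (Nat.Prime.dvd_mul hr).mp h2 with h3 | h3
      · exact hpr ((Nat.prime_dvd_prime_iff_eq hr hp).mp h3).symm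
      · exact hqr ((Nat.prime_dvd_prime_iff_eq hr hq).mp (hr.dvd_of_dvd_pow h3)).symm
    obtain ⟨Q, hQ, hQc⟩ := exists_sylow_of_sq hw hsq
    obtain ⟨e, he1, he2, hN⟩ := Lib.SmallSimple.BA.norm_data hnc Q hQc hw hQ.symm
    have hrpos := hr.pos
    have hr2 := hr.two_le
    have he0 : 0 < e := Nat.pos_of_dvd_of_pos he1 (by omega)
    have hele : e ≤ r - 1 := Nat.le_of_dvd (by omega) he1
    have hed : e ∣ Nat.card G := by
      have h1 : Nat.card (normalizer ((zpowers w : Subgroup G) : Set G)) ∣ Nat.card G := Subgroup.card_subgroup_dvd_card _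
      rw [hN] at h1
      exact dvd_trans (Dvd.intro _ rfl) h1
    have hcop1 : Nat.Coprime e p := by
      apply Nat.Coprime.symm
      rw [Nat.Prime.coprime_iff_not_dvd hp]
      intro h
      have := Nat.le_of_dvd he0 h
      omega
    have hcop2 : Nat.Coprime e r := by
      apply Nat.Coprime.symm
      rw [Nat.Prime.coprime_iff_not_dvd hr]
      intro h
      have := Nat.le_of_dvd he0 h
      omega
    rw [hG', mul_assoc] at hed
    have h3 : e ∣ r * q ^ b := hcop1.dvd_of_dvd_mul_left hed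
    have h4 : e ∣ q ^ b := hcop2.dvd_of_dvd_mul_left h3
    obtain ⟨j, _, hj⟩ := (Nat.dvd_prime_pow hq).mp h4
    have hj0 : j ≠ 0 := by
      rintro rfl
      simp at hj
      exact he2 hj
    have hqe : q ∣ e := by
      rw [hj]
      exact dvd_pow_self q hj0
    have h5 : q ≤ r - 1 := Nat.le_of_dvd (by omega) (dvd_trans hqe he1)
    omega
  have hpd : p ∣ Nat.card G := by
    rw [hG', mul_assoc]
    exact Dvd.intro _ rfl
  obtain ⟨z, hz⟩ := exists_prime_orderOf_dvd_card' p hpd
  obtain ⟨t, s, X, Y, δ, ε, deg, M, hM, D, hB, hY, hsign, ht, hs, hXq, hNc⟩ :=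
    main_data hnc hp hq hr hqlt hrp hG' hz
  have hcent : ∀ z' : G, orderOf z' = p → centralizer ({z'} : Set G) = zpowers z' := by
    intro z' hz'
    obtain ⟨t', s', X', Y', δ', ε', deg', M', hM', D', _⟩ :=
      main_data hnc hp hq hr hqlt hrp hG' hz'
    exact D'.hC
  have hsq : ¬ p ^ 2 ∣ Nat.card G := by
    rw [hG']
    intro h
    have e1 : p * r * q ^ b = p * (r * q ^ b) := by ring
    rw [e1, pow_two] at h
    have h2 : p ∣ r * q ^ b := Nat.dvd_of_mul_dvd_mul_left hp.pos h
    rcases (Nat.Prime.dvd_mul hp).mp h2 with h3 | h3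
    · exact hpr ((Nat.prime_dvd_prime_iff_eq hp hr).mp h3)
    · exact hpq ((Nat.prime_dvd_prime_iff_eq hp hq).mp (hp.dvd_of_dvd_pow h3))
  obtain ⟨Q, hQ, hQc⟩ := exists_sylow_of_sq hz hsq
  have hsyl : Nat.card (Sylow p G) * (t * p) = Nat.card G := by
    have h1 : Nat.card (Sylow p G) = (normalizer ((Q : Subgroup G) : Set G)).index := Sylow.card_eq_index_normalizer Q
    have h2 := (normalizer ((Q : Subgroup G) : Set G)).card_mul_index
    rw [← h1, hQ, hNc] at h2
    rw [mul_comm]
    exact h2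
  rcases reduce D hq hr hqlt hrp hG' hY hsign ht hs hXq hNc with
    ⟨rfl, rfl, rfl, rfl, hε, rfl⟩ | ⟨rfl, rfl, rfl, rfl, hε, rfl⟩
  · -- the case of order 168
    have h168 := final7 hnc hG' D hε hY hcent
    right
    have hn : 2 * Nat.card (Sylow 7 G) < (7 + 1) * (7 + 2) := by
      rw [h168] at hsyl
      omega
    rcases Cfsg.Agent.S0996.result hperf 7 z hz D.hC hn with ⟨F, hF, hFf, hc, _, hiso⟩ | ⟨m, F, hF, hFf, hc, hm, _, _⟩
    · exact ⟨F, hF, hFf, hc, hiso⟩
    · exfalso
      have h6 : 2 ^ m = 6 := by omega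
      have hm3 : m < 3 := by
        by_contra h
        push Not at h
        have : 2 ^ 3 ≤ 2 ^ m := Nat.pow_le_pow_right (by norm_num) h
        omega
      interval_cases m <;> omega
  · -- the case of order 60
    have h60 := final5 hnc hG' D hε hY hcent
    left
    have hn : 2 * Nat.card (Sylow 5 G) < (5 + 1) * (5 + 2) := by
      rw [h60] at hsyl
      omega
    obtain ⟨t', s', n', Xs', Ys', δ', ε', deg', D'⟩ := Lib.BR.brd_exists hperf hz D.hC hn
    obtain ⟨X', θ₀, hθ₀, hX⟩ := D'.exists_X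
    rcases D'.dichotomy hθ₀ hX with ⟨h1, h2⟩ | ⟨hs3, hns, ht', hXp, hε', ha, hb⟩
    · obtain ⟨h3, ⟨φ⟩⟩ := D'.case_a h1 h2
      exact ⟨ZMod 5, inferInstance, ZMod.fintype 5, ZMod.card 5, ⟨φ⟩⟩
    · exfalso
      have h1 := D'.hst
      rw [ht'] at h1
      omega

/-- A non-cyclic finite simple group whose order has the form p * r * q^b for distinct primes p, q, r is isomorphic to the projective special linear group of dimension 2 over the field with 5 or with 7 elements. -/
theorem result {G : Type*} [Group G] [Finite G] [IsSimpleGroup G] (hG : ¬ IsCyclic G) (p q r b : ℕ) (hp : p.Prime) (hq : q.Prime) (hr : r.Prime) (hpq : p ≠ q) (hpr : p ≠ r) (hqr : q ≠ r) (hG' : Nat.card G = p * r * q ^ b) : (∃ (F : Type) (_ : Field F) (_ : Fintype F), Fintype.card F = 5 ∧ Nonempty (G ≃* Matrix.ProjectiveSpecialLinearGroup (Fin 2) F)) ∨ (∃ (F : Type) (_ : Field F) (_ : Fintype F), Fintype.card F = 7 ∧ Nonempty (G ≃* Matrix.ProjectiveSpecialLinearGroup (Fin 2) F)) := by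
  by_cases hrp : r < p
  · exact aux hG p q r b hp hq hr hpq hrp hqr hG'
  · have hpr' : p < r := by
      rcases Nat.lt_or_gt_of_ne hpr with h | h
      · exact h
      · exact absurd h hrp
    refine aux hG r q p b hr hq hp hqr.symm hpr' hpq.symm ?_
    rw [hG']
    ring

end Cfsg.Agent.S0998
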