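import Cfsg.Statements.S0080
import Cfsg.Agent.Lib.Transfer.Package
import Mathlib

set_option autoImplicit false
open Cfsg

namespace Cfsg.Agent.S0080

open scoped commutatorElement IsMulCommutative
open Cfsg.Agent.Lib.Transfer

/-- When the index of H is prime to the order of H/H', the focal subgroup of H is G' ∩ H, and H/(G' ∩ H) has a normal complement. -/
theorem result {G : Type*} [Group G] [Finite G] (H : Subgroup G) (h : Nat.Coprime H.index (⁅H, H⁆.relIndex H)) : Subgroup.focalSubgroup H = commutator G ⊓ H ∧ ∃ N : Subgroup G, N.Normal ∧ N ⊓ H = commutator G ⊓ H ∧ N ⊔ H = ⊤ := by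
  -- the order of H ⧸ foc(H) divides |H : H'|
  have hdvd : Nat.card (H ⧸ H.focalSubgroupOf) ∣ ⁅H, H⁆.relIndex H := by
    have h1 : (commutator H) ≤ H.focalSubgroupOf := H.commutator_le_focalSubgroupOf
    have h2 : H.focalSubgroupOf.index ∣ (commutator H).index := Subgroup.index_dvd_of_le h1
    have h3 : ⁅H, H⁆.subgroupOf H = commutator H := by
      rw [← Subgroup.map_subtype_commutator]
      exact Subgroup.comap_map_eq_self_of_injective H.subtype_injective _
    rw [Subgroup.relIndex, h3]
    exact h2
  have hcop : (Nat.card (H ⧸ H.focalSubgroupOf)).Coprime H.index :=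
    (Nat.Coprime.coprime_dvd_left hdvd h.symm)
  obtain ⟨f, -, -, hker, hsup⟩ := transfer_package H H.focalSubgroupOf hcop (by
    intro x g hg
    have h1 := Subgroup.focalSubgroupOf.mk'_conj_eq H x.2 g hg
    exact QuotientGroup.eq.mp h1.symm)
  rw [Subgroup.map_focalSubgroupOf] at hker
  have hf : H.focalSubgroup = commutator G ⊓ H := by
    apply le_antisymm
    · exact le_inf H.focalSubgroup_le_commutator H.focalSubgroup_le
    · rw [← hker]
      exact inf_le_inf_right _ (Abelianization.commutator_subset_ker f)
  refine ⟨hf, f.ker, inferInstance, by rw [hker, hf], hsup⟩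

end Cfsg.Agent.S0080
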