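import Cfsg.Statements.S1567
import Mathlib
import Cfsg.Agent.Lib.KnownSimple.Leech.Basic

set_option autoImplicit false
open Cfsg

namespace Cfsg.Agent.S1567


/-- The closure of the minimal vectors. -/
def MM : AddSubgroup (Cfsg.GolayPt → ℤ) :=
  AddSubgroup.closure {x : Cfsg.GolayPt → ℤ | x ∈ Cfsg.leechLattice ∧ Cfsg.sqNorm x = 32}

theorem MM_le : MM ≤ Cfsg.leechLattice := by
  rw [MM, AddSubgroup.closure_le]
  exact fun x hx => hx.1

theorem mem_MM {x : Cfsg.GolayPt → ℤ} (h : x ∈ Cfsg.leechLattice) (h2 : Cfsg.sqNorm x = 32) : x ∈ MM :=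
  AddSubgroup.subset_closure ⟨h, h2⟩

/-- The vector `4 e_a + 4 s e_none`. -/
def v4 (a : ZMod 23) (s : ℤ) : Cfsg.GolayPt → ℤ := fun p =>
  match p with
  | none => 4 * s
  | some b => if b = a then 4 else 0

theorem v4_mem (a : ZMod 23) {s : ℤ} (hs : s = 1 ∨ s = -1) : v4 a s ∈ MM := by
  have hsum : (∑ i, v4 a s i) = 4 * s + 4 := by
    rw [Fintype.sum_option]
    simp [v4]
  have hnorm : Cfsg.sqNorm (v4 a s) = 32 := by
    unfold Cfsg.sqNorm
    rw [Fintype.sum_option]
    have h1 : ∀ b : ZMod 23, v4 a s (some b) ^ 2 = if b = a then 16 else 0 := by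
      intro b
      simp only [v4]
      split_ifs <;> norm_num
    simp only [h1]
    rw [Finset.sum_ite_eq' Finset.univ a]
    simp only [Finset.mem_univ, if_true, v4]
    rcases hs with rfl | rfl <;> norm_num
  apply mem_MM _ hnorm
  apply AddSubgroup.subset_closure
  apply Cfsg.Spor.mem_leechSet_of_const_mod_four _ 0 0 (by decide)
  · rintro (_ | b)
    · show 4 * s ≡ 0 [ZMOD 4]
      exact (Int.modEq_zero_iff_dvd).mpr (dvd_mul_right _ _)
    · show (if b = a then (4 : ℤ) else 0) ≡ 0 [ZMOD 4]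
      split_ifs <;> decide
  · rw [hsum]
    rcases hs with rfl | rfl <;> decide

/-- `8 e_none`. -/
def v8 : Cfsg.GolayPt → ℤ := fun p =>
  match p with
  | none => 8
  | some _ => 0

theorem v8_mem : v8 ∈ MM := by
  have : v8 = v4 0 1 - v4 0 (-1) := by
    funext p
    rcases p with _ | b
    · simp [v8, v4]
    · simp only [v8, v4, Pi.sub_apply]
      simp
  rw [this]
  exact sub_mem (v4_mem 0 (Or.inl rfl)) (v4_mem 0 (Or.inr rfl))

/-- Vectors `4 z`, `∑ z` even. -/
theorem four_mem (z : Cfsg.GolayPt → ℤ) (hz : (∑ i, z i) % 2 = 0) : (fun i => 4 * z i) ∈ MM := by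
  rw [Fintype.sum_option] at hz
  set S := ∑ a : ZMod 23, z (some a) with hS
  obtain ⟨t, ht⟩ : ∃ t : ℤ, z none = S + 2 * t := ⟨(z none - S) / 2, by omega⟩
  have : (fun i => 4 * z i) = (∑ a : ZMod 23, z (some a) • v4 a 1) + t • v8 := by
    funext p
    rcases p with _ | b
    · simp only [Pi.add_apply, Finset.sum_apply, Pi.smul_apply, smul_eq_mul, v4, v8]
      rw [ht, ← Finset.sum_mul, ← hS]
      ring
    · simp only [Pi.add_apply, Finset.sum_apply, Pi.smul_apply, smul_eq_mul, v4, v8]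
      simp
      ring
  rw [this]
  refine add_mem (sum_mem fun a _ => ?_) ?_
  · exact AddSubgroup.zsmul_mem _ (v4_mem a (Or.inl rfl)) _
  · exact AddSubgroup.zsmul_mem _ v8_mem _

/-- Words whose doubles are represented. -/
def Rep (c : Cfsg.GolayPt → ZMod 2) : Prop :=
  ∃ y ∈ MM, ∀ i, y i % 4 = (2 * ((c i).val : ℤ)) % 4

theorem Rep_add {a b : Cfsg.GolayPt → ZMod 2} (ha : Rep a) (hb : Rep b) : Rep (a + b) := by
  obtain ⟨y, hy, h1⟩ := ha
  obtain ⟨y', hy', h2⟩ := hb
  refine ⟨y + y', add_mem hy hy', fun i => ?_⟩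
  have h3 := h1 i
  have h4 := h2 i
  have key : ∀ u v : ZMod 2, (2 * ((u + v).val : ℤ)) % 4 = (2 * (u.val : ℤ) + 2 * (v.val : ℤ)) % 4 := by decide
  simp only [Pi.add_apply]
  rw [key]
  omega

theorem Rep_zero : Rep 0 := ⟨0, zero_mem _, fun i => by simp⟩

open Cfsg.Agent.Lib.Golay Cfsg.Agent.Lib.Compute in
theorem Rep_octad {m : ℕ} (hm : wordOf m ∈ Cfsg.golayCode) (hw : Enc.popAux m 24 = 8) : Rep (wordOf m) := by
  have hnorm : hammingNorm (wordOf m) = 8 := by rw [hammingNorm_wordOf, hw]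
  rw [hammingNorm_eq] at hnorm
  set y : Cfsg.GolayPt → ℤ := fun i => 2 * (((wordOf m i).val : ℕ) : ℤ) with hy
  have h01 : ∀ i, (if i ∈ Cfsg.support₂ (wordOf m) then (1 : ℤ) else 0) = (((wordOf m i).val : ℕ) : ℤ) := by
    intro i
    have key : ∀ u : ZMod 2, (if u ≠ 0 then (1 : ℤ) else 0) = ((u.val : ℕ) : ℤ) := by decide
    simp only [Cfsg.support₂, Finset.mem_filter, Finset.mem_univ, true_and]
    exact key _
  have hcount : ∑ i, (((wordOf m i).val : ℕ) : ℤ) = 8 := by
    simp only [← h01]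
    rw [Finset.sum_ite_mem]
    simp only [Finset.univ_inter, Finset.sum_const, nsmul_eq_mul, mul_one]
    rw [hnorm]
    norm_num
  have hsq : ∑ i, y i ^ 2 = 32 := by
    have : ∀ i, y i ^ 2 = 4 * (((wordOf m i).val : ℕ) : ℤ) := by
      intro i
      have key : ∀ u : ZMod 2, (2 * ((u.val : ℕ) : ℤ)) ^ 2 = 4 * ((u.val : ℕ) : ℤ) := by decide
      exact key _
    simp only [this]
    rw [← Finset.mul_sum, hcount]
    norm_num
  have hsum : (∑ i, y i) = 16 := by
    simp only [hy]
    rw [← Finset.mul_sum, hcount]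
    norm_num
  refine ⟨y, ?_, fun i => rfl⟩
  apply mem_MM _ hsq
  rw [Cfsg.Agent.Lib.KnownSimple.Leech.mem_L_iff]
  refine ⟨0, wordOf m, Or.inl rfl, hm, fun i => ?_, ?_⟩
  · simp [hy]
  · rw [hsum]
    norm_num

open Cfsg.Agent.Lib.Golay Cfsg.Agent.Lib.Compute in
theorem Rep_word (l : List ℕ) (hl : ∀ g ∈ l, wordOf g ∈ Cfsg.golayCode ∧ Enc.popAux g 24 = 8) (k : ℕ) :
    Rep (wordOf (spanWord l k)) := by
  induction l generalizing k with
  | nil =>
    rw [spanWord_nil, wordOf_zero]
    exact Rep_zero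
  | cons g l ih =>
    rw [spanWord_cons]
    have h1 := ih (fun x hx => hl x (by simp [hx])) (k / 2)
    cases Nat.beq (k % 2) 1
    · simpa using h1
    · simp only [bcond_true]
      rw [wordOf_xor]
      have := hl g (by simp)
      exact Rep_add (Rep_octad this.1 this.2) h1

open Cfsg.Agent.Lib.Golay Cfsg.Agent.Lib.Compute in
theorem Rep_code {c : Cfsg.GolayPt → ZMod 2} (hc : c ∈ Cfsg.golayCode) : Rep c := by
  obtain ⟨k, -, rfl⟩ := exists_word_of_mem hc
  apply Rep_word
  intro g hg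
  refine ⟨basis_mem g hg, ?_⟩
  revert g
  decide +kernel

/-- Even lattice vectors are in the closure. -/
theorem even_mem {x : Cfsg.GolayPt → ℤ} (hx : Cfsg.Agent.Lib.KnownSimple.Leech.Q x) (h0 : ∀ i, x i % 2 = 0) : x ∈ MM := by
  obtain ⟨ε, c, hε, hc, h1, h2⟩ := hx
  have hε0 : ε = 0 := by
    rcases hε with rfl | rfl
    · rfl
    · exfalso
      have := h1 none
      have h3 := h0 none
      have key : ∀ u : ZMod 2, (u.val : ℤ) = 0 ∨ (u.val : ℤ) = 1 := by decide
      have := key (c none)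
      omega
  subst hε0
  obtain ⟨y, hy, hy1⟩ := Rep_code hc
  -- y has even coordinates, hence sum 0 mod 8
  have hyL := MM_le hy
  rw [Cfsg.Agent.Lib.KnownSimple.Leech.mem_L_iff] at hyL
  obtain ⟨ε', c', hε', hc', h3, h4⟩ := hyL
  have hε'0 : ε' = 0 := by
    rcases hε' with rfl | rfl
    · rfl
    · exfalso
      have h5 := h3 none
      have h6 := hy1 none
      have key : ∀ u : ZMod 2, (u.val : ℤ) = 0 ∨ (u.val : ℤ) = 1 := by decide
      have h7 := key (c none)
      have h8 := key (c' none)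
      omega
  subst hε'0
  have hdiv : ∀ i, (4 : ℤ) ∣ x i - y i := by
    intro i
    have h5 := h1 i
    have h6 := hy1 i
    omega
  choose z hz using hdiv
  have hsum : (∑ i, x i - ∑ i, y i) = 4 * ∑ i, z i := by
    rw [← Finset.sum_sub_distrib, Finset.mul_sum]
    exact Finset.sum_congr rfl fun i _ => hz i
  have hzeven : (∑ i, z i) % 2 = 0 := by
    omega
  have h5 := four_mem z hzeven
  have : x = y + fun i => 4 * z i := by
    funext i
    have := hz i
    simp only [Pi.add_apply]
    linarith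
  rw [this]
  exact add_mem hy h5

/-- The rank-24 lattice is the additive subgroup generated by its 196560 minimal vectors. -/
theorem result : AddSubgroup.closure {x : Cfsg.GolayPt → ℤ | x ∈ Cfsg.leechLattice ∧ Cfsg.sqNorm x = 32} = Cfsg.leechLattice := by
  apply le_antisymm
  · exact MM_le
  · intro x hx
    have hQ := Cfsg.Agent.Lib.KnownSimple.Leech.mem_L_iff.mp hx
    obtain ⟨ε, c, hε, hc, h1, h2⟩ := hQ
    have key : ∀ u : ZMod 2, (u.val : ℤ) = 0 ∨ (u.val : ℤ) = 1 := by decide
    rcases hε with rfl | rfl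
    · exact even_mem ⟨0, c, Or.inl rfl, hc, h1, h2⟩ (fun i => by
        have := h1 i
        have := key (c i)
        omega)
    · -- subtract an odd minimal vector
      set w : Cfsg.GolayPt → ℤ := fun p => if p = none then -3 else 1 with hw
      have hwL : w ∈ Cfsg.leechLattice := by
        apply AddSubgroup.subset_closure
        apply Cfsg.Spor.mem_leechSet_of_const_mod_four _ 1 1 (by decide) <;> decide
      have hwn : Cfsg.sqNorm w = 32 := by decide
      have hwM : w ∈ MM := mem_MM hwL hwn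
      have hd : x - w ∈ Cfsg.leechLattice := sub_mem hx hwL
      have hQ' := Cfsg.Agent.Lib.KnownSimple.Leech.mem_L_iff.mp hd
      have he : x - w ∈ MM := by
        apply even_mem hQ'
        intro i
        have h3 := h1 i
        have h4 := key (c i)
        have h5 : w i % 2 = 1 := by
          simp only [hw]
          split_ifs <;> decide
        simp only [Pi.sub_apply]
        omega
      have : x = (x - w) + w := by abel
      rw [this]
      exact add_mem he hwM


end Cfsg.Agent.S1567
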