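import Cfsg.Statements.S1570
import Mathlib
import Cfsg.Agent.S0391
import Cfsg.Agent.S0393
import Cfsg.Agent.S0394
import Cfsg.Agent.S0395
import Cfsg.Agent.S0396

set_option autoImplicit false
open Cfsg

namespace Cfsg.Agent.S1570


/-- Doubling. -/
def dbl : (Cfsg.GolayPt → ℤ) →+ (Cfsg.GolayPt → ℤ) := nsmulAddMonoidHom 2

theorem dbl_inj : Function.Injective dbl := by
  intro x y h
  funext i
  have := congrFun h i
  simp only [dbl, nsmulAddMonoidHom_apply, Pi.smul_apply, nsmul_eq_mul] at this
  push_cast at this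
  linarith

/-- Reduction modulo 2. -/
def red2 : (Cfsg.GolayPt → ℤ) →+ (Cfsg.GolayPt → ZMod 2) where
  toFun x := fun i => ((x i : ℤ) : ZMod 2)
  map_zero' := by funext i; simp
  map_add' x y := by funext i; simp

theorem ker_red2 : red2.ker = dbl.range := by
  ext x
  constructor
  · intro hx
    have h1 : ∀ i, (2 : ℤ) ∣ x i := fun i => by
      have h2 : red2 x i = 0 := congrFun hx i
      exact (ZMod.intCast_zmod_eq_zero_iff_dvd _ 2).mp h2
    choose z hz using h1
    refine ⟨z, ?_⟩
    funext i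
    simp only [dbl, nsmulAddMonoidHom_apply, Pi.smul_apply, nsmul_eq_mul]
    rw [hz i]
    push_cast
    ring
  · rintro ⟨z, rfl⟩
    rw [AddMonoidHom.mem_ker]
    funext i
    simp only [red2, dbl, nsmulAddMonoidHom_apply, Pi.smul_apply, nsmul_eq_mul, AddMonoidHom.mk'_apply]
    show (((2 : ℕ) * z i : ℤ) : ZMod 2) = 0
    push_cast
    have : (2 : ZMod 2) = 0 := rfl
    rw [this, zero_mul]

theorem red2_surj : Function.Surjective red2 := by
  intro w
  refine ⟨fun i => ((w i).val : ℤ), ?_⟩
  funext i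
  show (((w i).val : ℤ) : ZMod 2) = w i
  simp

theorem index_range : dbl.range.index = 2 ^ 24 := by
  rw [← ker_red2, AddSubgroup.index_ker, AddMonoidHom.range_eq_top.mpr red2_surj]
  simp [Nat.card_eq_fintype_card]

/-- `2 L`. -/
def TT : AddSubgroup (Cfsg.GolayPt → ℤ) := Cfsg.leechLattice.map dbl

theorem TT_le : TT ≤ Cfsg.leechLattice := by
  rintro _ ⟨z, hz, rfl⟩
  simp only [dbl, nsmulAddMonoidHom_apply]
  exact nsmul_mem hz 2

theorem relIndex_TT : TT.relIndex Cfsg.leechLattice = 2 ^ 24 := by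
  have h1 := AddSubgroup.relIndex_mul_index TT_le
  have h2 : TT.index = Cfsg.leechLattice.index * dbl.range.index := by
    rw [TT, AddSubgroup.index_map, (AddMonoidHom.ker_eq_bot_iff dbl).mpr dbl_inj, sup_bot_eq]
  rw [h2, index_range, Cfsg.Agent.S0393.result] at h1
  have h3 : (2 : ℕ) ^ 36 ≠ 0 := by norm_num
  have h4 : TT.relIndex Cfsg.leechLattice * 2 ^ 36 = 2 ^ 24 * 2 ^ 36 := by
    rw [h1]; ring
  exact Nat.eq_of_mul_eq_mul_right (by norm_num) h4

/-- Expansion of norms. -/
theorem sq_add (u v : Cfsg.GolayPt → ℤ) :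
    Cfsg.sqNorm (u + v) + Cfsg.sqNorm (v - u) = 2 * (Cfsg.sqNorm u + Cfsg.sqNorm v) := by
  unfold Cfsg.sqNorm
  rw [← Finset.sum_add_distrib, ← Finset.sum_add_distrib, Finset.mul_sum]
  apply Finset.sum_congr rfl
  intro i _
  simp only [Pi.add_apply, Pi.sub_apply]
  ring

theorem dot_eq (u v : Cfsg.GolayPt → ℤ) :
    Cfsg.dotInt (u + v) (v - u) = Cfsg.sqNorm v - Cfsg.sqNorm u := by
  unfold Cfsg.sqNorm Cfsg.dotInt
  rw [← Finset.sum_sub_distrib]
  apply Finset.sum_congr rfl
  intro i _
  simp only [Pi.add_apply, Pi.sub_apply]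
  ring

/-- Congruent short vectors. -/
theorem cong_short {x y z : Cfsg.GolayPt → ℤ} (hx : x ∈ Cfsg.leechLattice) (hy : y ∈ Cfsg.leechLattice)
    (hz : z ∈ Cfsg.leechLattice) (e : x - y = 2 • z) (h1 : Cfsg.sqNorm x ≤ 64) (h2 : Cfsg.sqNorm y ≤ 64) :
    y = x ∨ y = -x ∨ (Cfsg.sqNorm x = 64 ∧ Cfsg.sqNorm y = 64 ∧ Cfsg.dotInt x y = 0) := by
  set v := z + y with hv
  have hvL : v ∈ Cfsg.leechLattice := add_mem hz hy
  have ex : x = z + v := by
    have : x = 2 • z + y := by rw [← e]; abel
    rw [this, hv, two_nsmul]; abel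
  have ey : y = v - z := by rw [hv]; abel
  by_cases hz0 : z = 0
  · left
    rw [hz0, two_nsmul, add_zero, sub_eq_zero] at e
    exact e.symm
  by_cases hv0 : v = 0
  · right; left
    rw [ex, ey, hv0]
    simp
  right; right
  have h3 := Cfsg.Agent.S0391.result z hz hz0
  have h4 := Cfsg.Agent.S0391.result v hvL hv0
  have h5 := sq_add z v
  rw [← ex, ← ey] at h5
  have h6 := dot_eq z v
  rw [← ex, ← ey] at h6
  refine ⟨by omega, by omega, ?_⟩
  rw [h6]
  omega

/-- Bounded families of orthogonal-or-opposite vectors. -/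
theorem exists_reps (F : Finset (Cfsg.GolayPt → ℤ))
    (hF : ∀ x ∈ F, ∀ y ∈ F, y = x ∨ y = -x ∨ Cfsg.dotInt x y = 0) :
    ∃ R ⊆ F, (∀ x ∈ R, ∀ y ∈ R, y ≠ x → Cfsg.dotInt x y = 0) ∧ ∀ x ∈ F, x ∈ R ∨ -x ∈ R := by
  classical
  induction F using Finset.induction_on with
  | empty => exact ⟨∅, subset_rfl, by simp, by simp⟩
  | insert a F ha ih =>
    obtain ⟨R, hRF, hR, hcov⟩ := ih (fun x hx y hy => hF x (Finset.mem_insert_of_mem hx) y (Finset.mem_insert_of_mem hy))
    by_cases h : a ∈ R ∨ -a ∈ R
    · refine ⟨R, hRF.trans (Finset.subset_insert _ _), hR, ?_⟩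
      intro x hx
      rcases Finset.mem_insert.mp hx with rfl | hx
      · exact h
      · exact hcov x hx
    · push Not at h
      refine ⟨insert a R, Finset.insert_subset_insert _ hRF, ?_, ?_⟩
      · intro x hx y hy hne
        rcases Finset.mem_insert.mp hx with hxa | hxR
        · rcases Finset.mem_insert.mp hy with hya | hyR
          · exact absurd (hya.trans hxa.symm) hne
          · rw [hxa] at hne ⊢
            rcases hF a (Finset.mem_insert_self _ _) y (Finset.mem_insert_of_mem (hRF hyR)) with h1 | h1 | h1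
            · exact absurd h1 hne
            · rw [h1] at hyR
              exact absurd hyR h.2
            · exact h1
        · rcases Finset.mem_insert.mp hy with hya | hyR
          · rw [hya] at hne ⊢
            rcases hF x (Finset.mem_insert_of_mem (hRF hxR)) a (Finset.mem_insert_self _ _) with h1 | h1 | h1
            · exact absurd h1 hne
            · exfalso
              have e : -a = x := by rw [h1]; simp
              rw [← e] at hxR
              exact h.2 hxR
            · exact h1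
          · exact hR x hxR y hyR hne
      · intro x hx
        rcases Finset.mem_insert.mp hx with rfl | hx
        · exact Or.inl (Finset.mem_insert_self _ _)
        · rcases hcov x hx with h1 | h1
          · exact Or.inl (Finset.mem_insert_of_mem h1)
          · exact Or.inr (Finset.mem_insert_of_mem h1)

theorem orth_card (R : Finset (Cfsg.GolayPt → ℤ)) (h0 : ∀ x ∈ R, Cfsg.sqNorm x ≠ 0)
    (hR : ∀ x ∈ R, ∀ y ∈ R, y ≠ x → Cfsg.dotInt x y = 0) : R.card ≤ 24 := by
  classical
  have hli : LinearIndependent ℤ (fun x : R => (x : Cfsg.GolayPt → ℤ)) := by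
    rw [Fintype.linearIndependent_iff]
    intro g hg k
    have h1 : Cfsg.dotInt (∑ i : R, g i • (i : Cfsg.GolayPt → ℤ)) (k : Cfsg.GolayPt → ℤ) = 0 := by
      rw [hg]
      simp [Cfsg.dotInt]
    have h2 : Cfsg.dotInt (∑ i : R, g i • (i : Cfsg.GolayPt → ℤ)) (k : Cfsg.GolayPt → ℤ) =
        ∑ i : R, g i * Cfsg.dotInt (i : Cfsg.GolayPt → ℤ) (k : Cfsg.GolayPt → ℤ) := by
      simp only [Cfsg.dotInt, Finset.sum_apply, Pi.smul_apply, smul_eq_mul, Finset.sum_mul, Finset.mul_sum]
      rw [Finset.sum_comm]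
      refine Finset.sum_congr rfl fun i _ => Finset.sum_congr rfl fun j _ => by ring
    rw [h2, Finset.sum_eq_single k] at h1
    · have h3 : Cfsg.dotInt (k : Cfsg.GolayPt → ℤ) (k : Cfsg.GolayPt → ℤ) = Cfsg.sqNorm (k : Cfsg.GolayPt → ℤ) := by
        simp only [Cfsg.dotInt, Cfsg.sqNorm, pow_two]
      rw [h3] at h1
      exact (mul_eq_zero.mp h1).resolve_right (h0 k k.2)
    · intro b _ hb
      rw [hR b b.2 k k.2 (fun h => hb (Subtype.ext h.symm)), mul_zero]
    · simp
  have := hli.fintype_card_le_finrank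
  simpa [Module.finrank_fintype_fun_eq_card] using this

theorem orth_card48 (F : Finset (Cfsg.GolayPt → ℤ)) (h0 : ∀ x ∈ F, Cfsg.sqNorm x ≠ 0)
    (hF : ∀ x ∈ F, ∀ y ∈ F, y = x ∨ y = -x ∨ Cfsg.dotInt x y = 0) : F.card ≤ 48 := by
  classical
  obtain ⟨R, hRF, hR, hcov⟩ := exists_reps F hF
  have h1 := orth_card R (fun x hx => h0 x (hRF hx)) hR
  have h2 : F ⊆ R ∪ R.image (fun x => -x) := by
    intro x hx
    rcases hcov x hx with h | h
    · exact Finset.mem_union_left _ h
    · exact Finset.mem_union_right _ (Finset.mem_image.mpr ⟨-x, h, by simp⟩)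
  have h3 := Finset.card_le_card h2
  have h4 := Finset.card_union_le R (R.image (fun x => -x))
  have h5 : (R.image (fun x : Cfsg.GolayPt → ℤ => -x)).card ≤ R.card := Finset.card_image_le
  omega

/-- Every congruence class of the lattice modulo twice the lattice contains a vector of customary norm at most 8. -/
theorem result (x : Cfsg.GolayPt → ℤ) (hx : x ∈ Cfsg.leechLattice) : ∃ y ∈ Cfsg.leechLattice, Cfsg.sqNorm y ≤ 64 ∧ ∃ z ∈ Cfsg.leechLattice, x - y = 2 • z := by
  classical
  -- the finite sets of short vectors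
  set A32 : Set (Cfsg.GolayPt → ℤ) := {x | x ∈ Cfsg.leechLattice ∧ Cfsg.sqNorm x = 32} with hA32
  set A48 : Set (Cfsg.GolayPt → ℤ) := {x | x ∈ Cfsg.leechLattice ∧ Cfsg.sqNorm x = 48} with hA48
  set A64 : Set (Cfsg.GolayPt → ℤ) := {x | x ∈ Cfsg.leechLattice ∧ Cfsg.sqNorm x = 64} with hA64
  have c32 : A32.ncard = 196560 := Cfsg.Agent.S0394.result
  have c48 : A48.ncard = 16773120 := Cfsg.Agent.S0395.result
  have c64 : A64.ncard = 398034000 := Cfsg.Agent.S0396.result
  have f32 : A32.Finite := Set.finite_of_ncard_ne_zero (by rw [c32]; norm_num)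
  have f48 : A48.Finite := Set.finite_of_ncard_ne_zero (by rw [c48]; norm_num)
  have f64 : A64.Finite := Set.finite_of_ncard_ne_zero (by rw [c64]; norm_num)
  set B32 := f32.toFinset with hB32
  set B48 := f48.toFinset with hB48
  set B64 := f64.toFinset with hB64
  have n32 : B32.card = 196560 := by rw [hB32, ← Set.ncard_eq_toFinset_card A32 f32, c32]
  have n48 : B48.card = 16773120 := by rw [hB48, ← Set.ncard_eq_toFinset_card A48 f48, c48]
  have n64 : B64.card = 398034000 := by rw [hB64, ← Set.ncard_eq_toFinset_card A64 f64, c64]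
  have m32 : ∀ x, x ∈ B32 ↔ x ∈ Cfsg.leechLattice ∧ Cfsg.sqNorm x = 32 := fun x => f32.mem_toFinset
  have m48 : ∀ x, x ∈ B48 ↔ x ∈ Cfsg.leechLattice ∧ Cfsg.sqNorm x = 48 := fun x => f48.mem_toFinset
  have m64 : ∀ x, x ∈ B64 ↔ x ∈ Cfsg.leechLattice ∧ Cfsg.sqNorm x = 64 := fun x => f64.mem_toFinset
  set U : Finset (Cfsg.GolayPt → ℤ) := insert 0 (B32 ∪ B48 ∪ B64) with hU
  have hsq0 : Cfsg.sqNorm (0 : Cfsg.GolayPt → ℤ) = 0 := by simp [Cfsg.sqNorm]
  have hUL : ∀ x ∈ U, x ∈ Cfsg.leechLattice ∧ Cfsg.sqNorm x ≤ 64 := by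
    intro x hx
    simp only [hU, Finset.mem_insert, Finset.mem_union, m32, m48, m64] at hx
    rcases hx with rfl | (h | h) | h
    · exact ⟨zero_mem _, by rw [hsq0]; norm_num⟩
    · exact ⟨h.1, by rw [h.2]; norm_num⟩
    · exact ⟨h.1, by rw [h.2]; norm_num⟩
    · exact ⟨h.1, by rw [h.2]⟩
  -- weights
  let w : (Cfsg.GolayPt → ℤ) → ℕ := fun x => if x = 0 then 48 else if Cfsg.sqNorm x = 64 then 1 else 24
  have hsumw : ∑ x ∈ U, w x = 48 * 2 ^ 24 := by
    have d1 : Disjoint B32 B48 := by
      rw [Finset.disjoint_left]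
      intro x h1 h2
      have e1 := ((m32 x).mp h1).2
      have e2 := ((m48 x).mp h2).2
      omega
    have d2 : Disjoint (B32 ∪ B48) B64 := by
      rw [Finset.disjoint_left]
      intro x h1 h2
      have e2 := ((m64 x).mp h2).2
      rcases Finset.mem_union.mp h1 with h | h
      · have e1 := ((m32 x).mp h).2
        omega
      · have e1 := ((m48 x).mp h).2
        omega
    have d3 : (0 : Cfsg.GolayPt → ℤ) ∉ B32 ∪ B48 ∪ B64 := by
      intro h
      rcases Finset.mem_union.mp h with h | h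
      · rcases Finset.mem_union.mp h with h | h
        · have e1 := ((m32 _).mp h).2
          rw [hsq0] at e1
          omega
        · have e1 := ((m48 _).mp h).2
          rw [hsq0] at e1
          omega
      · have e1 := ((m64 _).mp h).2
        rw [hsq0] at e1
        omega
    rw [hU, Finset.sum_insert d3, Finset.sum_union d2, Finset.sum_union d1]
    have s32 : ∑ x ∈ B32, w x = 24 * 196560 := by
      rw [Finset.sum_congr rfl (g := fun _ => 24)]
      · simp [n32]
      · intro x hx
        have e1 := ((m32 x).mp hx).2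
        have h0 : x ≠ 0 := by
          rintro rfl
          rw [hsq0] at e1
          omega
        have h64 : Cfsg.sqNorm x ≠ 64 := by omega
        simp [w, h0, h64]
    have s48 : ∑ x ∈ B48, w x = 24 * 16773120 := by
      rw [Finset.sum_congr rfl (g := fun _ => 24)]
      · simp [n48]
      · intro x hx
        have e1 := ((m48 x).mp hx).2
        have h0 : x ≠ 0 := by
          rintro rfl
          rw [hsq0] at e1
          omega
        have h64 : Cfsg.sqNorm x ≠ 64 := by omega
        simp [w, h0, h64]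
    have s64 : ∑ x ∈ B64, w x = 398034000 := by
      rw [Finset.sum_congr rfl (g := fun _ => 1)]
      · simp [n64]
      · intro x hx
        have e1 := ((m64 x).mp hx).2
        have h0 : x ≠ 0 := by
          rintro rfl
          rw [hsq0] at e1
          omega
        simp [w, h0, e1]
    rw [s32, s48, s64]
    simp only [w, if_true]
    norm_num
  -- the quotient
  let N : AddSubgroup ↥Cfsg.leechLattice := TT.addSubgroupOf Cfsg.leechLattice
  have hcardQ : Nat.card (↥Cfsg.leechLattice ⧸ N) = 2 ^ 24 := relIndex_TT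
  haveI : Finite (↥Cfsg.leechLattice ⧸ N) := Nat.finite_of_card_ne_zero (by rw [hcardQ]; norm_num)
  haveI := Fintype.ofFinite (↥Cfsg.leechLattice ⧸ N)
  let φ : (Cfsg.GolayPt → ℤ) → (↥Cfsg.leechLattice ⧸ N) := fun x =>
    if h : x ∈ Cfsg.leechLattice then QuotientAddGroup.mk (⟨x, h⟩ : ↥Cfsg.leechLattice) else 0
  have hφeq : ∀ x y, x ∈ Cfsg.leechLattice → y ∈ Cfsg.leechLattice → φ x = φ y → ∃ z ∈ Cfsg.leechLattice, x - y = 2 • z := by
    intro x y hx hy h
    simp only [φ, dif_pos hx, dif_pos hy] at h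
    have h1 : -(⟨x, hx⟩ : ↥Cfsg.leechLattice) + ⟨y, hy⟩ ∈ N := QuotientAddGroup.eq.mp h
    obtain ⟨z, hz, e⟩ := (show y - x ∈ TT from by
      have : ((-(⟨x, hx⟩ : ↥Cfsg.leechLattice) + ⟨y, hy⟩ : ↥Cfsg.leechLattice) : Cfsg.GolayPt → ℤ) ∈ TT :=
        AddSubgroup.mem_addSubgroupOf.mp h1
      have e : ((-(⟨x, hx⟩ : ↥Cfsg.leechLattice) + ⟨y, hy⟩ : ↥Cfsg.leechLattice) : Cfsg.GolayPt → ℤ) = y - x := by
        simp
        abel
      rwa [e] at this)
    refine ⟨-z, neg_mem hz, ?_⟩
    have e' : 2 • z = y - x := e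
    rw [smul_neg, e']
    abel
  -- fibres have weight at most 48
  have hfib : ∀ q, ∑ x ∈ U.filter (fun x => φ x = q), w x ≤ 48 := by
    intro q
    set F := U.filter (fun x => φ x = q) with hF
    have hFm : ∀ x ∈ F, x ∈ Cfsg.leechLattice ∧ Cfsg.sqNorm x ≤ 64 ∧ φ x = q := by
      intro x hx
      have := Finset.mem_filter.mp hx
      exact ⟨(hUL x this.1).1, (hUL x this.1).2, this.2⟩
    have hpair : ∀ x ∈ F, ∀ y ∈ F, y = x ∨ y = -x ∨ (Cfsg.sqNorm x = 64 ∧ Cfsg.sqNorm y = 64 ∧ Cfsg.dotInt x y = 0) := by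
      intro x hx y hy
      obtain ⟨a1, a2, a3⟩ := hFm x hx
      obtain ⟨b1, b2, b3⟩ := hFm y hy
      obtain ⟨z, hz, e⟩ := hφeq x y a1 b1 (a3.trans b3.symm)
      exact cong_short a1 b1 hz e a2 b2
    by_cases hall : ∃ x ∈ F, Cfsg.sqNorm x ≠ 64
    · obtain ⟨x, hx, hx64⟩ := hall
      have hsub : F ⊆ {x, -x} := by
        intro y hy
        rcases hpair x hx y hy with h | h | h
        · simp [h]
        · simp [h]
        · exact absurd h.1 hx64
      by_cases hx0 : x = 0
      · subst hx0
        have : F = {0} := by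
          apply Finset.eq_singleton_iff_unique_mem.mpr
          refine ⟨hx, fun y hy => ?_⟩
          have := hsub hy
          simpa using this
        rw [this, Finset.sum_singleton]
        simp [w]
      · have hneg0 : -x ≠ 0 := neg_ne_zero.mpr hx0
        have hnegn : Cfsg.sqNorm (-x) = Cfsg.sqNorm x := by simp [Cfsg.sqNorm]
        have hne : x ≠ -x := by
          intro h
          apply hx0
          funext i
          have := congrFun h i
          simp only [Pi.neg_apply] at this
          simp only [Pi.zero_apply]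
          linarith
        calc ∑ y ∈ F, w y ≤ ∑ y ∈ ({x, -x} : Finset _), w y :=
              Finset.sum_le_sum_of_subset hsub
          _ = w x + w (-x) := Finset.sum_pair hne
          _ ≤ 48 := by
            simp [w, hx0, hx64, hnegn]
    · push Not at hall
      have hcard : F.card ≤ 48 := by
        apply orth_card48
        · intro x hx
          rw [hall x hx]
          norm_num
        · intro x hx y hy
          rcases hpair x hx y hy with h | h | h
          · exact Or.inl h
          · exact Or.inr (Or.inl h)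
          · exact Or.inr (Or.inr h.2.2)
      calc ∑ y ∈ F, w y = ∑ y ∈ F, 1 := by
            apply Finset.sum_congr rfl
            intro y hy
            have h64 := hall y hy
            have h0 : y ≠ 0 := by
              rintro rfl
              rw [hsq0] at h64
              omega
            simp [w, h0, h64]
        _ = F.card := by simp
        _ ≤ 48 := hcard
  -- counting
  have himg : U.image φ = Finset.univ := by
    apply Finset.eq_univ_of_card
    apply le_antisymm (Finset.card_le_univ _)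
    have hle : 48 * 2 ^ 24 ≤ 48 * (U.image φ).card := by
      rw [← hsumw, ← Finset.sum_fiberwise_of_maps_to (t := U.image φ) (g := φ) (fun x hx => Finset.mem_image_of_mem φ hx)]
      calc ∑ q ∈ U.image φ, ∑ x ∈ U with φ x = q, w x ≤ ∑ q ∈ U.image φ, 48 :=
            Finset.sum_le_sum fun q _ => hfib q
        _ = 48 * (U.image φ).card := by simp [mul_comm]
    have h2 : 2 ^ 24 ≤ (U.image φ).card := Nat.le_of_mul_le_mul_left hle (by norm_num)
    rw [← Nat.card_eq_fintype_card, hcardQ]
    exact h2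
  have hmem : φ x ∈ U.image φ := by
    rw [himg]
    exact Finset.mem_univ _
  obtain ⟨y, hyU, hy⟩ := Finset.mem_image.mp hmem
  obtain ⟨hyL, hy64⟩ := hUL y hyU
  obtain ⟨z, hz, e⟩ := hφeq x y hx hyL hy.symm
  exact ⟨y, hyL, hy64, z, hz, e⟩


end Cfsg.Agent.S1570
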