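import Cfsg.Statements.S0283
import Mathlib
import Cfsg.Agent.Lib.Classical.UTSimple2

set_option autoImplicit false
open Cfsg

namespace Cfsg.Agent.S0283

open Cfsg.Agent.Lib.Classical Cfsg.Agent.Lib.Classical.UT Module

/-- PSU_n(q) is simple for n at least 3 and (n, q) other than (3, 2). -/
theorem result {F : Type*} [Field F] [Fintype F] {q : ℕ} (hF : Fintype.card F = q ^ 2) (n : ℕ) (hn : 3 ≤ n) (h : ¬ (n = 3 ∧ q = 2)) : IsSimpleGroup (Cfsg.PSU n F q) := by
  have hq := one_lt_q hF
  have hfr : finrank F (Fin n → F) = n := by simp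
  have hcase : 4 ≤ finrank F (Fin n → F) ∨ (3 ≤ finrank F (Fin n → F) ∧ 3 ≤ q) := by
    rw [hfr]
    by_cases h4 : 4 ≤ n
    · exact Or.inl h4
    · right
      refine ⟨hn, ?_⟩
      by_contra hq3
      exact h ⟨by omega, by omega⟩
  have hcase' : finrank F (Fin n → F) ≠ 3 ∨ q ≠ 2 := by
    rcases hcase with h1 | ⟨-, h1⟩
    · left
      omega
    · right
      omega
  have hS := hermB_symm hF n
  have hB := hermB_nondeg hF n
  have hsimple := TG_quot_simple hS hB hcase
  let f : Cfsg.SU n F q →* TG (hermB hF n) :=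
    { toFun := fun g => ⟨fromSU n F q g, (mem_TG_iff hS hB hcase' _).mpr ⟨fromSU_iso hF g, fromSU_det g⟩⟩
      map_one' := Subtype.ext (map_one _)
      map_mul' := fun a b => Subtype.ext (map_mul _ a b) }
  have hf : Function.Bijective f := by
    constructor
    · intro a b hab
      exact fromSU_injective (congrArg Subtype.val hab)
    · rintro ⟨t, ht⟩
      obtain ⟨A, hA⟩ := exists_fromSU hF t (TG_iso hS ht) (TG_det ht)
      exact ⟨A, Subtype.ext hA⟩
  let e := MulEquiv.ofBijective f hf
  have hc : (Subgroup.center (Cfsg.SU n F q)).map e.toMonoidHom = Subgroup.center (TG (hermB hF n)) :=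
    Cfsg.Agent.Lib.Classical.RC.map_center_eq e
  exact (QuotientGroup.congr _ _ e hc).isSimpleGroup

end Cfsg.Agent.S0283
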