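import Cfsg.Statements.S4449
import Mathlib
import Cfsg.Agent.Lib.Coprime.GlauberSol
import Cfsg.Agent.Lib.CharExtra.Ito

set_option autoImplicit false
open Cfsg

namespace Cfsg.Agent.S4449

open Cfsg Cfsg.Agent.Lib.Char Cfsg.Agent.Lib.Coprime in
theorem exists_over_inj {D C : Type*} [Group D] [Group C] [Fintype D] [Fintype C] (k : D →* C)
    (hk : Function.Injective k) (η : IrrCharacter D) :
    ∃ β : IrrCharacter C, classInner (fun d => (β : C → ℂ) (k d)) (η : D → ℂ) ≠ 0 := by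
  classical
  let L : Subgroup C := k.range
  let e : D ≃* L := MonoidHom.ofInjective hk
  have h1 : IsIrrCharacter L ((η : D → ℂ) ∘ e.symm) := isIrr_comp_equiv e.symm η.2
  obtain ⟨β, hβ, hne⟩ := Cfsg.Agent.Lib.CharExtra.exists_irr_over L h1
  refine ⟨⟨β, hβ⟩, ?_⟩
  have h2 : (fun d => β (k d)) = (fun n : L => β n) ∘ e := rfl
  have h3 : (η : D → ℂ) = ((η : D → ℂ) ∘ e.symm) ∘ e := by
    funext d
    simp
  show classInner (fun d => β (k d)) (η : D → ℂ) ≠ 0
  rw [h2, h3, classInner_comp_equiv]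
  exact hne

/-- Inside a finite group Γ let the solvable subgroup S normalise G with the orders of G and S coprime, and let N be a normal subgroup of G normalised by S. Then for every S-invariant irreducible character ϑ of N, the induced character ϑ^G has an S-invariant irreducible constituent. -/
theorem result {Γ : Type*} [Group Γ] [Fintype Γ] (G S N : Subgroup Γ) [Fintype G] [Fintype N] (hnorm : ∀ s ∈ S, ∀ g ∈ G, s * g * s⁻¹ ∈ G) (hNG : N ≤ G) (hNnormal : ∀ g ∈ G, ∀ n ∈ N, g * n * g⁻¹ ∈ N) (hNS : ∀ s ∈ S, ∀ n ∈ N, s * n * s⁻¹ ∈ N) (hcop : (Nat.card G).Coprime (Nat.card S)) (hsolv : Group.IsSolvable S) (θ : Cfsg.IrrCharacter N) (hinv : (∀ s ∈ S, ∀ g g' : N, (g' : Γ) = s * g * s⁻¹ → (θ : N → ℂ) g' = (θ : N → ℂ) g)) : ∃ χ : Cfsg.IrrCharacter G, Cfsg.classInner (fun n : N => (χ : G → ℂ) ⟨n, hNG n.2⟩) (θ : N → ℂ) ≠ 0 ∧ (∀ s ∈ S, ∀ g g' : G, (g' : Γ) = s * g * s⁻¹ → (χ : G → ℂ) g' = (χ : G → ℂ) g) := by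
  classical
  let φ := Cfsg.Agent.Lib.Coprime.conjAct G S hnorm
  let ψ := Cfsg.Agent.Lib.Coprime.conjAct N S hNS
  let C := ↥(Cfsg.Agent.Lib.Coprime.fixSub φ)
  let D := ↥(Cfsg.Agent.Lib.Coprime.fixSub ψ)
  letI : Fintype C := Fintype.ofFinite _
  letI : Fintype D := Fintype.ofFinite _
  let j : C →* G := (Cfsg.Agent.Lib.Coprime.fixSub φ).subtype
  let j' : D →* N := (Cfsg.Agent.Lib.Coprime.fixSub ψ).subtype
  let e : N →* G := Subgroup.inclusion hNG
  have he : ∀ a n, e (ψ a n) = φ a (e n) := fun a n => rfl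
  have hinE : ∀ d : D, e (j' d) ∈ Cfsg.Agent.Lib.Coprime.fixSub φ := by
    intro d a
    rw [← he, show ψ a (j' d) = j' d from d.2 a]
  let k : D →* C := (e.comp j').codRestrict _ hinE
  have hk : Function.Injective k := by
    intro x y h
    have h1 : e (j' x) = e (j' y) := congrArg Subtype.val h
    exact Subtype.ext (Subgroup.inclusion_injective hNG h1)
  have hj : Function.Injective j := Subgroup.subtype_injective _
  have hj' : Function.Injective j' := Subgroup.subtype_injective _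
  have hr : ∀ y, y ∈ j.range ↔ ∀ a, φ a y = y := by
    intro y
    rw [Subgroup.range_subtype]
    exact Iff.rfl
  have hr' : ∀ y, y ∈ j'.range ↔ ∀ a, ψ a y = y := by
    intro y
    rw [Subgroup.range_subtype]
    exact Iff.rfl
  have hcop' : (Nat.card N).Coprime (Nat.card S) :=
    Nat.Coprime.coprime_dvd_left (Subgroup.card_dvd_of_le hNG) hcop
  obtain ⟨f, f', -, -, compat⟩ := Cfsg.Agent.Lib.Coprime.sol_corr _ S G N C D φ ψ j j' e k rfl hsolv hcop hcop' hj hr hj' hr'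
    he (fun d => rfl)
  have hϑ : Cfsg.Agent.Lib.Coprime.IsInv ψ (θ : N → ℂ) := (Cfsg.Agent.Lib.Coprime.isInv_conjAct_iff N S hNS _).mpr hinv
  obtain ⟨β, hβ⟩ := exists_over_inj k hk (f' ⟨θ, hϑ⟩)
  let χ := f.symm β
  have h1 : Cfsg.classInner (fun d => ((f χ : Cfsg.IrrCharacter C) : C → ℂ) (k d)) ((f' ⟨θ, hϑ⟩ : Cfsg.IrrCharacter D) : D → ℂ) ≠ 0 := by
    have h2 : f χ = β := f.apply_symm_apply β
    rw [h2]
    exact hβ
  have h3 := compat χ ⟨θ, hϑ⟩ h1
  exact ⟨χ.1, h3, (Cfsg.Agent.Lib.Coprime.isInv_conjAct_iff G S hnorm _).mp χ.2⟩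

end Cfsg.Agent.S4449
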