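import Cfsg.Statements.S4487
import Mathlib
import Cfsg.Agent.Lib.Core.Basic
import Cfsg.Agent.Lib.Block.Defect
import Cfsg.Agent.Lib.CharExtra.BlockCent

set_option autoImplicit false
open Cfsg
open Cfsg.Agent.Lib.CharExtra Cfsg.Agent.Lib.Block

namespace Cfsg.Agent.S4487

/-- Let G be a finite group and p a prime such that G has no non-trivial normal subgroup of order prime to p and C_G(O_p(G)) ≤ O_p(G). Then G has a single p-block: any two irreducible characters lie in the same block relative to every maximal ideal M of the algebraic integers containing p. -/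
theorem result {G : Type*} [Group G] [Finite G] (p : ℕ) [Fact p.Prime] (M : Ideal Cfsg.AlgInt) (hM : Cfsg.IsPModular p M) (hcore : Cfsg.pPrimeCore p G = ⊥) (hconstr : Subgroup.centralizer ((Cfsg.pCore p G) : Set G) ≤ Cfsg.pCore p G) (χ ψ : Cfsg.IrrCharacter G) : Cfsg.SameBlock M (χ : G → ℂ) (ψ : G → ℂ) := by
  classical
  have := Fintype.ofFinite G
  have := isPModular_isPrime hM
  obtain ⟨B, hBdef⟩ : ∃ B, B = Cfsg.blockOf M (χ : G → ℂ) := ⟨_, rfl⟩
  have hB : Cfsg.IsPBlock M B := hBdef ▸ isPBlock_blockOf χ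
  have hχ : χ ∈ B := hBdef ▸ mem_blockOf_self χ
  haveI hOn : (Cfsg.pCore p G).Normal := Cfsg.Agent.Lib.Core.pCore_normal p G
  have hOp : IsPGroup p (Cfsg.pCore p G) := Cfsg.Agent.Lib.Core.pCore_isPGroup p G
  have hcoef : ∀ g : G, g ≠ 1 → Cfsg.blockCoeff B g = 0 := by
    intro g hg
    by_cases hgC : g ∈ Subgroup.centralizer (Cfsg.pCore p G : Set G)
    · by_contra hne
      have hreg := regular_of_blockCoeff_ne_zero hM (isBlockUnion_of_isPBlock hB) hne
      have h1 := hconstr hgC
      obtain ⟨k, hk⟩ := (IsPGroup.iff_orderOf.mp hOp) ⟨g, h1⟩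
      have h2 : orderOf g = p ^ k := by
        rw [← hk]; exact (Subgroup.orderOf_mk g h1).symm
      rcases k with _ | k
      · rw [pow_zero, orderOf_eq_one_iff] at h2
        exact hg h2
      · exact hreg (h2 ▸ dvd_pow_self p (Nat.succ_ne_zero k))
    · exact blockCoeff_eq_zero_of_notMem_centralizer hM _ hOp hB hgC
  have hE : blockElt B = (Cfsg.blockCoeff B 1) • (1 : MonoidAlgebra ℂ G) := by
    apply ext_coeff
    intro g
    rw [coeff_blockElt]
    by_cases hg : g = 1
    · subst hg
      simp [MonoidAlgebra.one_def, MonoidAlgebra.coeff_single]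
    · rw [hcoef g hg]
      simp [MonoidAlgebra.one_def, MonoidAlgebra.coeff_single, Finsupp.single_apply, Ne.symm hg]
  have h1 := om_blockElt_of_mem hχ
  rw [hE, om_smul, om_one χ.2, mul_one] at h1
  have hψ : ψ ∈ B := by
    by_contra hψ
    have h2 := om_blockElt_of_notMem hψ
    rw [hE, om_smul, om_one ψ.2, mul_one, h1] at h2
    exact one_ne_zero h2
  rw [hBdef] at hψ
  exact hψ

end Cfsg.Agent.S4487
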