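import Cfsg.Statements.S1496
import Cfsg.Agent.Lib.OddChar.DadeBasic

set_option autoImplicit false
open Cfsg

namespace Cfsg.Agent.S1496

/-- Let H be a subgroup of the finite group G and g an element normalising H whose order is coprime to the order of H. Then for every h ∈ H there are x ∈ H and c ∈ H commuting with g such that x * (h * g) * x⁻¹ = c * g. -/
theorem result {G : Type*} [Group G] [Finite G] (H : Subgroup G) (g : G) (hg : g ∈ Subgroup.normalizer (H : Set G)) (hcop : Nat.Coprime (orderOf g) (Nat.card H)) (h : G) (hh : h ∈ H) : ∃ x ∈ H, ∃ c ∈ H, c * g = g * c ∧ x * (h * g) * x⁻¹ = c * g := by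
  classical
  set Γ : Subgroup G := H ⊔ Subgroup.zpowers g with hΓ
  have hHΓ : H ≤ Γ := le_sup_left
  have hgΓ : g ∈ Γ := Subgroup.mem_sup_right (Subgroup.mem_zpowers g)
  have hΓN : Γ ≤ Subgroup.normalizer (H : Set G) := by
    refine sup_le Subgroup.le_normalizer ?_
    rw [Subgroup.zpowers_le]
    exact hg
  haveI hN : (H.subgroupOf Γ).Normal := (Subgroup.normal_subgroupOf_iff_le_normalizer hHΓ).mpr hΓN
  let g' : Γ := ⟨g, hgΓ⟩
  let y' : Γ := ⟨h * g, Γ.mul_mem (hHΓ hh) hgΓ⟩
  have hg'o : orderOf g' = orderOf g := Subgroup.orderOf_mk g hgΓ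
  have hcard : Nat.card ↥(H.subgroupOf Γ) = Nat.card H :=
    Nat.card_congr (Subgroup.subgroupOfEquivOfLe hHΓ).toEquiv
  have htop : H.subgroupOf Γ ⊔ Subgroup.zpowers g' = ⊤ := by
    apply Subgroup.map_injective Γ.subtype_injective
    rw [Subgroup.map_sup, Subgroup.subgroupOf_map_subtype, MonoidHom.map_zpowers]
    have h1 : Γ.subtype g' = g := rfl
    rw [h1, inf_eq_left.mpr hHΓ, ← MonoidHom.range_eq_map, Subgroup.range_subtype]
  obtain ⟨x, hx, c, hc, hcg, hxy⟩ := Cfsg.Agent.Lib.OddChar.exists_conj_mul_of_coset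
    (H.subgroupOf Γ) g' y' htop (by rw [hg'o, hcard]; exact hcop)
    (by
      rw [Subgroup.mem_subgroupOf]
      simpa [y', g'] using hh)
  refine ⟨x, Subgroup.mem_subgroupOf.mp hx, c, Subgroup.mem_subgroupOf.mp hc, ?_, ?_⟩
  · exact congrArg Subtype.val hcg
  · exact congrArg Subtype.val hxy

end Cfsg.Agent.S1496
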