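import Cfsg.Statements.S0292
import Mathlib
import Cfsg.Agent.Lib.Classical.OrthOrder
import Cfsg.Agent.Lib.Classical.OrderForms

set_option autoImplicit false
open Cfsg

namespace Cfsg.Agent.S0292

/-- 2 |PΩ_{2m+1}(q)| = q^(m^2) prod_{i=1}^{m} (q^(2i) - 1), for q odd and m at least 3 (type B_m). -/
theorem result {F : Type*} [Field F] [Fintype F] {q : ℕ} (hF : Fintype.card F = q) (hodd : Odd q) (m : ℕ) (hm : 3 ≤ m) : 2 * Nat.card (Cfsg.POmega F (Cfsg.quadFormOdd m F)) = q ^ (m ^ 2) * ∏ i ∈ Finset.range m, (q ^ (2 * (i + 1)) - 1) := by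
  classical
  subst hF
  open Cfsg.Agent.Lib.Classical.Orth Cfsg.Agent.Lib.Classical.Abs in
  have e : Cfsg.quadFormOdd m F = ⇑(Qodd m F) := funext fun v => (Qodd_apply m v).symm
  have hq2 : Fintype.card F % 2 = 1 := Nat.odd_iff.mp hodd
  have h2 : (2 : F) ≠ 0 := Ring.two_ne_zero (fun h => by
    have := FiniteField.even_card_iff_char_two.mp h
    omega)
  rw [e]
  have hcardι : Fintype.card (Unit ⊕ (Fin m ⊕ Fin m)) = 2 * m + 1 := by
    simp
    omega
  have hQ := Qodd_nondeg h2 m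
  have h1 := (card_POmega_odd (Qodd m F) h2 hQ (by omega)).2
    (negOG_not_mem_of_odd (Qodd m F) h2 hQ (by rw [hcardι]; exact ⟨m, rfl⟩))
  rw [card_isometryGroup' _ (Qodd m F) (fun _ => rfl), Qodd_order h2 m] at h1
  set A := Fintype.card F ^ (m ^ 2) * ∏ i ∈ Finset.range m, (Fintype.card F ^ (2 * (i + 1)) - 1) with hA
  have h3 : 2 * Fintype.card F ^ (m ^ 2) * ∏ i ∈ Finset.range m, (Fintype.card F ^ (2 * (i + 1)) - 1) = 2 * A := by
    rw [hA]
    ring
  rw [h3] at h1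
  omega

end Cfsg.Agent.S0292
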