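import Cfsg.Statements.S0304
import Mathlib
import Cfsg.Agent.Lib.Classical.OddChar2
import Cfsg.Agent.Lib.Classical.OrderQuad
import Cfsg.Agent.Lib.Classical.IsoBridge
import Cfsg.Agent.Lib.Classical.Symplectic

set_option autoImplicit false
open Cfsg

namespace Cfsg.Agent.S0304

/-- In characteristic 2, O_{2m+1}(q) is isomorphic to Sp_{2m}(q). -/
theorem result {F : Type*} [Field F] [Fintype F] [CharP F 2] (m : ℕ) : Nonempty (Cfsg.isometryGroup F (Cfsg.quadFormOdd m F) ≃* Matrix.symplecticGroup (Fin m) F) := by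
  classical
  have h2 : (2 : F) = 0 := by exact_mod_cast CharP.cast_eq_zero F 2
  let Q₀ : (Fin m ⊕ Fin m → F) → F := fun w => ∑ i, w (Sum.inl i) * w (Sum.inr i)
  let θ : (Unit ⊕ (Fin m ⊕ Fin m) → F) ≃ₗ[F] F × (Fin m ⊕ Fin m → F) :=
    { toFun := fun v => (v (Sum.inl ()), fun i => v (Sum.inr i))
      invFun := fun p => Sum.elim (fun _ => p.1) p.2
      map_add' := fun _ _ => rfl
      map_smul' := fun _ _ => rfl
      left_inv := by
        intro v
        funext i
        rcases i with i | i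
        · rfl
        · rfl
      right_inv := fun _ => rfl }
  have hQ : ∀ u v, Q₀ (u + v) = Q₀ u + Q₀ v + Cfsg.Agent.Lib.Classical.sympBilin m F u v := by
    intro u v
    rw [Cfsg.Agent.Lib.Classical.sympBilin_apply, Cfsg.Agent.Lib.Classical.sympForm_apply]
    simp only [Q₀, ← Finset.sum_add_distrib]
    apply Finset.sum_congr rfl
    intro i _
    simp only [Pi.add_apply]
    linear_combination (u (Sum.inl i) * v (Sum.inr i)) * h2
  have hQs : ∀ (c : F) u, Q₀ (c • u) = c ^ 2 * Q₀ u := by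
    intro c u
    simp only [Q₀, Finset.mul_sum]
    apply Finset.sum_congr rfl
    intro i _
    simp only [Pi.smul_apply, smul_eq_mul]
    ring
  have hnd : ∀ z, (∀ w, Cfsg.Agent.Lib.Classical.sympBilin m F z w = 0) → z = 0 := by
    intro z hz
    apply Cfsg.Agent.Lib.Classical.sympForm_eq_zero_iff
    intro u
    rw [Cfsg.Agent.Lib.Classical.sympForm_flip]
    have := hz u
    rw [Cfsg.Agent.Lib.Classical.sympBilin_apply] at this
    rw [this, neg_zero]
  let e1 := Cfsg.Agent.Lib.Classical.Abs.isometryEquiv (Cfsg.quadFormOdd m F)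
  let e2 := Cfsg.Agent.Lib.Classical.Abs.isoGCongr θ (fun u _ => Cfsg.quadFormOdd m F u)
    (fun u _ => Cfsg.Agent.Lib.Classical.Abs.QX Q₀ u) (fun u _ => rfl)
  let e3 := Cfsg.Agent.Lib.Classical.Abs.barEquiv hQ hQs hnd
  let e4 := Cfsg.Agent.Lib.Classical.Abs.glIsoEquiv (ι := Fin m ⊕ Fin m) (Cfsg.sympForm m F)
  let e5 := Cfsg.Agent.Lib.Classical.Abs.spEquivGL m F
  exact ⟨e1.trans (e2.trans (e3.trans (e4.symm.trans e5.symm)))⟩

end Cfsg.Agent.S0304
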