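import Cfsg.Statements.S4470
import Mathlib
import Cfsg.Agent.Lib.Blichfeldt.Unitary

set_option autoImplicit false
open Cfsg

namespace Cfsg.Agent.S4470

/-- Let the finite group G have a faithful character of degree n. Then G has an abelian normal subgroup A such that every abelian subgroup H of G satisfies [H : H ⊓ A] ≤ 12^n. -/
theorem result {G : Type*} [Group G] [Finite G] (χ : G → ℂ) (hχ : Cfsg.IsCharacter G χ) (hfaith : ∀ g : G, χ g = χ 1 → g = 1) (n : ℕ) (hn : Cfsg.charDegree χ = n) : ∃ A : Subgroup G, A.Normal ∧ (∀ x ∈ A, ∀ y ∈ A, x * y = y * x) ∧ ∀ H : Subgroup G, (∀ x ∈ H, ∀ y ∈ H, x * y = y * x) → (A.subgroupOf H).index ≤ 12 ^ n := by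
  obtain ⟨m, ρ, rfl⟩ := hχ
  have hdeg : Cfsg.charDegree ρ.character = m := by
    simp [Cfsg.charDegree, Representation.character]
  have hm : m = n := by rw [← hn, hdeg]
  subst hm
  obtain ⟨A, hA, hcomm, hidx⟩ := Cfsg.Agent.Lib.Blichfeldt.blichfeldt_coord m
    (ρ : G →* Module.End ℂ (Cfsg.Agent.Lib.Blichfeldt.AvgSpace m))
  have hinj : ∀ x y : G, ρ x = ρ y → x = y := by
    intro x y h
    have h1 : ρ (x * y⁻¹) = 1 := by
      rw [map_mul, h, ← map_mul, mul_inv_cancel, map_one]
    have h2 : x * y⁻¹ = 1 := hfaith _ (by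
      simp [Representation.character, h1])
    exact mul_inv_eq_one.mp h2
  refine ⟨A, hA, fun x hx y hy => hinj _ _ ?_, fun H hH => hidx H hH⟩
  rw [map_mul, map_mul]
  exact hcomm x hx y hy

end Cfsg.Agent.S4470
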