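import Cfsg.Statements.S0293
import Mathlib
import Cfsg.Agent.Lib.Classical.OrthOrder
import Cfsg.Agent.Lib.Classical.OrderForms

set_option autoImplicit false
open Cfsg

namespace Cfsg.Agent.S0293

/-- gcd(4, q^m - 1) |PΩ^+_{2m}(q)| = q^(m(m-1)) (q^m - 1) prod_{i=1}^{m-1} (q^(2i) - 1), m at least 4 (type D_m). -/
theorem result {F : Type*} [Field F] [Fintype F] {q : ℕ} (hF : Fintype.card F = q) (m : ℕ) (hm : 4 ≤ m) : Nat.gcd 4 (q ^ m - 1) * Nat.card (Cfsg.POmega F (Cfsg.quadFormPlus m F)) = q ^ (m * (m - 1)) * (q ^ m - 1) * ∏ i ∈ Finset.range (m - 1), (q ^ (2 * (i + 1)) - 1) := by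
  classical
  subst hF
  open Cfsg.Agent.Lib.Classical.Orth Cfsg.Agent.Lib.Classical.Abs in
  have e : Cfsg.quadFormPlus m F = ⇑(Qplus m F) := funext fun v => (Qplus_apply m v).symm
  rw [e]
  obtain ⟨k, rfl⟩ : ∃ k, m = k + 1 := ⟨m - 1, by omega⟩
  simp only [add_tsub_cancel_right]
  set q := Fintype.card F with hq
  have hq1 : 1 < q := Fintype.one_lt_card
  have hcardι : Fintype.card (Fin (k + 1) ⊕ Fin (k + 1)) = 2 * (k + 1) := by
    simp
    omega
  have hQ := Qplus_nondeg (F := F) (k + 1)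
  have hG : Nat.card (Cfsg.isometryGroup F ⇑(Qplus (k + 1) F)) =
      2 * (q ^ ((k + 1) * k) * (q ^ (k + 1) - 1) * ∏ i ∈ Finset.range k, (q ^ (2 * (i + 1)) - 1)) := by
    rw [card_isometryGroup' _ (Qplus (k + 1) F) (fun _ => rfl), Qplus_order k]
    ring
  set A := q ^ ((k + 1) * k) * (q ^ (k + 1) - 1) * ∏ i ∈ Finset.range k, (q ^ (2 * (i + 1)) - 1) with hA
  have hpos : 0 < q ^ (k + 1) := by positivity
  by_cases h2 : (2 : F) = 0
  · have hch : ringChar F = 2 := CharP.ringChar_of_prime_eq_zero Nat.prime_two (by exact_mod_cast h2)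
    have hq2 : q % 2 = 0 := FiniteField.even_card_iff_char_two.mp hch
    have hev : q ^ (k + 1) % 2 = 0 := by
      have : 2 ∣ q ^ (k + 1) := dvd_pow (Nat.dvd_of_mod_eq_zero hq2) (by omega)
      omega
    have h1 := card_POmega_even (Qplus (k + 1) F) h2 hQ (by rw [hcardι]; omega)
    rw [hG] at h1
    have hg : Nat.gcd 4 (q ^ (k + 1) - 1) = 1 := by
      rw [Nat.gcd_rec]
      have h3 : (q ^ (k + 1) - 1) % 4 = 1 ∨ (q ^ (k + 1) - 1) % 4 = 3 := by omega
      rcases h3 with h3 | h3 <;> rw [h3] <;> norm_num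
    rw [hg]
    omega
  · have hq2 : q % 2 = 1 := by
      by_contra hne
      have h5 : q % 2 = 0 := by omega
      have h6 := FiniteField.even_card_iff_char_two.mpr h5
      apply h2
      have h7 := ringChar.Nat.cast_ringChar (R := F)
      rw [h6] at h7
      exact_mod_cast h7
    have hoddq : Odd q := Nat.odd_iff.mpr hq2
    have hN : ∀ c : F, c ≠ 0 → Nat.card {x : Fin (k + 1) ⊕ Fin (k + 1) → F // Qplus (k + 1) F x = c} =
        q ^ k * (q ^ (k + 1) - 1) := by
      intro c hc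
      have h1 := Qplus_level (F := F) k hc
      have h3 : q ^ (2 * k + 1) = q ^ k * q ^ (k + 1) := by ring
      rw [← hq, h3] at h1
      obtain ⟨l, hl⟩ : ∃ l, q ^ (k + 1) = l + 1 := ⟨q ^ (k + 1) - 1, by omega⟩
      rw [hl] at h1 ⊢
      simp only [add_tsub_cancel_right]
      rw [mul_add, mul_one] at h1
      omega
    have hmem := negOG_mem_iff (Qplus (k + 1) F) h2 hQ (by rw [hcardι]; omega) _ hN
    have hcop : Nat.Coprime 4 (q ^ k) := by
      have : Nat.Coprime (2 ^ 2) (q ^ k) := Nat.Coprime.pow_left 2 (Nat.coprime_two_left.mpr hoddq.pow)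
      simpa using this
    rw [Nat.Coprime.dvd_mul_left hcop] at hmem
    have hodd1 : q ^ (k + 1) % 2 = 1 := Nat.odd_iff.mp hoddq.pow
    obtain ⟨h1, h3⟩ := card_POmega_odd (Qplus (k + 1) F) h2 hQ (by rw [hcardι]; omega)
    rw [hG] at h1 h3
    by_cases h4 : 4 ∣ q ^ (k + 1) - 1
    · have h5 := h1 (hmem.mpr h4)
      have hg : Nat.gcd 4 (q ^ (k + 1) - 1) = 4 := Nat.gcd_eq_left h4
      rw [hg]
      omega
    · have h5 := h3 (fun h => h4 (hmem.mp h))
      have hg : Nat.gcd 4 (q ^ (k + 1) - 1) = 2 := by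
        rw [Nat.gcd_rec]
        have h6 : (q ^ (k + 1) - 1) % 4 = 2 := by omega
        rw [h6]
        norm_num
      rw [hg]
      omega

end Cfsg.Agent.S0293
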