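import Cfsg.Statements.S1067
import Mathlib
import Cfsg.Agent.Lib.Tw.OrdD4

set_option autoImplicit false
open Cfsg

namespace Cfsg.Agent.S1067

/-- `|³D₄(q)| = q¹² (q² - 1)(q⁶ - 1)(q⁸ + q⁴ + 1)`, the group being realised inside D₄ over the field with `q³` elements. -/
theorem result {K : Type*} [Field K] [Fintype K] {q : ℕ} (hq : IsPrimePow q) (hK : Fintype.card K = q ^ 3) :
    Nat.card ↥(Cfsg.Lie.twistedD4 K q) = q ^ 12 * (q ^ 2 - 1) * (q ^ 6 - 1) * (q ^ 8 + q ^ 4 + 1) := by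
  obtain ⟨φ, h1, h2, h3, _⟩ := Cfsg.Agent.Lib.Chev.setupD4 hK
  rw [h3]
  exact Cfsg.Agent.Lib.Chev.twOrderD4 φ h1 h2 hK

end Cfsg.Agent.S1067
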