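import Cfsg.Statements.S2587
import Mathlib
import Cfsg.Agent.Lib.UConj.Herm

set_option autoImplicit false
open Cfsg

open Matrix Cfsg.Agent.Lib.UConj Cfsg.Agent.Lib.KS2.IsoCl Cfsg.Agent.Lib.Classical

namespace Cfsg.Agent.S2587


/-- Conjugacy in the finite general unitary group is controlled by the general linear group: two elements of GU_n(q) (the invertible matrices over the field with q² elements preserving the Hermitian form Σ u_i v_i^q) are conjugate in GU_n(q) if and only if they are conjugate in GL_n(q²). -/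
theorem result {K : Type*} [Field K] [Fintype K] {q n : ℕ} (hK : Fintype.card K = q ^ 2) (A B : ↥(Cfsg.GU n K q)) : IsConj A B ↔ IsConj (A : GL (Fin n) K) (B : GL (Fin n) K) := by
  constructor
  · intro h
    obtain ⟨c, hc⟩ := isConj_iff.mp h
    refine isConj_iff.mpr ⟨(c : GL (Fin n) K), ?_⟩
    have := congrArg Subtype.val hc
    simpa using this
  · intro h
    obtain ⟨c, hc⟩ := isConj_iff.mp h
    have hc' : (c : Matrix (Fin n) (Fin n) K) * ((A : GL (Fin n) K) : Matrix (Fin n) (Fin n) K) =
        ((B : GL (Fin n) K) : Matrix (Fin n) (Fin n) K) * (c : Matrix (Fin n) (Fin n) K) := by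
      rw [← hc]
      simp [mul_assoc]
    have hdet : (c : Matrix (Fin n) (Fin n) K).det ≠ 0 := by
      have := (Matrix.isUnit_iff_isUnit_det _).mp c.isUnit
      exact this.ne_zero
    have hA := hAdj_mul_self hK ((A : GL (Fin n) K) : Matrix (Fin n) (Fin n) K) A.2
    have hB := hAdj_mul_self hK ((B : GL (Fin n) K) : Matrix (Fin n) (Fin n) K) B.2
    obtain ⟨d, hd, hdc⟩ := exists_unitary_conj hK _ _ _ hA hB hdet hc'
    have hd' : d * hAdj hK d = 1 := mul_eq_one_comm.mp hd
    let dg : GL (Fin n) K := ⟨d, hAdj hK d, hd', hd⟩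
    have hmem : dg ∈ Cfsg.GU n K q := by
      intro u v
      change Cfsg.hermForm n K q (d *ᵥ u) (d *ᵥ v) = Cfsg.hermForm n K q u v
      rw [herm_adj hK, Matrix.mulVec_mulVec, hd, Matrix.one_mulVec]
    refine isConj_iff.mpr ⟨⟨dg, hmem⟩, ?_⟩
    apply Subtype.ext
    apply Units.ext
    have h1 : d * ((A : GL (Fin n) K) : Matrix (Fin n) (Fin n) K) * hAdj hK d = ((B : GL (Fin n) K) : Matrix (Fin n) (Fin n) K) := by
      rw [hdc, mul_assoc, hd', mul_one]
    exact h1

end Cfsg.Agent.S2587
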