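import Cfsg.Statements.S2588
import Mathlib
import Cfsg.Agent.Lib.UConj.Real

set_option autoImplicit false
open Cfsg

open Matrix Cfsg.Agent.Lib.UConj Cfsg.Agent.Lib.KS2.IsoCl Cfsg.Agent.Lib.Classical

namespace Cfsg.Agent.S2588


/-- An invertible matrix A over the field with q² elements is conjugate in GL_n(q²) to an element of the general unitary group GU_n(q) (isometries of the Hermitian form Σ u_i v_i^q) if and only if A is similar to the inverse transpose of its entrywise q-th power (A ~ A^(−qT), the image of A under the map sending a matrix to the inverse transpose of its entrywise q-th power — inverse transpose composed with the field automorphism — whose fixed points form GU_n(q)). -/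
theorem result {K : Type*} [Field K] [Fintype K] {q n : ℕ} (hK : Fintype.card K = q ^ 2) (A : GL (Fin n) K) : (∃ B : ↥(Cfsg.GU n K q), IsConj A (B : GL (Fin n) K)) ↔ IsConj (A : Matrix (Fin n) (Fin n) K) (((A : Matrix (Fin n) (Fin n) K).map (fun x : K => x ^ q)).transpose)⁻¹ := by
  classical
  have hAadj : ((A : Matrix (Fin n) (Fin n) K).map (fun x : K => x ^ q))ᵀ = hAdj hK (A : Matrix (Fin n) (Fin n) K) := rfl
  rw [hAadj]
  have hAdet : (A : Matrix (Fin n) (Fin n) K).det ≠ 0 :=
    ((Matrix.isUnit_iff_isUnit_det _).mp A.isUnit).ne_zero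
  have hAsdet : (hAdj hK (A : Matrix (Fin n) (Fin n) K)).det ≠ 0 := by
    rw [det_hAdj]
    intro h0
    apply hAdet
    have h1 := congrArg (conjQ hK) h0
    rwa [conjQ_conjQ, map_zero] at h1
  have hAsu : IsUnit (hAdj hK (A : Matrix (Fin n) (Fin n) K)).det := IsUnit.mk0 _ hAsdet
  have hi1 := Matrix.mul_nonsing_inv (hAdj hK (A : Matrix (Fin n) (Fin n) K)) hAsu
  have hi2 := Matrix.nonsing_inv_mul (hAdj hK (A : Matrix (Fin n) (Fin n) K)) hAsu
  constructor
  · rintro ⟨B, hcj⟩
    obtain ⟨c, hc⟩ := isConj_iff.mp hcj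
    have hc' : (c : Matrix (Fin n) (Fin n) K) * (A : Matrix (Fin n) (Fin n) K) =
        ((B : GL (Fin n) K) : Matrix (Fin n) (Fin n) K) * (c : Matrix (Fin n) (Fin n) K) := by
      rw [← hc]
      simp [mul_assoc]
    have hB := hAdj_mul_self hK ((B : GL (Fin n) K) : Matrix (Fin n) (Fin n) K) B.2
    set C : Matrix (Fin n) (Fin n) K := (c : Matrix (Fin n) (Fin n) K) with hC
    have hCdet : C.det ≠ 0 := ((Matrix.isUnit_iff_isUnit_det _).mp c.isUnit).ne_zero
    have hCsdet : (hAdj hK C).det ≠ 0 := by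
      rw [det_hAdj]
      intro h0
      apply hCdet
      have h1 := congrArg (conjQ hK) h0
      rwa [conjQ_conjQ, map_zero] at h1
    have hddet : (hAdj hK C * C).det ≠ 0 := by
      rw [Matrix.det_mul]
      exact mul_ne_zero hCsdet hCdet
    have hdu : IsUnit (hAdj hK C * C) := (Matrix.isUnit_iff_isUnit_det _).mpr (IsUnit.mk0 _ hddet)
    obtain ⟨d, hd⟩ := hdu
    refine ⟨d, ?_⟩
    change (d : Matrix (Fin n) (Fin n) K) * (A : Matrix (Fin n) (Fin n) K) = (hAdj hK (A : Matrix (Fin n) (Fin n) K))⁻¹ * d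
    rw [hd]
    have h1 : hAdj hK (A : Matrix (Fin n) (Fin n) K) * (hAdj hK C * C) * (A : Matrix (Fin n) (Fin n) K) = hAdj hK C * C := by
      calc hAdj hK (A : Matrix (Fin n) (Fin n) K) * (hAdj hK C * C) * (A : Matrix (Fin n) (Fin n) K)
          = hAdj hK (C * (A : Matrix (Fin n) (Fin n) K)) * (C * (A : Matrix (Fin n) (Fin n) K)) := by
            rw [hAdj_mul]
            simp only [mul_assoc]
        _ = hAdj hK (((B : GL (Fin n) K) : Matrix (Fin n) (Fin n) K) * C) * (((B : GL (Fin n) K) : Matrix (Fin n) (Fin n) K) * C) := by rw [hc']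
        _ = hAdj hK C * (hAdj hK ((B : GL (Fin n) K) : Matrix (Fin n) (Fin n) K) * ((B : GL (Fin n) K) : Matrix (Fin n) (Fin n) K)) * C := by
            rw [hAdj_mul]
            simp only [mul_assoc]
        _ = hAdj hK C * C := by rw [hB, mul_one]
    calc hAdj hK C * C * (A : Matrix (Fin n) (Fin n) K)
        = (hAdj hK (A : Matrix (Fin n) (Fin n) K))⁻¹ * (hAdj hK (A : Matrix (Fin n) (Fin n) K) * (hAdj hK C * C) * (A : Matrix (Fin n) (Fin n) K)) := by
          simp only [← mul_assoc]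
          rw [hi2, one_mul]
      _ = _ := by rw [h1]
  · rintro ⟨d, hd⟩
    have hd' : (d : Matrix (Fin n) (Fin n) K) * (A : Matrix (Fin n) (Fin n) K) = (hAdj hK (A : Matrix (Fin n) (Fin n) K))⁻¹ * d := hd.eq
    have hddet : (d : Matrix (Fin n) (Fin n) K).det ≠ 0 := ((Matrix.isUnit_iff_isUnit_det _).mp d.isUnit).ne_zero
    have hform : hAdj hK (A : Matrix (Fin n) (Fin n) K) * (d : Matrix (Fin n) (Fin n) K) * (A : Matrix (Fin n) (Fin n) K) = d := by
      rw [mul_assoc, hd', ← mul_assoc, hi1, one_mul]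
    obtain ⟨x, B, hxdet, hB, hxc⟩ := exists_unitary_of_form hK _ _ hAdet hddet hform
    have hB' : B * hAdj hK B = 1 := mul_eq_one_comm.mp hB
    let Bg : GL (Fin n) K := ⟨B, hAdj hK B, hB', hB⟩
    have hmem : Bg ∈ Cfsg.GU n K q := by
      intro u v
      change Cfsg.hermForm n K q (B *ᵥ u) (B *ᵥ v) = Cfsg.hermForm n K q u v
      rw [herm_adj hK, Matrix.mulVec_mulVec, hB, Matrix.one_mulVec]
    refine ⟨⟨Bg, hmem⟩, ?_⟩
    have hxu : IsUnit x := (Matrix.isUnit_iff_isUnit_det _).mpr (IsUnit.mk0 _ hxdet)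
    obtain ⟨xg, rfl⟩ := hxu
    have hxc' : xg * A = Bg * xg := Units.ext hxc
    apply isConj_iff.mpr
    refine ⟨xg, ?_⟩
    rw [hxc']
    simp

end Cfsg.Agent.S2588
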