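import Cfsg.Statements.S5029
import Mathlib
import Cfsg.Agent.Lib.RootSubgroups.Commutator

set_option autoImplicit false
open Cfsg

open Cfsg.Agent.Lib.RootSubgroups

namespace Cfsg.Agent.S5029


/-- Let S be a set of abstract root subgroups of G, A ∈ S having a rank one partner in S, and B ∈ S with C = ⁅A, B⁆ ∈ S. Then the members of S contained in AC are the conjugates of A by elements of B together with C, they partition AC, the members of S inside AC partition AC so that A is a line partner of C, and for every non-identity a ∈ A the map b ↦ a⁻¹ b⁻¹ a b is an isomorphism from B onto C. -/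
theorem result {G : Type*} [Group G] {S : Set (Subgroup G)} (hS : Cfsg.IsRootSubgroupSet S)
    {A B : Subgroup G} (hA : ¬ Cfsg.IsIsolatedIn (Cfsg.FAdj S) S A) (hAS : A ∈ S) (hB : B ∈ S) (hC : ⁅A, B⁆ ∈ S) :
    Cfsg.membersIn S (A ⊔ ⁅A, B⁆) = (fun b : G => Cfsg.conjBy A b) '' (B : Set G) ∪ {⁅A, B⁆} ∧
    Cfsg.IsSubgroupPartition (A ⊔ ⁅A, B⁆) (Cfsg.membersIn S (A ⊔ ⁅A, B⁆)) ∧
    A ∈ Cfsg.linePartners S ⁅A, B⁆ ∧
    ∀ a ∈ A, a ≠ 1 → ∃ φ : ↥B ≃* ↥⁅A, B⁆, ∀ b : ↥B, (φ b : G) = a⁻¹ * (b : G)⁻¹ * a * b := by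
  obtain ⟨D, hD, h⟩ := exists_partner_of_not_isolated hA hAS
  have hc := commutator_case_of_mem hS hAS hB hC
  set C := ⁅A, B⁆ with hCdef
  have hAC : ∀ a ∈ A, ∀ c ∈ C, a * c = c * a := fun a ha c hc' =>
    (hc.2.1 c hc' a (Subgroup.mem_sup_left ha)).symm
  have hAne : A ≠ C := by
    intro e
    apply hS.ne_bot _ hC
    apply commutator_eq_bot_of_commute
    intro a ha b hb
    have ha' : a ∈ C := by rw [← e]; exact ha
    exact hc.2.1 a ha' b (Subgroup.mem_sup_right hb)
  have hconjle : ∀ b ∈ B, conjBy A b ≤ A ⊔ C := by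
    rintro b hb _ ⟨a, ha, rfl⟩
    have hu : b * a * b⁻¹ * a⁻¹ ∈ C := by
      rw [hCdef, Subgroup.commutator_comm]
      exact Subgroup.commutator_mem_commutator hb ha
    have e : (MulAut.conj b).toMonoidHom a = (b * a * b⁻¹ * a⁻¹) * a := by
      simp [mul_assoc]
    rw [e]
    exact Subgroup.mul_mem _ (Subgroup.mem_sup_right hu) (Subgroup.mem_sup_left ha)
  have hmem : ∀ E, E ∈ S → E ≤ A ⊔ C → E = C ∨ ∃ b ∈ B, E = conjBy A b := by
    intro E hE hle
    by_cases hEC : E ≤ C
    · left; exact eq_commutator_of_le hS hAS hB hD h hc hE hEC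
    · right
      obtain ⟨x, hxE, hxC⟩ := SetLike.not_le_iff_exists.1 hEC
      obtain ⟨a, ha, c, hc', rfl⟩ := mem_sup_of_commute hAC (hle hxE)
      have ha1 : a ≠ 1 := by
        rintro rfl
        apply hxC
        simpa using hc'
      obtain ⟨b, hb, hbe⟩ := exists_conj_eq_mul hc (hS.commutative B hB) ha ha1 hc'
      refine ⟨b⁻¹, B.inv_mem hb, ?_⟩
      have h1 : a * c ∈ conjBy A b⁻¹ := by
        rw [← hbe]
        simpa using conj_mem_conjBy (g := b⁻¹) ha
      have h2 : a * c ≠ 1 := by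
        intro e
        apply hxC
        rw [e]; exact C.one_mem
      exact (eq_of_mem_of_mem hS (hS.conj_mem D hD b⁻¹) (conjBy_pair h b⁻¹) hE h1 hxE h2).symm
  have hset : membersIn S (A ⊔ C) = (fun b : G => conjBy A b) '' (B : Set G) ∪ {C} := by
    ext E
    constructor
    · rintro ⟨hE, hle⟩
      rcases hmem E hE hle with h1 | ⟨b, hb, h1⟩
      · right; exact h1
      · left; exact ⟨b, hb, h1.symm⟩
    · rintro (⟨b, hb, rfl⟩ | h1)
      · exact ⟨hS.conj_mem A hAS b, hconjle b hb⟩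
      · rw [Set.mem_singleton_iff.1 h1]
        exact ⟨hC, le_sup_right⟩
  have hpart : IsSubgroupPartition (A ⊔ C) (membersIn S (A ⊔ C)) := by
    refine ⟨fun E hE => hE.2, ?_, ?_⟩
    · intro x hx hx1
      obtain ⟨a, ha, c, hc', rfl⟩ := mem_sup_of_commute hAC hx
      by_cases ha1 : a = 1
      · subst ha1
        refine ⟨C, ⟨hC, le_sup_right⟩, by simpa using hc'⟩
      · obtain ⟨b, hb, hbe⟩ := exists_conj_eq_mul hc (hS.commutative B hB) ha ha1 hc'
        refine ⟨conjBy A b⁻¹, ⟨hS.conj_mem A hAS _, hconjle _ (B.inv_mem hb)⟩, ?_⟩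
        rw [← hbe]
        simpa using conj_mem_conjBy (g := b⁻¹) ha
    · intro E hE F hF hne
      rcases hmem E hE.1 hE.2 with rfl | ⟨b, hb, rfl⟩
      · rcases hmem F hF.1 hF.2 with rfl | ⟨b, hb, rfl⟩
        · exact absurd rfl hne
        · rw [inf_comm]
          exact (inf_eq_bot_of_partner hS (hS.conj_mem D hD b) (conjBy_pair h b) hC).resolve_right hne.symm
      · exact (inf_eq_bot_of_partner hS (hS.conj_mem D hD b) (conjBy_pair h b) hF.1).resolve_right hne
  refine ⟨hset, hpart, ⟨⟨hAS, hAne, ?_⟩, ?_⟩, ?_⟩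
  · apply commutator_eq_bot_of_commute
    intro c hc' a ha
    exact (hAC a ha c hc').symm
  · rw [sup_comm]; exact hpart
  · intro a ha ha1
    let f := commHom hc (hS.commutative B hB) ha
    have hbij : Function.Bijective f := by
      refine ⟨?_, commHom_surjective hc (hS.commutative B hB) ha ha1⟩
      rw [injective_iff_map_eq_one]
      rintro ⟨b, hb⟩ hf
      by_contra hb1
      have hb1' : b ≠ 1 := fun e => hb1 (Subtype.ext e)
      apply comm_ne_of_partner hS hAS hD h hc ha ha1 hb hb1'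
      have h2 : a⁻¹ * b⁻¹ * a * b = 1 := by
        have := congrArg Subtype.val hf
        rwa [commHom_apply] at this
      have h3 : b⁻¹ * a * b = a := by
        calc b⁻¹ * a * b = a * (a⁻¹ * b⁻¹ * a * b) := by group
          _ = a := by rw [h2]; group
      calc a * b = b * (b⁻¹ * a * b) := by group
        _ = b * a := by rw [h3]
    refine ⟨MulEquiv.ofBijective f hbij, ?_⟩
    intro b
    rfl

end Cfsg.Agent.S5029
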