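import Cfsg.Statements.S1012
import Mathlib
import Cfsg.Agent.Lib.ClassSizes.Basic
import Cfsg.Agent.Lib.SmallSimple.Basic

set_option autoImplicit false
open Cfsg

namespace Cfsg.Agent.S1012

/-- A group of order 24 containing no element of order 6 is isomorphic to the symmetric group of degree 4. -/
theorem result {G : Type*} [Group G] [Finite G] (h : Nat.card G = 24) (h6 : ∀ g : G, orderOf g ≠ 6) : Nonempty (G ≃* Equiv.Perm (Fin 4)) := by
  classical
  haveI : Fact (Nat.Prime 3) := ⟨by norm_num⟩
  haveI : Fact (Nat.Prime 2) := ⟨Nat.prime_two⟩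
  have hcomm : ∀ t x : G, orderOf t = 2 → orderOf x = 3 → t * x = x * t → False := by
    intro t x ht hx hc
    apply h6 (t * x)
    have hc' : Commute t x := hc
    rw [hc'.orderOf_mul_eq_mul_orderOf_of_coprime (by rw [ht, hx]; norm_num), ht, hx]
  have hP3 : ∀ P : Sylow 3 G, Nat.card (P : Subgroup G) = 3 := fun P =>
    Lib.SmallSimple.card_sylow_of_exact 8 (by norm_num) (by rw [h]) P
  have hnum : Nat.card (Sylow 3 G) = 1 ∨ Nat.card (Sylow 3 G) = 4 := by
    obtain ⟨P⟩ : Nonempty (Sylow 3 G) := inferInstance
    have h1 : Nat.card (Sylow 3 G) ∣ (P : Subgroup G).index := P.card_dvd_index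
    have h2 : (P : Subgroup G).index = 8 := by
      have := (P : Subgroup G).card_mul_index
      rw [hP3, h] at this
      omega
    rw [h2] at h1
    have h3 : Nat.card (Sylow 3 G) ≡ 1 [MOD 3] := card_sylow_modEq_one 3 G
    have h4 := Nat.le_of_dvd (by norm_num) h1
    have h5 : 0 < Nat.card (Sylow 3 G) := Nat.card_pos
    unfold Nat.ModEq at h3
    generalize Nat.card (Sylow 3 G) = n at *
    interval_cases n <;> simp_all
  -- elements of `P` of order 3
  have hord : ∀ (P : Sylow 3 G) (y : G), y ∈ (P : Subgroup G) → y ≠ 1 → orderOf y = 3 := by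
    intro P y hy hy1
    have h1 : orderOf (⟨y, hy⟩ : (P : Subgroup G)) ∣ 3 := (orderOf_dvd_natCard _).trans (dvd_of_eq (hP3 P))
    rw [Subgroup.orderOf_mk] at h1
    rcases (Nat.dvd_prime (by norm_num : Nat.Prime 3)).mp h1 with h2 | h2
    · exact absurd (orderOf_eq_one_iff.mp h2) hy1
    · exact h2
  have hex : ∀ P : Sylow 3 G, ∃ x ∈ (P : Subgroup G), orderOf x = 3 := by
    intro P
    obtain ⟨x, hx⟩ := exists_prime_orderOf_dvd_card' (G := (P : Subgroup G)) 3 (dvd_of_eq (hP3 P).symm)
    refine ⟨x.1, x.2, ?_⟩
    rw [Subgroup.orderOf_coe]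
    exact hx
  rcases hnum with hn1 | hn4
  · -- normal Sylow
    exfalso
    obtain ⟨P⟩ : Nonempty (Sylow 3 G) := inferInstance
    haveI : Subsingleton (Sylow 3 G) := by
      rw [Nat.card_eq_one_iff_unique] at hn1
      exact hn1.1
    have hnormal : (P : Subgroup G).Normal := Sylow.normal_of_subsingleton P
    obtain ⟨x, hxP, hxo⟩ := hex P
    have hx1 : x ≠ 1 := by
      rintro rfl
      rw [orderOf_one] at hxo
      omega
    have hidx : (Subgroup.centralizer ({x} : Set G)).index ≤ 2 := by
      rw [← Lib.ClassSizes.card_isConj_eq_index]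
      let f : {y : G // IsConj x y} → {u : (P : Subgroup G) // u ≠ 1} := fun y =>
        ⟨⟨y.1, by
          obtain ⟨c, hc⟩ := isConj_iff.mp y.2
          rw [← hc]
          exact hnormal.conj_mem x hxP c⟩, by
          intro h0
          have h01 : y.1 = 1 := congrArg Subtype.val h0
          have := y.2
          rw [h01] at this
          exact hx1 (isConj_one_right.mp this.symm)⟩
      have hf : Function.Injective f := by
        intro a b hab
        apply Subtype.ext
        exact congrArg (fun z : {u : (P : Subgroup G) // u ≠ 1} => (z.1 : G)) hab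
      have h2 := Nat.card_le_card_of_injective f hf
      have h3 : Nat.card {u : (P : Subgroup G) // u ≠ 1} = 2 := by
        have hF : Fintype (P : Subgroup G) := Fintype.ofFinite _
        rw [Nat.card_eq_fintype_card, Fintype.card_subtype_compl, Fintype.card_subtype_eq,
          ← Nat.card_eq_fintype_card, hP3]
      omega
    have hmul := (Subgroup.centralizer ({x} : Set G)).card_mul_index
    have h2dvd : 2 ∣ Nat.card (Subgroup.centralizer ({x} : Set G)) := by
      rw [h] at hmul
      have h0 : (Subgroup.centralizer ({x} : Set G)).index ≠ 0 := by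
        intro h0
        rw [h0] at hmul
        omega
      generalize (Subgroup.centralizer ({x} : Set G)).index = i at *
      interval_cases i <;> omega
    obtain ⟨t, ht⟩ := exists_prime_orderOf_dvd_card' (G := Subgroup.centralizer ({x} : Set G)) 2 h2dvd
    apply hcomm t.1 x (by rw [Subgroup.orderOf_coe]; exact ht) hxo
    have := t.2
    rw [Subgroup.mem_centralizer_singleton_iff] at this
    exact this
  · -- four Sylow subgroups: the action is faithful
    let φ : G →* Equiv.Perm (Sylow 3 G) := MulAction.toPermHom G (Sylow 3 G)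
    have hnorm : ∀ (g : G) (S : Sylow 3 G), g • S = S ↔ g ∈ Subgroup.normalizer ((S : Subgroup G) : Set G) :=
      fun g S => Sylow.smul_eq_iff_mem_normalizer
    have hker : ∀ g : G, g ∈ φ.ker ↔ ∀ S : Sylow 3 G, g • S = S := by
      intro g
      rw [MonoidHom.mem_ker]
      constructor
      · intro h1 S
        have := congrArg (fun f : Equiv.Perm (Sylow 3 G) => f S) h1
        exact this
      · intro h1
        ext S : 1
        exact h1 S
    have hNcard : ∀ P : Sylow 3 G, Nat.card (Subgroup.normalizer ((P : Subgroup G) : Set G)) = 6 := by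
      intro P
      have h1 : Nat.card (Sylow 3 G) = (Subgroup.normalizer ((P : Subgroup G) : Set G)).index :=
        P.card_eq_index_normalizer
      have h2 := (Subgroup.normalizer ((P : Subgroup G) : Set G)).card_mul_index
      rw [← h1, hn4, h] at h2
      omega
    have hinj : Function.Injective φ := by
      rw [injective_iff_map_eq_one]
      by_contra hne
      push Not at hne
      obtain ⟨g0, hg0, hg01⟩ := hne
      have hKbot : Nat.card φ.ker ≠ 1 := by
        intro h1
        have := Subgroup.eq_bot_of_card_eq _ h1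
        apply hg01
        have hm : g0 ∈ φ.ker := hg0
        rw [this] at hm
        exact hm
      obtain ⟨P⟩ : Nonempty (Sylow 3 G) := inferInstance
      have hKP : φ.ker ≤ Subgroup.normalizer ((P : Subgroup G) : Set G) := by
        intro g hg
        exact (hnorm g P).mp ((hker g).mp hg P)
      have hdvd6 : Nat.card φ.ker ∣ 6 := by
        have := Subgroup.card_dvd_of_le hKP
        rwa [hNcard] at this
      have hno3 : ¬ 3 ∣ Nat.card φ.ker := by
        intro h3
        obtain ⟨y, hy⟩ := exists_prime_orderOf_dvd_card' (G := φ.ker) 3 h3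
        have hyo : orderOf (y.1 : G) = 3 := by rw [Subgroup.orderOf_coe]; exact hy
        have hyS : ∀ S : Sylow 3 G, y.1 ∈ (S : Subgroup G) := by
          intro S
          have hpg : IsPGroup 3 (Subgroup.zpowers y.1) := by
            apply IsPGroup.of_card (n := 1)
            rw [Nat.card_zpowers, pow_one, hyo]
          have h5 : Subgroup.zpowers y.1 ⊓ Subgroup.normalizer ((S : Subgroup G) : Set G) =
              Subgroup.zpowers y.1 ⊓ (S : Subgroup G) := IsPGroup.inf_normalizer_sylow hpg S
          have h6 : y.1 ∈ Subgroup.zpowers y.1 ⊓ Subgroup.normalizer ((S : Subgroup G) : Set G) :=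
            ⟨Subgroup.mem_zpowers _, (hnorm _ S).mp ((hker _).mp y.2 S)⟩
          rw [h5] at h6
          exact h6.2
        have hS : ∀ S : Sylow 3 G, (S : Subgroup G) = Subgroup.zpowers y.1 := by
          intro S
          symm
          apply Subgroup.eq_of_le_of_card_ge
          · rw [Subgroup.zpowers_le]; exact hyS S
          · rw [Nat.card_zpowers, hyo, hP3]
        have : Subsingleton (Sylow 3 G) := ⟨fun A B => Sylow.ext ((hS A).trans (hS B).symm)⟩
        have h1 : Nat.card (Sylow 3 G) = 1 := Nat.card_unique
        omega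
      have hK2 : Nat.card φ.ker = 2 := by
        have h4 := Nat.le_of_dvd (by norm_num) hdvd6
        generalize Nat.card φ.ker = k at *
        interval_cases k <;> omega
      obtain ⟨t, ht⟩ := exists_prime_orderOf_dvd_card' (G := φ.ker) 2 (dvd_of_eq hK2.symm)
      obtain ⟨x, hxP, hxo⟩ := hex P
      apply hcomm t.1 x (by rw [Subgroup.orderOf_coe]; exact ht) hxo
      have huniq := (Nat.card_eq_two_iff' (1 : φ.ker)).mp hK2
      have hNormal : φ.ker.Normal := MonoidHom.normal_ker φ
      let u : φ.ker := ⟨x * t.1 * x⁻¹, hNormal.conj_mem _ t.2 x⟩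
      have ht1 : t ≠ 1 := by
        intro h0
        rw [h0, orderOf_one] at ht
        omega
      have hu1 : u ≠ 1 := by
        intro h0
        have h01 : x * t.1 * x⁻¹ = 1 := congrArg Subtype.val h0
        apply ht1
        apply Subtype.ext
        have : t.1 = x⁻¹ * (x * t.1 * x⁻¹) * x := by group
        rw [this, h01]
        simp
      have hut : u = t := huniq.unique hu1 ht1
      have h7 : x * t.1 * x⁻¹ = t.1 := congrArg Subtype.val hut
      have h8 : x * t.1 = t.1 * x := by
        calc x * t.1 = (x * t.1 * x⁻¹) * x := by group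
          _ = t.1 * x := by rw [h7]
      exact h8.symm
    have hbij : Function.Bijective φ := by
      rw [Nat.bijective_iff_injective_and_card]
      refine ⟨hinj, ?_⟩
      rw [Nat.card_perm, h, hn4]
      rfl
    let e : Sylow 3 G ≃ Fin 4 := Finite.equivFinOfCardEq hn4
    exact ⟨(MulEquiv.ofBijective φ hbij).trans (Equiv.permCongrHom e)⟩

end Cfsg.Agent.S1012
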