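import Cfsg.Statements.S0001
import Mathlib
import Cfsg.Agent.Lib.Hall.SZConj

set_option autoImplicit false
open Pointwise
open Cfsg

namespace Cfsg.Agent.S0001

/-- Conjugacy half of the Schur–Zassenhaus Theorem, under a solvability assumption on the normal Hall subgroup or on its quotient. -/
theorem result {G : Type*} [Group G] [Finite G] (N : Subgroup G) [N.Normal]
    (hN : (Nat.card N).Coprime N.index) (hsolv : Group.IsSolvable N ∨ Group.IsSolvable (G ⧸ N))
    (H K : Subgroup G) (hH : Subgroup.IsComplement' N H) (hK : Subgroup.IsComplement' N K) :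
    ∃ g : G, MulAut.conj g • H = K := by
  obtain ⟨n, -, hn⟩ := Cfsg.Agent.Lib.Hall.exists_mem_conj_of_isComplement' N hN hsolv H K hH hK
  exact ⟨n, hn⟩

end Cfsg.Agent.S0001
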