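import Cfsg.Statements.S0007
import Mathlib

set_option autoImplicit false
open Cfsg

namespace Cfsg.Agent.S0007

/-- Subgroups of coprime index: the intersection has index equal to the product of the indices, and every element is a product of an element of the first subgroup and an element of the second. -/
theorem result {G : Type*} [Group G] [Finite G] (H K : Subgroup G)
    (h : H.index.Coprime K.index) :
    (H ⊓ K).index = H.index * K.index ∧ ∀ g : G, ∃ x ∈ H, ∃ y ∈ K, g = x * y := by
  have h1 : (H ⊓ K).index = H.index * K.index := by
    apply Nat.le_antisymm Subgroup.index_inf_le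
    apply Nat.le_of_dvd (Nat.pos_of_ne_zero Subgroup.index_ne_zero_of_finite)
    exact Nat.Coprime.mul_dvd_of_dvd_of_dvd h (Subgroup.index_dvd_of_le inf_le_left)
      (Subgroup.index_dvd_of_le inf_le_right)
  refine ⟨h1, ?_⟩
  classical
  have := Fintype.ofFinite G
  -- the map H → G/K is surjective by counting
  let f : H → G ⧸ K := fun x => QuotientGroup.mk (x : G)
  have hcard : K.index ≤ Nat.card (Set.range f) := by
    have hfib : (H ⊓ K).relIndex H = K.index := by
      have := Subgroup.relIndex_mul_index (inf_le_left : H ⊓ K ≤ H)
      rw [h1] at this
      have hpos : 0 < H.index := Nat.pos_of_ne_zero Subgroup.index_ne_zero_of_finite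
      exact Nat.eq_of_mul_eq_mul_right hpos (by rw [this, mul_comm])
    rw [← hfib]
    have : (H ⊓ K).relIndex H = (K.subgroupOf H).index := by
      rw [Subgroup.relIndex, Subgroup.inf_subgroupOf_left]
    rw [this]
    -- H ⧸ (K.subgroupOf H) injects into G ⧸ K with image range f
    let e : H ⧸ K.subgroupOf H → Set.range f := fun q =>
      Quotient.liftOn' q (fun x => ⟨f x, x, rfl⟩) (by
        intro a b hab
        apply Subtype.ext
        simp only [f]
        rw [QuotientGroup.eq]
        have := QuotientGroup.leftRel_apply.mp hab
        simpa [Subgroup.mem_subgroupOf] using this)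
    have he : Function.Injective e := by
      intro a b
      refine Quotient.inductionOn₂' a b ?_
      intro a b hab
      have hab' : f a = f b := congrArg Subtype.val hab
      apply Quotient.sound'
      rw [QuotientGroup.leftRel_apply]
      simp only [f] at hab'
      rw [QuotientGroup.eq] at hab'
      simpa [Subgroup.mem_subgroupOf] using hab'
    exact Nat.card_le_card_of_injective e he
  have hsurj : Function.Surjective f := by
    have hs : Set.range f = Set.univ := by
      apply Set.eq_of_subset_of_ncard_le (Set.subset_univ _)
      rw [Set.ncard_univ]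
      rw [Set.ncard_eq_toFinset_card', ← Nat.card_eq_card_toFinset] 
      exact hcard
    exact Set.range_eq_univ.mp hs
  intro g
  obtain ⟨x, hx⟩ := hsurj (QuotientGroup.mk g)
  have : (x : G)⁻¹ * g ∈ K := QuotientGroup.eq.mp hx
  exact ⟨x, x.2, (x : G)⁻¹ * g, this, by group⟩

end Cfsg.Agent.S0007
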