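import Cfsg.Statements.S0044
import Mathlib
import Cfsg.Agent.Lib.Geo.PrimSolvable

set_option autoImplicit false

namespace Cfsg.Agent.S0044

theorem result {G : Type*} [Group G] [Finite G] [Group.IsSolvable G] :
    Subgroup.centralizer (Cfsg.fittingSubgroup G : Set G) ≤ Cfsg.fittingSubgroup G :=
  Cfsg.Agent.Lib.Geo.centralizer_fitting_le_of_solvable

end Cfsg.Agent.S0044
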