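import Cfsg.Statements.S0053
import Mathlib
import Cfsg.Agent.Lib.Core.MinNormal

set_option autoImplicit false
open Cfsg

namespace Cfsg.Agent.S0053

/-- An abelian minimal normal subgroup N of a finite group is complemented exactly when N is not inside the Frattini subgroup. -/
theorem result {G : Type*} [Group G] [Finite G]
    (N : Subgroup G) [N.Normal] [IsMulCommutative N] (hN : N ≠ ⊥)
    (hmin : ∀ M : Subgroup G, M.Normal → M ≤ N → M = ⊥ ∨ M = N) :
    (∃ H : Subgroup G, Subgroup.IsComplement' N H) ↔ ¬ N ≤ frattini G := by
  exact Cfsg.Agent.Lib.Core.exists_complement_iff_not_le_frattini N inferInstance hN hmin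

end Cfsg.Agent.S0053
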