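import Cfsg.Statements.S0054
import Mathlib

set_option autoImplicit false
open Cfsg

namespace Cfsg.Agent.S0054

/-- A regular normal subgroup of a finite 2-transitive group is elementary abelian: it is commutative and all its elements have order dividing one prime. -/
theorem result {G : Type*} [Group G] [Finite G]
    {X : Type*} [Nonempty X] [MulAction G X] (h2 : MulAction.IsMultiplyPretransitive G X 2)
    (N : Subgroup G) [N.Normal] (htrans : MulAction.IsPretransitive N X) (hreg : ∀ x : X, MulAction.stabilizer N x = ⊥) :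
    IsMulCommutative N ∧ ∃ p : ℕ, p.Prime ∧ ∀ n ∈ N, n ^ p = 1 := by
  classical
  obtain ⟨x₀⟩ := ‹Nonempty X›
  have hfix : ∀ n ∈ N, n • x₀ = x₀ → n = 1 := by
    intro n hn hnx
    have h1 : (⟨n, hn⟩ : N) ∈ MulAction.stabilizer N x₀ := by
      rw [MulAction.mem_stabilizer_iff]
      exact hnx
    rw [hreg x₀, Subgroup.mem_bot] at h1
    exact congrArg Subtype.val h1
  have key : ∀ n₁ ∈ N, ∀ n₂ ∈ N, n₁ ≠ 1 → n₂ ≠ 1 → ∃ g : G, g * n₁ * g⁻¹ = n₂ := by
    intro n₁ hn₁ n₂ hn₂ hne1 hne2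
    have h3 : x₀ ≠ n₁ • x₀ := fun h => hne1 (hfix n₁ hn₁ h.symm)
    have h4 : x₀ ≠ n₂ • x₀ := fun h => hne2 (hfix n₂ hn₂ h.symm)
    obtain ⟨g, hg1, hg2⟩ := MulAction.is_two_pretransitive_iff.mp h2 h3 h4
    refine ⟨g, ?_⟩
    have hm : g * n₁ * g⁻¹ ∈ N := ‹N.Normal›.conj_mem n₁ hn₁ g
    have hg3 : g⁻¹ • x₀ = x₀ := by
      rw [inv_smul_eq_iff]
      exact hg1.symm
    have h5 : (n₂⁻¹ * (g * n₁ * g⁻¹)) • x₀ = x₀ := by
      rw [mul_smul, mul_smul, mul_smul, hg3, hg2, inv_smul_smul]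
    have h6 := hfix _ (N.mul_mem (N.inv_mem hn₂) hm) h5
    exact (inv_mul_eq_one.mp h6).symm
  by_cases hN : ∃ n ∈ N, n ≠ 1
  · obtain ⟨n₀, hn₀, hn₀1⟩ := hN
    have ho : orderOf n₀ ≠ 1 := fun h => hn₀1 (orderOf_eq_one_iff.mp h)
    let p := (orderOf n₀).minFac
    have hp : p.Prime := Nat.minFac_prime ho
    have hpd : p ∣ orderOf n₀ := Nat.minFac_dvd _
    let w := n₀ ^ (orderOf n₀ / p)
    have hw : orderOf w = p := orderOf_pow_orderOf_div (orderOf_pos n₀).ne' hpd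
    have hwN : w ∈ N := N.pow_mem hn₀ _
    have hw1 : w ≠ 1 := by
      intro h
      rw [h, orderOf_one] at hw
      exact hp.one_lt.ne hw
    have hpow : ∀ n ∈ N, n ^ p = 1 := by
      intro n hn
      by_cases hn1 : n = 1
      · rw [hn1, one_pow]
      · obtain ⟨g, rfl⟩ := key w hwN n hn hw1 hn1
        rw [conj_pow, ← hw, pow_orderOf_eq_one]
        group
    have hpf : Fact p.Prime := ⟨hp⟩
    have hNp : IsPGroup p N := by
      intro n
      refine ⟨1, ?_⟩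
      apply Subtype.ext
      simpa using hpow n n.2
    have hnt : Nontrivial N := ⟨⟨⟨n₀, hn₀⟩, 1, fun h => hn₀1 (congrArg Subtype.val h)⟩⟩
    have hcn := hNp.center_nontrivial
    obtain ⟨z, hz⟩ := exists_ne (1 : Subgroup.center N)
    have hz1 : ((z : N) : G) ≠ 1 := by
      intro h
      apply hz
      exact Subtype.ext (Subtype.ext h)
    refine ⟨⟨⟨?_⟩⟩, p, hp, hpow⟩
    rintro ⟨a, ha⟩ ⟨b, hb⟩
    apply Subtype.ext
    change a * b = b * a
    by_cases ha1 : a = 1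
    · rw [ha1, one_mul, mul_one]
    obtain ⟨g, rfl⟩ := key _ (z : N).2 a ha hz1 ha1
    have h1 : g⁻¹ * b * g ∈ N := by
      have := ‹N.Normal›.conj_mem b hb g⁻¹
      simpa using this
    have h2 := Subgroup.mem_center_iff.mp z.2 ⟨_, h1⟩
    have h3 : (g⁻¹ * b * g) * ((z : N) : G) = ((z : N) : G) * (g⁻¹ * b * g) := congrArg Subtype.val h2
    calc g * ((z : N) : G) * g⁻¹ * b = g * (((z : N) : G) * (g⁻¹ * b * g)) * g⁻¹ := by group
      _ = g * ((g⁻¹ * b * g) * ((z : N) : G)) * g⁻¹ := by rw [h3]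
      _ = b * (g * ((z : N) : G) * g⁻¹) := by group
  · push_neg at hN
    refine ⟨⟨⟨?_⟩⟩, 2, Nat.prime_two, fun n hn => by rw [hN n hn, one_pow]⟩
    rintro ⟨a, ha⟩ ⟨b, hb⟩
    apply Subtype.ext
    change a * b = b * a
    rw [hN a ha, hN b hb]

end Cfsg.Agent.S0054
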