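import Cfsg.Statements.S0058
import Mathlib
import Cfsg.Agent.Lib.Hall.Generation

set_option autoImplicit false
open Cfsg

namespace Cfsg.Agent.S0058

/-- Generation by centralisers: when a noncyclic abelian group A normalises K with coprime orders, K is generated by the fixed-point subgroups of the nonidentity elements of A. -/
theorem result {G : Type*} [Group G] [Finite G] (A K : Subgroup G)
    [IsMulCommutative A] (hA : ¬ IsCyclic A) (hAK : A ≤ Subgroup.normalizer (K : Set G)) (hcop : (Nat.card A).Coprime (Nat.card K)) :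
    (⨆ a ∈ {a : G | a ∈ A ∧ a ≠ 1}, K ⊓ Subgroup.centralizer {a}) = K := by
  obtain ⟨p, hp, E, hEA, hcard, hexp⟩ := Cfsg.Agent.Lib.Hall.exists_elementary_subgroup A hA
  have hpd : p ∣ Nat.card A := by
    have h1 : p ∣ Nat.card E := by
      rw [hcard]
      exact dvd_pow_self p (by norm_num)
    exact h1.trans (Subgroup.card_dvd_of_le hEA)
  have hcopK : p.Coprime (Nat.card K) := Nat.Coprime.coprime_dvd_left hpd hcop
  have h := Cfsg.Agent.Lib.Hall.generation_elementary hp hcard hexp (Nat.card K) K le_rfl (hEA.trans hAK) hcopK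
  apply le_antisymm (iSup₂_le fun _ _ => inf_le_left)
  conv_lhs => rw [← h]
  apply iSup₂_le
  rintro a ⟨ha, ha1⟩
  exact le_iSup₂_of_le (f := fun a (_ : a ∈ {a : G | a ∈ A ∧ a ≠ 1}) => K ⊓ Subgroup.centralizer ({a} : Set G))
    a ⟨hEA ha, ha1⟩ le_rfl

end Cfsg.Agent.S0058
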