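import Cfsg.Statements.S0059
import Mathlib
import Cfsg.Agent.Lib.Hall.CoprimeAction

set_option autoImplicit false
open Cfsg

namespace Cfsg.Agent.S0059

/-- Let a finite group act on a set on which a normal subgroup K of coprime order and index is transitive, with K or the quotient solvable. Then any complement H of K has a fixed point, and any two H-fixed points are interchanged by an element of K centralising H. -/
theorem result {G : Type*} [Group G] [Finite G] {X : Type*} [Nonempty X] [MulAction G X]
    (K H : Subgroup G) [K.Normal] (hc : Subgroup.IsComplement' K H) (hcop : (Nat.card K).Coprime K.index)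
    (hsolv : Group.IsSolvable K ∨ Group.IsSolvable (G ⧸ K)) (htrans : MulAction.IsPretransitive K X) :
    (∃ x : X, ∀ h ∈ H, h • x = x) ∧
    ∀ x y : X, (∀ h ∈ H, h • x = x) → (∀ h ∈ H, h • y = y) → ∃ k ∈ K ⊓ Subgroup.centralizer (H : Set G), k • x = y := by
  have hHK : H ≤ Subgroup.normalizer (K : Set G) := by
    rw [Subgroup.normalizer_eq_top_iff.mpr ‹K.Normal›]
    exact le_top
  have hcard : Nat.card H = K.index := by
    have h1 := hc.card_mul_card
    have h2 := K.card_mul_index
    have h3 : 0 < Nat.card K := Nat.card_pos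
    exact Nat.eq_of_mul_eq_mul_left h3 (h1.trans h2.symm)
  have hcop' : (Nat.card H).Coprime (Nat.card K) := by
    rw [hcard]
    exact hcop.symm
  have hsolv' : Group.IsSolvable H ∨ Group.IsSolvable K := by
    rcases hsolv with h | h
    · exact Or.inr h
    · left
      let f : G ⧸ K ≃* H := hc.symm.QuotientMulEquiv
      exact Group.isSolvable_of_surjective (f := f.toMonoidHom) f.surjective
  obtain ⟨x₀⟩ := ‹Nonempty X›
  obtain ⟨h1, h2⟩ := Cfsg.Agent.Lib.Hall.exists_fixed_point_of_coprime (Y := X) H K hHK hcop' hsolv'
    (Set.univ : Set X) ⟨x₀, trivial⟩ (fun _ _ _ _ => trivial) (fun _ _ _ _ => trivial)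
    (fun x _ y _ => by
      obtain ⟨k, hk⟩ := MulAction.exists_smul_eq K x y
      exact ⟨k, k.2, hk⟩)
  constructor
  · obtain ⟨x, -, hx⟩ := h1
    exact ⟨x, hx⟩
  · intro x y hx hy
    exact h2 x trivial y trivial hx hy

end Cfsg.Agent.S0059
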