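import Cfsg.Statements.S0067
import Cfsg.Agent.Lib.Subnormal.Join
import Cfsg.Agent.S0064
import Cfsg.Agent.Lib.Core.Subnormal
-- import your own Cfsg.Agent.* helpers here

set_option autoImplicit false
open Pointwise
open Cfsg

namespace Cfsg.Agent.S0067

/-- If the join of a subgroup A with each of its conjugates is nilpotent, then A is subnormal in the finite group and contained in the Fitting subgroup. -/
theorem result {G : Type*} [Group G] [Finite G] (A : Subgroup G)
    (h : ∀ g : G, Group.IsNilpotent (A ⊔ MulAut.conj g • A : Subgroup G)) : A.IsSubnormal ∧ A ≤ Cfsg.fittingSubgroup G := by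
  have hS0 : (A.IsSubnormal) := by
    apply Cfsg.Agent.Lib.Subnormal.isSubnormal_of_sn_top
    apply Cfsg.Agent.Lib.Subnormal.sn_top_of_sn_join A
    intro g
    apply Cfsg.Agent.Lib.Subnormal.sn_of_subgroupOf le_sup_left
    have hnil : Group.IsNilpotent ↥(A ⊔ MulAut.conj g • A : Subgroup G) := h g
    exact (Cfsg.Agent.S0064.result.mp hnil) _
  refine ⟨hS0, Cfsg.Agent.Lib.Core.subnormal_nilpotent_le_fitting A hS0 ?_⟩
  have h1 := h 1
  have h2 : (A ⊔ MulAut.conj (1 : G) • A : Subgroup G) = A := by
    simp
  rw [h2] at h1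
  exact h1

end Cfsg.Agent.S0067
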