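import Cfsg.Statements.S0072
import Cfsg.Agent.Lib.Transfer.Frobenius
import Mathlib

set_option autoImplicit false
open Cfsg

namespace Cfsg.Agent.S0072

open Cfsg.Agent.Lib.Transfer

/-- A finite group has a normal p-complement if and only if every p-local subgroup (normalizer of a nontrivial p-subgroup) has one. -/
theorem result {G : Type*} [Group G] [Finite G] (p : ℕ) [Fact p.Prime] : Cfsg.HasNormalPComplement p G ↔ ∀ Q : Subgroup G, IsPGroup p Q → Q ≠ ⊥ → Cfsg.HasNormalPComplement p (Subgroup.normalizer (Q : Set G)) := by
  constructor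
  · intro h Q _ _
    exact hasNormalPComplement_subgroup h _
  · intro h
    obtain ⟨P⟩ : Nonempty (Sylow p G) := inferInstance
    obtain ⟨N, hN, hc⟩ := frobenius P (by
      intro Q hQ g hg hgc
      by_cases hbot : Q = ⊥
      · subst hbot
        refine Subgroup.mem_centralizer_iff.mpr fun x hx => ?_
        have : x = 1 := hx
        rw [this]; simp
      have hQp : IsPGroup p Q := P.isPGroup'.to_le hQ
      have h1 := h Q hQp hbot
      -- `Q` as a normal subgroup of its normalizer
      let Q' : Subgroup (Subgroup.normalizer (Q : Set G)) := Q.subgroupOf (Subgroup.normalizer (Q : Set G))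
      haveI hQ'n : Q'.Normal := Subgroup.normal_subgroupOf_of_le_normalizer le_rfl
      have hQ'p : IsPGroup p Q' :=
        hQp.of_equiv (Subgroup.subgroupOfEquivOfLe Subgroup.le_normalizer).symm
      refine Subgroup.mem_centralizer_iff.mpr fun x hx => ?_
      have h2 := commute_of_normal_pgroup h1 hQ'p
        (g := ⟨g, hg⟩) (by rwa [Subgroup.orderOf_mk]) (x := ⟨x, Subgroup.le_normalizer hx⟩) hx
      exact (congrArg Subtype.val h2).symm)
    exact ⟨P, N, hN, hc⟩

end Cfsg.Agent.S0072
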