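import Cfsg.Statements.S0073
import Cfsg.Agent.Lib.Transfer.AutCount
import Mathlib

set_option autoImplicit false
open Cfsg

namespace Cfsg.Agent.S0073

open Cfsg.Agent.Lib.Transfer

theorem aux1 (p : ℕ) (hp : 1 ≤ p) : p ^ 2 - 1 = (p - 1) * (p + 1) := by
  obtain ⟨k, rfl⟩ : ∃ k, p = k + 1 := ⟨p - 1, by omega⟩
  simp only [Nat.add_sub_cancel]
  have : (k + 1) ^ 2 = k * (k + 1 + 1) + 1 := by ring
  rw [this, Nat.add_sub_cancel]

theorem aux2 (p : ℕ) (hp : 1 ≤ p) : p ^ 2 - p ^ 1 = p * (p - 1) := by
  obtain ⟨k, rfl⟩ : ∃ k, p = k + 1 := ⟨p - 1, by omega⟩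
  simp only [Nat.add_sub_cancel]
  have : (k + 1) ^ 2 = (k + 1) * k + (k + 1) := by ring
  rw [this, pow_one, Nat.add_sub_cancel]

/-- For a finite non-abelian simple group, either the cube of the least prime divisor of the order divides the order, or 12 does. -/
theorem result {G : Type*} [Group G] [Finite G] [IsSimpleGroup G] (hG : ∃ x y : G, x * y ≠ y * x) : (Nat.card G).minFac ^ 3 ∣ Nat.card G ∨ 12 ∣ Nat.card G := by
  by_contra hcon
  push Not at hcon
  obtain ⟨hc3, hc12⟩ := hcon
  have h1 : Nat.card G ≠ 1 := by
    intro h
    obtain ⟨x, y, hxy⟩ := hG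
    haveI := (Nat.card_eq_one_iff_unique.mp h).1
    exact hxy (Subsingleton.elim _ _)
  set p := (Nat.card G).minFac with hp_def
  have hp : p.Prime := Nat.minFac_prime h1
  haveI : Fact p.Prime := ⟨hp⟩
  obtain ⟨T⟩ : Nonempty (Sylow p G) := inferInstance
  have hcardT : Nat.card T = p ^ (Nat.card G).factorization p := T.card_eq_multiplicity
  have hfac : (Nat.card G).factorization p ≤ 2 := by
    by_contra h3
    push Not at h3
    apply hc3
    exact (pow_dvd_pow p h3).trans (Nat.ordProj_dvd _ _)
  have hfac1 : 1 ≤ (Nat.card G).factorization p :=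
    (hp.dvd_iff_one_le_factorization Nat.card_pos.ne').mp (Nat.minFac_dvd _)
  have hTab : IsMulCommutative T := by
    have hle : (Nat.card G).factorization p = 1 ∨ (Nat.card G).factorization p = 2 := by omega
    rcases hle with h | h
    · rw [h, pow_one] at hcardT
      haveI := isCyclic_of_prime_card (p := p) (α := T) hcardT
      exact IsCyclic.isMulCommutative
    · rw [h] at hcardT
      exact IsPGroup.isMulCommutative_of_card_eq_prime_sq hcardT
  by_cases h : Subgroup.normalizer (T : Set G) ≤ Subgroup.centralizer (T : Set G)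
  · -- Burnside contradicts simplicity
    obtain ⟨N, hN, hc⟩ := complement_exists_for (hasNormalPComplement_of_burnside T h) T
    rcases hN.eq_bot_or_eq_top with hb | ht
    · -- G = T is a p-group
      have hT : (T : Subgroup G) = ⊤ := by
        have := hc.sup_eq_top
        rwa [hb, bot_sup_eq] at this
      obtain ⟨x, y, hxy⟩ := hG
      apply hxy
      have hx : x ∈ (T : Subgroup G) := by rw [hT]; trivial
      have hy : y ∈ (T : Subgroup G) := by rw [hT]; trivial
      exact congrArg Subtype.val (hTab.is_comm.comm ⟨x, hx⟩ ⟨y, hy⟩)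
    · have hTb : (T : Subgroup G) = ⊥ := by
        have := hc.disjoint
        rw [ht, disjoint_iff, top_inf_eq] at this
        exact this
      have : Nat.card T = 1 := by
        rw [hTb]; simp
      rw [hcardT] at this
      have h0 : p ^ (Nat.card G).factorization p ≠ 1 := by
        have := Nat.one_lt_pow (by omega : (Nat.card G).factorization p ≠ 0) hp.one_lt
        omega
      exact h0 this
  · obtain ⟨q, F, hq, hqp, hqG, hF, hlt, hqd⟩ := exists_prime_acting T hTab h
    have hqgt : p < q := lt_of_le_of_ne (Nat.minFac_le_of_dvd hq.two_le hqG) hqp.symm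
    rw [hcardT] at hF hlt hqd
    have hle : (Nat.card G).factorization p = 1 ∨ (Nat.card G).factorization p = 2 := by omega
    obtain ⟨i, hi, rfl⟩ := (Nat.dvd_prime_pow hp).mp hF
    have hp2 := hp.two_le
    have hnot : ¬ q ∣ p - 1 := by
      intro hd
      have := Nat.le_of_dvd (by omega) hd
      omega
    have hnotp : ¬ q ∣ p := by
      intro hd
      have := Nat.le_of_dvd (by omega) hd
      omega
    rcases hle with he | he
    · rw [he] at hlt hqd hi
      have hi2 := (Nat.pow_lt_pow_iff_right hp.one_lt).mp hlt
      have hi0 : i = 0 := by omega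
      subst hi0
      simp only [pow_zero, pow_one] at hqd
      exact hnot hqd
    · rw [he] at hlt hqd hi
      have hi2 := (Nat.pow_lt_pow_iff_right hp.one_lt).mp hlt
      have hi' : i = 0 ∨ i = 1 := by omega
      rcases hi' with rfl | rfl
      · simp only [pow_zero] at hqd
        rw [aux1 p hp.one_lt.le] at hqd
        rcases (Nat.Prime.dvd_mul hq).mp hqd with h' | h'
        · exact hnot h'
        · have hle' := Nat.le_of_dvd (by omega) h'
          have hqe : q = p + 1 := by omega
          have hp2' : p = 2 := by
            rcases hp.eq_two_or_odd with h2 | hodd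
            · exact h2
            · exfalso
              have heven : 2 ∣ q := by omega
              have := (Nat.prime_dvd_prime_iff_eq Nat.prime_two hq).mp heven
              omega
          have hq3 : q = 3 := by omega
          apply hc12
          have h4 : 4 ∣ Nat.card G := by
            have hT4 : Nat.card T = 4 := by
              rw [hcardT, he, hp2']; norm_num
            rw [← hT4]
            exact Subgroup.card_subgroup_dvd_card _
          have h3 : 3 ∣ Nat.card G := hq3 ▸ hqG
          have : 4 * 3 ∣ Nat.card G := Nat.Coprime.mul_dvd_of_dvd_of_dvd (by norm_num) h4 h3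
          simpa using this
      · rw [aux2 p hp.one_lt.le] at hqd
        rcases (Nat.Prime.dvd_mul hq).mp hqd with h' | h'
        · exact hnotp h'
        · exact hnot h'

end Cfsg.Agent.S0073
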