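import Cfsg.Statements.S0077
import Cfsg.Agent.Lib.Transfer.Grun
import Mathlib

set_option autoImplicit false
open Cfsg

namespace Cfsg.Agent.S0077

open scoped commutatorElement
open Cfsg.Agent.Lib.Transfer

/-- If a subgroup Z of the centre of a Sylow p-subgroup P is weakly closed in P, then P meets the derived subgroup of G exactly where it meets the derived subgroup of the normalizer of Z. -/
theorem result {G : Type*} [Group G] [Finite G] {p : ℕ} [Fact p.Prime] (P : Sylow p G) (Z : Subgroup G) (hZ : Z ≤ Subgroup.centralizer (P : Set G)) (hW : Cfsg.IsWeaklyClosed Z P) : commutator G ⊓ (P : Subgroup G) = ⁅Subgroup.normalizer (Z : Set G), Subgroup.normalizer (Z : Set G)⁆ ⊓ (P : Subgroup G) := by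
  apply le_antisymm
  · rw [Subgroup.commutator_inf_eq_focalSubgroup P, Subgroup.focalSubgroup_def, Subgroup.closure_le]
    rintro g ⟨hg, x, hx, u, rfl⟩
    refine ⟨?_, hg⟩
    have e : ⁅x, u⁆ = x * (u * x⁻¹ * u⁻¹) := by simp [commutatorElement_def, mul_assoc]
    have h1 : u * x⁻¹ * u⁻¹ ∈ (P : Subgroup G) := by
      have h2 : u * x⁻¹ * u⁻¹ = x⁻¹ * ⁅x, u⁆ := by rw [e]; group
      rw [h2]; exact mul_mem (inv_mem hx) hg
    -- apply control to the cyclic subgroup generated by x⁻¹
    obtain ⟨w, hw, hw2⟩ := weaklyClosed_control P Z hZ hW (Subgroup.zpowers x⁻¹)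
      ((Subgroup.zpowers_le).mpr (inv_mem hx)) u (by
        rintro _ ⟨k, rfl⟩
        have : u * x⁻¹ ^ k * u⁻¹ = (u * x⁻¹ * u⁻¹) ^ k := by
          simp [conj_zpow]
        simp only [this]
        exact zpow_mem h1 k)
    have h3 := hw2 x⁻¹ (Subgroup.mem_zpowers _)
    have hxN : x ∈ Subgroup.normalizer (Z : Set G) := by
      rw [mem_normalizer_iff']
      intro z
      have hcx : ∀ z ∈ Z, x * z * x⁻¹ = z := by
        intro z hz
        have := Subgroup.mem_centralizer_iff.mp (hZ hz) x hx
        rw [this]; group
      constructor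
      · intro hz
        rw [hcx z hz]; exact hz
      · intro hz
        have h5 := hcx _ hz
        have h6 : z = x * z * x⁻¹ := by
          have hinj : x * z * x⁻¹ = x * (x * z * x⁻¹) * x⁻¹ := h5.symm
          have : z = x * z * x⁻¹ := by
            apply mul_left_cancel (a := x)
            apply mul_right_cancel (b := x⁻¹)
            exact hinj
          exact this
        rw [h6]; exact hz
    have e2 : ⁅x, u⁆ = ⁅x, w⁆ := by
      rw [e, ← h3]; simp [commutatorElement_def, mul_assoc]
    rw [e2]
    exact Subgroup.commutator_mem_commutator hxN hw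
  · exact inf_le_inf_right _ (Subgroup.commutator_mono le_top le_top)

end Cfsg.Agent.S0077
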