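import Cfsg.Statements.S0074
import Cfsg.Agent.S0077
import Mathlib

set_option autoImplicit false
open Cfsg

namespace Cfsg.Agent.S0074

/-- For an abelian Sylow p-subgroup P, the intersection of P with the derived subgroup of G equals its intersection with the derived subgroup of the normalizer of P. -/
theorem result {G : Type*} [Group G] [Finite G] {p : ℕ} [Fact p.Prime] (P : Sylow p G) (hP : IsMulCommutative P) : commutator G ⊓ (P : Subgroup G) = ⁅Subgroup.normalizer (P : Set G), Subgroup.normalizer (P : Set G)⁆ ⊓ (P : Subgroup G) := by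
  refine Cfsg.Agent.S0077.result P (P : Subgroup G) ?_ ?_
  · intro x hx
    rw [Subgroup.mem_centralizer_iff]
    intro y hy
    exact congrArg Subtype.val (hP.is_comm.comm ⟨y, hy⟩ ⟨x, hx⟩)
  · refine ⟨le_rfl, fun g hg => ?_⟩
    apply Subgroup.eq_of_le_of_card_ge hg
    rw [Subgroup.card_map_of_injective (MulAut.conj g).injective]

end Cfsg.Agent.S0074
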