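import Cfsg.Statements.S0075
import Cfsg.Agent.Lib.Transfer.Decomp
import Mathlib

set_option autoImplicit false
open Cfsg

namespace Cfsg.Agent.S0075

open Cfsg.Agent.Lib.Transfer
open scoped commutatorElement

/-- For an abelian Sylow p-subgroup T, its intersection with the subgroup generated by the elements of order prime to p is the commutator of T with its normalizer. -/
theorem result {G : Type*} [Group G] [Finite G] {p : ℕ} [Fact p.Prime] (T : Sylow p G) (hT : IsMulCommutative T) : (T : Subgroup G) ⊓ Cfsg.pResidual p G = ⁅(T : Subgroup G), Subgroup.normalizer (T : Set G)⁆ := by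
  have hle : ⁅(T : Subgroup G), Subgroup.normalizer (T : Set G)⁆ ≤ (T : Subgroup G) := by
    rw [Subgroup.commutator_le]
    intro t ht n hn
    have e : ⁅t, n⁆ = t * (n * t⁻¹ * n⁻¹) := by simp [commutatorElement_def, mul_assoc]
    rw [e]
    exact mul_mem ht (conj_mem_of_mem_normalizer hn (inv_mem ht))
  apply le_antisymm
  · -- transfer to `T / [T, N(T)]`
    let D : Subgroup T := ⁅(T : Subgroup G), Subgroup.normalizer (T : Set G)⁆.subgroupOf (T : Subgroup G)
    haveI : D.Normal := by
      constructor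
      intro n hn g
      have : g * n * g⁻¹ = n := by
        rw [hT.is_comm.comm g n]; group
      rw [this]; exact hn
    haveI : IsMulCommutative (T ⧸ D) := ⟨⟨fun a b => by
      induction a using QuotientGroup.induction_on
      induction b using QuotientGroup.induction_on
      rw [← QuotientGroup.mk_mul, ← QuotientGroup.mk_mul, hT.is_comm.comm]⟩⟩
    have hpg : IsPGroup p ((T : Subgroup G) ⧸ D) := T.isPGroup'.to_quotient _
    have hcop : (Nat.card ((T : Subgroup G) ⧸ D)).Coprime (T : Subgroup G).index := by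
      obtain ⟨k, hk⟩ := IsPGroup.iff_card.mp hpg
      rw [hk]
      exact Nat.Coprime.pow_left k ((Nat.Prime.coprime_iff_not_dvd Fact.out).mpr T.not_dvd_index)
    obtain ⟨f, -, -, hker, -⟩ := transfer_package (T : Subgroup G) D hcop (by
      intro x g hg
      haveI : IsMulCommutative T := hT
      obtain ⟨n, hn, hgn⟩ := T.conj_eq_normalizer_conj_of_mem (x : G) g x.2 hg
      show (((x⁻¹ * ⟨g⁻¹ * (x : G) * g, hg⟩ : T) : T) : G) ∈ ⁅(T : Subgroup G), Subgroup.normalizer (T : Set G)⁆
      have : (((x⁻¹ * ⟨g⁻¹ * (x : G) * g, hg⟩ : T) : T) : G) = ⁅(x : G)⁻¹, n⁻¹⁆ := by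
        simp [commutatorElement_def, mul_assoc, hgn]
      rw [this]
      exact Subgroup.commutator_mem_commutator (inv_mem x.2) (inv_mem hn))
    rintro x ⟨hx1, hx2⟩
    have h1 : x ∈ f.ker := pResidual_le_ker hpg f hx2
    have h2 : x ∈ D.map (T : Subgroup G).subtype := by
      rw [← hker]; exact ⟨h1, hx1⟩
    obtain ⟨y, hy, rfl⟩ := h2
    exact hy
  · refine le_inf hle ?_
    -- `G / O^p(G)` is an image of `T`, hence abelian
    have hab : ∀ a b : G ⧸ Cfsg.pResidual p G, a * b = b * a := by
      intro a b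
      have hsup := sup_pResidual_sylow (p := p) T
      obtain ⟨a', rfl⟩ := QuotientGroup.mk'_surjective _ a
      obtain ⟨b', rfl⟩ := QuotientGroup.mk'_surjective _ b
      obtain ⟨u, hu, t, ht, rfl⟩ := exists_mul_of_mem_sup (show a' ∈ Cfsg.pResidual p G ⊔ (T : Subgroup G) by rw [hsup]; trivial)
      obtain ⟨v, hv, s, hs, rfl⟩ := exists_mul_of_mem_sup (show b' ∈ Cfsg.pResidual p G ⊔ (T : Subgroup G) by rw [hsup]; trivial)
      have h1 : QuotientGroup.mk' (Cfsg.pResidual p G) u = 1 := (QuotientGroup.eq_one_iff u).mpr hu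
      have h2 : QuotientGroup.mk' (Cfsg.pResidual p G) v = 1 := (QuotientGroup.eq_one_iff v).mpr hv
      simp only [map_mul, h1, h2, one_mul]
      rw [← map_mul, ← map_mul]
      have : t * s = s * t := congrArg Subtype.val (hT.is_comm.comm ⟨t, ht⟩ ⟨s, hs⟩)
      rw [this]
    rw [Subgroup.commutator_le]
    intro a _ b _
    rw [← QuotientGroup.eq_one_iff (N := Cfsg.pResidual p G)]
    have h3 : QuotientGroup.mk' (Cfsg.pResidual p G) ⁅a, b⁆ = 1 := by
      rw [map_commutatorElement, commutatorElement_eq_one_iff_mul_comm]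
      exact hab _ _
    exact h3

end Cfsg.Agent.S0075
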