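import Cfsg.Statements.S0076
import Cfsg.Agent.Lib.Transfer.Conj
import Mathlib

set_option autoImplicit false
open Cfsg

namespace Cfsg.Agent.S0076

open Cfsg.Agent.Lib.Transfer in
/-- Two P-invariant subsets of a Sylow p-subgroup P that are conjugate in G are conjugate under the normalizer of P. -/
theorem result {G : Type*} [Group G] [Finite G] {p : ℕ} [Fact p.Prime] (P : Sylow p G) (X Y : Set G) (hXP : X ⊆ P) (hYP : Y ⊆ P) (hX : ∀ x ∈ P, (fun y => x * y * x⁻¹) '' X = X) (hY : ∀ x ∈ P, (fun y => x * y * x⁻¹) '' Y = Y) (g : G) (hg : (fun y => g * y * g⁻¹) '' X = Y) : ∃ n ∈ Subgroup.normalizer (P : Set G), (fun y => n * y * n⁻¹) '' X = Y := by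
  classical
  -- the setwise stabilizer of Y under conjugation
  let S : Subgroup G :=
    { carrier := {h | (fun y => h * y * h⁻¹) '' Y = Y}
      one_mem' := by simp
      mul_mem' := by
        intro a b ha hb
        simp only [Set.mem_setOf_eq] at *
        have : (fun y => (a * b) * y * (a * b)⁻¹) = (fun y => a * y * a⁻¹) ∘ (fun y => b * y * b⁻¹) := by
          funext y; simp [mul_assoc]
        rw [this, Set.image_comp, hb, ha]
      inv_mem' := by
        intro a ha
        simp only [Set.mem_setOf_eq] at *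
        conv_lhs => rw [← ha]
        rw [← Set.image_comp]
        have : (fun y => a⁻¹ * y * a⁻¹⁻¹) ∘ (fun y => a * y * a⁻¹) = id := by
          funext y; simp [mul_assoc]
        rw [this, Set.image_id] }
  have hS : ∀ h, h ∈ S ↔ (fun y => h * y * h⁻¹) '' Y = Y := fun h => Iff.rfl
  -- g⁻¹ P g... the conjugate g P g⁻¹
  let R : Sylow p G := g • P
  have hPS : (P : Subgroup G) ≤ S := fun x hx => (hS x).mpr (hY x hx)
  have hRS : (R : Subgroup G) ≤ S := by
    intro x hx
    rw [hS]
    have hx' : g⁻¹ * x * g ∈ (P : Subgroup G) := (sylow_smul_mem g P x).mp hx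
    have h1 := hX _ hx'
    conv_lhs => rw [← hg]
    conv_rhs => rw [← hg, ← h1]
    rw [← Set.image_comp, ← Set.image_comp]
    apply Set.image_congr
    intro a _
    simp [mul_assoc]
  -- conjugate R to P inside S
  obtain ⟨c, hcS, hc⟩ := sylow_conj_in_subgroup R P S hRS hPS
  refine ⟨c * g, ?_, ?_⟩
  · apply mem_normalizer_of_conj_mem
    intro x hx
    have h1 : c * (g * x * g⁻¹) * c⁻¹ ∈ (P : Subgroup G) := by
      rw [hc]
      have : c⁻¹ * (c * (g * x * g⁻¹) * c⁻¹) * c = g * x * g⁻¹ := by group
      rw [this]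
      rw [sylow_smul_mem]
      simpa [mul_assoc] using hx
    simpa [mul_assoc] using h1
  · have h1 := (hS c).mp hcS
    conv_rhs => rw [← h1, ← hg]
    rw [← Set.image_comp]
    apply Set.image_congr
    intro a _
    simp [mul_assoc]

end Cfsg.Agent.S0076
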