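import Cfsg.Statements.S0078
import Cfsg.Agent.Lib.Transfer.Hyperfocal
import Cfsg.Agent.Lib.Transfer.Grun
import Mathlib

set_option autoImplicit false
open Cfsg

namespace Cfsg.Agent.S0078

open Cfsg.Agent.Lib.Transfer Cfsg.Agent.Lib.Techniques
open scoped commutatorElement

/-- In a p-normal group, a Sylow p-subgroup P meets O^p(G) exactly where it meets O^p(V), for any subgroup V containing the normalizer of the centre of P. -/
theorem result {G : Type*} [Group G] [Finite G] {p : ℕ} [Fact p.Prime] (P : Sylow p G) (hn : ∀ Q : Sylow p G, (P : Subgroup G) ⊓ Subgroup.centralizer (P : Set G) ≤ (Q : Subgroup G) → (Q : Subgroup G) ⊓ Subgroup.centralizer (Q : Set G) = (P : Subgroup G) ⊓ Subgroup.centralizer (P : Set G)) (V : Subgroup G) (hV : Subgroup.normalizer (((P : Subgroup G) ⊓ Subgroup.centralizer (P : Set G) : Subgroup G) : Set G) ≤ V) : (P : Subgroup G) ⊓ Cfsg.pResidual p G = (P : Subgroup G) ⊓ (Cfsg.pResidual p V).map V.subtype := by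
  have hp : p.Prime := Fact.out
  set Z := (P : Subgroup G) ⊓ Subgroup.centralizer (P : Set G) with hZdef
  have hZC : Z ≤ Subgroup.centralizer (P : Set G) := inf_le_right
  have hPN : (P : Subgroup G) ≤ Subgroup.normalizer (Z : Set G) := by
    intro t ht
    apply mem_normalizer_of_conj_mem
    intro z hz
    have h1 := Subgroup.mem_centralizer_iff.mp (hZC hz) t ht
    have : t * z * t⁻¹ = z := by rw [h1]; group
    rw [this]; exact hz
  have hPV : (P : Subgroup G) ≤ V := hPN.trans hV
  have hW : IsWeaklyClosed Z (P : Subgroup G) := by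
    refine ⟨inf_le_left, fun g hg => ?_⟩
    let Q : Sylow p G := g⁻¹ • P
    have hQe : (Q : Subgroup G) = conjS g⁻¹ (P : Subgroup G) := rfl
    have hZQ : Z ≤ (Q : Subgroup G) := by
      rw [hQe, ← conjS_le_iff]
      exact hg
    have h1 := hn Q hZQ
    have h2 : conjS g (Q : Subgroup G) = (P : Subgroup G) := by rw [hQe, conjS_conjS_inv]
    show conjS g Z = Z
    calc conjS g Z = conjS g ((Q : Subgroup G) ⊓ Subgroup.centralizer (Q : Set G)) := by rw [h1]
      _ = conjS g (Q : Subgroup G) ⊓ conjS g (Subgroup.centralizer (Q : Set G)) := conjS_inf _ _ _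
      _ = Z := by
        have h3 : conjS g (Subgroup.centralizer (Q : Set G)) = Subgroup.centralizer (((conjS g (Q : Subgroup G) : Subgroup G)) : Set G) :=
          (conj_centralizer_subgroup g (Q : Subgroup G)).symm
        rw [h3, h2]; rfl
  apply le_antisymm
  · -- the hyperfocal subgroup lies in `O^p(V)`
    refine le_inf inf_le_left ?_
    refine le_trans (inf_residual_le_hyperfocal _ G P rfl) ?_
    rw [hyperfocal, Subgroup.closure_le]
    rintro _ ⟨Q, hQ, x, hx, g, hg, hgc, rfl⟩
    obtain ⟨w, hw, hwx⟩ := weaklyClosed_control P Z hZC hW Q hQ g⁻¹ (fun y hy => by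
      rw [inv_inv]
      exact hQ (conj_inv_mem_of_mem_normalizer hg hy))
    have hwV : w ∈ V := hV hw
    -- powers of `w` act on `Q` as powers of `g⁻¹`
    have hpow : ∀ j : ℕ, ∀ y ∈ Q, w ^ j * y * (w ^ j)⁻¹ = (g ^ j)⁻¹ * y * g ^ j := by
      intro j
      induction j with
      | zero => intro y _; simp
      | succ j ih =>
        intro y hy
        have h1 : (g ^ j)⁻¹ * y * g ^ j ∈ Q := conj_inv_mem_of_mem_normalizer (pow_mem hg j) hy
        have h2 := hwx _ h1
        rw [inv_inv] at h2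
        rw [pow_succ' w, pow_succ g]
        calc w * w ^ j * y * (w * w ^ j)⁻¹ = w * (w ^ j * y * (w ^ j)⁻¹) * w⁻¹ := by group
          _ = w * ((g ^ j)⁻¹ * y * g ^ j) * w⁻¹ := by rw [ih y hy]
          _ = g⁻¹ * ((g ^ j)⁻¹ * y * g ^ j) * g := h2
          _ = _ := by group
    obtain ⟨a, b, hab, hcomm, ⟨k, hk⟩, hb, ha', hb'⟩ := exists_parts hp w
    -- the `p`-part acts trivially on `Q`
    have hapow : ∃ j : ℕ, w ^ j = a := by
      obtain ⟨j, hj⟩ := mem_powers_iff_mem_zpowers.mpr ha'
      exact ⟨j, hj⟩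
    obtain ⟨j, hj⟩ := hapow
    have hax : Commute a x := by
      have h1 : Commute (a ^ orderOf g) x := by
        have h2 := hpow (j * orderOf g) x hx
        rw [pow_mul, hj, pow_mul', pow_orderOf_eq_one, one_pow] at h2
        simp only [inv_one, one_mul, mul_one] at h2
        show a ^ orderOf g * x = x * a ^ orderOf g
        calc a ^ orderOf g * x = a ^ orderOf g * x * (a ^ orderOf g)⁻¹ * a ^ orderOf g := by group
          _ = x * a ^ orderOf g := by rw [h2]
      have hcop : Nat.Coprime (orderOf g) (orderOf a) := by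
        have hd : orderOf a ∣ p ^ k := orderOf_dvd_of_pow_eq_one hk
        exact Nat.Coprime.coprime_dvd_right hd (Nat.Coprime.pow_right k hgc)
      obtain ⟨m, hm⟩ := exists_pow_eq_self_of_coprime hcop
      have := h1.pow_left m
      rwa [hm] at this
    have hy : x⁻¹ * (g⁻¹ * x * g) = x⁻¹ * (b * x * b⁻¹) := by
      have h2 := hwx x hx
      rw [inv_inv] at h2
      rw [← h2, hab, hcomm]
      have h3 : b * a * x * (b * a)⁻¹ = b * (a * x * a⁻¹) * b⁻¹ := by group
      rw [h3]
      have h4 : a * x * a⁻¹ = x := by rw [hax.eq]; group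
      rw [h4]
    rw [hy]
    have hbV : b ∈ V := (Subgroup.zpowers_le.mpr hwV) hb'
    have hxV : x ∈ V := hPV (hQ hx)
    have hbR : (⟨b, hbV⟩ : V) ∈ pResidual p V := by
      apply mem_pResidual_of_coprime
      rw [Subgroup.orderOf_mk]
      exact hb
    haveI : (pResidual p V).Normal := pResidual_normal
    have hR2 : (⟨x, hxV⟩ : V)⁻¹ * ((⟨b, hbV⟩ : V) * (⟨x, hxV⟩ : V) * (⟨b, hbV⟩ : V)⁻¹) ∈ pResidual p V := by
      have e : (⟨x, hxV⟩ : V)⁻¹ * ((⟨b, hbV⟩ : V) * (⟨x, hxV⟩ : V) * (⟨b, hbV⟩ : V)⁻¹) =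
          ((⟨x, hxV⟩ : V)⁻¹ * (⟨b, hbV⟩ : V) * (⟨x, hxV⟩ : V)) * (⟨b, hbV⟩ : V)⁻¹ := by group
      rw [e]
      refine mul_mem ?_ (inv_mem hbR)
      have := Subgroup.Normal.conj_mem ‹(pResidual p V).Normal› _ hbR (⟨x, hxV⟩ : V)⁻¹
      simpa using this
    exact ⟨_, hR2, by simp⟩
  · refine inf_le_inf_left _ ?_
    rw [Subgroup.map_le_iff_le_comap, pResidual, Subgroup.closure_le]
    intro g hg
    apply Subgroup.subset_closure
    show Nat.Coprime (orderOf (g : G)) p
    rw [Subgroup.orderOf_coe]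
    exact hg

end Cfsg.Agent.S0078
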