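import Cfsg.Statements.S0079
import Cfsg.Agent.Lib.Transfer.Tate
import Cfsg.Agent.Lib.Core.Factor
import Mathlib

set_option autoImplicit false
open Cfsg

namespace Cfsg.Agent.S0079

open Cfsg.Agent.Lib.Transfer

/-- A nilpotent Hall subgroup has a normal complement exactly when elements of it that are conjugate in the whole group are already conjugate inside it. -/
theorem result {G : Type*} [Group G] [Finite G] (H : Subgroup G) (hH : Group.IsNilpotent H) (hHall : Nat.Coprime (Nat.card H) H.index) : (∃ N : Subgroup G, N.Normal ∧ N.IsComplement' H) ↔ ∀ x ∈ H, ∀ y ∈ H, (∃ g : G, g * x * g⁻¹ = y) → ∃ h ∈ H, h * x * h⁻¹ = y := by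
  classical
  constructor
  · rintro ⟨N, hN, hc⟩ x hx y hy ⟨g, hg⟩
    -- write `g = h * n`
    have hsup : H ⊔ N = ⊤ := by rw [sup_comm]; exact hc.sup_eq_top
    obtain ⟨h, hh, n, hn, rfl⟩ := exists_mul_of_mem_sup' (show g ∈ H ⊔ N by rw [hsup]; trivial)
    refine ⟨h, hh, ?_⟩
    -- `h⁻¹ y h = n x n⁻¹`
    have h1 : h⁻¹ * y * h = n * x * n⁻¹ := by
      rw [← hg]; group
    have h2 : (h⁻¹ * y * h) * x⁻¹ ∈ N := by
      rw [h1]
      have e : n * x * n⁻¹ * x⁻¹ = n * (x * n⁻¹ * x⁻¹) := by group
      rw [e]
      exact mul_mem hn (hN.conj_mem _ (inv_mem hn) x)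
    have h3 : (h⁻¹ * y * h) * x⁻¹ ∈ H := mul_mem (mul_mem (mul_mem (inv_mem hh) hy) hh) (inv_mem hx)
    have h4 : (h⁻¹ * y * h) * x⁻¹ ∈ N ⊓ H := ⟨h2, h3⟩
    rw [disjoint_iff.mp hc.disjoint] at h4
    have h5 : (h⁻¹ * y * h) * x⁻¹ = 1 := h4
    have h6 : h⁻¹ * y * h = x := mul_inv_eq_one.mp h5
    rw [← h6]; group
  · intro hctl
    -- for each prime `p` dividing `|H|`, a normal `p`-complement
    have hprime : ∀ p ∈ (Nat.card H).primeFactors, ∃ K : Subgroup G, K.Normal ∧
        K.index = p ^ (Nat.card H).factorization p ∧ (Nat.card K).Coprime p := by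
      intro p hpm
      have hp : p.Prime := Nat.prime_of_mem_primeFactors hpm
      have hpd : p ∣ Nat.card H := Nat.dvd_of_mem_primeFactors hpm
      haveI : Fact p.Prime := ⟨hp⟩
      have hpH : ¬ p ∣ H.index := fun h => hp.one_lt.ne' (Nat.eq_one_of_dvd_coprimes hHall hpd h)
      obtain ⟨S⟩ : Nonempty (Sylow p H) := inferInstance
      set P₀ := (S : Subgroup H).map H.subtype with hP₀
      have hP₀p : IsPGroup p P₀ := S.isPGroup'.map _
      have hP₀i : ¬ p ∣ P₀.index := by
        intro hd
        have h1 : P₀.index = (S : Subgroup H).index * H.index := Subgroup.index_map_subtype _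
        rw [h1] at hd
        rcases (Nat.Prime.dvd_mul hp).mp hd with h2 | h2
        · exact S.not_dvd_index h2
        · exact hpH h2
      let P : Sylow p G := hP₀p.toSylow hP₀i
      have hPe : (P : Subgroup G) = P₀ := rfl
      haveI := hH
      haveI hSn : (S : Subgroup H).Normal := inferInstance
      have hnil := hasNormalPComplement_of_isNilpotent (p := p) hH
      obtain ⟨N, hN, hc⟩ := complement_of_control P (by
        intro x hx g hg
        rw [hPe] at hx hg ⊢
        have hxH : x ∈ H := Subgroup.map_subtype_le _ hx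
        have hyH : g * x * g⁻¹ ∈ H := Subgroup.map_subtype_le _ hg
        obtain ⟨h, hh, hhe⟩ := hctl x hxH _ hyH ⟨g, rfl⟩
        obtain ⟨a, b, hab, hcomm, ⟨k, hk⟩, hb, ha', hb'⟩ := exists_parts hp (⟨h, hh⟩ : H)
        -- the `p`-part lies in `S`
        have haS : a ∈ (S : Subgroup H) := by
          have hz : IsPGroup p (Subgroup.zpowers a) := by
            intro y
            obtain ⟨y, hy⟩ := y
            obtain ⟨i, rfl⟩ := Subgroup.mem_zpowers_iff.mp hy
            refine ⟨k, Subtype.ext ?_⟩
            simp only [SubmonoidClass.coe_pow, Subgroup.coe_one]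
            rw [← zpow_natCast, ← zpow_mul, mul_comm, zpow_mul, zpow_natCast, hk, one_zpow]
          exact Cfsg.Agent.Lib.PGroup.le_sylow_of_sylow_normal S hz (Subgroup.mem_zpowers a)
        -- the `p'`-part centralizes `S`
        have hxS : (⟨x, hxH⟩ : H) ∈ (S : Subgroup H) := by
          obtain ⟨x', hx', rfl⟩ := hx
          exact hx'
        have hbx := commute_of_normal_pgroup hnil S.isPGroup' hb hxS
        refine ⟨(a : G), ⟨a, haS, rfl⟩, ?_⟩
        rw [← hhe]
        have e : h = (a : G) * (b : G) := congrArg Subtype.val hab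
        have hbx' : (b : G) * x = x * (b : G) := congrArg Subtype.val hbx
        rw [e]
        calc (a : G) * b * x * ((a : G) * b)⁻¹ = a * (b * x) * (b : G)⁻¹ * (a : G)⁻¹ := by group
          _ = a * (x * b) * (b : G)⁻¹ * (a : G)⁻¹ := by rw [hbx']
          _ = _ := by group)
      refine ⟨N, hN, ?_, complement_card_coprime hc⟩
      rw [hc.symm.index_eq_card]
      have h1 : Nat.card (P : Subgroup G) = Nat.card (S : Subgroup H) := by
        rw [hPe, hP₀]
        exact Subgroup.card_map_of_injective H.subtype_injective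
      rw [h1]
      exact S.card_eq_multiplicity
    -- intersect
    have hind : ∀ s : Finset ℕ, s ⊆ (Nat.card H).primeFactors → ∃ M : Subgroup G, M.Normal ∧
        M.index = ∏ q ∈ s, q ^ (Nat.card H).factorization q ∧ ∀ q ∈ s, (Nat.card M).Coprime q := by
      intro s
      induction s using Finset.induction_on with
      | empty =>
        intro _
        exact ⟨⊤, inferInstance, by simp, by simp⟩
      | insert p s hps ih =>
        intro hsub
        obtain ⟨M, hM, hMi, hMc⟩ := ih ((Finset.subset_insert p s).trans hsub)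
        obtain ⟨K, hK, hKi, hKc⟩ := hprime p (hsub (Finset.mem_insert_self p s))
        have hp : p.Prime := Nat.prime_of_mem_primeFactors (hsub (Finset.mem_insert_self p s))
        have hcop : M.index.Coprime K.index := by
          rw [hMi, hKi]
          refine Nat.Coprime.prod_left fun q hq => ?_
          have hq' : q.Prime := Nat.prime_of_mem_primeFactors (hsub (Finset.mem_insert_of_mem hq))
          refine Nat.Coprime.pow _ _ ?_
          rw [Nat.coprime_primes hq' hp]
          rintro rfl
          exact hps hq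
        refine ⟨M ⊓ K, inferInstance, ?_, ?_⟩
        · rw [Cfsg.Agent.Lib.Core.index_inf_of_coprime M K hcop, hMi, hKi, Finset.prod_insert hps, mul_comm]
        · intro q hq
          rcases Finset.mem_insert.mp hq with rfl | hq
          · exact Nat.Coprime.coprime_dvd_left (Subgroup.card_dvd_of_le inf_le_right) hKc
          · exact Nat.Coprime.coprime_dvd_left (Subgroup.card_dvd_of_le inf_le_left) (hMc q hq)
    obtain ⟨M, hM, hMi, hMc⟩ := hind _ subset_rfl
    have hMi' : M.index = Nat.card H := by
      rw [hMi]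
      have := Nat.prod_factorization_pow_eq_self (Nat.card_pos (α := H)).ne'
      rw [Nat.prod_factorization_eq_prod_primeFactors] at this
      exact this
    refine ⟨M, hM, Subgroup.isComplement'_of_coprime ?_ ?_⟩
    · rw [← hMi']; exact M.card_mul_index
    · apply Nat.coprime_of_dvd
      intro q hq h1 h2
      have hqm : q ∈ (Nat.card H).primeFactors :=
        Nat.mem_primeFactors.mpr ⟨hq, h2, Nat.card_pos.ne'⟩
      exact hq.one_lt.ne' (Nat.eq_one_of_dvd_coprimes (hMc q hqm) h1 dvd_rfl)

end Cfsg.Agent.S0079
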