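import Cfsg.Statements.S0082
import Cfsg.Agent.Lib.Transfer.Comp
import Cfsg.Agent.S0075
import Cfsg.Agent.Lib.Coprime.Elem
import Mathlib

set_option autoImplicit false
open Cfsg

namespace Cfsg.Agent.S0082

open Cfsg.Agent.Lib.Transfer
open scoped commutatorElement

/-- With a cyclic Sylow p-subgroup, either there is a normal p-complement or the elements of order prime to p generate the whole group. -/
theorem result {G : Type*} [Group G] [Finite G] {p : ℕ} [Fact p.Prime] (P : Sylow p G) (hP : IsCyclic P) : Cfsg.HasNormalPComplement p G ∨ Cfsg.pResidual p G = ⊤ := by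
  have hp : p.Prime := Fact.out
  haveI hc : IsMulCommutative P := IsCyclic.isMulCommutative
  have hPN : (P : Subgroup G) ≤ Subgroup.normalizer (P : Set G) := Subgroup.le_normalizer
  have hcop : Nat.Coprime (Nat.card (P : Subgroup G))
      ((P : Subgroup G).relIndex (Subgroup.normalizer (P : Set G))) := by
    obtain ⟨k, hk⟩ := IsPGroup.iff_card.mp P.isPGroup'
    rw [hk]
    refine Nat.Coprime.pow_left k ((Nat.Prime.coprime_iff_not_dvd hp).mpr ?_)
    intro hd
    have := Subgroup.relIndex_mul_index hPN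
    exact P.not_dvd_index (this ▸ hd.trans (dvd_mul_right _ _))
  obtain ⟨h1, h2⟩ := subgroup_decomp (P : Subgroup G) (Subgroup.normalizer (P : Set G)) hPN le_rfl hc hcop
  set X := ⁅(P : Subgroup G), Subgroup.normalizer (P : Set G)⁆ with hX
  set Y := (P : Subgroup G) ⊓ Subgroup.centralizer (Subgroup.normalizer (P : Set G) : Set G) with hY
  have hXP : X ≤ (P : Subgroup G) := by
    rw [← h2]; exact le_sup_left
  have hYP : Y ≤ (P : Subgroup G) := inf_le_left
  have key : X = ⊥ ∨ Y = ⊥ := by
    by_contra hne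
    push_neg at hne
    obtain ⟨hXne, hYne⟩ := hne
    obtain ⟨x, hxX, hxo⟩ := exists_orderOf_eq_of_ne_bot (P.isPGroup'.to_le hXP) hXne
    obtain ⟨y, hyY, hyo⟩ := exists_orderOf_eq_of_ne_bot (P.isPGroup'.to_le hYP) hYne
    -- inside the cyclic group `P`
    have h3 : (⟨x, hXP hxX⟩ : P) ∈ Subgroup.zpowers (⟨y, hYP hyY⟩ : P) := by
      apply Cfsg.Agent.Lib.Coprime.mem_zpowers_of_orderOf_dvd
      rw [Subgroup.orderOf_mk, Subgroup.orderOf_mk, hxo, hyo]
    obtain ⟨k, hk⟩ := Subgroup.mem_zpowers_iff.mp h3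
    have hk' : y ^ k = x := congrArg Subtype.val hk
    have h4 : x ∈ X ⊓ Y := ⟨hxX, hk' ▸ zpow_mem hyY k⟩
    rw [h1] at h4
    have h5 : x = 1 := h4
    rw [h5, orderOf_one] at hxo
    exact hp.one_lt.ne hxo
  rcases key with hb | hb
  · left
    apply hasNormalPComplement_of_burnside P
    intro n hn
    rw [Subgroup.mem_centralizer_iff]
    intro t ht
    have h3 : ⁅t, n⁆ ∈ X := Subgroup.commutator_mem_commutator ht hn
    rw [hb] at h3
    have h4 : ⁅t, n⁆ = 1 := h3
    exact commutatorElement_eq_one_iff_mul_comm.mp h4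
  · right
    have h3 : X = (P : Subgroup G) := by
      rw [hb, sup_bot_eq] at h2
      exact h2
    have h4 := Cfsg.Agent.S0075.result P hc
    rw [← hX, h3] at h4
    have h5 : (P : Subgroup G) ≤ Cfsg.pResidual p G := inf_eq_left.mp h4
    have h6 := sup_pResidual_sylow (p := p) P
    rw [sup_eq_left.mpr h5] at h6
    exact h6

end Cfsg.Agent.S0082
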