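import Cfsg.Statements.S0083
import Cfsg.Agent.Lib.Transfer.Comp
import Mathlib

set_option autoImplicit false
open Cfsg

namespace Cfsg.Agent.S0083

open Cfsg.Agent.Lib.Transfer
open scoped commutatorElement

/-- For an abelian Sylow p-subgroup P, a normal p-complement exists exactly when the normalizer of P is an internal direct product of P with some subgroup. -/
theorem result {G : Type*} [Group G] [Finite G] {p : ℕ} [Fact p.Prime] (P : Sylow p G) (hP : IsMulCommutative P) : Cfsg.HasNormalPComplement p G ↔ ∃ Q : Subgroup G, Q ≤ Subgroup.centralizer (P : Set G) ∧ Q ⊓ (P : Subgroup G) = ⊥ ∧ Q ⊔ (P : Subgroup G) = Subgroup.normalizer (P : Set G) := by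
  have hPC : (P : Subgroup G) ≤ Subgroup.centralizer (P : Set G) := by
    intro x hx
    rw [Subgroup.mem_centralizer_iff]
    intro y hy
    exact congrArg Subtype.val (hP.is_comm.comm ⟨y, hy⟩ ⟨x, hx⟩)
  constructor
  · intro h
    obtain ⟨N, hN, hc⟩ := complement_exists_for h P
    have hdisj : N ⊓ (P : Subgroup G) = ⊥ := disjoint_iff.mp hc.disjoint
    have hsup : N ⊔ (P : Subgroup G) = ⊤ := hc.sup_eq_top
    refine ⟨N ⊓ Subgroup.normalizer (P : Set G), ?_, ?_, ?_⟩
    · rintro q ⟨hq1, hq2⟩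
      rw [Subgroup.mem_centralizer_iff]
      intro x hx
      have h1 : q * x * q⁻¹ ∈ (P : Subgroup G) := conj_mem_of_mem_normalizer hq2 hx
      have h2 : q * (x * q⁻¹ * x⁻¹) ∈ N :=
        mul_mem hq1 (hN.conj_mem _ (inv_mem hq1) x)
      have h3 : q * x * q⁻¹ * x⁻¹ ∈ (P : Subgroup G) := mul_mem h1 (inv_mem hx)
      have h4 : q * x * q⁻¹ * x⁻¹ ∈ N ⊓ (P : Subgroup G) := by
        refine ⟨?_, h3⟩
        have : q * x * q⁻¹ * x⁻¹ = q * (x * q⁻¹ * x⁻¹) := by group
        rw [this]; exact h2
      rw [hdisj] at h4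
      have h5 : q * x * q⁻¹ * x⁻¹ = 1 := h4
      have h6 : q * x = x * q := by
        have : q * x = (q * x * q⁻¹ * x⁻¹) * (x * q) := by group
        rw [this, h5, one_mul]
      exact h6.symm
    · rw [eq_bot_iff]
      rintro x ⟨⟨hx1, _⟩, hx2⟩
      rw [← hdisj]; exact ⟨hx1, hx2⟩
    · apply le_antisymm
      · exact sup_le inf_le_right Subgroup.le_normalizer
      · intro n hn
        obtain ⟨a, ha, b, hb, rfl⟩ := exists_mul_of_mem_sup (show n ∈ N ⊔ (P : Subgroup G) by rw [hsup]; trivial)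
        have hb' : b ∈ Subgroup.normalizer (P : Set G) := Subgroup.le_normalizer hb
        have ha' : a ∈ Subgroup.normalizer (P : Set G) := by
          have : a = a * b * b⁻¹ := by group
          rw [this]
          exact mul_mem hn (inv_mem hb')
        exact Subgroup.mul_mem_sup ⟨ha, ha'⟩ hb
  · rintro ⟨Q, hQ, -, hsup⟩
    apply hasNormalPComplement_of_burnside P
    rw [← hsup]
    exact sup_le hQ hPC

end Cfsg.Agent.S0083
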