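import Cfsg.Statements.S0084
import Cfsg.Agent.Lib.Transfer.AutCount
import Mathlib

set_option autoImplicit false
open Cfsg

namespace Cfsg.Agent.S0084

open Cfsg.Agent.Lib.Transfer

/-- A group whose Sylow 2-subgroups are Klein four-groups and whose order is prime to 3 has a normal 2-complement. -/
theorem result {G : Type*} [Group G] [Finite G] (T : Sylow 2 G) (hT : IsKleinFour T) (h3 : ¬ 3 ∣ Nat.card G) : Cfsg.HasNormalPComplement 2 G := by
  have hc : IsMulCommutative T := by
    have he : ∀ x : (T : Subgroup G), x * x = 1 := fun x => by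
      have := Monoid.pow_exponent_eq_one x
      have h2 : Monoid.exponent T = 2 := hT.exponent_two
      rw [h2, pow_two] at this
      exact this
    refine ⟨⟨fun a b => ?_⟩⟩
    have h1 := he (a * b)
    have h2 : a * b = (a * b)⁻¹ := eq_inv_of_mul_eq_one_left h1
    have ha : a⁻¹ = a := inv_eq_of_mul_eq_one_left (he a)
    have hb : b⁻¹ = b := inv_eq_of_mul_eq_one_left (he b)
    rw [mul_inv_rev, ha, hb] at h2
    exact h2
  by_cases h : Subgroup.normalizer (T : Set G) ≤ Subgroup.centralizer (T : Set G)
  · exact hasNormalPComplement_of_burnside T h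
  · exfalso
    obtain ⟨q, F, hq, hq2, hqG, hF, hlt, hqd⟩ := exists_prime_acting T hc h
    have h4 : Nat.card T = 4 := IsKleinFour.card_four
    rw [h4] at hF hlt hqd
    have hF' : F = 1 ∨ F = 2 := by
      have : F ≠ 0 := by rintro rfl; simp at hF
      interval_cases F <;> simp_all (config := {decide := true})
    have hq3 : q = 3 := by
      rcases hF' with rfl | rfl
      · exact (Nat.prime_dvd_prime_iff_eq hq Nat.prime_three).mp hqd
      · have : q = 2 := (Nat.prime_dvd_prime_iff_eq hq Nat.prime_two).mp hqd
        exact absurd this hq2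
    exact h3 (hq3 ▸ hqG)

end Cfsg.Agent.S0084
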