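import Cfsg.Statements.S0085
import Cfsg.Agent.Lib.Transfer.AutCount
import Mathlib

set_option autoImplicit false
open Cfsg

namespace Cfsg.Agent.S0085

open Cfsg.Agent.Lib.Transfer

/-- A group whose Sylow 2-subgroups are elementary abelian of order 8 and whose order is prime to 3 and to 7 has a normal 2-complement. -/
theorem result {G : Type*} [Group G] [Finite G] (T : Sylow 2 G) (h8 : Nat.card T = 8) (he : ∀ x : T, x * x = 1) (h3 : ¬ 3 ∣ Nat.card G) (h7 : ¬ 7 ∣ Nat.card G) : Cfsg.HasNormalPComplement 2 G := by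
  have hc : IsMulCommutative T := by
    refine ⟨⟨fun a b => ?_⟩⟩
    have h1 := he (a * b)
    have h2 : a * b = (a * b)⁻¹ := eq_inv_of_mul_eq_one_left h1
    have ha : a⁻¹ = a := inv_eq_of_mul_eq_one_left (he a)
    have hb : b⁻¹ = b := inv_eq_of_mul_eq_one_left (he b)
    rw [mul_inv_rev, ha, hb] at h2
    exact h2
  by_cases h : Subgroup.normalizer (T : Set G) ≤ Subgroup.centralizer (T : Set G)
  · exact hasNormalPComplement_of_burnside T h
  · exfalso
    obtain ⟨q, F, hq, hq2, hqG, hF, hlt, hqd⟩ := exists_prime_acting T hc h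
    rw [h8] at hF hlt hqd
    have hF0 : F ≠ 0 := by rintro rfl; simp at hF
    have hF' : F = 1 ∨ F = 2 ∨ F = 4 := by
      interval_cases F <;> simp_all (config := {decide := true})
    rcases hF' with rfl | rfl | rfl
    · have : q = 7 := (Nat.prime_dvd_prime_iff_eq hq (by norm_num)).mp hqd
      exact h7 (this ▸ hqG)
    · have h6 : q ∣ 2 * 3 := hqd
      rcases (Nat.Prime.dvd_mul hq).mp h6 with h' | h'
      · exact hq2 ((Nat.prime_dvd_prime_iff_eq hq Nat.prime_two).mp h')
      · have : q = 3 := (Nat.prime_dvd_prime_iff_eq hq Nat.prime_three).mp h'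
        exact h3 (this ▸ hqG)
    · have h6 : q ∣ 2 ^ 2 := hqd
      exact hq2 ((Nat.prime_dvd_prime_iff_eq hq Nat.prime_two).mp (hq.dvd_of_dvd_pow h6))

end Cfsg.Agent.S0085
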