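import Cfsg.Statements.S0087
import Cfsg.Agent.Lib.Transfer.HallConj
import Mathlib

set_option autoImplicit false
open Cfsg

namespace Cfsg.Agent.S0087

open Cfsg.Agent.Lib.Transfer Cfsg.Agent.Lib.Techniques
open scoped commutatorElement IsMulCommutative

/-- A Hall subgroup that is central in its normalizer has a normal complement. -/
theorem result {G : Type*} [Group G] [Finite G] (H : Subgroup G) (hHall : Nat.Coprime (Nat.card H) H.index) (h : Subgroup.normalizer (H : Set G) ≤ Subgroup.centralizer (H : Set G)) : ∃ N : Subgroup G, N.Normal ∧ N.IsComplement' H := by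
  have hHc : IsMulCommutative H := by
    refine ⟨⟨fun a b => Subtype.ext ?_⟩⟩
    exact Subgroup.mem_centralizer_iff.mp (h (Subgroup.le_normalizer b.2)) a a.2
  -- conjugate elements of `H` are equal
  have hstable : ∀ (x : H) (g : G), g⁻¹ * (x : G) * g ∈ H → g⁻¹ * (x : G) * g = x := by
    intro x g hg
    set X := Subgroup.centralizer ({(x : G)} : Set G) with hX
    have hHX : H ≤ X := by
      intro y hy
      refine Subgroup.mem_centralizer_iff.mpr ?_
      rintro _ rfl
      exact congrArg Subtype.val (hHc.is_comm.comm x ⟨y, hy⟩)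
    have hxg : (x : G) ∈ conjS g H := mem_conjS.mpr hg
    have hgX : conjS g H ≤ X := by
      intro y hy
      refine Subgroup.mem_centralizer_iff.mpr ?_
      rintro _ rfl
      exact congrArg Subtype.val ((isMulCommutative_conjS hHc g).is_comm.comm ⟨x, hxg⟩ ⟨y, hy⟩)
    have hcop : Nat.Coprime (Nat.card H) (H.relIndex X) := by
      refine Nat.Coprime.coprime_dvd_right ?_ hHall
      rw [← Subgroup.relIndex_mul_index hHX]
      exact dvd_mul_right _ _
    obtain ⟨c, hc, hcc⟩ := abelian_hall_conj X H hHX hHc hcop _ (conjS g H) hgX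
      (isMulCommutative_conjS hHc g) (card_conjS g H) rfl
    have hn : c * g ∈ Subgroup.normalizer (H : Set G) := by
      rw [mem_normalizer_iff_conjS, conjS_mul, hcc]
    have h1 := Subgroup.mem_centralizer_iff.mp (h hn) x x.2
    have h2 : c * (x : G) = (x : G) * c := by
      have := Subgroup.mem_centralizer_iff.mp hc x rfl
      exact this.symm
    calc g⁻¹ * (x : G) * g = g⁻¹ * (c⁻¹ * (x * c)) * g := by rw [← h2]; group
      _ = (c * g)⁻¹ * (x * (c * g)) := by group
      _ = (c * g)⁻¹ * ((c * g) * x) := by rw [h1]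
      _ = x := by group
  -- the package with `D = ⊥`
  haveI : IsMulCommutative (H ⧸ (⊥ : Subgroup H)) := ⟨⟨fun a b => by
    induction a using QuotientGroup.induction_on
    induction b using QuotientGroup.induction_on
    rw [← QuotientGroup.mk_mul, ← QuotientGroup.mk_mul, hHc.is_comm.comm]⟩⟩
  have hcop : (Nat.card (H ⧸ (⊥ : Subgroup H))).Coprime H.index := by
    have : Nat.card (H ⧸ (⊥ : Subgroup H)) = Nat.card H := by
      rw [← Subgroup.index, Subgroup.index_bot]
    rwa [this]
  obtain ⟨f, -, -, hker, hsup⟩ := transfer_package H (⊥ : Subgroup H) hcop (by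
    intro x g hg
    have h1 := hstable x g hg
    have : x⁻¹ * ⟨g⁻¹ * (x : G) * g, hg⟩ = 1 := by
      apply Subtype.ext
      show (x : G)⁻¹ * (g⁻¹ * (x : G) * g) = 1
      rw [h1]; group
    rw [this]; exact one_mem _)
  refine ⟨f.ker, inferInstance, isComplement'_of_inf_sup _ _ ?_ hsup⟩
  rw [hker, Subgroup.map_bot]

end Cfsg.Agent.S0087
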