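import Cfsg.Statements.S0088
import Cfsg.Agent.Lib.Transfer.Package
import Mathlib

set_option autoImplicit false
open Cfsg

namespace Cfsg.Agent.S0088

open scoped commutatorElement IsMulCommutative
open Cfsg.Agent.Lib.Transfer

/-- An abelian Hall subgroup meets G' ∩ Z(G) trivially. -/
theorem result {G : Type*} [Group G] [Finite G] (H : Subgroup G) (hc : IsMulCommutative H) (hHall : Nat.Coprime (Nat.card H) H.index) : H ⊓ commutator G ⊓ Subgroup.center G = ⊥ := by
  rw [eq_bot_iff]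
  rintro z ⟨⟨hzH, hzG⟩, hzZ⟩
  let φ : H →* H := MonoidHom.id H
  have h1 := transfer_eq_pow_of_central φ ⟨z, hzH⟩ hzZ
  have h2 : MonoidHom.transfer φ z = 1 := by
    have := Abelianization.commutator_subset_ker (MonoidHom.transfer φ) hzG
    exact this
  rw [h2] at h1
  have h3 : ((⟨z, hzH⟩ : H) ^ H.index) = 1 := h1.symm
  have h4 : orderOf (⟨z, hzH⟩ : H) ∣ H.index := orderOf_dvd_of_pow_eq_one h3
  have h5 : orderOf (⟨z, hzH⟩ : H) ∣ Nat.card H := orderOf_dvd_natCard _
  have h6 : orderOf (⟨z, hzH⟩ : H) = 1 := Nat.eq_one_of_dvd_coprimes hHall h5 h4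
  rw [orderOf_eq_one_iff] at h6
  exact Subgroup.mem_bot.mpr (congrArg Subtype.val h6)

end Cfsg.Agent.S0088
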