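import Cfsg.Statements.S0089
import Cfsg.Agent.S0088
import Mathlib

set_option autoImplicit false
open Cfsg

namespace Cfsg.Agent.S0089

/-- When all Sylow subgroups are abelian, the derived subgroup meets the centre trivially. -/
theorem result {G : Type*} [Group G] [Finite G] (h : ∀ p : ℕ, p.Prime → ∀ P : Sylow p G, IsMulCommutative P) : commutator G ⊓ Subgroup.center G = ⊥ := by
  rw [eq_bot_iff]
  rintro z ⟨hz1, hz2⟩
  by_contra hne
  have hz : z ≠ 1 := fun h' => hne (Subgroup.mem_bot.mpr h')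
  have ho : orderOf z ≠ 1 := by rwa [Ne, orderOf_eq_one_iff]
  obtain ⟨p, hp, hpd⟩ := Nat.exists_prime_and_dvd ho
  haveI : Fact p.Prime := ⟨hp⟩
  -- w = z ^ (order / p) has order p
  have hw : orderOf (z ^ (orderOf z / p)) = p :=
    orderOf_pow_orderOf_div (orderOf_pos z).ne' hpd
  set w := z ^ (orderOf z / p) with hwdef
  have hwG : w ∈ commutator G := pow_mem hz1 _
  have hwZ : w ∈ Subgroup.center G := pow_mem hz2 _
  have hpg : IsPGroup p (Subgroup.zpowers w) := by
    rw [IsPGroup.iff_card]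
    exact ⟨1, by rw [Nat.card_zpowers, hw, pow_one]⟩
  obtain ⟨P, hP⟩ := hpg.exists_le_sylow
  have hwP : w ∈ (P : Subgroup G) := hP (Subgroup.mem_zpowers w)
  have h1 := S0088.result (P : Subgroup G) (h p hp P) P.card_coprime_index
  have h2 : w ∈ (P : Subgroup G) ⊓ commutator G ⊓ Subgroup.center G := ⟨⟨hwP, hwG⟩, hwZ⟩
  rw [h1, Subgroup.mem_bot] at h2
  rw [h2, orderOf_one] at hw
  exact hp.one_lt.ne hw

end Cfsg.Agent.S0089
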