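import Cfsg.Statements.S0091
import Cfsg.Agent.Lib.Transfer.Basic
import Mathlib

set_option autoImplicit false
open Cfsg

namespace Cfsg.Agent.S0091

open scoped commutatorElement
open Cfsg.Agent.Lib.Transfer

/-- If a nontrivial Sylow p-subgroup controls its own fusion then it is not contained in the derived subgroup. -/
theorem result {G : Type*} [Group G] [Finite G] {p : ℕ} [Fact p.Prime] (P : Sylow p G) (hp : p ∣ Nat.card G) (h : ∀ x ∈ P, ∀ y ∈ P, (∃ g : G, g * x * g⁻¹ = y) → ∃ z ∈ P, z * x * z⁻¹ = y) : ¬ (P : Subgroup G) ≤ commutator G := by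
  intro hle
  -- focal subgroup lies in P'
  have hfoc : (P : Subgroup G).focalSubgroup ≤ ⁅(P : Subgroup G), (P : Subgroup G)⁆ := by
    rw [Subgroup.focalSubgroup_def, Subgroup.closure_le]
    rintro g ⟨hg, x, hx, u, rfl⟩
    have e : ⁅x, u⁆ = x * (u * x⁻¹ * u⁻¹) := by simp [commutatorElement_def, mul_assoc]
    have h1 : u * x⁻¹ * u⁻¹ ∈ (P : Subgroup G) := by
      have h2 : u * x⁻¹ * u⁻¹ = x⁻¹ * ⁅x, u⁆ := by rw [e]; group
      rw [h2]; exact mul_mem (inv_mem hx) hg
    obtain ⟨z, hz, hz2⟩ := h x⁻¹ (inv_mem hx) _ h1 ⟨u, rfl⟩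
    have e2 : ⁅x, u⁆ = ⁅x, z⁆ := by
      rw [e, ← hz2]; simp [commutatorElement_def, mul_assoc]
    rw [SetLike.mem_coe, e2]
    exact Subgroup.commutator_mem_commutator hx hz
  have h1 : commutator G ⊓ (P : Subgroup G) = (P : Subgroup G) := inf_eq_right.mpr hle
  have h2 := Subgroup.commutator_inf_eq_focalSubgroup P
  rw [h1] at h2
  have h3 : (P : Subgroup G) ≤ ⁅(P : Subgroup G), (P : Subgroup G)⁆ := by
    calc (P : Subgroup G) = (P : Subgroup G).focalSubgroup := h2
      _ ≤ _ := hfoc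
  exact not_le_commutator_of_isPGroup P.isPGroup' (P.ne_bot_of_dvd_card hp) h3

end Cfsg.Agent.S0091
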