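import Cfsg.Statements.S0092
import Cfsg.Agent.Lib.Transfer.SplitResidual
import Mathlib

set_option autoImplicit false
open Cfsg

namespace Cfsg.Agent.S0092

/-- If the Sylow p-subgroups of O^p(G) are abelian then G splits over O^p(G). -/
theorem result {G : Type*} [Group G] [Finite G] {p : ℕ} [Fact p.Prime] (h : ∀ Q : Sylow p (Cfsg.pResidual p G), IsMulCommutative Q) : ∃ K : Subgroup G, K.IsComplement' (Cfsg.pResidual p G) := by
  exact Cfsg.Agent.Lib.Transfer.exists_complement_pResidual h

end Cfsg.Agent.S0092
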