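import Cfsg.Statements.S0095
import Cfsg.Agent.Lib.Transfer.Special
import Mathlib

set_option autoImplicit false
open Cfsg

namespace Cfsg.Agent.S0095

open Cfsg.Agent.Lib.Transfer
open scoped commutatorElement

/-- The order of an extraspecial p-group is an odd power p^(2n+1) of p with n ≥ 1. -/
theorem result {P : Type*} [Group P] [Finite P] {p : ℕ} [Fact p.Prime] (h : Cfsg.IsExtraspecial p P) : ∃ n : ℕ, 1 ≤ n ∧ Nat.card P = p ^ (2 * n + 1) := by
  have hpp : p.Prime := Fact.out
  obtain ⟨⟨hP, hF, hC⟩, hcard⟩ := h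
  have hctop : Subgroup.centralizer ((⊤ : Subgroup P) : Set P) = Subgroup.center P := by
    ext x
    rw [Subgroup.mem_centralizer_iff, Subgroup.mem_center_iff]
    exact ⟨fun h g => h g trivial, fun h g _ => h g⟩
  obtain ⟨m, hm⟩ := card_eq_odd_pow_aux (p := p) (Subgroup.center P) hcard (Nat.card (⊤ : Subgroup P)) ⊤ rfl le_top
    (fun x _ y _ => by rw [← hC]; exact Subgroup.commutator_mem_commutator trivial trivial)
    (by rw [hctop])
    (by rw [hctop, top_inf_eq])
  rw [Subgroup.card_top] at hm
  refine ⟨m, ?_, hm⟩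
  by_contra h0
  have hm0 : m = 0 := by omega
  rw [hm0] at hm
  simp only [mul_zero, zero_add, pow_one] at hm
  have htop : Subgroup.center P = ⊤ := Subgroup.eq_top_of_card_eq _ (by rw [hcard, hm])
  have hcomm : commutator P = ⊥ := by
    rw [eq_bot_iff, commutator_def, Subgroup.commutator_le]
    intro x _ y _
    have : x ∈ Subgroup.center P := by rw [htop]; trivial
    exact commutatorElement_eq_one_iff_commute.mpr (Subgroup.mem_center_iff.mp this y).symm
  rw [hcomm, htop] at hC
  have h1 : Nat.card (⊤ : Subgroup P) = 1 := by rw [← hC]; simp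
  rw [Subgroup.card_top, hm] at h1
  exact hpp.one_lt.ne' h1

end Cfsg.Agent.S0095
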