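import Cfsg.Statements.S0096
import Cfsg.Agent.Lib.Transfer.Special
import Mathlib

set_option autoImplicit false
open Cfsg

namespace Cfsg.Agent.S0096

open Cfsg.Agent.Lib.Transfer
open scoped commutatorElement

/-- For odd p, in a p-group of class at most two the elements of order dividing p generate a subgroup of exponent dividing p. -/
theorem result {P : Type*} [Group P] [Finite P] {p : ℕ} [Fact p.Prime] (hp : p ≠ 2) (hP : IsPGroup p P) (h2 : ⁅commutator P, (⊤ : Subgroup P)⁆ = ⊥) (g : P) (hg : g ∈ Subgroup.closure {x : P | x ^ p = 1}) : g ^ p = 1 := by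
  have hc : ∀ x y u : P, Commute ⁅x, y⁆ u := by
    intro x y u
    have h3 : ⁅⁅x, y⁆, u⁆ ∈ ⁅commutator P, (⊤ : Subgroup P)⁆ :=
      Subgroup.commutator_mem_commutator (Subgroup.commutator_mem_commutator trivial trivial) trivial
    rw [h2] at h3
    exact commutatorElement_eq_one_iff_commute.mp h3
  induction hg using Subgroup.closure_induction with
  | mem x hx => exact hx
  | one => simp
  | mul x y _ _ hx hy =>
    rw [mul_pow_of_comm_pow hp (hc _ _ _) (hc _ _ _), hx, hy, one_mul]
    rw [← comm_pow_left (hc _ _ _), hy]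
    simp
  | inv x _ hx => rw [inv_pow, hx, inv_one]

end Cfsg.Agent.S0096
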