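import Cfsg.Statements.S0097
import Cfsg.Agent.Lib.Transfer.Special
import Mathlib

set_option autoImplicit false
open Cfsg

namespace Cfsg.Agent.S0097

open Cfsg.Agent.Lib.Transfer
open scoped commutatorElement

/-- For odd p and E extraspecial, the subgroup generated by the elements of order dividing p has exponent dividing p and index at most p. -/
theorem result {E : Type*} [Group E] [Finite E] {p : ℕ} [Fact p.Prime] (hp : p ≠ 2) (h : Cfsg.IsExtraspecial p E) : (Subgroup.closure {x : E | x ^ p = 1}).index ≤ p ∧ ∀ g ∈ Subgroup.closure {x : E | x ^ p = 1}, g ^ p = 1 := by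
  obtain ⟨hS, hcard⟩ := h
  have hS' := hS
  obtain ⟨hP, hF, hC⟩ := hS'
  have hcz : ∀ x y : E, ⁅x, y⁆ ∈ Subgroup.center E := by
    intro x y
    rw [← hC]; exact Subgroup.commutator_mem_commutator trivial trivial
  have hc : ∀ x y u : E, Commute ⁅x, y⁆ u := fun x y u =>
    (Subgroup.mem_center_iff.mp (hcz x y) u).symm
  -- the power map is a homomorphism
  let f : E →* E := MonoidHom.mk' (fun x => x ^ p) (by
    intro x y
    exact mul_pow_of_comm_pow hp (hc _ _ _) (hc _ _ _) (special_center_pow hS (hcz _ _)))
  have hclosure : Subgroup.closure {x : E | x ^ p = 1} = f.ker := by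
    apply le_antisymm
    · rw [Subgroup.closure_le]
      intro x hx
      exact hx
    · intro x hx
      exact Subgroup.subset_closure hx
  rw [hclosure]
  constructor
  · rw [Subgroup.index_ker]
    have hle : f.range ≤ Subgroup.center E := by
      rintro _ ⟨x, rfl⟩
      show x ^ p ∈ _
      rw [← hF]; exact pow_mem_frattini hP x
    calc Nat.card f.range ≤ Nat.card (Subgroup.center E) := Subgroup.card_le_of_le hle
      _ = p := hcard
  · intro g hg
    exact hg

end Cfsg.Agent.S0097
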