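import Cfsg.Statements.S0101
import Cfsg.Agent.Lib.Transfer.Comp
import Cfsg.Agent.Lib.Core.Frattini
import Cfsg.Agent.Lib.PGroup.Basic
import Mathlib

set_option autoImplicit false
open Cfsg

namespace Cfsg.Agent.S0101

open Cfsg.Agent.Lib.Transfer
open scoped commutatorElement IsMulCommutative

/-- In a perfect central extension, the kernel meets each Sylow p-subgroup P inside the Frattini subgroup of P. -/
theorem result {H : Type*} {G : Type*} [Group H] [Group G] [Finite H] (σ : H →* G) (hσ : Function.Surjective σ) (hc : σ.ker ≤ Subgroup.center H) (hH : commutator H = ⊤) {p : ℕ} [Fact p.Prime] (P : Sylow p H) : σ.ker ⊓ (P : Subgroup H) ≤ (frattini P).map (P : Subgroup H).subtype := by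
  have hp : p.Prime := Fact.out
  rintro z ⟨hz1, hz2⟩
  refine ⟨⟨z, hz2⟩, ?_, rfl⟩
  rw [SetLike.mem_coe, Cfsg.Agent.Lib.Core.mem_frattini_iff]
  intro M hM
  by_contra hzM
  have hPp : IsPGroup p (P : Subgroup H) := P.isPGroup'
  have hidx : M.index = p := Cfsg.Agent.Lib.PGroup.index_eq_prime_of_isCoatom hPp hM
  haveI hMn : M.Normal := Cfsg.Agent.Lib.PGroup.normal_of_index_eq_prime hPp hidx
  have hcard : Nat.card ((P : Subgroup H) ⧸ M) = p := hidx
  haveI := isCyclic_of_prime_card (p := p) hcard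
  haveI : IsMulCommutative ((P : Subgroup H) ⧸ M) := IsCyclic.isMulCommutative
  let φ : (P : Subgroup H) →* (P : Subgroup H) ⧸ M := QuotientGroup.mk' M
  have h1 := transfer_eq_pow_of_central φ ⟨z, hz2⟩ (hc hz1)
  have h2 : MonoidHom.transfer φ z = 1 := by
    have : z ∈ (MonoidHom.transfer φ).ker := by
      have hle : commutator H ≤ (MonoidHom.transfer φ).ker := by
        rw [commutator_def, Subgroup.commutator_le]
        intro a _ b _
        rw [MonoidHom.mem_ker, map_commutatorElement, commutatorElement_eq_one_iff_mul_comm]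
        exact mul_comm _ _
      apply hle
      rw [hH]; trivial
    exact this
  rw [h2] at h1
  have h3 : orderOf (φ ⟨z, hz2⟩) ∣ (P : Subgroup H).index := orderOf_dvd_of_pow_eq_one h1.symm
  have h4 : orderOf (φ ⟨z, hz2⟩) ∣ p := by
    have := orderOf_dvd_natCard (φ ⟨z, hz2⟩)
    rwa [hcard] at this
  have h5 : orderOf (φ ⟨z, hz2⟩) = 1 := by
    apply Nat.eq_one_of_dvd_coprimes ?_ dvd_rfl h4
    refine Nat.Coprime.coprime_dvd_left h3 ?_
    rw [Nat.coprime_comm, Nat.Prime.coprime_iff_not_dvd hp]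
    exact P.not_dvd_index
  rw [orderOf_eq_one_iff] at h5
  exact hzM ((QuotientGroup.eq_one_iff _).mp h5)

end Cfsg.Agent.S0101
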