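import Cfsg.Statements.S0102
import Cfsg.Agent.S0088
import Cfsg.Agent.Lib.Transfer.Comp
import Mathlib

set_option autoImplicit false
open Cfsg

namespace Cfsg.Agent.S0102

open Cfsg.Agent.Lib.Transfer

/-- A finite perfect group with cyclic Sylow p-subgroups has no perfect central extension whose kernel has order divisible by p. -/
theorem result {G : Type*} {H : Type*} [Group G] [Group H] [Finite G] [Finite H] (hG : commutator G = ⊤) {p : ℕ} [Fact p.Prime] (hcyc : ∀ P : Sylow p G, IsCyclic P) (σ : H →* G) (hσ : Function.Surjective σ) (hz : σ.ker ≤ Subgroup.center H) (hH : commutator H = ⊤) : ¬ p ∣ Nat.card σ.ker := by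
  have hp : p.Prime := Fact.out
  intro hd
  obtain ⟨⟨x, hx⟩, hxo⟩ := exists_prime_orderOf_dvd_card' p hd
  have hxo' : orderOf x = p := by simpa using hxo
  have hzp : IsPGroup p (Subgroup.zpowers x) := by
    apply IsPGroup.iff_card.mpr
    exact ⟨1, by rw [Nat.card_zpowers, hxo', pow_one]⟩
  obtain ⟨Q, hQ⟩ := hzp.exists_le_sylow
  have hxQ : x ∈ (Q : Subgroup H) := hQ (Subgroup.mem_zpowers x)
  -- the Sylow is abelian
  have hc : IsMulCommutative (Q : Subgroup H) := by
    let Q' : Sylow p G := Q.mapSurjective hσ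
    haveI : IsCyclic ((Q : Subgroup H).map σ) := hcyc Q'
    let f : (Q : Subgroup H) →* (Q : Subgroup H).map σ := σ.subgroupMap (Q : Subgroup H)
    have hf : f.ker ≤ Subgroup.center (Q : Subgroup H) := by
      intro y hy
      have hy' : σ (y : H) = 1 := by
        have := congrArg Subtype.val (MonoidHom.mem_ker.mp hy)
        simpa [f] using this
      rw [Subgroup.mem_center_iff]
      intro g
      apply Subtype.ext
      exact Subgroup.mem_center_iff.mp (hz hy') g
    exact f.isMulCommutative_of_isCyclic_of_ker_le_center hf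
  have hcop : Nat.Coprime (Nat.card (Q : Subgroup H)) (Q : Subgroup H).index := by
    obtain ⟨k, hk⟩ := IsPGroup.iff_card.mp Q.isPGroup'
    rw [hk]
    exact Nat.Coprime.pow_left k ((Nat.Prime.coprime_iff_not_dvd hp).mpr Q.not_dvd_index)
  have h1 := Cfsg.Agent.S0088.result (Q : Subgroup H) hc hcop
  have h2 : x ∈ (Q : Subgroup H) ⊓ commutator H ⊓ Subgroup.center H := by
    refine ⟨⟨hxQ, ?_⟩, hz hx⟩
    rw [hH]; trivial
  rw [h1] at h2
  have h3 : x = 1 := h2
  rw [h3, orderOf_one] at hxo'
  exact hp.one_lt.ne hxo'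

end Cfsg.Agent.S0102
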