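import Cfsg.Statements.S0104
import Cfsg.Agent.Lib.Transfer.Conj
import Mathlib

set_option autoImplicit false
open Cfsg

namespace Cfsg.Agent.S0104

open Cfsg.Agent.Lib.Transfer in
/-- A subgroup Z of a Sylow p-subgroup P that is normalized by N_G(P) is weakly closed in P exactly when it is normal in every Sylow p-subgroup containing it. -/
theorem result {G : Type*} [Group G] [Finite G] {p : ℕ} [Fact p.Prime] (P : Sylow p G) (Z : Subgroup G) (hZP : Z ≤ (P : Subgroup G)) (hZN : Subgroup.normalizer (P : Set G) ≤ Subgroup.normalizer (Z : Set G)) : Cfsg.IsWeaklyClosed Z P ↔ ∀ R : Sylow p G, Z ≤ (R : Subgroup G) → (R : Subgroup G) ≤ Subgroup.normalizer (Z : Set G) := by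
  have hPN : (P : Subgroup G) ≤ Subgroup.normalizer (Z : Set G) := le_trans P.le_normalizer hZN
  constructor
  · rintro ⟨-, hW⟩ R hZR
    obtain ⟨a, ha⟩ := sylow_exists_conj P R
    have h1 : Z.map (MulAut.conj a⁻¹).toMonoidHom ≤ (P : Subgroup G) := by
      intro x hx
      rw [mem_map_conj, inv_inv] at hx
      have := (ha (a * x * a⁻¹)).mp (hZR (by simpa [mul_assoc] using hx))
      simpa [mul_assoc] using this
    have h2 := hW a⁻¹ h1
    have h3 : a⁻¹ ∈ Subgroup.normalizer (Z : Set G) := mem_normalizer_of_map_conj_eq h2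
    have h4 : a ∈ Subgroup.normalizer (Z : Set G) := by simpa using inv_mem h3
    intro x hx
    have hx' := (ha x).mp hx
    have := mul_mem (mul_mem h4 (hPN hx')) (inv_mem h4)
    simpa [mul_assoc] using this
  · intro h
    refine ⟨hZP, ?_⟩
    intro g hg
    apply map_conj_eq_of_mem_normalizer
    -- Z ≤ g⁻¹ P g =: R
    let R : Sylow p G := g⁻¹ • P
    have hRmem : ∀ x, x ∈ (R : Subgroup G) ↔ g * x * g⁻¹ ∈ (P : Subgroup G) := by
      intro x
      simp only [R, sylow_smul_mem, inv_inv]
    have hZR : Z ≤ (R : Subgroup G) := by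
      intro z hz
      rw [hRmem]
      exact hg (conj_mem_map_conj hz)
    have hRN := h R hZR
    obtain ⟨c, hcN, hc⟩ := sylow_conj_in_subgroup P R _ hPN hRN
    have hng : c⁻¹ * g⁻¹ ∈ Subgroup.normalizer ((P : Subgroup G) : Set G) := by
      apply mem_normalizer_of_conj_mem
      intro x hx
      have h1 : g⁻¹ * x * g ∈ (R : Subgroup G) := by
        rw [hRmem]; simpa [mul_assoc] using hx
      have h2 := (hc _).mp h1
      simpa [mul_assoc] using h2
    have h5 := hZN hng
    have h6 : g⁻¹ ∈ Subgroup.normalizer (Z : Set G) := by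
      have := mul_mem hcN h5
      simpa using this
    simpa using inv_mem h6

end Cfsg.Agent.S0104
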