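import Cfsg.Statements.S0105
import Cfsg.Agent.Lib.Transfer.Comp
import Mathlib

set_option autoImplicit false
open Cfsg

namespace Cfsg.Agent.S0105

open Cfsg.Agent.Lib.Transfer
open scoped commutatorElement

/-- With an abelian Sylow p-subgroup P, some quotient of G is isomorphic to the part of P central in N_G(P). -/
theorem result {G : Type*} [Group G] [Finite G] {p : ℕ} [Fact p.Prime] (P : Sylow p G) (hP : IsMulCommutative P) : ∃ (N : Subgroup G) (hN : N.Normal), Nonempty (G ⧸ N ≃* ((P : Subgroup G) ⊓ Subgroup.centralizer (Subgroup.normalizer (P : Set G) : Set G) : Subgroup G)) := by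
  have hp : p.Prime := Fact.out
  set Nm := Subgroup.normalizer (P : Set G) with hNm
  let D : Subgroup P := ⁅(P : Subgroup G), Nm⁆.subgroupOf (P : Subgroup G)
  haveI : D.Normal := by
    constructor
    intro n hn g
    have : g * n * g⁻¹ = n := by
      rw [hP.is_comm.comm g n]; group
    rw [this]; exact hn
  haveI : IsMulCommutative (P ⧸ D) := ⟨⟨fun a b => by
    induction a using QuotientGroup.induction_on
    induction b using QuotientGroup.induction_on
    rw [← QuotientGroup.mk_mul, ← QuotientGroup.mk_mul, hP.is_comm.comm]⟩⟩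
  have hpg : IsPGroup p ((P : Subgroup G) ⧸ D) := P.isPGroup'.to_quotient _
  have hcop : (Nat.card ((P : Subgroup G) ⧸ D)).Coprime (P : Subgroup G).index := by
    obtain ⟨k, hk⟩ := IsPGroup.iff_card.mp hpg
    rw [hk]
    exact Nat.Coprime.pow_left k ((Nat.Prime.coprime_iff_not_dvd Fact.out).mpr P.not_dvd_index)
  obtain ⟨f, -, hsurj, -, -⟩ := transfer_package (P : Subgroup G) D hcop (by
    intro x g hg
    haveI : IsMulCommutative P := hP
    obtain ⟨n, hn, hgn⟩ := P.conj_eq_normalizer_conj_of_mem (x : G) g x.2 hg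
    show (((x⁻¹ * ⟨g⁻¹ * (x : G) * g, hg⟩ : P) : P) : G) ∈ ⁅(P : Subgroup G), Nm⁆
    have : (((x⁻¹ * ⟨g⁻¹ * (x : G) * g, hg⟩ : P) : P) : G) = ⁅(x : G)⁻¹, n⁻¹⁆ := by
      simp [commutatorElement_def, mul_assoc, hgn]
    rw [this]
    exact Subgroup.commutator_mem_commutator (inv_mem x.2) (inv_mem hn))
  refine ⟨f.ker, inferInstance, ⟨?_⟩⟩
  have hPN : (P : Subgroup G) ≤ Nm := Subgroup.le_normalizer
  have hcop2 : Nat.Coprime (Nat.card (P : Subgroup G)) ((P : Subgroup G).relIndex Nm) := by
    obtain ⟨k, hk⟩ := IsPGroup.iff_card.mp P.isPGroup'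
    rw [hk]
    refine Nat.Coprime.pow_left k ((Nat.Prime.coprime_iff_not_dvd hp).mpr ?_)
    intro hd
    have := Subgroup.relIndex_mul_index hPN
    exact P.not_dvd_index (this ▸ hd.trans (dvd_mul_right _ _))
  set C := (P : Subgroup G) ⊓ Subgroup.centralizer (Nm : Set G) with hC
  have hCP : C ≤ (P : Subgroup G) := inf_le_left
  let i : C →* (P : Subgroup G) ⧸ D := (QuotientGroup.mk' D).comp (Subgroup.inclusion hCP)
  have hbij : Function.Bijective i := by
    constructor
    · rw [injective_iff_map_eq_one]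
      intro y hy
      have h1 : Subgroup.inclusion hCP y ∈ D := (QuotientGroup.eq_one_iff _).mp hy
      have h2 : (y : G) ∈ ⁅(P : Subgroup G), Nm⁆ ⊓ C := ⟨h1, y.2⟩
      rw [(subgroup_decomp (P : Subgroup G) Nm hPN le_rfl hP hcop2).1] at h2
      exact Subtype.ext h2
    · intro q
      obtain ⟨x, rfl⟩ := QuotientGroup.mk'_surjective D q
      obtain ⟨d, hd, c, hc, hx⟩ := subgroup_decomp_elem (P : Subgroup G) Nm hPN le_rfl hP hcop2 x x.2
      refine ⟨⟨c, hc⟩, ?_⟩
      show QuotientGroup.mk' D (Subgroup.inclusion hCP ⟨c, hc⟩) = QuotientGroup.mk' D x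
      apply QuotientGroup.eq.mpr
      show (((Subgroup.inclusion hCP ⟨c, hc⟩)⁻¹ * x : P) : G) ∈ ⁅(P : Subgroup G), Nm⁆
      have hd' : d ∈ (P : Subgroup G) := by
        have hle : ⁅(P : Subgroup G), Nm⁆ ≤ (P : Subgroup G) := by
          rw [Subgroup.commutator_le]
          intro t ht n hn
          have e : ⁅t, n⁆ = t * (n * t⁻¹ * n⁻¹) := by simp [commutatorElement_def, mul_assoc]
          rw [e]
          exact mul_mem ht (conj_mem_of_mem_normalizer hn (inv_mem ht))
        exact hle hd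
      have e2 : (((Subgroup.inclusion hCP ⟨c, hc⟩)⁻¹ * x : P) : G) = d := by
        have hcomm : d * c = c * d := congrArg Subtype.val (hP.is_comm.comm ⟨d, hd'⟩ ⟨c, hc.1⟩)
        show c⁻¹ * (x : G) = d
        rw [hx, hcomm]; group
      rw [e2]; exact hd
  exact (QuotientGroup.quotientKerEquivOfSurjective f hsurj).trans (MulEquiv.ofBijective i hbij).symm

end Cfsg.Agent.S0105
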