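import Cfsg.Statements.S0110
import Cfsg.Agent.Lib.Transfer.Special
import Cfsg.Agent.Lib.PGroup.Pairing
import Mathlib

set_option autoImplicit false
open Cfsg

namespace Cfsg.Agent.S0110

open Cfsg.Agent.Lib.Transfer
open scoped commutatorElement

/-- In a p-group G, an extraspecial subgroup E with [G, E] ≤ Z(E) satisfies G = E C_G(E). -/
theorem result {G : Type*} [Group G] [Finite G] {p : ℕ} [Fact p.Prime] (hG : IsPGroup p G) (E : Subgroup G) (hE : Cfsg.IsExtraspecial p E) (h : ⁅(⊤ : Subgroup G), E⁆ ≤ E ⊓ Subgroup.centralizer (E : Set G)) : E ⊔ Subgroup.centralizer (E : Set G) = ⊤ := by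
  have hpp : p.Prime := Fact.out
  obtain ⟨⟨hEp, hF, hC⟩, hcard⟩ := hE
  -- `E` is normal
  haveI hEn : E.Normal := by
    constructor
    intro e he g
    have e1 : g * e * g⁻¹ = ⁅g, e⁆ * e := by simp [commutatorElement_def]
    rw [e1]
    exact mul_mem (h (Subgroup.commutator_mem_commutator trivial he)).1 he
  set Z := E ⊓ Subgroup.centralizer (E : Set G) with hZ
  have hZcard : Nat.card Z = p := by
    rw [← hcard]
    have hm : (Subgroup.center E).map E.subtype = Z := by
      ext x
      constructor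
      · rintro ⟨y, hy, rfl⟩
        refine ⟨y.2, Subgroup.mem_centralizer_iff.mpr fun g hg => ?_⟩
        exact congrArg Subtype.val (Subgroup.mem_center_iff.mp hy ⟨g, hg⟩)
      · rintro ⟨h1, h2⟩
        refine ⟨⟨x, h1⟩, Subgroup.mem_center_iff.mpr fun g => ?_, rfl⟩
        exact Subtype.ext (Subgroup.mem_centralizer_iff.mp h2 g g.2)
    rw [← hm]
    exact Subgroup.card_map_of_injective E.subtype_injective
  haveI hZp : Fact (Nat.card Z).Prime := ⟨hZcard ▸ hpp⟩
  have hC1 : Subgroup.centralizer (E : Set G) ≤ ⊤ := le_top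
  by_cases hbot : ⁅(⊤ : Subgroup G), E⁆ = ⊥
  · -- `E` is central
    have : Subgroup.centralizer (E : Set G) = ⊤ := by
      rw [eq_top_iff]
      intro g _
      rw [Subgroup.mem_centralizer_iff]
      intro e he
      have h2 : ⁅g, e⁆ ∈ ⁅(⊤ : Subgroup G), E⁆ := Subgroup.commutator_mem_commutator trivial he
      rw [hbot] at h2
      exact (commutatorElement_eq_one_iff_commute.mp h2).symm
    rw [this, sup_top_eq]
  -- the commutator is `Z`, of order `p`, central in `G`
  have hcZ : ⁅(⊤ : Subgroup G), E⁆ = Z := by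
    have h2 : (⁅(⊤ : Subgroup G), E⁆).subgroupOf Z = ⊥ ∨ (⁅(⊤ : Subgroup G), E⁆).subgroupOf Z = ⊤ :=
      Subgroup.eq_bot_or_eq_top_of_prime_card _
    rcases h2 with h2 | h2
    · exfalso
      apply hbot
      rw [eq_bot_iff]
      intro x hx
      have : (⟨x, h hx⟩ : Z) ∈ (⁅(⊤ : Subgroup G), E⁆).subgroupOf Z := hx
      rw [h2] at this
      exact congrArg Subtype.val this
    · apply le_antisymm h
      intro x hx
      have : (⟨x, hx⟩ : Z) ∈ (⁅(⊤ : Subgroup G), E⁆).subgroupOf Z := by rw [h2]; trivial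
      exact this
  haveI hZn : (⁅(⊤ : Subgroup G), E⁆).Normal := inferInstance
  have hcardc : Nat.card ↥⁅(⊤ : Subgroup G), E⁆ = p := by rw [hcZ]; exact hZcard
  have hZcen : ⁅(⊤ : Subgroup G), E⁆ ≤ Subgroup.center G :=
    Cfsg.Agent.Lib.PGroup.le_center_of_normal_of_card_eq_prime hG _ hcardc
  have key := Cfsg.Agent.Lib.PGroup.relIndex_centralizer_eq_of_central_commutator
    (⊤ : Subgroup G) E (by rw [hcardc]; exact hpp)
    (fun z hz a _ => (Subgroup.mem_center_iff.mp (hZcen hz) a).symm)
    (fun z hz a _ => (Subgroup.mem_center_iff.mp (hZcen hz) a).symm)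
    le_top
  -- compare the two indices
  have h3 : (E ⊓ Subgroup.centralizer ((⊤ : Subgroup G) : Set G)) = Z := by
    apply le_antisymm
    · exact inf_le_inf_left _ (Subgroup.centralizer_le le_top)
    · rintro x hx
      rw [← hcZ] at hx
      refine ⟨?_, ?_⟩
      · rw [hcZ] at hx; exact hx.1
      · refine Subgroup.mem_centralizer_iff.mpr ?_
        intro g _
        exact Subgroup.mem_center_iff.mp (hZcen hx) g
  rw [h3, top_inf_eq] at key
  set C := Subgroup.centralizer (E : Set G) with hCdef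
  haveI hCn : C.Normal := Subgroup.normal_centralizer
  have h4 : C.relIndex ⊤ = C.index := Subgroup.relIndex_top_right C
  have h5 : C.relIndex (E ⊔ C) = C.relIndex E := by
    rw [sup_comm]; exact Subgroup.relIndex_sup_left E C
  have h6 : C.relIndex E = Z.relIndex E := by
    rw [hZ, inf_comm]
    exact (Subgroup.inf_relIndex_right C E).symm.trans (by rw [inf_comm])
  have h7 : C.relIndex (E ⊔ C) * (E ⊔ C).index = C.index :=
    Subgroup.relIndex_mul_index le_sup_right
  have h8 : (E ⊔ C).index = 1 := by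
    have hpos : C.index ≠ 0 := Subgroup.index_ne_zero_of_finite
    rw [h5, h6, ← key, h4] at h7
    exact Nat.eq_of_mul_eq_mul_left (Nat.pos_of_ne_zero hpos) (by rw [h7, mul_one])
  exact Subgroup.index_eq_one.mp h8

end Cfsg.Agent.S0110
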