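import Cfsg.Statements.S0111
import Cfsg.Agent.Lib.Transfer.Comp
import Cfsg.Agent.Lib.PGroup.Basic
import Mathlib

set_option autoImplicit false
open Cfsg

namespace Cfsg.Agent.S0111

open Cfsg.Agent.Lib.Transfer
open scoped commutatorElement IsMulCommutative

/-- The Thompson transfer lemma states that an involution of a Sylow 2-subgroup P lying outside a subgroup Q of index 2 in P either lies outside some normal subgroup of index 2 in G or is conjugate to an element of Q. -/
theorem result {G : Type*} [Group G] [Finite G] (P : Sylow 2 G) (Q : Subgroup G) (hQP : Q ≤ (P : Subgroup G)) (hQi : Q.relIndex (P : Subgroup G) = 2) (u : G) (hu : orderOf u = 2) (huP : u ∈ (P : Subgroup G)) (huQ : u ∉ Q) : (∃ M : Subgroup G, M.Normal ∧ M.index = 2 ∧ u ∉ M) ∨ ∃ g : G, g * u * g⁻¹ ∈ Q := by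
  by_cases hconj : ∃ g : G, g * u * g⁻¹ ∈ Q
  · exact Or.inr hconj
  left
  push Not at hconj
  let M : Subgroup (P : Subgroup G) := Q.subgroupOf (P : Subgroup G)
  have hidx : M.index = 2 := hQi
  haveI hMn : M.Normal := Subgroup.normal_of_index_eq_two hidx
  have hcard : Nat.card ((P : Subgroup G) ⧸ M) = 2 := hidx
  haveI := isCyclic_of_prime_card (p := 2) hcard
  haveI : IsMulCommutative ((P : Subgroup G) ⧸ M) := IsCyclic.isMulCommutative
  let φ : (P : Subgroup G) →* (P : Subgroup G) ⧸ M := QuotientGroup.mk' M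
  have hφ1 : ∀ x : (P : Subgroup G), (x : G) ∉ Q → ∀ y : (P : Subgroup G), (y : G) ∉ Q → φ x = φ y := by
    intro x hx y hy
    -- a group of order two
    have hxne : φ x ≠ 1 := fun h => hx (Subgroup.mem_subgroupOf.mp ((QuotientGroup.eq_one_iff (N := M) x).mp h))
    have hyne : φ y ≠ 1 := fun h => hy (Subgroup.mem_subgroupOf.mp ((QuotientGroup.eq_one_iff (N := M) y).mp h))
    have h2 : ∀ a b : (P : Subgroup G) ⧸ M, a ≠ 1 → b ≠ 1 → a = b := by
      intro a b ha hb
      by_contra hab
      have : Nat.card ((P : Subgroup G) ⧸ M) ≥ 3 := by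
        classical
        haveI := Fintype.ofFinite ((P : Subgroup G) ⧸ M)
        rw [Nat.card_eq_fintype_card]
        have hs : ({1, a, b} : Finset ((P : Subgroup G) ⧸ M)).card = 3 :=
          Finset.card_eq_three.mpr ⟨1, a, b, ha.symm, hb.symm, hab, rfl⟩
        rw [← hs]
        exact Finset.card_le_univ _
      omega
    exact h2 _ _ hxne hyne
  have hu2 : u ^ 2 = 1 := by
    rw [← hu]; exact pow_orderOf_eq_one u
  have hV : MonoidHom.transfer φ u = φ ⟨u, huP⟩ ^ (P : Subgroup G).index := by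
    refine transfer_eq_pow_of_stable' φ ⟨u, huP⟩ fun k g hg => ?_
    simp only at hg ⊢
    rcases Nat.even_or_odd' k with ⟨m, rfl | rfl⟩
    · have h1 : (⟨g⁻¹ * u ^ (2 * m) * g, hg⟩ : (P : Subgroup G)) = 1 := by
        apply Subtype.ext
        simp [pow_mul, hu2]
      rw [h1, map_one]
      have h3 : φ ⟨u, huP⟩ ^ 2 = 1 := by
        rw [← map_pow]
        have : (⟨u, huP⟩ : (P : Subgroup G)) ^ 2 = 1 := Subtype.ext hu2
        rw [this, map_one]
      rw [pow_mul, h3, one_pow]
    · have h0 : u ^ (2 * m + 1) = u := by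
        rw [pow_succ, pow_mul, hu2, one_pow, one_mul]
      have h3 : φ ⟨u, huP⟩ ^ (2 * m + 1) = φ ⟨u, huP⟩ := by
        rw [← map_pow]
        congr 1
        exact Subtype.ext h0
      rw [h3]
      apply hφ1
      · show g⁻¹ * u ^ (2 * m + 1) * g ∉ Q
        rw [h0]
        have := hconj g⁻¹
        simpa using this
      · exact huQ
  have hφu : φ ⟨u, huP⟩ ≠ 1 :=
    fun h => huQ (Subgroup.mem_subgroupOf.mp ((QuotientGroup.eq_one_iff (N := M) ⟨u, huP⟩).mp h))
  have hVu : MonoidHom.transfer φ u = φ ⟨u, huP⟩ := by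
    rw [hV]
    have hodd : Odd (P : Subgroup G).index := by
      rw [← Nat.not_even_iff_odd, even_iff_two_dvd]
      exact P.not_dvd_index
    obtain ⟨m, hm⟩ := hodd
    rw [hm, pow_succ, pow_mul]
    have h3 : φ ⟨u, huP⟩ ^ 2 = 1 := by
      rw [← map_pow]
      have : (⟨u, huP⟩ : (P : Subgroup G)) ^ 2 = 1 := Subtype.ext hu2
      rw [this, map_one]
    rw [h3, one_pow, one_mul]
  refine ⟨(MonoidHom.transfer φ).ker, inferInstance, ?_, ?_⟩
  · rw [Subgroup.index_ker]
    have hle : Nat.card (MonoidHom.transfer φ).range ∣ 2 := by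
      have := Subgroup.card_subgroup_dvd_card (MonoidHom.transfer φ).range
      rwa [hcard] at this
    have hne : Nat.card (MonoidHom.transfer φ).range ≠ 1 := by
      intro h1
      have h2 : (MonoidHom.transfer φ).range = ⊥ := Subgroup.card_eq_one.mp h1
      have h3 : MonoidHom.transfer φ u ∈ (MonoidHom.transfer φ).range := ⟨u, rfl⟩
      rw [h2, hVu] at h3
      exact hφu h3
    rcases (Nat.dvd_prime Nat.prime_two).mp hle with h | h
    · exact absurd h hne
    · exact h
  · intro h
    have h2 : MonoidHom.transfer φ u = 1 := h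
    rw [hVu] at h2
    exact hφu h2

end Cfsg.Agent.S0111
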