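import Cfsg.Statements.S0116
import Cfsg.Agent.Lib.Transfer.Alperin
import Mathlib

set_option autoImplicit false
open Cfsg

namespace Cfsg.Agent.S0116

open Cfsg.Agent.Lib.Transfer

/-- The Alperin fusion Theorem states that conjugation between subsets of a Sylow p-subgroup P factors through normalizers of tame intersections P ∩ Q_i with other Sylow p-subgroups, carrying the subset along step by step. -/
theorem result {G : Type*} [Group G] [Finite G] {p : ℕ} [Fact p.Prime] (P : Sylow p G) (A : Set G) (g : G) (hA : A ⊆ (P : Set G)) (hAg : (fun a => g⁻¹ * a * g) '' A ⊆ (P : Set G)) : ∃ (n : ℕ) (Q : Fin n → Sylow p G) (x : Fin n → G), (List.ofFn x).prod = g ∧ (∀ i : Fin n, x i ∈ Subgroup.normalizer ((((P : Subgroup G) ⊓ (Q i : Subgroup G)) : Subgroup G) : Set G) ∧ ¬ p ∣ ((P : Subgroup G) ⊓ Subgroup.normalizer ((((P : Subgroup G) ⊓ (Q i : Subgroup G)) : Subgroup G) : Set G)).relIndex (Subgroup.normalizer ((((P : Subgroup G) ⊓ (Q i : Subgroup G)) : Subgroup G) : Set G)) ∧ ¬ p ∣ ((Q i : Subgroup G) ⊓ Subgroup.normalizer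 ((((P : Subgroup G) ⊓ (Q i : Subgroup G)) : Subgroup G) : Set G)).relIndex (Subgroup.normalizer ((((P : Subgroup G) ⊓ (Q i : Subgroup G)) : Subgroup G) : Set G))) ∧ (∀ h : 0 < n, A ⊆ (((P : Subgroup G) ⊓ (Q ⟨0, h⟩ : Subgroup G) : Subgroup G) : Set G)) ∧ ∀ i : Fin n, ∀ h : i.val + 1 < n, (fun a => (((List.ofFn x).take (i.val + 1)).prod)⁻¹ * a * ((List.ofFn x).take (i.val + 1)).prod) '' A ⊆ (((P : Subgroup G) ⊓ (Q ⟨i.val + 1, h⟩ : Subgroup G) : Subgroup G) : Set G) := by
  have hF := alperin_fus P A g hA hAg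
  clear hA hAg
  induction hF with
  | nil A =>
    exact ⟨0, Fin.elim0, Fin.elim0, by simp, fun i => i.elim0, fun h => absurd h (lt_irrefl _),
      fun i => i.elim0⟩
  | cons A Q' y g hy ht hA' _ ih =>
    obtain ⟨n, Q, x, hprod, htame, h0, hs⟩ := ih
    refine ⟨n + 1, Fin.cons Q' Q, Fin.cons y x, ?_, ?_, ?_, ?_⟩
    · rw [List.ofFn_succ]
      simp only [Fin.cons_zero, Fin.cons_succ, List.prod_cons]
      rw [hprod]
    · intro i
      refine Fin.cases ?_ (fun j => ?_) i
      · simp only [Fin.cons_zero]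
        exact ⟨hy, ht.1, ht.2⟩
      · simp only [Fin.cons_succ]
        exact htame j
    · intro _
      exact hA'
    · intro i hi
      rw [List.ofFn_succ]
      simp only [Fin.cons_zero, Fin.cons_succ]
      rw [List.take_succ_cons, List.prod_cons]
      rcases i with ⟨i, hi'⟩
      cases i with
      | zero =>
        simp only [List.take_zero, List.prod_nil, mul_one]
        have := h0 (by omega)
        exact this
      | succ j =>
        have hi2 : j + 1 + 1 < n + 1 := hi
        have h1 := hs ⟨j, by omega⟩ (by simp only; omega)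
        have e : (fun a => (y * ((List.ofFn x).take (j + 1)).prod)⁻¹ * a * (y * ((List.ofFn x).take (j + 1)).prod)) '' A
            = img ((List.ofFn x).take (j + 1)).prod (img y A) := by
          rw [← img_mul]; rfl
        simp only at e h1 ⊢
        rw [e]
        exact h1

end Cfsg.Agent.S0116
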