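import Cfsg.Statements.S0118
import Cfsg.Agent.Lib.PLocal.GTe
import Cfsg.Agent.Lib.Techniques.CentricRadical
import Cfsg.Agent.Lib.Techniques.StrongMain
import Mathlib

set_option autoImplicit false
open Cfsg

namespace Cfsg.Agent.S0118

open Cfsg.Agent.Lib.Techniques Cfsg.Agent.Lib.PLocal Cfsg.Agent.Lib.PLocal.QuadMat

universe u

/-- The functor `Z(J_e(Q))`. -/
def zjeFun (p : ℕ) : ∀ (Q : Type u) [Group Q], Subgroup Q := fun Q _ => centerThompsonOf p (⊤ : Subgroup Q)

section

variable {p : ℕ} [hfp : Fact p.Prime]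

theorem inducedFunctor_zjeFun {X : Type u} [Group X] [Finite X] (T : Subgroup X) :
    inducedFunctor (zjeFun p) T = centerThompsonOf p T := by
  have h1 := GT.centerThompsonOf_map_of_injOn (p := p) (T := (⊤ : Subgroup T)) T.subtype (fun x _ h => Subtype.ext h)
  have h2 : (⊤ : Subgroup T).map T.subtype = T := by
    rw [← MonoidHom.range_eq_map, Subgroup.range_subtype]
  rw [h2] at h1
  exact h1.symm

theorem isCharPFunctor_zjeFun : IsCharPFunctor.{u} p (zjeFun p) := by
  refine ⟨?_, ?_⟩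
  · intro Q _ _ hQ hN
    have hQ' : IsPGroup p (⊤ : Subgroup Q) := by
      intro x
      obtain ⟨k, hk⟩ := hQ x.1
      exact ⟨k, Subtype.ext hk⟩
    exact GT.centerThompsonOf_ne_bot hQ' top_ne_bot
  · intro Q R _ _ _ hQ φ
    haveI : Finite R := Finite.of_equiv Q φ.toEquiv
    have h1 := GT.centerThompsonOf_map_of_injOn (p := p) (T := (⊤ : Subgroup Q)) φ.toMonoidHom (fun x _ h => by
      have := φ.injective (a₁ := x) (a₂ := 1) (by rw [map_one]; exact h)
      exact this)
    have h2 : (⊤ : Subgroup Q).map φ.toMonoidHom = ⊤ := by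
      rw [← MonoidHom.range_eq_map]
      exact MonoidHom.range_eq_top.2 φ.surjective
    rw [h2] at h1
    exact h1.symm

end

/-- Glauberman's ZJ-Theorem, in the case of groups with no section isomorphic to SL(2,p), p odd: conjugation of subsets of a Sylow p-subgroup P inside P is always induced from the normalizer of Z(J(P)). -/
theorem result {G : Type*} [Group G] [Finite G] {p : ℕ} [Fact p.Prime] (hp : p ≠ 2) (hfree : ¬ ∃ (H K : Subgroup G) (hK : (K.subgroupOf H).Normal), Nonempty ((H ⧸ K.subgroupOf H) ≃* Matrix.SpecialLinearGroup (Fin 2) (ZMod p))) (P : Sylow p G) (A : Set G) (hA : A ⊆ (P : Set G)) (g : G) (hAg : (fun a => g⁻¹ * a * g) '' A ⊆ (P : Set G)) : ∃ n ∈ Subgroup.normalizer (Cfsg.centerThompsonOf p (P : Subgroup G) : Set G), ∀ a ∈ A, n⁻¹ * a * n = g⁻¹ * a * g := by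
  have hS : NoSL2 p G := fun K L hL => ⟨fun iso => hfree ⟨K, L, hL, ⟨iso⟩⟩⟩
  have hc : FamilyControlsStrongFusionIn p ((fun W => inducedFunctor (G := G) W) '' ({zjeFun p} : Set (∀ (Q : Type _) [Group Q], Subgroup Q))) ⊤ := by
    refine strong_control_global (by rintro W rfl; exact isCharPFunctor_zjeFun) ?_
    intro K R hR hc
    have h1 : NoSL2 p (↥K ⧸ R.subgroupOf K) := (hS.subgroup K).quotient _
    obtain ⟨T⟩ : Nonempty (Sylow p (↥K ⧸ R.subgroupOf K)) := inferInstance
    refine family_of_normal T ?_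
    rw [inducedFunctor_zjeFun]
    exact zje_normal hp T hc (fun W _ hW a _ hq =>
      haveI := isPStableOn_pgroup_of_noSL2 hp h1 W hW a hq
      this)
  have h𝓦 : ∀ W ∈ ({zjeFun p} : Set (∀ (Q : Type _) [Group Q], Subgroup Q)), IsCharPFunctor p W := by
    rintro W rfl
    exact isCharPFunctor_zjeFun
  have hfun := forall_isConjugacyFunctor (X := G) h𝓦
  have hT := sylowIn_top_of_sylow P
  obtain ⟨x, hx, hxa⟩ := famAt_of_controls hfun hc hT A g⁻¹ trivial hA (by
    rintro _ ⟨a, ha, rfl⟩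
    have := hAg ⟨a, ha, rfl⟩
    simpa [MulAut.conj_apply] using this)
  refine ⟨x⁻¹, Subgroup.inv_mem _ (hx.mem_subgroup ?_), fun a ha => ?_⟩
  · rintro y ⟨_, ⟨W', hW', rfl⟩, -, hy⟩
    have e := Set.mem_singleton_iff.1 hW'
    subst e
    have hy' : y ∈ Subgroup.normalizer ((inducedFunctor (zjeFun p) (P : Subgroup G) : Subgroup G) : Set G) := hy
    rw [inducedFunctor_zjeFun] at hy'
    exact hy'
  · have := hxa a ha
    simpa using this

end Cfsg.Agent.S0118
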