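import Cfsg.Statements.S0121
import Cfsg.Agent.Lib.Transfer.Comp
import Mathlib

set_option autoImplicit false
open Cfsg

namespace Cfsg.Agent.S0121

/-- A p'-automorphism of a p-group acting trivially on a critical subgroup is trivial. -/
theorem result {G : Type*} [Group G] [Finite G] {p : ℕ} [Fact p.Prime] (hG : IsPGroup p G) (H : Subgroup G) (hH : H.Characteristic) (h1 : (frattini H).map H.subtype ≤ Subgroup.centralizer (H : Set G)) (h2 : ⁅H, (⊤ : Subgroup G)⁆ ≤ H ⊓ Subgroup.centralizer (H : Set G)) (h3 : Subgroup.centralizer (H : Set G) ≤ H) (a : MulAut G) (ha : Nat.Coprime (orderOf a) p) (h : ∀ x ∈ H, a x = x) : a = 1 := by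
  have hpp : p.Prime := Fact.out
  haveI hN : H.Normal := Subgroup.normal_of_characteristic H
  refine MulEquiv.ext fun g => ?_
  show a g = g
  set c := g⁻¹ * a g with hc
  have hcC : c ∈ Subgroup.centralizer (H : Set G) := by
    refine Subgroup.mem_centralizer_iff.mpr fun x hx => ?_
    have h4 : g * x * g⁻¹ ∈ H := hN.conj_mem x hx g
    have h5 := h _ h4
    rw [map_mul, map_mul, map_inv, h x hx] at h5
    -- a g * x * (a g)⁻¹ = g * x * g⁻¹
    have h6 : a g * x = g * x * g⁻¹ * a g := by
      rw [← h5]; group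
    calc x * c = x * g⁻¹ * a g := by rw [hc]; group
      _ = g⁻¹ * (g * x * g⁻¹ * a g) := by group
      _ = g⁻¹ * (a g * x) := by rw [h6]
      _ = c * x := by rw [hc]; group
  have hcH : c ∈ H := h3 hcC
  have hac : a c = c := h c hcH
  have hak : ∀ k : ℕ, (a ^ k) g = g * c ^ k := by
    intro k
    induction k with
    | zero => simp
    | succ k ih =>
      have hag : a g = g * c := by rw [hc]; group
      rw [pow_succ', MulAut.mul_apply, ih, map_mul, map_pow, hac, hag, pow_succ', mul_assoc]
  have h7 := hak (orderOf a)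
  rw [pow_orderOf_eq_one] at h7
  have h8 : c ^ orderOf a = 1 := by
    have : g = g * c ^ orderOf a := h7
    exact (mul_eq_left.mp this.symm)
  obtain ⟨k, hk⟩ := hG c
  have h9 : orderOf c ∣ p ^ k := orderOf_dvd_of_pow_eq_one hk
  have h10 : orderOf c ∣ orderOf a := orderOf_dvd_of_pow_eq_one h8
  have h11 : orderOf c = 1 :=
    Nat.eq_one_of_dvd_coprimes (Nat.Coprime.pow_right k ha) h10 h9
  rw [orderOf_eq_one_iff] at h11
  have : a g = g * c := by rw [hc]; group
  rw [this, h11, mul_one]

end Cfsg.Agent.S0121
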