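import Cfsg.Statements.S0125
import Cfsg.Agent.Lib.Transfer.Cent
import Mathlib

set_option autoImplicit false
open Cfsg

namespace Cfsg.Agent.S0125

open Cfsg.Agent.Lib.Transfer
open Cfsg.Agent.Lib.Techniques

/-- The centralizer of a self-centralizing normal subgroup A of a Sylow p-subgroup is the direct product of A with a normal p'-subgroup. -/
theorem result {G : Type*} [Group G] [Finite G] {p : ℕ} [Fact p.Prime] (R : Sylow p G) (A : Subgroup G) (hAR : A ≤ (R : Subgroup G)) (hAn : (R : Subgroup G) ≤ Subgroup.normalizer (A : Set G)) (hC : (R : Subgroup G) ⊓ Subgroup.centralizer (A : Set G) = A) : ∃ H : Subgroup G, H ≤ Subgroup.centralizer (A : Set G) ∧ Nat.Coprime (Nat.card H) p ∧ Subgroup.centralizer (A : Set G) ≤ Subgroup.normalizer (H : Set G) ∧ H ⊓ A = ⊥ ∧ H ⊔ A = Subgroup.centralizer (A : Set G) := by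
  set C := Subgroup.centralizer (A : Set G) with hCdef
  have hAC : A ≤ C := by rw [← hC]; exact inf_le_right
  have hT : SylowIn p A C := by
    have h1 : SylowIn p (R : Subgroup G) (Subgroup.normalizer (A : Set G)) :=
      (sylowIn_top_of_sylow R).of_le hAn le_top
    have h2 := h1.inf_of_normal (centralizer_le_normalizer_self A) (normalizer_le_normalizer_centralizer A)
    rwa [hC] at h2
  let P : Sylow p C := hT.toSylow
  have hPC : Subgroup.normalizer ((P : Subgroup C) : Set C) ≤ Subgroup.centralizer ((P : Subgroup C) : Set C) := by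
    intro x _
    refine Subgroup.mem_centralizer_iff.mpr fun y hy => ?_
    have hyA : (y : G) ∈ A := hy
    exact Subtype.ext (Subgroup.mem_centralizer_iff.mp x.2 _ hyA)
  obtain ⟨N, hN, hc⟩ := complement_exists_for (hasNormalPComplement_of_burnside P hPC) P
  refine ⟨N.map C.subtype, Subgroup.map_subtype_le _, ?_, ?_, ?_, ?_⟩
  · rw [Subgroup.card_map_of_injective C.subtype_injective]
    exact complement_card_coprime hc
  · intro x hx
    refine Subgroup.mem_normalizer_iff.mpr fun y => ?_
    constructor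
    · rintro ⟨z, hz, rfl⟩
      exact ⟨⟨x, hx⟩ * z * ⟨x, hx⟩⁻¹, hN.conj_mem z hz _, by simp⟩
    · rintro ⟨z, hz, hzy⟩
      refine ⟨⟨x, hx⟩⁻¹ * z * ⟨x, hx⟩, ?_, ?_⟩
      · have := hN.conj_mem z hz (⟨x, hx⟩⁻¹ : C)
        simpa using this
      · simp only [Subgroup.subtype_apply, Subgroup.coe_mul, Subgroup.coe_inv] at hzy ⊢
        rw [show (z : G) = x * y * x⁻¹ from hzy]
        group
  · rw [eq_bot_iff]
    rintro x ⟨⟨z, hz, rfl⟩, hx⟩
    have h1 : z ∈ N ⊓ (P : Subgroup C) := ⟨hz, hx⟩
    rw [disjoint_iff.mp hc.disjoint] at h1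
    have h2 : z = 1 := h1
    rw [h2]; simp
  · have h1 : (N ⊔ (P : Subgroup C)).map C.subtype = C := by
      rw [hc.sup_eq_top, ← MonoidHom.range_eq_map, Subgroup.range_subtype]
    rw [Subgroup.map_sup] at h1
    have h2 : (P : Subgroup C).map C.subtype = A := by
      show (A.subgroupOf C).map C.subtype = A
      rw [Subgroup.subgroupOf_map_subtype, inf_eq_left.mpr hAC]
    rwa [h2] at h1

end Cfsg.Agent.S0125
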