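import Cfsg.Statements.S0132
import Cfsg.Agent.Lib.Transfer.Frobenius
import Cfsg.Agent.Lib.Core.Solvable
import Mathlib

set_option autoImplicit false
open Cfsg

namespace Cfsg.Agent.S0132

open Cfsg.Agent.Lib.Transfer
open scoped commutatorElement

/-- A minimal non-p-nilpotent finite group is a minimal non-nilpotent group with a normal Sylow p-subgroup. -/
theorem result {G : Type*} [Group G] [Finite G] {p : ℕ} [Fact p.Prime] (h1 : ¬ Cfsg.HasNormalPComplement p G) (h2 : ∀ H : Subgroup G, H ≠ ⊤ → Cfsg.HasNormalPComplement p H) : (∀ H : Subgroup G, H ≠ ⊤ → Group.IsNilpotent H) ∧ ¬ Group.IsNilpotent G ∧ ∀ P : Sylow p G, (P : Subgroup G).Normal := by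
  have hpp : p.Prime := Fact.out
  obtain ⟨P₀⟩ : Nonempty (Sylow p G) := inferInstance
  -- a failing element of Frobenius' criterion
  have hfail : ¬ FrobeniusHyp p (P₀ : Subgroup G) := by
    intro H
    obtain ⟨N, hN, hc⟩ := frobenius P₀ H
    exact h1 ⟨P₀, N, hN, hc⟩
  unfold FrobeniusHyp at hfail
  push Not at hfail
  obtain ⟨Q, hQP, g, hgN, hgc, hgC⟩ := hfail
  have hQp : IsPGroup p Q := P₀.isPGroup'.to_le hQP
  -- `G = Q ⟨g⟩`
  have hHtop : Q ⊔ Subgroup.zpowers g = ⊤ := by
    by_contra hne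
    set H := Q ⊔ Subgroup.zpowers g with hH
    have hHN : H ≤ Subgroup.normalizer (Q : Set G) :=
      sup_le Subgroup.le_normalizer ((Subgroup.zpowers_le).mpr hgN)
    have hnc := h2 H hne
    let Q' : Subgroup H := Q.subgroupOf H
    haveI hQ'n : Q'.Normal := Subgroup.normal_subgroupOf_of_le_normalizer hHN
    have hQ'p : IsPGroup p Q' := hQp.of_equiv (Subgroup.subgroupOfEquivOfLe le_sup_left).symm
    have hgH : g ∈ H := Subgroup.mem_sup_right (Subgroup.mem_zpowers g)
    apply hgC
    refine Subgroup.mem_centralizer_iff.mpr fun x hx => ?_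
    have hxH : x ∈ H := Subgroup.mem_sup_left hx
    have h3 := commute_of_normal_pgroup hnc hQ'p (g := ⟨g, hgH⟩) (by rwa [Subgroup.orderOf_mk])
      (x := ⟨x, hxH⟩) hx
    exact (congrArg Subtype.val h3).symm
  have hQN : Subgroup.normalizer (Q : Set G) = ⊤ := by
    rw [eq_top_iff, ← hHtop]
    exact sup_le Subgroup.le_normalizer ((Subgroup.zpowers_le).mpr hgN)
  haveI hQn : Q.Normal := Subgroup.normalizer_eq_top_iff.mp hQN
  -- `G / Q` is abelian
  have hcommQ : commutator G ≤ Q := by
    have hab : ∀ a b : G ⧸ Q, a * b = b * a := by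
      intro a b
      obtain ⟨a', rfl⟩ := QuotientGroup.mk'_surjective _ a
      obtain ⟨b', rfl⟩ := QuotientGroup.mk'_surjective _ b
      obtain ⟨u, hu, t, ht, rfl⟩ := exists_mul_of_mem_sup (show a' ∈ Q ⊔ Subgroup.zpowers g by rw [hHtop]; trivial)
      obtain ⟨v, hv, s, hs, rfl⟩ := exists_mul_of_mem_sup (show b' ∈ Q ⊔ Subgroup.zpowers g by rw [hHtop]; trivial)
      have h3 : QuotientGroup.mk' Q u = 1 := (QuotientGroup.eq_one_iff u).mpr hu
      have h4 : QuotientGroup.mk' Q v = 1 := (QuotientGroup.eq_one_iff v).mpr hv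
      simp only [map_mul, h3, h4, one_mul]
      obtain ⟨i, rfl⟩ := Subgroup.mem_zpowers_iff.mp ht
      obtain ⟨j, rfl⟩ := Subgroup.mem_zpowers_iff.mp hs
      rw [← map_mul, ← map_mul, ← zpow_add, ← zpow_add, add_comm]
    rw [commutator_def, Subgroup.commutator_le]
    intro a _ b _
    rw [← QuotientGroup.eq_one_iff (N := Q)]
    have h3 : QuotientGroup.mk' Q ⁅a, b⁆ = 1 := by
      rw [map_commutatorElement, commutatorElement_eq_one_iff_mul_comm]
      exact hab _ _
    exact h3
  -- `Q` is the Sylow subgroup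
  have hQeq : ∀ P : Sylow p G, (P : Subgroup G) = Q := by
    intro P
    have hle : Q ≤ (P : Subgroup G) := by
      have := (Cfsg.Agent.Lib.Core.le_pCore hQn hQp).trans (Cfsg.Agent.Lib.Core.pCore_le_sylow P)
      exact this
    apply le_antisymm _ hle
    intro x hx
    obtain ⟨q, hq, w, hw, rfl⟩ := exists_mul_of_mem_sup (show x ∈ Q ⊔ Subgroup.zpowers g by rw [hHtop]; trivial)
    obtain ⟨k, rfl⟩ := Subgroup.mem_zpowers_iff.mp hw
    have hgk : g ^ k ∈ (P : Subgroup G) := by
      have : g ^ k = q⁻¹ * (q * g ^ k) := by group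
      rw [this]
      exact mul_mem (inv_mem (hle hq)) hx
    have hco : Nat.Coprime (orderOf (g ^ k)) p :=
      Nat.Coprime.coprime_dvd_left (orderOf_dvd_of_pow_eq_one (by
        rw [← zpow_natCast, ← zpow_mul, mul_comm, zpow_mul, zpow_natCast, pow_orderOf_eq_one, one_zpow])) hgc
    rw [eq_one_of_coprime_of_isPGroup P.isPGroup' hgk hco, mul_one]
    exact hq
  refine ⟨?_, ?_, ?_⟩
  · intro H hH
    obtain ⟨S⟩ : Nonempty (Sylow p H) := inferInstance
    obtain ⟨K, hK, hc⟩ := complement_exists_for (h2 H hH) S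
    haveI := hK
    let T : Subgroup H := Q.subgroupOf H
    haveI hTn : T.Normal := inferInstance
    have hTp : IsPGroup p T := by
      have : Nat.card T ∣ Nat.card Q := card_subgroupOf_dvd Q H
      obtain ⟨k, hk⟩ := IsPGroup.iff_card.mp hQp
      rw [hk] at this
      obtain ⟨i, -, hi⟩ := (Nat.dvd_prime_pow hpp).mp this
      exact IsPGroup.iff_card.mpr ⟨i, hi⟩
    have hST : (S : Subgroup H) ≤ T := by
      intro x hx
      have h5 : IsPGroup p ((S : Subgroup H).map H.subtype) := S.isPGroup'.map _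
      obtain ⟨R, hR⟩ := h5.exists_le_sylow
      have := hR ⟨x, hx, rfl⟩
      rw [hQeq R] at this
      exact this
    have hsup : K ⊔ T = ⊤ := by
      rw [eq_top_iff, ← hc.sup_eq_top]
      exact sup_le_sup_left hST _
    have hKab : IsMulCommutative K := by
      refine ⟨⟨fun a b => ?_⟩⟩
      -- the commutator lies in `K ∩ Q`
      have hcK : ⁅(a : H), (b : H)⁆ ∈ K := by
        have e : ⁅(a : H), (b : H)⁆ = a * ((b : H) * (a : H)⁻¹ * (b : H)⁻¹) := by
          simp [commutatorElement_def, mul_assoc]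
        rw [e]
        exact mul_mem a.2 (hK.conj_mem _ (inv_mem a.2) _)
      have hcQ : ((⁅(a : H), (b : H)⁆ : H) : G) ∈ Q := by
        have e : ((⁅(a : H), (b : H)⁆ : H) : G) = ⁅((a : H) : G), ((b : H) : G)⁆ := by
          simp [commutatorElement_def]
        rw [e]
        exact hcommQ (Subgroup.commutator_mem_commutator trivial trivial)
      have hco := (mem_of_coprime_of_complement hc _).mp hcK
      have h1' : ((⁅(a : H), (b : H)⁆ : H) : G) = 1 := eq_one_of_coprime_of_isPGroup hQp hcQ (by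
        rwa [Subgroup.orderOf_coe])
      have h3 : ⁅(a : H), (b : H)⁆ = 1 := Subtype.ext h1'
      rw [commutatorElement_eq_one_iff_mul_comm] at h3
      exact Subtype.ext h3
    exact Cfsg.Agent.Lib.Core.isNilpotent_of_sup_eq_top K T
      (Cfsg.Agent.Lib.Core.isNilpotent_of_isMulCommutative K) hTp.isNilpotent hsup
  · intro hnil
    exact h1 (hasNormalPComplement_of_isNilpotent hnil)
  · intro P
    rw [hQeq P]
    exact hQn

end Cfsg.Agent.S0132
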