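import Cfsg.Statements.S0149
import Cfsg.Agent.Lib.Char.Induced

set_option autoImplicit false
open Cfsg

namespace Cfsg.Agent.S0149

/-- Let T be a subset of G meeting each of its conjugates by elements outside its normalizer N only in the identity, and let ψ be a class function of N vanishing on N away from T. Then the function induced from ψ agrees with ψ at every non-identity element of T. -/
theorem result {G : Type*} [Group G] [Fintype G] (T : Set G) (hTI : ∀ g : G, g ∉ Subgroup.normalizer T → ∀ t ∈ T, g * t * g⁻¹ ∈ T → t = 1) (hTN : T ⊆ Subgroup.normalizer T) (ψ : Subgroup.normalizer T → ℂ) (hψ : Cfsg.IsClassFunction (Subgroup.normalizer T) ψ) (hψT : ∀ x : Subgroup.normalizer T, (x : G) ∉ T → ψ x = 0) (t : Subgroup.normalizer T) (htT : (t : G) ∈ T) (ht1 : t ≠ 1) : Cfsg.indFun (Subgroup.normalizer T) ψ t = ψ t := by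
  classical
  have hinner : ∀ x : G, Cfsg.extendByZero (Subgroup.normalizer T) ψ (x⁻¹ * (t : G) * x) =
      if x ∈ Subgroup.normalizer T then ψ t else 0 := by
    intro x
    by_cases hx : x ∈ Subgroup.normalizer T
    · rw [if_pos hx]
      have hm : x⁻¹ * (t : G) * x ∈ Subgroup.normalizer T :=
        (Subgroup.normalizer T).mul_mem ((Subgroup.normalizer T).mul_mem
          ((Subgroup.normalizer T).inv_mem hx) t.2) hx
      rw [Cfsg.Agent.Lib.Char.extendByZero_of_mem _ _ hm]
      have h1 := hψ t ⟨x, hx⟩⁻¹
      rw [← h1]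
      congr 1
      ext
      simp
    · rw [if_neg hx]
      by_cases hm : x⁻¹ * (t : G) * x ∈ Subgroup.normalizer T
      · rw [Cfsg.Agent.Lib.Char.extendByZero_of_mem _ _ hm]
        apply hψT
        intro hin
        have hx' : x⁻¹ ∉ Subgroup.normalizer T := fun h => hx (by simpa using (Subgroup.normalizer T).inv_mem h)
        have := hTI x⁻¹ hx' t htT (by simpa using hin)
        exact ht1 (Subtype.ext this)
      · exact Cfsg.Agent.Lib.Char.extendByZero_of_not_mem _ _ hm
  rw [Cfsg.Agent.Lib.Char.indFun_apply]
  simp only [hinner]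
  rw [Finset.sum_ite]
  simp only [Finset.sum_const_zero, add_zero, Finset.sum_const, nsmul_eq_mul]
  have hc : ((Finset.univ.filter (fun x : G => x ∈ Subgroup.normalizer T)).card : ℂ) =
      (Nat.card (Subgroup.normalizer T) : ℂ) := by
    rw [Nat.card_eq_fintype_card, Fintype.card_subtype]
  rw [hc]
  have h2 := Cfsg.Agent.Lib.Char.card_subgroup_ne_zero (Subgroup.normalizer T)
  field_simp

end Cfsg.Agent.S0149
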