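import Cfsg.Statements.S0158
import Cfsg.Agent.Lib.Char.FrobSchur

set_option autoImplicit false
open Cfsg

namespace Cfsg.Agent.S0158

/-- The Frobenius–Schur indicator of an irreducible complex representation of a finite group — the average over s of the character at s * s — is 0, 1 or −1, and it vanishes exactly when some character value is not real. -/
theorem result {G : Type*} [Group G] [Fintype G] {V : Type*} [AddCommGroup V] [Module ℂ V] [FiniteDimensional ℂ V] (ρ : Representation ℂ G V) [ρ.IsIrreducible] : ((Nat.card G : ℂ)⁻¹ * ∑ s : G, ρ.character (s * s) = 0 ∨ (Nat.card G : ℂ)⁻¹ * ∑ s : G, ρ.character (s * s) = 1 ∨ (Nat.card G : ℂ)⁻¹ * ∑ s : G, ρ.character (s * s) = -1) ∧ ((Nat.card G : ℂ)⁻¹ * ∑ s : G, ρ.character (s * s) = 0 ↔ ∃ s : G, (ρ.character s).im ≠ 0) := by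
  obtain ⟨n, σ, hσ, hc⟩ := Cfsg.Agent.Lib.Char.isIrrCharacter_character ρ ‹_›
  rw [← hc]
  obtain ⟨h1, h2⟩ := Cfsg.Agent.Lib.Char.frobenius_schur σ hσ
  by_cases h : ∃ s, (σ.character s).im ≠ 0
  · have h0 := h1 h
    exact ⟨Or.inl h0, ⟨fun _ => h, fun _ => h0⟩⟩
  · push Not at h
    obtain ⟨c, hc1, hν, _⟩ := h2 h
    rw [hν]
    refine ⟨?_, ⟨fun h0 => ?_, fun ⟨s, hs⟩ => absurd (h s) hs⟩⟩
    · rcases hc1 with rfl | rfl
      · exact Or.inr (Or.inl rfl)
      · exact Or.inr (Or.inr rfl)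
    · rcases hc1 with rfl | rfl
      · exact absurd h0 one_ne_zero
      · exact absurd h0 (by norm_num)

end Cfsg.Agent.S0158
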