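import Cfsg.Statements.S0159
import Cfsg.Agent.Lib.Char.Complete
import Cfsg.Agent.Lib.Char.Constituent

set_option autoImplicit false
open Cfsg

namespace Cfsg.Agent.S0159

/-- The number of solutions of s * s = 1 in a finite group equals the sum, over the irreducible characters χ, of (the average over s of χ (s * s)) times χ 1. -/
theorem result {G : Type*} [Group G] [Fintype G] : (Nat.card {s : G // s * s = 1} : ℂ) = ∑ᶠ χ : Cfsg.IrrCharacter G, ((Nat.card G : ℂ)⁻¹ * ∑ s : G, (χ : G → ℂ) (s * s)) * (χ : G → ℂ) 1 := by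
  classical
  rw [finsum_eq_sum_of_fintype]
  -- the square-root counting function
  let θ : G → ℂ := fun g => ∑ s : G, if s * s = g then (1 : ℂ) else 0
  have hcl : Cfsg.IsClassFunction G θ := by
    intro g h
    simp only [θ]
    rw [← Equiv.sum_comp (MulAut.conj h).toEquiv]
    refine Finset.sum_congr rfl fun s _ => ?_
    have : ((MulAut.conj h).toEquiv s * (MulAut.conj h).toEquiv s = h * g * h⁻¹) ↔ (s * s = g) := by
      simp only [MulEquiv.toEquiv_eq_coe, MulEquiv.coe_toEquiv, MulAut.conj_apply]
      constructor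
      · intro h1
        have : h * (s * s) * h⁻¹ = h * g * h⁻¹ := by rw [← h1]; group
        exact mul_left_cancel (mul_right_cancel this)
      · rintro rfl
        group
    simp only [this]
  have hθ1 : θ 1 = (Nat.card {s : G // s * s = 1} : ℂ) := by
    simp only [θ]
    rw [Finset.sum_boole, Nat.card_eq_fintype_card, Fintype.card_subtype]
  have hs := congrFun (Cfsg.Agent.Lib.Char.classFunction_eq_sum θ hcl) 1
  have hinner : ∀ χ : Cfsg.IrrCharacter G, (starRingEnd ℂ) (Cfsg.classInner θ (χ : G → ℂ)) =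
      (Nat.card G : ℂ)⁻¹ * ∑ s : G, (χ : G → ℂ) (s * s) := by
    intro χ
    rw [Cfsg.Agent.Lib.Char.classInner_def, map_mul, map_inv₀, Complex.conj_natCast, map_sum]
    congr 1
    simp only [θ, map_mul, Complex.conj_conj, map_sum]
    simp only [Finset.sum_mul]
    rw [Finset.sum_comm]
    refine Finset.sum_congr rfl fun s _ => ?_
    rw [Finset.sum_eq_single (s * s)]
    · simp
    · intro b _ hb
      rw [if_neg (Ne.symm hb)]
      simp
    · simp
  have h1 : (starRingEnd ℂ) (θ 1) = θ 1 := by
    rw [hθ1]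
    simp
  rw [← hθ1, ← h1, hs]
  simp only [Finset.sum_apply, Pi.smul_apply, smul_eq_mul, map_sum, map_mul, hinner]
  refine Finset.sum_congr rfl fun χ _ => ?_
  congr 1
  rw [Cfsg.Agent.Lib.Char.map_one_eq_charDegree (Cfsg.Agent.Lib.Char.IsIrrCharacter.isCharacter χ.2)]
  simp

end Cfsg.Agent.S0159
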