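import Cfsg.Statements.S0160
import Cfsg.Agent.Lib.Char.PermLemma
import Cfsg.Agent.Lib.Char.OddOrder

set_option autoImplicit false
open Cfsg

namespace Cfsg.Agent.S0160

theorem isConj_inv_inv {G : Type*} [Group G] {a b : G} (h : IsConj a b) : IsConj a⁻¹ b⁻¹ := by
  obtain ⟨c, rfl⟩ := isConj_iff.mp h
  refine isConj_iff.mpr ⟨c, ?_⟩
  group

/-- A finite group has as many real-valued irreducible complex characters as conjugacy classes closed under taking inverses. -/
theorem result {G : Type*} [Group G] [Finite G] : Nat.card {χ : Cfsg.IrrCharacter G // ∀ g : G, ((χ : G → ℂ) g).im = 0} = Nat.card {C : ConjClasses G // ∀ g : G, ConjClasses.mk g = C → IsConj g g⁻¹} := by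

  classical
  haveI := Fintype.ofFinite G
  let π : Equiv.Perm (Cfsg.IrrCharacter G) :=
    { toFun := fun χ => ⟨fun g => (starRingEnd ℂ) ((χ : G → ℂ) g), Cfsg.Agent.Lib.Char.isIrr_conj χ.2⟩
      invFun := fun χ => ⟨fun g => (starRingEnd ℂ) ((χ : G → ℂ) g), Cfsg.Agent.Lib.Char.isIrr_conj χ.2⟩
      left_inv := fun χ => by
        apply Subtype.ext
        funext g
        simp
      right_inv := fun χ => by
        apply Subtype.ext
        funext g
        simp }
  let inv : ConjClasses G → ConjClasses G := Quotient.map (fun g : G => g⁻¹) (by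
    intro a b hab
    exact isConj_inv_inv hab)
  have hinvmk : ∀ g : G, inv (ConjClasses.mk g) = ConjClasses.mk g⁻¹ := fun g => rfl
  have hinv2 : Function.Involutive inv := by
    intro C
    obtain ⟨g, rfl⟩ := ConjClasses.mk_surjective C
    rw [hinvmk, hinvmk, inv_inv]
  have h := Cfsg.Agent.Lib.Char.brauer_perm_lemma π (Function.Involutive.toPerm inv hinv2) (by
    intro χ g g' hg
    have h1 : ConjClasses.mk g' = ConjClasses.mk g⁻¹ := hg
    have h2 : IsConj g' g⁻¹ := ConjClasses.mk_eq_mk_iff_isConj.mp h1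
    have h3 := isConj_inv_inv h2
    rw [inv_inv] at h3
    change (starRingEnd ℂ) ((χ : G → ℂ) g') = (χ : G → ℂ) g
    have hc := Cfsg.Agent.Lib.Char.IsIrrCharacter.isCharacter χ.2
    rw [← Cfsg.Agent.Lib.Char.IsCharacter.map_inv' hc]
    exact Cfsg.Agent.Lib.Char.IsCharacter.map_isConj hc h3)
  have e1 : Nat.card {χ : Cfsg.IrrCharacter G // ∀ g : G, ((χ : G → ℂ) g).im = 0} =
      Nat.card {χ : Cfsg.IrrCharacter G // π χ = χ} := by
    refine Nat.card_congr (Equiv.subtypeEquivRight fun χ => ?_)
    constructor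
    · intro hχ
      apply Subtype.ext
      funext g
      exact Complex.conj_eq_iff_im.mpr (hχ g)
    · intro hχ g
      have h1 := congrFun (congrArg Subtype.val hχ) g
      exact Complex.conj_eq_iff_im.mp h1
  have e2 : Nat.card {C : ConjClasses G // ∀ g : G, ConjClasses.mk g = C → IsConj g g⁻¹} =
      Nat.card {C : ConjClasses G // Function.Involutive.toPerm inv hinv2 C = C} := by
    refine Nat.card_congr (Equiv.subtypeEquivRight fun C => ?_)
    obtain ⟨g, rfl⟩ := ConjClasses.mk_surjective C
    constructor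
    · intro hC
      have h1 : IsConj g g⁻¹ := hC g rfl
      change ConjClasses.mk g⁻¹ = ConjClasses.mk g
      exact (ConjClasses.mk_eq_mk_iff_isConj.mpr h1).symm
    · intro hC x hx
      have h1 : ConjClasses.mk g⁻¹ = ConjClasses.mk g := hC
      have h2 : IsConj g g⁻¹ := (ConjClasses.mk_eq_mk_iff_isConj.mp h1).symm
      have h3 : IsConj x g := ConjClasses.mk_eq_mk_iff_isConj.mp hx
      exact h3.trans (h2.trans (isConj_inv_inv h3).symm)
  rw [e1, e2, h]

end Cfsg.Agent.S0160
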