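import Cfsg.Statements.S0165
import Cfsg.Agent.Lib.Char.DefectZero

set_option autoImplicit false
open Cfsg

namespace Cfsg.Agent.S0165

/-- If p ^ n is the exact power of the prime p dividing the order of a finite group and p ^ n divides the degree of an irreducible complex representation, then its character vanishes at every element of order divisible by p. -/
theorem result {G : Type*} [Group G] [Finite G] {V : Type*} [AddCommGroup V] [Module ℂ V] [FiniteDimensional ℂ V] (ρ : Representation ℂ G V) [ρ.IsIrreducible] (p n : ℕ) (hp : p.Prime) (hn : p ^ n ∣ Nat.card G) (hn' : ¬ p ^ (n + 1) ∣ Nat.card G) (hdeg : p ^ n ∣ Module.finrank ℂ V) (x : G) (hx : p ∣ orderOf x) : ρ.character x = 0 := by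
  have hχ := Cfsg.Agent.Lib.Char.isIrrCharacter_character ρ inferInstance
  have hfact : (Nat.card G).factorization p = n := by
    have hn0 : Nat.card G ≠ 0 := Nat.card_pos.ne'
    have h1 : n ≤ (Nat.card G).factorization p := (hp.pow_dvd_iff_le_factorization hn0).mp hn
    have h2 : ¬ n + 1 ≤ (Nat.card G).factorization p := fun h3 =>
      hn' ((hp.pow_dvd_iff_le_factorization hn0).mpr h3)
    omega
  have hdeg' : Cfsg.charDegree ρ.character = Module.finrank ℂ V :=
    Cfsg.Agent.Lib.Char.charDegree_natCast (Representation.char_one ρ)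
  refine Cfsg.Agent.Lib.Char.irr_eq_zero_of_full_ppart ⟨ρ.character, hχ⟩ p hp ?_ hx
  simp only
  rw [hdeg', hfact]
  exact hdeg

end Cfsg.Agent.S0165
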