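import Cfsg.Statements.S0166
import Mathlib
import Cfsg.Agent.Lib.SplitField.Main

set_option autoImplicit false
open Cfsg

namespace Cfsg.Agent.S0166

/-- Brauer's splitting field Theorem: a complex representation of a finite group of exponent m is equivalent to a representation by matrices with entries in ℚ adjoined exp(2πi/m). -/
theorem result {G : Type*} [Group G] [Finite G] (n : ℕ) (ρ : Representation ℂ G (Fin n → ℂ)) : ∃ σ : Representation ℂ G (Fin n → ℂ), Nonempty (ρ.Equiv σ) ∧ ∀ g : G, ∀ i j : Fin n, LinearMap.toMatrix' (σ g) i j ∈ Algebra.adjoin ℚ ({Complex.exp (2 * Real.pi * Complex.I / (Monoid.exponent G : ℂ))} : Set ℂ) := by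
  classical
  haveI := Fintype.ofFinite G
  have hm : Monoid.exponent G ≠ 0 := Monoid.exponent_ne_zero_of_finite
  set ζ : ℂ := Complex.exp (2 * Real.pi * Complex.I / (Monoid.exponent G : ℂ)) with hζ
  have hprim : IsPrimitiveRoot ζ (Monoid.exponent G) := Complex.isPrimitiveRoot_exp _ hm
  have hint : IsIntegral ℚ ζ := by
    refine ⟨Polynomial.X ^ Monoid.exponent G - 1, Polynomial.monic_X_pow_sub_C 1 hm, ?_⟩
    simp [hprim.pow_eq_one]
  let K : Type := IntermediateField.adjoin ℚ ({ζ} : Set ℂ)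
  have hK : ∀ z : K, ((z : ℂ)) ∈ Algebra.adjoin ℚ ({ζ} : Set ℂ) := by
    intro z
    have h1 := IntermediateField.adjoin_simple_toSubalgebra_of_isAlgebraic hint.isAlgebraic
    have h2 : (z : ℂ) ∈ (IntermediateField.adjoin ℚ ({ζ} : Set ℂ)).toSubalgebra := z.2
    rw [h1] at h2
    exact h2
  have hroot : ∀ x : ℂ, x ^ Monoid.exponent G = 1 → x ∈ (algebraMap K ℂ).range := by
    intro x hx
    haveI : NeZero (Monoid.exponent G) := ⟨hm⟩
    obtain ⟨i, -, hi⟩ := hprim.eq_pow_of_pow_eq_one hx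
    have h1 : ζ ∈ IntermediateField.adjoin ℚ ({ζ} : Set ℂ) :=
      IntermediateField.mem_adjoin_simple_self ℚ ζ
    refine ⟨(⟨ζ, h1⟩ : IntermediateField.adjoin ℚ ({ζ} : Set ℂ)) ^ i, ?_⟩
    rw [← hi]
    simp [K]
  obtain ⟨σ, h1, h2⟩ := Cfsg.Agent.Lib.SplitField.main_rep (K := K) hroot n ρ
  refine ⟨σ, h1, fun g i j => ?_⟩
  obtain ⟨z, hz⟩ := h2 g i j
  rw [← hz]
  exact hK z

end Cfsg.Agent.S0166
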