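import Cfsg.Statements.S0167
import Cfsg.Agent.Lib.Degree.Sums

set_option autoImplicit false
open Cfsg

namespace Cfsg.Agent.S0167

/-- An element g of a finite group is a commutator if and only if the sum over the irreducible characters χ of χ g / χ 1 is nonzero. -/
theorem result {G : Type*} [Group G] [Finite G] (g : G) : (∃ a b : G, g = a * b * a⁻¹ * b⁻¹) ↔ ∑ᶠ χ : Cfsg.IrrCharacter G, (χ : G → ℂ) g / (χ : G → ℂ) 1 ≠ 0 := by
  classical
  haveI := Fintype.ofFinite G
  rw [finsum_eq_sum_of_fintype]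
  have h := Cfsg.Agent.Lib.Degree.commCount_eq g
  have hc : (Fintype.card G : ℂ) ≠ 0 := by exact_mod_cast Fintype.card_ne_zero
  constructor
  · rintro ⟨a, b, rfl⟩ h0
    rw [h0, mul_zero] at h
    have h1 : Cfsg.Agent.Lib.Degree.commCount G (a * b * a⁻¹ * b⁻¹) = 0 := by exact_mod_cast h
    unfold Cfsg.Agent.Lib.Degree.commCount at h1
    rw [Nat.card_eq_zero] at h1
    rcases h1 with h1 | h1
    · exact (h1.false ⟨(a, b), rfl⟩).elim
    · exact not_finite_iff_infinite.mpr h1 inferInstance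
  · intro h0
    have h1 : (Cfsg.Agent.Lib.Degree.commCount G g : ℂ) ≠ 0 := by
      rw [h]
      exact mul_ne_zero hc h0
    have h2 : Cfsg.Agent.Lib.Degree.commCount G g ≠ 0 := by exact_mod_cast h1
    unfold Cfsg.Agent.Lib.Degree.commCount at h2
    have h3 := Nat.card_pos_iff.mp (Nat.pos_of_ne_zero h2)
    obtain ⟨⟨⟨a, b⟩, hab⟩⟩ := h3.1
    exact ⟨a, b, hab.symm⟩

end Cfsg.Agent.S0167
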