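import Cfsg.Statements.S0168
import Mathlib
import Cfsg.Agent.Lib.Char.Burnside
import Cfsg.Agent.Lib.Char.Complete
import Cfsg.Agent.Lib.Char.Constituent

set_option autoImplicit false
open Cfsg

namespace Cfsg.Agent.S0168

/-- The Burnside–Brauer Theorem. Let χ be the character of a faithful complex representation of a finite group, taking m distinct values. Then every irreducible character has nonzero inner product with χ ^ i for some i < m. -/
theorem result {G : Type*} [Group G] [Fintype G] {V : Type*} [AddCommGroup V] [Module ℂ V] [FiniteDimensional ℂ V] (ρ : Representation ℂ G V) (hfaithful : Function.Injective ρ) (ψ : G → ℂ) (hψ : Cfsg.IsIrrCharacter G ψ) : ∃ i : ℕ, i < Nat.card (Set.range ρ.character) ∧ Cfsg.classInner (fun g => ρ.character g ^ i) ψ ≠ 0 := by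
  classical
  by_contra hcon
  push Not at hcon
  set χ := ρ.character with hχ
  let values : Finset ℂ := Finset.univ.image χ
  have hm : Nat.card (Set.range χ) = values.card := by
    rw [Nat.card_eq_fintype_card, ← Set.toFinset_card]
    congr 1
    ext x
    simp [values]
  rw [hm] at hcon
  have h1mem : χ 1 ∈ values := Finset.mem_image_of_mem _ (Finset.mem_univ _)
  let p : Polynomial ℂ := ∏ a ∈ values.erase (χ 1), (Polynomial.X - Polynomial.C a)
  have hdeg : p.natDegree + 1 = values.card := by
    simp only [p]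
    rw [Polynomial.natDegree_finsetProd_X_sub_C_eq_card, Finset.card_erase_of_mem h1mem]
    have : 0 < values.card := Finset.card_pos.mpr ⟨_, h1mem⟩
    omega
  have hp1 : p.eval (χ 1) ≠ 0 := by
    simp only [p]
    rw [Polynomial.eval_prod, Finset.prod_ne_zero_iff]
    intro a ha
    simp only [Polynomial.eval_sub, Polynomial.eval_X, Polynomial.eval_C]
    exact sub_ne_zero.mpr (Finset.ne_of_mem_erase ha).symm
  have hpg : ∀ g : G, g ≠ 1 → p.eval (χ g) = 0 := by
    intro g hg
    simp only [p]
    rw [Polynomial.eval_prod]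
    have hne : χ g ≠ χ 1 := by
      intro h
      apply hg
      have h2 := Cfsg.Agent.Lib.Char.character_eq_finrank_iff ρ g (isOfFinOrder_of_finite g)
      have h3 : ρ g = 1 := by
        apply h2.mp
        rw [← Representation.char_one ρ]
        exact h
      exact hfaithful (by rw [h3, map_one])
    refine Finset.prod_eq_zero (i := χ g) (Finset.mem_erase.mpr ⟨hne, Finset.mem_image_of_mem _ (Finset.mem_univ _)⟩) ?_
    simp
  have hψ1 : ψ 1 ≠ 0 := Cfsg.Agent.Lib.Char.map_one_ne_zero_of_irr hψ
  have hsum1 : ∑ g : G, p.eval (χ g) * (starRingEnd ℂ) (ψ g) =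
      p.eval (χ 1) * (starRingEnd ℂ) (ψ 1) := by
    rw [Finset.sum_eq_single 1]
    · intro g _ hg
      rw [hpg g hg, zero_mul]
    · simp
  have hsum2 : ∑ g : G, p.eval (χ g) * (starRingEnd ℂ) (ψ g) = 0 := by
    have hne : (Nat.card G : ℂ) ≠ 0 := by exact_mod_cast Nat.card_pos.ne'
    have h3 : ∀ g : G, p.eval (χ g) * (starRingEnd ℂ) (ψ g) =
        ∑ i ∈ Finset.range (p.natDegree + 1), p.coeff i * (χ g ^ i * (starRingEnd ℂ) (ψ g)) := by
      intro g
      rw [Polynomial.eval_eq_sum_range, Finset.sum_mul]
      refine Finset.sum_congr rfl fun i _ => ?_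
      ring
    simp only [h3]
    rw [Finset.sum_comm]
    refine Finset.sum_eq_zero fun i hi => ?_
    rw [← Finset.mul_sum]
    have hi' : i < values.card := by
      rw [← hdeg]
      exact Finset.mem_range.mp hi
    have h4 := hcon i hi'
    rw [Cfsg.Agent.Lib.Char.classInner_def] at h4
    have h5 : ∑ g : G, χ g ^ i * (starRingEnd ℂ) (ψ g) = 0 := by
      rcases mul_eq_zero.mp h4 with h | h
      · exact absurd h (inv_ne_zero hne)
      · exact h
    rw [h5, mul_zero]
  rw [hsum2] at hsum1
  have hc : (starRingEnd ℂ) (ψ 1) ≠ 0 := by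
    simpa using hψ1
  exact mul_ne_zero hp1 hc hsum1.symm

end Cfsg.Agent.S0168
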