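import Cfsg.Statements.S0198
import Cfsg.Agent.Lib.Char.TI
import Cfsg.Agent.Lib.Char.Constituent

set_option autoImplicit false
open Cfsg

namespace Cfsg.Agent.S0198

/-- A generalized character of norm 2 vanishing at 1 is a difference of two distinct irreducible
characters. -/
theorem norm_two_eq_sub {G : Type*} [Group G] [Fintype G] {θ : G → ℂ}
    (hθ : Cfsg.IsGeneralizedCharacter G θ) (h1 : θ 1 = 0) (hnorm : Cfsg.classInner θ θ = 2) :
    ∃ α β : Cfsg.IrrCharacter G, α ≠ β ∧ θ = (α : G → ℂ) - (β : G → ℂ) := by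
  classical
  haveI : Nonempty (Cfsg.IrrCharacter G) := ⟨⟨fun _ => 1, Cfsg.Agent.Lib.Char.isIrrCharacter_one⟩⟩
  obtain ⟨c, hc⟩ := Cfsg.Agent.Lib.Char.generalized_eq_sum hθ
  have hsum : ∑ χ : Cfsg.IrrCharacter G, (c χ) ^ 2 = 2 := by
    have := Cfsg.Agent.Lib.Char.classInner_self_eq_sum_int c
    rw [← hc, hnorm] at this
    exact_mod_cast this.symm
  set s := Finset.univ.filter fun χ : Cfsg.IrrCharacter G => c χ ≠ 0 with hs
  have hsum' : ∑ χ ∈ s, (c χ) ^ 2 = 2 := by
    rw [← hsum]
    refine Finset.sum_subset (Finset.subset_univ _) fun χ _ hχ => ?_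
    simp only [hs, Finset.mem_filter, Finset.mem_univ, true_and, not_not] at hχ
    simp [hχ]
  have hge : ∀ χ ∈ s, 1 ≤ (c χ) ^ 2 := by
    intro χ hχ
    have h2 : c χ ≠ 0 := (Finset.mem_filter.mp hχ).2
    have := Int.one_le_abs h2
    nlinarith [abs_nonneg (c χ), sq_abs (c χ)]
  have hcard : s.card ≤ 2 := by
    have h3 : (s.card : ℤ) ≤ ∑ χ ∈ s, (c χ) ^ 2 := by
      have := Finset.card_nsmul_le_sum s _ 1 hge
      simpa using this
    rw [hsum'] at h3
    exact_mod_cast h3
  have hcard2 : s.card = 2 := by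
    by_contra hne
    have hle : s.card ≤ 1 := by omega
    rcases Finset.card_le_one_iff_subset_singleton.mp hle with ⟨a, ha⟩
    have h4 : ∑ χ ∈ s, (c χ) ^ 2 ≤ (c a) ^ 2 := by
      calc ∑ χ ∈ s, (c χ) ^ 2 ≤ ∑ χ ∈ {a}, (c χ) ^ 2 :=
            Finset.sum_le_sum_of_subset_of_nonneg ha (fun _ _ _ => sq_nonneg _)
        _ = _ := by simp
    by_cases has : a ∈ s
    · have h5 : s = {a} := Finset.Subset.antisymm ha (by simpa using has)
      rw [h5, Finset.sum_singleton] at hsum'
      have h6 : c a ^ 2 = 2 := hsum'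
      have h7 : |c a| ≤ 1 ∨ 2 ≤ |c a| := by omega
      rcases h7 with h7 | h7
      · nlinarith [abs_nonneg (c a), sq_abs (c a)]
      · nlinarith [abs_nonneg (c a), sq_abs (c a)]
    · have h5 : s = ∅ := by
        apply Finset.eq_empty_of_forall_notMem
        intro x hx
        have := ha hx
        rw [Finset.mem_singleton] at this
        exact has (this ▸ hx)
      rw [h5] at hsum'
      simp at hsum'
  obtain ⟨a, b, hab, hsab⟩ := Finset.card_eq_two.mp hcard2
  have hsum2 : (c a) ^ 2 + (c b) ^ 2 = 2 := by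
    rw [hsab, Finset.sum_pair hab] at hsum'
    exact hsum'
  have hane : c a ≠ 0 := by
    have has : a ∈ s := by rw [hsab]; simp
    exact (Finset.mem_filter.mp has).2
  have hbne : c b ≠ 0 := by
    have has : b ∈ s := by rw [hsab]; simp
    exact (Finset.mem_filter.mp has).2
  have hsq : ∀ z : ℤ, z ≠ 0 → z ^ 2 ≤ 1 → z = 1 ∨ z = -1 := by
    intro z hz h
    have h0 : 0 < z ^ 2 := by positivity
    have h2 : z ^ 2 = 1 := by omega
    exact mul_self_eq_one_iff.mp (by rw [← sq]; exact h2)
  have ha1 : c a ^ 2 ≤ 1 := by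
    have : 0 < c b ^ 2 := by positivity
    omega
  have hb1 : c b ^ 2 ≤ 1 := by
    have : 0 < c a ^ 2 := by positivity
    omega
  have hθeq : θ = ((c a : ℤ) : ℂ) • (a : G → ℂ) + ((c b : ℤ) : ℂ) • (b : G → ℂ) := by
    rw [hc, ← Finset.sum_subset (Finset.subset_univ s) (fun χ _ hχ => by
      simp only [hs, Finset.mem_filter, Finset.mem_univ, true_and, not_not] at hχ
      simp [hχ]), hsab, Finset.sum_pair hab]
  have hda := Cfsg.Agent.Lib.Char.charDegree_pos_of_irr a.2
  have hdb := Cfsg.Agent.Lib.Char.charDegree_pos_of_irr b.2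
  have hva := Cfsg.Agent.Lib.Char.map_one_eq_charDegree (Cfsg.Agent.Lib.Char.IsIrrCharacter.isCharacter a.2)
  have hvb := Cfsg.Agent.Lib.Char.map_one_eq_charDegree (Cfsg.Agent.Lib.Char.IsIrrCharacter.isCharacter b.2)
  have hone : ((c a : ℤ) : ℂ) * (Cfsg.charDegree (a : G → ℂ) : ℂ) +
      ((c b : ℤ) : ℂ) * (Cfsg.charDegree (b : G → ℂ) : ℂ) = 0 := by
    have := congrFun hθeq 1
    rw [h1] at this
    simp only [Pi.add_apply, Pi.smul_apply, smul_eq_mul, hva, hvb] at this
    exact this.symm
  have hpos : ∀ (x y : ℕ), 0 < x → 0 < y → (x : ℂ) + y ≠ 0 := by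
    intro x y hx hy h
    have : ((x + y : ℕ) : ℂ) = 0 := by push_cast; exact h
    have h2 : x + y = 0 := by exact_mod_cast this
    omega
  rcases hsq _ hane ha1 with h3 | h3 <;> rcases hsq _ hbne hb1 with h4 | h4
  · exfalso
    rw [h3, h4] at hone
    simp only [Int.cast_one, one_mul] at hone
    exact hpos _ _ hda hdb hone
  · refine ⟨a, b, hab, ?_⟩
    rw [hθeq, h3, h4]
    simp [sub_eq_add_neg]
  · refine ⟨b, a, hab.symm, ?_⟩
    rw [hθeq, h3, h4]
    simp [sub_eq_add_neg, add_comm]
  · exfalso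
    rw [h3, h4] at hone
    simp only [Int.cast_neg, Int.cast_one, neg_mul, one_mul] at hone
    apply hpos _ _ hda hdb
    linear_combination -hone

/-- The isometry lemma behind exceptional characters. Let τ be a family of generalized characters of a finite group G indexed by Fin n, with τ i₀ = 0, every τ i vanishing at the identity, and inner products ⟨τ i, τ j⟩ = 2 if i = j and 1 otherwise for i, j ≠ i₀. Then there are a sign ε and pairwise distinct irreducible characters μ i with τ i = ε (μ i − μ i₀) for all i. -/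
theorem result {G : Type*} [Group G] [Fintype G] (n : ℕ) (i₀ : Fin n) (τ : Fin n → (G → ℂ)) (h0 : τ i₀ = 0) (hgen : ∀ i, Cfsg.IsGeneralizedCharacter G (τ i)) (hone : ∀ i, τ i 1 = 0) (hgram : ∀ i j, i ≠ i₀ → j ≠ i₀ → Cfsg.classInner (τ i) (τ j) = if i = j then 2 else 1) : ∃ ε : ℂ, (ε = 1 ∨ ε = -1) ∧ ∃ μ : Fin n → (G → ℂ), (∀ i, Cfsg.IsIrrCharacter G (μ i)) ∧ Function.Injective μ ∧ ∀ i, τ i = ε • (μ i - μ i₀) := by

  classical
  haveI : Nonempty (Cfsg.IrrCharacter G) := ⟨⟨fun _ => 1, Cfsg.Agent.Lib.Char.isIrrCharacter_one⟩⟩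
  have hex : ∀ i, i ≠ i₀ → ∃ α β : Cfsg.IrrCharacter G, α ≠ β ∧
      τ i = (α : G → ℂ) - (β : G → ℂ) := by
    intro i hi
    refine norm_two_eq_sub (hgen i) (hone i) ?_
    rw [hgram i i hi hi, if_pos rfl]
  choose! α β hne hτ using hex
  have hδ : ∀ x y : Cfsg.IrrCharacter G, Cfsg.classInner (x : G → ℂ) (y : G → ℂ) =
      if x = y then 1 else 0 := by
    intro x y
    split_ifs with h
    · rw [h]
      exact Cfsg.Agent.Lib.Char.classInner_irr_self y.2
    · exact Cfsg.Agent.Lib.Char.classInner_irr_of_ne x.2 y.2 (fun h' => h (Subtype.ext h'))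
  -- the combinatorial relation
  have hrel : ∀ i j, i ≠ i₀ → j ≠ i₀ → i ≠ j →
      (α i = α j ∧ β i ≠ β j) ∨ (β i = β j ∧ α i ≠ α j) := by
    intro i j hi hj hij
    have h1 := hgram i j hi hj
    rw [if_neg hij, hτ i hi, hτ j hj, Cfsg.Agent.Lib.Char.classInner_sub_left,
      Cfsg.Agent.Lib.Char.classInner_sub_right, Cfsg.Agent.Lib.Char.classInner_sub_right,
      hδ, hδ, hδ, hδ] at h1
    have hni := hne i hi
    have hnj := hne j hj
    by_cases h2 : α i = α j
    · left
      refine ⟨h2, fun h3 => ?_⟩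
      have hA : ¬ α i = β j := fun h => hnj (h2.symm.trans h)
      have hB : ¬ β i = α j := fun h => hni (h2.trans h.symm)
      rw [if_pos h2, if_pos h3, if_neg hA, if_neg hB] at h1
      norm_num at h1
    · right
      by_cases h3 : β i = β j
      · exact ⟨h3, h2⟩
      · exfalso
        rw [if_neg h2, if_neg h3] at h1
        split_ifs at h1 <;> norm_num at h1
  by_cases hcase : ∃ i j, i ≠ i₀ ∧ j ≠ i₀ ∧ α i ≠ α j
  · -- all share `β`
    obtain ⟨i, j, hi, hj, hij⟩ := hcase
    have hijne : i ≠ j := fun h => hij (by rw [h])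
    have hβij : β i = β j := by
      rcases hrel i j hi hj hijne with h | h
      · exact absurd h.1 hij
      · exact h.1
    have hall : ∀ k, k ≠ i₀ → β k = β i := by
      intro k hk
      by_contra hkne
      have h1 : α k = α i := by
        by_cases hki : k = i
        · rw [hki]
        · rcases hrel k i hk hi hki with h | h
          · exact h.1
          · exact absurd h.1 hkne
      have h2 : α k = α j := by
        by_cases hkj : k = j
        · rw [hkj]
        · rcases hrel k j hk hj hkj with h | h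
          · exact h.1
          · exact absurd (h.1.trans hβij.symm) hkne
      exact hij (h1.symm.trans h2)
    let μ : Fin n → Cfsg.IrrCharacter G := fun k => if k = i₀ then β i else α k
    have hμ0 : μ i₀ = β i := if_pos rfl
    have hμk : ∀ k, k ≠ i₀ → μ k = α k := fun k hk => if_neg hk
    refine ⟨1, Or.inl rfl, fun k => (μ k : G → ℂ), fun k => (μ k).2, ?_, ?_⟩
    · intro k l hkl
      have hkl' : μ k = μ l := Subtype.ext hkl
      by_contra hne'
      by_cases hk : k = i₀
      · have hl : l ≠ i₀ := fun h => hne' (hk.trans h.symm)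
        rw [hk, hμ0, hμk l hl, ← hall l hl] at hkl'
        exact hne l hl hkl'.symm
      · by_cases hl : l = i₀
        · rw [hl, hμ0, hμk k hk, ← hall k hk] at hkl'
          exact hne k hk hkl'
        · rw [hμk k hk, hμk l hl] at hkl'
          rcases hrel k l hk hl hne' with h | h
          · exact h.2 ((hall k hk).trans (hall l hl).symm)
          · exact h.2 hkl'
    · intro k
      by_cases hk : k = i₀
      · rw [hk, h0]
        simp
      · change τ k = (1 : ℂ) • ((μ k : G → ℂ) - (μ i₀ : G → ℂ))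
        rw [hτ k hk, hμk k hk, hμ0, hall k hk, one_smul]
  · push Not at hcase
    -- all share `α`
    by_cases hex1 : ∃ i, i ≠ i₀
    · obtain ⟨i, hi⟩ := hex1
      let μ : Fin n → Cfsg.IrrCharacter G := fun k => if k = i₀ then α i else β k
      have hμ0 : μ i₀ = α i := if_pos rfl
      have hμk : ∀ k, k ≠ i₀ → μ k = β k := fun k hk => if_neg hk
      refine ⟨-1, Or.inr rfl, fun k => (μ k : G → ℂ), fun k => (μ k).2, ?_, ?_⟩
      · intro k l hkl
        have hkl' : μ k = μ l := Subtype.ext hkl
        by_contra hne'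
        by_cases hk : k = i₀
        · have hl : l ≠ i₀ := fun h => hne' (hk.trans h.symm)
          rw [hk, hμ0, hμk l hl, hcase i l hi hl] at hkl'
          exact hne l hl hkl'
        · by_cases hl : l = i₀
          · rw [hl, hμ0, hμk k hk, hcase i k hi hk] at hkl'
            exact hne k hk hkl'.symm
          · rw [hμk k hk, hμk l hl] at hkl'
            rcases hrel k l hk hl hne' with h | h
            · exact h.2 hkl'
            · exact h.2 (hcase k l hk hl)
      · intro k
        by_cases hk : k = i₀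
        · rw [hk, h0]
          simp
        · change τ k = (-1 : ℂ) • ((μ k : G → ℂ) - (μ i₀ : G → ℂ))
          rw [hτ k hk, hμk k hk, hμ0, hcase k i hk hi]
          simp
    · push Not at hex1
      let one : Cfsg.IrrCharacter G := ⟨fun _ => 1, Cfsg.Agent.Lib.Char.isIrrCharacter_one⟩
      refine ⟨1, Or.inl rfl, fun _ => (one : G → ℂ), fun _ => one.2, ?_, ?_⟩
      · intro k l _
        rw [hex1 k, hex1 l]
      · intro k
        rw [hex1 k, h0]
        simp

end Cfsg.Agent.S0198
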