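import Cfsg.Statements.S0170
import Cfsg.Agent.Lib.Char.TI
import Cfsg.Agent.S0198

set_option autoImplicit false
open Cfsg

namespace Cfsg.Agent.S0170

/-- Exceptional characters. Let S be a subset of a finite group contained in its normalizer N and meeting its conjugates by elements outside N only in the identity. Given n ≥ 2 distinct irreducible characters of N of equal degree that vanish on N away from S, there exist a sign ε and n distinct irreducible characters θ_i of G such that inducing χ_i − χ_j to G gives ε (θ_i − θ_j) for all i, j. -/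
theorem result {G : Type*} [Group G] [Fintype G] (S : Set G) (hSN : S ⊆ Subgroup.normalizer S) (hTI : ∀ g : G, g ∉ Subgroup.normalizer S → ∀ s ∈ S, g * s * g⁻¹ ∈ S → s = 1) (n : ℕ) (hn : 2 ≤ n) (χ : Fin n → (Subgroup.normalizer S → ℂ)) (hirr : ∀ i, Cfsg.IsIrrCharacter (Subgroup.normalizer S) (χ i)) (hinj : Function.Injective χ) (hvan : ∀ i, ∀ x : Subgroup.normalizer S, (x : G) ∉ S → χ i x = 0) (hdeg : ∀ i j, χ i 1 = χ j 1) : ∃ ε : ℂ, (ε = 1 ∨ ε = -1) ∧ ∃ θ : Fin n → (G → ℂ), (∀ i, Cfsg.IsIrrCharacter G (θ i)) ∧ Function.Injective θ ∧ ∀ i j, Cfsg.indFun (Subgroup.normalizer S) (χ i) - Cfsg.indFun (Subgroup.normalizer S) (χ j) = ε • (θ i - θ j) := by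
  classical
  haveI : Fintype (Subgroup.normalizer S) := Fintype.ofFinite _
  let i₀ : Fin n := ⟨0, by omega⟩
  let τ : Fin n → (G → ℂ) := fun i => Cfsg.indFun (Subgroup.normalizer S) (χ i - χ i₀)
  have hcl : ∀ i, Cfsg.IsClassFunction (Subgroup.normalizer S) (χ i) := fun i =>
    Cfsg.Agent.Lib.Char.IsCharacter.isClassFunction
      (Cfsg.Agent.Lib.Char.IsIrrCharacter.isCharacter (hirr i))
  have hclsub : ∀ i, Cfsg.IsClassFunction (Subgroup.normalizer S) (χ i - χ i₀) := by
    intro i g h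
    simp only [Pi.sub_apply, hcl i g h, hcl i₀ g h]
  have hvansub : ∀ i, ∀ x : Subgroup.normalizer S, (x : G) ∉ S → (χ i - χ i₀) x = 0 := by
    intro i x hx
    simp only [Pi.sub_apply, hvan i x hx, hvan i₀ x hx, sub_zero]
  have hone : ∀ i, (χ i - χ i₀) 1 = 0 := by
    intro i
    simp only [Pi.sub_apply, hdeg i i₀, sub_self]
  have h0 : τ i₀ = 0 := by
    simp only [τ, sub_self]
    exact Cfsg.Agent.Lib.Char.indFun_zero _
  have hgen : ∀ i, Cfsg.IsGeneralizedCharacter G (τ i) := by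
    intro i
    refine Cfsg.Agent.Lib.Char.indFun_isGeneralized _ ?_
    exact Cfsg.Agent.Lib.Char.IsGeneralizedCharacter.sub
      (Cfsg.Agent.Lib.Char.IsGeneralizedCharacter.of_isCharacter
        (Cfsg.Agent.Lib.Char.IsIrrCharacter.isCharacter (hirr i)))
      (Cfsg.Agent.Lib.Char.IsGeneralizedCharacter.of_isCharacter
        (Cfsg.Agent.Lib.Char.IsIrrCharacter.isCharacter (hirr i₀)))
  have hτ1 : ∀ i, τ i 1 = 0 := by
    intro i
    simp only [τ]
    rw [Cfsg.Agent.Lib.Char.indFun_one, hone i, mul_zero]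
  have hδ : ∀ i j, Cfsg.classInner (χ i) (χ j) = if i = j then 1 else 0 := by
    intro i j
    split_ifs with h
    · rw [h]
      exact Cfsg.Agent.Lib.Char.classInner_irr_self (hirr j)
    · exact Cfsg.Agent.Lib.Char.classInner_irr_of_ne (hirr i) (hirr j) (fun h' => h (hinj h'))
  have hgram : ∀ i j, i ≠ i₀ → j ≠ i₀ → Cfsg.classInner (τ i) (τ j) = if i = j then 2 else 1 := by
    intro i j hi hj
    simp only [τ]
    rw [Cfsg.Agent.Lib.Char.classInner_indFun_ti _ S hSN hTI _ _ (hclsub i) (hclsub j)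
      (hvansub i) (hvansub j) (hone i)]
    rw [Cfsg.Agent.Lib.Char.classInner_sub_left, Cfsg.Agent.Lib.Char.classInner_sub_right,
      Cfsg.Agent.Lib.Char.classInner_sub_right, hδ, hδ, hδ, hδ, if_neg hi, if_neg hj.symm, if_pos rfl]
    split_ifs <;> norm_num
  obtain ⟨ε, hε, μ, hμ, hμinj, hμτ⟩ := Cfsg.Agent.S0198.result n i₀ τ h0 hgen hτ1 hgram
  refine ⟨ε, hε, μ, hμ, hμinj, fun i j => ?_⟩
  have h1 := hμτ i
  have h2 := hμτ j
  simp only [τ] at h1 h2
  rw [Cfsg.Agent.Lib.Char.indFun_sub] at h1 h2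
  have h3 : Cfsg.indFun (Subgroup.normalizer S) (χ i) - Cfsg.indFun (Subgroup.normalizer S) (χ j) =
      (Cfsg.indFun (Subgroup.normalizer S) (χ i) - Cfsg.indFun (Subgroup.normalizer S) (χ i₀)) -
      (Cfsg.indFun (Subgroup.normalizer S) (χ j) - Cfsg.indFun (Subgroup.normalizer S) (χ i₀)) := by
    abel
  rw [h3, h1, h2, ← smul_sub]
  congr 1
  abel

end Cfsg.Agent.S0170
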