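import Cfsg.Statements.S0171
import Cfsg.Agent.Lib.Char.FrobGroup
import Cfsg.Agent.Lib.Char.Clifford2
import Cfsg.Agent.S0173

set_option autoImplicit false
open Cfsg

namespace Cfsg.Agent.S0171

/-- Let G = K H with K normal, K ⊓ H trivial, and no non-identity element of H commuting with a non-identity element of K (a Frobenius group with kernel K and complement H). Then every non-principal irreducible character of K induces to an irreducible character of G. -/
theorem result {G : Type*} [Group G] [Fintype G] (K H : Subgroup G) [K.Normal] (hKH : K ⊓ H = ⊥) (hKH' : K ⊔ H = ⊤) (hfpf : ∀ h ∈ H, h ≠ 1 → ∀ k ∈ K, h * k = k * h → k = 1) (τ : K → ℂ) (hτ : Cfsg.IsIrrCharacter K τ) (hτ1 : τ ≠ fun _ => 1) : Cfsg.IsIrrCharacter G (Cfsg.indFun K τ) := by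
  classical
  haveI : Fintype K := Fintype.ofFinite K
  have hN : K.Normal := ‹_›
  have hclτ := Cfsg.Agent.Lib.Char.IsCharacter.isClassFunction
    (Cfsg.Agent.Lib.Char.IsIrrCharacter.isCharacter hτ)
  refine Cfsg.Agent.Lib.Char.indFun_isIrr_of_inertia_eq hN hτ ?_
  apply le_antisymm _ (Cfsg.Agent.Lib.Char.le_inertia hN hclτ)
  intro g hg
  by_contra hgK
  have hg' : g ∈ (K ⊔ H : Subgroup G) := by rw [hKH']; trivial
  rw [← SetLike.mem_coe, Subgroup.normal_mul] at hg'
  obtain ⟨k, hk, h, hh, rfl⟩ := Set.mem_mul.mp hg'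
  have hh1 : h ≠ 1 := by
    rintro rfl
    apply hgK
    simpa using hk
  have hkT := Cfsg.Agent.Lib.Char.le_inertia hN hclτ hk
  have hhT : h ∈ Cfsg.Agent.Lib.Char.inertia hN τ := by
    have := (Cfsg.Agent.Lib.Char.inertia hN τ).mul_mem
      ((Cfsg.Agent.Lib.Char.inertia hN τ).inv_mem hkT) hg
    simpa using this
  let α := Cfsg.Agent.Lib.Char.conjEquiv hN h
  have hαapp : ∀ x : K, ((α x : K) : G) = h * x * h⁻¹ := fun x => rfl
  have hfix : τ ∘ α = τ := by
    funext x
    exact (Cfsg.Agent.Lib.Char.mem_inertia_iff hN τ h).mp hhT x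
  have hcl : ∀ C : {C : ConjClasses K // ConjClasses.map α.toMonoidHom C = C},
      C = ⟨ConjClasses.mk 1, by
        change ConjClasses.mk (α 1) = _
        rw [map_one]⟩ := by
    rintro ⟨C, hC⟩
    obtain ⟨x, rfl⟩ := ConjClasses.mk_surjective C
    apply Subtype.ext
    have hC' : ConjClasses.mk (α x) = ConjClasses.mk x := hC
    have hconj : IsConj (α x) x := ConjClasses.mk_eq_mk_iff_isConj.mp hC'
    obtain ⟨c, hc⟩ := isConj_iff.mp hconj
    by_cases hx1 : x = 1
    · change ConjClasses.mk x = ConjClasses.mk 1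
      rw [hx1]
    exfalso
    have hxG : (x : G) ≠ 1 := fun h0 => hx1 (Subtype.ext h0)
    have hc' : (c : G) * (h * x * h⁻¹) * (c : G)⁻¹ = x := by
      have := congrArg Subtype.val hc
      simpa only [Subgroup.coe_mul, Subgroup.coe_inv, hαapp] using this
    have hmem : (c : G) * h ∈ Subgroup.centralizer ({(x : G)} : Set G) := by
      rw [Subgroup.mem_centralizer_iff]
      intro y hy
      have hy' : y = x := hy
      rw [hy']
      calc (x : G) * ((c : G) * h) = (c : G) * (h * x * h⁻¹) * (c : G)⁻¹ * ((c : G) * h) := by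
            rw [hc']
        _ = (c : G) * h * x := by group
    have hmemK := Cfsg.Agent.Lib.Char.frob_centralizer_kernel hKH hKH' hfpf x.2 hxG hmem
    have hhK : h ∈ K := by
      have := K.mul_mem (K.inv_mem c.2) hmemK
      simpa using this
    have : h ∈ K ⊓ H := ⟨hhK, hh⟩
    rw [hKH] at this
    exact hh1 this
  have hcount := Cfsg.Agent.S0173.result α
  have h1 : Nat.card {C : ConjClasses K // ConjClasses.map α.toMonoidHom C = C} = 1 := by
    rw [Nat.card_eq_one_iff_unique]
    refine ⟨⟨fun a b => (hcl a).trans (hcl b).symm⟩, ⟨⟨ConjClasses.mk 1, by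
        change ConjClasses.mk (α 1) = _
        rw [map_one]⟩⟩⟩
  rw [h1] at hcount
  have h2 := (Nat.card_eq_one_iff_unique.mp hcount.symm).1
  have h3 := h2.elim (⟨⟨τ, hτ⟩, hfix⟩ : {χ : Cfsg.IrrCharacter K // (χ : K → ℂ) ∘ α = (χ : K → ℂ)})
    ⟨⟨fun _ => 1, Cfsg.Agent.Lib.Char.isIrrCharacter_one⟩, rfl⟩
  apply hτ1
  exact congrArg (fun x : {χ : Cfsg.IrrCharacter K // (χ : K → ℂ) ∘ α = (χ : K → ℂ)} =>
    ((x.1 : Cfsg.IrrCharacter K) : K → ℂ)) h3

end Cfsg.Agent.S0171
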