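import Cfsg.Statements.S0172
import Cfsg.Agent.Lib.Char.FrobGroup

set_option autoImplicit false
open Cfsg

namespace Cfsg.Agent.S0172

theorem sum_card_centralizer (G : Type*) [Group G] [Fintype G] :
    ∑ x : G, Nat.card (Subgroup.centralizer ({x} : Set G)) =
      Nat.card (ConjClasses G) * Nat.card G := by
  classical
  rw [← card_comm_eq_card_conjClasses_mul_card, Nat.card_eq_fintype_card, Fintype.card_subtype,
    Finset.card_filter, Fintype.sum_prod_type]
  refine Finset.sum_congr rfl fun x _ => ?_
  rw [Nat.card_eq_fintype_card, Fintype.card_subtype, Finset.card_filter]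
  refine Finset.sum_congr rfl fun y _ => ?_
  simp only [Subgroup.mem_centralizer_singleton_iff, Commute, SemiconjBy]
  exact if_congr eq_comm rfl rfl

theorem card_centralizer_sub {G : Type*} [Group G] (K : Subgroup G) (x : K)
    (h : Subgroup.centralizer ({(x : G)} : Set G) ≤ K) :
    Nat.card (Subgroup.centralizer ({x} : Set K)) =
      Nat.card (Subgroup.centralizer ({(x : G)} : Set G)) := by
  refine Nat.card_congr
    { toFun := fun y => ⟨(y : K), ?_⟩
      invFun := fun y => ⟨⟨y, h y.2⟩, ?_⟩
      left_inv := fun y => rfl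
      right_inv := fun y => rfl }
  · rw [Subgroup.mem_centralizer_singleton_iff]
    have := Subgroup.mem_centralizer_singleton_iff.mp y.2
    exact congrArg Subtype.val this
  · rw [Subgroup.mem_centralizer_singleton_iff]
    apply Subtype.ext
    exact Subgroup.mem_centralizer_singleton_iff.mp y.2

theorem card_centralizer_conj {G : Type*} [Group G] (t x : G) :
    Nat.card (Subgroup.centralizer ({t * x * t⁻¹} : Set G)) =
      Nat.card (Subgroup.centralizer ({x} : Set G)) := by
  refine Nat.card_congr
    { toFun := fun y => ⟨t⁻¹ * y * t, ?_⟩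
      invFun := fun y => ⟨t * y * t⁻¹, ?_⟩
      left_inv := fun y => by
        apply Subtype.ext
        simp only
        group
      right_inv := fun y => by
        apply Subtype.ext
        simp only
        group }
  · rw [Subgroup.mem_centralizer_singleton_iff]
    have := Subgroup.mem_centralizer_singleton_iff.mp y.2
    calc t⁻¹ * (y : G) * t * x = t⁻¹ * ((y : G) * (t * x * t⁻¹)) * t := by group
      _ = t⁻¹ * ((t * x * t⁻¹) * (y : G)) * t := by rw [this]
      _ = _ := by group
  · rw [Subgroup.mem_centralizer_singleton_iff]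
    have := Subgroup.mem_centralizer_singleton_iff.mp y.2
    calc t * (y : G) * t⁻¹ * (t * x * t⁻¹) = t * ((y : G) * x) * t⁻¹ := by group
      _ = t * (x * (y : G)) * t⁻¹ := by rw [this]
      _ = _ := by group

/-- Class number of a Frobenius group: if G = K H with K normal, K ⊓ H trivial and no non-identity element of H commuting with a non-identity element of K, then |H| * k(G) + 1 = |H| * k(H) + k(K), where k denotes the number of conjugacy classes. -/
theorem result {G : Type*} [Group G] [Finite G] (K H : Subgroup G) [K.Normal] (hKH : K ⊓ H = ⊥) (hKH' : K ⊔ H = ⊤) (hfpf : ∀ h ∈ H, h ≠ 1 → ∀ k ∈ K, h * k = k * h → k = 1) : Nat.card H * Nat.card (ConjClasses G) + 1 = Nat.card H * Nat.card (ConjClasses H) + Nat.card (ConjClasses K) := by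

  classical
  haveI := Fintype.ofFinite G
  haveI : Fintype K := Fintype.ofFinite K
  haveI : Fintype H := Fintype.ofFinite H
  have hc := Cfsg.Agent.Lib.Char.frob_complement hKH hKH'
  have hcard : Nat.card K * Nat.card H = Nat.card G := hc.card_mul_card
  let c : G → ℕ := fun x => Nat.card (Subgroup.centralizer ({x} : Set G))
  have hcconj : ∀ t x, c (t * x * t⁻¹) = c x := card_centralizer_conj
  have hs1 := sum_card_centralizer G
  have hsK := sum_card_centralizer K
  have hsH := sum_card_centralizer H
  have hone : ∀ (L : Type _) [Group L] [Finite L],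
      Nat.card (Subgroup.centralizer ({(1 : L)} : Set L)) = Nat.card L := by
    intro L _ _
    have : Subgroup.centralizer ({(1 : L)} : Set L) = ⊤ := by
      ext x
      simp [Subgroup.mem_centralizer_singleton_iff]
    rw [this]
    simp
  have hK1 : Nat.card (Subgroup.centralizer ({(1 : K)} : Set K)) = Nat.card K := hone K
  have hH1 : Nat.card (Subgroup.centralizer ({(1 : H)} : Set H)) = Nat.card H := hone H
  have hG1 : c 1 = Nat.card G := hone G
  -- the part in `K`
  have hpartK : ∑ x ∈ (Finset.univ.erase (1 : K)), c x +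
      Nat.card K = Nat.card (ConjClasses K) * Nat.card K := by
    rw [← hsK, ← Finset.add_sum_erase _ _ (Finset.mem_univ (1 : K)), hK1, add_comm]
    congr 1
    refine Finset.sum_congr rfl fun x hx => ?_
    have hx1 : (x : G) ≠ 1 := fun h0 => (Finset.ne_of_mem_erase hx) (Subtype.ext h0)
    exact (card_centralizer_sub K x
      (Cfsg.Agent.Lib.Char.frob_centralizer_kernel hKH hKH' hfpf x.2 hx1)).symm
  have hpartH : ∑ x ∈ (Finset.univ.erase (1 : H)), c x +
      Nat.card H = Nat.card (ConjClasses H) * Nat.card H := by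
    rw [← hsH, ← Finset.add_sum_erase _ _ (Finset.mem_univ (1 : H)), hH1, add_comm]
    congr 1
    refine Finset.sum_congr rfl fun x hx => ?_
    have hx1 : (x : G) ≠ 1 := fun h0 => (Finset.ne_of_mem_erase hx) (Subtype.ext h0)
    exact (card_centralizer_sub H x
      (Cfsg.Agent.Lib.Char.frob_centralizer_compl hKH hKH' hfpf x.2 hx1)).symm
  -- splitting the sum over `G`
  have hsplitK : ∑ x : G, (if x ∈ K then c x else 0) = ∑ x : K, c x := by
    rw [← Finset.sum_filter]
    refine Finset.sum_subtype _ (fun x => by simp) _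
  have hsplit : ∑ x : G, c x = ∑ x : K, c x + ∑ x : G, (if x ∈ K then 0 else c x) := by
    rw [← hsplitK, ← Finset.sum_add_distrib]
    refine Finset.sum_congr rfl fun x _ => ?_
    split_ifs <;> simp
  -- double counting the part outside `K`
  let f : G → ℕ := fun x => if x = 1 then 0 else c x
  have hfconj : ∀ t x, f (t * x * t⁻¹) = f x := by
    intro t x
    simp only [f]
    by_cases hx : x = 1
    · simp [hx]
    · have : t * x * t⁻¹ ≠ 1 := by
        intro h0
        apply hx
        have h2 : x = t⁻¹ * (t * x * t⁻¹) * t := by group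
        rw [h2, h0]
        group
      rw [if_neg hx, if_neg this, hcconj]
  have hE : ∀ x : G, (∑ t : G, if t⁻¹ * x * t ∈ H then f x else 0) =
      if x ∈ K then 0 else Nat.card H * c x := by
    intro x
    by_cases hxK : x ∈ K
    · rw [if_pos hxK]
      refine Finset.sum_eq_zero fun t _ => ?_
      split_ifs with ht
      · simp only [f]
        split_ifs with hx1
        · rfl
        exfalso
        have h1 : t⁻¹ * x * t ∈ K := by
          have := (‹K.Normal›).conj_mem x hxK t⁻¹
          simpa using this
        have h2 : t⁻¹ * x * t ∈ K ⊓ H := ⟨h1, ht⟩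
        rw [hKH] at h2
        apply hx1
        have h3 : x = t * (t⁻¹ * x * t) * t⁻¹ := by group
        rw [h3, Subgroup.mem_bot.mp h2]
        group
      · rfl
    · rw [if_neg hxK]
      have hx1 : x ≠ 1 := by
        rintro rfl
        exact hxK K.one_mem
      have hfx : f x = c x := if_neg hx1
      rw [hfx]
      obtain ⟨t₀, ht₀⟩ := Cfsg.Agent.Lib.Char.frob_exists_conj hKH hKH' hfpf hxK
      rw [← Finset.sum_filter, Finset.sum_const, smul_eq_mul]
      congr 1
      rw [Nat.card_eq_fintype_card]
      symm
      rw [← Finset.card_univ]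
      refine Finset.card_bij (fun h _ => t₀ * (h : G)) ?_ ?_ ?_
      · intro h _
        simp only [Finset.mem_filter, Finset.mem_univ, true_and]
        have : (t₀ * (h : G))⁻¹ * x * (t₀ * (h : G)) = (h : G)⁻¹ * (t₀⁻¹ * x * t₀) * h := by group
        rw [this]
        exact H.mul_mem (H.mul_mem (H.inv_mem h.2) ht₀) h.2
      · intro h _ h' _ hh'
        exact Subtype.ext (mul_left_cancel hh')
      · intro t ht
        simp only [Finset.mem_filter, Finset.mem_univ, true_and] at ht
        have hy1 : t₀⁻¹ * x * t₀ ≠ 1 := by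
          intro h0
          apply hx1
          have h3 : x = t₀ * (t₀⁻¹ * x * t₀) * t₀⁻¹ := by group
          rw [h3, h0]
          group
        have hmem : t₀⁻¹ * t ∈ H := by
          refine Cfsg.Agent.Lib.Char.frob_mem_of_conj_mem hKH hKH' hfpf ht₀ hy1 ?_
          have : (t₀⁻¹ * t)⁻¹ * (t₀⁻¹ * x * t₀) * (t₀⁻¹ * t) = t⁻¹ * x * t := by group
          rw [this]
          exact ht
        exact ⟨⟨t₀⁻¹ * t, hmem⟩, Finset.mem_univ _, by simp⟩
  set S := ∑ x : G, (if x ∈ K then 0 else c x) with hS
  have hdouble : Nat.card H * S = Nat.card G * ∑ x ∈ (Finset.univ.erase (1 : H)), c x := by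
    have h1 : ∑ x : G, ∑ t : G, (if t⁻¹ * x * t ∈ H then f x else 0) = Nat.card H * S := by
      simp only [hE, hS]
      rw [Finset.mul_sum]
      refine Finset.sum_congr rfl fun x _ => ?_
      split_ifs <;> simp
    rw [← h1, Finset.sum_comm]
    have h2 : ∀ t : G, ∑ x : G, (if t⁻¹ * x * t ∈ H then f x else 0) =
        ∑ y : G, if y ∈ H then f y else 0 := by
      intro t
      rw [← Equiv.sum_comp (MulAut.conj t).toEquiv]
      refine Finset.sum_congr rfl fun y _ => ?_
      have h3 : (MulAut.conj t).toEquiv y = t * y * t⁻¹ := rfl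
      have h4 : t⁻¹ * (t * y * t⁻¹) * t = y := by group
      rw [h3, h4, hfconj]
    simp only [h2]
    rw [Finset.sum_const, Finset.card_univ, smul_eq_mul, ← Nat.card_eq_fintype_card]
    congr 1
    rw [← Finset.sum_filter]
    have h5 : ∑ y ∈ Finset.univ.filter (fun y : G => y ∈ H), f y = ∑ y : H, f y :=
      Finset.sum_subtype _ (fun x => by simp) _
    rw [h5, ← Finset.add_sum_erase _ _ (Finset.mem_univ (1 : H))]
    have h6 : f ((1 : H) : G) = 0 := by simp [f]
    rw [h6, zero_add]
    refine Finset.sum_congr rfl fun y hy => ?_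
    have hy1 : (y : G) ≠ 1 := fun h0 => (Finset.ne_of_mem_erase hy) (Subtype.ext h0)
    exact if_neg hy1
  have hpartK' : ∑ x : K, c x = Nat.card G + ∑ x ∈ (Finset.univ.erase (1 : K)), c x := by
    rw [← Finset.add_sum_erase _ _ (Finset.mem_univ (1 : K))]
    congr 1
  rw [hpartK'] at hsplit
  rw [hs1] at hsplit
  set P := ∑ x ∈ (Finset.univ.erase (1 : K)), c x with hP
  set Q := ∑ x ∈ (Finset.univ.erase (1 : H)), c x with hQ
  set a := Nat.card K with ha
  set b := Nat.card H with hb
  set n := Nat.card G with hn
  set kG := Nat.card (ConjClasses G) with hkG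
  set kK := Nat.card (ConjClasses K) with hkK
  set kH := Nat.card (ConjClasses H) with hkH
  have ha0 : a ≠ 0 := Nat.card_pos.ne'
  have hb0 : b ≠ 0 := Nat.card_pos.ne'
  have E1 : (P : ℤ) + a = kK * a := by exact_mod_cast hpartK
  have E2 : (Q : ℤ) + b = kH * b := by exact_mod_cast hpartH
  have E3 : (kG : ℤ) * n = n + P + S := by exact_mod_cast hsplit
  have E4 : (b : ℤ) * S = n * Q := by exact_mod_cast hdouble
  have E5 : (a : ℤ) * b = n := by exact_mod_cast hcard
  have hb0' : (b : ℤ) ≠ 0 := by exact_mod_cast hb0
  have ha0' : (a : ℤ) ≠ 0 := by exact_mod_cast ha0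
  have E6 : (S : ℤ) = a * Q := by
    apply mul_left_cancel₀ hb0'
    rw [E4, ← E5]
    ring
  have hT : (a : ℤ) * ((b * kG + 1) - (b * kH + kK)) = 0 := by
    linear_combination (kG - 1 : ℤ) * E5 + E3 + E1 + E6 + (a : ℤ) * E2
  have hfin : ((b : ℤ) * kG + 1) - (b * kH + kK) = 0 := by
    rcases mul_eq_zero.mp hT with h | h
    · exact absurd h ha0'
    · exact h
  have hfin' : (b : ℤ) * kG + 1 = b * kH + kK := by linarith
  exact_mod_cast hfin'

end Cfsg.Agent.S0172
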