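import Cfsg.Statements.S0180
import Cfsg.Agent.Lib.Char.Galois

set_option autoImplicit false
open Cfsg

namespace Cfsg.Agent.S0180

/-- Every irreducible complex character of a finite group takes only rational values if and only if g is conjugate to g ^ m for every element g and every m coprime to the group order. -/
theorem result {G : Type*} [Group G] [Finite G] : (∀ χ : Cfsg.IrrCharacter G, ∀ g : G, ∃ q : ℚ, (χ : G → ℂ) g = (q : ℂ)) ↔ ∀ m : ℕ, m.Coprime (Nat.card G) → ∀ g : G, IsConj g (g ^ m) := by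
  classical
  haveI := Fintype.ofFinite G
  haveI : NeZero (Nat.card G) := ⟨Nat.card_pos.ne'⟩
  constructor
  · intro h m hm g
    rw [Cfsg.Agent.Lib.Char.isConj_iff_forall_irr]
    rintro ⟨χ, n, ρ, hρ, rfl⟩
    obtain ⟨q, hq⟩ := h ⟨ρ.character, n, ρ, hρ, rfl⟩ g
    exact (Cfsg.Agent.Lib.Char.char_pow_eq_of_rational ρ (Nat.card G) g (pow_card_eq_one') m hm q hq).symm
  · rintro h ⟨χ, n, ρ, hρ, rfl⟩ g
    refine Cfsg.Agent.Lib.Char.char_rational_of_forall_pow ρ (Nat.card G) g (pow_card_eq_one') ?_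
    intro u hu
    exact (Cfsg.Agent.Lib.Char.IsCharacter.map_isConj ⟨n, ρ, rfl⟩ (h u hu g)).symm

end Cfsg.Agent.S0180
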