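import Cfsg.Statements.S0185
import Cfsg.Agent.Lib.Char.Invariants

set_option autoImplicit false
open Cfsg

namespace Cfsg.Agent.S0185

/-- If a finite group has a faithful complex representation of degree less than the smallest prime dividing its order, the group is abelian. -/
theorem result {G : Type*} [Group G] [Finite G] {V : Type*} [AddCommGroup V] [Module ℂ V] [FiniteDimensional ℂ V] (ρ : Representation ℂ G V) (hfaithful : Function.Injective ρ) (hdeg : ∀ p : ℕ, p.Prime → p ∣ Nat.card G → Module.finrank ℂ V < p) (a b : G) : a * b = b * a := by
  exact hfaithful (Cfsg.Agent.Lib.Char.rep_comm_of_finrank_lt a b V ρ hdeg)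

end Cfsg.Agent.S0185
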