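import Cfsg.Statements.S0186
import Cfsg.Agent.Lib.Char.Product

set_option autoImplicit false
open Cfsg

namespace Cfsg.Agent.S0186

/-- Let G be a finite simple group of order n and p a prime dividing n. If G has more than n / p^2 conjugacy classes, then every Sylow p-subgroup of G is abelian. -/
theorem result {G : Type*} [Group G] [Finite G] [IsSimpleGroup G] (p : ℕ) [Fact p.Prime] (hp : p ∣ Nat.card G) (hmany : Nat.card G < p ^ 2 * Nat.card (ConjClasses G)) (P : Sylow p G) (a b : G) (ha : a ∈ P) (hb : b ∈ P) : a * b = b * a := by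
  classical
  haveI := Fintype.ofFinite G
  by_contra hne
  have hpP : p ^ 2 ∣ Nat.card P := by
    obtain ⟨e, he⟩ := IsPGroup.iff_card.mp P.isPGroup'
    rw [he]
    by_contra hcon
    have he2 : e < 2 := by
      by_contra h2
      exact hcon (pow_dvd_pow p (by omega))
    have hcyc : IsCyclic P := by
      interval_cases e
      · have : Subsingleton P := by
          apply (Nat.card_eq_one_iff_unique.mp (by simpa using he)).1
        exact isCyclic_of_subsingleton
      · rw [pow_one] at he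
        exact isCyclic_of_prime_card he
    letI := hcyc.commGroup
    have h3 := mul_comm (⟨a, ha⟩ : P) ⟨b, hb⟩
    exact hne (congrArg Subtype.val h3)
  have hpn : p ^ 2 ∣ Nat.card G := hpP.trans (Subgroup.card_subgroup_dvd_card _)
  have hp1 := (Fact.out : p.Prime).one_lt
  let one : Cfsg.IrrCharacter G := ⟨fun _ => 1, Cfsg.Agent.Lib.Char.isIrrCharacter_one⟩
  have hdeg : ∀ χ : Cfsg.IrrCharacter G, χ ≠ one → p ≤ Cfsg.charDegree (χ : G → ℂ) := by
    rintro ⟨χ, hχ⟩ hχ1
    have hχ' := hχ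
    obtain ⟨n, ρ, hρ, rfl⟩ := hχ
    have hd : Cfsg.charDegree ρ.character = n := by
      apply Cfsg.Agent.Lib.Char.charDegree_natCast
      rw [Representation.char_one]
      simp
    simp only [hd]
    by_contra hlt
    push Not at hlt
    have hnorm : ρ.ker.Normal := MonoidHom.normal_ker ρ
    rcases IsSimpleGroup.eq_bot_or_eq_top_of_normal _ hnorm with h | h
    · have hinj : Function.Injective ρ := (MonoidHom.ker_eq_bot_iff ρ).mp h
      apply hne
      have h1 := Cfsg.Agent.Lib.Char.rep_comm_of_finrank_lt (⟨a, ha⟩ : P) (⟨b, hb⟩ : P)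
        (Fin n → ℂ) (MonoidHom.comp ρ P.toSubgroup.subtype) (fun q hq hqd => by
          have hq' : q = p := by
            obtain ⟨e, he⟩ := IsPGroup.iff_card.mp P.isPGroup'
            have hqd' : q ∣ p ^ e := he ▸ hqd
            exact (Nat.prime_dvd_prime_iff_eq hq Fact.out).mp (hq.dvd_of_dvd_pow hqd')
          rw [hq']
          simpa using hlt)
      exact hinj h1
    · apply hχ1
      apply Subtype.ext
      exact Cfsg.Agent.Lib.Char.irr_trivial_of_ker_top ρ hρ (fun g => by
        have : g ∈ ρ.ker := by rw [h]; trivial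
        exact this)
  have hsum : ∑ χ : Cfsg.IrrCharacter G, Cfsg.charDegree (χ : G → ℂ) ^ 2 = Nat.card G := by
    have h1 := Cfsg.Agent.Lib.Char.sum_degree_sq (G := G)
    have h2 : ∑ χ : Cfsg.IrrCharacter G, ((χ : G → ℂ) 1) ^ 2 =
        ((∑ χ : Cfsg.IrrCharacter G, Cfsg.charDegree (χ : G → ℂ) ^ 2 : ℕ) : ℂ) := by
      push_cast
      refine Finset.sum_congr rfl fun χ _ => ?_
      rw [Cfsg.Agent.Lib.Char.map_one_eq_charDegree
        (Cfsg.Agent.Lib.Char.IsIrrCharacter.isCharacter χ.2)]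
    rw [h2] at h1
    exact_mod_cast h1
  have hone : Cfsg.charDegree (one : G → ℂ) = 1 := by
    apply Cfsg.Agent.Lib.Char.charDegree_natCast
    simp [one]
  have hk : Fintype.card (Cfsg.IrrCharacter G) = Nat.card (ConjClasses G) := by
    rw [← Cfsg.Agent.Lib.Char.card_irr_eq_card_conjClasses, Nat.card_eq_fintype_card]
  rw [← Finset.add_sum_erase _ _ (Finset.mem_univ one), hone] at hsum
  have hsum2 : ∑ χ ∈ Finset.univ.erase one, Cfsg.charDegree (χ : G → ℂ) ^ 2 =
      (Fintype.card (Cfsg.IrrCharacter G) - 1) * p ^ 2 +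
        ∑ χ ∈ Finset.univ.erase one, (Cfsg.charDegree (χ : G → ℂ) ^ 2 - p ^ 2) := by
    have h1 : (Fintype.card (Cfsg.IrrCharacter G) - 1) * p ^ 2 =
        ∑ _χ ∈ Finset.univ.erase one, p ^ 2 := by
      rw [Finset.sum_const, Finset.card_erase_of_mem (Finset.mem_univ _), Finset.card_univ,
        smul_eq_mul]
    rw [h1, ← Finset.sum_add_distrib]
    refine Finset.sum_congr rfl fun χ hχ => ?_
    have h2 := hdeg χ (Finset.ne_of_mem_erase hχ)
    have h3 : p ^ 2 ≤ Cfsg.charDegree (χ : G → ℂ) ^ 2 := Nat.pow_le_pow_left h2 2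
    omega
  rw [hsum2] at hsum
  set S := ∑ χ ∈ Finset.univ.erase one, (Cfsg.charDegree (χ : G → ℂ) ^ 2 - p ^ 2) with hS
  set k := Fintype.card (Cfsg.IrrCharacter G) with hkdef
  have hkpos : 0 < k := Fintype.card_pos_iff.mpr ⟨one⟩
  have hdvd : p ^ 2 ∣ 1 + S := by
    have h1 : p ^ 2 ∣ (k - 1) * p ^ 2 + (1 + S) := by
      rw [show (k - 1) * p ^ 2 + (1 + S) = 1 ^ 2 + ((k - 1) * p ^ 2 + S) by ring, hsum]
      exact hpn
    exact (Nat.dvd_add_right (Dvd.intro_left _ rfl)).mp h1
  have hle := Nat.le_of_dvd (by omega) hdvd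
  have hfin : k * p ^ 2 ≤ Nat.card G := by
    rw [← hsum]
    obtain ⟨k', hk'⟩ : ∃ k', k = k' + 1 := ⟨k - 1, by omega⟩
    rw [hk', Nat.add_sub_cancel]
    nlinarith
  rw [← hk] at hmany
  rw [mul_comm] at hfin
  omega

end Cfsg.Agent.S0186
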