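import Cfsg.Statements.S0189
import Cfsg.Agent.Lib.Char.Invariants

set_option autoImplicit false
open Cfsg

namespace Cfsg.Agent.S0189

/-- If a complex character of a finite group vanishes at every non-identity element of a Sylow p-subgroup P, then |P| divides its degree. -/
theorem result {G : Type*} [Group G] [Finite G] (p : ℕ) [Fact p.Prime] (P : Sylow p G) (χ : G → ℂ) (hχ : Cfsg.IsCharacter G χ) (hvan : ∀ g : G, g ∈ P → g ≠ 1 → χ g = 0) : ∃ k : ℕ, χ 1 = (Nat.card P : ℂ) * k := by
  classical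
  haveI := Fintype.ofFinite G
  haveI : Fintype (P : Subgroup G) := Fintype.ofFinite _
  obtain ⟨k, hk⟩ := Cfsg.Agent.Lib.Char.classInner_isCharacter_nat
    (Cfsg.Agent.Lib.Char.IsCharacter.restrict (P : Subgroup G) hχ)
    (Cfsg.Agent.Lib.Char.IsCharacter.one (G := (P : Subgroup G)))
  refine ⟨k, ?_⟩
  rw [Cfsg.Agent.Lib.Char.classInner_def] at hk
  have h1 : ∑ g : (P : Subgroup G), χ g * (starRingEnd ℂ) 1 = χ 1 := by
    rw [Finset.sum_eq_single (1 : (P : Subgroup G))]
    · simp
    · intro b _ hb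
      rw [hvan b b.2 (by simpa using hb), zero_mul]
    · simp
  rw [h1] at hk
  have h2 : (Nat.card (P : Subgroup G) : ℂ) ≠ 0 := Cfsg.Agent.Lib.Char.card_ne_zero_complex _
  have h3 : (Nat.card P : ℂ) = (Nat.card (P : Subgroup G) : ℂ) := rfl
  rw [h3]
  field_simp at hk
  exact hk

end Cfsg.Agent.S0189
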