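import Cfsg.Statements.S0191
import Cfsg.Agent.Lib.Degree.Burnside

set_option autoImplicit false
open Cfsg

namespace Cfsg.Agent.S0191

/-- An irreducible complex representation of a finite group of degree greater than 1 has a character that vanishes somewhere. -/
theorem result {G : Type*} [Group G] [Finite G] {V : Type*} [AddCommGroup V] [Module ℂ V] [FiniteDimensional ℂ V] (ρ : Representation ℂ G V) [ρ.IsIrreducible] (hdeg : 1 < Module.finrank ℂ V) : ∃ g : G, ρ.character g = 0 := by
  classical
  haveI := Fintype.ofFinite G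
  by_contra hcon
  push Not at hcon
  have hχ := Cfsg.Agent.Lib.Char.isIrrCharacter_character ρ inferInstance
  have hS : ∀ g ∈ (Finset.univ.erase (1 : G)), ∀ k : ℕ, k.Coprime (Nat.card G) →
      g ^ k ∈ (Finset.univ.erase (1 : G)) := by
    intro g hg k hk
    simp only [Finset.mem_erase, Finset.mem_univ, and_true] at hg ⊢
    intro h1
    have hinj : Function.Injective (fun g : G => g ^ k) :=
      (powCoprime hk.symm : G ≃ G).injective
    exact hg (hinj (by simpa using h1))
  have h1 := Cfsg.Agent.Lib.Degree.card_support_le_sum_norm_sq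
    (Cfsg.Agent.Lib.Char.IsIrrCharacter.isCharacter hχ) _ hS
  have h2 : (Finset.univ.erase (1 : G)).filter (fun g => ρ.character g ≠ 0) =
      Finset.univ.erase (1 : G) := Finset.filter_true_of_mem fun g _ => hcon g
  rw [h2, Finset.card_erase_of_mem (Finset.mem_univ _), Finset.card_univ] at h1
  have h3 := Cfsg.Agent.Lib.Degree.irr_sum_norm_sq (⟨ρ.character, hχ⟩ : Cfsg.IrrCharacter G)
  simp only at h3
  rw [← Finset.add_sum_erase _ _ (Finset.mem_univ (1 : G)), Representation.char_one] at h3
  have h4 : ‖(Module.finrank ℂ V : ℂ)‖ = (Module.finrank ℂ V : ℝ) := by simp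
  rw [h4] at h3
  have h5 : (1 : ℝ) < (Module.finrank ℂ V : ℝ) := by exact_mod_cast hdeg
  have h6 : ((Fintype.card G - 1 : ℕ) : ℝ) = (Nat.card G : ℝ) - 1 := by
    rw [Nat.cast_sub Fintype.card_pos, Nat.card_eq_fintype_card]
    simp
  rw [h6] at h1
  nlinarith

end Cfsg.Agent.S0191
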