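import Cfsg.Statements.S0196
import Mathlib

set_option autoImplicit false
open Cfsg

namespace Cfsg.Agent.S0196

/-- Let A be a subgroup of a finite group G that equals the centralizer of each of its non-identity elements, and let N be its normalizer. Then the index of A in N divides |A| − 1 (N/A permutes the non-identity elements of A in orbits of full length). -/
theorem result {G : Type*} [Group G] [Finite G] (A : Subgroup G) (hA : ∀ x ∈ A, x ≠ 1 → Subgroup.centralizer ({x} : Set G) = A) : (A.subgroupOf (Subgroup.normalizer (A : Set G))).index ∣ Nat.card A - 1 := by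
  classical
  -- trivial case
  by_cases hA1 : A = ⊥
  · subst hA1
    simp
  set N := Subgroup.normalizer (A : Set G) with hN
  have hAN : ∀ a ∈ A, a ∈ N := by
    intro a ha
    rw [hN, Subgroup.mem_normalizer_iff]
    intro h
    constructor
    · intro hh
      exact A.mul_mem (A.mul_mem ha hh) (A.inv_mem ha)
    · intro hh
      have : h = a⁻¹ * (a * h * a⁻¹) * a := by group
      rw [this]
      exact A.mul_mem (A.mul_mem (A.inv_mem ha) hh) ha
  let X := {x : A // x ≠ 1}
  have hconj : ∀ (n : N) (x : A), (n : G) * x * (n : G)⁻¹ ∈ A := by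
    intro n x
    have := (Subgroup.mem_normalizer_iff.mp n.2 (x : G)).mp x.2
    exact this
  let act : MulAction N X :=
    { smul := fun n x => ⟨⟨(n : G) * x.1 * (n : G)⁻¹, hconj n x.1⟩, by
        intro h
        apply x.2
        have h2 : (n : G) * x.1 * (n : G)⁻¹ = 1 := congrArg Subtype.val h
        apply Subtype.ext
        have : (x.1 : G) = (n : G)⁻¹ * ((n : G) * x.1 * (n : G)⁻¹) * (n : G) := by group
        rw [this, h2]
        simp⟩
      one_smul := by
        intro x
        apply Subtype.ext
        apply Subtype.ext
        show (((1 : N) : G)) * x.1 * ((1 : N) : G)⁻¹ = x.1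
        simp
      mul_smul := by
        intro a b x
        apply Subtype.ext
        apply Subtype.ext
        show (((a * b : N)) : G) * x.1 * ((a * b : N) : G)⁻¹ =
          (a : G) * ((b : G) * x.1 * (b : G)⁻¹) * (a : G)⁻¹
        push_cast
        group }
  have hsmul : ∀ (n : N) (x : X), ((n • x : X).1 : G) = (n : G) * x.1 * (n : G)⁻¹ := fun _ _ => rfl
  have hstab : ∀ x : X, MulAction.stabilizer N x = A.subgroupOf N := by
    intro x
    ext n
    rw [MulAction.mem_stabilizer_iff, Subgroup.mem_subgroupOf]
    have hx1 : (x.1 : G) ≠ 1 := fun h => x.2 (Subtype.ext h)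
    have hC := hA x.1 x.1.2 hx1
    constructor
    · intro h
      have h1 : (n : G) * x.1 * (n : G)⁻¹ = x.1 := by
        rw [← hsmul, h]
      rw [← hC, Subgroup.mem_centralizer_singleton_iff]
      rwa [mul_inv_eq_iff_eq_mul] at h1
    · intro h
      apply Subtype.ext
      apply Subtype.ext
      rw [hsmul]
      rw [← hC, Subgroup.mem_centralizer_singleton_iff] at h
      rw [h, mul_assoc, mul_inv_cancel, mul_one]
  have hXcard : Nat.card X = Nat.card A - 1 := by
    have : Fintype A := Fintype.ofFinite A
    rw [Nat.card_eq_fintype_card, Nat.card_eq_fintype_card]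
    simp only [X]
    rw [Fintype.card_subtype_compl, Fintype.card_subtype_eq]
  rw [← hXcard]
  have hsig := Nat.card_congr (MulAction.selfEquivSigmaOrbits N X)
  have hfin : Finite X := inferInstance
  have : Fintype (MulAction.orbitRel.Quotient N X) := Fintype.ofFinite _
  rw [hsig, Nat.card_sigma]
  refine Finset.dvd_sum fun ω _ => ?_
  have h1 := MulAction.index_stabilizer N (Quotient.out ω)
  rw [hstab] at h1
  rw [h1, Nat.card_coe_set_eq]

end Cfsg.Agent.S0196
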