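import Cfsg.Statements.S0201
import Cfsg.Agent.Lib.ZStar.Center

set_option autoImplicit false
open Cfsg

namespace Cfsg.Agent.S0201

/-- Brauer–Suzuki Theorem: if a Sylow 2-subgroup of a finite group is generalized quaternion (of order at least 8) and the group has no nontrivial normal subgroup of odd order, then its centre has order 2. -/
theorem result {G : Type*} [Group G] [Finite G] (S : Sylow 2 G) (n : ℕ) (e : (S : Subgroup G) ≃* QuaternionGroup (2 ^ (n + 1))) (hO : ∀ N : Subgroup G, N.Normal → Odd (Nat.card N) → N = ⊥) : Nat.card (Subgroup.center G) = 2 := by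
  have h1 : 2 ^ (n + 1) = 2 * 2 ^ n := pow_succ' 2 n
  generalize 2 ^ (n + 1) = m at e h1
  subst h1
  exact Cfsg.Agent.Lib.ZStar.center_of_quaternionGroup S (by positivity) e hO

end Cfsg.Agent.S0201
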