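import Cfsg.Statements.S0203
import Mathlib
import Cfsg.Agent.Lib.Invol.Klein

set_option autoImplicit false
open Cfsg

namespace Cfsg.Agent.S0203

/-- If a Sylow 2-subgroup P of a finite group G is a Klein four-group, then G has three classes of involutions if and only if P has a normal complement in G. -/
theorem result {G : Type*} [Group G] [Finite G] (P : Sylow 2 G) (hP : IsKleinFour (P : Subgroup G)) : Nat.card {C : ConjClasses G // ∃ t : G, orderOf t = 2 ∧ ConjClasses.mk t = C} = 3 ↔ ∃ N : Subgroup G, N.Normal ∧ Subgroup.IsComplement' N (P : Subgroup G) := by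
  open Cfsg.Agent.Lib.Invol in
  obtain ⟨x, y, hx, hy, hx1, hy1, hxy⟩ := klein_exists_pair P hP
  obtain ⟨h1, h2⟩ := klein_classes P hP hx hy hx1 hy1 hxy
  constructor
  · intro h3
    have hnc : ¬ IsConj x y := by
      intro hc
      rw [h1 hc] at h3
      omega
    -- every element of the normalizer centralizes `P`
    have hm : x * y ∈ (P : Subgroup G) := (P : Subgroup G).mul_mem hx hy
    have hxx := klein_mul_self P hP hx
    have hyy := klein_mul_self P hP hy
    have hm1 : x * y ≠ 1 := by
      intro h
      apply hxy
      calc x = x * (y * y) := by rw [hyy, mul_one]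
        _ = (x * y) * y := by rw [mul_assoc]
        _ = y := by rw [h, one_mul]
    have hmx : x * y ≠ x := fun h => hy1 (by simpa using h)
    have hmy : x * y ≠ y := fun h => hx1 (by simpa using h)
    have hnc2 : ¬ IsConj x (x * y) := by
      intro h
      have h4 := klein_fusion P hP hx hm hx1 hm1 (Ne.symm hmx) h
      rw [← mul_assoc, hxx, one_mul] at h4
      exact hnc h4
    have hnc3 : ¬ IsConj y (x * y) := by
      intro h
      have h4 := klein_fusion P hP hy hm hy1 hm1 (Ne.symm hmy) h
      rw [klein_comm P hP hx hy, ← mul_assoc, hyy, one_mul] at h4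
      exact hnc h4.symm
    have hN : Subgroup.normalizer ((P : Subgroup G) : Set G) ≤ Subgroup.centralizer ((P : Subgroup G) : Set G) := by
      intro g hg
      rw [Subgroup.mem_centralizer_iff]
      intro z hz
      have hz' : g * z * g⁻¹ ∈ (P : Subgroup G) := (Subgroup.mem_normalizer_iff.1 hg z).1 hz
      have hcz : IsConj z (g * z * g⁻¹) := isConj_iff.2 ⟨g, rfl⟩
      have key : g * z * g⁻¹ = z := by
        by_cases hz1 : z = 1
        · rw [hz1]; group
        have hg1 : g * z * g⁻¹ ≠ 1 := by
          intro h
          apply hz1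
          have : z = g⁻¹ * (g * z * g⁻¹) * g := by group
          rw [this, h]; group
        -- cases
        have trich : ∀ w ∈ (P : Subgroup G), w ≠ 1 → w = x ∨ w = y ∨ w = x * y := by
          intro w hw hw1
          by_cases h4 : w = x
          · exact Or.inl h4
          by_cases h5 : w = y
          · exact Or.inr (Or.inl h5)
          exact Or.inr (Or.inr (klein_third P hP hx hy hw hx1 hy1 hxy hw1 h4 h5))
        rcases trich z hz hz1 with rfl | rfl | rfl <;>
          rcases trich _ hz' hg1 with h6 | h6 | h6 <;>
          first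
          | exact h6
          | (rw [h6] at hcz
             first
             | exact absurd hcz hnc
             | exact absurd hcz.symm hnc
             | exact absurd hcz hnc2
             | exact absurd hcz.symm hnc2
             | exact absurd hcz hnc3
             | exact absurd hcz.symm hnc3)
      calc z * g = (g * z * g⁻¹) * g := by rw [key]
        _ = g * z := by group
    exact ⟨_, MonoidHom.normal_ker _, MonoidHom.ker_transferSylow_isComplement' P hN⟩
  · rintro ⟨N, hN, hc⟩
    by_cases hcj : IsConj x y
    · exfalso
      obtain ⟨g, hg⟩ := isConj_iff.1 hcj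
      obtain ⟨⟨n, p⟩, hnp⟩ := hc.2 g
      simp only at hnp
      have hpc : (p : G) * x * (p : G)⁻¹ = x := by
        rw [klein_comm P hP p.2 hx, mul_assoc, mul_inv_cancel, mul_one]
      have hyn : y = n * x * (n : G)⁻¹ := by
        rw [← hg, ← hnp]
        calc (n : G) * p * x * ((n : G) * p)⁻¹ = n * ((p : G) * x * (p : G)⁻¹) * (n : G)⁻¹ := by group
          _ = n * x * (n : G)⁻¹ := by rw [hpc]
      have hmemN : y * x⁻¹ ∈ N := by
        rw [hyn]
        have e : (n : G) * x * (n : G)⁻¹ * x⁻¹ = n * (x * (n : G)⁻¹ * x⁻¹) := by group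
        rw [e]
        exact N.mul_mem n.2 (hN.conj_mem _ (N.inv_mem n.2) x)
      have hmemP : y * x⁻¹ ∈ (P : Subgroup G) := (P : Subgroup G).mul_mem hy ((P : Subgroup G).inv_mem hx)
      have h4 := Subgroup.disjoint_def.1 hc.disjoint hmemN hmemP
      apply hxy
      exact (mul_inv_eq_one.1 h4).symm
    · exact h2 hcj

end Cfsg.Agent.S0203
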