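import Cfsg.Statements.S0211
import Mathlib
import Cfsg.Agent.Lib.Invol.Basic

set_option autoImplicit false
open Cfsg

namespace Cfsg.Agent.S0211

/-- Let x, y be involutions with xy of even order n and z = (xy)^(n/2). Then xz is conjugate to x by an element of the subgroup generated by x, y if and only if 4 divides n. -/
theorem result {G : Type*} [Group G] [Finite G] (x y : G) (hx : orderOf x = 2) (hy : orderOf y = 2) (heven : Even (orderOf (x * y))) : (∃ d ∈ Subgroup.closure ({x, y} : Set G), d * x * d⁻¹ = x * (x * y) ^ (orderOf (x * y) / 2)) ↔ 4 ∣ orderOf (x * y) := by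
  open Cfsg.Agent.Lib.Invol in
  have hx' := mul_self_of_order_two hx
  have hy' := mul_self_of_order_two hy
  obtain ⟨a, ha⟩ := heven
  have hn : orderOf (x * y) / 2 = a := by omega
  rw [hn]
  constructor
  · rintro ⟨d, hd, h⟩
    obtain ⟨j, hj⟩ := conj_left_in_closure hx' hy' hd
    rw [h] at hj
    have h2 : (x * y) ^ a = (x * y) ^ (2 * j) := mul_left_cancel hj
    have h1 : (x * y) ^ ((a : ℤ) - 2 * j) = 1 := by
      rw [zpow_sub, zpow_natCast, h2, mul_inv_cancel]
    have h3 := orderOf_dvd_iff_zpow_eq_one.2 h1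
    rw [ha] at h3
    have h4 : (2 : ℤ) ∣ (a : ℤ) - 2 * j := dvd_trans ⟨(a : ℤ), by push_cast; ring⟩ h3
    have h5 : Even a := by
      rw [← Int.even_coe_nat]
      have : (2 : ℤ) ∣ (a : ℤ) := by omega
      exact even_iff_two_dvd.2 this
    obtain ⟨b, hb⟩ := h5
    rw [ha, hb]
    exact ⟨b, by ring⟩
  · rintro ⟨b, hb⟩
    have hab : (a : ℤ) = 2 * b := by
      have : a = 2 * b := by omega
      rw [this]; push_cast; ring
    refine ⟨(x * y) ^ (-(b : ℤ)), zpow_mem_closure hx' hy' _, ?_⟩
    rw [conj_left_by_zpow hx' hy', ← zpow_natCast (x * y) a, hab]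
    congr 2; ring

end Cfsg.Agent.S0211
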