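import Cfsg.Statements.S0212
import Mathlib
import Cfsg.Agent.Lib.Invol.Simple

set_option autoImplicit false
open Cfsg

namespace Cfsg.Agent.S0212

/-- The Brauer–Fowler bound: if G is a finite simple group and t an involution of G whose centralizer has order n, then |G| ≤ (2n^2)!. -/
theorem result {G : Type*} [Group G] [Finite G] [IsSimpleGroup G] (t : G) (ht : orderOf t = 2) : Nat.card G ≤ Nat.factorial (2 * (Nat.card (Subgroup.centralizer ({t} : Set G))) ^ 2) := by
  open Cfsg.Agent.Lib.Invol in
  classical
  set c := Nat.card (Subgroup.centralizer ({t} : Set G)) with hc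
  have hc0 : 0 < c := Nat.card_pos
  set N := Nat.card G with hN
  have hN2 : 2 ≤ N := by
    have h1 : 2 ∣ N := ht ▸ orderOf_dvd_natCard t
    have h2 : 0 < N := Nat.card_pos
    exact Nat.le_of_dvd h2 h1
  have hcc : 2 * c ^ 2 ≤ (2 * c ^ 2).factorial := Nat.self_le_factorial _
  by_cases hle : N ≤ 2
  · have h3 : 2 ≤ 2 * c ^ 2 := by
      have : 1 ≤ c ^ 2 := Nat.one_le_pow _ _ hc0
      omega
    omega
  push Not at hle
  have h2 := index_ne_two_of_simple hle
  have hZ := odd_card_center_of_simple hle
  have heven : Even N := by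
    have h1 : 2 ∣ N := ht ▸ orderOf_dvd_natCard t
    exact even_iff_two_dvd.2 h1
  obtain ⟨H, hH, hb⟩ := exists_large_subgroup heven hZ h2
  set n := involCount G with hn
  have hn0 : 0 < n := involCount_pos heven
  set m := Nat.card H with hm
  set i := H.index with hi
  have hm0 : 0 < m := Nat.card_pos
  have hi0 : 0 < i := Nat.pos_of_ne_zero Subgroup.index_ne_zero_of_finite
  have hNm : m * i = N := Subgroup.card_mul_index H
  have hcn : N ≤ c * n := by
    have h3 := card_class_le_involCount ht
    have h4 := Subgroup.card_mul_index (Subgroup.centralizer ({t} : Set G))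
    rw [hN, ← h4]
    exact Nat.mul_le_mul_left _ h3
  have hnN : n ≤ N := by
    rw [hn, involCount, hN]
    exact Nat.card_le_card_of_injective _ Subtype.val_injective
  have hb' : 2 * n ^ 2 + 2 * n + m ≤ m * (N + n) := hb
  have h3 : 2 * n ^ 2 < m * (N + n) := by omega
  have h4 : i * (2 * n ^ 2) < i * (m * (N + n)) := Nat.mul_lt_mul_of_pos_left h3 hi0
  have h5 : i * n ^ 2 < c ^ 2 * n ^ 2 := by
    have e1 : i * (m * (N + n)) = N * (N + n) := by rw [← mul_assoc, mul_comm i, hNm]
    rw [e1] at h4
    have h6 : N * (N + n) ≤ N * (2 * N) := Nat.mul_le_mul_left _ (by omega)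
    have h7 : N * N ≤ (c * n) * (c * n) := Nat.mul_le_mul hcn hcn
    nlinarith
  have h6 : i < c ^ 2 := Nat.lt_of_mul_lt_mul_right h5
  have h7 := card_le_factorial_index hH
  exact h7.trans (Nat.factorial_le (by omega))

end Cfsg.Agent.S0212
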