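import Cfsg.Statements.S0213
import Mathlib
import Cfsg.Agent.Lib.Invol.Isolated
import Cfsg.Agent.Lib.ClassSizes.Basic

set_option autoImplicit false
open Cfsg

namespace Cfsg.Agent.S0213

open Cfsg.Agent.Lib.Invol

/-- The unique involution of a cyclic subgroup. -/
lemma involution_in_zpowers_unique {G : Type*} [Group G] [Finite G] {m z : G}
    (hz : z ∈ Subgroup.zpowers m) (hz2 : orderOf z = 2) : z = m ^ (orderOf m / 2) := by
  have h2 : 2 ∣ orderOf m := hz2 ▸ orderOf_dvd_of_mem_zpowers hz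
  obtain ⟨h, hh⟩ := h2
  have hn : orderOf m / 2 = h := by omega
  rw [hn]
  obtain ⟨i, hi⟩ := hz
  replace hi : m ^ i = z := hi
  subst hi
  have h1 : (m ^ i) ^ (2 : ℤ) = 1 := by
    have := mul_self_of_order_two hz2
    rw [zpow_two]; exact this
  rw [← zpow_mul] at h1
  have h3 : (orderOf m : ℤ) ∣ i * 2 := orderOf_dvd_iff_zpow_eq_one.2 h1
  rw [hh] at h3
  push_cast at h3
  have h4 : (h : ℤ) ∣ i := by
    have hpos : (2 : ℤ) ≠ 0 := by norm_num
    obtain ⟨c, hc⟩ := h3
    refine ⟨c, ?_⟩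
    have : i * 2 = (h * c) * 2 := by rw [hc]; ring
    exact mul_right_cancel₀ hpos this
  obtain ⟨k, rfl⟩ := h4
  have horder : orderOf (m ^ h) = 2 := by
    have := orderOf_pow_orderOf_div (x := m) (n := 2) (orderOf_pos m).ne' ⟨h, hh⟩
    rwa [hn] at this
  have hmm := mul_self_of_order_two horder
  rw [zpow_mul, zpow_natCast] at hz2 ⊢
  rcases Int.even_or_odd k with hk | hk
  · exfalso
    obtain ⟨c, rfl⟩ := hk
    have : (m ^ h) ^ (c + c) = 1 := by
      have e : c + c = 2 * c := by ring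
      rw [e, zpow_mul, zpow_two, hmm, one_zpow]
    rw [this] at hz2
    simp at hz2
  · obtain ⟨c, rfl⟩ := hk
    rw [zpow_add, zpow_mul, zpow_two, hmm, one_zpow, one_mul, zpow_one]



/-- Thompson Order Formula, two-class case: if every involution of the finite group G is conjugate to exactly one of the non-conjugate involutions x₁, x₂, and nᵢ is the number of pairs (u, v) with u conjugate to x₁, v conjugate to x₂ and xᵢ in the cyclic group generated by uv, then |G| = |C(x₂)| n₁ + |C(x₁)| n₂. -/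
theorem result {G : Type*} [Group G] [Finite G] (x₁ x₂ : G) (h₁ : orderOf x₁ = 2) (h₂ : orderOf x₂ = 2) (hnc : ¬ IsConj x₁ x₂) (hall : ∀ t : G, orderOf t = 2 → IsConj x₁ t ∨ IsConj x₂ t) : Nat.card G = Nat.card (Subgroup.centralizer ({x₂} : Set G)) * Nat.card {p : G × G // IsConj x₁ p.1 ∧ IsConj x₂ p.2 ∧ x₁ ∈ Subgroup.zpowers (p.1 * p.2)} + Nat.card (Subgroup.centralizer ({x₁} : Set G)) * Nat.card {p : G × G // IsConj x₁ p.1 ∧ IsConj x₂ p.2 ∧ x₂ ∈ Subgroup.zpowers (p.1 * p.2)} := by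
  open Cfsg.Agent.Lib.Invol in
  classical
  haveI := Fintype.ofFinite G
  have hinv : ∀ x : G, orderOf x = 2 → ∀ y, IsConj x y → orderOf y = 2 ∧ y * y = 1 := by
    intro x hx y hy
    obtain ⟨g, rfl⟩ := isConj_iff.1 hy
    have h1 : orderOf (g * x * g⁻¹) = 2 := by rw [orderOf_conj']; exact hx
    exact ⟨h1, mul_self_of_order_two h1⟩
  let I₁ : Finset G := Finset.univ.filter (fun u => IsConj x₁ u)
  let I₂ : Finset G := Finset.univ.filter (fun u => IsConj x₂ u)
  let P : Finset (G × G) := I₁ ×ˢ I₂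
  -- the count of pairs for a given involution
  let cnt : G → ℕ := fun z => (P.filter (fun p => z ∈ Subgroup.zpowers (p.1 * p.2))).card
  have hcnt : ∀ (x z : G), IsConj x z → cnt z = cnt x := by
    intro x z hc
    obtain ⟨g, rfl⟩ := isConj_iff.1 hc
    apply Finset.card_bij' (fun p _ => (g⁻¹ * p.1 * g, g⁻¹ * p.2 * g))
      (fun p _ => (g * p.1 * g⁻¹, g * p.2 * g⁻¹))
    · intro p hp
      simp only [P, I₁, I₂, Finset.mem_filter, Finset.mem_product, Finset.mem_univ, true_and] at hp ⊢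
      obtain ⟨⟨h1, h2⟩, k, hk⟩ := hp
      refine ⟨⟨h1.trans (isConj_iff.2 ⟨g⁻¹, by simp⟩), h2.trans (isConj_iff.2 ⟨g⁻¹, by simp⟩)⟩, k, ?_⟩
      have e : g⁻¹ * p.1 * g * (g⁻¹ * p.2 * g) = g⁻¹ * (p.1 * p.2) * g := by group
      rw [e]
      show (g⁻¹ * (p.1 * p.2) * g) ^ k = x
      have h3 : (g⁻¹ * (p.1 * p.2) * g) ^ k = g⁻¹ * (p.1 * p.2) ^ k * g := by
        have := conj_zpow (a := g⁻¹) (b := p.1 * p.2) (i := k)
        simpa using this
      rw [h3]
      have hk' : (p.1 * p.2) ^ k = g * x * g⁻¹ := hk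
      rw [hk']; group
    · intro p hp
      simp only [P, I₁, I₂, Finset.mem_filter, Finset.mem_product, Finset.mem_univ, true_and] at hp ⊢
      obtain ⟨⟨h1, h2⟩, k, hk⟩ := hp
      refine ⟨⟨h1.trans (isConj_iff.2 ⟨g, rfl⟩), h2.trans (isConj_iff.2 ⟨g, rfl⟩)⟩, k, ?_⟩
      have e : g * p.1 * g⁻¹ * (g * p.2 * g⁻¹) = g * (p.1 * p.2) * g⁻¹ := by group
      rw [e]
      show (g * (p.1 * p.2) * g⁻¹) ^ k = g * x * g⁻¹
      rw [conj_zpow]
      have hk' : (p.1 * p.2) ^ k = x := hk
      rw [hk']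
    · intro p _
      ext <;> simp <;> group
    · intro p _
      ext <;> simp <;> group
  -- double counting
  have hdc : P.card = I₁.card * cnt x₁ + I₂.card * cnt x₂ := by
    have hdisj : Disjoint I₁ I₂ := by
      rw [Finset.disjoint_left]
      intro a ha hb
      simp only [I₁, I₂, Finset.mem_filter, Finset.mem_univ, true_and] at ha hb
      exact hnc (ha.trans hb.symm)
    have h1 : ∀ z ∈ I₁, cnt z = cnt x₁ := fun z hz => hcnt x₁ z (by
      simpa [I₁] using hz)
    have h2 : ∀ z ∈ I₂, cnt z = cnt x₂ := fun z hz => hcnt x₂ z (by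
      simpa [I₂] using hz)
    have h3 : ∑ z ∈ I₁ ∪ I₂, cnt z = I₁.card * cnt x₁ + I₂.card * cnt x₂ := by
      rw [Finset.sum_union hdisj, Finset.sum_congr rfl h1, Finset.sum_congr rfl h2]
      simp
    rw [← h3]
    -- each pair corresponds to exactly one involution
    have h4 : ∀ p ∈ P, ((I₁ ∪ I₂).filter (fun z => z ∈ Subgroup.zpowers (p.1 * p.2))).card = 1 := by
      intro p hp
      simp only [P, I₁, I₂, Finset.mem_product, Finset.mem_filter, Finset.mem_univ, true_and] at hp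
      obtain ⟨hu, hv⟩ := hp
      obtain ⟨hu2, huu⟩ := hinv x₁ h₁ _ hu
      obtain ⟨hv2, hvv⟩ := hinv x₂ h₂ _ hv
      have heven : Even (orderOf (p.1 * p.2)) := by
        by_contra hodd
        rw [Nat.not_even_iff_odd] at hodd
        obtain ⟨d, _, hd⟩ := exists_conj_of_odd huu hvv hodd
        exact hnc ((hu.trans (isConj_iff.2 ⟨d, hd⟩)).trans hv.symm)
      have hw2 := central_order_two huu hvv heven
      rw [Finset.card_eq_one]
      refine ⟨(p.1 * p.2) ^ (orderOf (p.1 * p.2) / 2), ?_⟩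
      ext z
      simp only [Finset.mem_filter, Finset.mem_union, Finset.mem_singleton, I₁, I₂, Finset.mem_univ,
        true_and]
      constructor
      · rintro ⟨hc, hz⟩
        apply involution_in_zpowers_unique hz
        rcases hc with hc | hc
        · exact (hinv x₁ h₁ z hc).1
        · exact (hinv x₂ h₂ z hc).1
      · rintro rfl
        exact ⟨hall _ hw2, Subgroup.npow_mem_zpowers _ _⟩
    calc P.card = ∑ p ∈ P, ((I₁ ∪ I₂).filter (fun z => z ∈ Subgroup.zpowers (p.1 * p.2))).card := by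
          rw [Finset.sum_congr rfl h4]; simp
      _ = ∑ z ∈ I₁ ∪ I₂, cnt z := by
          exact Finset.sum_card_bipartiteAbove_eq_sum_card_bipartiteBelow _
  have hcnt1 : Nat.card {p : G × G // IsConj x₁ p.1 ∧ IsConj x₂ p.2 ∧ x₁ ∈ Subgroup.zpowers (p.1 * p.2)} = cnt x₁ := by
    rw [Nat.card_eq_fintype_card, Fintype.card_subtype]
    congr 1
    ext p
    simp [P, I₁, I₂, and_assoc]
  have hcnt2 : Nat.card {p : G × G // IsConj x₁ p.1 ∧ IsConj x₂ p.2 ∧ x₂ ∈ Subgroup.zpowers (p.1 * p.2)} = cnt x₂ := by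
    rw [Nat.card_eq_fintype_card, Fintype.card_subtype]
    congr 1
    ext p
    simp [P, I₁, I₂, and_assoc]
  rw [hcnt1, hcnt2]
  have hI1 : I₁.card * Nat.card (Subgroup.centralizer ({x₁} : Set G)) = Nat.card G := by
    have h1 : I₁.card = (Subgroup.centralizer ({x₁} : Set G)).index := by
      rw [← Cfsg.Agent.Lib.ClassSizes.card_isConj_eq_index, Nat.card_eq_fintype_card, Fintype.card_subtype]
    rw [h1, mul_comm]
    exact Subgroup.card_mul_index _
  have hI2 : I₂.card * Nat.card (Subgroup.centralizer ({x₂} : Set G)) = Nat.card G := by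
    have h1 : I₂.card = (Subgroup.centralizer ({x₂} : Set G)).index := by
      rw [← Cfsg.Agent.Lib.ClassSizes.card_isConj_eq_index, Nat.card_eq_fintype_card, Fintype.card_subtype]
    rw [h1, mul_comm]
    exact Subgroup.card_mul_index _
  have hP : P.card = I₁.card * I₂.card := Finset.card_product _ _
  have ha : 0 < I₁.card := Finset.card_pos.2 ⟨x₁, by
    simp only [I₁, Finset.mem_filter, Finset.mem_univ, true_and]; exact IsConj.refl _⟩
  have hb : 0 < I₂.card := Finset.card_pos.2 ⟨x₂, by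
    simp only [I₂, Finset.mem_filter, Finset.mem_univ, true_and]; exact IsConj.refl _⟩
  set a := I₁.card
  set b := I₂.card
  set c₁ := Nat.card (Subgroup.centralizer ({x₁} : Set G))
  set c₂ := Nat.card (Subgroup.centralizer ({x₂} : Set G))
  set n₁ := cnt x₁
  set n₂ := cnt x₂
  set N := Nat.card G
  rw [hP] at hdc
  have hab : 0 < a * b := Nat.mul_pos ha hb
  apply Nat.eq_of_mul_eq_mul_right hab
  calc N * (a * b) = N * (a * n₁ + b * n₂) := by rw [hdc]
    _ = (c₂ * n₁ + c₁ * n₂) * (a * b) := by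
        have e1 : N * (a * n₁) = (b * c₂) * (a * n₁) := by rw [hI2]
        have e2 : N * (b * n₂) = (a * c₁) * (b * n₂) := by rw [hI1]
        rw [mul_add, e1, e2]
        ring

end Cfsg.Agent.S0213
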