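import Cfsg.Statements.S0216
import Mathlib
import Cfsg.Agent.Lib.Invol.Isolated

set_option autoImplicit false
open Cfsg

namespace Cfsg.Agent.S0216

/-- For an involution u in a Sylow 2-subgroup P of a finite group G, the following are equivalent: no G-conjugate of u other than u lies in P; every commutator of u with an element of G has odd order. -/
theorem result {G : Type*} [Group G] [Finite G] (P : Sylow 2 G) (u : G) (hu : orderOf u = 2) (huP : u ∈ P) : (∀ g : G, g * u * g⁻¹ ∈ P → g * u * g⁻¹ = u) ↔ (∀ g : G, Odd (orderOf (u * g * u⁻¹ * g⁻¹))) := by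
  open Cfsg.Agent.Lib.Invol in
  have hu' := mul_self_of_order_two hu
  have hui := inv_eq_of_mul_self hu'
  constructor
  · intro hiso g
    have hz := isolated_of_sylow P hu hiso
    have h := isolated_mul_conj_odd hz g
    have e : u * g * u⁻¹ * g⁻¹ = u * (g * u * g⁻¹) := by rw [hui]; simp only [mul_assoc]
    rw [e]; exact h
  · intro hodd g hg
    have h1 := hodd g
    have e : u * g * u⁻¹ * g⁻¹ = u * (g * u * g⁻¹) := by rw [hui]; simp only [mul_assoc]
    rw [e] at h1
    have hm : u * (g * u * g⁻¹) ∈ (P : Subgroup G) := Subgroup.mul_mem _ huP hg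
    have h2 : ∃ k, orderOf (⟨_, hm⟩ : (P : Subgroup G)) = 2 ^ k := (IsPGroup.iff_orderOf.1 P.2) _
    obtain ⟨k, hk⟩ := h2
    rw [Subgroup.orderOf_mk] at hk
    rw [hk] at h1
    rcases k with _ | k
    · simp only [pow_zero] at hk
      have h3 : u * (g * u * g⁻¹) = 1 := orderOf_eq_one_iff.1 hk
      have h4 := eq_inv_of_mul_eq_one_right h3
      rw [h4, hui]
    · exfalso
      rw [pow_succ] at h1
      exact (Nat.not_even_iff_odd.2 h1) (even_two.mul_left _)

end Cfsg.Agent.S0216
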