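import Cfsg.Statements.S0218
import Mathlib

set_option autoImplicit false
open Cfsg

namespace Cfsg.Agent.S0218

/-- The generalized quaternion group of order 2^(n+3) contains exactly one element of order 2. -/
theorem result (n : ℕ) : Nat.card {x : QuaternionGroup (2 ^ (n + 1)) // orderOf x = 2} = 1 := by
  have key : ∀ x : QuaternionGroup (2 ^ (n + 1)), orderOf x = 2 ↔
      x = QuaternionGroup.a ((2 ^ (n + 1) : ℕ) : ZMod (2 * 2 ^ (n + 1))) := by
    have hN : NeZero (2 * 2 ^ (n + 1)) := ⟨by positivity⟩
    have hN2 : NeZero (2 ^ (n + 1)) := ⟨by positivity⟩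
    intro x
    rcases x with i | i
    · constructor
      · intro h
        have h1 : (QuaternionGroup.a i : QuaternionGroup (2 ^ (n + 1))) ^ 2 = 1 := by
          have := pow_orderOf_eq_one (QuaternionGroup.a i : QuaternionGroup (2 ^ (n + 1)))
          rwa [h] at this
        rw [pow_two, QuaternionGroup.a_mul_a, QuaternionGroup.one_def] at h1
        have h2 : i + i = 0 := QuaternionGroup.a.inj h1
        have hne : i ≠ 0 := by
          rintro rfl
          rw [← QuaternionGroup.one_def, orderOf_one] at h
          omega
        have hval : i.val < 2 * 2 ^ (n + 1) := ZMod.val_lt i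
        have h3 : (2 * 2 ^ (n + 1) : ℕ) ∣ i.val + i.val := by
          have : ((i.val + i.val : ℕ) : ZMod (2 * 2 ^ (n + 1))) = 0 := by
            push_cast; rw [ZMod.natCast_zmod_val]; exact h2
          exact (ZMod.natCast_eq_zero_iff _ _).1 this
        have h4 : i.val ≠ 0 := by
          intro h0; exact hne ((ZMod.val_eq_zero i).1 h0)
        have h5 : i.val = 2 ^ (n + 1) := by
          obtain ⟨c, hc⟩ := h3
          have hc1 : c = 1 := by
            have : c < 2 := by
              by_contra hh
              push Not at hh
              have : 2 * 2 ^ (n + 1) * 2 ≤ 2 * 2 ^ (n + 1) * c := Nat.mul_le_mul_left _ hh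
              omega
            have hc0 : c ≠ 0 := by
              rintro rfl
              simp at hc
              exact hne hc
            omega
          subst hc1
          omega
        congr 1
        apply ZMod.val_injective
        rw [h5, ZMod.val_natCast, Nat.mod_eq_of_lt]
        have : 0 < 2 ^ (n + 1) := by positivity
        omega
      · intro h
        rw [h]
        apply orderOf_eq_prime
        · rw [pow_two, QuaternionGroup.a_mul_a, QuaternionGroup.one_def]
          congr 1
          have : ((2 ^ (n + 1) : ℕ) : ZMod (2 * 2 ^ (n + 1))) + ((2 ^ (n + 1) : ℕ) : ZMod (2 * 2 ^ (n + 1))) =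
              ((2 * 2 ^ (n + 1) : ℕ) : ZMod (2 * 2 ^ (n + 1))) := by push_cast; ring
          rw [this, ZMod.natCast_self]
        · rw [QuaternionGroup.one_def]
          intro hh
          have h0 := QuaternionGroup.a.inj hh
          have h1 := (ZMod.natCast_eq_zero_iff _ _).1 h0
          have h2 := Nat.le_of_dvd (by positivity) h1
          have : 0 < 2 ^ (n + 1) := by positivity
          omega
    · constructor
      · intro h
        have := QuaternionGroup.orderOf_xa i
        omega
      · intro h
        exact absurd h (by simp)
  have hu : Unique {x : QuaternionGroup (2 ^ (n + 1)) // orderOf x = 2} :=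
    { default := ⟨_, (key _).2 rfl⟩
      uniq := fun y => Subtype.ext ((key _).1 y.2) }
  exact Nat.card_unique

end Cfsg.Agent.S0218
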