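import Cfsg.Statements.S0220
import Mathlib
import Cfsg.Agent.Lib.Invol.Sign
import Cfsg.Agent.Lib.Techniques.SylowIn
import Cfsg.Agent.Lib.PGroup.Sylow
import Cfsg.Statements.S0219
import Cfsg.Agent.S0219

set_option autoImplicit false
open Cfsg

namespace Cfsg.Agent.S0220

/-- If x is an involution of a finite group G and a Sylow 2-subgroup of the centralizer of x is cyclic, then G has a subgroup of index 2; in particular G is not simple unless it has order 2. -/
theorem result {G : Type*} [Group G] [Finite G] (x : G) (hx : orderOf x = 2) (S : Sylow 2 ↥(Subgroup.centralizer ({x} : Set G))) (hS : IsCyclic (S : Subgroup ↥(Subgroup.centralizer ({x} : Set G)))) : ∃ H : Subgroup G, H.index = 2 := by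
  open Cfsg.Agent.Lib.Invol Cfsg.Agent.Lib.Techniques in
  classical
  have hxx := mul_self_of_order_two hx
  suffices key : ∀ (C : Subgroup G) (hC : C = Subgroup.centralizer ({x} : Set G)) (S : Sylow 2 C)
      (hS : IsCyclic (S : Subgroup C)), ∃ H : Subgroup G, H.index = 2 from key _ rfl S hS
  clear S hS
  intro C hC S hS
  set S' : Subgroup G := (S : Subgroup C).map C.subtype with hS'
  have hsyl : SylowIn 2 S' C := sylowIn_of_sylow S
  have hxC : ∀ g, g ∈ C ↔ g * x = x * g := fun g => by
    rw [hC, Subgroup.mem_centralizer_singleton_iff]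
  have hxp : IsPGroup 2 (Subgroup.zpowers x) := isPGroup_zpowers_of_sq hxx
  -- `x ∈ S'`
  have hxS : x ∈ S' := by
    have hQ1 : S' ⊔ Subgroup.zpowers x ≤ C := by
      rw [sup_le_iff, Subgroup.zpowers_le]
      exact ⟨hsyl.1, (hxC x).2 rfl⟩
    have hQ2 : IsPGroup 2 (S' ⊔ Subgroup.zpowers x : Subgroup G) := by
      apply isPGroup_sup_of_commute hsyl.2.1 hxp
      rintro a ha _ ⟨k, rfl⟩
      have h1 : Commute a x := (hxC a).1 (hsyl.1 ha)
      exact (h1.zpow_right k).eq
    have := hsyl.eq_of_le le_sup_left hQ1 hQ2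
    rw [← this]
    exact Subgroup.mem_sup_right (Subgroup.mem_zpowers x)
  -- cyclic
  have hcyc : IsCyclic S' := by
    have e : (S : Subgroup C) ≃* S' := (S : Subgroup C).equivMapOfInjective C.subtype C.subtype_injective
    exact e.isCyclic.1 hS
  -- uniqueness of involution in `S'`
  have huniq : ∀ u ∈ S', orderOf u = 2 → u = x := by
    intro u hu hu2
    haveI := Fintype.ofFinite S'
    have hxo : orderOf (⟨x, hxS⟩ : S') = 2 := by rw [Subgroup.orderOf_mk]; exact hx
    have huo : orderOf (⟨u, hu⟩ : S') = 2 := by rw [Subgroup.orderOf_mk]; exact hu2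
    have hd : 2 ∣ Fintype.card S' := by
      rw [← hxo, ← Nat.card_eq_fintype_card]; exact orderOf_dvd_natCard _
    have hcard := IsCyclic.card_orderOf_eq_totient (α := S') hd
    rw [Nat.totient_two, Finset.card_eq_one] at hcard
    obtain ⟨w, hw⟩ := hcard
    have h1 : (⟨x, hxS⟩ : S') ∈ (Finset.univ.filter fun a : S' => orderOf a = 2) :=
      by simp only [Finset.mem_filter, Finset.mem_univ, true_and]; exact hxo
    have h2 : (⟨u, hu⟩ : S') ∈ (Finset.univ.filter fun a : S' => orderOf a = 2) :=
      by simp only [Finset.mem_filter, Finset.mem_univ, true_and]; exact huo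
    rw [hw, Finset.mem_singleton] at h1 h2
    have := h2.trans h1.symm
    exact congrArg Subtype.val this
  obtain ⟨T, hT⟩ := hsyl.2.1.exists_le_sylow
  have hEq : S' = T := by
    by_contra hne
    have hlt : S' < T := lt_of_le_of_ne hT hne
    obtain ⟨w, hwT, hwS, hwN⟩ := Cfsg.Agent.Lib.PGroup.exists_mem_normalizer_of_lt T.isPGroup' hlt
    have h1 : w * x * w⁻¹ ∈ S' := (Subgroup.mem_normalizer_iff.1 hwN x).1 hxS
    have h2 := huniq _ h1 (by rw [orderOf_conj']; exact hx)
    have hwC : w ∈ C := by
      rw [hxC]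
      calc w * x = (w * x * w⁻¹) * w := by group
        _ = x * w := by rw [h2]
    have hQ1 : S' ⊔ Subgroup.zpowers w ≤ C := by
      rw [sup_le_iff, Subgroup.zpowers_le]
      exact ⟨hsyl.1, hwC⟩
    have hQ2 : IsPGroup 2 (S' ⊔ Subgroup.zpowers w : Subgroup G) := by
      apply T.isPGroup'.to_le
      rw [sup_le_iff, Subgroup.zpowers_le]
      exact ⟨hT, hwT⟩
    have := hsyl.eq_of_le le_sup_left hQ1 hQ2
    apply hwS
    rw [← this]
    exact Subgroup.mem_sup_right (Subgroup.mem_zpowers w)
  have heven : Even (Nat.card G) := by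
    have : 2 ∣ Nat.card G := hx ▸ orderOf_dvd_natCard x
    exact even_iff_two_dvd.2 this
  apply Cfsg.Agent.S0219.result heven T
  rw [← hEq]
  exact hcyc

end Cfsg.Agent.S0220
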