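import Cfsg.Statements.S0221
import Mathlib
import Cfsg.Agent.Lib.Cl.NormalKlein
import Cfsg.Agent.S0111
import Cfsg.Agent.Lib.Transfer.MaxAbNormal
import Cfsg.Agent.Lib.Transfer.Basic
import Cfsg.Agent.Lib.ClassSizes.Basic

set_option autoImplicit false
open Cfsg

namespace Cfsg.Agent.S0221

/-- Let G be a finite group with no subgroup of index 2 whose 2-rank is at least 3 (it contains an elementary abelian subgroup of order 8). Then the centralizer of every involution of G also contains an elementary abelian subgroup of order 8. -/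
theorem result {G : Type*} [Group G] [Finite G] (hno : ∀ H : Subgroup G, H.index ≠ 2) (hrank : ∃ E : Subgroup G, Nat.card E = 8 ∧ ∀ e ∈ E, e ^ 2 = 1) (x : G) (hx : orderOf x = 2) : ∃ E : Subgroup G, E ≤ Subgroup.centralizer ({x} : Set G) ∧ Nat.card E = 8 ∧ ∀ e ∈ E, e ^ 2 = 1 := by
  classical
  haveI : Fact (Nat.Prime 2) := ⟨Nat.prime_two⟩
  obtain ⟨E, hE, hEel⟩ := hrank
  have hEp : IsPGroup 2 E := IsPGroup.of_card (n := 3) (by rw [hE]; norm_num)
  obtain ⟨P, hEP⟩ := hEp.exists_le_sylow
  have hPp : IsPGroup 2 (P : Subgroup G) := P.isPGroup'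
  let E' : Subgroup (P : Subgroup G) := E.subgroupOf (P : Subgroup G)
  have hE'card : Nat.card E' = 8 := by
    rw [← hE]
    exact Nat.card_congr (Subgroup.subgroupOfEquivOfLe hEP).toEquiv
  have hE'el : ∀ e ∈ E', e ^ 2 = 1 := by
    intro e he
    apply Subtype.ext
    exact hEel _ (Subgroup.mem_subgroupOf.1 he)
  obtain ⟨A, hAn, hA4, hAel⟩ := Cfsg.Agent.Lib.Cl.NormalKlein.exists_normal_klein hPp E' hE'card hE'el
  haveI := hAn
  have hidx : (Subgroup.centralizer (A : Set (P : Subgroup G))).index ≤ 2 := by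
    have := Cfsg.Agent.Lib.Transfer.index_centralizer_le hPp A 2 (by rw [hA4]; norm_num)
    simpa using this
  let C := Subgroup.centralizer (A : Set (P : Subgroup G))
  have hconj : ∃ (g : G) (y : (P : Subgroup G)), y ∈ C ∧ (y : G) = g * x * g⁻¹ := by
    obtain ⟨Q, hQ⟩ := Cfsg.Agent.Lib.ClassSizes.exists_sylow_mem_of_orderOf (p := 2) (x := x) ⟨1, by simpa using hx⟩
    obtain ⟨g, hg⟩ := MulAction.exists_smul_eq G Q P
    have hxP : g * x * g⁻¹ ∈ (P : Subgroup G) := by
      have h1 : x ∈ g⁻¹ • P := by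
        rw [← hg, inv_smul_smul]
        exact hQ
      rw [Cfsg.Agent.Lib.ClassSizes.mem_sylow_smul_iff, inv_inv] at h1
      exact h1
    by_cases hCm : (⟨g * x * g⁻¹, hxP⟩ : (P : Subgroup G)) ∈ C
    · exact ⟨g, _, hCm, rfl⟩
    · -- index exactly two
      have hne : C.index ≠ 1 := by
        rw [Ne, Subgroup.index_eq_one]
        intro h
        apply hCm
        rw [h]
        trivial
      have hne0 : C.index ≠ 0 := Subgroup.index_ne_zero_of_finite
      have hi2 : C.index = 2 := by
        have : C.index ≤ 2 := hidx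
        omega
      let Q' : Subgroup G := C.map (P : Subgroup G).subtype
      have hQ'le : Q' ≤ (P : Subgroup G) := by
        rintro _ ⟨c, -, rfl⟩
        exact c.2
      have hrel : Q'.relIndex (P : Subgroup G) = 2 := by
        have h0 : Q'.subgroupOf (P : Subgroup G) = C :=
          Subgroup.comap_map_eq_self_of_injective (Subgroup.subtype_injective _) C
        rw [Subgroup.relIndex, h0]
        exact hi2
      have hord : orderOf (g * x * g⁻¹) = 2 := by
        rw [← hx]
        exact Cfsg.Agent.Lib.Transfer.orderOf_conj g x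
      have hnotQ : g * x * g⁻¹ ∉ Q' := by
        rintro ⟨c, hc, hce⟩
        apply hCm
        have : (⟨g * x * g⁻¹, hxP⟩ : (P : Subgroup G)) = c := Subtype.ext hce.symm
        rw [this]
        exact hc
      rcases Cfsg.Agent.S0111.result P Q' hQ'le hrel (g * x * g⁻¹) hord hxP hnotQ with h | h
      · obtain ⟨M, -, hM, -⟩ := h
        exact absurd hM (hno M)
      · obtain ⟨h', hh⟩ := h
        obtain ⟨c, hc, hce⟩ := hh
        refine ⟨h' * g, c, hc, ?_⟩
        rw [show (c : G) = _ from hce]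
        group
  obtain ⟨g, y, hyC, hyg⟩ := hconj
  have hy2 : y ^ 2 = 1 := by
    apply Subtype.ext
    show (y : G) ^ 2 = 1
    rw [hyg, conj_pow, ← hx, pow_orderOf_eq_one]
    simp
  obtain ⟨F, hFc, hF8, hFel⟩ := Cfsg.Agent.Lib.Cl.NormalKlein.klein_claim hA4 hAel hE'card hE'el hidx hyC hy2
  let e : G ≃* G := MulAut.conj g⁻¹
  let F' : Subgroup G := (F.map (P : Subgroup G).subtype).map e.toMonoidHom
  refine ⟨F', ?_, ?_, ?_⟩
  · rintro _ ⟨_, ⟨f, hf, rfl⟩, rfl⟩
    rw [Subgroup.mem_centralizer_singleton_iff]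
    have h1 := Subgroup.mem_centralizer_singleton_iff.1 (hFc hf)
    have h2 : (f : G) * y = y * f := congrArg Subtype.val h1
    rw [hyg] at h2
    show g⁻¹ * (f : G) * g⁻¹⁻¹ * x = x * (g⁻¹ * (f : G) * g⁻¹⁻¹)
    rw [inv_inv]
    have h3 : (f : G) * (g * x * g⁻¹) * g = g * x * g⁻¹ * (f : G) * g := by rw [h2]
    calc g⁻¹ * (f : G) * g * x = g⁻¹ * ((f : G) * (g * x * g⁻¹) * g) := by group
      _ = g⁻¹ * (g * x * g⁻¹ * (f : G) * g) := by rw [h3]
      _ = x * (g⁻¹ * (f : G) * g) := by group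
  · rw [← hF8]
    have e1 : Nat.card F' = Nat.card (F.map (P : Subgroup G).subtype) :=
      Subgroup.card_map_of_injective e.injective
    rw [e1]
    exact Subgroup.card_map_of_injective (Subgroup.subtype_injective _)
  · rintro _ ⟨_, ⟨f, hf, rfl⟩, rfl⟩
    have h1 := hFel f hf
    have h2 : (f : G) ^ 2 = 1 := congrArg Subtype.val h1
    show (e (f : G)) ^ 2 = 1
    rw [← map_pow, h2, map_one]


end Cfsg.Agent.S0221
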