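import Cfsg.Statements.S0226
import Mathlib
import Cfsg.Agent.Lib.Invol.Basic

set_option autoImplicit false
open Cfsg

namespace Cfsg.Agent.S0226

/-- A finite group of even order has an odd number of involutions. -/
theorem result {G : Type*} [Group G] [Finite G] (heven : Even (Nat.card G)) : Odd (Nat.card {t : G // orderOf t = 2}) := by
  classical
  have := Fintype.ofFinite G
  -- the inversion map is an involution; elements with x = x⁻¹ are 1 and the involutions
  let inv' : Function.End G := fun x => x⁻¹
  have h1 : inv' ^ 2 ^ 1 = 1 := by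
    show inv' ^ 2 = 1
    rw [pow_two]
    funext x
    exact inv_inv x
  have : Fact (Nat.Prime 2) := ⟨Nat.prime_two⟩
  have h2 := Equiv.Perm.card_fixedPoints_modEq (p := 2) (n := 1) h1
  have hcard : Fintype.card G = Nat.card G := Nat.card_eq_fintype_card.symm
  have h3 : Nat.card (Function.fixedPoints (inv' : G → G)) = Nat.card {t : G // orderOf t = 2} + 1 := by
    rw [← Finite.card_option]
    apply Nat.card_congr
    refine ⟨fun x => if h : (x : G) = 1 then none else some ⟨x, ?_⟩,
      fun o => o.elim ⟨1, by simp [Function.mem_fixedPoints, Function.IsFixedPt, inv']⟩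
        (fun t => ⟨t.1, by simp only [Function.mem_fixedPoints, Function.IsFixedPt, inv']; exact Cfsg.Agent.Lib.Invol.inv_eq_of_order_two t.2⟩), ?_, ?_⟩
    · have h4 : (x : G)⁻¹ = x := x.2
      apply Cfsg.Agent.Lib.Invol.order_two_of_mul_self _ h
      nth_rewrite 1 [← h4]
      exact inv_mul_cancel _
    · intro x
      by_cases h : (x : G) = 1
      · simp only [h, dite_true]
        ext; simp [h]
      · simp [h]
    · intro o
      rcases o with _ | t
      · simp
      · have : (t : G) ≠ 1 := by
          intro h; have := t.2; rw [h] at this; simp at this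
        simp [this]
  rw [← Nat.card_eq_fintype_card, ← Nat.card_eq_fintype_card] at h2
  rw [Nat.ModEq] at h2
  have h5 : Nat.card G % 2 = 0 := Nat.even_iff.1 heven
  rw [h5] at h2
  have h6 := h3 ▸ h2
  rw [Nat.odd_iff]
  omega

end Cfsg.Agent.S0226
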