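import Cfsg.Statements.S0228
import Mathlib
import Cfsg.Agent.Lib.Invol.Isolated
import Cfsg.Agent.Lib.ClassSizes.Basic

set_option autoImplicit false
open Cfsg

namespace Cfsg.Agent.S0228

/-- A group of order 12 in which no involution is central is isomorphic to the alternating group on four letters. -/
theorem result {G : Type*} [Group G] [Finite G] (hG : Nat.card G = 12) (hz : ∀ z : G, orderOf z = 2 → z ∉ Subgroup.center G) : Nonempty (G ≃* alternatingGroup (Fin 4)) := by
  open Cfsg.Agent.Lib.Invol in
  classical
  haveI : Fact (Nat.Prime 3) := ⟨by norm_num⟩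
  haveI : Fact (Nat.Prime 2) := ⟨by norm_num⟩
  -- Sylow 3-subgroups have order 3
  have hc3 : ∀ P : Sylow 3 G, Nat.card (P : Subgroup G) = 3 := by
    intro P
    obtain ⟨k, hk⟩ := IsPGroup.iff_card.1 P.isPGroup'
    have h1 := Subgroup.card_mul_index (P : Subgroup G)
    have h2 : ¬ 3 ∣ (P : Subgroup G).index := P.not_dvd_index
    rw [hk, hG] at h1
    rcases k with _ | _ | k
    · exfalso; apply h2
      have : (P : Subgroup G).index = 12 := by simpa using h1
      rw [this]; norm_num
    · rw [hk]; norm_num
    · exfalso
      have h3 : 3 ^ 2 ∣ 12 := ⟨3 ^ k * (P : Subgroup G).index, by rw [← h1]; ring⟩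
      norm_num at h3
  have hc2 : ∀ Q : Sylow 2 G, Nat.card (Q : Subgroup G) = 4 := by
    intro Q
    obtain ⟨k, hk⟩ := IsPGroup.iff_card.1 Q.isPGroup'
    have h1 := Subgroup.card_mul_index (Q : Subgroup G)
    have h2 : ¬ 2 ∣ (Q : Subgroup G).index := Q.not_dvd_index
    rw [hk, hG] at h1
    rcases k with _ | _ | _ | k
    · exfalso; apply h2
      have : (Q : Subgroup G).index = 12 := by simpa using h1
      rw [this]; norm_num
    · exfalso; apply h2
      have : 2 * (Q : Subgroup G).index = 12 := by simpa using h1
      omega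
    · rw [hk]; norm_num
    · exfalso
      have h3 : 2 ^ 3 ∣ 12 := ⟨2 ^ k * (Q : Subgroup G).index, by rw [← h1]; ring⟩
      norm_num at h3
  obtain ⟨P⟩ : Nonempty (Sylow 3 G) := inferInstance
  have hn1 : Nat.card (Sylow 3 G) ≡ 1 [MOD 3] := card_sylow_modEq_one 3 G
  have hn2 : Nat.card (Sylow 3 G) ∣ 4 := by
    have h1 := P.card_dvd_index
    have h2 := Subgroup.card_mul_index (P : Subgroup G)
    rw [hc3 P, hG] at h2
    have h3 : (P : Subgroup G).index = 4 := by omega
    rwa [h3] at h1
  have hn3 : Nat.card (Sylow 3 G) = 1 ∨ Nat.card (Sylow 3 G) = 4 := by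
    have h1 : Nat.card (Sylow 3 G) ≤ 4 := Nat.le_of_dvd (by norm_num) hn2
    have h2 : 0 < Nat.card (Sylow 3 G) := Nat.card_pos
    unfold Nat.ModEq at hn1
    interval_cases h : Nat.card (Sylow 3 G) <;> simp_all
  rcases hn3 with hn | hn
  · -- normal Sylow 3-subgroup: central involution
    exfalso
    haveI : Subsingleton (Sylow 3 G) := (Nat.card_eq_one_iff_unique.1 hn).1
    have hPn : (P : Subgroup G).Normal := Sylow.normal_of_subsingleton P
    -- generator
    have hPc : IsCyclic (P : Subgroup G) := isCyclic_of_prime_card (hc3 P)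
    obtain ⟨a, ha⟩ := hPc.exists_generator
    have hao : orderOf (a : G) = 3 := by
      rw [Subgroup.orderOf_coe, orderOf_eq_card_of_forall_mem_zpowers ha, hc3 P]
    -- the class of `a` is small
    have hclass : Nat.card {x : G // IsConj (a : G) x} ≤ 2 := by
      have hsub : ∀ x : {x : G // IsConj (a : G) x}, x.1 = (a : G) ∨ x.1 = (a : G)⁻¹ := by
        rintro ⟨x, hx⟩
        obtain ⟨g, rfl⟩ := isConj_iff.1 hx
        have h1 : g * (a : G) * g⁻¹ ∈ (P : Subgroup G) := hPn.conj_mem _ a.2 g
        obtain ⟨k, hk⟩ := ha ⟨_, h1⟩
        have h2 : (g * (a : G) * g⁻¹) = (a : G) ^ k := by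
          have := congrArg Subtype.val hk
          simpa using this.symm
        have hne1 : g * (a : G) * g⁻¹ ≠ 1 := by
          intro h3
          have h4 : orderOf (g * (a : G) * g⁻¹) = 3 := by rw [orderOf_conj']; exact hao
          rw [h3] at h4
          simp at h4
        have hk3 : (a : G) ^ k = (a : G) ^ (k % 3) := by
          conv_lhs => rw [← Int.mul_ediv_add_emod k 3]
          rw [zpow_add, zpow_mul]
          have : (a : G) ^ (3 : ℤ) = 1 := by
            have := pow_orderOf_eq_one (a : G)
            rw [hao] at this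
            exact_mod_cast this
          rw [this, one_zpow, one_mul]
        have hm : k % 3 = 0 ∨ k % 3 = 1 ∨ k % 3 = 2 := by omega
        show g * (a : G) * g⁻¹ = a ∨ g * (a : G) * g⁻¹ = (a : G)⁻¹
        rw [h2, hk3]
        rcases hm with hm | hm | hm
        · exfalso
          apply hne1
          rw [h2, hk3, hm, zpow_zero]
        · left; rw [hm, zpow_one]
        · right
          rw [hm]
          have h5 : (a : G) ^ (3 : ℤ) = 1 := by
            have := pow_orderOf_eq_one (a : G)
            rw [hao] at this
            exact_mod_cast this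
          rw [eq_inv_iff_mul_eq_one, ← zpow_add_one, show (2 : ℤ) + 1 = 3 by norm_num, h5]
      have hinj : Function.Injective (fun x : {x : G // IsConj (a : G) x} =>
          (if x.1 = (a : G) then (0 : Fin 2) else 1)) := by
        intro x y hxy
        rcases hsub x with h1 | h1 <;> rcases hsub y with h2 | h2
        · exact Subtype.ext (h1.trans h2.symm)
        · have hne : (a : G)⁻¹ ≠ (a : G) := by
            intro h3
            have h4 : (a : G) ^ 2 = 1 := by
              rw [pow_two]
              calc (a : G) * a = (a : G)⁻¹ * a := by rw [h3]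
                _ = 1 := by group
            have := orderOf_dvd_of_pow_eq_one h4
            rw [hao] at this
            norm_num at this
          simp only [h1, h2, if_true, if_neg hne] at hxy
          exact absurd hxy (by decide)
        · have hne : (a : G)⁻¹ ≠ (a : G) := by
            intro h3
            have h4 : (a : G) ^ 2 = 1 := by
              rw [pow_two]
              calc (a : G) * a = (a : G)⁻¹ * a := by rw [h3]
                _ = 1 := by group
            have := orderOf_dvd_of_pow_eq_one h4
            rw [hao] at this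
            norm_num at this
          simp only [h1, h2, if_true, if_neg hne] at hxy
          exact absurd hxy (by decide)
        · exact Subtype.ext (h1.trans h2.symm)
      have := Nat.card_le_card_of_injective _ hinj
      simpa using this
    rw [Cfsg.Agent.Lib.ClassSizes.card_isConj_eq_index] at hclass
    have hCeven : 2 ∣ Nat.card (Subgroup.centralizer ({(a : G)} : Set G)) := by
      have h1 := Subgroup.card_mul_index (Subgroup.centralizer ({(a : G)} : Set G))
      rw [hG] at h1
      have h2 : 0 < (Subgroup.centralizer ({(a : G)} : Set G)).index :=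
        Nat.pos_of_ne_zero Subgroup.index_ne_zero_of_finite
      set c := Nat.card (Subgroup.centralizer ({(a : G)} : Set G))
      set i := (Subgroup.centralizer ({(a : G)} : Set G)).index
      have : i = 1 ∨ i = 2 := by omega
      rcases this with h | h <;> rw [h] at h1 <;> omega
    obtain ⟨z, hz0⟩ := exists_prime_orderOf_dvd_card' 2 hCeven
    have hz2 : orderOf (z : G) = 2 := by rwa [Subgroup.orderOf_coe]
    have hzz := mul_self_of_order_two hz2
    have hza : (z : G) * a = a * z := Subgroup.mem_centralizer_singleton_iff.1 z.2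
    obtain ⟨Q, hzQ, _⟩ := exists_sylow_of_commute hzz hzz (Commute.refl (z : G))
    -- `Q` is abelian
    have hQab : ∀ x ∈ (Q : Subgroup G), x * z = z * x := by
      intro x hx
      haveI : Fact (Nat.Prime 2) := ⟨by norm_num⟩
      have hcard : Nat.card (Q : Subgroup G) = 2 ^ 2 := by rw [hc2 Q]; norm_num
      have h1 := IsPGroup.commutative_of_card_eq_prime_sq hcard
      exact congrArg Subtype.val (h1 ⟨x, hx⟩ ⟨z, hzQ⟩)
    -- `Q` and `P` generate
    have hsup : (Q : Subgroup G) ⊔ (P : Subgroup G) = ⊤ := by
      apply Subgroup.eq_top_of_card_eq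
      have h4 : 4 ∣ Nat.card ((Q : Subgroup G) ⊔ (P : Subgroup G) : Subgroup G) := by
        have := Subgroup.card_dvd_of_le (le_sup_left : (Q : Subgroup G) ≤ (Q : Subgroup G) ⊔ (P : Subgroup G))
        rwa [hc2 Q] at this
      have h3 : 3 ∣ Nat.card ((Q : Subgroup G) ⊔ (P : Subgroup G) : Subgroup G) := by
        have := Subgroup.card_dvd_of_le (le_sup_right : (P : Subgroup G) ≤ (Q : Subgroup G) ⊔ (P : Subgroup G))
        rwa [hc3 P] at this
      have h12 : Nat.card ((Q : Subgroup G) ⊔ (P : Subgroup G) : Subgroup G) ∣ 12 := by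
        rw [← hG]
        exact Subgroup.card_subgroup_dvd_card _
      have h5 : 12 ∣ Nat.card ((Q : Subgroup G) ⊔ (P : Subgroup G) : Subgroup G) :=
        Nat.Coprime.mul_dvd_of_dvd_of_dvd (by norm_num : Nat.Coprime 4 3) h4 h3
      rw [hG]
      exact Nat.dvd_antisymm h12 h5
    apply hz (z : G) hz2
    have hle : (Q : Subgroup G) ⊔ (P : Subgroup G) ≤ Subgroup.centralizer ({(z : G)} : Set G) := by
      refine sup_le (fun x hx => Subgroup.mem_centralizer_singleton_iff.2 (hQab x hx)) ?_
      intro x hx
      obtain ⟨k, hk⟩ := ha ⟨x, hx⟩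
      have hx' : x = (a : G) ^ k := by
        have := congrArg Subtype.val hk
        simpa using this.symm
      rw [Subgroup.mem_centralizer_singleton_iff, hx']
      have hc : Commute (a : G) (z : G) := hza.symm
      exact (hc.zpow_left k).eq
    rw [hsup] at hle
    rw [Subgroup.mem_center_iff]
    intro g
    exact Subgroup.mem_centralizer_singleton_iff.1 (hle trivial)
  · -- four Sylow 3-subgroups: the action is faithful
    haveI := Fintype.ofFinite (Sylow 3 G)
    let φ : G →* Equiv.Perm (Sylow 3 G) := MulAction.toPermHom G (Sylow 3 G)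
    have hNQ : ∀ Q : Sylow 3 G, Subgroup.normalizer ((Q : Subgroup G) : Set G) = Q := by
      intro Q
      have h1 : Nat.card (Sylow 3 G) = (Subgroup.normalizer ((Q : Subgroup G) : Set G)).index :=
        Sylow.card_eq_index_normalizer Q
      have h2 := Subgroup.card_mul_index (Subgroup.normalizer ((Q : Subgroup G) : Set G))
      rw [← h1, hn, hG] at h2
      have h3 : Nat.card (Subgroup.normalizer ((Q : Subgroup G) : Set G)) = 3 := by omega
      symm
      apply Subgroup.eq_of_le_of_card_ge Subgroup.le_normalizer
      rw [h3, hc3 Q]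
    have hinj : Function.Injective φ := by
      rw [← MonoidHom.ker_eq_bot_iff, eq_bot_iff]
      intro g hg
      rw [Subgroup.mem_bot]
      by_contra hg1
      have hmem : ∀ Q : Sylow 3 G, g ∈ (Q : Subgroup G) := by
        intro Q
        have h1 : φ g Q = Q := by rw [MonoidHom.mem_ker.1 hg]; rfl
        have h2 : g • Q = Q := h1
        rw [Sylow.smul_eq_iff_mem_normalizer] at h2
        rw [← hNQ Q]
        exact h2
      have hord : orderOf g = 3 := by
        have h1 : orderOf (⟨g, hmem P⟩ : (P : Subgroup G)) ∣ Nat.card (P : Subgroup G) := orderOf_dvd_natCard _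
        rw [Subgroup.orderOf_mk, hc3 P] at h1
        rcases (Nat.dvd_prime (by norm_num)).1 h1 with h2 | h2
        · exact absurd (orderOf_eq_one_iff.1 h2) hg1
        · exact h2
      have huniq : ∀ Q : Sylow 3 G, (Q : Subgroup G) = Subgroup.zpowers g := by
        intro Q
        symm
        apply Subgroup.eq_of_le_of_card_ge ((Subgroup.zpowers_le).2 (hmem Q))
        rw [hc3 Q, Nat.card_zpowers, hord]
      haveI : Subsingleton (Sylow 3 G) :=
        ⟨fun Q R => Sylow.ext ((huniq Q).trans (huniq R).symm)⟩
      have := Nat.card_of_subsingleton (P)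
      omega
    have hcard : Nat.card φ.range = 12 := by
      rw [← hG]
      exact Nat.card_congr (MonoidHom.ofInjective hinj).toEquiv.symm
    have hidx : φ.range.index = 2 := by
      have h1 := Subgroup.card_mul_index φ.range
      rw [hcard, Nat.card_perm, hn] at h1
      norm_num [Nat.factorial] at h1
      omega
    have halt := Equiv.Perm.eq_alternatingGroup_of_index_eq_two hidx
    let e₄ : Sylow 3 G ≃ Fin 4 := Finite.equivFinOfCardEq hn
    exact ⟨(MonoidHom.ofInjective hinj).trans ((MulEquiv.subgroupCongr halt).trans (Equiv.altCongrHom e₄))⟩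

end Cfsg.Agent.S0228
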