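import Cfsg.Statements.S0230
import Mathlib
import Cfsg.Agent.Lib.Invol.Isolated
import Cfsg.Agent.Lib.ClassSizes.Basic

set_option autoImplicit false
open Cfsg

namespace Cfsg.Agent.S0230

/-- Let G be a finite group with two non-conjugate involutions, and let t be an involution whose centralizer has maximal order among centralizers of involutions. Then |G| < |C_G(t)|^3. -/
theorem result {G : Type*} [Group G] [Finite G] (s t : G) (hs : orderOf s = 2) (ht : orderOf t = 2) (hnc : ¬ IsConj s t) (hmax : ∀ u : G, orderOf u = 2 → Nat.card (Subgroup.centralizer ({u} : Set G)) ≤ Nat.card (Subgroup.centralizer ({t} : Set G))) : Nat.card G < Nat.card (Subgroup.centralizer ({t} : Set G)) ^ 3 := by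
  open Cfsg.Agent.Lib.Invol in
  classical
  haveI := Fintype.ofFinite G
  set c := Nat.card (Subgroup.centralizer ({t} : Set G)) with hc
  have hc0 : 0 < c := Nat.card_pos
  have hss := mul_self_of_order_two hs
  have htt := mul_self_of_order_two ht
  -- the index set
  let I : Finset G := Finset.univ.filter (fun z => z ∈ Subgroup.centralizer ({t} : Set G) ∧ z ≠ 1 ∧ orderOf z = 2)
  have hI : I.card + 1 ≤ c := by
    have h1 : insert (1 : G) I ⊆ Finset.univ.filter (fun z => z ∈ Subgroup.centralizer ({t} : Set G)) := by
      intro z hz
      rw [Finset.mem_insert] at hz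
      rcases hz with rfl | hz
      · simp [Subgroup.one_mem]
      · simp only [I, Finset.mem_filter, Finset.mem_univ, true_and] at hz ⊢
        exact hz.1
    have h2 := Finset.card_le_card h1
    rw [Finset.card_insert_of_notMem (by simp [I])] at h2
    have h3 : (Finset.univ.filter (fun z => z ∈ Subgroup.centralizer ({t} : Set G))).card = c := by
      rw [hc, Nat.card_eq_fintype_card, Fintype.card_subtype]
    omega
  let Y : Finset G := Finset.univ.filter (fun v => IsConj s v)
  let F : G → Finset G := fun z => Finset.univ.filter (fun v => v ∈ Subgroup.centralizer ({z} : Set G))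
  have hY : Y ⊆ I.biUnion F := by
    intro v hv
    simp only [Y, Finset.mem_filter, Finset.mem_univ, true_and] at hv
    obtain ⟨k, rfl⟩ := isConj_iff.1 hv
    have hv2 : (k * s * k⁻¹) * (k * s * k⁻¹) = 1 := by
      calc (k * s * k⁻¹) * (k * s * k⁻¹) = k * (s * s) * k⁻¹ := by group
        _ = 1 := by rw [hss]; group
    set v := k * s * k⁻¹ with hvd
    have heven : Even (orderOf (t * v)) := by
      by_contra hodd
      rw [Nat.not_even_iff_odd] at hodd
      obtain ⟨d, _, hd⟩ := exists_conj_of_odd htt hv2 hodd
      apply hnc
      have h1 : IsConj s v := hv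
      have h2 : IsConj t v := isConj_iff.2 ⟨d, hd⟩
      exact h1.trans h2.symm
    have hw2 := central_order_two htt hv2 heven
    have hwt := central_commute_left htt hv2 heven
    have hwv := central_commute_right htt hv2 heven
    set z := (t * v) ^ (orderOf (t * v) / 2) with hz
    rw [Finset.mem_biUnion]
    refine ⟨z, ?_, ?_⟩
    · simp only [I, Finset.mem_filter, Finset.mem_univ, true_and]
      refine ⟨?_, ?_, hw2⟩
      · rw [Subgroup.mem_centralizer_singleton_iff]
        exact hwt.eq
      · intro h; rw [h] at hw2; simp at hw2
    · simp only [F, Finset.mem_filter, Finset.mem_univ, true_and]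
      rw [Subgroup.mem_centralizer_singleton_iff]
      exact hwv.symm.eq
  have hF : ∀ z ∈ I, (F z).card ≤ c := by
    intro z hz
    simp only [I, Finset.mem_filter, Finset.mem_univ, true_and] at hz
    have : (F z).card = Nat.card (Subgroup.centralizer ({z} : Set G)) := by
      simp only [F]
      rw [Nat.card_eq_fintype_card, Fintype.card_subtype]
    rw [this]
    exact hmax z hz.2.2
  have hYc : Y.card ≤ I.card * c := by
    calc Y.card ≤ (I.biUnion F).card := Finset.card_le_card hY
      _ ≤ ∑ z ∈ I, (F z).card := Finset.card_biUnion_le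
      _ ≤ ∑ z ∈ I, c := Finset.sum_le_sum hF
      _ = I.card * c := by simp
  have hYcard : Y.card = (Subgroup.centralizer ({s} : Set G)).index := by
    rw [← Cfsg.Agent.Lib.ClassSizes.card_isConj_eq_index, Nat.card_eq_fintype_card, Fintype.card_subtype]
  have hG : Nat.card G = Y.card * Nat.card (Subgroup.centralizer ({s} : Set G)) := by
    rw [hYcard, mul_comm]
    exact (Subgroup.card_mul_index _).symm
  have hCs : Nat.card (Subgroup.centralizer ({s} : Set G)) ≤ c := hmax s hs
  rw [hG]
  calc Y.card * Nat.card (Subgroup.centralizer ({s} : Set G)) ≤ (I.card * c) * c :=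
        Nat.mul_le_mul hYc hCs
    _ < (I.card + 1) * c * c := by
        apply Nat.mul_lt_mul_of_pos_right _ hc0
        apply Nat.mul_lt_mul_of_pos_right _ hc0
        omega
    _ ≤ c * c * c := by
        apply Nat.mul_le_mul_right
        apply Nat.mul_le_mul_right
        exact hI
    _ = c ^ 3 := by ring

end Cfsg.Agent.S0230
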