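import Cfsg.Statements.S0231
import Mathlib
import Cfsg.Agent.Lib.Invol.Isolated
import Cfsg.Agent.Lib.Techniques.SylowIn

set_option autoImplicit false
open scoped Pointwise
open Cfsg

namespace Cfsg.Agent.S0231

/-- Let T be a Sylow 2-subgroup of the finite group G which is not normal and which intersects every other Sylow 2-subgroup trivially. Then G has a single conjugacy class of involutions. -/
theorem result {G : Type*} [Group G] [Finite G] (T : Sylow 2 G) (hnn : ¬ (T : Subgroup G).Normal) (hTI : ∀ g : G, MulAut.conj g • (T : Subgroup G) ≠ T → MulAut.conj g • (T : Subgroup G) ⊓ T = ⊥) (s t : G) (hs : orderOf s = 2) (ht : orderOf t = 2) : IsConj s t := by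
  open Cfsg.Agent.Lib.Invol Cfsg.Agent.Lib.Techniques in
  -- any two distinct Sylow subgroups intersect trivially
  have hTI' : ∀ Q Q' : Sylow 2 G, Q ≠ Q' → ∀ x, x ∈ (Q : Subgroup G) → x ∈ (Q' : Subgroup G) → x = 1 := by
    intro Q Q' hne x hx hx'
    obtain ⟨a, rfl⟩ := MulAction.exists_smul_eq G T Q
    obtain ⟨b, rfl⟩ := MulAction.exists_smul_eq G T Q'
    have hne' : (a⁻¹ * b) • T ≠ T := by
      intro h
      apply hne
      conv_lhs => rw [← h]
      rw [mul_smul, smul_inv_smul]
    have h1 := hTI (a⁻¹ * b) (by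
      rw [← Sylow.coe_subgroup_smul]
      intro h
      exact hne' (Sylow.ext h))
    have m1 : a⁻¹ * x * a ∈ (T : Subgroup G) := by
      have := hx
      rw [Sylow.coe_subgroup_smul, Subgroup.mem_pointwise_smul_iff_inv_smul_mem, MulAut.smul_def,
        MulAut.conj_inv_apply] at this
      exact this
    have m2 : b⁻¹ * x * b ∈ (T : Subgroup G) := by
      have := hx'
      rw [Sylow.coe_subgroup_smul, Subgroup.mem_pointwise_smul_iff_inv_smul_mem, MulAut.smul_def,
        MulAut.conj_inv_apply] at this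
      exact this
    have m3 : a⁻¹ * x * a ∈ MulAut.conj (a⁻¹ * b) • (T : Subgroup G) := by
      rw [Subgroup.mem_pointwise_smul_iff_inv_smul_mem, MulAut.smul_def, MulAut.conj_inv_apply]
      have e : (a⁻¹ * b)⁻¹ * (a⁻¹ * x * a) * (a⁻¹ * b) = b⁻¹ * x * b := by group
      rw [e]; exact m2
    have h2 : a⁻¹ * x * a ∈ MulAut.conj (a⁻¹ * b) • (T : Subgroup G) ⊓ (T : Subgroup G) := ⟨m3, m1⟩
    rw [h1, Subgroup.mem_bot] at h2
    have : x = a * (a⁻¹ * x * a) * a⁻¹ := by group
    rw [this, h2]; group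
  have hnt : Nontrivial (Sylow 2 G) := by
    by_contra hs
    rw [not_nontrivial_iff_subsingleton] at hs
    exact hnn (Sylow.normal_of_subsingleton T)
  -- key claim
  have key : ∀ (u r : G) (Q Q' : Sylow 2 G), orderOf u = 2 → orderOf r = 2 → u ∈ (Q : Subgroup G) →
      r ∈ (Q' : Subgroup G) → Q ≠ Q' → IsConj u r := by
    intro u r Q Q' hu hr huQ hrQ' hne
    have huu := mul_self_of_order_two hu
    have hrr := mul_self_of_order_two hr
    have hodd : Odd (orderOf (u * r)) := by
      by_contra hev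
      rw [Nat.not_odd_iff_even] at hev
      have hw2 := central_order_two huu hrr hev
      have hwu := central_commute_left huu hrr hev
      have hwr := central_commute_right huu hrr hev
      set z := (u * r) ^ (orderOf (u * r) / 2) with hz
      have hzz := mul_self_of_order_two hw2
      have hz1 : z ≠ 1 := by
        intro h; rw [h] at hw2; simp at hw2
      have hu1 : u ≠ 1 := by
        intro h; rw [h] at hu; simp at hu
      have hr1 : r ≠ 1 := by
        intro h; rw [h] at hr; simp at hr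
      obtain ⟨R, h1, h2⟩ := exists_sylow_of_commute hzz huu hwu
      have hRQ : R = Q := by
        by_contra hne2
        exact hu1 (hTI' R Q hne2 u h2 huQ)
      obtain ⟨R', h1', h2'⟩ := exists_sylow_of_commute hzz hrr hwr
      have hRQ' : R' = Q' := by
        by_contra hne2
        exact hr1 (hTI' R' Q' hne2 r h2' hrQ')
      subst hRQ hRQ'
      exact hz1 (hTI' _ _ hne z h1 h1')
    obtain ⟨d, _, hd⟩ := exists_conj_of_odd huu hrr hodd
    exact isConj_iff.2 ⟨d, hd⟩
  have hss := mul_self_of_order_two hs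
  have htt := mul_self_of_order_two ht
  obtain ⟨Q₁, hQ₁⟩ : ∃ Q : Sylow 2 G, s ∈ (Q : Subgroup G) := by
    obtain ⟨Q, h1, _⟩ := exists_sylow_of_commute hss hss (Commute.refl s)
    exact ⟨Q, h1⟩
  obtain ⟨Q₂, hQ₂⟩ : ∃ Q : Sylow 2 G, t ∈ (Q : Subgroup G) := by
    obtain ⟨Q, h1, _⟩ := exists_sylow_of_commute htt htt (Commute.refl t)
    exact ⟨Q, h1⟩
  by_cases h12 : Q₁ = Q₂
  · subst h12
    obtain ⟨Q', hQ'⟩ := exists_ne Q₁
    obtain ⟨c, rfl⟩ := MulAction.exists_smul_eq G Q₁ Q'
    have hm : c * s * c⁻¹ ∈ ((c • Q₁ : Sylow 2 G) : Subgroup G) := by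
      rw [Sylow.coe_subgroup_smul, Subgroup.mem_pointwise_smul_iff_inv_smul_mem, MulAut.smul_def,
        MulAut.conj_inv_apply]
      simpa [mul_assoc] using hQ₁
    have ho : orderOf (c * s * c⁻¹) = 2 := by rw [orderOf_conj_eq, hs]
    have h1 := key s (c * s * c⁻¹) Q₁ (c • Q₁) hs ho hQ₁ hm hQ'.symm
    have h2 := key t (c * s * c⁻¹) Q₁ (c • Q₁) ht ho hQ₂ hm hQ'.symm
    exact h1.trans h2.symm
  · exact key s t Q₁ Q₂ hs ht hQ₁ hQ₂ h12

end Cfsg.Agent.S0231
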