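import Cfsg.Statements.S0232
import Mathlib
import Cfsg.Agent.Lib.Invol.Simple

set_option autoImplicit false
open Cfsg

namespace Cfsg.Agent.S0232

universe u

open Cfsg.Agent.Lib.Invol in
theorem main : ∀ (N : ℕ) (G : Type u) [Group G] [Finite G], Nat.card G = N → Even N → 2 < N →
    ∃ H : Subgroup G, H ≠ ⊤ ∧ Nat.card G < Nat.card H ^ 3 := by
  intro N
  induction N using Nat.strong_induction_on with
  | _ N ih =>
    intro G _ _ hN heven hgt
    subst hN
    by_cases h2 : ∃ H : Subgroup G, H.index = 2
    · obtain ⟨H, hH⟩ := h2
      refine ⟨H, ?_, ?_⟩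
      · rintro rfl
        simp at hH
      · have hc := Subgroup.card_mul_index H
        rw [hH] at hc
        have h3 : 2 ≤ Nat.card H := by omega
        rw [← hc]
        nlinarith [Nat.mul_le_mul h3 h3, pow_succ (Nat.card H) 2, sq (Nat.card H)]
    push Not at h2
    by_cases hZ : Odd (Nat.card (Subgroup.center G))
    · obtain ⟨H, hH, hb⟩ := exists_large_subgroup heven hZ h2
      haveI := Fintype.ofFinite G
      obtain ⟨t, ht⟩ := exists_invol (G := G) heven
      have hCt : Subgroup.centralizer ({t} : Set G) ≠ ⊤ := by
        intro htop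
        have hcen : t ∈ Subgroup.center G := by
          rw [Subgroup.mem_center_iff]
          intro g
          have : g ∈ Subgroup.centralizer ({t} : Set G) := by rw [htop]; trivial
          rw [Subgroup.mem_centralizer_singleton_iff] at this
          exact this
        have h3 : orderOf (⟨t, hcen⟩ : Subgroup.center G) = 2 := by
          rw [Subgroup.orderOf_mk]; exact ht
        have h4 : 2 ∣ Nat.card (Subgroup.center G) := h3 ▸ orderOf_dvd_natCard _
        obtain ⟨k, hk⟩ := hZ
        omega
      set n := involCount G with hn
      have hn0 : 0 < n := involCount_pos heven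
      set N := Nat.card G with hNdef
      set m := Nat.card H with hm
      set i := H.index with hi
      set c := Nat.card (Subgroup.centralizer ({t} : Set G)) with hc
      have hm0 : 0 < m := Nat.card_pos
      have hi0 : 0 < i := Nat.pos_of_ne_zero Subgroup.index_ne_zero_of_finite
      have hNm : m * i = N := Subgroup.card_mul_index H
      have hcn : N ≤ c * n := by
        have h3 := card_class_le_involCount ht
        have h4 := Subgroup.card_mul_index (Subgroup.centralizer ({t} : Set G))
        rw [hNdef, ← h4]
        exact Nat.mul_le_mul_left _ h3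
      -- `K = max m c`
      have key : ∀ K : ℕ, m ≤ K → c ≤ K → N < K ^ 3 := by
        intro K hmK hcK
        have hKpos : 0 < K := lt_of_lt_of_le hm0 hmK
        have hNK : N ≤ K * n := hcn.trans (Nat.mul_le_mul_right _ hcK)
        have h3 : 2 * n ^ 2 < m * (N + n) := by omega
        have h4 : i * (2 * n ^ 2) < i * (m * (N + n)) := Nat.mul_lt_mul_of_pos_left h3 hi0
        have e1 : i * (m * (N + n)) = N * (N + n) := by rw [← mul_assoc, mul_comm i, hNm]
        rw [e1] at h4
        have h5 : N * (N + n) ≤ (K * n) * (K * n + n) := Nat.mul_le_mul hNK (by omega)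
        have h6 : (2 * i) * n ^ 2 < (K * (K + 1)) * n ^ 2 := by nlinarith
        have h7 : 2 * i < K * (K + 1) := Nat.lt_of_mul_lt_mul_right h6
        have h8 : 2 * N ≤ (2 * i) * K := by
          rw [← hNm]
          calc 2 * (m * i) = (2 * i) * m := by ring
            _ ≤ (2 * i) * K := Nat.mul_le_mul_left _ hmK
        have h9 : (2 * i) * K < (K * (K + 1)) * K := Nat.mul_lt_mul_of_pos_right h7 hKpos
        have h10 : (K * (K + 1)) * K ≤ 2 * K ^ 3 := by nlinarith [Nat.mul_le_mul hKpos hKpos]
        omega
      by_cases hcm : c ≤ m
      · exact ⟨H, hH, key m le_rfl hcm⟩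
      · exact ⟨_, hCt, key c (by omega) le_rfl⟩
    · -- a central involution
      rw [Nat.not_odd_iff_even] at hZ
      obtain ⟨z, hz⟩ := exists_prime_orderOf_dvd_card' (G := Subgroup.center G) 2 hZ.two_dvd
      have hz' : orderOf (z : G) = 2 := by rwa [Subgroup.orderOf_coe]
      have hnorm : (Subgroup.zpowers (z : G)).Normal := by
        constructor
        rintro _ ⟨k, rfl⟩ g
        refine ⟨k, ?_⟩
        have h0 : Commute g (z : G) := (Subgroup.mem_center_iff.1 z.2) g
        have hc : Commute g ((z : G) ^ k) := h0.zpow_right k
        simp only [hc.eq, mul_inv_cancel_right]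
      set Z := Subgroup.zpowers (z : G) with hZdef
      have hcZ : Nat.card Z = 2 := by rw [hZdef, Nat.card_zpowers, hz']
      have hcQ := Subgroup.card_mul_index Z
      rw [hcZ] at hcQ
      have hiZ : Z.index = Nat.card (G ⧸ Z) := Subgroup.index_eq_card Z
      by_cases hQodd : Odd Z.index
      · exfalso
        obtain ⟨H, hH⟩ := exists_index_two_of_element (z : G) (by rw [hz']; exact even_two) (by
          rw [hz', ← hcQ, Nat.mul_div_cancel_left _ (by norm_num)]
          exact hQodd)
        exact h2 H hH
      · rw [Nat.not_odd_iff_even] at hQodd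
        have hne2 : Z.index ≠ 2 := h2 Z
        have hpos : 0 < Z.index := Nat.pos_of_ne_zero Subgroup.index_ne_zero_of_finite
        have hgt2 : 2 < Z.index := by
          obtain ⟨k, hk⟩ := hQodd
          omega
        have hlt : Z.index < Nat.card G := by omega
        obtain ⟨H', hH', hb⟩ := ih Z.index hlt (G ⧸ Z) hiZ.symm hQodd hgt2
        refine ⟨H'.comap (QuotientGroup.mk' Z), ?_, ?_⟩
        · intro htop
          apply hH'
          rw [eq_top_iff]
          intro x _
          obtain ⟨g, rfl⟩ := QuotientGroup.mk'_surjective Z x
          have : g ∈ H'.comap (QuotientGroup.mk' Z) := by rw [htop]; trivial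
          exact this
        · have h3 : (H'.comap (QuotientGroup.mk' Z)).index = H'.index :=
            Subgroup.index_comap_of_surjective H' (QuotientGroup.mk'_surjective Z)
          have h4 := Subgroup.card_mul_index (H'.comap (QuotientGroup.mk' Z))
          have h5 := Subgroup.card_mul_index H'
          rw [h3] at h4
          rw [← hiZ] at h5
          have h6 : Nat.card (H'.comap (QuotientGroup.mk' Z)) = 2 * Nat.card H' := by
            have h7 : 0 < H'.index := Nat.pos_of_ne_zero Subgroup.index_ne_zero_of_finite
            apply Nat.eq_of_mul_eq_mul_right h7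
            rw [h4, mul_assoc, h5]
            exact hcQ.symm
          rw [h6]
          rw [← hiZ] at hb
          have h8 : 0 < Nat.card H' := Nat.card_pos
          have h9 : 2 * Nat.card H' ^ 3 ≤ (2 * Nat.card H') ^ 3 := by
            rw [mul_pow]
            exact Nat.mul_le_mul_right _ (by norm_num)
          omega


/-- A finite group G of even order greater than 2 has a proper subgroup H with |G| < |H|^3. -/
theorem result {G : Type*} [Group G] [Finite G] (heven : Even (Nat.card G)) (hgt : 2 < Nat.card G) : ∃ H : Subgroup G, H ≠ ⊤ ∧ Nat.card G < (Nat.card H) ^ 3 := by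
  exact main _ G rfl heven hgt

end Cfsg.Agent.S0232
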