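import Cfsg.Statements.S0233
import Mathlib
import Cfsg.Agent.Lib.Invol.BrauerFowler

set_option autoImplicit false
open Cfsg

namespace Cfsg.Agent.S0233

/-- Let G be a finite group of even order with exactly n involutions whose centre has odd order, and put a = |G|/n. Then G has a proper subgroup H with |G : H| = 2 or |G : H| < a(a+1)/2; over ℕ the latter reads 2·|G:H|·n² < |G|·(|G| + n). -/
theorem result {G : Type*} [Group G] [Finite G] (heven : Even (Nat.card G)) (hZ : Odd (Nat.card (Subgroup.center G))) : ∃ H : Subgroup G, H ≠ ⊤ ∧ (H.index = 2 ∨ 2 * H.index * (Nat.card {t : G // orderOf t = 2}) ^ 2 < Nat.card G * (Nat.card G + Nat.card {t : G // orderOf t = 2})) := by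
  open Cfsg.Agent.Lib.Invol in
  classical
  by_cases h2 : ∀ H : Subgroup G, H.index ≠ 2
  · obtain ⟨H, hH, hb⟩ := exists_large_subgroup heven hZ h2
    refine ⟨H, hH, Or.inr ?_⟩
    set n := Nat.card {t : G // orderOf t = 2} with hn
    have hb' : 2 * n ^ 2 + 2 * n + Nat.card H ≤ Nat.card H * (Nat.card G + n) := hb
    have hcard := Subgroup.card_mul_index H
    have hidx : 0 < H.index := Nat.pos_of_ne_zero Subgroup.index_ne_zero_of_finite
    have hH0 : 0 < Nat.card H := Nat.card_pos
    calc 2 * H.index * n ^ 2 = H.index * (2 * n ^ 2) := by ring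
      _ < H.index * (Nat.card H * (Nat.card G + n)) := by
          apply Nat.mul_lt_mul_of_pos_left ?_ hidx
          omega
      _ = Nat.card G * (Nat.card G + n) := by rw [← mul_assoc, mul_comm H.index, hcard]
  · push Not at h2
    obtain ⟨H, hH⟩ := h2
    refine ⟨H, ?_, Or.inl hH⟩
    rintro rfl
    simp at hH

end Cfsg.Agent.S0233
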