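import Cfsg.Statements.S0234
import Mathlib
import Cfsg.Agent.Lib.Invol.Simple

set_option autoImplicit false
open Cfsg

namespace Cfsg.Agent.S0234

/-- In a finite simple group G of even order greater than 2, the number n of involutions satisfies 3n < |G|. -/
theorem result {G : Type*} [Group G] [Finite G] [IsSimpleGroup G] (heven : Even (Nat.card G)) (hgt : 2 < Nat.card G) : 3 * Nat.card {t : G // orderOf t = 2} < Nat.card G := by
  open Cfsg.Agent.Lib.Invol in
  classical
  haveI := Fintype.ofFinite G
  by_contra hcon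
  push Not at hcon
  have hcon' : Nat.card G ≤ 3 * involCount G := hcon
  have h2 := index_ne_two_of_simple hgt
  have hZ := odd_card_center_of_simple hgt
  obtain ⟨H, hH, hb⟩ := exists_large_subgroup heven hZ h2
  set n := involCount G with hn
  have hn0 : 0 < n := involCount_pos heven
  set N := Nat.card G with hNdef
  set m := Nat.card H with hm
  set i := H.index with hi
  have hm0 : 0 < m := Nat.card_pos
  have hi0 : 0 < i := Nat.pos_of_ne_zero Subgroup.index_ne_zero_of_finite
  have hNm : m * i = N := Subgroup.card_mul_index H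
  have h3 : 2 * n ^ 2 < m * (N + n) := by omega
  have h4 : i * (2 * n ^ 2) < i * (m * (N + n)) := Nat.mul_lt_mul_of_pos_left h3 hi0
  have e1 : i * (m * (N + n)) = N * (N + n) := by rw [← mul_assoc, mul_comm i, hNm]
  rw [e1] at h4
  have h5 : N * (N + n) ≤ (3 * n) * (4 * n) := Nat.mul_le_mul hcon' (by omega)
  have h6 : i * n ^ 2 < 6 * n ^ 2 := by nlinarith
  have h7 : i < 6 := Nat.lt_of_mul_lt_mul_right h6
  have hdvd := two_mul_card_dvd_factorial hgt hH
  have h60 : N ∣ 60 := by
    have h8 : i.factorial ∣ (5 : ℕ).factorial := Nat.factorial_dvd_factorial (by omega)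
    have h9 : 2 * N ∣ 2 * 60 := hdvd.trans (by simpa [Nat.factorial] using h8)
    exact Nat.dvd_of_mul_dvd_mul_left (by norm_num) h9
  obtain ⟨y, hy⟩ := exists_invol (G := G) heven
  have hNpos : 0 < N := Nat.card_pos
  have hNle : N ≤ 60 := Nat.le_of_dvd (by norm_num) h60
  -- exclude small orders
  have h2mod : N % 4 ≠ 2 := by
    intro hmod
    obtain ⟨K, hK⟩ := exists_index_two_of_element y (by rw [hy]; exact even_two) (by
      rw [hy]
      rw [Nat.odd_iff]
      omega)
    exact h2 K hK
  have hsub : ∀ d : ℕ, d.Prime → ∀ e, d ^ e ∣ N → d ^ e ≠ N → 2 * N ∣ (N / d ^ e).factorial := by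
    intro d hd e hde hne
    haveI := Fact.mk hd
    obtain ⟨K, hK⟩ := Sylow.exists_subgroup_card_pow_prime d hde
    have hKne : K ≠ ⊤ := by
      rintro rfl
      rw [Subgroup.card_top] at hK
      exact hne hK.symm
    have h8 := two_mul_card_dvd_factorial hgt hKne
    have h9 := Subgroup.card_mul_index K
    rw [hK] at h9
    have h9' : d ^ e * K.index = N := h9
    have hdpos : 0 < d ^ e := pow_pos hd.pos _
    have : K.index = N / d ^ e := by
      rw [← h9', Nat.mul_div_cancel_left _ hdpos]
    rw [this] at h8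
    exact h8
  have hN60 : N = 60 := by
    obtain ⟨k, hk⟩ := heven
    have hcases : N = 4 ∨ N = 12 ∨ N = 20 ∨ N = 60 := by
      have : N ∈ Nat.divisors 60 := Nat.mem_divisors.2 ⟨h60, by norm_num⟩
      have hd : Nat.divisors 60 = {1, 2, 3, 4, 5, 6, 10, 12, 15, 20, 30, 60} := by decide +kernel
      rw [hd] at this
      simp only [Finset.mem_insert, Finset.mem_singleton] at this
      omega
    rcases hcases with h | h | h | h
    · exfalso
      have h8 := hsub 2 Nat.prime_two 1 (by rw [h]; norm_num) (by rw [h]; norm_num)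
      rw [h] at h8
      norm_num [Nat.factorial] at h8
    · exfalso
      have h8 := hsub 2 Nat.prime_two 2 (by rw [h]; norm_num) (by rw [h]; norm_num)
      rw [h] at h8
      norm_num [Nat.factorial] at h8
    · exfalso
      have h8 := hsub 5 (by norm_num) 1 (by rw [h]; norm_num) (by rw [h]; norm_num)
      rw [h] at h8
      norm_num [Nat.factorial] at h8
    · exact h
  -- the case of order 60
  have hi5 : i = 5 := by
    have hdvd' : 2 * 60 ∣ i.factorial := by rw [← hN60]; exact hdvd
    have gen : ∀ j : ℕ, j < 6 → 2 * 60 ∣ j.factorial → j = 5 := by decide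
    exact gen i h7 hdvd'
  have hcardi : Nat.card (G ⧸ H) = 5 := by rw [← Subgroup.index_eq_card]; exact hi5
  let e : (G ⧸ H) ≃ Fin 5 := Finite.equivFinOfCardEq hcardi
  let ψ : G →* Equiv.Perm (Fin 5) :=
    (Equiv.permCongrHom e).toMonoidHom.comp (MulAction.toPermHom G (G ⧸ H))
  have hψ : Function.Injective ψ :=
    (Equiv.permCongrHom e).injective.comp (toPermHom_injective_of_simple hH)
  have hsign : ∀ g, Equiv.Perm.sign (ψ g) = 1 := fun g => sign_eq_one_of_simple hgt ψ g
  have hcount : n ≤ (Finset.univ.filter (fun σ : Equiv.Perm (Fin 5) =>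
      σ * σ = 1 ∧ σ ≠ 1 ∧ Equiv.Perm.sign σ = 1)).card := by
    rw [hn, involCount, Nat.card_eq_fintype_card, ← Finset.card_univ]
    apply Finset.card_le_card_of_injOn (fun t => ψ t.1)
    · rintro ⟨t, ht⟩ _
      simp only [Finset.coe_filter, Finset.mem_univ, true_and, Set.mem_setOf_eq]
      refine ⟨?_, ?_, hsign t⟩
      · rw [← map_mul, mul_self_of_order_two ht, map_one]
      · intro h
        have : t = 1 := hψ (by rw [h, map_one])
        rw [this] at ht
        simp at ht
    · rintro ⟨a, ha⟩ _ ⟨b, hb⟩ _ h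
      exact Subtype.ext (hψ h)
  have h15 : (Finset.univ.filter (fun σ : Equiv.Perm (Fin 5) =>
      σ * σ = 1 ∧ σ ≠ 1 ∧ Equiv.Perm.sign σ = 1)).card = 15 := by decide +kernel
  omega

end Cfsg.Agent.S0234
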