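import Cfsg.Statements.S0235
import Mathlib
import Cfsg.Agent.Lib.Invol.Basic

set_option autoImplicit false
open Cfsg

namespace Cfsg.Agent.S0235

/-- If x² ≠ 1, the ordered pairs (u, v) of involutions with uv = x correspond bijectively to the involutions t with t x t⁻¹ = x⁻¹ (via (u, v) ↦ u), so the two counts agree. -/
theorem result {G : Type*} [Group G] [Finite G] (x : G) (hx : x ^ 2 ≠ 1) : Nat.card {p : G × G // orderOf p.1 = 2 ∧ orderOf p.2 = 2 ∧ p.1 * p.2 = x} = Nat.card {t : G // orderOf t = 2 ∧ t * x * t⁻¹ = x⁻¹} := by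
  open Cfsg.Agent.Lib.Invol in
  apply Nat.card_congr
  refine ⟨fun p => ⟨p.1.1, p.2.1, ?_⟩, fun t => ⟨(t.1, t.1 * x), t.2.1, ?_, ?_⟩, ?_, ?_⟩
  · obtain ⟨⟨u, v⟩, hu, hv, hp⟩ := p
    dsimp only at *
    subst hp
    have hu' := mul_self_of_order_two hu
    have hv' := mul_self_of_order_two hv
    rw [inv_eq_of_mul_self hu', left_inverts hu' hv']
  · obtain ⟨t, ht, htx⟩ := t
    have ht' := mul_self_of_order_two ht
    rw [inv_eq_of_mul_self ht'] at htx
    apply order_two_of_mul_self
    · calc t * x * (t * x) = (t * x * t) * x := by simp only [mul_assoc]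
        _ = 1 := by rw [htx]; exact inv_mul_cancel x
    · intro h
      have : x = t := by
        have := eq_inv_of_mul_eq_one_right h
        rwa [inv_eq_of_mul_self ht'] at this
      apply hx
      rw [this, pow_two, ht']
  · obtain ⟨t, ht, htx⟩ := t
    have ht' := mul_self_of_order_two ht
    dsimp only
    rw [← mul_assoc, ht', one_mul]
  · rintro ⟨⟨u, v⟩, hu, hv, hp⟩
    dsimp only at *
    subst hp
    have hu' := mul_self_of_order_two hu
    ext
    · rfl
    · dsimp only; rw [← mul_assoc, hu', one_mul]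
  · rintro ⟨t, ht, htx⟩
    rfl

end Cfsg.Agent.S0235
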