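import Cfsg.Statements.S0237
import Mathlib

set_option autoImplicit false
open Cfsg

namespace Cfsg.Agent.S0237

/-- If x is real (conjugate to x⁻¹) in a finite group G, the number of g with g x g⁻¹ = x⁻¹ equals |C_G(x)|. -/
theorem result {G : Type*} [Group G] [Finite G] (x : G) (hreal : IsConj x x⁻¹) : Nat.card {g : G // g * x * g⁻¹ = x⁻¹} = Nat.card (Subgroup.centralizer ({x} : Set G)) := by
  obtain ⟨c, hc⟩ := isConj_iff.1 hreal
  apply Nat.card_congr
  refine ⟨fun g => ⟨c⁻¹ * g.1, ?_⟩, fun d => ⟨c * d.1, ?_⟩, ?_, ?_⟩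
  · rw [Subgroup.mem_centralizer_singleton_iff]
    have h := g.2
    calc c⁻¹ * g.1 * x = c⁻¹ * (g.1 * x * g.1⁻¹) * g.1 := by group
      _ = c⁻¹ * x⁻¹ * g.1 := by rw [h]
      _ = c⁻¹ * (c * x * c⁻¹) * g.1 := by rw [hc]
      _ = x * (c⁻¹ * g.1) := by group
  · have h := (Subgroup.mem_centralizer_singleton_iff).1 d.2
    calc c * d.1 * x * (c * d.1)⁻¹ = c * (d.1 * x) * d.1⁻¹ * c⁻¹ := by group
      _ = c * (x * d.1) * d.1⁻¹ * c⁻¹ := by rw [h]
      _ = c * x * c⁻¹ := by group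
      _ = x⁻¹ := hc
  · intro g; ext; simp
  · intro d; ext; simp

end Cfsg.Agent.S0237
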