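import Cfsg.Statements.S0239
import Mathlib
import Cfsg.Agent.Lib.Invol.Basic

set_option autoImplicit false
open Cfsg

namespace Cfsg.Agent.S0239

/-- If some nontrivial element x of a finite group G is conjugate to x⁻¹, then |G| is even. -/
theorem result {G : Type*} [Group G] [Finite G] (x : G) (hx : x ≠ 1) (hreal : IsConj x x⁻¹) : Even (Nat.card G) := by
  open Cfsg.Agent.Lib.Invol in
  by_contra hodd
  rw [Nat.not_even_iff_odd] at hodd
  obtain ⟨c, hc⟩ := isConj_iff.1 hreal
  have h1 : Odd (orderOf c) := Odd.of_dvd_nat hodd (orderOf_dvd_natCard c)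
  have h2 := mul_self_of_odd_inverts h1 hc
  have h3 := order_two_of_mul_self h2 hx
  have h4 : 2 ∣ Nat.card G := h3 ▸ orderOf_dvd_natCard x
  exact (Nat.not_even_iff_odd.2 hodd) (even_iff_two_dvd.2 h4)

end Cfsg.Agent.S0239
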