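import Cfsg.Statements.S0240
import Mathlib
import Cfsg.Agent.Lib.Invol.Basic

set_option autoImplicit false
open Cfsg

namespace Cfsg.Agent.S0240

/-- Let G be a finite group with n involutions and H a subgroup with |H|·(n+1) > |G|. Then some nontrivial h ∈ H is strongly real in G: an involution t of G satisfies t h t⁻¹ = h⁻¹. -/
theorem result {G : Type*} [Group G] [Finite G] (H : Subgroup G) (hH : Nat.card G < Nat.card H * (Nat.card {t : G // orderOf t = 2} + 1)) : ∃ h : G, h ∈ H ∧ h ≠ 1 ∧ ∃ t : G, orderOf t = 2 ∧ t * h * t⁻¹ = h⁻¹ := by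
  open Cfsg.Agent.Lib.Invol in
  classical
  by_contra hcon
  push Not at hcon
  -- the sets `t H`, for `t` an involution or 1, are pairwise disjoint
  let X := Option {t : G // orderOf t = 2}
  let φ : X → G := fun o => o.elim 1 (fun t => t.1)
  have hφ : ∀ o : X, φ o * φ o = 1 := by
    rintro (_ | t)
    · simp [φ]
    · exact mul_self_of_order_two t.2
  have hinj : Function.Injective (fun p : X × H => φ p.1 * (p.2 : G)) := by
    rintro ⟨o, h⟩ ⟨o', h'⟩ he
    simp only at he
    have hh : φ o' * φ o = (h' : G) * (h : G)⁻¹ := by
      have h1 : φ o = φ o' * (h' : G) * (h : G)⁻¹ := by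
        rw [eq_mul_inv_iff_mul_eq]; exact he
      rw [h1]
      simp only [mul_assoc]
      rw [← mul_assoc (φ o') (φ o'), hφ, one_mul]
    have hmem : φ o' * φ o ∈ H := by
      rw [hh]; exact H.mul_mem h'.2 (H.inv_mem h.2)
    by_cases heq : φ o' * φ o = 1
    · have h2 : φ o' = φ o := by
        have := eq_inv_of_mul_eq_one_left heq
        rwa [inv_eq_of_mul_self (hφ o)] at this
      have h3 : (h : G) = h' := by
        have := he
        rw [← h2] at this
        exact mul_left_cancel this
      have h4 : o = o' := by
        rcases o with _ | ⟨t, ht⟩ <;> rcases o' with _ | ⟨t', ht'⟩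
        · rfl
        · exfalso
          have h5 : (1 : G) = t' := h2.symm
          rw [← h5] at ht'; simp at ht'
        · exfalso
          have h5 : t = 1 := h2.symm
          rw [h5] at ht; simp at ht
        · have h5 : t' = t := h2
          subst h5; rfl
      rw [h4]
      ext <;> simp [h3]
    · exfalso
      -- `φ o'` inverts `h := φ o' * φ o`
      have hcase : ∃ t : G, orderOf t = 2 ∧ t * (φ o' * φ o) * t⁻¹ = (φ o' * φ o)⁻¹ := by
        rcases o' with _ | ⟨t', ht'⟩
        · -- φ o' = 1, φ o is an involution
          rcases o with _ | ⟨t, ht⟩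
          · exact absurd (by simp [φ]) heq
          · refine ⟨t, ht, ?_⟩
            have : φ (some ⟨t, ht⟩) = t := rfl
            have h1 : φ none = 1 := rfl
            rw [this, h1, one_mul, mul_inv_cancel_right, inv_eq_of_order_two ht]
        · refine ⟨t', ht', ?_⟩
          have h1 : φ (some ⟨t', ht'⟩) = t' := rfl
          rw [h1, inv_eq_of_order_two ht']
          have h2 := hφ o
          rw [mul_inv_rev, inv_eq_of_mul_self h2, inv_eq_of_order_two ht']
          rw [← mul_assoc t' t', mul_self_of_order_two ht', one_mul]
      obtain ⟨t, ht, hinv⟩ := hcase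
      exact hcon _ hmem heq t ht hinv
  have hcard := Nat.card_le_card_of_injective _ hinj
  rw [Nat.card_prod, Finite.card_option] at hcard
  rw [mul_comm] at hcard
  omega

end Cfsg.Agent.S0240
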