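import Cfsg.Statements.S0241
import Mathlib
import Cfsg.Agent.Lib.Invol.Basic

set_option autoImplicit false
open Cfsg

namespace Cfsg.Agent.S0241

/-- If x ≠ 1 is conjugate to x⁻¹ in a finite group G and |C_G(x)| is odd, then some involution t satisfies t x t⁻¹ = x⁻¹. -/
theorem result {G : Type*} [Group G] [Finite G] (x : G) (hx : x ≠ 1) (hreal : IsConj x x⁻¹) (hodd : Odd (Nat.card (Subgroup.centralizer ({x} : Set G)))) : ∃ t : G, orderOf t = 2 ∧ t * x * t⁻¹ = x⁻¹ := by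
  open Cfsg.Agent.Lib.Invol in
  obtain ⟨c, hc⟩ := isConj_iff.1 hreal
  have hxx : x⁻¹ ≠ x := by
    intro h
    have h2 : x * x = 1 := by
      nth_rewrite 1 [← h]; exact inv_mul_cancel x
    have h3 := order_two_of_mul_self h2 hx
    have h4 : orderOf (⟨x, Subgroup.mem_centralizer_singleton_iff.2 rfl⟩ : Subgroup.centralizer ({x} : Set G)) = 2 := by
      rw [Subgroup.orderOf_mk]; exact h3
    have h5 := orderOf_dvd_natCard (⟨x, Subgroup.mem_centralizer_singleton_iff.2 rfl⟩ : Subgroup.centralizer ({x} : Set G))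
    rw [h4] at h5
    exact (Nat.not_even_iff_odd.2 hodd) (even_iff_two_dvd.2 h5)
  have hc' : c * x⁻¹ * c⁻¹ = x := by
    have := congrArg (· ⁻¹) hc
    simpa [mul_assoc] using this
  have hc2 : Commute (c ^ 2) x := by
    show c ^ 2 * x = x * c ^ 2
    have h3 : c * x = x⁻¹ * c := by rw [← hc]; group
    have h4 : c * x⁻¹ = x * c := by
      calc c * x⁻¹ = (c * x⁻¹ * c⁻¹) * c := by group
        _ = x * c := by rw [hc']
    rw [pow_two, mul_assoc, h3, ← mul_assoc, h4, mul_assoc]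
  obtain ⟨a, b, hb, hn⟩ := Nat.exists_eq_two_pow_mul_odd (orderOf_pos c).ne'
  obtain ⟨k, hk⟩ := hb
  set t := c ^ b with ht
  have hinv : t * x * t⁻¹ = x⁻¹ := by
    have h1 : t = (c ^ 2) ^ k * c := by
      rw [ht, hk, ← pow_mul, pow_succ]
    have h2 : Commute ((c ^ 2) ^ k) x⁻¹ := (hc2.pow_left k).inv_right
    rw [h1]
    calc (c ^ 2) ^ k * c * x * ((c ^ 2) ^ k * c)⁻¹
        = (c ^ 2) ^ k * (c * x * c⁻¹) * ((c ^ 2) ^ k)⁻¹ := by group
      _ = (c ^ 2) ^ k * x⁻¹ * ((c ^ 2) ^ k)⁻¹ := by rw [hc]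
      _ = x⁻¹ := by rw [h2.eq, mul_inv_cancel_right]
  have ht1 : t ≠ 1 := by
    intro h
    rw [h] at hinv
    simp at hinv
    exact hxx hinv.symm
  have ht2 : t ^ 2 = 1 := by
    have hcomm : t ^ 2 ∈ Subgroup.centralizer ({x} : Set G) := by
      rw [Subgroup.mem_centralizer_singleton_iff]
      have : t ^ 2 = (c ^ 2) ^ b := by rw [ht, ← pow_mul, ← pow_mul, mul_comm]
      rw [this]
      exact (hc2.pow_left b).eq
    have h1 : orderOf (t ^ 2) ∣ Nat.card (Subgroup.centralizer ({x} : Set G)) := by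
      have := orderOf_dvd_natCard (⟨t ^ 2, hcomm⟩ : Subgroup.centralizer ({x} : Set G))
      rwa [Subgroup.orderOf_mk] at this
    have h2 : orderOf (t ^ 2) ∣ 2 ^ a := by
      apply orderOf_dvd_of_pow_eq_one
      calc (t ^ 2) ^ (2 ^ a) = (c ^ (2 ^ a * b)) ^ 2 := by
            rw [ht, ← pow_mul, ← pow_mul, ← pow_mul]; congr 1; ring
        _ = 1 := by rw [← hn, pow_orderOf_eq_one, one_pow]
    have h3 : Nat.Coprime (orderOf (t ^ 2)) (Nat.card (Subgroup.centralizer ({x} : Set G))) := by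
      apply Nat.Coprime.coprime_dvd_left h2
      exact Nat.Coprime.pow_left a (Nat.coprime_two_left.2 hodd)
    exact orderOf_eq_one_iff.1 (h3.eq_one_of_dvd h1)
  exact ⟨t, orderOf_eq_prime ht2 ht1, hinv⟩

end Cfsg.Agent.S0241
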