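import Cfsg.Statements.S0250
import Mathlib
import Cfsg.Agent.Lib.Classical.Basic
import Cfsg.Agent.Lib.Classical.SmallIso

set_option autoImplicit false
open Cfsg

namespace Cfsg.Agent.S0250

/-- SL_2(2) is isomorphic to S_3. -/
theorem result {F : Type*} [Field F] [Fintype F] (hF : Fintype.card F = 2) : Nonempty (Matrix.SpecialLinearGroup (Fin 2) F ≃* Equiv.Perm (Fin 3)) := by
  classical
  have h1 := Cfsg.Agent.Lib.Classical.card_SL hF 2 (by norm_num)
  have h2 := Cfsg.Agent.Lib.Classical.card_center_SL (F := F) 2 (by norm_num)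
  rw [hF] at h2
  norm_num at h2
  simp only [Fin.prod_univ_two, Fin.val_zero, Fin.val_one] at h1
  norm_num at h1
  haveI : Finite (Projectivization F (Fin 2 → F)) := inferInstance
  haveI : Fintype (Projectivization F (Fin 2 → F)) := Fintype.ofFinite _
  have hX : Fintype.card (Projectivization F (Fin 2 → F)) = 3 := by
    rw [← Nat.card_eq_fintype_card, Projectivization.card_of_finrank_two F (Fin 2 → F) (by simp), Nat.card_eq_fintype_card, hF]
  refine Cfsg.Agent.Lib.Classical.Small.perm_of_injective (MulAction.toPermHom (Matrix.SpecialLinearGroup (Fin 2) F) (Projectivization F (Fin 2 → F))) ?_ 3 hX ?_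
  · rw [← MonoidHom.ker_eq_bot_iff, Projectivization.SL_mulAction_ker]
    rw [← Nat.card_eq_fintype_card] at h2
    exact Subgroup.eq_bot_of_card_eq _ h2
  · rw [Nat.card_eq_fintype_card, h1]
    rfl

end Cfsg.Agent.S0250
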