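import Cfsg.Statements.S0251
import Mathlib
import Cfsg.Agent.S0243
import Cfsg.Agent.Lib.Classical.SmallIso

set_option autoImplicit false
open Cfsg

namespace Cfsg.Agent.S0251

/-- PSL_2(3) is isomorphic to A_4. -/
theorem result {F : Type*} [Field F] [Fintype F] (hF : Fintype.card F = 3) : Nonempty (Matrix.ProjectiveSpecialLinearGroup (Fin 2) F ≃* alternatingGroup (Fin 4)) := by
  classical
  have h := Cfsg.Agent.S0243.result hF 2 le_rfl
  simp only [Fin.prod_univ_two, Fin.val_zero, Fin.val_one] at h
  norm_num at h
  haveI : Finite (Projectivization F (Fin 2 → F)) := inferInstance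
  haveI : Fintype (Projectivization F (Fin 2 → F)) := Fintype.ofFinite _
  have hX : Fintype.card (Projectivization F (Fin 2 → F)) = 4 := by
    rw [← Nat.card_eq_fintype_card, Projectivization.card_of_finrank_two F (Fin 2 → F) (by simp), Nat.card_eq_fintype_card, hF]
  exact Cfsg.Agent.Lib.Classical.Small.alt_of_injective Projectivization.PSLAction.toPermHom
    Matrix.ProjectiveSpecialLinearGroup.toPermHom_injective 4 hX (by norm_num) (by
      rw [show Nat.factorial 4 = 24 by rfl, Nat.card_eq_fintype_card]
      omega)

end Cfsg.Agent.S0251
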