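import Cfsg.Statements.S0257
import Mathlib
import Cfsg.Agent.Lib.Classical.Basic
import Cfsg.Agent.Lib.Classical.RingCongr

set_option autoImplicit false
open Cfsg

namespace Cfsg.Agent.S0257

abbrev G3 := Matrix.SpecialLinearGroup (Fin 2) (ZMod 3)

def I3 : G3 := ⟨!![0, 1; -1, 0], by decide⟩
def J3 : G3 := ⟨!![1, 1; 1, -1], by decide⟩

def f0 : QuaternionGroup 2 → G3
  | .a i => I3 ^ i.val
  | .xa i => J3 * I3 ^ i.val

theorem f0_mul : ∀ p q : QuaternionGroup 2, f0 (p * q) = f0 p * f0 q := by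
  decide +kernel

theorem f0_one : f0 1 = 1 := by
  decide +kernel

theorem f0_inj : Function.Injective f0 := by
  decide +kernel

theorem f0_normal : ∀ (g : G3) (q : QuaternionGroup 2), ∃ q', g * f0 q * g⁻¹ = f0 q' := by
  decide +kernel

/-- The embedding of the quaternion group. -/
def fH : QuaternionGroup 2 →* G3 where
  toFun := f0
  map_one' := f0_one
  map_mul' := f0_mul

theorem card_G3 : Nat.card G3 = 24 := by
  change Nat.card (Matrix.SpecialLinearGroup (Fin 2) (ZMod 3)) = 24
  have h := Cfsg.Agent.Lib.Classical.card_SL (F := ZMod 3) (q := 3) (ZMod.card 3) 2 (by norm_num)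
  rw [Fin.prod_univ_two] at h
  have e2 : (3 ^ 2 - 3 ^ ((0 : Fin 2) : ℕ)) * (3 ^ 2 - 3 ^ ((1 : Fin 2) : ℕ)) = 48 := by norm_num
  rw [e2] at h
  omega

/-- SL_2(3) has a normal subgroup of index 3 isomorphic to the quaternion group of order 8, and its centre has order 2. -/
theorem result {F : Type*} [Field F] [Fintype F] (hF : Fintype.card F = 3) : (∃ Q : Subgroup (Matrix.SpecialLinearGroup (Fin 2) F), Q.Normal ∧ Q.index = 3 ∧ Nonempty (Q ≃* QuaternionGroup 2)) ∧ Nat.card (Subgroup.center (Matrix.SpecialLinearGroup (Fin 2) F)) = 2 := by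
  classical
  constructor
  · let e : ZMod 3 ≃+* F := ZMod.ringEquivOfPrime F Nat.prime_three hF
    let e' : G3 ≃* Matrix.SpecialLinearGroup (Fin 2) F := Cfsg.Agent.Lib.Classical.RC.slCongr e
    let Q0 : Subgroup G3 := fH.range
    have hQ0 : Q0.Normal := by
      constructor
      rintro _ ⟨q, rfl⟩ g
      obtain ⟨q', hq'⟩ := f0_normal g q
      exact ⟨q', hq'.symm⟩
    have hiso : QuaternionGroup 2 ≃* Q0 := MonoidHom.ofInjective f0_inj
    have hc : Nat.card Q0 = 8 := by
      rw [← Nat.card_congr hiso.toEquiv, Nat.card_eq_fintype_card, QuaternionGroup.card]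
    have hidx0 : Q0.index = 3 := by
      have := Subgroup.card_mul_index Q0
      rw [hc, card_G3] at this
      omega
    refine ⟨Q0.map e'.toMonoidHom, ?_, ?_, ?_⟩
    · exact hQ0.map _ e'.surjective
    · rw [Subgroup.index_map_of_bijective (f := e'.toMonoidHom) e'.bijective]
      exact hidx0
    · exact ⟨(MulEquiv.subgroupMap e' Q0).symm.trans hiso.symm⟩
  · rw [Cfsg.Agent.Lib.Classical.card_center_SL 2 (by norm_num), hF]
    norm_num

end Cfsg.Agent.S0257
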