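import Cfsg.Statements.S0261
import Mathlib
import Cfsg.Agent.Lib.Classical.QuatSL2

set_option autoImplicit false
open Cfsg

namespace Cfsg.Agent.S0261

/-- For q odd, the Sylow 2-subgroups of SL_2(q) are generalised quaternion. -/
theorem result {F : Type*} [Field F] [Fintype F] (hF : Odd (Fintype.card F)) (P : Sylow 2 (Matrix.SpecialLinearGroup (Fin 2) F)) : ∃ k : ℕ, 1 ≤ k ∧ Nonempty ((P : Subgroup (Matrix.SpecialLinearGroup (Fin 2) F)) ≃* QuaternionGroup (2 ^ k)) := by
  classical
  have h1 : Fintype.card F % 4 = 1 ∨ Fintype.card F % 4 = 3 := by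
    obtain ⟨k, hk⟩ := hF
    omega
  rcases h1 with h | h
  · exact Cfsg.Agent.Lib.Classical.Quat.sylow_case_one h P
  · exact Cfsg.Agent.Lib.Classical.Quat.sylow_case_three h P

end Cfsg.Agent.S0261
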