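import Cfsg.Statements.S0262
import Mathlib
import Cfsg.Agent.Lib.Classical.Tori

set_option autoImplicit false
open Cfsg

namespace Cfsg.Agent.S0262

/-- For an odd prime r different from the characteristic, the Sylow r-subgroups of SL_2(q) are cyclic. -/
theorem result {F : Type*} [Field F] [Fintype F] (p : ℕ) [Fact p.Prime] [CharP F p] (r : ℕ) [Fact r.Prime] (hr : r ≠ 2) (hrp : r ≠ p) (R : Sylow r (Matrix.SpecialLinearGroup (Fin 2) F)) : IsCyclic (R : Subgroup (Matrix.SpecialLinearGroup (Fin 2) F)) := by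
  classical
  have hr' : r.Prime := Fact.out
  set q := Fintype.card F with hq
  have hq1 : 1 < q := Fintype.one_lt_card
  obtain ⟨f, hf, hqp⟩ := Cfsg.Agent.Lib.Classical.card_F_pos_pow (F := F) (p := p)
  have hrq : ¬ r ∣ q := by
    intro h
    rw [hq, hqp] at h
    exact hrp ((Nat.prime_dvd_prime_iff_eq hr' Fact.out).mp (hr'.dvd_of_dvd_pow h))
  have hcard : Nat.card (Matrix.SpecialLinearGroup (Fin 2) F) = q * ((q - 1) * (q + 1)) :=
    Cfsg.Agent.Lib.Classical.card_SL2
  have hq0 : q ≠ 0 := by omega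
  have hq10 : q - 1 ≠ 0 := by omega
  have hq20 : q + 1 ≠ 0 := by omega
  have hfac : (Nat.card (Matrix.SpecialLinearGroup (Fin 2) F)).factorization r =
      (q - 1).factorization r + (q + 1).factorization r := by
    rw [hcard, Nat.factorization_mul hq0 (mul_ne_zero hq10 hq20), Nat.factorization_mul hq10 hq20]
    simp [Nat.factorization_eq_zero_of_not_dvd hrq]
  by_cases h1 : r ∣ q + 1
  · have h2 : ¬ r ∣ q - 1 := by
      intro h2
      have h3 : r ∣ 2 := by
        have := Nat.dvd_sub h1 h2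
        rwa [show q + 1 - (q - 1) = 2 by omega] at this
      exact hr ((Nat.prime_dvd_prime_iff_eq hr' Nat.prime_two).mp h3)
    obtain ⟨T, hT, hTc⟩ := Cfsg.Agent.Lib.Classical.Tori.exists_nonsplit_torus (F := F)
    apply Cfsg.Agent.Lib.Classical.Tori.sylow_cyclic r T hT
    rw [hTc, hfac, Nat.factorization_eq_zero_of_not_dvd h2, zero_add]
  · obtain ⟨T, hT, hTc⟩ := Cfsg.Agent.Lib.Classical.Tori.exists_split_torus (F := F)
    apply Cfsg.Agent.Lib.Classical.Tori.sylow_cyclic r T hT
    rw [hTc, hfac, Nat.factorization_eq_zero_of_not_dvd h1, add_zero]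

end Cfsg.Agent.S0262
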