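import Cfsg.Statements.S0263
import Mathlib

set_option autoImplicit false
open Cfsg

namespace Cfsg.Agent.S0263

/-- A Sylow p-subgroup of GL_n(q), p the characteristic, has order q^(n(n-1)/2). -/
theorem result {F : Type*} [Field F] [Fintype F] {q : ℕ} (hF : Fintype.card F = q) (p : ℕ) [Fact p.Prime] [CharP F p] (n : ℕ) (P : Sylow p (Matrix.GeneralLinearGroup (Fin n) F)) : Nat.card P = q ^ (n * (n - 1) / 2) := by
  classical
  obtain ⟨f, -, hfq⟩ := FiniteField.card F p
  have hp : p.Prime := Fact.out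
  have hq1 : 1 < q := by rw [← hF]; exact Fintype.one_lt_card
  have hq : q = p ^ (f : ℕ) := by rw [← hF, hfq]
  have hdvdq : p ∣ q := by rw [hq]; exact dvd_pow_self p (f.pos.ne')
  have hcard : Nat.card (Matrix.GeneralLinearGroup (Fin n) F) = q ^ (n * (n - 1) / 2) * ∏ i : Fin n, (q ^ (n - (i : ℕ)) - 1) := by
    rw [Matrix.card_GL_field, hF]
    have h1 : ∀ i : Fin n, q ^ n - q ^ (i : ℕ) = q ^ (i : ℕ) * (q ^ (n - (i : ℕ)) - 1) := by
      intro i
      rw [Nat.mul_sub, mul_one, ← pow_add, Nat.add_sub_cancel' i.2.le]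
    simp_rw [h1]
    rw [Finset.prod_mul_distrib, Finset.prod_pow_eq_pow_sum]
    congr 2
    rw [Fin.sum_univ_eq_sum_range (fun i => i) n, Finset.sum_range_id, mul_comm]
  have hM : ¬ p ∣ ∏ i : Fin n, (q ^ (n - (i : ℕ)) - 1) := by
    intro h
    obtain ⟨i, -, hi⟩ := (Prime.dvd_finset_prod_iff hp.prime _).mp h
    have h2 : p ∣ q ^ (n - (i : ℕ)) := dvd_trans hdvdq (dvd_pow_self q (by have := i.2; omega))
    have h3 : 1 ≤ q ^ (n - (i : ℕ)) := Nat.one_le_pow _ _ (by omega)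
    have h4 : p ∣ 1 := by
      have := (Nat.dvd_sub h2 hi)
      rwa [Nat.sub_sub_self h3] at this
    exact hp.one_lt.ne' (Nat.dvd_one.mp h4)
  have hM0 : (∏ i : Fin n, (q ^ (n - (i : ℕ)) - 1)) ≠ 0 := fun h => hM (h ▸ dvd_zero p)
  rw [Sylow.card_eq_multiplicity, hcard, Nat.factorization_mul (pow_ne_zero _ (by omega)) hM0]
  simp only [Finsupp.add_apply, Nat.factorization_eq_zero_of_not_dvd hM, add_zero, Nat.factorization_pow, Finsupp.smul_apply, smul_eq_mul]
  rw [hq, Nat.factorization_pow]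
  simp [hp.factorization_self, ← pow_mul, mul_comm]

end Cfsg.Agent.S0263
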