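import Cfsg.Statements.S0264
import Mathlib
import Cfsg.Agent.Lib.Classical.Transvection

set_option autoImplicit false
open Cfsg
open scoped MatrixGroups commutatorElement

namespace Cfsg.Agent.S0264

/-- GL_n(F)' = SL_n(F) (as the kernel of det), for every field F and every n, except n = 2 over the field of two elements. -/
theorem result {F : Type*} [Field F] (n : ℕ) (h : n = 2 → ∃ a : F, a ≠ 0 ∧ a ≠ 1) : commutator (Matrix.GeneralLinearGroup (Fin n) F) = (Matrix.GeneralLinearGroup.det : Matrix.GeneralLinearGroup (Fin n) F →* Fˣ).ker := by
  classical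
  apply le_antisymm
  · rw [commutator_def, Subgroup.commutator_le]
    intro g _ h _
    rw [MonoidHom.mem_ker, map_commutatorElement, commutatorElement_eq_one_iff_mul_comm]
    exact mul_comm _ _
  · intro g hg
    have hdet : (g : Matrix (Fin n) (Fin n) F).det = 1 := by
      rw [MonoidHom.mem_ker] at hg
      simpa using congrArg Units.val hg
    let s : Matrix.SpecialLinearGroup (Fin n) F := ⟨(g : Matrix (Fin n) (Fin n) F), hdet⟩
    have hs : g = Matrix.SpecialLinearGroup.toGL s := by ext; rfl
    rw [hs]
    by_cases hn2 : 2 ≤ n
    · have : Nontrivial (Fin n) := Fin.nontrivial_iff_two_le.mpr hn2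
      refine Cfsg.Agent.Lib.Classical.transvection_induction
        (fun x => Matrix.SpecialLinearGroup.toGL x ∈ commutator (Matrix.GeneralLinearGroup (Fin n) F)) s
        (fun i j hij a => ?_) (fun A B hA hB => by rw [map_mul]; exact mul_mem hA hB)
      by_cases hn3 : 3 ≤ n
      · have hperf := Cfsg.Agent.Lib.Classical.commutator_SL_eq_top (ι := Fin n) (F := F) (by simpa using hn3)
        have : Matrix.SpecialLinearGroup.transvection hij a ∈ commutator (Matrix.SpecialLinearGroup (Fin n) F) := by
          rw [hperf]; trivial
        have h2 := Subgroup.mem_map_of_mem (Matrix.SpecialLinearGroup.toGL (n := Fin n) (R := F)) this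
        rw [commutator_def, Subgroup.map_commutator] at h2
        exact Subgroup.commutator_mono le_top le_top h2
      · obtain rfl : n = 2 := by omega
        obtain ⟨x, hx, hx1⟩ := h rfl
        -- D = diag(x,1)
        let f : Fin 2 → Fˣ := fun k => if k = i then Units.mk0 x hx else 1
        let D : Matrix.GeneralLinearGroup (Fin 2) F :=
          ⟨Matrix.diagonal (fun k => ((f k : Fˣ) : F)), Matrix.diagonal (fun k => ((f k)⁻¹ : Fˣ)),
            by simp [Matrix.diagonal_mul_diagonal, ← Matrix.diagonal_one], by simp [Matrix.diagonal_mul_diagonal, ← Matrix.diagonal_one]⟩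
        have key : ⁅D, Matrix.SpecialLinearGroup.toGL (Matrix.SpecialLinearGroup.transvection hij (a / (x - 1)))⁆ =
            Matrix.SpecialLinearGroup.toGL (Matrix.SpecialLinearGroup.transvection hij a) := by
          rw [commutatorElement_def, ← map_inv, Matrix.SpecialLinearGroup.transvection_inv]
          ext k l
          have hx' : x - 1 ≠ 0 := sub_ne_zero_of_ne hx1
          have hxi : x * x⁻¹ = 1 := mul_inv_cancel₀ hx
          have hxi' : x⁻¹ * x = 1 := inv_mul_cancel₀ hx
          change (Matrix.diagonal (fun k => ((f k : Fˣ) : F)) * (1 + Matrix.single i j (a / (x - 1))) * Matrix.diagonal (fun k => (((f k)⁻¹ : Fˣ) : F)) * (1 + Matrix.single i j (-(a / (x - 1))))) k l = (1 + Matrix.single i j a) k l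
          have hfi : ∀ k, ((f k : Fˣ) : F) = if k = i then x else 1 := by
            intro k; simp only [f]; split_ifs <;> simp
          have hfi' : ∀ k, (((f k)⁻¹ : Fˣ) : F) = if k = i then x⁻¹ else 1 := by
            intro k; simp only [f]; split_ifs <;> simp
          simp only [Cfsg.Agent.Lib.Classical.mul_one_add_single_apply, Matrix.mul_diagonal, Matrix.add_apply, Matrix.one_apply, Matrix.single_apply, Matrix.diagonal_apply, hfi, hfi']
          have e : a / (x - 1) * (x - 1) = a := div_mul_cancel₀ a hx'
          generalize a / (x - 1) = b at *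
          have hij' : i ≠ j := hij
          subst e
          grind
        rw [← key]
        exact Subgroup.commutator_mem_commutator (Subgroup.mem_top _) (Subgroup.mem_top _)
    · have : s = 1 := by
        apply Subtype.ext
        ext i j
        have hnle : n ≤ 1 := by omega
        obtain rfl : n = 1 := by
          have := i.pos; omega
        obtain rfl : i = 0 := Subsingleton.elim _ _
        obtain rfl : j = 0 := Subsingleton.elim _ _
        simpa [Matrix.det_fin_one] using hdet
      rw [this, map_one]
      exact one_mem _

end Cfsg.Agent.S0264
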