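import Cfsg.Statements.S0267
import Mathlib
import Cfsg.Agent.Lib.Classical.PGL2

set_option autoImplicit false
open Cfsg

namespace Cfsg.Agent.S0267

/-- SL_2(q) is 3-transitive on the q+1 points of the projective line if and only if q is even. -/
theorem result {F : Type*} [Field F] [Fintype F] : MulAction.IsMultiplyPretransitive (Matrix.SpecialLinearGroup (Fin 2) F) (Projectivization F (Fin 2 → F)) 3 ↔ ringChar F = 2 := by
  classical
  open Cfsg.Agent.Lib.Classical.PGL2 in
  constructor
  · intro htrans
    by_contra hchar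
    obtain ⟨d, hd⟩ := FiniteField.exists_nonsquare hchar
    have hd0 : d ≠ 0 := by
      rintro rfl
      exact hd (IsSquare.zero)
    -- the diagonal element
    let G : GL (Fin 2) F := Matrix.GeneralLinearGroup.mkOfDetNeZero !![d, 0; 0, 1] (by
      simp [Matrix.det_fin_two, hd0])
    have hG : (G : Matrix (Fin 2) (Fin 2) F) = !![d, 0; 0, 1] := rfl
    have hG0 : G • (q0 : Projectivization F (Fin 2 → F)) = q0 := by
      rw [q0, Projectivization.smul_mk, Projectivization.mk_eq_mk_iff']
      refine ⟨d, ?_⟩
      funext i
      rw [gl_smul_vec, hG]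
      fin_cases i <;> simp [Matrix.mulVec, dotProduct, Fin.sum_univ_two]
    have hG1 : G • (q1 : Projectivization F (Fin 2 → F)) = q1 := by
      rw [q1, Projectivization.smul_mk, Projectivization.mk_eq_mk_iff']
      refine ⟨1, ?_⟩
      funext i
      rw [gl_smul_vec, hG]
      fin_cases i <;> simp [Matrix.mulVec, dotProduct, Fin.sum_univ_two]
    let x := triple (q0 : Projectivization F (Fin 2 → F)) q1 p2 q0_ne_q1 q0_ne_p2 q1_ne_p2
    let y := triple (q0 : Projectivization F (Fin 2 → F)) q1 (G • p2) q0_ne_q1
      (by
        intro h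
        apply q0_ne_p2 (F := F)
        rw [← hG0] at h
        exact smul_left_cancel G h)
      (by
        intro h
        apply q1_ne_p2 (F := F)
        rw [← hG1] at h
        exact smul_left_cancel G h)
    obtain ⟨A, hA⟩ := htrans.exists_smul_eq x y
    have hA' : ∀ i, A • x i = y i := fun i => by
      rw [← hA]
      rfl
    have hAG : ∀ p : Projectivization F (Fin 2 → F), (Matrix.SpecialLinearGroup.toGL A) • p = A • p := by
      intro p
      symm
      exact sl_smul_eq A (Matrix.SpecialLinearGroup.toGL A) 1 one_ne_zero (by simp) p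
    have key : ∃ α : F, (((G⁻¹ * Matrix.SpecialLinearGroup.toGL A : GL (Fin 2) F)) : Matrix (Fin 2) (Fin 2) F) =
        α • (1 : Matrix (Fin 2) (Fin 2) F) := by
      apply fix_std
      · rw [mul_smul, hAG]
        have := hA' 0
        change A • (q0 : Projectivization F (Fin 2 → F)) = q0 at this
        rw [this, inv_smul_eq_iff, hG0]
      · rw [mul_smul, hAG]
        have := hA' 1
        change A • (q1 : Projectivization F (Fin 2 → F)) = q1 at this
        rw [this, inv_smul_eq_iff, hG1]
      · rw [mul_smul, hAG]
        have := hA' 2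
        change A • (p2 : Projectivization F (Fin 2 → F)) = G • p2 at this
        rw [this, inv_smul_smul]
    obtain ⟨α, hα⟩ := key
    have hAmat : (A : Matrix (Fin 2) (Fin 2) F) = α • (G : Matrix (Fin 2) (Fin 2) F) := by
      have h1 : Matrix.SpecialLinearGroup.toGL A = G * (G⁻¹ * Matrix.SpecialLinearGroup.toGL A) := by group
      have h2 := congrArg (fun g : GL (Fin 2) F => (g : Matrix (Fin 2) (Fin 2) F)) h1
      simp only [Units.val_mul, hα] at h2
      rw [Matrix.mul_smul, Matrix.mul_one] at h2
      exact h2
    have hdet : α ^ 2 * d = 1 := by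
      have := A.2
      rw [hAmat, hG, Matrix.det_smul, Matrix.det_fin_two] at this
      simpa using this
    apply hd
    have hα0 : α ≠ 0 := by
      rintro rfl
      simp at hdet
    refine ⟨α⁻¹, ?_⟩
    field_simp
    linear_combination hdet
  · intro hchar
    refine ⟨fun x y => ?_⟩
    obtain ⟨g, hg⟩ := pgl_three_trans x y
    obtain ⟨s, hs⟩ := FiniteField.isSquare_of_char_two hchar (Matrix.det (g : Matrix (Fin 2) (Fin 2) F))
    have hs0 : s ≠ 0 := by
      rintro rfl
      exact g.det_ne_zero (by simpa using hs)
    let A : Matrix.SpecialLinearGroup (Fin 2) F := ⟨s⁻¹ • (g : Matrix (Fin 2) (Fin 2) F), by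
      rw [Matrix.det_smul, hs]
      simp
      field_simp⟩
    refine ⟨A, ?_⟩
    ext i
    rw [Function.Embedding.smul_apply, sl_smul_eq A g s⁻¹ (inv_ne_zero hs0) rfl, hg]

end Cfsg.Agent.S0267
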