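import Cfsg.Statements.S0268
import Mathlib

set_option autoImplicit false
open Cfsg

namespace Cfsg.Agent.S0268

/-- For q odd, -1 is the unique involution of SL_2(q). -/
theorem result {F : Type*} [Field F] [Fintype F] (hF : Odd (Fintype.card F)) (g : Matrix.SpecialLinearGroup (Fin 2) F) (h1 : g ≠ 1) (h2 : g * g = 1) : (g : Matrix (Fin 2) (Fin 2) F) = -1 := by
  have h2F : (2 : F) ≠ 0 := by
    intro h0
    have hc : ringChar F = 2 := by
      have := CharP.ringChar_of_prime_eq_zero (R := F) Nat.prime_two (by exact_mod_cast h0)
      exact this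
    have := FiniteField.even_card_of_char_two hc
    exact (Nat.not_even_iff_odd.mpr hF) (Nat.even_iff.mpr this)
  -- g^2 = 1, det 1 so g = g⁻¹ = adjugate
  have hmat : (g : Matrix (Fin 2) (Fin 2) F) * g = 1 := by
    have := congrArg (fun x : Matrix.SpecialLinearGroup (Fin 2) F => (x : Matrix (Fin 2) (Fin 2) F)) h2
    simpa using this
  have hdet : (g : Matrix (Fin 2) (Fin 2) F).det = 1 := g.2
  rw [Matrix.det_fin_two] at hdet
  set a := (g : Matrix (Fin 2) (Fin 2) F) 0 0
  set b := (g : Matrix (Fin 2) (Fin 2) F) 0 1
  set c := (g : Matrix (Fin 2) (Fin 2) F) 1 0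
  set d := (g : Matrix (Fin 2) (Fin 2) F) 1 1
  have e00 : a * a + b * c = 1 := by
    have := congrFun (congrFun hmat 0) 0
    simpa [Matrix.mul_apply, Fin.sum_univ_two] using this
  have e01 : a * b + b * d = 0 := by
    have := congrFun (congrFun hmat 0) 1
    simpa [Matrix.mul_apply, Fin.sum_univ_two] using this
  have e10 : c * a + d * c = 0 := by
    have := congrFun (congrFun hmat 1) 0
    simpa [Matrix.mul_apply, Fin.sum_univ_two] using this
  have e11 : c * b + d * d = 1 := by
    have := congrFun (congrFun hmat 1) 1
    simpa [Matrix.mul_apply, Fin.sum_univ_two] using this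
  -- from these: (a + d) b = 0, (a + d) c = 0, a^2 - d^2 = 0
  have hcases : a + d = 0 ∨ (b = 0 ∧ c = 0 ∧ a = d) := by
    by_cases h : a + d = 0
    · exact Or.inl h
    · right
      have hb : b = 0 := by
        have : (a + d) * b = 0 := by linear_combination e01
        exact (mul_eq_zero.mp this).resolve_left h
      have hc : c = 0 := by
        have : (a + d) * c = 0 := by linear_combination e10
        exact (mul_eq_zero.mp this).resolve_left h
      have hd : (a + d) * (a - d) = 0 := by linear_combination e00 - e11
      exact ⟨hb, hc, sub_eq_zero.mp ((mul_eq_zero.mp hd).resolve_left h)⟩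
  rcases hcases with h0 | ⟨hb, hc, had⟩
  · -- trace 0, det 1 gives a^2 + bc = -1 contradiction with a^2+bc = 1
    exfalso
    have : (2 : F) = 0 := by
      have hd' : d = -a := by linear_combination h0
      rw [hd'] at hdet
      linear_combination -e00 - hdet
    exact h2F this
  · -- scalar a, a^2 = 1, a ≠ 1
    have ha2 : (a - 1) * (a + 1) = 0 := by
      rw [hb] at e00; linear_combination e00
    have ha : a = -1 := by
      rcases mul_eq_zero.mp ha2 with h1 | h1
      · exfalso
        rename' h1 => hh
        have ha1 : a = 1 := sub_eq_zero.mp hh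
        apply ‹g ≠ 1›
        ext i j
        fin_cases i <;> fin_cases j <;> simp
        · exact ha1
        · exact hb
        · exact hc
        · show d = 1
          rw [← had, ha1]
      · linear_combination h1
    ext i j
    fin_cases i <;> fin_cases j <;> simp
    · exact ha
    · exact hb
    · exact hc
    · show d = -1
      rw [← had, ha]

end Cfsg.Agent.S0268
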