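import Cfsg.Statements.S0273
import Mathlib
import Cfsg.Agent.Lib.Classical.GL2Sylow

set_option autoImplicit false
open Cfsg

namespace Cfsg.Agent.S0273

open Matrix Matrix.SpecialLinearGroup
open scoped MatrixGroups LinearAlgebra.Projectivization Pointwise
open Cfsg.Agent.Lib.Classical

variable {F : Type*} [Field F] [Fintype F]

/-- Upper triangular matrices with equal diagonal. -/
noncomputable def tri (u : Fˣ) (y : F) : GeneralLinearGroup (Fin 2) F :=
  Matrix.GeneralLinearGroup.mkOfDetNeZero !![(u : F), y; 0, (u : F)] (by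
    simp [Matrix.det_fin_two])

lemma tri_coe (u : Fˣ) (y : F) : (tri u y : Matrix (Fin 2) (Fin 2) F) = !![(u : F), y; 0, (u : F)] := rfl

lemma card_centralizer_T (c : F) (hc : c ≠ 0) (T : GeneralLinearGroup (Fin 2) F)
    (hT : (T : Matrix (Fin 2) (Fin 2) F) = !![1, c; 0, 1]) :
    Nat.card (Subgroup.centralizer ({T} : Set (GeneralLinearGroup (Fin 2) F))) =
      Fintype.card F * (Fintype.card F - 1) := by
  classical
  have hmem : ∀ A : GeneralLinearGroup (Fin 2) F,
      A ∈ Subgroup.centralizer ({T} : Set (GeneralLinearGroup (Fin 2) F)) ↔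
        (A : Matrix (Fin 2) (Fin 2) F) 1 0 = 0 ∧
        (A : Matrix (Fin 2) (Fin 2) F) 0 0 = (A : Matrix (Fin 2) (Fin 2) F) 1 1 := by
    intro A
    rw [Subgroup.mem_centralizer_singleton_iff]
    constructor
    · intro h
      have h' := congrArg (fun g : GeneralLinearGroup (Fin 2) F => (g : Matrix (Fin 2) (Fin 2) F)) h
      simp only [Units.val_mul, hT] at h'
      have h00 := congrFun (congrFun h' 0) 0
      have h01 := congrFun (congrFun h' 0) 1
      simp [Matrix.mul_apply, Fin.sum_univ_two] at h00 h01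
      have h1 : (A : Matrix (Fin 2) (Fin 2) F) 1 0 = 0 := by
        rcases h00 with h | h
        · exact absurd h hc
        · exact h
      refine ⟨h1, ?_⟩
      have : c * ((A : Matrix (Fin 2) (Fin 2) F) 0 0 - (A : Matrix (Fin 2) (Fin 2) F) 1 1) = 0 := by
        linear_combination h01
      rcases mul_eq_zero.mp this with h | h
      · exact absurd h hc
      · exact sub_eq_zero.mp h
    · rintro ⟨h1, h2⟩
      apply Units.ext
      simp only [Units.val_mul, hT]
      ext i j
      fin_cases i <;> fin_cases j <;> simp [Matrix.mul_apply, Fin.sum_univ_two, h1, h2]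
      ring
  let f : Fˣ × F → Subgroup.centralizer ({T} : Set (GeneralLinearGroup (Fin 2) F)) := fun uy =>
    ⟨tri uy.1 uy.2, (hmem _).mpr (by simp [tri_coe])⟩
  have hf : Function.Bijective f := by
    constructor
    · rintro ⟨u, y⟩ ⟨v, z⟩ h
      have h' := congrArg (fun g : Subgroup.centralizer ({T} : Set (GeneralLinearGroup (Fin 2) F)) =>
        ((g.1 : GeneralLinearGroup (Fin 2) F) : Matrix (Fin 2) (Fin 2) F)) h
      simp only [f, tri_coe] at h'
      have h00 := congrFun (congrFun h' 0) 0
      have h01 := congrFun (congrFun h' 0) 1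
      simp at h00 h01
      exact Prod.ext (Units.ext h00) h01
    · rintro ⟨A, hA⟩
      obtain ⟨h1, h2⟩ := (hmem A).mp hA
      have hdet : (A : Matrix (Fin 2) (Fin 2) F) 0 0 ≠ 0 := by
        intro h0
        have hd := A.det_ne_zero
        rw [Matrix.det_fin_two, h0, h1] at hd
        simp at hd
      refine ⟨(Units.mk0 _ hdet, (A : Matrix (Fin 2) (Fin 2) F) 0 1), ?_⟩
      apply Subtype.ext
      apply Units.ext
      change !![(A : Matrix (Fin 2) (Fin 2) F) 0 0, (A : Matrix (Fin 2) (Fin 2) F) 0 1; 0,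
        (A : Matrix (Fin 2) (Fin 2) F) 0 0] = (A : Matrix (Fin 2) (Fin 2) F)
      ext i j
      fin_cases i <;> fin_cases j <;> simp [h1, h2]
  rw [← Nat.card_congr (Equiv.ofBijective f hf), Nat.card_prod, Nat.card_eq_fintype_card (α := F),
    Nat.card_units, Nat.card_eq_fintype_card (α := F), mul_comm]

/-- In GL_2(q) the centraliser of a non-trivial element of a Sylow p-subgroup (p the characteristic) has order q (q-1): the Sylow subgroup times the scalars. -/
theorem result {F : Type*} [Field F] [Fintype F] {q : ℕ} (hF : Fintype.card F = q) (p : ℕ) [Fact p.Prime] [CharP F p] (P : Sylow p (Matrix.GeneralLinearGroup (Fin 2) F)) (a : Matrix.GeneralLinearGroup (Fin 2) F) (ha : a ∈ P) (ha1 : a ≠ 1) : Nat.card (Subgroup.centralizer ({a} : Set (Matrix.GeneralLinearGroup (Fin 2) F))) = q * (q - 1) := by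
  classical
  subst hF
  -- conjugate `P` to the standard Sylow subgroup
  obtain ⟨g, hg⟩ := MulAction.exists_smul_eq (GeneralLinearGroup (Fin 2) F) P
    (sylowGL2 p (p0 : ℙ F (Fin 2 → F)))
  have hmem : g * a * g⁻¹ ∈ ((sylowGL2 p (p0 : ℙ F (Fin 2 → F)) : Sylow p (GeneralLinearGroup (Fin 2) F)) :
      Subgroup (GeneralLinearGroup (Fin 2) F)) := by
    rw [← hg]
    exact ⟨a, ha, rfl⟩
  obtain ⟨A, hA, hAa⟩ := hmem
  obtain ⟨c, hc⟩ := mem_UU_p0.mp hA
  have hc0 : c ≠ 0 := by
    rintro rfl
    apply ha1
    have h1 : A = 1 := by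
      rw [hc]
      ext i j
      fin_cases i <;> fin_cases j <;> simp [Matrix.SpecialLinearGroup.transvection, Matrix.transvection]
    rw [h1, map_one] at hAa
    have := congrArg (fun x => g⁻¹ * x * g) hAa
    simpa [mul_assoc] using this.symm
  have hT : ((g * a * g⁻¹ : GeneralLinearGroup (Fin 2) F) : Matrix (Fin 2) (Fin 2) F) = !![1, c; 0, 1] := by
    rw [← hAa]
    change (A : Matrix (Fin 2) (Fin 2) F) = _
    rw [hc]
    ext i j
    fin_cases i <;> fin_cases j <;> simp [Matrix.SpecialLinearGroup.transvection, Matrix.transvection]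
  rw [← card_centralizer_T c hc0 _ hT]
  apply Nat.card_congr
  refine Equiv.subtypeEquiv (MulAut.conj g).toEquiv ?_
  intro x
  simp only [Subgroup.mem_centralizer_singleton_iff, MulEquiv.toEquiv_eq_coe, EquivLike.coe_coe, MulAut.conj_apply]
  constructor
  · intro h
    have : g * x * g⁻¹ * (g * a * g⁻¹) = g * (x * a) * g⁻¹ := by group
    rw [this, h]
    group
  · intro h
    have : x * a = g⁻¹ * ((g * x * g⁻¹) * (g * a * g⁻¹)) * g := by group
    rw [this, h]
    group

end Cfsg.Agent.S0273
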