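import Cfsg.Statements.S0800
import Mathlib
import Cfsg.Agent.Lib.Classical.QuadPoly

set_option autoImplicit false
open Cfsg

namespace Cfsg.Agent.S0800

/-- Tori of SL_2(q): if g ∈ SL_2(q) has order coprime to the characteristic p, then the order of g divides q − 1 or q + 1. -/
theorem result {F : Type*} [Field F] [Fintype F] {q : ℕ} (hF : Fintype.card F = q) (p : ℕ) [Fact p.Prime] [CharP F p] (g : Matrix.SpecialLinearGroup (Fin 2) F) (hg : Nat.Coprime (orderOf g) p) : orderOf g ∣ q - 1 ∨ orderOf g ∣ q + 1 := by
  classical
  open Cfsg.Agent.Lib.Classical Polynomial in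
  set M : Matrix (Fin 2) (Fin 2) F := (g : Matrix (Fin 2) (Fin 2) F) with hM
  set t : F := M 0 0 + M 1 1 with ht
  have hdet : M 0 0 * M 1 1 - M 0 1 * M 1 0 = 1 := by
    have := g.2
    rwa [Matrix.det_fin_two] at this
  -- Cayley-Hamilton
  have hCH' : M * M = t • M - 1 := by
    ext i j
    fin_cases i <;> fin_cases j <;>
      simp [Matrix.mul_apply, Fin.sum_univ_two, Matrix.one_apply] <;> (try simp only [ht]) <;>
      first
      | ring1
      | linear_combination hdet
      | linear_combination (-1 : F) * hdet
  have hCH : aeval M (Cfsg.Agent.Lib.Classical.qpoly t) = 0 := by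
    simp only [Cfsg.Agent.Lib.Classical.qpoly, map_add, map_sub, map_mul, map_pow, aeval_X, aeval_C, map_one]
    rw [pow_two, hCH', Algebra.algebraMap_eq_smul_one, Matrix.smul_mul, Matrix.one_mul]
    abel
  have hpow : ∀ n : ℕ, (Cfsg.Agent.Lib.Classical.qpoly t) ∣ X ^ n - 1 → g ^ n = 1 := by
    intro n hn
    obtain ⟨r, hr⟩ := hn
    have h := congrArg (aeval M) hr
    simp only [map_sub, map_pow, aeval_X, map_one, map_mul, hCH, zero_mul] at h
    apply Subtype.ext
    simp only [Matrix.SpecialLinearGroup.coe_pow, Matrix.SpecialLinearGroup.coe_one]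
    exact sub_eq_zero.mp h
  have hq1 : 1 < q := by rw [← hF]; exact Fintype.one_lt_card
  by_cases hroot : ∃ a : F, (Cfsg.Agent.Lib.Classical.qpoly t).eval a = 0
  · obtain ⟨a, ha⟩ := hroot
    have ha0 : a ≠ 0 := by
      rintro rfl
      simp [Cfsg.Agent.Lib.Classical.qpoly_eval] at ha
    by_cases hne : a = a⁻¹
    · -- double root
      have ha2 : a * a = 1 := by
        nth_rewrite 2 [hne]; exact mul_inv_cancel₀ ha0
      have ht' : t = a + a := by
        rw [Cfsg.Agent.Lib.Classical.qpoly_eval] at ha
        have : a * t = a * (a + a) := by linear_combination -ha - ha2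
        exact mul_left_cancel₀ ha0 this
      -- N = M - a satisfies N^2 = 0
      set N : Matrix (Fin 2) (Fin 2) F := M - a • 1 with hN
      have hN2 : N * N = 0 := by
        have h1 : M * M = (a + a) • M - 1 := by rw [hCH', ht']
        have h2 : N * N = M * M - (a + a) • M + (a * a) • 1 := by
          simp only [hN, Matrix.sub_mul, Matrix.mul_sub, Matrix.smul_mul, Matrix.mul_smul, Matrix.one_mul, Matrix.mul_one, smul_smul, add_smul, smul_sub]
          abel
        rw [h2, h1, ha2, one_smul]
        abel
      have hMpow : ∀ k : ℕ, M ^ k = a ^ k • (1 : Matrix (Fin 2) (Fin 2) F) + ((k : F) * a ^ (k - 1)) • N := by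
        intro k
        induction k with
        | zero => simp
        | succ k ih =>
          rw [pow_succ, ih]
          have hMe : M = a • 1 + N := by rw [hN]; abel
          rw [hMe]
          simp only [Matrix.add_mul, Matrix.mul_add, Matrix.smul_mul, Matrix.mul_smul, Matrix.one_mul, Matrix.mul_one, hN2, smul_zero, add_zero, smul_smul]
          rcases k with _ | k
          · simp
          · simp only [Nat.add_sub_cancel, Nat.cast_add, Nat.cast_one, smul_add, smul_smul]
            rw [show a * a ^ (k + 1) = a ^ (k + 1 + 1) by ring]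
            have : (a * (((k : F) + 1) * a ^ k) + a ^ (k + 1)) = ((k : F) + 1 + 1) * a ^ (k + 1) := by ring
            rw [add_assoc, ← add_smul, this]
      by_cases hN0 : N = 0
      · left
        apply orderOf_dvd_of_pow_eq_one
        apply Subtype.ext
        simp only [Matrix.SpecialLinearGroup.coe_pow, Matrix.SpecialLinearGroup.coe_one]
        rw [← hM, hMpow, hN0, smul_zero, add_zero, ← hF, FiniteField.pow_card_sub_one_eq_one a ha0, one_smul]
      · exfalso
        set k := orderOf g with hk
        have hgk : g ^ k = 1 := pow_orderOf_eq_one g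
        have hMk : M ^ k = 1 := by
          have := congrArg (fun x : Matrix.SpecialLinearGroup (Fin 2) F => (x : Matrix (Fin 2) (Fin 2) F)) hgk
          simpa using this
        have hk0 : 0 < k := by
          apply orderOf_pos_iff.mpr
          exact isOfFinOrder_of_finite g
        rw [hMpow] at hMk
        -- N is not scalar: N has trace zero ... use N * (M^k) = N
        have hNk : (a ^ k) • N = N := by
          have := congrArg (fun Y => N * Y) hMk
          simp only [Matrix.mul_add, Matrix.mul_smul, Matrix.mul_one, hN2, smul_zero, add_zero] at this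
          exact this
        have hak : a ^ k = 1 := by
          by_contra hc
          apply hN0
          have : (a ^ k - 1) • N = 0 := by rw [sub_smul, hNk, one_smul, sub_self]
          exact (smul_eq_zero.mp this).resolve_left (sub_ne_zero.mpr hc)
        rw [hak, one_smul] at hMk
        have hz : ((k : F) * a ^ (k - 1)) • N = 0 := by simpa using hMk
        have hkz : ((k : F) * a ^ (k - 1)) = 0 := (smul_eq_zero.mp hz).resolve_right hN0
        have hk' : (k : F) = 0 := (mul_eq_zero.mp hkz).resolve_right (pow_ne_zero _ ha0)
        have hpk : p ∣ k := (CharP.cast_eq_zero_iff F p k).mp hk'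
        have : p ∣ 1 := by
          have h3 := Nat.dvd_gcd hpk (dvd_refl p)
          rwa [hg] at h3
        exact (Fact.out : p.Prime).one_lt.ne' (Nat.dvd_one.mp this)
    · left
      apply orderOf_dvd_of_pow_eq_one
      apply hpow
      rw [← hF]
      exact Cfsg.Agent.Lib.Classical.qpoly_dvd_of_split t a ha0 ha hne
  · right
    apply orderOf_dvd_of_pow_eq_one
    apply hpow
    rw [← hF]
    apply Cfsg.Agent.Lib.Classical.qpoly_dvd_of_irreducible
    apply Polynomial.irreducible_of_degree_le_three_of_not_isRoot
    · rw [Cfsg.Agent.Lib.Classical.qpoly_natDegree]; norm_num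
    · intro a ha
      exact hroot ⟨a, ha⟩

end Cfsg.Agent.S0800
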