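import Cfsg.Statements.S0276
import Mathlib
import Cfsg.Agent.S0243
import Cfsg.Agent.S0800
import Cfsg.Agent.Lib.Classical.SL2Sylow

set_option autoImplicit false
open Cfsg

namespace Cfsg.Agent.S0276

open Matrix in
private lemma sq_eq_one_center {F : Type*} [Field F] [Fintype F] (h2 : (2 : F) ≠ 0)
    (y : Matrix.SpecialLinearGroup (Fin 2) F) (hy : y ^ 2 = 1) :
    y ∈ Subgroup.center (Matrix.SpecialLinearGroup (Fin 2) F) := by
  classical
  rw [Matrix.SpecialLinearGroup.mem_center_iff]
  set M : Matrix (Fin 2) (Fin 2) F := (y : Matrix (Fin 2) (Fin 2) F) with hM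
  set t : F := M 0 0 + M 1 1 with ht
  have hdet : M 0 0 * M 1 1 - M 0 1 * M 1 0 = 1 := by
    have := y.2
    rwa [Matrix.det_fin_two] at this
  have hCH' : M * M = t • M - 1 := by
    ext i j
    fin_cases i <;> fin_cases j <;>
      simp [Matrix.mul_apply, Fin.sum_univ_two, Matrix.one_apply] <;> (try simp only [ht]) <;>
      first
      | ring1
      | linear_combination hdet
      | linear_combination (-1 : F) * hdet
  have hMM : M * M = 1 := by
    have := congrArg (fun g : Matrix.SpecialLinearGroup (Fin 2) F => (g : Matrix (Fin 2) (Fin 2) F)) hy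
    simpa [pow_two] using this
  have htM : t • M = (2 : F) • (1 : Matrix (Fin 2) (Fin 2) F) := by
    rw [hMM] at hCH'
    rw [two_smul]
    exact (sub_eq_iff_eq_add.mp hCH'.symm)
  have ht0 : t ≠ 0 := by
    intro h0
    rw [h0, zero_smul] at htM
    have := congrFun (congrFun htM 0) 0
    simp at this
    exact h2 this.symm
  have hMs : M = (2 / t) • (1 : Matrix (Fin 2) (Fin 2) F) := by
    rw [div_eq_inv_mul, mul_smul, ← htM, smul_smul, inv_mul_cancel₀ ht0, one_smul]
  refine ⟨2 / t, ?_, ?_⟩
  · have := hdet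
    rw [hMs] at this
    simp at this
    have h3 : (2 / t) ^ 2 = 1 := by rw [pow_two]; exact this
    simpa using h3
  · rw [hMs]
    ext i j
    simp [Matrix.scalar_apply, Matrix.diagonal_apply, Matrix.one_apply]

/-- For q = 3 or 5 mod 8 the Sylow 2-subgroups of PSL_2(q) are elementary abelian of order 4. -/
theorem result {F : Type*} [Field F] [Fintype F] {q : ℕ} (hF : Fintype.card F = q) (hq : q % 8 = 3 ∨ q % 8 = 5) (P : Sylow 2 (Matrix.ProjectiveSpecialLinearGroup (Fin 2) F)) : IsKleinFour (P : Subgroup (Matrix.ProjectiveSpecialLinearGroup (Fin 2) F)) := by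
  classical
  have hq1 : 1 < q := by rw [← hF]; exact Fintype.one_lt_card
  have hodd : ¬ 2 ∣ q := by omega
  -- the characteristic
  obtain ⟨p, hpc⟩ := CharP.exists F
  have hp : p.Prime := CharP.char_is_prime F p
  haveI : Fact p.Prime := ⟨hp⟩
  obtain ⟨f, hf, hqp⟩ := Cfsg.Agent.Lib.Classical.card_F_pos_pow (F := F) (p := p)
  have hp2 : p ≠ 2 := by
    rintro rfl
    apply hodd
    rw [← hF, hqp]
    exact dvd_pow_self 2 (by omega)
  have h2F : (2 : F) ≠ 0 := by
    intro h
    have h3 : ((2 : ℕ) : F) = 0 := by exact_mod_cast h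
    have := (CharP.cast_eq_zero_iff F p 2).mp h3
    exact hp2 ((Nat.prime_dvd_prime_iff_eq hp Nat.prime_two).mp this)
  -- the order
  have h243 := Cfsg.Agent.S0243.result hF 2 le_rfl
  rw [Fin.prod_univ_two] at h243
  simp only [Fin.val_zero, Fin.val_one, pow_zero, pow_one] at h243
  have hgcd : Nat.gcd 2 (q - 1) = 2 := by
    apply Nat.gcd_eq_left
    omega
  rw [hgcd] at h243
  set N := Nat.card (Matrix.ProjectiveSpecialLinearGroup (Fin 2) F) with hN
  have hcardP : Nat.card (P : Subgroup (Matrix.ProjectiveSpecialLinearGroup (Fin 2) F)) = 4 := by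
    have hfac : N.factorization 2 = 2 := by
      obtain ⟨m, hm, hNm⟩ : ∃ m, ¬ 2 ∣ m ∧ N = 2 ^ 2 * m := by
        rcases hq with h | h
        · obtain ⟨k, rfl⟩ : ∃ k, q = 8 * k + 3 := ⟨q / 8, by omega⟩
          refine ⟨(8 * k + 3) * ((4 * k + 1) * (2 * k + 1)), ?_, ?_⟩
          · intro hd
            rcases (Nat.prime_two.dvd_mul).mp hd with h' | h'
            · omega
            rcases (Nat.prime_two.dvd_mul).mp h' with h'' | h'' <;> omega
          · have e1 : (8 * k + 3) ^ 2 - 1 = (8 * k + 2) * (8 * k + 4) := by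
              have : (8 * k + 3) ^ 2 = (8 * k + 2) * (8 * k + 4) + 1 := by ring
              omega
            have e2 : (8 * k + 3) ^ 2 - (8 * k + 3) = (8 * k + 3) * (8 * k + 2) := by
              have : (8 * k + 3) ^ 2 = (8 * k + 3) * (8 * k + 2) + (8 * k + 3) := by ring
              omega
            have e3 : 8 * k + 3 - 1 = 8 * k + 2 := by omega
            rw [e1, e2, e3] at h243
            have h8 : 0 < 8 * k + 2 := by omega
            have : 2 * ((8 * k + 2) * N) = (8 * k + 2) * (2 * (2 ^ 2 * ((8 * k + 3) * ((4 * k + 1) * (2 * k + 1))))) := by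
              rw [h243]; ring
            have h4 : (8 * k + 2) * (2 * N) = (8 * k + 2) * (2 * (2 ^ 2 * ((8 * k + 3) * ((4 * k + 1) * (2 * k + 1))))) := by
              rw [← this]; ring
            have h5 := Nat.eq_of_mul_eq_mul_left h8 h4
            omega
        · obtain ⟨k, rfl⟩ : ∃ k, q = 8 * k + 5 := ⟨q / 8, by omega⟩
          refine ⟨(8 * k + 5) * ((2 * k + 1) * (4 * k + 3)), ?_, ?_⟩
          · intro hd
            rcases (Nat.prime_two.dvd_mul).mp hd with h' | h'
            · omega
            rcases (Nat.prime_two.dvd_mul).mp h' with h'' | h'' <;> omega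
          · have e1 : (8 * k + 5) ^ 2 - 1 = (8 * k + 4) * (8 * k + 6) := by
              have : (8 * k + 5) ^ 2 = (8 * k + 4) * (8 * k + 6) + 1 := by ring
              omega
            have e2 : (8 * k + 5) ^ 2 - (8 * k + 5) = (8 * k + 5) * (8 * k + 4) := by
              have : (8 * k + 5) ^ 2 = (8 * k + 5) * (8 * k + 4) + (8 * k + 5) := by ring
              omega
            have e3 : 8 * k + 5 - 1 = 8 * k + 4 := by omega
            rw [e1, e2, e3] at h243
            have h8 : 0 < 8 * k + 4 := by omega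
            have : 2 * ((8 * k + 4) * N) = (8 * k + 4) * (2 * (2 ^ 2 * ((8 * k + 5) * ((2 * k + 1) * (4 * k + 3))))) := by
              rw [h243]; ring
            have h4 : (8 * k + 4) * (2 * N) = (8 * k + 4) * (2 * (2 ^ 2 * ((8 * k + 5) * ((2 * k + 1) * (4 * k + 3))))) := by
              rw [← this]; ring
            have h5 := Nat.eq_of_mul_eq_mul_left h8 h4
            omega
      have hm0 : m ≠ 0 := by rintro rfl; simp at hm
      rw [hNm, Nat.factorization_mul (by norm_num) hm0, Nat.Prime.factorization_pow Nat.prime_two]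
      simp [Nat.factorization_eq_zero_of_not_dvd hm]
    rw [Sylow.card_eq_multiplicity, hfac]
    norm_num
  have hexp : ∀ x : (P : Subgroup (Matrix.ProjectiveSpecialLinearGroup (Fin 2) F)), x ^ 2 = 1 := by
    rintro ⟨x, hx⟩
    have hx4 : x ^ 4 = 1 := by
      have := pow_card_eq_one' (x := (⟨x, hx⟩ : (P : Subgroup (Matrix.ProjectiveSpecialLinearGroup (Fin 2) F))))
      rw [hcardP] at this
      simpa using congrArg Subtype.val this
    apply Subtype.ext
    obtain ⟨g, rfl⟩ := QuotientGroup.mk_surjective x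
    have hg4 : g ^ 4 ∈ Subgroup.center (Matrix.SpecialLinearGroup (Fin 2) F) := by
      rw [← QuotientGroup.eq_one_iff]
      simpa using hx4
    have hg8 : g ^ 8 = 1 := by
      rw [Matrix.SpecialLinearGroup.mem_center_iff] at hg4
      obtain ⟨r, hr, hrg⟩ := hg4
      have h1 : g ^ 8 = (g ^ 4) ^ 2 := by rw [← pow_mul]
      rw [h1]
      apply Subtype.ext
      have hr2 : r ^ 2 = 1 := by simpa using hr
      simp only [Matrix.SpecialLinearGroup.coe_pow, Matrix.SpecialLinearGroup.coe_one] at hrg ⊢
      rw [← hrg, ← map_pow, hr2, map_one]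
    have hord : orderOf g ∣ 8 := orderOf_dvd_of_pow_eq_one hg8
    have hcop8 : Nat.Coprime 8 p := by
      have : Nat.Coprime (2 ^ 3) p := Nat.Coprime.pow_left 3 ((Nat.coprime_primes Nat.prime_two hp).mpr hp2.symm)
      simpa using this
    have hcop : Nat.Coprime (orderOf g) p := Nat.Coprime.coprime_dvd_left hord hcop8
    have hS := Cfsg.Agent.S0800.result hF p g hcop
    have hnd : orderOf g ∣ 4 := by
      have h23 : orderOf g ∣ 2 ^ 3 := by simpa using hord
      obtain ⟨k, hk, hke⟩ := (Nat.dvd_prime_pow Nat.prime_two).mp h23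
      interval_cases k
      · simp [hke]
      · simp [hke]
      · simp [hke]
      · exfalso
        rw [hke] at hS
        omega
    have hg22 : (g ^ 2) ^ 2 = 1 := by
      rw [← pow_mul]
      exact orderOf_dvd_iff_pow_eq_one.mp hnd
    have hc := sq_eq_one_center h2F (g ^ 2) hg22
    have : ((g ^ 2 : Matrix.SpecialLinearGroup (Fin 2) F) : Matrix.SpecialLinearGroup (Fin 2) F ⧸ Subgroup.center (Matrix.SpecialLinearGroup (Fin 2) F)) = 1 :=
      (QuotientGroup.eq_one_iff _).mpr hc
    simpa using this
  refine ⟨hcardP, ?_⟩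
  apply le_antisymm
  · apply Nat.le_of_dvd (by norm_num)
    exact Monoid.exponent_dvd_of_forall_pow_eq_one hexp
  · by_contra hlt
    have h1 : Monoid.exponent (P : Subgroup (Matrix.ProjectiveSpecialLinearGroup (Fin 2) F)) ≤ 1 := by omega
    have h0 : Monoid.exponent (P : Subgroup (Matrix.ProjectiveSpecialLinearGroup (Fin 2) F)) ≠ 0 := by
      apply Monoid.exponent_ne_zero_of_finite
    have he : Monoid.exponent (P : Subgroup (Matrix.ProjectiveSpecialLinearGroup (Fin 2) F)) = 1 := by omega
    have hsub : Subsingleton (P : Subgroup (Matrix.ProjectiveSpecialLinearGroup (Fin 2) F)) := Monoid.exp_eq_one_iff.mp he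
    have := Nat.card_of_subsingleton (α := (P : Subgroup (Matrix.ProjectiveSpecialLinearGroup (Fin 2) F))) 1
    omega

end Cfsg.Agent.S0276
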