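import Cfsg.Statements.S0281
import Mathlib
import Cfsg.Agent.S0278
import Cfsg.Agent.Lib.Classical.Hermitian
import Cfsg.Agent.Lib.Classical.SL2Sylow

set_option autoImplicit false
open Cfsg

namespace Cfsg.Agent.S0281

open Cfsg.Agent.Lib.Classical
open scoped Matrix

variable {F K : Type*} [Field F] [Fintype F] [Field K] [Fintype K] {q : ℕ}

lemma exists_embed (hF : Fintype.card F = q ^ 2) (hK : Fintype.card K = q) :
    ∃ ι : K →+* F, ∀ x, (ι x) ^ q = ι x := by
  classical
  let F₀ : Subfield F := (conjQ hF).eqLocusField (RingHom.id F)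
  haveI : Fintype F₀ := Fintype.ofFinite _
  have hc : Fintype.card F₀ = q := by
    rw [← Nat.card_eq_fintype_card, ← card_fixed hF]
    rfl
  let e : K ≃+* F₀ := FiniteField.ringEquivOfCardEq (by rw [hK, hc])
  refine ⟨F₀.subtype.comp e.toRingHom, ?_⟩
  intro x
  exact (e x).2

/-- The basis vectors and the skew scalar. -/
lemma exists_basis (hF : Fintype.card F = q ^ 2) :
    ∃ (a b l d : F), a ^ q * a = -1 ∧ b ^ q * b = -1 ∧ a ≠ b ∧ l ≠ 0 ∧ d ≠ 0 ∧ d ^ q = -d ∧
      l ^ q * (1 + a * b ^ q) = d := by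
  classical
  have hq := one_lt_q hF
  have hneg : (-1 : F) ^ q = -1 := by
    rw [conjQ_neg hF, one_pow]
  have hnorm : ∀ x : F, x ^ (q + 1) = x ^ q * x := fun x => pow_succ x q
  -- two solutions of the norm equation
  have hcard := card_norm_fiber hF (-1 : F) (by simp) hneg
  haveI : Finite {x : F // x ^ (q + 1) = -1} := inferInstance
  have h1lt : 1 < Nat.card {x : F // x ^ (q + 1) = -1} := by omega
  obtain ⟨⟨a, ha⟩, ⟨b, hb⟩, hab⟩ := (Finite.one_lt_card_iff_nontrivial.mp h1lt).exists_pair_ne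
  have hab' : a ≠ b := fun h => hab (Subtype.ext h)
  rw [hnorm] at ha hb
  -- a skew scalar
  obtain ⟨x, hx⟩ : ∃ x : F, x ^ q ≠ x := by
    by_contra hcon
    push Not at hcon
    apply conjQ_ne_id hF
    ext y
    exact hcon y
  let d := x - x ^ q
  have hd0 : d ≠ 0 := fun h => hx (sub_eq_zero.mp h).symm
  have hdq : d ^ q = -d := by
    simp only [d]
    rw [conjQ_sub hF, pow_q_pow_q hF]
    ring
  -- the value `1 + a b^q`
  have hb0 : b ≠ 0 := by
    rintro rfl
    rw [zero_pow (by omega : q ≠ 0), zero_mul] at hb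
    simp at hb
  have hbq0 : b ^ q ≠ 0 := pow_ne_zero _ hb0
  have hdl : 1 + a * b ^ q ≠ 0 := by
    intro h
    apply hab'
    have h2 : a * (b ^ q * b) = -b := by
      have : a * (b ^ q * b) = (1 + a * b ^ q) * b - b := by ring
      rw [this, h]
      ring
    rw [hb] at h2
    linear_combination -h2
  -- the scaling
  let l := (d / (1 + a * b ^ q)) ^ q
  refine ⟨a, b, l, d, ha, hb, hab', ?_, hd0, hdq, ?_⟩
  · exact pow_ne_zero _ (div_ne_zero hd0 hdl)
  · simp only [l]
    rw [pow_q_pow_q hF]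
    field_simp

/-- SU_2(q) is isomorphic to SL_2(q). -/
theorem result {F K : Type*} [Field F] [Fintype F] [Field K] [Fintype K] {q : ℕ} (hF : Fintype.card F = q ^ 2) (hK : Fintype.card K = q) : Nonempty (Cfsg.SU 2 F q ≃* Matrix.SpecialLinearGroup (Fin 2) K) := by
  classical
  obtain ⟨ι, hι⟩ := exists_embed hF hK
  obtain ⟨a, b, l, d, ha, hb, hab, hl, hd, hdq, hld⟩ := exists_basis hF
  have hq := one_lt_q hF
  -- the base change matrix
  let P0 : Matrix (Fin 2) (Fin 2) F := !![1, l; a, l * b]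
  have hdet : P0.det ≠ 0 := by
    have : P0.det = l * (b - a) := by
      simp [P0, Matrix.det_fin_two]
      ring
    rw [this]
    exact mul_ne_zero hl (sub_ne_zero.mpr hab.symm)
  let P : Matrix.GeneralLinearGroup (Fin 2) F := Matrix.GeneralLinearGroup.mkOfDetNeZero P0 hdet
  have hP : (P : Matrix (Fin 2) (Fin 2) F) = P0 := rfl
  -- the form in the new basis
  have hform : ∀ s t : Fin 2 → F, Cfsg.hermForm 2 F q (P0 *ᵥ s) (P0 *ᵥ t) =
      d * (s 0 * t 1 ^ q - s 1 * t 0 ^ q) := by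
    intro s t
    have hadd := pow_q_add hF
    have hs0 : (P0 *ᵥ s) 0 = s 0 + l * s 1 := by
      simp [P0, Matrix.mulVec, dotProduct, Fin.sum_univ_two]
    have hs1 : (P0 *ᵥ s) 1 = a * s 0 + l * b * s 1 := by
      simp [P0, Matrix.mulVec, dotProduct, Fin.sum_univ_two]
    have ht0 : (P0 *ᵥ t) 0 = t 0 + l * t 1 := by
      simp [P0, Matrix.mulVec, dotProduct, Fin.sum_univ_two]
    have ht1 : (P0 *ᵥ t) 1 = a * t 0 + l * b * t 1 := by
      simp [P0, Matrix.mulVec, dotProduct, Fin.sum_univ_two]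
    have hconj : l * (1 + b * a ^ q) = -d := by
      have := congrArg (· ^ q) hld
      simp only [mul_pow, hadd, pow_q_pow_q hF, one_pow, hdq] at this
      linear_combination this
    simp only [Cfsg.hermForm, Fin.sum_univ_two, hs0, hs1, ht0, ht1, hadd, mul_pow]
    linear_combination (s 0 * t 0 ^ q) * ha + (s 1 * t 1 ^ q * l * l ^ q) * hb +
      (s 0 * t 1 ^ q) * hld + (s 1 * t 0 ^ q) * hconj
  -- the homomorphism
  let Pi : Matrix (Fin 2) (Fin 2) F := ((P⁻¹ : Matrix.GeneralLinearGroup (Fin 2) F) : Matrix (Fin 2) (Fin 2) F)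
  have hPP : P0 * Pi = 1 := congrArg Units.val (mul_inv_cancel P)
  have hPP' : Pi * P0 = 1 := congrArg Units.val (inv_mul_cancel P)
  have hmap : ∀ N : Matrix (Fin 2) (Fin 2) K, (N.map ι).det = ι N.det := fun N => (ι.map_det N).symm
  have hdetM : ∀ N : Matrix.SpecialLinearGroup (Fin 2) K, (P0 * (N.1.map ι) * Pi).det = 1 := by
    intro N
    rw [Matrix.det_mul, Matrix.det_mul, hmap, N.2, map_one, mul_one, ← Matrix.det_mul, hPP, Matrix.det_one]
  have hpres : ∀ (N : Matrix.SpecialLinearGroup (Fin 2) K) (u v : Fin 2 → F),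
      Cfsg.hermForm 2 F q ((P0 * (N.1.map ι) * Pi) *ᵥ u) ((P0 * (N.1.map ι) * Pi) *ᵥ v) =
        Cfsg.hermForm 2 F q u v := by
    intro N u v
    have hu : ∀ w : Fin 2 → F, w = P0 *ᵥ (Pi *ᵥ w) := by
      intro w
      rw [Matrix.mulVec_mulVec, hPP, Matrix.one_mulVec]
    have hM : ∀ w : Fin 2 → F, (P0 * (N.1.map ι) * Pi) *ᵥ w = P0 *ᵥ ((N.1.map ι) *ᵥ (Pi *ᵥ w)) := by
      intro w
      rw [Matrix.mulVec_mulVec, Matrix.mulVec_mulVec, Matrix.mul_assoc]
    rw [hM, hM, hform]
    conv_rhs => rw [hu u, hu v, hform]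
    generalize Pi *ᵥ u = s
    generalize Pi *ᵥ v = t
    have hdetN : ι (N.1 0 0) * ι (N.1 1 1) - ι (N.1 0 1) * ι (N.1 1 0) = 1 := by
      have := hmap N.1
      rw [N.2, map_one, Matrix.det_fin_two] at this
      simpa using this
    have e0 : ∀ w : Fin 2 → F, ((N.1.map ι) *ᵥ w) 0 = ι (N.1 0 0) * w 0 + ι (N.1 0 1) * w 1 := by
      intro w
      simp [Matrix.mulVec, dotProduct, Fin.sum_univ_two]
    have e1 : ∀ w : Fin 2 → F, ((N.1.map ι) *ᵥ w) 1 = ι (N.1 1 0) * w 0 + ι (N.1 1 1) * w 1 := by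
      intro w
      simp [Matrix.mulVec, dotProduct, Fin.sum_univ_two]
    simp only [e0, e1, pow_q_add hF, mul_pow, hι]
    linear_combination (d * (s 0 * t 1 ^ q - s 1 * t 0 ^ q)) * hdetN
  let ψ : Matrix.SpecialLinearGroup (Fin 2) K →* Cfsg.SU 2 F q :=
    { toFun := fun N => ⟨⟨P0 * (N.1.map ι) * Pi, hdetM N⟩, fun u v => hpres N u v⟩
      map_one' := by
        apply Subtype.ext
        apply Subtype.ext
        change P0 * ((1 : Matrix (Fin 2) (Fin 2) K).map ι) * Pi = 1
        rw [Matrix.map_one _ (map_zero ι) (map_one ι), Matrix.mul_one, hPP]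
      map_mul' := by
        intro A B
        apply Subtype.ext
        apply Subtype.ext
        change P0 * ((A.1 * B.1).map ι) * Pi = (P0 * (A.1.map ι) * Pi) * (P0 * (B.1.map ι) * Pi)
        rw [Matrix.map_mul]
        calc P0 * (A.1.map ι * B.1.map ι) * Pi
            = P0 * (A.1.map ι) * (Pi * P0) * (B.1.map ι) * Pi := by
              rw [hPP', Matrix.mul_one]
              simp only [Matrix.mul_assoc]
          _ = _ := by simp only [Matrix.mul_assoc] }
  have hinj : Function.Injective ψ := by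
    intro A B h
    have h1 : P0 * (A.1.map ι) * Pi = P0 * (B.1.map ι) * Pi :=
      congrArg (fun x : Cfsg.SU 2 F q => ((x.1 : Matrix.SpecialLinearGroup (Fin 2) F) : Matrix (Fin 2) (Fin 2) F)) h
    have h2 : A.1.map ι = B.1.map ι := by
      have h3 : Pi * (P0 * A.1.map ι * Pi) * P0 = Pi * (P0 * B.1.map ι * Pi) * P0 :=
        congrArg (fun M => Pi * M * P0) h1
      calc A.1.map ι = (Pi * P0) * (A.1.map ι) * (Pi * P0) := by rw [hPP']; simp
        _ = Pi * (P0 * A.1.map ι * Pi) * P0 := by simp only [Matrix.mul_assoc]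
        _ = Pi * (P0 * B.1.map ι * Pi) * P0 := h3
        _ = (Pi * P0) * (B.1.map ι) * (Pi * P0) := by simp only [Matrix.mul_assoc]
        _ = B.1.map ι := by rw [hPP']; simp
    apply Subtype.ext
    ext i j
    exact ι.injective (congrFun (congrFun h2 i) j)
  have hcardK : Nat.card (Matrix.SpecialLinearGroup (Fin 2) K) = q * ((q - 1) * (q + 1)) := by
    rw [card_SL2, hK]
  have hcardS : Nat.card (Cfsg.SU 2 F q) = q * ((q - 1) * (q + 1)) := by
    have h := Cfsg.Agent.S0278.result hF 2 (by norm_num)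
    rw [Finset.prod_range_succ, Finset.prod_range_succ, Finset.prod_range_zero] at h
    rw [if_pos (by decide : Even 0), if_neg (by decide : ¬ Even 1)] at h
    have e1 : q ^ (2 * (2 - 1) / 2) = q := by norm_num
    have e2 : q ^ (1 + 1) - 1 = (q + 1) * (q - 1) := by
      rw [q_add_one_mul hq]
    rw [e1, e2] at h
    have : (q + 1) * Nat.card (Cfsg.SU 2 F q) = (q + 1) * (q * ((q - 1) * (q + 1))) := by
      rw [h]
      ring
    exact Nat.eq_of_mul_eq_mul_left (Nat.succ_pos _) this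
  have hbij : Function.Bijective ψ := hinj.bijective_of_nat_card_le (by rw [hcardK, hcardS])
  exact ⟨(MulEquiv.ofBijective ψ hbij).symm⟩

end Cfsg.Agent.S0281
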