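import Cfsg.Statements.S0282
import Mathlib
import Cfsg.Agent.S0827
import Cfsg.Agent.S0280

set_option autoImplicit false
open Cfsg

namespace Cfsg.Agent.S0282

/-- PSU_3(2) is a solvable group of order 72. -/
theorem result {F : Type*} [Field F] [Fintype F] (hF : Fintype.card F = 4) : Nat.card (Cfsg.PSU 3 F 2) = 72 ∧ Group.IsSolvable (Cfsg.PSU 3 F 2) := by
  classical
  have hF' : Fintype.card F = 2 ^ 2 := by rw [hF]; norm_num
  constructor
  · have h := Cfsg.Agent.S0280.result (F := F) (q := 2) hF' 3 (by norm_num)
    rw [Finset.prod_range_succ, Finset.prod_range_succ, Finset.prod_range_one] at h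
    norm_num at h
    rw [Nat.card_eq_fintype_card]
    omega
  · obtain ⟨N, hN, h9, _, ⟨e⟩⟩ := Cfsg.Agent.S0827.result hF
    haveI : Group.IsSolvable N := by
      have hp : IsPGroup 3 N := IsPGroup.of_card (n := 2) (by rw [h9]; norm_num)
      haveI := hp.isNilpotent
      infer_instance
    haveI : Group.IsSolvable (QuaternionGroup 2) := by
      have hp : IsPGroup 2 (QuaternionGroup 2) := IsPGroup.of_card (n := 3) (by
        rw [Nat.card_eq_fintype_card, QuaternionGroup.card]
        norm_num)
      haveI := hp.isNilpotent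
      infer_instance
    refine Group.isSolvable_of_ker_le_range N.subtype (e.toMonoidHom.comp (QuotientGroup.mk' N)) ?_
    intro x hx
    have h1 : (x : Cfsg.PSU 3 F 2 ⧸ N) = 1 := by
      apply e.injective
      rw [map_one]
      exact hx
    have h2 : x ∈ N := (QuotientGroup.eq_one_iff x).mp h1
    exact ⟨⟨x, h2⟩, rfl⟩

end Cfsg.Agent.S0282
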