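import Cfsg.Statements.S0285
import Mathlib
import Cfsg.Agent.Lib.Classical.UnitaryCount

set_option autoImplicit false
open Cfsg

namespace Cfsg.Agent.S0285

/-- The standard Hermitian form on F^n, |F| = q^2, has exactly (q^n - (-1)^n)(q^(n-1) + (-1)^n) non-zero isotropic vectors; counting the zero vector too: -/
theorem result {F : Type*} [Field F] [Fintype F] {q : ℕ} (hF : Fintype.card F = q ^ 2) (n : ℕ) : Nat.card {v : Fin n → F // Cfsg.hermForm n F q v v = 0} = (if Even n then (q ^ n - 1) * (q ^ (n - 1) + 1) else (q ^ n + 1) * (q ^ (n - 1) - 1)) + 1 := by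
  have hq := Cfsg.Agent.Lib.Classical.one_lt_q hF
  have h := (Cfsg.Agent.Lib.Classical.hcnt_formula hF n).2
  change (q : ℤ) * (Nat.card {v : Fin n → F // Cfsg.hermForm n F q v v = 0} : ℕ) = _ at h
  generalize Nat.card {v : Fin n → F // Cfsg.hermForm n F q v v = 0} = A at h ⊢
  have hq0 : (q : ℤ) ≠ 0 := by
    have : q ≠ 0 := by omega
    exact_mod_cast this
  have hone : ∀ k, 1 ≤ q ^ k := fun k => Nat.one_le_pow _ _ (by omega)
  cases n with
  | zero =>
    have h2 : (A : ℤ) = 1 := by
      apply mul_left_cancel₀ hq0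
      rw [h]
      simp
    have h3 : A = 1 := by exact_mod_cast h2
    simp [h3]
  | succ k =>
    have e : (q : ℤ) ^ (k + 1) = q * (q : ℤ) ^ k := by ring
    have h2 : (A : ℤ) = ((q : ℤ) ^ (k + 1) - (-1) ^ (k + 1)) * ((q : ℤ) ^ k + (-1) ^ (k + 1)) + 1 := by
      apply mul_left_cancel₀ hq0
      rw [h]
      ring
    simp only [Nat.add_sub_cancel]
    split_ifs with hev
    · rw [hev.neg_one_pow] at h2
      zify [hone (k + 1)]
      rw [h2]
    · rw [(Nat.not_even_iff_odd.mp hev).neg_one_pow] at h2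
      zify [hone k]
      rw [h2]
      ring

end Cfsg.Agent.S0285
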