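import Cfsg.Statements.S0286
import Mathlib
import Cfsg.Agent.Lib.Classical.OrderForms
import Cfsg.Agent.Lib.Classical.IsoBridge

set_option autoImplicit false
open Cfsg

namespace Cfsg.Agent.S0286

/-- |GO_{2m+1}(q)| = 2 q^(m^2) prod_{i=1}^{m} (q^(2i) - 1) for q odd. -/
theorem result {F : Type*} [Field F] [Fintype F] {q : ℕ} (hF : Fintype.card F = q) (hodd : Odd q) (m : ℕ) : Nat.card (Cfsg.isometryGroup F (Cfsg.quadFormOdd m F)) = 2 * q ^ (m ^ 2) * ∏ i ∈ Finset.range m, (q ^ (2 * (i + 1)) - 1) := by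
  subst hF
  have h2 : (2 : F) ≠ 0 := by
    intro h
    have h3 : ringChar F = 2 := by
      have := (CharP.cast_eq_zero_iff F (ringChar F) 2).mp (by exact_mod_cast h)
      exact (Nat.prime_dvd_prime_iff_eq (CharP.char_is_prime F (ringChar F)) Nat.prime_two).mp this
    have h4 := FiniteField.even_card_iff_char_two.mp h3
    rw [Nat.odd_iff] at hodd
    omega
  rw [Cfsg.Agent.Lib.Classical.Abs.card_isometryGroup' _ (Cfsg.Agent.Lib.Classical.Abs.Qodd m F)
    (Cfsg.Agent.Lib.Classical.Abs.Qodd_apply m)]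
  exact Cfsg.Agent.Lib.Classical.Abs.Qodd_order h2 m

end Cfsg.Agent.S0286
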