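import Cfsg.Statements.S0295
import Mathlib
import Cfsg.Agent.Lib.Classical.OrthSimple
import Cfsg.Agent.Lib.Classical.OrderForms

set_option autoImplicit false
open Cfsg

namespace Cfsg.Agent.S0295

/-- PΩ_{2m+1}(q) is simple for q odd and m at least 3. -/
theorem result {F : Type*} [Field F] [Fintype F] (hodd : Odd (Fintype.card F)) (m : ℕ) (hm : 3 ≤ m) : IsSimpleGroup (Cfsg.POmega F (Cfsg.quadFormOdd m F)) := by
  classical
  open Cfsg.Agent.Lib.Classical Cfsg.Agent.Lib.Classical.Abs Cfsg.Agent.Lib.Classical.Orth in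
  have h2 : (2 : F) ≠ 0 := by
    intro h
    have hch : ringChar F = 2 := CharP.ringChar_of_prime_eq_zero Nat.prime_two (by exact_mod_cast h)
    have := FiniteField.even_card_iff_char_two.mp hch
    rw [Nat.odd_iff] at hodd
    omega
  have e : Cfsg.quadFormOdd m F = ⇑(Qodd m F) := funext fun v => (Qodd_apply m v).symm
  rw [e]
  exact pomega_simple (Qodd m F) (Qodd_nondeg h2 m) (by simp; omega)

end Cfsg.Agent.S0295
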