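import Cfsg.Statements.S0296
import Mathlib
import Cfsg.Agent.Lib.Classical.OrthSimple
import Cfsg.Agent.Lib.Classical.OrderForms

set_option autoImplicit false
open Cfsg

namespace Cfsg.Agent.S0296

/-- PΩ^+_{2m}(q) is simple for m at least 4. -/
theorem result {F : Type*} [Field F] [Fintype F] (m : ℕ) (hm : 4 ≤ m) : IsSimpleGroup (Cfsg.POmega F (Cfsg.quadFormPlus m F)) := by
  classical
  open Cfsg.Agent.Lib.Classical Cfsg.Agent.Lib.Classical.Abs Cfsg.Agent.Lib.Classical.Orth in
  have e : Cfsg.quadFormPlus m F = ⇑(Qplus m F) := funext fun v => (Qplus_apply m v).symm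
  rw [e]
  exact pomega_simple (Qplus m F) (Qplus_nondeg m) (by simp; omega)

end Cfsg.Agent.S0296
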