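import Cfsg.Statements.S0298
import Mathlib
import Cfsg.Agent.Lib.Classical.ExcBase
import Cfsg.Agent.Lib.Classical.OrthBridge
import Cfsg.Agent.Lib.Classical.OrderForms
import Cfsg.Agent.Lib.Classical.SL2Sylow

set_option autoImplicit false
open Cfsg

namespace Cfsg.Agent.S0298

open Matrix Cfsg.Agent.Lib.Classical Cfsg.Agent.Lib.Classical.Abs Cfsg.Agent.Lib.Classical.Orth Cfsg.Agent.Lib.Classical.Exc

local notation "Vv" => (Unit ⊕ (Fin 1 ⊕ Fin 1) → _)

section

variable {F : Type*} [Field F]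

/-- Trace-zero matrices. -/
def tzM (w : Unit ⊕ (Fin 1 ⊕ Fin 1) → F) : Matrix (Fin 2) (Fin 2) F :=
  !![w (.inl ()), w (.inr (.inl 0)); w (.inr (.inr 0)), -w (.inl ())]

/-- Coordinates. -/
def tzE (X : Matrix (Fin 2) (Fin 2) F) : Unit ⊕ (Fin 1 ⊕ Fin 1) → F :=
  Sum.elim (fun _ => X 0 0) (Sum.elim (fun _ => X 0 1) (fun _ => X 1 0))

lemma tzE_tzM (w : Unit ⊕ (Fin 1 ⊕ Fin 1) → F) : tzE (tzM w) = w := by
  funext i
  rcases i with ⟨⟩ | i | i
  · simp [tzE, tzM]
  · fin_cases i
    simp [tzE, tzM]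
  · fin_cases i
    simp [tzE, tzM]

lemma tzM_tzE (X : Matrix (Fin 2) (Fin 2) F) (h : X 1 1 = - X 0 0) : tzM (tzE X) = X := by
  ext i j
  fin_cases i <;> fin_cases j <;> simp [tzE, tzM, h]

/-- The adjoint action. -/
def rho (A : Matrix.SpecialLinearGroup (Fin 2) F) (w : Unit ⊕ (Fin 1 ⊕ Fin 1) → F) : Unit ⊕ (Fin 1 ⊕ Fin 1) → F :=
  tzE (A.1 * tzM w * (A⁻¹).1)

lemma tr_conj (A : Matrix.SpecialLinearGroup (Fin 2) F) (w : Unit ⊕ (Fin 1 ⊕ Fin 1) → F) :
    (A.1 * tzM w * (A⁻¹).1) 1 1 = - (A.1 * tzM w * (A⁻¹).1) 0 0 := by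
  rw [Matrix.SpecialLinearGroup.coe_inv, Matrix.adjugate_fin_two]
  simp [tzM, Matrix.mul_apply, Fin.sum_univ_two]
  ring

lemma tzM_rho (A : Matrix.SpecialLinearGroup (Fin 2) F) (w : Unit ⊕ (Fin 1 ⊕ Fin 1) → F) :
    tzM (rho A w) = A.1 * tzM w * (A⁻¹).1 := tzM_tzE _ (tr_conj A w)

lemma rho_mul (A B : Matrix.SpecialLinearGroup (Fin 2) F) (w : Unit ⊕ (Fin 1 ⊕ Fin 1) → F) :
    rho (A * B) w = rho A (rho B w) := by
  rw [rho, rho, tzM_rho, _root_.mul_inv_rev]
  simp only [Matrix.SpecialLinearGroup.coe_mul, Matrix.mul_assoc]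

lemma rho_one (w : Unit ⊕ (Fin 1 ⊕ Fin 1) → F) : rho 1 w = w := by
  simp [rho, tzE_tzM]

lemma tzM_add (u v : Unit ⊕ (Fin 1 ⊕ Fin 1) → F) : tzM (u + v) = tzM u + tzM v := by
  ext i j
  fin_cases i <;> fin_cases j <;> simp [tzM] <;> ring

lemma tzM_smul (c : F) (u : Unit ⊕ (Fin 1 ⊕ Fin 1) → F) : tzM (c • u) = c • tzM u := by
  ext i j
  fin_cases i <;> fin_cases j <;> simp [tzM]

lemma tzE_add (X Y : Matrix (Fin 2) (Fin 2) F) : tzE (X + Y) = tzE X + tzE Y := by
  funext i
  rcases i with ⟨⟩ | i | i <;> simp [tzE]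

lemma tzE_smul (c : F) (X : Matrix (Fin 2) (Fin 2) F) : tzE (c • X) = c • tzE X := by
  funext i
  rcases i with ⟨⟩ | i | i <;> simp [tzE]

lemma Q_eq (w : Unit ⊕ (Fin 1 ⊕ Fin 1) → F) : Qodd 1 F w = - (tzM w).det := by
  rw [Qodd_apply, Cfsg.quadFormOdd, Matrix.det_fin_two]
  simp [tzM, Fin.sum_univ_succ]
  ring

lemma Q_rho (A : Matrix.SpecialLinearGroup (Fin 2) F) (w : Unit ⊕ (Fin 1 ⊕ Fin 1) → F) :
    Qodd 1 F (rho A w) = Qodd 1 F w := by
  rw [Q_eq, Q_eq, tzM_rho, Matrix.det_mul, Matrix.det_mul, A.2, (A⁻¹).2, one_mul, mul_one]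

/-- The homomorphism. -/
noncomputable def phi : Matrix.SpecialLinearGroup (Fin 2) F →* OG (Qodd 1 F) where
  toFun A := ⟨{ toFun := rho A
                map_add' := fun u v => by
                  unfold rho
                  rw [tzM_add, Matrix.mul_add, Matrix.add_mul, tzE_add]
                map_smul' := fun c u => by
                  unfold rho
                  rw [tzM_smul, Matrix.mul_smul, Matrix.smul_mul, tzE_smul]
                  rfl
                invFun := rho A⁻¹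
                left_inv := fun w => by
                  change rho A⁻¹ (rho A w) = w
                  rw [← rho_mul, inv_mul_cancel, rho_one]
                right_inv := fun w => by
                  change rho A (rho A⁻¹ w) = w
                  rw [← rho_mul, mul_inv_cancel, rho_one] }, fun u _ => Q_rho A u⟩
  map_one' := by
    apply OG_ext
    intro w
    exact rho_one w
  map_mul' A B := by
    apply OG_ext
    intro w
    exact rho_mul A B w

lemma phi_apply (A : Matrix.SpecialLinearGroup (Fin 2) F) (w : Unit ⊕ (Fin 1 ⊕ Fin 1) → F) :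
    (phi A).1 w = rho A w := rfl

lemma ker_le : (phi (F := F)).ker ≤ Subgroup.center (Matrix.SpecialLinearGroup (Fin 2) F) := by
  intro A hA
  rw [MonoidHom.mem_ker] at hA
  have hfix : ∀ w, A.1 * tzM w = tzM w * A.1 := by
    intro w
    have h1 : rho A w = w := by
      rw [← phi_apply, hA]
      rfl
    have h3 := tzM_rho A w
    rw [h1] at h3
    have h4 : (A⁻¹).1 * A.1 = 1 := by
      rw [← Matrix.SpecialLinearGroup.coe_mul, inv_mul_cancel]
      rfl
    calc A.1 * tzM w = A.1 * tzM w * ((A⁻¹).1 * A.1) := by rw [h4, Matrix.mul_one]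
      _ = tzM w * A.1 := by rw [← Matrix.mul_assoc, ← h3]
  let u₁ : Unit ⊕ (Fin 1 ⊕ Fin 1) → F := Sum.elim 0 (Sum.elim 1 0)
  let u₂ : Unit ⊕ (Fin 1 ⊕ Fin 1) → F := Sum.elim 0 (Sum.elim 0 1)
  have h1 := hfix u₁
  have h3 := hfix u₂
  have e1 : A.1 1 0 = 0 := by
    have := congrFun (congrFun h1 0) 0
    simpa [u₁, tzM, Matrix.mul_apply, Fin.sum_univ_two] using this.symm
  have e2 : A.1 0 1 = 0 := by
    have := congrFun (congrFun h3 0) 0
    simpa [u₂, tzM, Matrix.mul_apply, Fin.sum_univ_two] using this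
  have e3 : A.1 1 1 = A.1 0 0 := by
    have := congrFun (congrFun h1 0) 1
    simpa [u₁, tzM, Matrix.mul_apply, Fin.sum_univ_two] using this.symm
  rw [Subgroup.mem_center_iff]
  intro g
  apply Subtype.ext
  change g.1 * A.1 = A.1 * g.1
  have hA' : A.1 = (A.1 0 0) • (1 : Matrix (Fin 2) (Fin 2) F) := by
    ext i j
    fin_cases i <;> fin_cases j <;> simp [e1, e2, e3]
  rw [hA']
  simp

end

/-- PΩ_3(q) is isomorphic to PSL_2(q) for q odd. -/
theorem result {F : Type*} [Field F] [Fintype F] (hodd : Odd (Fintype.card F)) : Nonempty (Cfsg.POmega F (Cfsg.quadFormOdd 1 F) ≃* Matrix.ProjectiveSpecialLinearGroup (Fin 2) F) := by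
  classical
  have h2 : (2 : F) ≠ 0 := by
    intro h
    have hch : ringChar F = 2 := CharP.ringChar_of_prime_eq_zero Nat.prime_two (by exact_mod_cast h)
    have := FiniteField.even_card_iff_char_two.mp hch
    rw [Nat.odd_iff] at hodd
    omega
  have e : Cfsg.quadFormOdd 1 F = ⇑(Qodd 1 F) := funext fun v => (Qodd_apply 1 v).symm
  rw [e]
  have hQ := Qodd_nondeg h2 1
  have hfr : Module.finrank F (Unit ⊕ (Fin 1 ⊕ Fin 1) → F) = 3 := by simp
  have hR : Rf (Qodd 1 F) = ⊤ := Rf_eq_top_odd h2 hQ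
  refine pomega_iso (Qodd 1 F) phi (QuotientGroup.mk' _) (QuotientGroup.mk'_surjective _) (QuotientGroup.ker_mk' _) ?_ ?_ ker_le sl2_central
  · intro g
    refine transvection_induction (fun g => phi g ∈ commutator (OG (Qodd 1 F))) g ?_ ?_
    · intro i j hij a
      have h3 : (Matrix.SpecialLinearGroup.transvection hij a : Matrix.SpecialLinearGroup (Fin 2) F) =
          Matrix.SpecialLinearGroup.transvection hij (a / 2) * Matrix.SpecialLinearGroup.transvection hij (a / 2) := by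
        apply Subtype.ext
        change Matrix.transvection i j a = Matrix.transvection i j (a / 2) * Matrix.transvection i j (a / 2)
        rw [Matrix.transvection_mul_transvection_same _ _ hij]
        congr 1
        field_simp
        ring
      rw [h3, map_mul]
      exact sq_mem_comm hR _
    · intro A B hA hB
      rw [map_mul]
      exact Subgroup.mul_mem _ hA hB
  · have h1 := Subgroup.card_mul_index (commutator (OG (Qodd 1 F)))
    rw [index_commutator h2 hQ (by omega), Qodd_order h2 1] at h1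
    have h3 : Nat.card (phi (F := F)).ker ≤ 2 := by
      have h4 := Subgroup.card_le_card_group ((phi (F := F)).ker.subgroupOf (Subgroup.center (Matrix.SpecialLinearGroup (Fin 2) F)))
      have h5 := Nat.card_congr (Subgroup.subgroupOfEquivOfLe (ker_le (F := F))).toEquiv
      rw [h5, card_center_SL 2 (by norm_num)] at h4
      refine h4.trans ?_
      exact Nat.le_of_dvd (by norm_num) (Nat.gcd_dvd_left _ _)
    refine (Nat.mul_le_mul_left _ h3).trans ?_
    rw [card_SL2]
    have hq1 : 1 ≤ Fintype.card F := Fintype.card_pos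
    obtain ⟨k, hk⟩ : ∃ k, Fintype.card F = k + 1 := ⟨Fintype.card F - 1, by omega⟩
    rw [hk] at h1 ⊢
    simp only [Finset.prod_range_one, zero_add, mul_one, one_pow, pow_one, add_tsub_cancel_right] at h1 ⊢
    have e2 : (k + 1) ^ 2 - 1 = k * (k + 1 + 1) := by
      apply Nat.sub_eq_of_eq_add
      ring
    rw [e2] at h1
    have e3 : 2 * (k + 1) * (k * (k + 1 + 1)) = 2 * ((k + 1) * (k * (k + 1 + 1))) := by ring
    rw [e3] at h1
    omega

end Cfsg.Agent.S0298
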