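import Cfsg.Statements.S0299
import Mathlib
import Cfsg.Agent.Lib.Classical.ExcSL2
import Cfsg.Agent.Lib.Classical.ExcAlt
import Cfsg.Agent.Lib.Classical.OrderForms
import Cfsg.Agent.Lib.Classical.SL2Sylow

set_option autoImplicit false
open Cfsg

namespace Cfsg.Agent.S0299

open Matrix Cfsg.Agent.Lib.Classical Cfsg.Agent.Lib.Classical.Abs Cfsg.Agent.Lib.Classical.Orth Cfsg.Agent.Lib.Classical.Exc
open scoped commutatorElement

section

variable {F : Type*} [Field F]

/-- `2 × 2` matrices. -/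
def mM (w : Fin 2 ⊕ Fin 2 → F) : Matrix (Fin 2) (Fin 2) F :=
  !![w (.inl 0), w (.inl 1); - w (.inr 1), w (.inr 0)]

/-- Coordinates. -/
def mE (X : Matrix (Fin 2) (Fin 2) F) : Fin 2 ⊕ Fin 2 → F :=
  Sum.elim ![X 0 0, X 0 1] ![X 1 1, - X 1 0]

lemma mE_mM (w : Fin 2 ⊕ Fin 2 → F) : mE (mM w) = w := by
  funext i
  rcases i with i | i <;> fin_cases i <;> simp [mE, mM]

lemma mM_mE (X : Matrix (Fin 2) (Fin 2) F) : mM (mE X) = X := by
  ext i j
  fin_cases i <;> fin_cases j <;> simp [mE, mM]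

/-- The action. -/
def rho (A : Matrix.SpecialLinearGroup (Fin 2) F × Matrix.SpecialLinearGroup (Fin 2) F) (w : Fin 2 ⊕ Fin 2 → F) :
    Fin 2 ⊕ Fin 2 → F :=
  mE (A.1.1 * mM w * (A.2⁻¹).1)

lemma rho_mul (A B : Matrix.SpecialLinearGroup (Fin 2) F × Matrix.SpecialLinearGroup (Fin 2) F) (w : Fin 2 ⊕ Fin 2 → F) :
    rho (A * B) w = rho A (rho B w) := by
  rw [rho, rho, rho, mM_mE, Prod.snd_mul, Prod.fst_mul, _root_.mul_inv_rev]
  simp only [Matrix.SpecialLinearGroup.coe_mul, Matrix.mul_assoc]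

lemma rho_one (w : Fin 2 ⊕ Fin 2 → F) : rho 1 w = w := by
  simp [rho, mE_mM]

lemma mM_add (u v : Fin 2 ⊕ Fin 2 → F) : mM (u + v) = mM u + mM v := by
  ext i j
  fin_cases i <;> fin_cases j <;> simp [mM] <;> ring

lemma mM_smul (c : F) (u : Fin 2 ⊕ Fin 2 → F) : mM (c • u) = c • mM u := by
  ext i j
  fin_cases i <;> fin_cases j <;> simp [mM]

lemma mE_add (X Y : Matrix (Fin 2) (Fin 2) F) : mE (X + Y) = mE X + mE Y := by
  funext i
  rcases i with i | i <;> fin_cases i <;> simp [mE] <;> ring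

lemma mE_smul (c : F) (X : Matrix (Fin 2) (Fin 2) F) : mE (c • X) = c • mE X := by
  funext i
  rcases i with i | i <;> fin_cases i <;> simp [mE]

lemma Q_eq (w : Fin 2 ⊕ Fin 2 → F) : Qplus 2 F w = (mM w).det := by
  rw [Qplus_apply, Cfsg.quadFormPlus, Matrix.det_fin_two]
  simp [mM, Fin.sum_univ_two]

lemma Q_rho (A : Matrix.SpecialLinearGroup (Fin 2) F × Matrix.SpecialLinearGroup (Fin 2) F) (w : Fin 2 ⊕ Fin 2 → F) :
    Qplus 2 F (rho A w) = Qplus 2 F w := by
  rw [Q_eq, Q_eq, rho, mM_mE, Matrix.det_mul, Matrix.det_mul, A.1.2, (A.2⁻¹).2, one_mul, mul_one]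

/-- The homomorphism. -/
noncomputable def phi : Matrix.SpecialLinearGroup (Fin 2) F × Matrix.SpecialLinearGroup (Fin 2) F →* OG (Qplus 2 F) where
  toFun A := ⟨{ toFun := rho A
                map_add' := fun u v => by
                  unfold rho
                  rw [mM_add, Matrix.mul_add, Matrix.add_mul, mE_add]
                map_smul' := fun c u => by
                  unfold rho
                  rw [mM_smul, Matrix.mul_smul, Matrix.smul_mul, mE_smul]
                  rfl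
                invFun := rho A⁻¹
                left_inv := fun w => by
                  change rho A⁻¹ (rho A w) = w
                  rw [← rho_mul, inv_mul_cancel, rho_one]
                right_inv := fun w => by
                  change rho A (rho A⁻¹ w) = w
                  rw [← rho_mul, mul_inv_cancel, rho_one] }, fun u _ => Q_rho A u⟩
  map_one' := by
    apply OG_ext
    intro w
    exact rho_one w
  map_mul' A B := by
    apply OG_ext
    intro w
    exact rho_mul A B w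

lemma phi_apply (A : Matrix.SpecialLinearGroup (Fin 2) F × Matrix.SpecialLinearGroup (Fin 2) F) (w : Fin 2 ⊕ Fin 2 → F) :
    (phi A).1 w = rho A w := rfl

/-- Kernel. -/
lemma ker_scalar {A : Matrix.SpecialLinearGroup (Fin 2) F × Matrix.SpecialLinearGroup (Fin 2) F}
    (hA : A ∈ (phi (F := F)).ker) : ∃ c : F, c * c = 1 ∧ A.1.1 = c • 1 ∧ A.2.1 = c • 1 := by
  rw [MonoidHom.mem_ker] at hA
  have hfix : ∀ X : Matrix (Fin 2) (Fin 2) F, A.1.1 * X = X * A.2.1 := by
    intro X
    have h1 : rho A (mE X) = mE X := by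
      rw [← phi_apply, hA]
      rfl
    have h3 : A.1.1 * X * (A.2⁻¹).1 = X := by
      have := congrArg mM h1
      rw [rho, mM_mE, mM_mE] at this
      exact this
    have h4 : (A.2⁻¹).1 * A.2.1 = 1 := by
      rw [← Matrix.SpecialLinearGroup.coe_mul, inv_mul_cancel]
      rfl
    calc A.1.1 * X = A.1.1 * X * ((A.2⁻¹).1 * A.2.1) := by rw [h4, Matrix.mul_one]
      _ = X * A.2.1 := by rw [← Matrix.mul_assoc, h3]
  have heq : A.1.1 = A.2.1 := by
    have := hfix 1
    simpa using this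
  have h1 := hfix !![0, 1; 0, 0]
  have h3 := hfix !![0, 0; 1, 0]
  rw [← heq] at h1 h3
  have e1 : A.1.1 1 0 = 0 := by
    have := congrFun (congrFun h1 0) 0
    simpa [Matrix.mul_apply, Fin.sum_univ_two] using this.symm
  have e2 : A.1.1 0 1 = 0 := by
    have := congrFun (congrFun h3 0) 0
    simpa [Matrix.mul_apply, Fin.sum_univ_two] using this
  have e3 : A.1.1 1 1 = A.1.1 0 0 := by
    have := congrFun (congrFun h1 0) 1
    simpa [Matrix.mul_apply, Fin.sum_univ_two] using this.symm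
  have hA' : A.1.1 = (A.1.1 0 0) • (1 : Matrix (Fin 2) (Fin 2) F) := by
    ext i j
    fin_cases i <;> fin_cases j <;> simp [e1, e2, e3]
  refine ⟨A.1.1 0 0, ?_, hA', by rw [← heq]; exact hA'⟩
  have hdet := A.1.2
  rw [Matrix.det_fin_two, e1, e2, e3] at hdet
  linear_combination hdet

lemma ker_le : (phi (F := F)).ker ≤ Subgroup.center (Matrix.SpecialLinearGroup (Fin 2) F × Matrix.SpecialLinearGroup (Fin 2) F) := by
  intro A hA
  obtain ⟨c, -, h1, h3⟩ := ker_scalar hA
  rw [Subgroup.mem_center_iff]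
  intro g
  refine Prod.ext (Subtype.ext ?_) (Subtype.ext ?_)
  · change g.1.1 * A.1.1 = A.1.1 * g.1.1
    rw [h1]
    simp
  · change g.2.1 * A.2.1 = A.2.1 * g.2.1
    rw [h3]
    simp

lemma card_ker_le [Fintype F] : Nat.card (phi (F := F)).ker ≤ Nat.card {x : F // x * x = 1} := by
  classical
  let f : (phi (F := F)).ker → {x : F // x * x = 1} := fun A =>
    ⟨(ker_scalar A.2).choose, (ker_scalar A.2).choose_spec.1⟩
  apply Nat.card_le_card_of_injective f
  intro A B h
  have h4 : (ker_scalar A.2).choose = (ker_scalar B.2).choose := congrArg Subtype.val h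
  apply Subtype.ext
  refine Prod.ext (Subtype.ext ?_) (Subtype.ext ?_)
  · rw [(ker_scalar A.2).choose_spec.2.1, (ker_scalar B.2).choose_spec.2.1, h4]
  · rw [(ker_scalar A.2).choose_spec.2.2, (ker_scalar B.2).choose_spec.2.2, h4]

lemma central_prod (x : Matrix.SpecialLinearGroup (Fin 2) F × Matrix.SpecialLinearGroup (Fin 2) F)
    (h : ∀ g, ⁅x, g⁆ ∈ Subgroup.center (Matrix.SpecialLinearGroup (Fin 2) F × Matrix.SpecialLinearGroup (Fin 2) F)) :
    x ∈ Subgroup.center (Matrix.SpecialLinearGroup (Fin 2) F × Matrix.SpecialLinearGroup (Fin 2) F) := by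
  rw [Subgroup.center_prod] at h ⊢
  refine ⟨sl2_central _ fun g => ?_, sl2_central _ fun g => ?_⟩
  · exact (h (g, 1)).1
  · exact (h (1, g)).2

end

/-- PΩ^+_4(q) is isomorphic to PSL_2(q) x PSL_2(q) for q at least 3. -/
theorem result {F : Type*} [Field F] [Fintype F] (hF : 3 ≤ Fintype.card F) : Nonempty (Cfsg.POmega F (Cfsg.quadFormPlus 2 F) ≃* Matrix.ProjectiveSpecialLinearGroup (Fin 2) F × Matrix.ProjectiveSpecialLinearGroup (Fin 2) F) := by
  classical
  have e : Cfsg.quadFormPlus 2 F = ⇑(Qplus 2 F) := funext fun v => (Qplus_apply 2 v).symm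
  rw [e]
  have hQ := Qplus_nondeg (F := F) 2
  have hfr : Module.finrank F (Fin 2 ⊕ Fin 2 → F) = 4 := by simp
  set q := Fintype.card F with hq
  have hR : Rf (Qplus 2 F) = ⊤ := Rf_eq_top hQ (Or.inl (by omega))
  let π : Matrix.SpecialLinearGroup (Fin 2) F × Matrix.SpecialLinearGroup (Fin 2) F →*
      Matrix.ProjectiveSpecialLinearGroup (Fin 2) F × Matrix.ProjectiveSpecialLinearGroup (Fin 2) F :=
    MonoidHom.prodMap (QuotientGroup.mk' _) (QuotientGroup.mk' _)
  have hπs : Function.Surjective π :=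
    Function.Surjective.prodMap (QuotientGroup.mk'_surjective _) (QuotientGroup.mk'_surjective _)
  have hπk : π.ker = Subgroup.center (Matrix.SpecialLinearGroup (Fin 2) F × Matrix.SpecialLinearGroup (Fin 2) F) := by
    rw [Subgroup.center_prod]
    ext x
    rw [MonoidHom.mem_ker, Prod.ext_iff]
    constructor
    · rintro ⟨h1, h3⟩
      exact ⟨(QuotientGroup.eq_one_iff _).mp h1, (QuotientGroup.eq_one_iff _).mp h3⟩
    · rintro ⟨h1, h3⟩
      exact ⟨(QuotientGroup.eq_one_iff _).mpr h1, (QuotientGroup.eq_one_iff _).mpr h3⟩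
  have hmem : ∀ g, phi g ∈ commutator (OG (Qplus 2 F)) := by
    intro g
    have hcase : ((2 : F) ≠ 0 ∧ Rf (Qplus 2 F) = ⊤) ∨ 4 ≤ Fintype.card F := by
      by_cases h2 : (2 : F) = 0
      · right
        have hch : ringChar F = 2 := CharP.ringChar_of_prime_eq_zero Nat.prime_two (by exact_mod_cast h2)
        have := FiniteField.even_card_iff_char_two.mp hch
        omega
      · exact Or.inl ⟨h2, hR⟩
    have e1 : g = (g.1, 1) * (1, g.2) := by simp
    rw [e1, map_mul]
    let f₁ : Matrix.SpecialLinearGroup (Fin 2) F →* OG (Qplus 2 F) := phi.comp (MonoidHom.inl _ _)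
    let f₂ : Matrix.SpecialLinearGroup (Fin 2) F →* OG (Qplus 2 F) := phi.comp (MonoidHom.inr _ _)
    exact Subgroup.mul_mem _ (sl2_hom_mem f₁ hcase g.1) (sl2_hom_mem f₂ hcase g.2)
  refine pomega_iso (Qplus 2 F) phi π hπs hπk hmem ?_ ker_le central_prod
  have h1 := Subgroup.card_mul_index (commutator (OG (Qplus 2 F)))
  have hord := Qplus_order (F := F) 1
  simp only [Finset.prod_range_one] at hord
  have hO : Nat.card (OG (Qplus 2 F)) = 2 * (q ^ 2 * (q ^ 2 - 1) * (q ^ 2 - 1)) := by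
    change Nat.card (isoG (fun u _ : Fin (1 + 1) ⊕ Fin (1 + 1) → F => Qplus (1 + 1) F u)) = _
    rw [hord]
    simp only [Nat.reduceAdd, mul_one, zero_add]
    ring
  have hq1 : 1 ≤ q := Fintype.card_pos
  have hSL : Nat.card (Matrix.SpecialLinearGroup (Fin 2) F × Matrix.SpecialLinearGroup (Fin 2) F) = q ^ 2 * (q ^ 2 - 1) * (q ^ 2 - 1) := by
    rw [Nat.card_prod, card_SL2, ← hq]
    obtain ⟨k, hk⟩ : ∃ k, q = k + 1 := ⟨q - 1, by omega⟩
    rw [hk]
    have e2 : (k + 1) ^ 2 - 1 = k * (k + 1 + 1) := by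
      apply Nat.sub_eq_of_eq_add
      ring
    rw [e2]
    simp only [add_tsub_cancel_right]
    ring
  rw [hSL]
  by_cases h2 : (2 : F) = 0
  · rw [index_commutator_even h2 hQ (by omega) (Or.inl (by omega)), hO] at h1
    have h3 : Nat.card (phi (F := F)).ker ≤ 1 := card_ker_le.trans (card_sqrt_one_even h2)
    have h4 : Nat.card (commutator (OG (Qplus 2 F))) = q ^ 2 * (q ^ 2 - 1) * (q ^ 2 - 1) := by
      omega
    rw [h4]
    exact (Nat.mul_le_mul_left _ h3).trans (by simp)
  · rw [index_commutator h2 hQ (by omega), hO] at h1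
    have h3 : Nat.card (phi (F := F)).ker ≤ 2 := card_ker_le.trans card_sqrt_one_le
    have h4 : Nat.card (commutator (OG (Qplus 2 F))) * 2 = q ^ 2 * (q ^ 2 - 1) * (q ^ 2 - 1) := by
      omega
    rw [← h4]
    exact Nat.mul_le_mul_left _ h3

end Cfsg.Agent.S0299
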