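import Cfsg.Statements.S0301
import Mathlib
import Cfsg.Agent.S0245
import Cfsg.Agent.Lib.Classical.ExcSL2
import Cfsg.Agent.Lib.Classical.ExcAlt
import Cfsg.Agent.Lib.Classical.Klein
import Cfsg.Agent.Lib.Classical.OrderForms
import Cfsg.Agent.Lib.Classical.SpPerfect

set_option autoImplicit false
open Cfsg

namespace Cfsg.Agent.S0301

open Matrix Cfsg.Agent.Lib.Classical Cfsg.Agent.Lib.Classical.Abs Cfsg.Agent.Lib.Classical.Orth Cfsg.Agent.Lib.Classical.Exc Cfsg.Agent.Lib.Classical.Klein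

section

variable {F : Type*} [Field F]

/-- Index identification. -/
def ee : Fin 4 ≃ Fin 2 ⊕ Fin 2 where
  toFun := ![.inl 0, .inl 1, .inr 0, .inr 1]
  invFun := Sum.elim ![0, 1] ![2, 3]
  left_inv := by decide
  right_inv := by decide

local notation "Sp₄" => Matrix.symplecticGroup (Fin 2) F
local notation "V₅" => (Unit ⊕ (Fin 2 ⊕ Fin 2) → F)
local notation "V₆" => (Fin 3 ⊕ Fin 3 → F)

/-- `Sp₄` in `SL₄`. -/
def toSL (A : Sp₄) : Matrix.SpecialLinearGroup (Fin 4) F :=
  ⟨(A : Matrix (Fin 2 ⊕ Fin 2) (Fin 2 ⊕ Fin 2) F).submatrix ee ee, by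
    rw [Matrix.det_submatrix_equiv_self]
    exact SymplecticGroup.det_eq_one A.2⟩

lemma toSL_mul (A B : Sp₄) : toSL (A * B) = toSL A * toSL B := by
  apply Subtype.ext
  change (((A * B : Sp₄) : Matrix (Fin 2 ⊕ Fin 2) (Fin 2 ⊕ Fin 2) F)).submatrix ee ee =
    ((A : Matrix (Fin 2 ⊕ Fin 2) (Fin 2 ⊕ Fin 2) F)).submatrix ee ee * ((B : Matrix (Fin 2 ⊕ Fin 2) (Fin 2 ⊕ Fin 2) F)).submatrix ee ee
  rw [Matrix.submatrix_mul_equiv]
  rfl

lemma toSL_one : toSL (1 : Sp₄) = 1 := by
  apply Subtype.ext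
  change (1 : Matrix (Fin 2 ⊕ Fin 2) (Fin 2 ⊕ Fin 2) F).submatrix ee ee = 1
  exact Matrix.submatrix_one_equiv ee

/-- The form in `Fin 4` coordinates. -/
def JJ (F : Type*) [Field F] : Matrix (Fin 4) (Fin 4) F := (Matrix.J (Fin 2) F).submatrix ee ee

lemma toSL_J (A : Sp₄) : (toSL A).1 * JJ F * (toSL A).1.transpose = JJ F := by
  have h := SymplecticGroup.mem_iff.mp A.2
  change (A : Matrix (Fin 2 ⊕ Fin 2) (Fin 2 ⊕ Fin 2) F).submatrix ee ee * (Matrix.J (Fin 2) F).submatrix ee ee *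
    ((A : Matrix (Fin 2 ⊕ Fin 2) (Fin 2 ⊕ Fin 2) F).submatrix ee ee).transpose = (Matrix.J (Fin 2) F).submatrix ee ee
  rw [Matrix.transpose_submatrix, Matrix.submatrix_mul_equiv, Matrix.submatrix_mul_equiv, h]

lemma toSL_J' (A : Sp₄) : (toSL A).1.transpose * JJ F * (toSL A).1 = JJ F := by
  have h := SymplecticGroup.mem_iff'.mp A.2
  change ((A : Matrix (Fin 2 ⊕ Fin 2) (Fin 2 ⊕ Fin 2) F).submatrix ee ee).transpose * (Matrix.J (Fin 2) F).submatrix ee ee *
    (A : Matrix (Fin 2 ⊕ Fin 2) (Fin 2 ⊕ Fin 2) F).submatrix ee ee = (Matrix.J (Fin 2) F).submatrix ee ee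
  rw [Matrix.transpose_submatrix, Matrix.submatrix_mul_equiv, Matrix.submatrix_mul_equiv, h]

/-- The trace form. -/
lemma trace_alt (w : V₆) : (altM w * JJ F).trace = 2 * (w (.inl 1) - w (.inr 1)) := by
  have hee : ∀ i j, JJ F i j = Matrix.J (Fin 2) F (ee i) (ee j) := fun _ _ => rfl
  simp only [Matrix.trace, Matrix.diag_apply, Matrix.mul_apply, Fin.sum_univ_four, hee]
  have h0 : ee (0 : Fin 4) = Sum.inl 0 := rfl
  have h1 : ee (1 : Fin 4) = Sum.inl 1 := rfl
  have h2 : ee (2 : Fin 4) = Sum.inr 0 := rfl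
  have h3 : ee (3 : Fin 4) = Sum.inr 1 := rfl
  simp [h0, h1, h2, h3, altM, Matrix.J, Matrix.one_apply]
  ring

/-- Invariance of the 5-space. -/
lemma inv_W (h2 : (2 : F) ≠ 0) (A : Sp₄) {w : V₆} (hw : w (.inl 1) = w (.inr 1)) :
    rhoK (toSL A).1 w (.inl 1) = rhoK (toSL A).1 w (.inr 1) := by
  have h1 := trace_alt (rhoK (toSL A).1 w)
  rw [altM_rhoK] at h1
  have h3 : ((toSL A).1 * altM w * (toSL A).1.transpose * JJ F).trace = (altM w * JJ F).trace := by
    calc ((toSL A).1 * altM w * (toSL A).1.transpose * JJ F).trace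
        = ((toSL A).1 * (altM w * ((toSL A).1.transpose * JJ F))).trace := by simp only [Matrix.mul_assoc]
      _ = (altM w * ((toSL A).1.transpose * JJ F) * (toSL A).1).trace := Matrix.trace_mul_comm _ _
      _ = (altM w * ((toSL A).1.transpose * JJ F * (toSL A).1)).trace := by simp only [Matrix.mul_assoc]
      _ = _ := by rw [toSL_J']
  rw [h3, trace_alt, hw, sub_self, mul_zero] at h1
  have h4 := (mul_eq_zero.mp h1.symm).resolve_left h2
  exact sub_eq_zero.mp h4

/-- The embedding of the 5-space. -/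
def iotaL : V₅ →ₗ[F] V₆ where
  toFun v := Sum.elim ![v (.inr (.inl 0)), v (.inl ()), v (.inr (.inl 1))] ![v (.inr (.inr 0)), v (.inl ()), v (.inr (.inr 1))]
  map_add' u v := by
    funext i
    rcases i with i | i <;> fin_cases i <;> simp
  map_smul' c u := by
    funext i
    rcases i with i | i <;> fin_cases i <;> simp

/-- The projection on the 5-space. -/
def projL : V₆ →ₗ[F] V₅ where
  toFun w := Sum.elim (fun _ => w (.inl 1)) (Sum.elim ![w (.inl 0), w (.inl 2)] ![w (.inr 0), w (.inr 2)])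
  map_add' u v := by
    funext i
    rcases i with ⟨⟩ | i | i
    · simp
    · fin_cases i <;> simp
    · fin_cases i <;> simp
  map_smul' c u := by
    funext i
    rcases i with ⟨⟩ | i | i
    · simp
    · fin_cases i <;> simp
    · fin_cases i <;> simp

lemma proj_iota (v : V₅) : projL (iotaL v) = v := by
  funext i
  rcases i with ⟨⟩ | i | i
  · simp [projL, iotaL]
  · fin_cases i <;> simp [projL, iotaL]
  · fin_cases i <;> simp [projL, iotaL]

lemma iota_proj {w : V₆} (hw : w (.inl 1) = w (.inr 1)) : iotaL (projL w) = w := by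
  funext i
  rcases i with i | i <;> fin_cases i <;> simp [projL, iotaL, hw]

lemma iota_W (v : V₅) : iotaL v (.inl 1) = iotaL v (.inr 1) := by
  simp [iotaL]

lemma Q_iota (v : V₅) : Cfsg.quadFormPlus 3 F (iotaL v) = Qodd 2 F v := by
  rw [Qodd_apply, Cfsg.quadFormPlus, Cfsg.quadFormOdd]
  simp [iotaL, Fin.sum_univ_three, Fin.sum_univ_two]
  ring

lemma Q_proj {w : V₆} (hw : w (.inl 1) = w (.inr 1)) : Qodd 2 F (projL w) = Cfsg.quadFormPlus 3 F w := by
  rw [← Q_iota, iota_proj hw]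

variable (h2 : (2 : F) ≠ 0)

/-- The action on the 5-space. -/
def rhoS (A : Sp₄) : V₅ →ₗ[F] V₅ := projL ∘ₗ rhoL (toSL A).1 ∘ₗ iotaL

include h2 in
lemma rhoS_mul (A B : Sp₄) (v : V₅) : rhoS (A * B) v = rhoS A (rhoS B v) := by
  change projL (rhoK (toSL (A * B)).1 (iotaL v)) = projL (rhoK (toSL A).1 (iotaL (projL (rhoK (toSL B).1 (iotaL v)))))
  rw [iota_proj (inv_W h2 B (iota_W v)), toSL_mul]
  change projL (rhoK ((toSL A).1 * (toSL B).1) (iotaL v)) = _
  rw [rhoK_mul]

lemma rhoS_one (v : V₅) : rhoS (1 : Sp₄) v = v := by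
  change projL (rhoK (toSL (1 : Sp₄)).1 (iotaL v)) = v
  rw [toSL_one]
  change projL (rhoK 1 (iotaL v)) = v
  rw [rhoK_one, proj_iota]

include h2 in
lemma rhoS_pres (A : Sp₄) (v : V₅) : Qodd 2 F (rhoS A v) = Qodd 2 F v := by
  change Qodd 2 F (projL (rhoK (toSL A).1 (iotaL v))) = _
  rw [Q_proj (inv_W h2 A (iota_W v)), pfaffian_det, (toSL A).2, one_mul, Q_iota]

/-- The homomorphism. -/
noncomputable def phi : Sp₄ →* OG (Qodd 2 F) where
  toFun A := ⟨{ toLinearMap := rhoS A
                invFun := rhoS A⁻¹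
                left_inv := fun w => by
                  change rhoS A⁻¹ (rhoS A w) = w
                  rw [← rhoS_mul h2, inv_mul_cancel, rhoS_one]
                right_inv := fun w => by
                  change rhoS A (rhoS A⁻¹ w) = w
                  rw [← rhoS_mul h2, mul_inv_cancel, rhoS_one] }, fun u _ => rhoS_pres h2 A u⟩
  map_one' := by
    apply OG_ext
    intro w
    exact rhoS_one w
  map_mul' A B := by
    apply OG_ext
    intro w
    exact rhoS_mul h2 A B w

lemma phi_apply (A : Sp₄) (w : V₅) : (phi h2 A).1 w = projL (rhoK (toSL A).1 (iotaL w)) := rfl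

/-- The vector of `J`. -/
def jv (F : Type*) [Field F] : Fin 3 ⊕ Fin 3 → F := Sum.elim ![0, -1, 0] ![0, 1, 0]

lemma altM_jv : altM (jv F) = JJ F := by
  have hee : ∀ i j, JJ F i j = Matrix.J (Fin 2) F (ee i) (ee j) := fun _ _ => rfl
  have h0 : ee (0 : Fin 4) = Sum.inl 0 := rfl
  have h1 : ee (1 : Fin 4) = Sum.inl 1 := rfl
  have h2 : ee (2 : Fin 4) = Sum.inr 0 := rfl
  have h3 : ee (3 : Fin 4) = Sum.inr 1 := rfl
  ext i j
  rw [hee]
  fin_cases i <;> fin_cases j <;> simp [altM, jv, Matrix.J, Matrix.one_apply, h0, h1, h2, h3]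

/-- Elements of the kernel are scalar with square one. -/
lemma ker_scalar {A : Sp₄} (hA : A ∈ (phi h2).ker) :
    ∃ c : F, (toSL A).1 = c • 1 ∧ c * c = 1 := by
  rw [MonoidHom.mem_ker] at hA
  have hW : ∀ w : V₆, w (.inl 1) = w (.inr 1) → rhoK (toSL A).1 w = w := by
    intro w hw
    have h1 : projL (rhoK (toSL A).1 (iotaL (projL w))) = projL w := by
      rw [← phi_apply h2, hA]
      rfl
    rw [iota_proj hw] at h1
    rw [← iota_proj (inv_W h2 A hw), h1, iota_proj hw]
  have hJ : rhoK (toSL A).1 (jv F) = jv F := by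
    have h1 := altM_rhoK (toSL A).1 (jv F)
    rw [altM_jv, toSL_J] at h1
    have h3 := congrArg extM h1
    rw [extM_altM, ← altM_jv, extM_altM] at h3
    exact h3
  have hall : ∀ w : V₆, rhoK (toSL A).1 w = w := by
    intro w
    obtain ⟨s, hs2⟩ : ∃ s : F, 2 * s = w (.inr 1) - w (.inl 1) :=
      ⟨(w (.inr 1) - w (.inl 1)) / 2, by field_simp⟩
    have h1 : (w - s • jv F) (.inl 1) = (w - s • jv F) (.inr 1) := by
      simp [jv]
      linear_combination hs2
    have h3 := hW _ h1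
    have h4 : w = (w - s • jv F) + s • jv F := by abel
    rw [h4]
    change rhoL (toSL A).1 _ = _
    rw [map_add, map_smul]
    change rhoK (toSL A).1 _ + s • rhoK (toSL A).1 _ = _
    rw [h3, hJ]
  have hfix : ∀ X : Matrix (Fin 4) (Fin 4) F, (∀ i, X i i = 0) → (∀ i j, X j i = - X i j) →
      (toSL A).1 * X * (toSL A).1.transpose = X := by
    intro X h0 h1
    have h4 := altM_rhoK (toSL A).1 (extM X)
    rw [hall, altM_extM X h0 h1] at h4
    exact h4.symm
  apply scalar_of_wedge_fix (by simp) (toSL A).1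
  intro i j hij k l
  have := hfix (wedge F i j) (fun a => wedge_diag i j a) (fun a b => wedge_anti i j a b)
  have h5 := congrFun (congrFun this k) l
  rw [entry_wedge, wedge_entry] at h5
  exact h5

lemma toSL_inj {A B : Sp₄} (h : (toSL A).1 = (toSL B).1) : A = B := by
  apply Subtype.ext
  have h1 : ∀ C : Sp₄, (C : Matrix (Fin 2 ⊕ Fin 2) (Fin 2 ⊕ Fin 2) F) = ((toSL C).1).submatrix ee.symm ee.symm := by
    intro C
    ext i j
    simp [toSL]
  rw [h1 A, h1 B, h]

lemma ker_le : (phi h2).ker ≤ Subgroup.center Sp₄ := by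
  intro A hA
  obtain ⟨c, hc, -⟩ := ker_scalar h2 hA
  have hA' : (A : Matrix (Fin 2 ⊕ Fin 2) (Fin 2 ⊕ Fin 2) F) = c • 1 := by
    have h1 : (A : Matrix (Fin 2 ⊕ Fin 2) (Fin 2 ⊕ Fin 2) F) = ((toSL A).1).submatrix ee.symm ee.symm := by
      ext i j
      simp [toSL]
    rw [h1, hc]
    ext i j
    simp [Matrix.one_apply]
  rw [Subgroup.mem_center_iff]
  intro g
  apply Subtype.ext
  change (g : Matrix (Fin 2 ⊕ Fin 2) (Fin 2 ⊕ Fin 2) F) * A = A * (g : Matrix (Fin 2 ⊕ Fin 2) (Fin 2 ⊕ Fin 2) F)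
  rw [hA']
  simp

lemma card_ker_le [Fintype F] : Nat.card (phi h2).ker ≤ Nat.card {x : F // x * x = 1} := by
  classical
  let f : (phi h2).ker → {x : F // x * x = 1} := fun A =>
    ⟨(ker_scalar h2 A.2).choose, (ker_scalar h2 A.2).choose_spec.2⟩
  apply Nat.card_le_card_of_injective f
  intro A B h
  apply Subtype.ext
  apply toSL_inj
  rw [(ker_scalar h2 A.2).choose_spec.1, (ker_scalar h2 B.2).choose_spec.1]
  have h4 : (ker_scalar h2 A.2).choose = (ker_scalar h2 B.2).choose := congrArg Subtype.val h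
  rw [h4]

end

/-- PΩ_5(q) is isomorphic to PSp_4(q) for q odd. -/
theorem result {F : Type*} [Field F] [Fintype F] (hodd : Odd (Fintype.card F)) : Nonempty (Cfsg.POmega F (Cfsg.quadFormOdd 2 F) ≃* Cfsg.PSp 2 F) := by
  classical
  have h2 : (2 : F) ≠ 0 := by
    intro h
    have hch : ringChar F = 2 := CharP.ringChar_of_prime_eq_zero Nat.prime_two (by exact_mod_cast h)
    have := FiniteField.even_card_iff_char_two.mp hch
    rw [Nat.odd_iff] at hodd
    omega
  have e : Cfsg.quadFormOdd 2 F = ⇑(Qodd 2 F) := funext fun v => (Qodd_apply 2 v).symm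
  rw [e]
  have hQ := Qodd_nondeg h2 2
  have hfr : Module.finrank F (Unit ⊕ (Fin 2 ⊕ Fin 2) → F) = 5 := by simp
  set q := Fintype.card F with hq
  have hq3 : 3 ≤ q := by
    have h1 : 1 < q := Fintype.one_lt_card
    rw [Nat.odd_iff] at hodd
    omega
  have hperf : commutator (Matrix.symplecticGroup (Fin 2) F) = ⊤ := sp_perfect (Or.inr (Or.inl ⟨rfl, hq3⟩))
  refine pomega_iso (Qodd 2 F) (phi h2) (QuotientGroup.mk' _) (QuotientGroup.mk'_surjective _) (QuotientGroup.ker_mk' _) ?_ ?_ (ker_le h2) (central_of_perfect hperf)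
  · intro g
    have hg : g ∈ commutator (Matrix.symplecticGroup (Fin 2) F) := by
      rw [hperf]
      trivial
    have hle : commutator (Matrix.symplecticGroup (Fin 2) F) ≤ (commutator (OG (Qodd 2 F))).comap (phi h2) := by
      rw [commutator_def, Subgroup.commutator_le]
      intro a _ b _
      rw [Subgroup.mem_comap, map_commutatorElement]
      exact Subgroup.commutator_mem_commutator trivial trivial
    exact hle hg
  · have h1 := Subgroup.card_mul_index (commutator (OG (Qodd 2 F)))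
    rw [index_commutator h2 hQ (by omega)] at h1
    have hord := Qodd_order h2 2
    have hO : Nat.card (OG (Qodd 2 F)) = 2 * (q ^ 4 * ((q ^ 2 - 1) * (q ^ 4 - 1))) := by
      change Nat.card (isoG (fun u _ : Unit ⊕ (Fin 2 ⊕ Fin 2) → F => Qodd 2 F u)) = _
      rw [hord, ← hq]
      simp only [Finset.prod_range_succ, Finset.prod_range_zero, one_mul]
      ring_nf
    have hSp : Nat.card (Matrix.symplecticGroup (Fin 2) F) = q ^ 4 * ((q ^ 2 - 1) * (q ^ 4 - 1)) := by
      rw [Cfsg.Agent.S0245.result (q := q) hq.symm 2]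
      simp only [Finset.prod_range_succ, Finset.prod_range_zero, one_mul]
      ring_nf
    rw [hO] at h1
    rw [hSp]
    have h3 : Nat.card (phi h2).ker ≤ 2 := (card_ker_le h2).trans card_sqrt_one_le
    have h4 : Nat.card (commutator (OG (Qodd 2 F))) * 2 = q ^ 4 * ((q ^ 2 - 1) * (q ^ 4 - 1)) := by
      omega
    rw [← h4]
    exact Nat.mul_le_mul_left _ h3

end Cfsg.Agent.S0301
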