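import Cfsg.Statements.S0302
import Mathlib
import Cfsg.Agent.Lib.Classical.ExcBase
import Cfsg.Agent.Lib.Classical.ExcAlt
import Cfsg.Agent.Lib.Classical.Klein
import Cfsg.Agent.Lib.Classical.OrderForms
import Cfsg.Agent.Lib.Classical.Basic

set_option autoImplicit false
open Cfsg

namespace Cfsg.Agent.S0302

open Matrix Cfsg.Agent.Lib.Classical Cfsg.Agent.Lib.Classical.Abs Cfsg.Agent.Lib.Classical.Orth Cfsg.Agent.Lib.Classical.Exc Cfsg.Agent.Lib.Classical.Klein

section

variable {F : Type*} [Field F]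

/-- The Klein homomorphism into the orthogonal group. -/
noncomputable def phi : Matrix.SpecialLinearGroup (Fin 4) F →* OG (Qplus 3 F) where
  toFun A := ⟨rhoEquiv A, fun u _ => by
    change Qplus 3 F (rhoK A.1 u) = Qplus 3 F u
    rw [Qplus_apply, Qplus_apply, pfaffian_det, A.2, one_mul]⟩
  map_one' := by
    apply OG_ext
    intro w
    exact rhoK_one w
  map_mul' A B := by
    apply OG_ext
    intro w
    exact rhoK_mul A.1 B.1 w

lemma phi_apply (A : Matrix.SpecialLinearGroup (Fin 4) F) (w : Fin 3 ⊕ Fin 3 → F) :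
    (phi A).1 w = rhoK A.1 w := rfl

/-- Elements of the kernel are scalar with square one. -/
lemma ker_scalar {A : Matrix.SpecialLinearGroup (Fin 4) F} (hA : A ∈ (phi (F := F)).ker) :
    ∃ c : F, A.1 = c • 1 ∧ c * c = 1 := by
  rw [MonoidHom.mem_ker] at hA
  have hfix : ∀ X : Matrix (Fin 4) (Fin 4) F, (∀ i, X i i = 0) → (∀ i j, X j i = - X i j) →
      A.1 * X * A.1.transpose = X := by
    intro X h0 h1
    have h3 : rhoK A.1 (extM X) = extM X := by
      rw [← phi_apply, hA]
      rfl
    have h4 := altM_rhoK A.1 (extM X)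
    rw [h3, altM_extM X h0 h1] at h4
    exact h4.symm
  apply scalar_of_wedge_fix (by simp) A.1
  intro i j hij k l
  have := hfix (wedge F i j) (fun a => wedge_diag i j a) (fun a b => wedge_anti i j a b)
  have h5 := congrFun (congrFun this k) l
  rw [entry_wedge, wedge_entry] at h5
  exact h5

lemma ker_le : (phi (F := F)).ker ≤ Subgroup.center (Matrix.SpecialLinearGroup (Fin 4) F) := by
  intro A hA
  obtain ⟨c, hc, -⟩ := ker_scalar hA
  rw [Subgroup.mem_center_iff]
  intro g
  apply Subtype.ext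
  change g.1 * A.1 = A.1 * g.1
  rw [hc]
  simp

lemma card_ker_le [Fintype F] : Nat.card (phi (F := F)).ker ≤ Nat.card {x : F // x * x = 1} := by
  classical
  let f : (phi (F := F)).ker → {x : F // x * x = 1} := fun A =>
    ⟨(ker_scalar A.2).choose, (ker_scalar A.2).choose_spec.2⟩
  apply Nat.card_le_card_of_injective f
  intro A B h
  apply Subtype.ext
  apply Subtype.ext
  have h1 := (ker_scalar A.2).choose_spec.1
  have h3 := (ker_scalar B.2).choose_spec.1
  rw [h1, h3]
  have h4 : (ker_scalar A.2).choose = (ker_scalar B.2).choose := congrArg Subtype.val h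
  rw [h4]

end

/-- PΩ^+_6(q) is isomorphic to PSL_4(q). -/
theorem result {F : Type*} [Field F] [Fintype F] : Nonempty (Cfsg.POmega F (Cfsg.quadFormPlus 3 F) ≃* Matrix.ProjectiveSpecialLinearGroup (Fin 4) F) := by
  classical
  have e : Cfsg.quadFormPlus 3 F = ⇑(Qplus 3 F) := funext fun v => (Qplus_apply 3 v).symm
  rw [e]
  have hQ := Qplus_nondeg (F := F) 3
  have hfr : Module.finrank F (Fin 3 ⊕ Fin 3 → F) = 6 := by simp
  have hperf : commutator (Matrix.SpecialLinearGroup (Fin 4) F) = ⊤ := commutator_SL_eq_top (by simp)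
  refine pomega_iso (Qplus 3 F) phi (QuotientGroup.mk' _) (QuotientGroup.mk'_surjective _) (QuotientGroup.ker_mk' _) ?_ ?_ ker_le (central_of_perfect hperf)
  · intro g
    have hg : g ∈ commutator (Matrix.SpecialLinearGroup (Fin 4) F) := by
      rw [hperf]
      trivial
    have hle : commutator (Matrix.SpecialLinearGroup (Fin 4) F) ≤ (commutator (OG (Qplus 3 F))).comap phi := by
      rw [commutator_def, Subgroup.commutator_le]
      intro a _ b _
      rw [Subgroup.mem_comap, map_commutatorElement]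
      exact Subgroup.commutator_mem_commutator trivial trivial
    exact hle hg
  · have h1 := Subgroup.card_mul_index (commutator (OG (Qplus 3 F)))
    have hord := Qplus_order (F := F) 2
    have hSL := card_SL (F := F) rfl 4 (by norm_num)
    rw [Fin.prod_univ_four] at hSL
    simp only [Finset.prod_range_succ, Finset.prod_range_zero, one_mul] at hord
    set q := Fintype.card F with hq
    have hq2 : 2 ≤ q := Fintype.one_lt_card
    have aux : ∀ a c : ℕ, q ^ (a + c) - q ^ a = q ^ a * (q ^ c - 1) := by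
      intro a c
      rw [pow_add, Nat.mul_sub, mul_one]
    have e1 : (q ^ 4 - q ^ ((0 : Fin 4) : ℕ)) = (q ^ 4 - 1) := by simp
    have e2 : (q ^ 4 - q ^ ((1 : Fin 4) : ℕ)) = q * (q ^ 3 - 1) := by
      change q ^ (1 + 3) - q ^ 1 = _
      rw [aux, pow_one]
    have e3 : (q ^ 4 - q ^ ((2 : Fin 4) : ℕ)) = q ^ 2 * (q ^ 2 - 1) := by
      change q ^ (2 + 2) - q ^ 2 = _
      rw [aux]
    have e4 : (q ^ 4 - q ^ ((3 : Fin 4) : ℕ)) = q ^ 3 * (q - 1) := by
      change q ^ (3 + 1) - q ^ 3 = _
      rw [aux, pow_one]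
    rw [e1, e2, e3, e4] at hSL
    have hdiv : Nat.card (Matrix.SpecialLinearGroup (Fin 4) F) = (q ^ 4 - 1) * (q * (q ^ 3 - 1)) * (q ^ 2 * (q ^ 2 - 1)) * q ^ 3 := by
      have hpos : 0 < q - 1 := by omega
      apply Nat.eq_of_mul_eq_mul_left hpos
      rw [hSL]
      ring
    have hO : Nat.card (OG (Qplus 3 F)) = 2 * ((q ^ 4 - 1) * (q * (q ^ 3 - 1)) * (q ^ 2 * (q ^ 2 - 1)) * q ^ 3) := by
      change Nat.card (isoG (fun u _ : Fin (2 + 1) ⊕ Fin (2 + 1) → F => Qplus (2 + 1) F u)) = _
      rw [hord]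
      simp only [zero_add, mul_one, Nat.reduceMul, Nat.reduceAdd]
      ring
    rw [hdiv]
    by_cases h2 : (2 : F) = 0
    · rw [index_commutator_even h2 hQ (by omega) (Or.inr (by omega)), hO] at h1
      have h3 : Nat.card (phi (F := F)).ker ≤ 1 := card_ker_le.trans (card_sqrt_one_even h2)
      have h4 : Nat.card (commutator (OG (Qplus 3 F))) = (q ^ 4 - 1) * (q * (q ^ 3 - 1)) * (q ^ 2 * (q ^ 2 - 1)) * q ^ 3 := by
        omega
      rw [h4]
      exact (Nat.mul_le_mul_left _ h3).trans (by simp)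
    · rw [index_commutator h2 hQ (by omega), hO] at h1
      have h3 : Nat.card (phi (F := F)).ker ≤ 2 := card_ker_le.trans card_sqrt_one_le
      have h4 : Nat.card (commutator (OG (Qplus 3 F))) * 2 = (q ^ 4 - 1) * (q * (q ^ 3 - 1)) * (q ^ 2 * (q ^ 2 - 1)) * q ^ 3 := by
        omega
      rw [← h4]
      exact Nat.mul_le_mul_left _ h3

end Cfsg.Agent.S0302
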