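import Cfsg.Statements.S0305
import Mathlib
import Cfsg.Agent.Lib.Classical.OrderMinus

set_option autoImplicit false
open Cfsg

namespace Cfsg.Agent.S0305

/-- GO^+_2(q) is dihedral of order 2(q-1). -/
theorem result {F : Type*} [Field F] [Fintype F] {q : ℕ} (hF : Fintype.card F = q) : Nonempty (Cfsg.isometryGroup F (Cfsg.quadFormPlus 1 F) ≃* DihedralGroup (q - 1)) := by
  subst hF
  classical
  -- coordinates
  let κ : (Fin 1 ⊕ Fin 1 → F) ≃ₗ[F] (F × F) :=
    { toFun := fun v => (v (Sum.inl 0), v (Sum.inr 0))
      invFun := fun p => Sum.elim (fun _ => p.1) (fun _ => p.2)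
      map_add' := fun u v => rfl
      map_smul' := fun c v => rfl
      left_inv := by
        intro v
        ext s
        rcases s with i | i <;> fin_cases i <;> rfl
      right_inv := fun p => rfl }
  have hκ : ∀ v, (κ v).1 * (κ v).2 = Cfsg.quadFormPlus 1 F v := by
    intro v
    change v (Sum.inl 0) * v (Sum.inr 0) = _
    simp [Cfsg.quadFormPlus]
  let form : F × F → F × F → F := fun p _ => p.1 * p.2
  let e₁ : Cfsg.isometryGroup F (Cfsg.quadFormPlus 1 F) ≃* Cfsg.Agent.Lib.Classical.Abs.isoG form :=
    (Cfsg.Agent.Lib.Classical.Abs.isometryEquiv _).trans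
      (Cfsg.Agent.Lib.Classical.Abs.isoGCongr κ _ _ (fun u _ => hκ u))
  -- rotations
  let rotL : Fˣ → (F × F) ≃ₗ[F] (F × F) := fun c =>
    { toFun := fun p => ((c : F) * p.1, ((c⁻¹ : Fˣ) : F) * p.2)
      invFun := fun p => (((c⁻¹ : Fˣ) : F) * p.1, (c : F) * p.2)
      map_add' := fun u v => by ext <;> simp <;> ring
      map_smul' := fun d v => by ext <;> simp <;> ring
      left_inv := fun p => by simp
      right_inv := fun p => by simp }
  let rot : Fˣ →* Cfsg.Agent.Lib.Classical.Abs.isoG form :=
    { toFun := fun c => ⟨rotL c, by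
        intro p _
        change ((c : F) * p.1) * (((c⁻¹ : Fˣ) : F) * p.2) = p.1 * p.2
        have : (c : F) * ((c⁻¹ : Fˣ) : F) = 1 := by simp
        linear_combination (p.1 * p.2) * this⟩
      map_one' := by
        apply Subtype.ext
        apply LinearEquiv.ext
        intro p
        change ((1 : Fˣ) * p.1, ((1⁻¹ : Fˣ) : F) * p.2) = p
        simp
      map_mul' := fun c d => by
        apply Subtype.ext
        apply LinearEquiv.ext
        intro p
        change (((c * d : Fˣ) : F) * p.1, (((c * d)⁻¹ : Fˣ) : F) * p.2) =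
          ((c : F) * ((d : F) * p.1), ((c⁻¹ : Fˣ) : F) * (((d⁻¹ : Fˣ) : F) * p.2))
        ext
        · simp [mul_assoc]
        · simp [mul_inv_rev]
          ring }
  have hrot : ∀ (c : Fˣ) (p : F × F), (rot c).1 p = ((c : F) * p.1, ((c⁻¹ : Fˣ) : F) * p.2) := fun c p => rfl
  have hrotinj : Function.Injective rot := by
    intro c d h
    have := congrArg (fun g : Cfsg.Agent.Lib.Classical.Abs.isoG form => g.1 (1, 0)) h
    simp only [hrot] at this
    apply Units.ext
    simpa using this
  let sw : Cfsg.Agent.Lib.Classical.Abs.isoG form :=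
    ⟨LinearEquiv.prodComm F F F, fun p _ => by
      change p.2 * p.1 = p.1 * p.2
      ring⟩
  have hsw : ∀ p : F × F, sw.1 p = (p.2, p.1) := fun p => rfl
  obtain ⟨t₀, ht₀⟩ := IsCyclic.exists_generator (α := Fˣ)
  have hord : orderOf (rot t₀) = Fintype.card F - 1 := by
    rw [orderOf_injective rot hrotinj, orderOf_eq_card_of_forall_mem_zpowers ht₀, Nat.card_eq_fintype_card,
      Fintype.card_units]
  haveI : NeZero (Fintype.card F - 1) := ⟨by
    have := Fintype.one_lt_card (α := F)
    omega⟩
  obtain ⟨e₂⟩ := Cfsg.Agent.Lib.Classical.Bin.dihedral_recog (rot t₀) sw hord (by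
      apply Subtype.ext
      apply LinearEquiv.ext
      intro p
      change (p.1, p.2) = p
      rfl) (by
      rw [← map_inv, eq_comm]
      apply Subtype.ext
      apply LinearEquiv.ext
      intro p
      change (((t₀⁻¹ : Fˣ) : F) * p.1, ((t₀⁻¹⁻¹ : Fˣ) : F) * p.2) = (((t₀⁻¹ : Fˣ) : F) * p.1, (t₀ : F) * p.2)
      simp) (by
      intro k h
      have := congrArg (fun g : Cfsg.Agent.Lib.Classical.Abs.isoG form => g.1 (1, 0)) h
      rw [← map_pow] at this
      simp only [hsw, hrot] at this
      simp at this) (by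
      intro g
      have hg : ∀ p : F × F, (g.1 p).1 * (g.1 p).2 = p.1 * p.2 := fun p => g.2 p 0
      set A := g.1 (1, 0) with hA
      set B := g.1 (0, 1) with hB
      have h1 : A.1 * A.2 = 0 := by
        have := hg (1, 0)
        simpa [← hA] using this
      have h2 : B.1 * B.2 = 0 := by
        have := hg (0, 1)
        simpa [← hB] using this
      have hgp : ∀ p : F × F, g.1 p = p.1 • A + p.2 • B := by
        intro p
        have : p = p.1 • ((1 : F), (0 : F)) + p.2 • ((0 : F), (1 : F)) := by
          ext <;> simp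
        conv_lhs => rw [this]
        rw [map_add, map_smul, map_smul]
      have h3 : A.1 * B.2 + B.1 * A.2 = 1 := by
        have := hg (1, 1)
        rw [hgp] at this
        simp only [one_smul, Prod.fst_add, Prod.snd_add, mul_one] at this
        linear_combination this - h1 - h2
      have hgen : ∀ c : Fˣ, ∃ n : ℕ, c = t₀ ^ n := by
        intro c
        obtain ⟨k, hk⟩ := Subgroup.mem_zpowers_iff.mp (ht₀ c)
        refine ⟨(k % (orderOf t₀ : ℤ)).toNat, ?_⟩
        rw [← zpow_natCast, Int.toNat_of_nonneg (Int.emod_nonneg _ (by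
          have := orderOf_pos t₀
          omega)), zpow_mod_orderOf, hk]
      by_cases hA1 : A.1 = 0
      · -- `g = s ∘ rot`
        have h3' : B.1 * A.2 = 1 := by
          rw [hA1] at h3
          simpa using h3
        have hB1 : B.1 ≠ 0 := left_ne_zero_of_mul_eq_one h3'
        have hA2 : A.2 ≠ 0 := right_ne_zero_of_mul_eq_one h3'
        have hB2 : B.2 = 0 := (mul_eq_zero.mp h2).resolve_left hB1
        let c : Fˣ := Units.mk0 A.2 hA2
        have hc : ((c⁻¹ : Fˣ) : F) = B.1 := by
          simp only [c, Units.val_inv_eq_inv_val, Units.val_mk0]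
          exact (eq_inv_of_mul_eq_one_left h3').symm
        obtain ⟨n, hn⟩ := hgen c
        refine ⟨n, Or.inr ?_⟩
        rw [← map_pow, ← hn]
        apply Subtype.ext
        apply LinearEquiv.ext
        intro p
        rw [hgp]
        change _ = ((((c⁻¹ : Fˣ) : F)) * p.2, (c : F) * p.1)
        rw [hc]
        ext
        · simp [hA1, mul_comm]
        · simp [hB2, c, mul_comm]
      · have hA2 : A.2 = 0 := (mul_eq_zero.mp h1).resolve_left hA1
        have h3' : A.1 * B.2 = 1 := by
          rw [hA2] at h3
          simpa using h3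
        have hB2 : B.2 ≠ 0 := right_ne_zero_of_mul_eq_one h3'
        have hB1 : B.1 = 0 := (mul_eq_zero.mp h2).resolve_right hB2
        let c : Fˣ := Units.mk0 A.1 hA1
        have hc : ((c⁻¹ : Fˣ) : F) = B.2 := by
          simp only [c, Units.val_inv_eq_inv_val, Units.val_mk0]
          exact (eq_inv_of_mul_eq_one_right h3').symm
        obtain ⟨n, hn⟩ := hgen c
        refine ⟨n, Or.inl ?_⟩
        rw [← map_pow, ← hn]
        apply Subtype.ext
        apply LinearEquiv.ext
        intro p
        rw [hgp]
        change _ = ((c : F) * p.1, ((c⁻¹ : Fˣ) : F) * p.2)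
        rw [hc]
        ext
        · simp [hB1, c, mul_comm]
        · simp [hA2, mul_comm])
  exact ⟨e₁.trans e₂.symm⟩

end Cfsg.Agent.S0305
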