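import Cfsg.Statements.S0307
import Mathlib

set_option autoImplicit false
open Cfsg

namespace Cfsg.Agent.S0307

open Matrix

variable {F : Type*} [Field F] [Fintype F]

/-- In a cyclic group of order `N`, reduction to the cyclic group of order `gcd(n, N)`, whose kernel is the
set of `n`-th powers. -/
lemma exists_chi {G : Type*} [CommGroup G] [Finite G] [IsCyclic G] (n : ℕ) :
    ∃ χ : G →* Multiplicative (ZMod (Nat.gcd n (Nat.card G))), Function.Surjective χ ∧
      ∀ u : G, χ u = 1 ↔ ∃ v : G, u = v ^ n := by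
  classical
  let N := Nat.card G
  let d := Nat.gcd n N
  have hd : d ∣ N := Nat.gcd_dvd_right _ _
  let e : Multiplicative (ZMod N) ≃* G := zmodCyclicMulEquiv (inferInstance : IsCyclic G)
  let r : Multiplicative (ZMod N) →* Multiplicative (ZMod d) :=
    AddMonoidHom.toMultiplicative (ZMod.castHom hd (ZMod d)).toAddMonoidHom
  refine ⟨r.comp e.symm.toMonoidHom, ?_, ?_⟩
  · intro y
    obtain ⟨x, hx⟩ := ZMod.castHom_surjective hd (Multiplicative.toAdd y)
    refine ⟨e (Multiplicative.ofAdd x), ?_⟩
    simp only [MonoidHom.comp_apply, MulEquiv.toMonoidHom_eq_coe, MonoidHom.coe_coe,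
      MulEquiv.symm_apply_apply]
    apply Multiplicative.toAdd.injective
    exact hx
  · intro u
    have key : ∀ x : ZMod N, (ZMod.castHom hd (ZMod d)) x = 0 ↔ ∃ y : ZMod N, x = n • y := by
      intro x
      constructor
      · intro hx
        -- lift `x` to a natural number divisible by `d`
        have hN : NeZero N := ⟨Nat.card_pos.ne'⟩
        have hx' : ((x.val : ℕ) : ZMod d) = 0 := by
          have := hx
          rwa [ZMod.castHom_apply, ZMod.cast_eq_val] at this
        have hdvd : d ∣ x.val := (ZMod.natCast_eq_zero_iff _ _).mp hx'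
        obtain ⟨t, ht⟩ := hdvd
        have hb : ((d : ℕ) : ZMod N) = n * (Nat.gcdA n N : ZMod N) := by
          have h1 := Nat.gcd_eq_gcd_ab n N
          have h2 := congrArg (Int.cast : ℤ → ZMod N) h1
          push_cast at h2
          simpa using h2
        refine ⟨(Nat.gcdA n N : ZMod N) * t, ?_⟩
        rw [nsmul_eq_mul, ← mul_assoc, ← hb, ← Nat.cast_mul, ← ht]
        exact (ZMod.natCast_zmod_val x).symm
      · rintro ⟨y, rfl⟩
        rw [map_nsmul, nsmul_eq_mul]
        have : ((n : ℕ) : ZMod d) = 0 := (ZMod.natCast_eq_zero_iff _ _).mpr (Nat.gcd_dvd_left _ _)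
        rw [this, zero_mul]
    have h1 : (r.comp e.symm.toMonoidHom) u = 1 ↔
        (ZMod.castHom hd (ZMod d)) (Multiplicative.toAdd (e.symm u)) = 0 := by
      constructor
      · intro h
        exact congrArg Multiplicative.toAdd h
      · intro h
        exact Multiplicative.toAdd.injective h
    rw [h1, key]
    constructor
    · rintro ⟨y, hy⟩
      refine ⟨e (Multiplicative.ofAdd y), ?_⟩
      rw [← map_pow]
      apply e.symm.injective
      rw [MulEquiv.symm_apply_apply]
      apply Multiplicative.toAdd.injective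
      rw [hy]
      rfl
    · rintro ⟨v, rfl⟩
      refine ⟨Multiplicative.toAdd (e.symm v), ?_⟩
      rw [map_pow]
      rfl

/-- PSL_n(q) is normal in PGL_n(q) with cyclic quotient of order gcd(n, q-1): the image of the natural map PSL_n → PGL_n is the kernel of a surjective homomorphism onto the cyclic group of that order. -/
theorem result {F : Type*} [Field F] [Fintype F] {q : ℕ} (hF : Fintype.card F = q) (n : ℕ) (hn : 1 ≤ n) : ∃ g : Matrix.ProjGenLinGroup (Fin n) F →* Multiplicative (ZMod (Nat.gcd n (q - 1))), Function.Surjective g ∧ g.ker = (Matrix.ProjectiveSpecialLinearGroup.toPGL : Matrix.ProjectiveSpecialLinearGroup (Fin n) F →* Matrix.ProjGenLinGroup (Fin n) F).range := by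
  classical
  subst hF
  haveI : Nonempty (Fin n) := ⟨⟨0, hn⟩⟩
  have hcu : Nat.card Fˣ = Fintype.card F - 1 := by
    rw [Nat.card_eq_fintype_card, Fintype.card_units]
  obtain ⟨χ, hχs, hχk⟩ : ∃ χ : Fˣ →* Multiplicative (ZMod (Nat.gcd n (Fintype.card F - 1))),
      Function.Surjective χ ∧ ∀ u : Fˣ, χ u = 1 ↔ ∃ v : Fˣ, u = v ^ n := by
    have := exists_chi (G := Fˣ) n
    rwa [hcu] at this
  have hdetscalar : ∀ u : Fˣ, Matrix.GeneralLinearGroup.det (Matrix.GeneralLinearGroup.scalar (Fin n) u) = u ^ n := by
    intro u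
    apply Units.ext
    simp [Matrix.GeneralLinearGroup.scalar, Matrix.det_diagonal]
  have hf : (χ.comp Matrix.GeneralLinearGroup.det).comp (Matrix.GeneralLinearGroup.scalar (Fin n)) = 1 := by
    ext u
    simp only [MonoidHom.comp_apply, hdetscalar, MonoidHom.one_apply]
    congr 1
    exact (hχk _).mpr ⟨u, rfl⟩
  refine ⟨Matrix.ProjGenLinGroup.lift (χ.comp Matrix.GeneralLinearGroup.det) hf, ?_, ?_⟩
  · intro y
    obtain ⟨u, rfl⟩ := hχs y
    obtain ⟨A, hA⟩ := Matrix.GeneralLinearGroup.det_surjective (n := Fin n) u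
    refine ⟨Matrix.ProjGenLinGroup.mk A, ?_⟩
    simp [hA]
  · ext x
    induction x using Matrix.ProjGenLinGroup.induction_on with | mk A =>
    rw [MonoidHom.mem_ker, MonoidHom.mem_range]
    simp only [Matrix.ProjGenLinGroup.lift_mk, MonoidHom.comp_apply]
    constructor
    · intro h
      obtain ⟨v, hv⟩ := (hχk _).mp h
      let S : Matrix.SpecialLinearGroup (Fin n) F :=
        ⟨((A * Matrix.GeneralLinearGroup.scalar (Fin n) v⁻¹ : Matrix.GeneralLinearGroup (Fin n) F) :
          Matrix (Fin n) (Fin n) F), by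
          have h1 : Matrix.GeneralLinearGroup.det (A * Matrix.GeneralLinearGroup.scalar (Fin n) v⁻¹) = 1 := by
            rw [map_mul, hv, hdetscalar, inv_pow, mul_inv_cancel]
          have := congrArg Units.val h1
          simpa using this⟩
      refine ⟨(S : Matrix.ProjectiveSpecialLinearGroup (Fin n) F), ?_⟩
      rw [Matrix.ProjectiveSpecialLinearGroup.toPGL_mk]
      symm
      rw [Matrix.ProjGenLinGroup.mk_eq_mk_iff]
      refine ⟨v⁻¹, ?_⟩
      apply Units.ext
      rfl
    · rintro ⟨X, hX⟩
      induction X using QuotientGroup.induction_on with | H X =>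
      rw [Matrix.ProjectiveSpecialLinearGroup.toPGL_mk, Matrix.ProjGenLinGroup.mk_eq_mk_iff] at hX
      obtain ⟨u, hu⟩ := hX
      rw [← hu, map_mul, hdetscalar]
      have h1 : Matrix.GeneralLinearGroup.det (Matrix.SpecialLinearGroup.toGL X) = 1 := by
        apply Units.ext
        simpa using X.2
      rw [h1, one_mul]
      exact (hχk _).mpr ⟨u, rfl⟩

end Cfsg.Agent.S0307
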