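import Cfsg.Statements.S0316
import Mathlib
import Cfsg.Agent.Lib.BN.Parabolic

set_option autoImplicit false
open Cfsg

namespace Cfsg.Agent.S0316

/-- The map `J ↦ P_J` is a lattice isomorphism from the power set of the set of distinguished generators onto the
subgroups containing `B`. -/
theorem result {G : Type*} [Group G] (P : Cfsg.BNPair G) :
    ∃ e : Set P.S ≃o {M : Subgroup G // P.B ≤ M},
      ∀ J : Set P.S, ((e J : {M : Subgroup G // P.B ≤ M}) : Subgroup G) = P.parabolic (Subtype.val '' J) := by
  classical
  have hval : ∀ J : Set P.S, (Subtype.val '' J : Set G) ⊆ P.S := by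
    rintro J _ ⟨s, _, rfl⟩
    exact s.2
  have hmem : ∀ (J : Set P.S) (s : P.S), (s : G) ∈ P.parabolic (Subtype.val '' J) ↔ s ∈ J := by
    intro J s
    constructor
    · intro h
      obtain ⟨s', hs', e⟩ := Cfsg.Agent.Lib.BN.mem_of_mem_parabolic (hval J) s.2 h
      have : s' = s := Subtype.ext e
      rwa [← this]
    · intro h
      exact Cfsg.Agent.Lib.BN.subset_parabolic _ ⟨s, h, rfl⟩
  let e : Set P.S ≃o {M : Subgroup G // P.B ≤ M} :=
    { toFun := fun J => ⟨P.parabolic (Subtype.val '' J), Cfsg.Agent.Lib.BN.B_le_parabolic _⟩
      invFun := fun M => {s : P.S | (s : G) ∈ M.1}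
      left_inv := by
        intro J
        ext s
        exact hmem J s
      right_inv := by
        intro M
        apply Subtype.ext
        have h1 := Cfsg.Agent.Lib.BN.eq_parabolic M.2
        have h2 : (Subtype.val '' {s : P.S | (s : G) ∈ M.1} : Set G) = P.S ∩ (M.1 : Set G) := by
          ext x
          constructor
          · rintro ⟨s, hs, rfl⟩
            exact ⟨s.2, hs⟩
          · rintro ⟨h1, h2⟩
            exact ⟨⟨x, h1⟩, h2, rfl⟩
        simp only
        rw [h2]
        exact h1.symm
      map_rel_iff' := by
        intro J K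
        constructor
        · intro h s hs
          have h1 : (s : G) ∈ P.parabolic (Subtype.val '' K) :=
            h ((hmem J s).2 hs)
          exact (hmem K s).1 h1
        · intro h
          exact Cfsg.Agent.Lib.BN.parabolic_mono (Set.image_mono h) }
  exact ⟨e, fun J => rfl⟩

end Cfsg.Agent.S0316
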