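import Cfsg.Statements.S0321
import Mathlib
import Cfsg.Agent.Lib.BN.Parabolic

set_option autoImplicit false
open Cfsg

namespace Cfsg.Agent.S0321

/-- For `n ∈ N` not in `B`, the union `B ∪ B n B` is (the underlying set of) a subgroup exactly when `n` agrees
modulo `B ⊓ N` with one of the distinguished representatives; thus the distinguished involutions are
determined by `B` and `N`. -/
theorem result {G : Type*} [Group G] (P : Cfsg.BNPair G) {n : G}
    (hn : n ∈ P.N) (hnB : n ∉ P.B) :
    (∃ H : Subgroup G, (H : Set G) = (P.B : Set G) ∪ DoubleCoset.doubleCoset n (P.B : Set G) P.B) ↔ ∃ s ∈ P.S, s⁻¹ * n ∈ P.B := by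
  open Cfsg.Agent.Lib.BN in
  constructor
  · rintro ⟨H, hH⟩
    have hBH : P.B ≤ H := by
      intro b hb
      have : b ∈ (H : Set G) := by rw [hH]; exact Or.inl hb
      exact this
    have hnH : n ∈ H := by
      have : n ∈ (H : Set G) := by rw [hH]; exact Or.inr (self_mem_C n)
      exact this
    have hn' : n ∈ Subgroup.closure P.S ⊔ T P := by rw [P.closure_sup]; exact hn
    have h1 := mem_closure_of_mem hBH subset_rfl hn' hnH
    by_cases hne : (P.S ∩ (H : Set G)).Nonempty
    · obtain ⟨s, hs, hsH⟩ := hne
      refine ⟨s, hs, ?_⟩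
      have h2 : s ∈ (P.B : Set G) ∪ C P n := by rw [← hH]; exact hsH
      rcases h2 with h2 | h2
      · exact absurd h2 (S_not_mem_B hs)
      · exact T_le_B (mem_T_of_mem_C (S_mem_N hs) hn h2)
    · exfalso
      rw [Set.not_nonempty_iff_eq_empty] at hne
      rw [hne, Subgroup.closure_empty, bot_sup_eq] at h1
      exact hnB (T_le_B h1)
  · rintro ⟨s, hs, h⟩
    have hC : C P n = C P s := ((C_eq_iff (S_mem_N hs) hn).2 h).symm
    refine ⟨P.parabolic {s}, ?_⟩
    rw [show DoubleCoset.doubleCoset n (P.B : Set G) P.B = C P n from rfl, hC]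
    have hJ : ({s} : Set G) ⊆ P.S := by simpa using hs
    have key : ∀ m ∈ Subgroup.closure ({s} : Set G), m ∈ T P ∨ s⁻¹ * m ∈ T P := by
      intro m hm
      induction hm using Subgroup.closure_induction_left with
      | one => exact Or.inl (one_mem _)
      | mul_left x hx y hy ih =>
        obtain rfl : x = s := hx
        rcases ih with h1 | h1
        · right; simpa using h1
        · left
          have e : x * y = (x * x) * (x⁻¹ * y) := by group
          rw [e]
          exact mul_mem (sq_mem_T hs) h1
      | inv_mul_cancel x hx y hy ih =>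
        obtain rfl : x = s := hx
        rcases ih with h1 | h1
        · right
          have e : x⁻¹ * (x⁻¹ * y) = (x * x)⁻¹ * y := by group
          rw [e]
          exact mul_mem (inv_mem (sq_mem_T hs)) h1
        · left; exact h1
    ext g
    constructor
    · intro hg
      obtain ⟨m, hm, hgm⟩ := (mem_parabolic_iff hJ).1 hg
      rcases key m hm with h1 | h1
      · left
        rw [C_of_mem_B (T_le_B h1)] at hgm
        exact hgm
      · right
        have e : m = s * (s⁻¹ * m) := by group
        have h2 : m ∈ C P s := by
          rw [e]; exact mem_C_mul_right (T_le_B h1)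
        rwa [C_eq_of_mem h2] at hgm
    · rintro (h1 | h1)
      · exact B_le_parabolic _ h1
      · obtain ⟨b1, h11, b2, h12, rfl⟩ := mem_C.1 h1
        have hB := B_le_parabolic (P := P) ({s} : Set G)
        exact mul_mem (mul_mem (hB h11) (subset_parabolic _ rfl)) (hB h12)

end Cfsg.Agent.S0321
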