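import Cfsg.Statements.S0328
import Mathlib
import Cfsg.Agent.Lib.SuzOv.Group

set_option autoImplicit false
open Cfsg

open Cfsg.Agent.Lib.SuzOv

namespace Cfsg.Agent.S0328


/-- The stabiliser in the Suzuki group of the two ovoid points spanned by `(1,0,0,0)` and `(0,0,0,1)` is
isomorphic to the multiplicative group of the field (cyclic of order `q - 1`). -/
theorem result {F : Type*} [Field F] [Fintype F] {m : ℕ} (hm : 1 ≤ m)
    (hF : Fintype.card F = 2 ^ (2 * m + 1)) :
    Nonempty (↥(MulAction.stabilizer (Cfsg.Sz F m) (Cfsg.suzukiPointInfinity F) ⊓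
        MulAction.stabilizer (Cfsg.Sz F m) (Cfsg.suzukiPointZero F)) ≃* Fˣ) := by
  have S : Cfsg.Agent.Lib.SuzOv.SH F m := ⟨hm, hF⟩
  have hmem : ∀ A : Fˣ, tH S A ∈ (MulAction.stabilizer (Cfsg.Sz F m) (Cfsg.suzukiPointInfinity F) ⊓
        MulAction.stabilizer (Cfsg.Sz F m) (Cfsg.suzukiPointZero F)) := by
    intro A
    refine Subgroup.mem_inf.2 ⟨?_, ?_⟩
    · rw [MulAction.mem_stabilizer_iff, smul_coe, ← pinf_eq]
      exact H_pinf A
    · rw [MulAction.mem_stabilizer_iff, smul_coe, ← pt_zero_eq m]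
      show H m A • pt m (0 : F) 0 = _
      rw [H_pt S]
      simp
  let φ : Fˣ →* ↥(MulAction.stabilizer (Cfsg.Sz F m) (Cfsg.suzukiPointInfinity F) ⊓
        MulAction.stabilizer (Cfsg.Sz F m) (Cfsg.suzukiPointZero F)) :=
    { toFun := fun A => ⟨tH S A, hmem A⟩
      map_one' := by
        apply Subtype.ext
        exact (tHh S).map_one
      map_mul' := fun A B => by
        apply Subtype.ext
        exact (tHh S).map_mul A B }
  have hφ : Function.Bijective φ := by
    constructor
    · intro A B h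
      apply H_inj S
      exact congrArg (fun z => ((z : ↥(Cfsg.Sz F m)) : Matrix.SpecialLinearGroup (Fin 4) F)) (congrArg Subtype.val h)
    · rintro ⟨g, hg⟩
      obtain ⟨h1, h2⟩ := Subgroup.mem_inf.1 hg
      rw [MulAction.mem_stabilizer_iff, smul_coe, ← pinf_eq] at h1
      rw [MulAction.mem_stabilizer_iff, smul_coe, ← pt_zero_eq m] at h2
      obtain ⟨A, hA⟩ := stab_two S g.1 g.2 h1 h2
      exact ⟨A, Subtype.ext (Subtype.ext hA.symm)⟩
  exact ⟨(MulEquiv.ofBijective φ hφ).symm⟩

end Cfsg.Agent.S0328
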