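import Cfsg.Statements.S0332
import Mathlib
import Cfsg.Agent.Lib.Sz.Cent

set_option autoImplicit false
open Cfsg

namespace Cfsg.Agent.S0332

/-- The Suzuki group is a CN-group: every non-identity element has nilpotent centraliser. -/
theorem result {F : Type*} [Field F] [Fintype F] {m : ℕ} (hm : 1 ≤ m)
    (hF : Fintype.card F = 2 ^ (2 * m + 1)) : Cfsg.IsCNGroup (Cfsg.Sz F m) := by
  haveI := Cfsg.Agent.SzT.szF_of_card hm hF
  have key : ∀ (H : Subgroup (Matrix.SpecialLinearGroup (Fin 4) F))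
      (_ : H = Cfsg.Agent.SzT.GG (2 ^ (m + 1)) F), Cfsg.IsCNGroup H := by
    rintro _ rfl
    exact Cfsg.Agent.SzT.isCN
  exact key _ (Cfsg.Agent.SzT.GG_eq m).symm

end Cfsg.Agent.S0332
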