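import Cfsg.Statements.S0333
import Mathlib
import Cfsg.Agent.Lib.Sz.Tori4

set_option autoImplicit false
open Cfsg

namespace Cfsg.Agent.S0333

/-- With `q = 2^(2m+1)` and `r = 2^m`, the Suzuki group has cyclic subgroups of orders `q + 2r + 1` and
`q - 2r + 1`; each is the centraliser of each of its non-identity elements and has index `4` in its normaliser. -/
theorem result {F : Type*} [Field F] [Fintype F] {m : ℕ} (hm : 1 ≤ m)
    (hF : Fintype.card F = 2 ^ (2 * m + 1)) :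
    ∀ k ∈ ({2 ^ (2 * m + 1) + 2 ^ (m + 1) + 1, 2 ^ (2 * m + 1) - 2 ^ (m + 1) + 1} : Set ℕ),
      ∃ U : Subgroup (Cfsg.Sz F m), IsCyclic U ∧ Nat.card U = k ∧
        (∀ u ∈ U, u ≠ 1 → Subgroup.centralizer {u} = U) ∧ Nat.card (Subgroup.normalizer (U : Set (Cfsg.Sz F m))) = 4 * k := by
  haveI := Cfsg.Agent.SzT.szF_of_card hm hF
  have key : ∀ (H : Subgroup (Matrix.SpecialLinearGroup (Fin 4) F))
      (_ : H = Cfsg.Agent.SzT.GG (2 ^ (m + 1)) F) (k : ℕ),
      (k = Fintype.card F + 2 ^ (m + 1) + 1 ∨ k = Fintype.card F + 1 - 2 ^ (m + 1)) →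
      ∃ U : Subgroup H, IsCyclic U ∧ Nat.card U = k ∧
        (∀ u ∈ U, u ≠ 1 → Subgroup.centralizer {u} = U) ∧
          Nat.card (Subgroup.normalizer (U : Set H)) = 4 * k := by
    rintro _ rfl k hk
    exact Cfsg.Agent.SzT.tori hk
  intro k hk
  apply key _ (Cfsg.Agent.SzT.GG_eq m).symm k
  rw [hF]
  have hle : 2 ^ (m + 1) ≤ 2 ^ (2 * m + 1) := Nat.pow_le_pow_right (by norm_num) (by omega)
  rcases hk with rfl | hk
  · exact Or.inl rfl
  · rw [Set.mem_singleton_iff] at hk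
    right
    omega

end Cfsg.Agent.S0333
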