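import Cfsg.Statements.S0350
import Cfsg.Agent.Lib.Steiner.Numbers

set_option autoImplicit false
open Cfsg

namespace Cfsg.Agent.S0350

/-- Counting pairs (t-subset, block containing it) in two ways: the number of blocks of a Steiner system with parameters (t, k, v), multiplied by C(k, t), equals C(v, t). -/
theorem result {α : Type*} [Fintype α] [DecidableEq α] {t k : ℕ} {B : Set (Finset α)} (hB : Cfsg.IsSteinerSystem t k B) : B.ncard * Nat.choose k t = Nat.choose (Fintype.card α) t := by
  classical
  by_cases htk : t ≤ k
  · have h := Cfsg.Agent.Lib.Steiner.lambda_eq hB ∅ (by simp)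
    simp only [Finset.card_empty, Nat.sub_zero, Finset.empty_subset, Finset.filter_true] at h
    rw [Cfsg.Agent.Lib.Steiner.ncard_eq_card_blocks]
    exact h
  · have h0 : Nat.choose k t = 0 := Nat.choose_eq_zero_of_lt (by omega)
    rw [h0, Nat.mul_zero]
    symm
    apply Nat.choose_eq_zero_of_lt
    by_contra hlt
    push Not at hlt
    obtain ⟨s, -, hs⟩ := Finset.exists_subset_card_eq (s := (Finset.univ : Finset α)) (n := t) (by simpa using hlt)
    obtain ⟨b, ⟨hb, hsb⟩, -⟩ := hB.2 s hs
    have := Finset.card_le_card hsb
    rw [hB.1 b hb, hs] at this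
    omega

end Cfsg.Agent.S0350
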