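import Cfsg.Statements.S0351
import Cfsg.Agent.Lib.Steiner.Numbers

set_option autoImplicit false
open Cfsg

namespace Cfsg.Agent.S0351

/-- Derived design: removing a point p from the blocks through p of an S(t+1, k+1, v) yields an S(t, k, v-1) on the points other than p. -/
theorem result {α : Type*} [Fintype α] [DecidableEq α] {t k : ℕ} {B : Set (Finset α)} (hB : Cfsg.IsSteinerSystem (t + 1) (k + 1) B) (p : α) : Cfsg.IsSteinerSystem t k {b' : Finset {a : α // a ≠ p} | ∃ b ∈ B, p ∈ b ∧ b' = Finset.subtype (fun a => a ≠ p) b} := by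
  classical
  constructor
  · rintro b' ⟨b, hb, hp, rfl⟩
    have h1 := hB.1 b hb
    rw [Finset.card_subtype]
    have : b.filter (fun a => a ≠ p) = b.erase p := by
      ext a; simp [and_comm]
    rw [this, Finset.card_erase_of_mem hp, h1]
    rfl
  · intro s hs
    set S : Finset α := insert p (s.map (Function.Embedding.subtype _)) with hS
    have hpS : p ∉ s.map (Function.Embedding.subtype _) := by
      intro h
      rw [Finset.mem_map] at h
      obtain ⟨a, -, ha⟩ := h
      exact a.2 ha
    have hcard : S.card = t + 1 := by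
      rw [hS, Finset.card_insert_of_notMem hpS, Finset.card_map, hs]
    obtain ⟨b, ⟨hb, hSb⟩, hu⟩ := hB.2 S hcard
    have hsub : ∀ c : Finset α, p ∈ c → (s ⊆ Finset.subtype (fun a => a ≠ p) c ↔ S ⊆ c) := by
      intro c hc
      constructor
      · intro h x hx
        rw [hS, Finset.mem_insert, Finset.mem_map] at hx
        rcases hx with rfl | ⟨a, ha, rfl⟩
        · exact hc
        · have := h ha
          rw [Finset.mem_subtype] at this
          exact this
      · intro h a ha
        rw [Finset.mem_subtype]
        apply h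
        rw [hS, Finset.mem_insert, Finset.mem_map]
        exact Or.inr ⟨a, ha, rfl⟩
    have hpb : p ∈ b := hSb (by rw [hS]; exact Finset.mem_insert_self _ _)
    refine ⟨Finset.subtype (fun a => a ≠ p) b, ⟨⟨b, hb, hpb, rfl⟩, (hsub b hpb).2 hSb⟩, ?_⟩
    rintro c' ⟨⟨c, hc, hpc, rfl⟩, hsc⟩
    rw [hu c ⟨hc, (hsub c hpc).1 hsc⟩]

end Cfsg.Agent.S0351
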