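import Cfsg.Statements.S0353
import Cfsg.Agent.Lib.Steiner.Numbers

set_option autoImplicit false
open Cfsg

namespace Cfsg.Agent.S0353

open Finset in
/-- The tetrads of `b` completed by the two outer points `y`, `z` to a subset of a block. -/
def tetrads {α : Type*} [DecidableEq α] (B : Set (Finset α)) (b : Finset α) (y z : α) :
    Set (Finset {x // x ∈ b}) :=
  {Q | Q.card = 4 ∧ ∃ e ∈ B, y ∈ e ∧ z ∈ e ∧ ∀ q ∈ Q, (q : α) ∈ e}

/-- They form a Steiner system `S(3,4,8)` on `b`. -/
theorem steiner_tetrad {α : Type*} [Fintype α] [DecidableEq α] (hα : Fintype.card α = 24)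
    {B : Set (Finset α)} (hB : Cfsg.IsSteinerSystem 5 8 B) {b : Finset α} (hb : b ∈ B) {y z : α}
    (hy : y ∉ b) (hz : z ∉ b) (hyz : y ≠ z) :
    Cfsg.IsSteinerSystem 3 4 (tetrads B b y z) := by
  classical
  obtain ⟨h0, h1, h2, h3, h4, h5, h6, h7, h8⟩ := Cfsg.Agent.Lib.Steiner.nfib_5_8_24 hα hB hb
  refine ⟨fun Q hQ => hQ.1, fun s hs => ?_⟩
  set S : Finset α := insert y (insert z (s.map (Function.Embedding.subtype _))) with hSdef
  have hmap : ∀ a ∈ s.map (Function.Embedding.subtype (· ∈ b)), a ∈ b := by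
    intro a ha
    rw [Finset.mem_map] at ha
    obtain ⟨q, -, rfl⟩ := ha
    exact q.2
  have hS : S.card = 5 := by
    rw [hSdef, Finset.card_insert_of_notMem, Finset.card_insert_of_notMem, Finset.card_map, hs]
    · exact fun h => hz (hmap _ h)
    · rw [Finset.mem_insert]
      rintro (h | h)
      · exact hyz h
      · exact hy (hmap _ h)
  obtain ⟨e, ⟨he, hSe⟩, hu⟩ := hB.2 S hS
  have hye : y ∈ e := hSe (by rw [hSdef]; exact Finset.mem_insert_self _ _)
  have hze : z ∈ e := hSe (by rw [hSdef]; exact Finset.mem_insert_of_mem (Finset.mem_insert_self _ _))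
  have hse : ∀ q ∈ s, (q : α) ∈ e := by
    intro q hq
    apply hSe
    rw [hSdef]
    apply Finset.mem_insert_of_mem
    apply Finset.mem_insert_of_mem
    rw [Finset.mem_map]
    exact ⟨q, hq, rfl⟩
  have hinter : (e ∩ b).card = 4 := by
    have hge : 3 ≤ (e ∩ b).card := by
      rw [← hs, ← Finset.card_map (Function.Embedding.subtype (· ∈ b))]
      apply Finset.card_le_card
      intro a ha
      rw [Finset.mem_inter]
      refine ⟨?_, hmap a ha⟩
      rw [Finset.mem_map] at ha
      obtain ⟨q, hq, rfl⟩ := ha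
      exact hse q hq
    have hlt : ¬ 5 ≤ (e ∩ b).card := by
      intro h
      have := Cfsg.Agent.Lib.Steiner.eq_of_inter hB he hb h
      exact hy (this ▸ hye)
    have n3 := Cfsg.Agent.Lib.Steiner.not_of_nfib_zero h3 he
    omega
  have hQcard : (Finset.subtype (fun x => x ∈ b) e).card = 4 := by
    rw [Finset.card_subtype, Finset.filter_mem_eq_inter, hinter]
  have hQmem : Finset.subtype (fun x => x ∈ b) e ∈ tetrads B b y z := by
    refine ⟨hQcard, e, he, hye, hze, ?_⟩
    intro q hq
    rw [Finset.mem_subtype] at hq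
    exact hq
  refine ⟨Finset.subtype (fun x => x ∈ b) e, ⟨hQmem, ?_⟩, ?_⟩
  · intro q hq
    rw [Finset.mem_subtype]
    exact hse q hq
  · rintro Q ⟨⟨hQ, f, hf, hyf, hzf, hQf⟩, hsQ⟩
    have hfe : f = e := by
      apply hu f ⟨hf, ?_⟩
      intro a ha
      rw [hSdef, Finset.mem_insert, Finset.mem_insert, Finset.mem_map] at ha
      rcases ha with rfl | rfl | ⟨q, hq, rfl⟩
      · exact hyf
      · exact hzf
      · exact hQf q (hsQ hq)
    subst hfe
    apply Finset.eq_of_subset_of_card_le
    · intro q hq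
      rw [Finset.mem_subtype]
      exact hQf q hq
    · rw [hQ, hQcard]


/-- In an S(5, 8, 24), the symmetric difference of two blocks meeting in four points is a block. -/
theorem result {α : Type*} [Fintype α] [DecidableEq α] (hα : Fintype.card α = 24) {B : Set (Finset α)} (hB : Cfsg.IsSteinerSystem 5 8 B) {b c : Finset α} (hb : b ∈ B) (hc : c ∈ B) (h4 : (b ∩ c).card = 4) : symmDiff b c ∈ B := by
  classical
  have hne : b ≠ c := by
    rintro rfl
    rw [Finset.inter_self, hB.1 b hb] at h4
    omega
  obtain ⟨y, hy⟩ : (c \ b).Nonempty := by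
    rw [← Finset.card_pos]
    have := Finset.card_sdiff_add_card_inter c b
    rw [Finset.inter_comm, h4, hB.1 c hc] at this
    omega
  rw [Finset.mem_sdiff] at hy
  have hT1 : (b \ c).card = 4 := by
    have := Finset.card_sdiff_add_card_inter b c
    rw [h4, hB.1 b hb] at this
    omega
  have hT2 : (c \ b).card = 4 := by
    have := Finset.card_sdiff_add_card_inter c b
    rw [Finset.inter_comm, h4, hB.1 c hc] at this
    omega
  -- the block through `b \ c` and `y`
  have hcard5 : (insert y (b \ c)).card = 5 := by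
    rw [Finset.card_insert_of_notMem (by simp [hy.2]), hT1]
  obtain ⟨d, ⟨hd, hsub⟩, hu⟩ := hB.2 _ hcard5
  have hz : c \ b ⊆ d := by
    intro z hz
    rw [Finset.mem_sdiff] at hz
    by_cases hzy : z = y
    · rw [hzy]; exact hsub (Finset.mem_insert_self _ _)
    · have hS := steiner_tetrad hα hB hb (y := y) (z := z) hy.2 hz.2 (Ne.symm hzy)
      have hcomp := Cfsg.Agent.Lib.Steiner.compl_mem_of_nfib_zero (k := 4) (t := 3)
        (α := {x // x ∈ b}) (by rw [Fintype.card_coe, hB.1 b hb]) hS
        (b := Finset.subtype (fun x => x ∈ b) c) ?_ ?_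
      · obtain ⟨-, e, he, hye, hze, hQ⟩ := hcomp
        have hde : e = d := by
          apply hu e ⟨he, ?_⟩
          intro x hx
          rw [Finset.mem_insert, Finset.mem_sdiff] at hx
          rcases hx with rfl | ⟨hxb, hxc⟩
          · exact hye
          · have := hQ ⟨x, hxb⟩ (by simp [hxc])
            exact this
        rw [← hde]
        exact hze
      · refine ⟨?_, c, hc, hy.1, hz.1, ?_⟩
        · rw [Finset.card_subtype, Finset.filter_mem_eq_inter, Finset.inter_comm, h4]
        · intro q hq
          rw [Finset.mem_subtype] at hq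
          exact hq
      · have hmem : Finset.subtype (fun x => x ∈ b) c ∈ tetrads B b y z := by
          refine ⟨?_, c, hc, hy.1, hz.1, ?_⟩
          · rw [Finset.card_subtype, Finset.filter_mem_eq_inter, Finset.inter_comm, h4]
          · intro q hq
            rw [Finset.mem_subtype] at hq
            exact hq
        exact (Cfsg.Agent.Lib.Steiner.nfib_3_4_8 (by rw [Fintype.card_coe, hB.1 b hb]) hS hmem).1
  have hsd : symmDiff b c = d := by
    apply Finset.eq_of_subset_of_card_le
    · intro x hx
      rw [Finset.mem_symmDiff] at hx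
      rcases hx with ⟨h1, h2⟩ | ⟨h1, h2⟩
      · exact hsub (Finset.mem_insert_of_mem (Finset.mem_sdiff.2 ⟨h1, h2⟩))
      · exact hz (Finset.mem_sdiff.2 ⟨h1, h2⟩)
    · rw [hB.1 d hd]
      have : symmDiff b c = (b \ c) ∪ (c \ b) := rfl
      rw [this, Finset.card_union_of_disjoint, hT1, hT2]
      exact Finset.disjoint_left.2 (fun x hx hx' => (Finset.mem_sdiff.1 hx).2 (Finset.mem_sdiff.1 hx').1)
  rw [hsd]
  exact hd

end Cfsg.Agent.S0353
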