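import Cfsg.Statements.S0355
import Cfsg.Agent.Lib.Steiner.Numbers

set_option autoImplicit false
open Cfsg

namespace Cfsg.Agent.S0355

/-- In a Steiner system S(4, 7, 23), two distinct blocks intersect in 1 or 3 points. -/
theorem result {α : Type*} [Fintype α] [DecidableEq α] (hα : Fintype.card α = 23) {B : Set (Finset α)} (hB : Cfsg.IsSteinerSystem 4 7 B) {b c : Finset α} (hb : b ∈ B) (hc : c ∈ B) (hbc : b ≠ c) : (b ∩ c).card = 1 ∨ (b ∩ c).card = 3 := by
  classical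
  obtain ⟨h0, h1, h2, h3, h4, h5, h6, h7⟩ := Cfsg.Agent.Lib.Steiner.nfib_4_7_23 hα hB hb
  have n0 := Cfsg.Agent.Lib.Steiner.not_of_nfib_zero h0 hc
  have n2 := Cfsg.Agent.Lib.Steiner.not_of_nfib_zero h2 hc
  have hle : 4 ≤ (c ∩ b).card → c = b := fun h => Cfsg.Agent.Lib.Steiner.eq_of_inter hB hc hb h
  rw [Finset.inter_comm]
  have hne : c ≠ b := fun h => hbc h.symm
  have : ¬ 4 ≤ (c ∩ b).card := fun h => hne (hle h)
  omega

end Cfsg.Agent.S0355
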