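import Cfsg.Statements.S0357
import Cfsg.Agent.Lib.Steiner.Numbers

set_option autoImplicit false
open Cfsg

namespace Cfsg.Agent.S0357

/-- In a Steiner system S(5, 6, 12), the complement of every block is again a block. -/
theorem result {α : Type*} [Fintype α] [DecidableEq α] (hα : Fintype.card α = 12) {B : Set (Finset α)} (hB : Cfsg.IsSteinerSystem 5 6 B) {b : Finset α} (hb : b ∈ B) : bᶜ ∈ B := by
  classical
  obtain ⟨h0, -⟩ := Cfsg.Agent.Lib.Steiner.nfib_5_6_12 hα hB hb
  exact Cfsg.Agent.Lib.Steiner.compl_mem_of_nfib_zero (k := 6) (by rw [hα]) hB hb h0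

end Cfsg.Agent.S0357
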