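import Cfsg.Statements.S0371
import Mathlib
import Cfsg.Agent.Lib.Golay.Group

set_option autoImplicit false
open Cfsg

namespace Cfsg.Agent.S0371

open Cfsg.Agent.Lib.Compute Cfsg.Agent.Lib.Golay in
/-- The code of multiplication by `a`. -/
noncomputable def mulCode (a : ℕ) : ℕ → ℕ := fun i => bcond (Nat.beq i 23) 23 (Nat.mod (Nat.mul a i) 23)

open Cfsg.Agent.Lib.Compute Cfsg.Agent.Lib.Golay in
theorem checks : [1, 2, 3, 4, 6, 8, 9, 12, 13, 16, 18].all (fun a => checkM24 (mulCode a)) = true := by
  decide +kernel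

theorem squares_val : ∀ x : ZMod 23, x ≠ 0 → (x * x).val ∈ [1, 2, 3, 4, 6, 8, 9, 12, 13, 16, 18] := by
  decide


/-- Multiplication by a nonzero square residue modulo 23, fixing the extra point, lies in the group of the length-24 code. -/
theorem result (u : (ZMod 23)ˣ) (hu : IsSquare u) : Equiv.optionCongr (Units.mulLeft u) ∈ Cfsg.M24 := by
  open Cfsg.Agent.Lib.Compute Cfsg.Agent.Lib.Golay in
  obtain ⟨v, hv⟩ := hu
  haveI : Fact (1 < 23) := ⟨by norm_num⟩
  have hv0 : ((v : (ZMod 23)ˣ) : ZMod 23) ≠ 0 := Units.ne_zero v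
  have hval := squares_val _ hv0
  have hu' : ((u : (ZMod 23)ˣ) : ZMod 23) = (v : ZMod 23) * (v : ZMod 23) := by
    rw [hv, Units.val_mul]
  rw [← hu'] at hval
  apply mem_M24_of_check (f := mulCode ((u : ZMod 23).val))
  · rintro (_ | x)
    · rfl
    · show mulCode _ (x.val) = ZMod.val ((u : ZMod 23) * x)
      have hx : x.val < 23 := ZMod.val_lt x
      have hne : Nat.beq x.val 23 = false := by
        cases h : Nat.beq x.val 23
        · rfl
        · have := Nat.eq_of_beq_eq_true h
          omega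
      rw [ZMod.val_mul]
      simp only [mulCode, hne, bcond_false]
      rfl
  · exact (List.all_eq_true.1 checks) _ hval

end Cfsg.Agent.S0371
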