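import Cfsg.Statements.S0372
import Mathlib
import Cfsg.Agent.Lib.Golay.Group

set_option autoImplicit false
open Cfsg

namespace Cfsg.Agent.S0372

/-- The involution x ↦ -1/x of the projective line over ZMod 23 lies in the group of the length-24 code. -/
theorem result : Cfsg.projInv ∈ Cfsg.M24 := by
  open Cfsg.Agent.Lib.Compute Cfsg.Agent.Lib.Golay in
  apply mem_M24_of_check (f := pget 5 31 1795248432537898728475572672376535)
  · intro a
    revert a
    decide +kernel
  · decide +kernel

end Cfsg.Agent.S0372
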