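import Cfsg.Statements.S0373
import Mathlib
import Cfsg.Agent.Lib.Golay.Group

set_option autoImplicit false
open Cfsg

namespace Cfsg.Agent.S0373

/-- The cube-twist permutation (squares t ↦ t^3/9, non-squares t ↦ 9t^3, extra point fixed) lies in the group of the length-24 code. -/
theorem result : Cfsg.cubeTwist ∈ Cfsg.M24 := by
  open Cfsg.Agent.Lib.Compute Cfsg.Agent.Lib.Golay in
  apply mem_M24_of_check (f := pget 5 31 974380510768821363662145534143076928)
  · intro a
    show _ = idx (Cfsg.cubeTwistFun a)
    revert a
    decide +kernel
  · decide +kernel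

end Cfsg.Agent.S0373
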