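import Cfsg.Statements.S0374
import Cfsg.Agent.Lib.Golay.GenData
import Cfsg.Agent.S0370
import Cfsg.Agent.S0372
import Cfsg.Agent.S0373

set_option autoImplicit false
open Cfsg

namespace Cfsg.Agent.S0374

/-- The group of the length-24 code is generated by x ↦ x+1, x ↦ -1/x and the cube-twist permutation. -/
theorem result : Subgroup.closure {Equiv.optionCongr (Equiv.addRight (1 : ZMod 23)), Cfsg.projInv, Cfsg.cubeTwist} = Cfsg.M24 := by
  open Cfsg.Agent.Lib.Compute Cfsg.Agent.Lib.Golay in
  apply le_antisymm
  · rw [Subgroup.closure_le]
    intro σ hσ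
    simp only [Set.mem_insert_iff, Set.mem_singleton_iff] at hσ
    rcases hσ with rfl | rfl | rfl
    · exact Cfsg.Agent.S0370.result
    · exact Cfsg.Agent.S0372.result
    · exact Cfsg.Agent.S0373.result
  · apply M24_le_of_slp
    · have hc : enc.IsCode (Equiv.optionCongr (Equiv.addRight (1 : ZMod 23))) (pc (slpVals.getD 0 0)) := by
        intro a
        revert a
        decide +kernel
      have h1 : checkPerm 24 (pc (slpVals.getD 0 0)) = true := by decide +kernel
      have h2 : ppm (slpVals.getD 0 0) = Equiv.optionCongr (Equiv.addRight (1 : ZMod 23)) :=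
        eq_of_isCode (enc.isCode_perm h1) hc (by decide +kernel)
      rw [h2]
      exact Subgroup.subset_closure (by simp)
    · have hc : enc.IsCode Cfsg.projInv (pc (slpVals.getD 1 0)) := by
        intro a
        revert a
        decide +kernel
      have h1 : checkPerm 24 (pc (slpVals.getD 1 0)) = true := by decide +kernel
      have h2 : ppm (slpVals.getD 1 0) = Cfsg.projInv :=
        eq_of_isCode (enc.isCode_perm h1) hc (by decide +kernel)
      rw [h2]
      exact Subgroup.subset_closure (by simp)
    · have hc : enc.IsCode Cfsg.cubeTwist (pc (slpVals.getD 2 0)) := by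
        intro a
        show _ = idx (Cfsg.cubeTwistFun a)
        revert a
        decide +kernel
      have h1 : checkPerm 24 (pc (slpVals.getD 2 0)) = true := by decide +kernel
      have h2 : ppm (slpVals.getD 2 0) = Cfsg.cubeTwist :=
        eq_of_isCode (enc.isCode_perm h1) hc (by decide +kernel)
      rw [h2]
      exact Subgroup.subset_closure (by simp)

end Cfsg.Agent.S0374
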