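import Cfsg.Statements.S0407
import Cfsg.Agent.Lib.Steiner.U24
import Cfsg.Agent.Lib.Steiner.Inter

set_option autoImplicit false
open Cfsg

namespace Cfsg.Agent.S0407

/-- Uniqueness of the Steiner system S(5, 8, 24) up to isomorphism. -/
theorem result {α β : Type*} [Fintype α] [DecidableEq α] [Fintype β] [DecidableEq β] (hα : Fintype.card α = 24) (hβ : Fintype.card β = 24) {B : Set (Finset α)} {B' : Set (Finset β)} (hB : Cfsg.IsSteinerSystem 5 8 B) (hB' : Cfsg.IsSteinerSystem 5 8 B') : Cfsg.SetSystemIso B B' := by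
  open Cfsg.Agent.Lib.Steiner in
  exact iso_of_hasStd hB hB' hα hβ (by norm_num) (blocks0 := U24.blocks0)
    (fun m hm => by simpa using allL_iff.1 U24.blocks0_bound m hm) U24.blocks0_nodup
    (by rw [U24.blocks0_length]; decide)
    (U24.hasStd hB (hall_5_8_24 hα hB) hα) (U24.hasStd hB' (hall_5_8_24 hβ hB') hβ)

end Cfsg.Agent.S0407
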