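import Cfsg.Statements.S0375
import Cfsg.Agent.S0407
import Cfsg.Agent.Lib.ThreeT.AbsGolay
import Cfsg.Agent.Lib.Golay.Derived

set_option autoImplicit false
open Cfsg

namespace Cfsg.Agent.S0375

/-- A doubly even self-dual binary code of length 24 with no words of weight 4 is equivalent to the length-24 code built from the squares modulo 23. -/
theorem result (C : Submodule (ZMod 2) (Fin 24 → ZMod 2)) (hdim : Module.finrank (ZMod 2) C = 12) (horth : ∀ v ∈ C, ∀ w ∈ C, ∑ i, v i * w i = 0) (h4 : ∀ w ∈ C, 4 ∣ hammingNorm w) (hno4 : ∀ w ∈ C, hammingNorm w ≠ 4) : ∃ e : Fin 24 ≃ Cfsg.GolayPt, ∀ w : Cfsg.GolayPt → ZMod 2, w ∈ Cfsg.golayCode ↔ (fun i => w (e i)) ∈ C := by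
  open Cfsg.Agent.Lib.ThreeT.AbsGolay Cfsg.Agent.Lib.Golay Cfsg.Agent.Lib.Steiner Cfsg.Agent.Lib.Compute in
  have hC : IsAbs C := by
    refine ⟨hdim, horth, fun w hw h0 => ?_⟩
    obtain ⟨k, hk⟩ := h4 w hw
    have h1 : k ≠ 0 := by
      rintro rfl
      rw [Nat.mul_zero, hammingNorm_eq_zero] at hk
      exact h0 hk
    have h2 : k ≠ 1 := by
      rintro rfl
      exact hno4 w hw (by rw [hk])
    have h3 : 2 ≤ k := by omega
    omega
  let B : Set (Finset (Fin 24)) := {s | ∃ w ∈ C, hammingNorm w = 8 ∧ supp w = s}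
  have hB : IsSteinerSystem 5 8 B := by
    constructor
    · rintro _ ⟨w, _, h8, rfl⟩
      rw [← Cfsg.Agent.Lib.ThreeT.AbsGolay.hammingNorm_eq, h8]
    · intro s hs
      obtain ⟨w, ⟨⟨hw, h8⟩, hsw⟩, hu⟩ := (steiner_words hC).2 s hs
      refine ⟨supp w, ⟨⟨w, hw, h8, rfl⟩, hsw⟩, ?_⟩
      rintro _ ⟨⟨w', hw', h8', rfl⟩, hsw'⟩
      rw [hu w' ⟨⟨hw', h8'⟩, hsw'⟩]
  obtain ⟨e, he⟩ := Cfsg.Agent.S0407.result (α := Fin 24) (β := GolayPt) (by simp) (by simp) hB octads_steiner
  have hsupp : ∀ w : GolayPt → ZMod 2, supp (fun i => w (e i)) = (support₂ w).image e.symm := by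
    intro w
    ext i
    simp only [mem_supp, Finset.mem_image, mem_support₂]
    constructor
    · intro h
      exact ⟨e i, h, by simp⟩
    · rintro ⟨a, ha, rfl⟩
      simpa using ha
  have hA : ∀ w : GolayPt → ZMod 2, support₂ w ∈ octads → (fun i => w (e i)) ∈ C := by
    intro w hw
    rw [← he] at hw
    obtain ⟨b, ⟨v, hv, _, rfl⟩, hb⟩ := hw
    have h1 : supp (fun i => w (e i)) = supp v := by
      rw [hsupp, ← hb]
      ext i
      simp
    rw [supp_injective h1]
    exact hv
  refine ⟨e, fun w => ⟨fun hw => ?_, fun hw => ?_⟩⟩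
  · let L : (GolayPt → ZMod 2) →ₗ[ZMod 2] (Fin 24 → ZMod 2) := LinearMap.funLeft (ZMod 2) (ZMod 2) e
    have hle : golayCode ≤ C.comap L := by
      refine golayCode_le_of_span (l := basis) (cert := [1, 2, 4, 8, 16, 32, 64, 128, 256, 512, 1024, 2048])
        (by decide +kernel) ?_
      intro g hg
      have h := List.all_eq_true.1 basis_octads g hg
      simp only [Bool.and_eq_true] at h
      refine hA (wordOf g) ?_
      rw [support_wordOf]
      exact enc_mem_octads h.1 h.2
    exact hle hw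
  · let T : (Fin 24 → ZMod 2) →ₗ[ZMod 2] (GolayPt → ZMod 2) := LinearMap.funLeft (ZMod 2) (ZMod 2) e.symm
    have hle : C ≤ golayCode.comap T := by
      rw [← span_octads hC, Submodule.span_le]
      rintro v ⟨hv, h8⟩
      have h1 : (supp v).image e ∈ octads := by
        rw [← he]
        exact ⟨supp v, ⟨v, hv, h8, rfl⟩, rfl⟩
      obtain ⟨⟨u, hu, hsu⟩, _⟩ := h1
      have h2 : T v = u := by
        apply support_inj
        rw [hsu]
        ext a
        simp only [mem_support₂, Finset.mem_image, mem_supp]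
        constructor
        · intro h
          exact ⟨e.symm a, h, by simp⟩
        · rintro ⟨i, hi, rfl⟩
          have : T v (e i) = v i := by
            show v (e.symm (e i)) = v i
            simp
          rw [this]
          exact hi
      show T v ∈ golayCode
      rw [h2]
      exact hu
    have h3 := hle hw
    have h4 : T (fun i => w (e i)) = w := by
      ext a
      show w (e (e.symm a)) = w a
      simp
    rwa [Submodule.mem_comap, h4] at h3

end Cfsg.Agent.S0375
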