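import Cfsg.Statements.S0410
import Cfsg.Agent.Lib.Steiner.U22
import Cfsg.Agent.Lib.Steiner.Inter

set_option autoImplicit false
open Cfsg

namespace Cfsg.Agent.S0410

/-- Uniqueness of the Steiner system S(3, 6, 22) up to isomorphism. -/
theorem result {α β : Type*} [Fintype α] [DecidableEq α] [Fintype β] [DecidableEq β] (hα : Fintype.card α = 22) (hβ : Fintype.card β = 22) {B : Set (Finset α)} {B' : Set (Finset β)} (hB : Cfsg.IsSteinerSystem 3 6 B) (hB' : Cfsg.IsSteinerSystem 3 6 B') : Cfsg.SetSystemIso B B' := by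
  open Cfsg.Agent.Lib.Steiner in
  exact iso_of_hasStd hB hB' hα hβ (by norm_num) (blocks0 := U22.blocks0)
    (fun m hm => by simpa using allL_iff.1 U22.blocks0_bound m hm) U22.blocks0_nodup
    (by rw [U22.blocks0_length]; decide)
    (U22.hasStd hB (hall_3_6_22 hα hB) hα) (U22.hasStd hB' (hall_3_6_22 hβ hB') hβ)

end Cfsg.Agent.S0410
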