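import Cfsg.Statements.S0412
import Cfsg.Agent.S0407
import Cfsg.Agent.Lib.Steiner.Transfer
import Cfsg.Agent.Lib.Golay.SimpleGroups

set_option autoImplicit false
open Cfsg

namespace Cfsg.Agent.S0412

/-- Aut of an S(5, 8, 24) is simple of order 244823040 and 5-transitive on points. -/
theorem result {α : Type*} [Fintype α] [DecidableEq α] (hα : Fintype.card α = 24) {B : Set (Finset α)} (hB : Cfsg.IsSteinerSystem 5 8 B) : Cfsg.IsM24 (Cfsg.setSystemAut B) ∧ MulAction.IsMultiplyPretransitive (Cfsg.setSystemAut B) α 5 := by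
  open Cfsg.Agent.Lib.Steiner Cfsg.Agent.Lib.Golay in
  obtain ⟨e, he⟩ := Cfsg.Agent.S0407.result hα (by simp) hB octads_steiner
  have hs : IsSimpleGroup (setSystemAut octads) := by
    rw [← M24_eq_setSystemAut]; exact simple_M24
  have hc : Nat.card (setSystemAut octads) = 244823040 := by
    rw [← M24_eq_setSystemAut]; exact card_M24
  have ht : MulAction.IsMultiplyPretransitive (setSystemAut octads) GolayPt 5 := by
    rw [← M24_eq_setSystemAut]; exact M24_five_transitive
  exact ⟨⟨(autEquiv e he).isSimpleGroup, (Nat.card_congr (autEquiv e he).toEquiv).trans hc⟩,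
    pretransitive_of_iso e he ht⟩

end Cfsg.Agent.S0412
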