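import Cfsg.Statements.S0413
import Cfsg.Agent.S0409
import Cfsg.Agent.Lib.Golay.Derived

set_option autoImplicit false
open Cfsg

namespace Cfsg.Agent.S0413

/-- Aut of an S(4, 7, 23) is simple of order 10200960 and 4-transitive. -/
theorem result {α : Type*} [Fintype α] [DecidableEq α] (hα : Fintype.card α = 23) {B : Set (Finset α)} (hB : Cfsg.IsSteinerSystem 4 7 B) : Cfsg.IsM23 (Cfsg.setSystemAut B) ∧ MulAction.IsMultiplyPretransitive (Cfsg.setSystemAut B) α 4 := by
  open Cfsg.Agent.Lib.Steiner Cfsg.Agent.Lib.Golay in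
  obtain ⟨e, he⟩ := Cfsg.Agent.S0409.result hα card_X1 hB steiner_D1
  have hs : IsSimpleGroup (setSystemAut D1) :=
    haveI := simple_stabilizer_point (none : GolayPt)
    autD1Equiv.isSimpleGroup
  have hc : Nat.card (setSystemAut D1) = 10200960 :=
    (Nat.card_congr autD1Equiv.toEquiv).trans (card_stabilizer_point none)
  exact ⟨⟨(autEquiv e he).isSimpleGroup, (Nat.card_congr (autEquiv e he).toEquiv).trans hc⟩,
    pretransitive_of_iso e he autD1_pretransitive⟩

end Cfsg.Agent.S0413
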