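import Cfsg.Statements.S0414
import Cfsg.Agent.S0410
import Cfsg.Agent.Lib.Golay.Derived

set_option autoImplicit false
open Cfsg

namespace Cfsg.Agent.S0414

/-- Aut of an S(3, 6, 22) has order 887040, is 3-transitive, and contains a simple subgroup of index 2. -/
theorem result {α : Type*} [Fintype α] [DecidableEq α] (hα : Fintype.card α = 22) {B : Set (Finset α)} (hB : Cfsg.IsSteinerSystem 3 6 B) : Nat.card (Cfsg.setSystemAut B) = 887040 ∧ MulAction.IsMultiplyPretransitive (Cfsg.setSystemAut B) α 3 ∧ ∃ H : Subgroup (Cfsg.setSystemAut B), H.index = 2 ∧ Cfsg.IsM22 H := by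
  open Cfsg.Agent.Lib.Steiner Cfsg.Agent.Lib.Golay in
  obtain ⟨e, he⟩ := Cfsg.Agent.S0410.result hα card_X2 hB steiner_D2
  let φ := autEquiv e he
  refine ⟨(Nat.card_congr φ.toEquiv).trans card_aut_D2, pretransitive_of_iso e he autD2_pretransitive,
    H2.comap φ.toMonoidHom, ?_, ?_⟩
  · rw [Subgroup.index_comap_of_surjective H2 φ.surjective]
    exact index_H2
  · have hm := isM22_H2
    let ψ : ↥(H2.comap φ.toMonoidHom) ≃* ↥H2 :=
      { toFun := fun x => ⟨φ x.1, x.2⟩
        invFun := fun y => ⟨φ.symm y.1, by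
          show φ (φ.symm y.1) ∈ H2
          rw [MulEquiv.apply_symm_apply]
          exact y.2⟩
        left_inv := fun x => Subtype.ext (φ.symm_apply_apply x.1)
        right_inv := fun y => Subtype.ext (φ.apply_symm_apply y.1)
        map_mul' := fun x y => Subtype.ext (map_mul φ x.1 y.1) }
    exact ⟨haveI := hm.1; ψ.isSimpleGroup, (Nat.card_congr ψ.toEquiv).trans hm.2⟩

end Cfsg.Agent.S0414
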