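import Cfsg.Statements.S0417
import Mathlib
import Cfsg.Agent.Lib.SharpTrans.Basic

set_option autoImplicit false
open Cfsg

open Cfsg.Agent.Lib.SharpTrans

namespace Cfsg.Agent.S0417


/-- For k ≥ 6, sharply k-transitive groups have degree k, k+1 or k+2. -/
theorem result {α : Type*} [Fintype α] [DecidableEq α] (G : Subgroup (Equiv.Perm α)) (k : ℕ) (hk : 6 ≤ k) (hn : k ≤ Fintype.card α) [MulAction.IsMultiplyPretransitive G α k] (hsharp : ∀ x : Fin k ↪ α, MulAction.stabilizer G x = ⊥) : Fintype.card α = k ∨ Fintype.card α = k + 1 ∨ Fintype.card α = k + 2 := by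
  classical
  haveI : Fintype G := Fintype.ofFinite _
  obtain ⟨d, rfl⟩ : ∃ d, k = 6 + d := ⟨k - 6, by omega⟩
  have hS := sharp_of_subgroup G (6 + d) hsharp
  have h1 := reduce_six d hS hn
  have hS' : Sharp G α (4 + (d + 2)) := by
    have : 4 + (d + 2) = 6 + d := by omega
    rw [this]; exact hS
  have h2 := reduce_four (d + 2) hS' (by omega)
  omega

end Cfsg.Agent.S0417
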