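import Cfsg.Statements.S0426
import Cfsg.Agent.S0411
import Cfsg.Agent.Lib.Golay.Hexads

set_option autoImplicit false
open Cfsg

namespace Cfsg.Agent.S0426

/-- Aut of an S(4, 5, 11) is simple of order 7920 and sharply 4-transitive on points. -/
theorem result {α : Type*} [Fintype α] [DecidableEq α] (hα : Fintype.card α = 11) {B : Set (Finset α)} (hB : Cfsg.IsSteinerSystem 4 5 B) : Cfsg.IsM11 (Cfsg.setSystemAut B) ∧ MulAction.IsMultiplyPretransitive (Cfsg.setSystemAut B) α 4 ∧ ∀ x : Fin 4 ↪ α, MulAction.stabilizer (Cfsg.setSystemAut B) x = ⊥ := by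
  open Cfsg.Agent.Lib.Steiner Cfsg.Agent.Lib.Golay Cfsg.Agent.Lib.Compute in
  have hp0 : pt 0 ∈ D0 := by
    rw [Enc.mem_finOf]
    decide +kernel
  let p : {a : GolayPt // a ∈ D0} := ⟨pt 0, hp0⟩
  obtain ⟨e, he⟩ := Cfsg.Agent.S0411.result hα (card_X11 (p := p) D0_mem) hB (steiner_H11 (p := p) D0_mem)
  have hm := isM11_autH11 (p := p) D0_mem
  exact ⟨⟨haveI := hm.1; (autEquiv e he).isSimpleGroup, (Nat.card_congr (autEquiv e he).toEquiv).trans hm.2⟩,
    pretransitive_of_iso e he (autH11_pretransitive D0_mem),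
    stabilizer_bot_of_iso e he (autH11_sharp D0_mem)⟩

end Cfsg.Agent.S0426
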