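import Cfsg.Statements.S0430
import Cfsg.Agent.S0410
import Cfsg.Agent.Lib.Steiner.SRG100

set_option autoImplicit false
open Cfsg

namespace Cfsg.Agent.S0430

/-- Uniqueness of the strongly regular graph with parameters (100, 22, 0, 6). -/
theorem result {V W : Type*} [Fintype V] [Fintype W] {G : SimpleGraph V} {H : SimpleGraph W} [DecidableRel G.Adj] [DecidableRel H.Adj] (hG : G.IsSRGWith 100 22 0 6) (hH : H.IsSRGWith 100 22 0 6) : Nonempty (G ≃g H) := by
  classical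
  open Cfsg.Agent.Lib.Steiner in
  have hV : Nonempty V := Fintype.card_pos_iff.1 (by rw [hG.card]; norm_num)
  have hW : Nonempty W := Fintype.card_pos_iff.1 (by rw [hH.card]; norm_num)
  obtain ⟨v0⟩ := hV
  obtain ⟨w0⟩ := hW
  obtain ⟨i1⟩ := Cfsg.Agent.Lib.Steiner.exists_srgIso hG v0
  obtain ⟨i2⟩ := Cfsg.Agent.Lib.Steiner.exists_srgIso hH w0
  obtain ⟨e, he⟩ := Cfsg.Agent.S0410.result (Cfsg.Agent.Lib.Steiner.card_PtS hG v0)
    (Cfsg.Agent.Lib.Steiner.card_PtS hH w0) (Cfsg.Agent.Lib.Steiner.steiner_blocksS hG v0)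
    (Cfsg.Agent.Lib.Steiner.steiner_blocksS hH w0)
  obtain ⟨i3⟩ := Cfsg.Agent.Lib.Steiner.pb_congr e he
  exact ⟨(i1.trans i3).trans i2.symm⟩

end Cfsg.Agent.S0430
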