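import Cfsg.Statements.S0431
import Cfsg.Agent.S0414
import Cfsg.Agent.Lib.Steiner.HSMain
import Cfsg.Agent.Lib.Steiner.Inter

set_option autoImplicit false
open Cfsg

namespace Cfsg.Agent.S0431

/-- Aut of the point-block graph of an S(3, 6, 22) contains a simple subgroup of order 44352000. -/
theorem result {α : Type*} [Fintype α] (hα : Fintype.card α = 22) {B : Set (Finset α)} (hB : Cfsg.IsSteinerSystem 3 6 B) : ∃ H : Subgroup (Cfsg.pointBlockGraph B ≃g Cfsg.pointBlockGraph B), Cfsg.IsHS H := by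
  classical
  open Cfsg.Agent.Lib.Steiner Cfsg.Agent.Lib.Steiner.HS Cfsg.Agent.Lib.Compute in
  obtain ⟨E, hE⟩ := U22.hasStd hB (hall_3_6_22 hα hB) hα
  have hBE : B = (fun m => E.finOf m) '' {m | m ∈ U22.blocks0} := eq_of_hasStd hB hα (by norm_num)
    (fun m hm => by simpa using allL_iff.1 U22.blocks0_bound m hm) U22.blocks0_nodup
    (by rw [U22.blocks0_length]; decide) E hE
  letI : Fintype (Option (α ⊕ B)) := Fintype.ofFinite _
  have hm := Cfsg.Agent.S0414.result hα hB
  let V := vE E hBE
  have hV0 : ∀ y : Option (α ⊕ B), V.idx y = 0 → y = none := by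
    intro y hy
    apply V.idx_injective
    rw [hy]
    rfl
  have htp := checkPerm_of_checkAut tauP_aut
  have hcp := checkPerm_of_checkAut cP_aut
  have hcode := V.isCode_perm hcp
  refine exists_isHS_of_data (tau := V.perm (pc tauP)) (c := V.perm (pc cP))
    ((Nat.card_congr V.equivFin).trans (Nat.card_fin 100)) hm.2.2 (trans_pb E hBE)
    (perm_mem E hBE tauP_aut) ?_ ?_ (perm_mem E hBE cP_aut) ?_ ?_ ?_
  · apply hV0
    rw [V.idx_perm_apply htp]
    exact tau_zero
  · rw [sign_of_swaps V (V.isCode_perm htp) tauSwaps tau_swaps_ok tau_swaps, tau_swaps_len]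
    decide
  · exact eq_of_isCode_all (iterF_isCode V hcode 11) (σ := V.perm (pc cP) ^ 11) (τ := 1)
      (g := fun i => i) (fun _ => rfl) c_pow
  · apply hV0
    rw [V.idx_perm_apply hcp]
    exact c_zero
  · intro y hy
    apply hV0
    have h1 := (allBelow_iff _ _).1 c_fix (V.idx y) (V.idx_lt y)
    rw [← V.idx_perm_apply hcp, hy, Nat.beq_refl] at h1
    simpa using Nat.eq_of_beq_eq_true (by simpa using h1)

end Cfsg.Agent.S0431
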