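import Cfsg.Statements.S0439
import Mathlib

set_option autoImplicit false
open Cfsg

namespace Cfsg.Agent.S0439

theorem cube_case {α : Type*} [DecidableEq α] [Fintype α] {a b c : α} (h1 : a ≠ b) (h2 : a ≠ c) (h3 : b ≠ c) :
    (Equiv.swap a b * Equiv.swap a c) ^ 3 = 1 := by
  have := (Equiv.Perm.isThreeCycle_swap_mul_swap_same h1 h2 h3).orderOf
  rw [← this]
  exact pow_orderOf_eq_one _

theorem prod_swaps {α : Type*} [DecidableEq α] [Fintype α] (x y u v : α) (hxy : x ≠ y) (huv : u ≠ v) :
    (Equiv.swap x y * Equiv.swap u v) ^ 2 = 1 ∨ (Equiv.swap x y * Equiv.swap u v) ^ 3 = 1 := by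
  by_cases h1 : u = x
  · subst h1
    by_cases h2 : v = y
    · subst h2
      left; simp
    · right
      exact cube_case hxy huv (Ne.symm h2)
  by_cases h3 : u = y
  · subst h3
    by_cases h4 : v = x
    · subst h4
      left
      rw [Equiv.swap_comm v u]
      simp
    · right
      rw [Equiv.swap_comm x u]
      exact cube_case (Ne.symm hxy) huv (Ne.symm h4)
  by_cases h5 : v = x
  · subst h5
    right
    rw [Equiv.swap_comm u v]
    exact cube_case hxy (Ne.symm huv) (Ne.symm h3)
  by_cases h6 : v = y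
  · subst h6
    right
    rw [Equiv.swap_comm x v, Equiv.swap_comm u v]
    exact cube_case (Ne.symm hxy) (Ne.symm huv) (Ne.symm h1)
  left
  have hd : Equiv.Perm.Disjoint (Equiv.swap x y) (Equiv.swap u v) := by
    intro i
    by_cases hi : i = x ∨ i = y
    · right
      rw [Equiv.swap_apply_of_ne_of_ne]
      · rcases hi with rfl | rfl
        · exact fun h => h1 h.symm
        · exact fun h => h3 h.symm
      · rcases hi with rfl | rfl
        · exact fun h => h5 h.symm
        · exact fun h => h6 h.symm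
    · left
      push Not at hi
      exact Equiv.swap_apply_of_ne_of_ne hi.1 hi.2
  rw [hd.commute.mul_pow]
  simp [pow_two]

/-- In the symmetric group of degree n ≥ 2, the set of transpositions is a conjugacy class of 3-transpositions which generates the group. -/
theorem result (n : ℕ) (hn : 2 ≤ n) : Cfsg.IsThreeTranspositionClass {σ : Equiv.Perm (Fin n) | σ.IsSwap} := by
  classical
  refine ⟨⟨?_, ?_⟩, ?_, Equiv.Perm.closure_isSwap⟩
  · rintro σ ⟨x, y, hxy, rfl⟩
    have : Fact (Nat.Prime 2) := ⟨Nat.prime_two⟩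
    apply orderOf_eq_prime
    · simp [pow_two]
    · intro h
      apply hxy
      have := Equiv.swap_apply_left x y
      rw [h] at this
      simpa using this
  · rintro σ ⟨x, y, hxy, rfl⟩ τ ⟨u, v, huv, rfl⟩
    exact prod_swaps x y u v hxy huv
  · have h01 : (⟨0, by omega⟩ : Fin n) ≠ ⟨1, by omega⟩ := by simp [Fin.ext_iff]
    refine ⟨Equiv.swap ⟨0, by omega⟩ ⟨1, by omega⟩, ⟨_, _, h01, rfl⟩, ?_⟩
    ext σ
    show σ.IsSwap ↔ IsConj _ σ
    constructor
    · rintro ⟨x, y, hxy, rfl⟩
      exact Equiv.Perm.isConj_swap h01 hxy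
    · intro h
      obtain ⟨c, rfl⟩ := isConj_iff.1 h
      refine ⟨c _, c _, fun he => h01 (c.injective he), ?_⟩
      rw [Equiv.swap_apply_apply]

end Cfsg.Agent.S0439
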