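import Cfsg.Statements.S0440
import Cfsg.Agent.Lib.ThreeT.SpTv

set_option autoImplicit false
open Cfsg

namespace Cfsg.Agent.S0440

/-- In the symplectic group in dimension 2n ≥ 2 over the field with two elements, the elements g for which g - 1 has rank one (the symplectic transvections) form a conjugacy class of 3-transpositions generating the group. -/
theorem result (n : ℕ) (hn : 1 ≤ n) : Cfsg.IsThreeTranspositionClass {g : Matrix.symplecticGroup (Fin n) (ZMod 2) | ((g : Matrix (Fin n ⊕ Fin n) (Fin n ⊕ Fin n) (ZMod 2)) - 1).rank = 1} := by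
  classical
  let e : Fin n ⊕ Fin n → ZMod 2 := Pi.single (Sum.inl ⟨0, hn⟩) 1
  have he : e ≠ 0 := by
    intro h
    have := congrFun h (Sum.inl ⟨0, hn⟩)
    simp [e] at this
  refine ⟨⟨?_, ?_⟩, ⟨Cfsg.Agent.Lib.Classical.tv e 1, Cfsg.Agent.Lib.ThreeT.SpTv.rank_tv he, ?_⟩, ?_⟩
  · intro d hd
    obtain ⟨v, hv, rfl⟩ := Cfsg.Agent.Lib.ThreeT.SpTv.exists_tv_of_rank hd
    apply orderOf_eq_prime
    · rw [pow_two, Cfsg.Agent.Lib.ThreeT.SpTv.tv_sq]
    · exact Cfsg.Agent.Lib.ThreeT.SpTv.tv_ne_one hv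
  · intro d hd c hc
    obtain ⟨v, -, rfl⟩ := Cfsg.Agent.Lib.ThreeT.SpTv.exists_tv_of_rank hd
    obtain ⟨w, -, rfl⟩ := Cfsg.Agent.Lib.ThreeT.SpTv.exists_tv_of_rank hc
    exact Cfsg.Agent.Lib.ThreeT.SpTv.tv_pair v w
  · ext g
    constructor
    · intro hg
      obtain ⟨v, hv, rfl⟩ := Cfsg.Agent.Lib.ThreeT.SpTv.exists_tv_of_rank hg
      obtain ⟨A, hA⟩ := Cfsg.Agent.Lib.Classical.exists_move he hv
      refine isConj_iff.2 ⟨A, ?_⟩
      rw [Cfsg.Agent.Lib.Classical.conj_tv, hA]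
    · intro hg
      obtain ⟨A, rfl⟩ := isConj_iff.1 hg
      rw [Cfsg.Agent.Lib.Classical.conj_tv]
      apply Cfsg.Agent.Lib.ThreeT.SpTv.rank_tv
      intro h0
      apply he
      have h1 := Cfsg.Agent.Lib.Classical.sp_inv_cancel' A e
      rw [h0, Matrix.mulVec_zero] at h1
      exact h1.symm
  · rw [eq_top_iff, ← Cfsg.Agent.Lib.Classical.TT_eq_top (m := n) (F := ZMod 2)]
    rw [Cfsg.Agent.Lib.Classical.TT, Subgroup.closure_le]
    rintro A ⟨w, c, hA⟩
    have hA' : A = Cfsg.Agent.Lib.Classical.tv w c := Subtype.ext hA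
    rw [hA']
    by_cases hc : c = 0
    · rw [hc, Cfsg.Agent.Lib.Classical.tv_zero]
      exact one_mem _
    · rw [Cfsg.Agent.Lib.ThreeT.SpTv.one_of_ne hc]
      by_cases hw : w = 0
      · rw [hw, Cfsg.Agent.Lib.Classical.tv_zero']
        exact one_mem _
      · exact Subgroup.subset_closure (Cfsg.Agent.Lib.ThreeT.SpTv.rank_tv hw)

end Cfsg.Agent.S0440
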