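import Cfsg.Statements.S0442
import Mathlib

set_option autoImplicit false
open Cfsg

namespace Cfsg.Agent.S0442

/-- A standard trick for producing elements of an involution centraliser: for an involution a and an element g, let b be the conjugate g⁻¹ * a * g. If a * b has odd order 2m + 1 then g * (a * b) ^ m commutes with a; if a * b has even order 2m then (a * b) ^ m and (a * (g * a * g⁻¹)) ^ m commute with a. -/
theorem result {G : Type*} [Group G] (a g : G) (ha : orderOf a = 2) : (∀ m : ℕ, orderOf (a * (g⁻¹ * a * g)) = 2 * m + 1 → Commute (g * (a * (g⁻¹ * a * g)) ^ m) a) ∧ (∀ m : ℕ, orderOf (a * (g⁻¹ * a * g)) = 2 * m → Commute ((a * (g⁻¹ * a * g)) ^ m) a ∧ Commute ((a * (g * a * g⁻¹)) ^ m) a) := by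
  have haa : a * a = 1 := by
    have := pow_orderOf_eq_one a
    rw [ha, pow_two] at this
    exact this
  have hainv : a⁻¹ = a := inv_eq_of_mul_eq_one_left haa
  -- general inversion fact
  have key : ∀ (b : G), b * b = 1 → ∀ n : ℕ, a * (a * b) ^ n * a = ((a * b) ^ n)⁻¹ := by
    intro b hb n
    have hbinv : b⁻¹ = b := inv_eq_of_mul_eq_one_left hb
    have hc : a * (a * b) * a = (a * b)⁻¹ := by
      rw [mul_inv_rev, hainv, hbinv]
      rw [← mul_assoc, haa, one_mul]
    have : a * (a * b) ^ n * a = (a * (a * b) * a) ^ n := by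
      have h2 : a * (a * b) ^ n * a⁻¹ = (a * (a * b) * a⁻¹) ^ n := by
        exact (conj_pow).symm
      rwa [hainv] at h2
    rw [this, hc, inv_pow]
  have hbb : (g⁻¹ * a * g) * (g⁻¹ * a * g) = 1 := by
    calc (g⁻¹ * a * g) * (g⁻¹ * a * g) = g⁻¹ * (a * a) * g := by group
      _ = 1 := by rw [haa]; group
  have hdd : (g * a * g⁻¹) * (g * a * g⁻¹) = 1 := by
    calc (g * a * g⁻¹) * (g * a * g⁻¹) = g * (a * a) * g⁻¹ := by group
      _ = 1 := by rw [haa]; group
  constructor
  · intro m hm
    set b := g⁻¹ * a * g with hbdef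
    set c := a * b with hc
    have hcpow : c ^ (2 * m + 1) = 1 := by rw [← hm]; exact pow_orderOf_eq_one c
    have hk := key b hbb m
    rw [← hc] at hk
    -- c^m * a = a * (c^m)⁻¹
    have h1 : c ^ m * a = a * (c ^ m)⁻¹ := by
      rw [← hk]
      calc c ^ m * a = (a * a) * c ^ m * a := by rw [haa, one_mul]
        _ = a * (a * c ^ m * a) := by group
    have h2 : (c ^ m)⁻¹ * (c ^ m)⁻¹ = c := by
      have : c ^ (2 * m + 1) = c ^ m * c ^ m * c := by
        rw [pow_succ, two_mul, pow_add]
      rw [this] at hcpow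
      have h3 : c ^ m * c ^ m * c = 1 := hcpow
      calc (c ^ m)⁻¹ * (c ^ m)⁻¹ = (c ^ m)⁻¹ * (c ^ m)⁻¹ * (c ^ m * c ^ m * c) := by rw [h3, mul_one]
        _ = c := by group
    have h4 : g * c ^ m * a = a * (g * c ^ m) := by
      -- g c^m a = g a (c^m)⁻¹ ; want a g c^m
      have h5 : a * (c ^ m)⁻¹ = b * c ^ m := by
        -- a * x⁻¹ = a * x⁻¹ * x⁻¹ * x = a * c * x = b * x
        calc a * (c ^ m)⁻¹ = a * ((c ^ m)⁻¹ * (c ^ m)⁻¹ * c ^ m) := by group
          _ = a * (c * c ^ m) := by rw [h2]
          _ = (a * c) * c ^ m := by group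
          _ = b * c ^ m := by rw [hc, ← mul_assoc, haa, one_mul]
      calc g * c ^ m * a = g * (c ^ m * a) := by group
        _ = g * (a * (c ^ m)⁻¹) := by rw [h1]
        _ = g * (b * c ^ m) := by rw [h5]
        _ = a * (g * c ^ m) := by rw [hbdef]; group
    exact h4
  · intro m hm
    constructor
    · set b := g⁻¹ * a * g with hbdef
      set c := a * b with hc
      have hcpow : c ^ (2 * m) = 1 := by rw [← hm]; exact pow_orderOf_eq_one c
      have hk := key b hbb m
      rw [← hc] at hk
      have h2 : (c ^ m)⁻¹ = c ^ m := by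
        apply inv_eq_of_mul_eq_one_left
        rw [← pow_add, ← two_mul, hcpow]
      rw [h2] at hk
      -- a x a = x gives commute
      show c ^ m * a = a * c ^ m
      calc c ^ m * a = (a * a) * (c ^ m * a) := by rw [haa, one_mul]
        _ = a * (a * c ^ m * a) := by group
        _ = a * c ^ m := by rw [hk]
    · set b := g * a * g⁻¹ with hbdef
      set d := a * b with hd
      -- d is conjugate to the inverse of a * (g⁻¹ a g)
      have hconj : g⁻¹ * d * g = (a * (g⁻¹ * a * g))⁻¹ := by
        rw [mul_inv_rev, hd, hbdef, hainv]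
        have : (g⁻¹ * a * g)⁻¹ = g⁻¹ * a * g := inv_eq_of_mul_eq_one_left hbb
        rw [this]
        group
      have hdpow : d ^ (2 * m) = 1 := by
        have h0 : (g⁻¹ * d * g) ^ (2 * m) = 1 := by
          rw [hconj, inv_pow, ← hm, pow_orderOf_eq_one, inv_one]
        have h1 : (g⁻¹ * d * g) ^ (2 * m) = g⁻¹ * d ^ (2 * m) * g := by
          have := conj_pow (a := g⁻¹) (b := d) (i := 2 * m)
          simpa using this
        rw [h1] at h0
        calc d ^ (2 * m) = g * (g⁻¹ * d ^ (2 * m) * g) * g⁻¹ := by group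
          _ = 1 := by rw [h0]; group
      have hk := key b hdd m
      rw [← hd] at hk
      have h2 : (d ^ m)⁻¹ = d ^ m := by
        apply inv_eq_of_mul_eq_one_left
        rw [← pow_add, ← two_mul, hdpow]
      rw [h2] at hk
      show d ^ m * a = a * d ^ m
      calc d ^ m * a = (a * a) * (d ^ m * a) := by rw [haa, one_mul]
        _ = a * (a * d ^ m * a) := by group
        _ = a * d ^ m := by rw [hk]

end Cfsg.Agent.S0442
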