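import Cfsg.Statements.S0443
import Mathlib

set_option autoImplicit false
open Cfsg

namespace Cfsg.Agent.S0443

/-- Two definitions of a 2-central involution agree: an element t of order 2 of a finite group lies in the centre of some Sylow 2-subgroup if and only if its centraliser contains some Sylow 2-subgroup. -/
theorem result {G : Type*} [Group G] [Finite G] (t : G) (ht : orderOf t = 2) : Cfsg.IsTwoCentralInvolution t ↔ ∃ P : Sylow 2 G, (P : Subgroup G) ≤ Subgroup.centralizer ({t} : Set G) := by
  constructor
  · rintro ⟨_, P, _, hP⟩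
    refine ⟨P, fun x hx => ?_⟩
    rw [Subgroup.mem_centralizer_singleton_iff]
    exact hP x hx
  · rintro ⟨P, hP⟩
    refine ⟨ht, P, ?_, fun x hx => ?_⟩
    · -- `t` commutes with `P`, so `⟨P, t⟩` is a 2-group
      have hQ : IsPGroup 2 (Subgroup.zpowers t) := by
        refine IsPGroup.of_card (n := 1) ?_
        rw [Nat.card_zpowers, ht]; rfl
      have hn : (P : Subgroup G) ≤ Subgroup.normalizer (Subgroup.zpowers t : Set G) := by
        rw [Subgroup.le_normalizer_iff]
        rintro x hx _ ⟨k, rfl⟩
        have hc : x * t = t * x := (Subgroup.mem_centralizer_singleton_iff.1 (hP hx))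
        have hcomm : Commute x t := hc
        refine ⟨k, ?_⟩
        simp only
        rw [(hcomm.zpow_right k).eq, mul_assoc, mul_inv_cancel, mul_one]
      have hsup : IsPGroup 2 ((P : Subgroup G) ⊔ Subgroup.zpowers t : Subgroup G) :=
        P.isPGroup'.to_sup_of_normal_right' hQ hn
      have hle : (P : Subgroup G) ≤ (P : Subgroup G) ⊔ Subgroup.zpowers t := le_sup_left
      have heq := P.is_maximal' hsup hle
      have : t ∈ (P : Subgroup G) ⊔ Subgroup.zpowers t :=
        (le_sup_right : Subgroup.zpowers t ≤ _) (Subgroup.mem_zpowers t)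
      rwa [heq] at this
    · exact Subgroup.mem_centralizer_singleton_iff.1 (hP hx)

end Cfsg.Agent.S0443
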