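import Cfsg.Statements.S0446
import Mathlib

set_option autoImplicit false
open Cfsg

namespace Cfsg.Agent.S0446

/-- Every finite group of even order contains a 2-central involution, i.e. an element of order 2 in the centre of some Sylow 2-subgroup. -/
theorem result {G : Type*} [Group G] [Finite G] (h : Even (Nat.card G)) : ∃ t : G, Cfsg.IsTwoCentralInvolution t := by
  classical
  obtain ⟨P⟩ : Nonempty (Sylow 2 G) := inferInstance
  have h2 : 2 ∣ Nat.card G := even_iff_two_dvd.1 h
  have : Fact (Nat.Prime 2) := ⟨Nat.prime_two⟩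
  have hPn : Nontrivial (P : Subgroup G) := by
    have hcard : 2 ∣ Nat.card (P : Subgroup G) := by
      exact P.dvd_card_of_dvd_card h2
    by_contra hnt
    rw [not_nontrivial_iff_subsingleton] at hnt
    have h1 : Nat.card (P : Subgroup G) = 1 := Nat.card_of_subsingleton (1 : (P : Subgroup G))
    rw [h1] at hcard
    omega
  have hcentre : Nontrivial (Subgroup.center (P : Subgroup G)) :=
    IsPGroup.center_nontrivial P.isPGroup'
  have hZ : IsPGroup 2 (Subgroup.center (P : Subgroup G)) :=
    P.isPGroup'.to_subgroup _
  -- element of order 2 in the centre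
  have hdvd : 2 ∣ Nat.card (Subgroup.center (P : Subgroup G)) := by
    obtain ⟨n, hn⟩ := IsPGroup.iff_card.1 hZ
    rw [hn]
    have hn0 : n ≠ 0 := by
      rintro rfl
      have : Nat.card (Subgroup.center (P : Subgroup G)) = 1 := by simpa using hn
      exact (Finite.one_lt_card (α := Subgroup.center (P : Subgroup G))).ne' this
    exact dvd_pow_self 2 hn0
  obtain ⟨t, ht⟩ := exists_prime_orderOf_dvd_card' 2 hdvd
  refine ⟨((t : (P : Subgroup G)) : G), ?_, P, (t : (P : Subgroup G)).2, ?_⟩
  · have : orderOf ((t : (P : Subgroup G)) : G) = orderOf t := by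
      rw [Subgroup.orderOf_coe, Subgroup.orderOf_coe]
    rw [this, ht]
  · intro x hx
    have := (Subgroup.mem_center_iff.1 t.2) ⟨x, hx⟩
    exact congrArg Subtype.val this

end Cfsg.Agent.S0446
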