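import Cfsg.Statements.S0481
import Mathlib

set_option autoImplicit false
open Cfsg

namespace Cfsg.Agent.S0481

/-- Large extraspecial subgroups: let z be an involution of a finite group G whose centraliser C contains a normal 2-subgroup Q with centre of order 2 and all squares central, such that every element of G centralising Q lies in Q. Then C contains a Sylow 2-subgroup of G, and any involution of G whose centraliser contains a Sylow 2-subgroup of G is conjugate to z. -/
theorem result {G : Type*} [Group G] [Finite G] (z : G) (hz : orderOf z = 2) (Q : Subgroup G) (hQC : Q ≤ Subgroup.centralizer ({z} : Set G)) (hQn : ∀ g ∈ Subgroup.centralizer ({z} : Set G), ∀ q ∈ Q, g * q * g⁻¹ ∈ Q) (hQ2 : IsPGroup 2 Q) (hZ : Nat.card (Subgroup.center Q) = 2) (hsq : ∀ x : Q, x ^ 2 ∈ Subgroup.center Q) (hlarge : Subgroup.centralizer (Q : Set G) ≤ Q) : (∃ P : Sylow 2 G, (P : Subgroup G) ≤ Subgroup.centralizer ({z} : Set G)) ∧ ∀ u : G, orderOf u = 2 → (∃ P : Sylow 2 G, (P : Subgroup G) ≤ Subgroup.centralizer ({u} : Set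 G)) → IsConj z u := by
  classical
  have hzcomm : ∀ q ∈ Q, q * z = z * q := fun q hq =>
    Subgroup.mem_centralizer_singleton_iff.1 (hQC hq)
  -- `z` lies in `Q`
  have hzQ : z ∈ Q := hlarge (by
    rw [Subgroup.mem_centralizer_iff]
    intro q hq
    exact hzcomm q hq)
  -- any element of `Q` central in `Q` is `1` or `z`
  have hzcenter : (⟨z, hzQ⟩ : Q) ∈ Subgroup.center Q := by
    rw [Subgroup.mem_center_iff]
    intro q
    exact Subtype.ext (hzcomm q q.2)
  have hz1 : (⟨z, hzQ⟩ : Q) ≠ 1 := by
    intro h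
    have : z = 1 := congrArg Subtype.val h
    rw [this, orderOf_one] at hz
    omega
  have hcenter2 : ∀ x : G, x ∈ Q → (∀ q ∈ Q, q * x = x * q) → x = 1 ∨ x = z := by
    intro x hx hc
    have hxc : (⟨x, hx⟩ : Q) ∈ Subgroup.center Q := by
      rw [Subgroup.mem_center_iff]
      intro q
      exact Subtype.ext (hc q q.2)
    have hsub : ∀ a b c : Subgroup.center Q, b ≠ a → c ≠ a → b ≠ c → False := by
      intro a b c h1 h2 h3
      have h4 := Nat.card_eq_two_iff.1 hZ
      obtain ⟨u, v, huv, huniv⟩ := h4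
      have mem : ∀ y : Subgroup.center Q, y = u ∨ y = v := by
        intro y
        have : y ∈ ({u, v} : Set _) := by rw [huniv]; trivial
        simpa using this
      rcases mem a with rfl | rfl <;> rcases mem b with rfl | rfl <;> rcases mem c with rfl | rfl <;> simp_all
    by_contra hcon
    push Not at hcon
    apply hsub (1 : Subgroup.center Q) ⟨⟨z, hzQ⟩, hzcenter⟩ ⟨⟨x, hx⟩, hxc⟩
    · intro h
      exact hz1 (congrArg Subtype.val h)
    · intro h
      exact hcon.1 (congrArg (fun y : Subgroup.center Q => ((y : Q) : G)) h)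
    · intro h
      exact hcon.2 (congrArg (fun y : Subgroup.center Q => ((y : Q) : G)) h).symm
  -- the key: a Sylow subgroup `S ⊇ Q` is contained in `C(z)`
  obtain ⟨S, hS⟩ := hQ2.exists_le_sylow
  have hScent : (S : Subgroup G) ≤ Subgroup.centralizer ({z} : Set G) := by
    by_contra hnot
    set T : Subgroup S := (Subgroup.centralizer ({z} : Set G)).subgroupOf (S : Subgroup G) with hT
    have hTlt : T < ⊤ := by
      refine lt_top_iff_ne_top.2 ?_
      intro htop
      apply hnot
      intro x hx
      have : (⟨x, hx⟩ : S) ∈ T := by rw [htop]; trivial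
      rwa [hT, Subgroup.mem_subgroupOf] at this
    have : Fact (Nat.Prime 2) := ⟨Nat.prime_two⟩
    have : Group.IsNilpotent S := S.isPGroup'.isNilpotent
    have hnorm := Group.normalizerCondition_of_isNilpotent T hTlt
    obtain ⟨g, hg, hgT⟩ := SetLike.exists_of_lt hnorm
    apply hgT
    -- `g` normalizes `T`, so fixes `z`
    have hzS : z ∈ (S : Subgroup G) := hS hzQ
    -- conjugate of z by g
    set z' : G := (g : G) * z * (g : G)⁻¹ with hz'
    have hzT : (⟨z, hzS⟩ : S) ∈ T := by
      rw [hT, Subgroup.mem_subgroupOf, Subgroup.mem_centralizer_singleton_iff]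
    have hz'T : (g * ⟨z, hzS⟩ * g⁻¹ : S) ∈ T := (Subgroup.mem_normalizer_iff.1 hg _).1 hzT
    -- z' commutes with all of T, in particular with Q
    have hcentT : ∀ x : S, x ∈ T → x * (g * ⟨z, hzS⟩ * g⁻¹) = (g * ⟨z, hzS⟩ * g⁻¹) * x := by
      intro x hx
      have hx' : g⁻¹ * x * g ∈ T := by
        have := (Subgroup.mem_normalizer_iff.1 (inv_mem hg) x).1 hx
        simpa using this
      have hcomm : (g⁻¹ * x * g) * (⟨z, hzS⟩ : S) = (⟨z, hzS⟩ : S) * (g⁻¹ * x * g) := by
        apply Subtype.ext
        rw [hT, Subgroup.mem_subgroupOf, Subgroup.mem_centralizer_singleton_iff] at hx'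
        exact hx'
      calc x * (g * ⟨z, hzS⟩ * g⁻¹) = g * ((g⁻¹ * x * g) * ⟨z, hzS⟩) * g⁻¹ := by group
        _ = g * (⟨z, hzS⟩ * (g⁻¹ * x * g)) * g⁻¹ := by rw [hcomm]
        _ = (g * ⟨z, hzS⟩ * g⁻¹) * x := by group
    have hz'Q : z' ∈ Q := by
      apply hlarge
      rw [Subgroup.mem_centralizer_iff]
      intro q hq
      have hqT : (⟨q, hS hq⟩ : S) ∈ T := by
        rw [hT, Subgroup.mem_subgroupOf]
        exact hQC hq
      have := hcentT _ hqT
      exact congrArg Subtype.val this
    have hz'center : ∀ q ∈ Q, q * z' = z' * q := by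
      intro q hq
      have hqT : (⟨q, hS hq⟩ : S) ∈ T := by
        rw [hT, Subgroup.mem_subgroupOf]
        exact hQC hq
      have := hcentT _ hqT
      exact congrArg Subtype.val this
    have hz'1 : z' ≠ 1 := by
      intro h
      have : z = 1 := by
        have h2 : z = (g : G)⁻¹ * z' * (g : G) := by rw [hz']; group
        rw [h2, h]; group
      rw [this, orderOf_one] at hz
      omega
    have hz'z : z' = z := by
      rcases hcenter2 z' hz'Q hz'center with h | h
      · exact absurd h hz'1
      · exact h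
    rw [hT, Subgroup.mem_subgroupOf, Subgroup.mem_centralizer_singleton_iff]
    rw [hz'] at hz'z
    calc (g : G) * z = ((g : G) * z * (g : G)⁻¹) * (g : G) := by group
      _ = z * g := by rw [hz'z]
  refine ⟨⟨S, hScent⟩, ?_⟩
  rintro u hu ⟨P, hP⟩
  -- conjugate `P` to `S`
  obtain ⟨h, hh⟩ := MulAction.exists_smul_eq G P S
  have hPS : (S : Subgroup G) = (P : Subgroup G).map (MulAut.conj h).toMonoidHom := by
    rw [← hh]
    rfl
  set u' : G := h * u * h⁻¹ with hu'def
  have hSu' : ∀ x ∈ (S : Subgroup G), x * u' = u' * x := by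
    intro x hx
    rw [hPS] at hx
    obtain ⟨p, hp, rfl⟩ := hx
    have hc : p * u = u * p := Subgroup.mem_centralizer_singleton_iff.1 (hP hp)
    simp only [MulEquiv.coe_toMonoidHom, MulAut.conj_apply]
    calc h * p * h⁻¹ * u' = h * (p * u) * h⁻¹ := by rw [hu'def]; group
      _ = h * (u * p) * h⁻¹ := by rw [hc]
      _ = u' * (h * p * h⁻¹) := by rw [hu'def]; group
  have hu'Q : u' ∈ Q := by
    apply hlarge
    rw [Subgroup.mem_centralizer_iff]
    intro q hq
    exact hSu' q (hS hq)
  have hu'1 : u' ≠ 1 := by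
    intro h1
    have : u = 1 := by
      have h2 : u = h⁻¹ * u' * h := by rw [hu'def]; group
      rw [h2, h1]; group
    rw [this, orderOf_one] at hu
    omega
  have hu'z : u' = z := by
    rcases hcenter2 u' hu'Q (fun q hq => hSu' q (hS hq)) with h1 | h1
    · exact absurd h1 hu'1
    · exact h1
  rw [isConj_iff]
  refine ⟨h⁻¹, ?_⟩
  rw [← hu'z, hu'def]
  group

end Cfsg.Agent.S0481
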