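import Cfsg.Statements.S0495
import Mathlib
import Cfsg.Agent.Lib.SmallSimple.PSLSeven

set_option autoImplicit false
open Cfsg

namespace Cfsg.Agent.S0495

/-- A simple group of order 168 is isomorphic to the projective special linear group of dimension 2 over the field with
7 elements. -/
theorem result {G : Type*} [Group G] [Finite G] [IsSimpleGroup G]
    (h : Nat.card G = 168) {F : Type*} [Field F] [Fintype F] (hF : Fintype.card F = 7) :
    Nonempty (G ≃* Matrix.ProjectiveSpecialLinearGroup (Fin 2) F) := by
  haveI : Fact (Nat.Prime 7) := ⟨by norm_num⟩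
  exact Lib.SmallSimple.psl_congr_of_card hF (Lib.SmallSimple.psl_of_card_168 h)

end Cfsg.Agent.S0495
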