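import Cfsg.Statements.S0499
import Mathlib
import Cfsg.Agent.Lib.Cl.SmallSimple
import Cfsg.Agent.Lib.Cl.AutCount
import Cfsg.Agent.S0071

set_option autoImplicit false
open Cfsg

namespace Cfsg.Agent.S0499

/-- A non-abelian finite simple group of even order has order divisible by 12, 16 or 56. -/
theorem result {G : Type*} [Group G] [Finite G] [IsSimpleGroup G]
    (hG : ¬ IsMulCommutative G) (h2 : Even (Nat.card G)) :
    12 ∣ Nat.card G ∨ 16 ∣ Nat.card G ∨ 56 ∣ Nat.card G := by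
  haveI : Fact (Nat.Prime 2) := ⟨Nat.prime_two⟩
  have h4 := Cfsg.Agent.Lib.Cl.four_dvd_card_of_simple hG h2
  have h2dvd : 2 ∣ Nat.card G := h2.two_dvd
  by_contra hcon
  push_neg at hcon
  obtain ⟨h12, h16, h56⟩ := hcon
  obtain ⟨P⟩ := (inferInstance : Nonempty (Sylow 2 G))
  have hnotc : ¬ ∃ N : Subgroup G, N.Normal ∧ N.IsComplement' (P : Subgroup G) := by
    rintro ⟨N, hN, hc⟩
    exact Cfsg.Agent.Lib.Cl.not_hasNormalPComplement_of_simple hG h2dvd ⟨P, N, hN, hc⟩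
  rw [Cfsg.Agent.S0071.result P] at hnotc
  push_neg at hnotc
  obtain ⟨Q, hQP, g, hg, hcop, hgn⟩ := hnotc
  -- the automorphism
  let g' : Subgroup.normalizer ((Q : Subgroup G) : Set G) := ⟨g, hg⟩
  let σ : MulAut Q := Q.normalizerMonoidHom g'
  have hσ1 : σ ≠ 1 := by
    intro h
    have hk : g' ∈ Q.normalizerMonoidHom.ker := h
    rw [Subgroup.normalizerMonoidHom_ker] at hk
    exact hgn (Subgroup.mem_subgroupOf.mp hk)
  have hσo : orderOf σ ∣ orderOf g := by
    have h1 : orderOf σ ∣ orderOf g' := orderOf_map_dvd _ _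
    rwa [Subgroup.orderOf_mk] at h1
  haveI : Finite (MulAut Q) := inferInstance
  obtain ⟨r, j, hr, hrd, hrj⟩ := Cfsg.Agent.Lib.Cl.exists_pow_prime_orderOf σ hσ1
  have hr2 : r ≠ 2 := by
    rintro rfl
    have h1 := hrd.trans hσo
    have h3 : Nat.gcd (orderOf g) 2 = 1 := hcop
    have h5 : 2 ∣ Nat.gcd (orderOf g) 2 := Nat.dvd_gcd h1 (dvd_refl 2)
    rw [h3] at h5
    omega
  have hrG : r ∣ Nat.card G := (hrd.trans hσo).trans (orderOf_dvd_natCard g)
  have hQp : IsPGroup 2 Q := P.isPGroup'.to_le hQP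
  obtain ⟨s, hs⟩ := IsPGroup.iff_card.mp hQp
  have hsG : 2 ^ s ∣ Nat.card G := hs ▸ Subgroup.card_subgroup_dvd_card Q
  have hs3 : s ≤ 3 := by
    by_contra hlt
    apply h16
    exact (pow_dvd_pow 2 (by omega : 4 ≤ s)).trans hsG
  obtain ⟨k, hk1, hk2, hk⟩ := Cfsg.Agent.Lib.Cl.prime_dvd_pow_sub_one_of_aut Nat.prime_two hs (σ ^ j) hr hr2 hrj
  have hk3 : k = 1 ∨ k = 2 ∨ k = 3 := by omega
  rcases hk3 with rfl | rfl | rfl
  · norm_num at hk
    exact hr.one_lt.ne' hk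
  · have : r = 3 := (Nat.prime_dvd_prime_iff_eq hr Nat.prime_three).mp (by simpa using hk)
    subst this
    exact h12 (Nat.Coprime.mul_dvd_of_dvd_of_dvd (by norm_num : Nat.Coprime 4 3) h4 hrG |> fun h => by simpa using h)
  · have h7 : r = 7 := (Nat.prime_dvd_prime_iff_eq hr (by norm_num)).mp (by simpa using hk)
    subst h7
    have hs3' : s = 3 := by omega
    subst hs3'
    exact h56 (Nat.Coprime.mul_dvd_of_dvd_of_dvd (by norm_num : Nat.Coprime 8 7) (by simpa using hsG) hrG |> fun h => by simpa using h)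

end Cfsg.Agent.S0499
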