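import Cfsg.Statements.S0502
import Mathlib
import Cfsg.Agent.Lib.Cl.Klein
import Cfsg.Agent.Lib.Core.Basic

set_option autoImplicit false
open Cfsg

namespace Cfsg.Agent.S0502

open Subgroup Cfsg.Agent.Lib.Cl

theorem exists_mem_ne_of_three_le {G : Type*} [Group G] [Finite G] {H : Subgroup G} (hH : 3 ≤ Nat.card H) (w : G) :
    ∃ v ∈ H, v ≠ 1 ∧ v ≠ w := by
  classical
  by_contra h
  push_neg at h
  have h1 : (H : Set G) ⊆ {1, w} := by
    intro x hx
    by_cases hx1 : x = 1
    · simp [hx1]
    · simp [h x hx hx1]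
  have h2 := Set.ncard_le_ncard h1 (Set.toFinite _)
  have h3 : Nat.card H = (H : Set G).ncard := Nat.card_coe_set_eq _
  have h4 : ({1, w} : Set G).ncard ≤ 2 := by
    have h5 := Set.ncard_insert_le (1 : G) ({w} : Set G)
    rwa [Set.ncard_singleton] at h5
  omega

/-- If a finite 2-group has a normal elementary abelian subgroup of order at least 8, then any two of its Klein
four-subgroups are joined by a chain of Klein four-subgroups with consecutive members commuting elementwise. -/
theorem result {P : Type*} [Group P] [Finite P] (hP : IsPGroup 2 P)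
    (E : Subgroup P) [E.Normal] (hE : IsMulCommutative E) (hE2 : ∀ e ∈ E, e ^ 2 = 1) (hE8 : 8 ≤ Nat.card E) :
    Cfsg.IsFourConnected P := by
  classical
  haveI : Fact (Nat.Prime 2) := ⟨Nat.prime_two⟩
  haveI nil : Group.IsNilpotent P := hP.isNilpotent
  have hEc : ∀ a ∈ E, ∀ b ∈ E, a * b = b * a := by
    intro a ha b hb
    have := hE.is_comm.comm (⟨a, ha⟩ : E) ⟨b, hb⟩
    exact congrArg Subtype.val this
  have hEne : E ≠ ⊥ := by
    rintro rfl
    simp at hE8
  have h1 := Cfsg.Agent.Lib.Core.normal_inf_center_ne_bot E hEne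
  obtain ⟨w, hw, hwne⟩ : ∃ w ∈ E ⊓ Subgroup.center P, w ≠ 1 :=
    (Subgroup.bot_or_exists_ne_one _).resolve_left h1
  have hwE : w ∈ E := hw.1
  have hwc : ∀ g : P, g * w = w * g := fun g => (Subgroup.mem_center_iff.mp hw.2) g
  have hw2 : w ^ 2 = 1 := hE2 w hwE
  set R : Subgroup P → Subgroup P → Prop :=
    fun A B => IsKleinFour A ∧ IsKleinFour B ∧ ∀ a ∈ A, ∀ b ∈ B, a * b = b * a with hR
  have key : ∀ V : Subgroup P, IsKleinFour V → ∃ W : Subgroup P, IsKleinFour W ∧ W ≤ E ∧
      Relation.ReflTransGen R V W := by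
    intro V hV
    have hVcard : Nat.card V = 4 := hV.card_four
    have hVexp : ∀ x ∈ V, x ^ 2 = 1 := by
      intro x hx
      have h2 := Monoid.pow_exponent_eq_one (⟨x, hx⟩ : V)
      rw [hV.exponent_two] at h2
      exact congrArg Subtype.val h2
    have hVc : ∀ a ∈ V, ∀ b ∈ V, a * b = b * a := by
      intro a ha b hb
      have h2 : IsMulCommutative V := IsKleinFour.isMulCommutative
      exact congrArg Subtype.val (h2.is_comm.comm (⟨a, ha⟩ : V) ⟨b, hb⟩)
    obtain ⟨v, hvV, hv1, hvw⟩ := exists_mem_ne_of_three_le (H := V) (by omega) w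
    have hv2 := hVexp v hvV
    obtain ⟨U, hU, hwU, hvU, hUm⟩ := exists_klein hw2 hv2 (hwc v).symm hwne hv1 hvw.symm
    have hVU : R V U := by
      refine ⟨hV, hU, ?_⟩
      intro a ha b hb
      rcases hUm b hb with h | h | h | h <;> rw [h]
      · simp
      · exact hwc a
      · exact hVc a ha v hvV
      · calc a * (w * v) = (a * w) * v := by group
          _ = (w * a) * v := by rw [hwc a]
          _ = w * (a * v) := by group
          _ = w * (v * a) := by rw [hVc a ha v hvV]
          _ = (w * v) * a := by group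
    -- a second involution of `E` commuting with `v`
    have hcard := card_le_card_inf_centralizer_sq hE hE2
      (fun e he => (inferInstance : E.Normal).conj_mem e he v) hv2
    have hC3 : 3 ≤ Nat.card ↥(E ⊓ Subgroup.centralizer ({v} : Set P)) := by
      by_contra hlt
      have h3 : Nat.card ↥(E ⊓ Subgroup.centralizer ({v} : Set P)) ≤ 2 := by omega
      have h4 : Nat.card ↥(E ⊓ Subgroup.centralizer ({v} : Set P)) ^ 2 ≤ 2 ^ 2 := Nat.pow_le_pow_left h3 2
      omega
    obtain ⟨w', hw'C, hw'1, hw'w⟩ := exists_mem_ne_of_three_le hC3 w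
    have hw'E : w' ∈ E := hw'C.1
    have hw'v : w' * v = v * w' := Subgroup.mem_centralizer_singleton_iff.mp hw'C.2
    obtain ⟨W, hW, hwW, hw'W, hWm⟩ := exists_klein hw2 (hE2 w' hw'E) (hwc w').symm hwne hw'1 hw'w.symm
    have hUW : R U W := by
      refine ⟨hU, hW, ?_⟩
      intro a ha b hb
      have hcw' : a * w' = w' * a := by
        rcases hUm a ha with h | h | h | h <;> rw [h]
        · simp
        · exact (hwc w').symm
        · exact hw'v.symm
        · calc w * v * w' = w * (v * w') := by group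
            _ = w * (w' * v) := by rw [hw'v]
            _ = (w * w') * v := by group
            _ = (w' * w) * v := by rw [(hwc w').symm]
            _ = w' * (w * v) := by group
      rcases hWm b hb with h | h | h | h <;> rw [h]
      · simp
      · exact hwc a
      · exact hcw'
      · calc a * (w * w') = (a * w) * w' := by group
          _ = (w * a) * w' := by rw [hwc a]
          _ = w * (a * w') := by group
          _ = w * (w' * a) := by rw [hcw']
          _ = (w * w') * a := by group
    refine ⟨W, hW, ?_, Relation.ReflTransGen.single hVU |>.tail hUW⟩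
    intro x hx
    rcases hWm x hx with h | h | h | h <;> rw [h]
    · exact E.one_mem
    · exact hwE
    · exact hw'E
    · exact E.mul_mem hwE hw'E
  intro U V hU hV
  obtain ⟨W₁, hW₁, hW₁E, h₁⟩ := key U hU
  obtain ⟨W₂, hW₂, hW₂E, h₂⟩ := key V hV
  haveI hsymm : Std.Symm R := ⟨fun A B h => ⟨h.2.1, h.1, fun b hb a ha => (h.2.2 a ha b hb).symm⟩⟩
  have h₂' : Relation.ReflTransGen R W₂ V := (Relation.ReflTransGen.symmetric (r := R)).symm V W₂ h₂
  have h12 : R W₁ W₂ := ⟨hW₁, hW₂, fun a ha b hb => hEc a (hW₁E ha) b (hW₂E hb)⟩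
  exact (h₁.tail h12).trans h₂'

end Cfsg.Agent.S0502
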