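import Cfsg.Statements.S0514
import Mathlib
import Cfsg.Agent.Lib.Cl.AutCount
import Cfsg.Agent.S0071
import Cfsg.Agent.Lib.Transfer.Comp

set_option autoImplicit false
open Cfsg

namespace Cfsg.Agent.S0514

/-- In a finite group whose Sylow 2-subgroups are dihedral of order at least 4, the centralizer of any involution has a
normal subgroup of odd order whose index in the centralizer is a power of 2. -/
theorem result {X : Type*} [Group X] [Finite X]
    (S : Sylow 2 X) (n : ℕ) (hn : 2 ≤ n) (hS : Nonempty ((S : Subgroup X) ≃* DihedralGroup n)) (t : X)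
    (ht : orderOf t = 2) :
    ∃ N : Subgroup (Subgroup.centralizer ({t} : Set X)), N.Normal ∧ Odd (Nat.card N) ∧ ∃ k : ℕ, N.index = 2 ^ k := by
  classical
  haveI : Fact (Nat.Prime 2) := ⟨Nat.prime_two⟩
  obtain ⟨e⟩ := hS
  haveI : NeZero n := ⟨by omega⟩
  set C := Subgroup.centralizer ({t} : Set X) with hC
  let tC : C := ⟨t, by
    rw [hC, Subgroup.mem_centralizer_singleton_iff]⟩
  have htC : ∀ c : C, c * tC = tC * c := by
    intro c
    apply Subtype.ext
    have := Subgroup.mem_centralizer_singleton_iff.mp c.2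
    exact this
  have htCo : orderOf tC = 2 := by
    rw [← Subgroup.orderOf_coe]
    exact ht
  obtain ⟨T⟩ := (inferInstance : Nonempty (Sylow 2 C))
  have hZn : (Subgroup.zpowers tC).Normal := by
    refine ⟨fun z hz c => ?_⟩
    obtain ⟨k, rfl⟩ := Subgroup.mem_zpowers_iff.mp hz
    have h1 : c * tC ^ k * c⁻¹ = tC ^ k := by
      have hcomm : Commute c (tC ^ k) := (Commute.zpow_right (show Commute c tC from htC c) k)
      rw [hcomm.eq, mul_inv_cancel_right]
    rw [h1]
    exact Subgroup.zpow_mem_zpowers _ _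
  have hcompl : ∃ N : Subgroup C, N.Normal ∧ N.IsComplement' (T : Subgroup C) := by
    rw [Cfsg.Agent.S0071.result T]
    intro Q hQT g hg hcop
    set Q1 : Subgroup C := Q ⊔ Subgroup.zpowers tC with hQ1
    have hZp : IsPGroup 2 (Subgroup.zpowers tC) :=
      IsPGroup.of_card (n := 1) (by rw [Nat.card_zpowers, htCo, pow_one])
    have hQ1p : IsPGroup 2 Q1 := IsPGroup.to_sup_of_normal_right (T.isPGroup'.to_le hQT) hZp
    have htQ1 : tC ∈ Q1 := (le_sup_right : Subgroup.zpowers tC ≤ Q1) (Subgroup.mem_zpowers tC)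
    -- `g` normalizes `Q1`
    have hNQ1 : ∀ c ∈ Subgroup.normalizer ((Q : Subgroup C) : Set C), ∀ h ∈ Q1, c * h * c⁻¹ ∈ Q1 := by
      intro c hc h hh
      obtain ⟨y, hy, z, hz, rfl⟩ := Subgroup.mem_sup_of_normal_right.mp hh
      have hyQ : c * y * c⁻¹ ∈ Q := (Subgroup.mem_normalizer_iff.mp hc y).mp hy
      have hzz : c * z * c⁻¹ = z := by
        obtain ⟨k, rfl⟩ := Subgroup.mem_zpowers_iff.mp hz
        have hcomm : Commute c (tC ^ k) := (Commute.zpow_right (show Commute c tC from htC c) k)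
        rw [hcomm.eq, mul_inv_cancel_right]
      have : c * (y * z) * c⁻¹ = (c * y * c⁻¹) * (c * z * c⁻¹) := by group
      rw [this, hzz]
      exact Q1.mul_mem ((le_sup_left : Q ≤ Q1) hyQ) ((le_sup_right : Subgroup.zpowers tC ≤ Q1) hz)
    have hgN : g ∈ Subgroup.normalizer ((Q1 : Subgroup C) : Set C) := by
      rw [Subgroup.mem_normalizer_iff]
      intro h
      refine ⟨hNQ1 g hg h, fun h1 => ?_⟩
      have := hNQ1 g⁻¹ (Subgroup.inv_mem _ hg) _ h1
      simpa [mul_assoc] using this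
    -- embed `Q1` in a dihedral group
    have hmap : IsPGroup 2 (Q1.map C.subtype) := hQ1p.map C.subtype
    obtain ⟨S', hS'⟩ := hmap.exists_le_sylow
    let e' : (S' : Subgroup X) ≃* DihedralGroup n := (Sylow.equiv S' S).trans e
    let j : Q1 →* (S' : Subgroup X) := (C.subtype.comp Q1.subtype).codRestrict _ (fun x => hS' ⟨x, x.2, rfl⟩)
    have hj : Function.Injective j := by
      intro a b hab
      apply Subtype.ext
      apply Subtype.ext
      exact congrArg (fun y : (S' : Subgroup X) => (y : X)) hab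
    let ι : Q1 →* DihedralGroup n := e'.toMonoidHom.comp j
    have hι : Function.Injective ι := e'.injective.comp hj
    obtain ⟨R, hRc, hRi, hR⟩ := Cfsg.Agent.Lib.Cl.exists_cyclic_index_two_of_dihedral ι hι
    let g' : Subgroup.normalizer ((Q1 : Subgroup C) : Set C) := ⟨g, hgN⟩
    let σ : MulAut Q1 := Q1.normalizerMonoidHom g'
    have hσo : Odd (orderOf σ) := by
      have h1 : orderOf σ ∣ orderOf g' := orderOf_map_dvd _ _
      rw [Subgroup.orderOf_mk] at h1
      have h2 : Odd (orderOf g) := by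
        rw [← Nat.not_even_iff_odd]
        intro hev
        have h5 : 2 ∣ Nat.gcd (orderOf g) 2 := Nat.dvd_gcd hev.two_dvd (dvd_refl 2)
        rw [Nat.Coprime.gcd_eq_one hcop] at h5
        omega
      exact Odd.of_dvd_nat h2 h1
    have hσt : σ ⟨tC, htQ1⟩ = ⟨tC, htQ1⟩ := by
      apply Subtype.ext
      show g * tC * g⁻¹ = tC
      rw [htC g, mul_inv_cancel_right]
    have hσ1 := Cfsg.Agent.Lib.Cl.aut_eq_one_of_cyclic_index_two hQ1p R hRc hRi hR ⟨tC, htQ1⟩
      (by rw [Subgroup.orderOf_mk]; exact htCo) σ hσo hσt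
    rw [Subgroup.mem_centralizer_iff]
    intro x hx
    have hxQ1 : x ∈ Q1 := (le_sup_left : Q ≤ Q1) hx
    have h1 : σ ⟨x, hxQ1⟩ = ⟨x, hxQ1⟩ := by rw [hσ1]; rfl
    have h2 : g * x * g⁻¹ = x := congrArg Subtype.val h1
    calc x * g = (g * x * g⁻¹) * g := by rw [h2]
      _ = g * x := by group
  obtain ⟨N, hN, hc⟩ := hcompl
  refine ⟨N, hN, ?_, ?_⟩
  · have h1 := Cfsg.Agent.Lib.Transfer.complement_card_coprime hc
    rw [← Nat.not_even_iff_odd]
    intro hev
    have h5 : 2 ∣ Nat.gcd (Nat.card N) 2 := Nat.dvd_gcd hev.two_dvd (dvd_refl 2)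
    rw [Nat.Coprime.gcd_eq_one h1] at h5
    omega
  · obtain ⟨k, hk⟩ := IsPGroup.iff_card.mp T.isPGroup'
    exact ⟨k, by rw [hc.symm.index_eq_card, hk]⟩

end Cfsg.Agent.S0514
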