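import Cfsg.Statements.S0519
import Mathlib
import Cfsg.Agent.S3761
import Cfsg.Agent.Lib.PGroup.MaxNormal

set_option autoImplicit false
open Cfsg

namespace Cfsg.Agent.S0519

/-- The normal Klein four-subgroup of the dihedral group of order 8. -/
def kleinD4 : Subgroup (DihedralGroup 4) where
  carrier := {x | x ∈ ({DihedralGroup.r 0, DihedralGroup.r 2, DihedralGroup.sr 0, DihedralGroup.sr 2} : Finset (DihedralGroup 4))}
  mul_mem' := by
    intro a b ha hb
    revert a b
    simp only [Set.mem_setOf_eq]
    decide
  one_mem' := by
    show (1 : DihedralGroup 4) ∈ _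
    decide
  inv_mem' := by
    intro a ha
    revert a
    simp only [Set.mem_setOf_eq]
    decide

theorem kleinD4_mem {x : DihedralGroup 4} : x ∈ kleinD4 ↔
    x ∈ ({DihedralGroup.r 0, DihedralGroup.r 2, DihedralGroup.sr 0, DihedralGroup.sr 2} : Finset (DihedralGroup 4)) := Iff.rfl

theorem kleinD4_conj : ∀ x ∈ ({DihedralGroup.r 0, DihedralGroup.r 2, DihedralGroup.sr 0, DihedralGroup.sr 2} : Finset (DihedralGroup 4)),
    ∀ g : DihedralGroup 4, g * x * g⁻¹ ∈ ({DihedralGroup.r 0, DihedralGroup.r 2, DihedralGroup.sr 0, DihedralGroup.sr 2} : Finset (DihedralGroup 4)) := by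
  decide

theorem kleinD4_comm : ∀ x ∈ ({DihedralGroup.r 0, DihedralGroup.r 2, DihedralGroup.sr 0, DihedralGroup.sr 2} : Finset (DihedralGroup 4)),
    ∀ y ∈ ({DihedralGroup.r 0, DihedralGroup.r 2, DihedralGroup.sr 0, DihedralGroup.sr 2} : Finset (DihedralGroup 4)), x * y = y * x := by
  decide

theorem kleinD4_sq : ∀ x ∈ ({DihedralGroup.r 0, DihedralGroup.r 2, DihedralGroup.sr 0, DihedralGroup.sr 2} : Finset (DihedralGroup 4)), x ^ 2 = 1 := by
  decide

/-- Let P be a finite p-group in which every abelian normal subgroup is cyclic, but which has a non-cyclic abelian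
subgroup. Then p = 2 and P is generalized quaternion, dihedral of order at least 16, or quasi-dihedral. -/
theorem result {P : Type*} [Group P] [Finite P] (p : ℕ) [Fact p.Prime]
    (hP : IsPGroup p P) (hn : ∀ A : Subgroup P, A.Normal → IsMulCommutative A → IsCyclic A)
    (hm : ∃ B : Subgroup P, IsMulCommutative B ∧ ¬ IsCyclic B) :
    p = 2 ∧ ((∃ n : ℕ, Nonempty (P ≃* QuaternionGroup n)) ∨ (∃ n : ℕ, 8 ≤ n ∧ Nonempty (P ≃* DihedralGroup n)) ∨
      Cfsg.IsQuasiDihedral P) := by
  haveI : Group.IsNilpotent P := hP.isNilpotent
  obtain ⟨B, hBc, hBnc⟩ := hm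
  have hna : ¬ IsMulCommutative P := by
    intro hc
    have htop : IsMulCommutative (⊤ : Subgroup P) := ⟨⟨fun a b => Subtype.ext (hc.is_comm.comm _ _)⟩⟩
    have hcyc : IsCyclic (⊤ : Subgroup P) := hn ⊤ inferInstance htop
    haveI : IsCyclic P := isCyclic_of_surjective (Subgroup.topEquiv (G := P)).toMonoidHom (Subgroup.topEquiv (G := P)).surjective
    exact hBnc inferInstance
  obtain ⟨A, hAn, hAc, hAself⟩ := Cfsg.Agent.Lib.PGroup.exists_normal_abelian_self_centralizing (G := P)
  have hAcyc : IsCyclic A := hn A hAn hAc
  obtain ⟨e, hAe⟩ := IsPGroup.iff_card.mp (hP.to_subgroup A)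
  have hCA : Subgroup.centralizer (A : Set P) = A := by
    apply le_antisymm hAself
    intro a ha
    rw [Subgroup.mem_centralizer_iff]
    intro b hb
    have := hAc.is_comm.comm (⟨b, hb⟩ : A) ⟨a, ha⟩
    exact congrArg Subtype.val this
  rcases Cfsg.Agent.S3761.result hP hna A hAcyc e hAe hCA with ⟨hp2, hcard, hcases⟩ | ⟨-, h2, h3, h4⟩
  · refine ⟨hp2, ?_⟩
    rcases hcases with hd | hq | hqd
    · obtain ⟨m, ⟨f⟩⟩ := hd
      by_cases hm8 : 8 ≤ m
      · exact Or.inr (Or.inl ⟨m, hm8, ⟨f⟩⟩)
      · exfalso
        have hcm : Nat.card P = 2 * m := by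
          rw [Nat.card_congr f.toEquiv, DihedralGroup.nat_card]
        have hm2 : m = 2 ^ e := by
          rw [hcm, pow_succ] at hcard
          omega
        have he : e ≤ 2 := by
          by_contra hlt
          have : 2 ^ 3 ≤ 2 ^ e := Nat.pow_le_pow_right (by norm_num) (by omega)
          omega
        have hcomm_trans : ∀ m', m' = m → (∀ a b : DihedralGroup m', a * b = b * a) → False := by
          rintro m' rfl hab
          apply hna
          refine ⟨⟨fun a b => f.injective ?_⟩⟩
          rw [map_mul, map_mul]
          exact hab _ _
        have he' : e = 0 ∨ e = 1 ∨ e = 2 := by omega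
        rcases he' with rfl | rfl | rfl
        · exact hcomm_trans 1 (by omega) (by decide)
        · exact hcomm_trans 2 (by omega) (by decide)
        · have hm4 : m = 4 := by omega
          subst hm4
          let K : Subgroup P := kleinD4.comap f.toMonoidHom
          have hKn : K.Normal := by
            refine ⟨fun x hx g => ?_⟩
            have hx' : f x ∈ kleinD4 := hx
            show f (g * x * g⁻¹) ∈ kleinD4
            rw [map_mul, map_mul, map_inv]
            exact kleinD4_conj _ hx' _
          have hKc : IsMulCommutative K := by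
            refine ⟨⟨fun a b => Subtype.ext (f.injective ?_)⟩⟩
            show f (a.1 * b.1) = f (b.1 * a.1)
            rw [map_mul, map_mul]
            exact kleinD4_comm _ a.2 _ b.2
          have hKcyc : IsCyclic K := hn K hKn hKc
          obtain ⟨g, hg⟩ := hKcyc.exists_generator
          -- four distinct elements
          have hsq : ∀ x : K, x ^ 2 = 1 := by
            intro x
            apply Subtype.ext
            apply f.injective
            show f (x.1 ^ 2) = f 1
            rw [map_pow, map_one]
            exact kleinD4_sq _ x.2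
          have hall : ∀ x : K, x = 1 ∨ x = g := by
            intro x
            obtain ⟨i, rfl⟩ := hg x
            simp only
            rcases Int.even_or_odd' i with ⟨k, rfl | rfl⟩
            · left
              rw [zpow_mul]
              have : g ^ (2 : ℤ) = 1 := by exact_mod_cast hsq g
              rw [this, one_zpow]
            · right
              rw [zpow_add, zpow_mul]
              have : g ^ (2 : ℤ) = 1 := by exact_mod_cast hsq g
              rw [this, one_zpow, one_mul, zpow_one]
          let x1 : K := ⟨f.symm (DihedralGroup.r 2), by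
            show f (f.symm _) ∈ kleinD4
            rw [MulEquiv.apply_symm_apply, kleinD4_mem]
            decide⟩
          let x2 : K := ⟨f.symm (DihedralGroup.sr 0), by
            show f (f.symm _) ∈ kleinD4
            rw [MulEquiv.apply_symm_apply, kleinD4_mem]
            decide⟩
          have hx1 : x1 ≠ 1 := by
            intro h
            have := congrArg (fun y : K => f y.1) h
            simp only [x1, MulEquiv.apply_symm_apply] at this
            revert this
            simp only [OneMemClass.coe_one, map_one]
            decide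
          have hx2 : x2 ≠ 1 := by
            intro h
            have := congrArg (fun y : K => f y.1) h
            simp only [x2, MulEquiv.apply_symm_apply] at this
            revert this
            simp only [OneMemClass.coe_one, map_one]
            decide
          have hx12 : x1 ≠ x2 := by
            intro h
            have := congrArg (fun y : K => f y.1) h
            simp only [x1, x2, MulEquiv.apply_symm_apply] at this
            revert this
            decide
          have e1 := (hall x1).resolve_left hx1
          have e2 := (hall x2).resolve_left hx2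
          exact hx12 (e1.trans e2.symm)
    · exact Or.inl hq
    · exact Or.inr (Or.inr hqd)
  · exfalso
    set E := Cfsg.omegaOne p (Subgroup.centralizer (Cfsg.powerClosure p 1 A : Set P)) with hE
    have hEn : E.Normal := @Subgroup.normal_of_characteristic _ _ E h4
    have hEcyc := hn E hEn h2.1
    have hp := (Fact.out : p.Prime)
    obtain ⟨g, hg⟩ := IsCyclic.exists_ofOrder_eq_natCard (α := E)
    have hgp : g ^ p = 1 := Subtype.ext (h2.2 _ g.2)
    have h5 := orderOf_dvd_of_pow_eq_one hgp
    rw [hg, h3] at h5
    have h6 := Nat.le_of_dvd hp.pos h5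
    have h7 := hp.two_le
    nlinarith

end Cfsg.Agent.S0519
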