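import Cfsg.Statements.S0520
import Mathlib
import Cfsg.Agent.Lib.Cl.Klein

set_option autoImplicit false
open Cfsg

namespace Cfsg.Agent.S0520

variable {G : Type*} [Group G]

/-- conjugate subgroup -/
abbrev cj (g : G) (U : Subgroup G) : Subgroup G := U.map (MulAut.conj g).toMonoidHom

lemma mem_cj {g x : G} {U : Subgroup G} : x ∈ cj g U ↔ g⁻¹ * x * g ∈ U := by
  rw [cj, Subgroup.mem_map_equiv, MulAut.conj_symm_apply]

lemma conj_mem_cj {g x : G} {U : Subgroup G} (h : x ∈ U) : g * x * g⁻¹ ∈ cj g U := by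
  rw [mem_cj]; simpa [mul_assoc] using h

lemma cj_mul (g h : G) (U : Subgroup G) : cj (g * h) U = cj g (cj h U) := by
  ext x; simp only [mem_cj]; simp [mul_assoc]

lemma cj_one (U : Subgroup G) : cj (1 : G) U = U := by
  ext x; simp [mem_cj]

lemma cj_inv_cj (g : G) (U : Subgroup G) : cj g⁻¹ (cj g U) = U := by
  rw [← cj_mul]; simp [cj_one]

lemma cj_mono (g : G) {U V : Subgroup G} (h : U ≤ V) : cj g U ≤ cj g V := Subgroup.map_mono h

lemma card_cj (g : G) (U : Subgroup G) : Nat.card (cj g U) = Nat.card U :=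
  (Nat.card_congr (U.equivMapOfInjective _ (MulAut.conj g).injective).toEquiv).symm

lemma klein_cj {V : Subgroup G} (hV : IsKleinFour V) (g : G) : IsKleinFour (cj g V) := by
  have e1 : V ≃* (cj g V) := V.equivMapOfInjective _ (MulAut.conj g).injective
  exact IsKleinFour.mk (by rw [← Nat.card_congr e1.toEquiv]; exact hV.card_four)
    (by rw [← Monoid.exponent_eq_of_mulEquiv e1]; exact hV.exponent_two)

lemma klein_mul_self {T : Subgroup G} (hT : IsKleinFour T) {t : G} (ht : t ∈ T) : t * t = 1 := by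
  have h1 : (⟨t, ht⟩ : T) ^ Monoid.exponent T = 1 := Monoid.pow_exponent_eq_one _
  rw [hT.exponent_two, pow_two] at h1
  exact congrArg Subtype.val h1

lemma klein_isP {T : Subgroup G} (hT : IsKleinFour T) : IsPGroup 2 T :=
  IsPGroup.of_card (n := 2) (by rw [hT.card_four]; norm_num)

/-- `Q` contains a four-group -/
def Rk (Q : Subgroup G) : Prop := ∃ V : Subgroup G, V ≤ Q ∧ IsKleinFour V

lemma Rk.mono {Q R : Subgroup G} (h : Rk Q) (hQR : Q ≤ R) : Rk R := by
  obtain ⟨V, hV, hK⟩ := h
  exact ⟨V, hV.trans hQR, hK⟩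

lemma Rk.cj {Q : Subgroup G} (h : Rk Q) (g : G) : Rk (cj g Q) := by
  obtain ⟨V, hV, hK⟩ := h
  exact ⟨_, cj_mono g hV, klein_cj hK g⟩

lemma rk_iff (Q : Subgroup G) : ¬ Cfsg.PRankLE 2 1 Q ↔ Rk Q := by
  classical
  constructor
  · intro h
    unfold Cfsg.PRankLE at h
    push Not at h
    obtain ⟨A, hc, he, hcard⟩ := h
    have h3 : 2 < Nat.card A := by simpa using hcard
    haveI : Finite A := Nat.finite_of_card_ne_zero (by omega)
    obtain ⟨a, ha⟩ : ∃ a : A, a ≠ 1 := by
      haveI : Nontrivial A := Finite.one_lt_card_iff_nontrivial.1 (by omega)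
      exact exists_ne 1
    obtain ⟨b, hb1, hba⟩ : ∃ b : A, b ≠ 1 ∧ b ≠ a := by
      by_contra hcon
      push Not at hcon
      have hall : ∀ b : A, b = 1 ∨ b = a := fun b => by
        by_cases hb : b = 1
        · exact Or.inl hb
        · exact Or.inr (hcon b hb)
      have hcard2 : Nat.card A ≤ 2 := by
        have : (Set.univ : Set A) ⊆ ({1, a} : Finset A) := by
          intro b _; simpa using hall b
        haveI := Fintype.ofFinite A
        rw [Nat.card_eq_fintype_card, ← Finset.card_univ]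
        calc Finset.univ.card ≤ ({1, a} : Finset A).card := Finset.card_le_card (fun b _ => by simpa using hall b)
          _ ≤ 2 := Finset.card_le_two
      omega
    have hab : a * b = b * a := hc.is_comm.comm a b
    have hinj : Function.Injective (fun x : A => ((x : Q) : G)) :=
      fun x y h => Subtype.ext (Subtype.ext h)
    obtain ⟨U, hU, hUa, hUb, hUall⟩ := Cfsg.Agent.Lib.Cl.exists_klein (a := ((a : Q) : G)) (b := ((b : Q) : G))
      (by have := he a a.2; simpa using congrArg Subtype.val this)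
      (by have := he b b.2; simpa using congrArg Subtype.val this)
      (by have := congrArg (fun x : A => ((x : Q) : G)) hab; simpa using this)
      (fun h => ha (hinj (by simpa using h)))
      (fun h => hb1 (hinj (by simpa using h)))
      (fun h => hba (hinj (by simpa using h.symm)))
    refine ⟨U, ?_, hU⟩
    intro u hu
    rcases hUall u hu with h | h | h | h
    · rw [h]; exact Q.one_mem
    · rw [h]; exact (a : Q).2
    · rw [h]; exact (b : Q).2
    · rw [h]; exact Q.mul_mem (a : Q).2 (b : Q).2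
  · rintro ⟨V, hV, hK⟩ h
    have hc := h (V.subgroupOf Q)
    have e : (V.subgroupOf Q) ≃* V := Subgroup.subgroupOfEquivOfLe hV
    have hcard : Nat.card (V.subgroupOf Q) = 4 := by
      rw [Nat.card_congr e.toEquiv]; exact hK.card_four
    have hcomm : IsMulCommutative (V.subgroupOf Q) := by
      refine ⟨⟨fun x y => ?_⟩⟩
      apply Subtype.ext
      apply Subtype.ext
      have hx : ((x : Q) : G) ∈ V := x.2
      have hy : ((y : Q) : G) ∈ V := y.2
      have h1 := klein_mul_self hK (V.mul_mem hx hy)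
      have h2 := klein_mul_self hK hx
      have h3 := klein_mul_self hK hy
      show ((x : Q) : G) * ((y : Q) : G) = ((y : Q) : G) * ((x : Q) : G)
      calc ((x : Q) : G) * ((y : Q) : G)
          = ((x : Q) : G) * (((x : Q) : G) * ((y : Q) : G) * (((x : Q) : G) * ((y : Q) : G))) * ((y : Q) : G) := by rw [h1]; group
        _ = (((x : Q) : G) * ((x : Q) : G)) * ((y : Q) : G) * ((x : Q) : G) * (((y : Q) : G) * ((y : Q) : G)) := by group
        _ = _ := by rw [h2, h3]; group
    have hexp : ∀ a ∈ V.subgroupOf Q, a ^ 2 = 1 := by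
      intro a ha
      apply Subtype.ext
      have := klein_mul_self hK (t := (a : G)) ha
      simpa [pow_two] using this
    have := hc hcomm hexp
    omega

/-- Every 2-subgroup lies in a conjugate of `S`. -/
lemma exists_le_cj [Finite G] (S : Sylow 2 G) {T : Subgroup G} (hT : IsPGroup 2 T) :
    ∃ y : G, T ≤ cj y (S : Subgroup G) := by
  obtain ⟨Q, hQ⟩ := hT.exists_le_sylow
  obtain ⟨y, hy⟩ := MulAction.exists_smul_eq G S Q
  refine ⟨y, hQ.trans ?_⟩
  rw [← hy]
  intro x hx
  rw [mem_cj]
  have : x ∈ ((y • S : Sylow 2 G) : Subgroup G) := hx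
  rw [Sylow.coe_subgroup_smul, Subgroup.mem_pointwise_smul_iff_inv_smul_mem] at this
  simpa [MulAut.smul_def, MulAut.conj_inv_apply] using this

lemma exists_normalizer_of_lt [Finite G] {P D : Subgroup G} (hP : IsPGroup 2 P) (hD : D < P) :
    ∃ a ∈ P, a ∉ D ∧ a ∈ Subgroup.normalizer (D : Set G) := by
  haveI : Fact (Nat.Prime 2) := ⟨Nat.prime_two⟩
  haveI : Group.IsNilpotent P := hP.isNilpotent
  have hlt : D.subgroupOf P < ⊤ := by
    refine lt_top_iff_ne_top.2 fun h => ?_
    rw [Subgroup.subgroupOf_eq_top] at h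
    exact absurd h (not_le_of_gt hD)
  have h2 := normalizerCondition_of_isNilpotent (G := P) _ hlt
  obtain ⟨a, ha, hna⟩ := SetLike.exists_of_lt h2
  refine ⟨a, a.2, hna, ?_⟩
  rw [Subgroup.mem_normalizer_iff] at ha ⊢
  intro x
  by_cases hx : x ∈ P
  · have := ha ⟨x, hx⟩
    simpa [Subgroup.mem_subgroupOf] using this
  · constructor
    · intro hxD; exact absurd (hD.le hxD) hx
    · intro hxD
      have h3 := hD.le hxD
      exfalso
      apply hx
      have : (a : G)⁻¹ * ((a : G) * x * (a : G)⁻¹) * (a : G) = x := by group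
      rw [← this]
      exact P.mul_mem (P.mul_mem (P.inv_mem a.2) h3) a.2

lemma card_lt_of_lt' [Finite G] {A B : Subgroup G} (h : A < B) : Nat.card A < Nat.card B :=
  lt_of_le_of_ne (Subgroup.card_le_of_le h.le) fun e => h.ne (Subgroup.eq_of_le_of_card_ge h.le e.ge)

lemma normalizer_of_cj_eq {g : G} {U : Subgroup G} (h : cj g U = U) : g ∈ Subgroup.normalizer (U : Set G) := by
  rw [Subgroup.mem_normalizer_iff]
  intro x
  constructor
  · intro hx
    have : g * x * g⁻¹ ∈ cj g U := conj_mem_cj hx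
    rwa [h] at this
  · intro hx
    rw [← h] at hx
    rw [mem_cj] at hx
    simpa [mul_assoc] using hx

/-- The key lemma: a conjugate of `S` meeting `S` in a subgroup of 2-rank at least 2 is conjugate
by an element of `H`. -/
theorem core_mem [Finite G] (S : Sylow 2 G) (H : Subgroup G)
    (hH : ∀ Q : Subgroup G, Q ≤ (S : Subgroup G) → Rk Q → Subgroup.normalizer (Q : Set G) ≤ H) (n : ℕ) :
    ∀ g : G, Nat.card (S : Subgroup G) - Nat.card ((S : Subgroup G) ⊓ cj g (S : Subgroup G) : Subgroup G) = n →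
      Rk ((S : Subgroup G) ⊓ cj g (S : Subgroup G)) → g ∈ H := by
  classical
  induction n using Nat.strong_induction_on with
  | _ n IH =>
  intro g hn hRk
  set P : Subgroup G := (S : Subgroup G) with hPdef
  have hPp : IsPGroup 2 P := S.isPGroup'
  set D : Subgroup G := P ⊓ cj g P with hDdef
  have hDP : D ≤ P := inf_le_left
  have hDg : D ≤ cj g P := inf_le_right
  have hcg : Nat.card (cj g P) = Nat.card P := card_cj g P
  have hgPp : IsPGroup 2 (cj g P) := hPp.map _
  by_cases hDeq : D = P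
  · have h1 : P ≤ cj g P := fun u hu => hDg (hDeq ▸ hu)
    have h2 : cj g P = P := (Subgroup.eq_of_le_of_card_ge h1 (by rw [hcg])).symm
    exact hH P le_rfl (hRk.mono hDP) (normalizer_of_cj_eq h2)
  have hDlt : D < P := lt_of_le_of_ne hDP hDeq
  have hDlt' : D < cj g P := by
    refine lt_of_le_of_ne hDg fun h => ?_
    apply hDeq
    refine Subgroup.eq_of_le_of_card_ge hDP ?_
    rw [h, hcg]
  obtain ⟨a, haP, haD, haN⟩ := exists_normalizer_of_lt hPp hDlt
  obtain ⟨b, hbP, hbD, hbN⟩ := exists_normalizer_of_lt hgPp hDlt'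
  set N : Subgroup G := Subgroup.normalizer (D : Set G) with hNdef
  have hDN : D ≤ N := Subgroup.le_normalizer
  -- Sylow subgroups of `N`
  have hPN : IsPGroup 2 (P.comap N.subtype) := hPp.comap_of_injective _ N.subtype_injective
  have hgPN : IsPGroup 2 ((cj g P).comap N.subtype) := hgPp.comap_of_injective _ N.subtype_injective
  obtain ⟨T₁, hT₁⟩ := hPN.exists_le_sylow
  obtain ⟨T₂, hT₂⟩ := hgPN.exists_le_sylow
  obtain ⟨x, hx⟩ := MulAction.exists_smul_eq N T₂ T₁
  have hTp : IsPGroup 2 ((T₁ : Subgroup N).map N.subtype) := T₁.isPGroup'.map _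
  obtain ⟨y, hy⟩ := exists_le_cj S hTp
  -- first step: `y ∈ H`
  have hA : P ⊓ N ≤ P ⊓ cj y P := by
    intro u hu
    refine ⟨hu.1, hy ?_⟩
    exact ⟨⟨u, hu.2⟩, hT₁ hu.1, rfl⟩
  have hcardP : ∀ z : G, Nat.card (P ⊓ cj z P : Subgroup G) ≤ Nat.card P := fun z =>
    Subgroup.card_le_of_le inf_le_left
  have hDA : D < P ⊓ N := by
    refine lt_of_le_of_ne (le_inf hDP hDN) fun h => haD ?_
    rw [h]; exact ⟨haP, haN⟩
  have hyH : y ∈ H := by
    have hlt : Nat.card D < Nat.card (P ⊓ cj y P : Subgroup G) :=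
      lt_of_lt_of_le (card_lt_of_lt' hDA) (Subgroup.card_le_of_le hA)
    refine IH _ ?_ y rfl (hRk.mono (hDA.le.trans hA))
    have := hcardP y
    have h3 := hcardP g
    omega
  -- second step
  have hxH : (x : G) ∈ H := hH D hDP hRk x.2
  set z : G := y⁻¹ * x * g with hz
  have hB : cj (y⁻¹ * x) (cj g P ⊓ N) ≤ P ⊓ cj z P := by
    intro w hw
    rw [mem_cj] at hw
    set u : G := (y⁻¹ * x)⁻¹ * w * (y⁻¹ * x) with hu
    have hw' : w = y⁻¹ * (x * u * (x : G)⁻¹) * y := by rw [hu]; group
    refine ⟨?_, ?_⟩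
    · show w ∈ P
      have h1 : x * (⟨u, hw.2⟩ : N) * x⁻¹ ∈ (T₁ : Subgroup N) := by
        rw [← hx]
        have h2 : (⟨u, hw.2⟩ : N) ∈ (T₂ : Subgroup N) := hT₂ hw.1
        rw [Sylow.coe_subgroup_smul, Subgroup.mem_pointwise_smul_iff_inv_smul_mem]
        simpa [MulAut.smul_def, MulAut.conj_inv_apply, mul_assoc] using h2
      have h3 : x * u * (x : G)⁻¹ ∈ cj y P := hy ⟨_, h1, by simp⟩
      rw [mem_cj] at h3
      rw [hw']
      exact h3
    · show w ∈ cj z P
      rw [mem_cj, hz]
      have h1 : g⁻¹ * u * g ∈ P := mem_cj.1 hw.1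
      have : (y⁻¹ * x * g)⁻¹ * w * (y⁻¹ * x * g) = g⁻¹ * u * g := by rw [hw']; group
      rw [this]; exact h1
  have hBlt : D < cj g P ⊓ N := by
    refine lt_of_le_of_ne (le_inf hDg hDN) fun h => hbD ?_
    rw [h]; exact ⟨hbP, hbN⟩
  have hzH : z ∈ H := by
    have hlt : Nat.card D < Nat.card (P ⊓ cj z P : Subgroup G) :=
      calc Nat.card D < Nat.card (cj g P ⊓ N : Subgroup G) := card_lt_of_lt' hBlt
        _ = Nat.card (cj (y⁻¹ * x) (cj g P ⊓ N)) := (card_cj _ _).symm
        _ ≤ _ := Subgroup.card_le_of_le hB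
    refine IH _ ?_ z rfl ((hRk.mono hBlt.le).cj (y⁻¹ * x) |>.mono hB)
    have := hcardP z
    have h3 := hcardP g
    omega
  have : g = (x : G)⁻¹ * y * z := by rw [hz]; group
  rw [this]
  exact H.mul_mem (H.mul_mem (H.inv_mem hxH) hyH) hzH

/-- The commuting relation -/
abbrev Rel (G : Type*) [Group G] : Subgroup G → Subgroup G → Prop :=
  fun A B : Subgroup G => IsKleinFour A ∧ IsKleinFour B ∧ ∀ a ∈ A, ∀ b ∈ B, a * b = b * a

lemma rel_symm {A B : Subgroup G} (h : Rel G A B) : Rel G B A :=
  ⟨h.2.1, h.1, fun a ha b hb => (h.2.2 b hb a ha).symm⟩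

lemma rtg_symm {A B : Subgroup G} (h : Relation.ReflTransGen (Rel G) A B) : Relation.ReflTransGen (Rel G) B A := by
  induction h with
  | refl => exact .refl
  | tail _ h2 ih => exact Relation.ReflTransGen.head (rel_symm h2) ih

lemma rtg_cj (g : G) {A B : Subgroup G} (h : Relation.ReflTransGen (Rel G) A B) :
    Relation.ReflTransGen (Rel G) (cj g A) (cj g B) := by
  induction h with
  | refl => exact .refl
  | tail _ h2 ih =>
    refine ih.tail ⟨klein_cj h2.1 g, klein_cj h2.2.1 g, ?_⟩
    intro a ha b hb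
    obtain ⟨a', ha', rfl⟩ := ha
    obtain ⟨b', hb', rfl⟩ := hb
    have := h2.2.2 a' ha' b' hb'
    simp only [MulEquiv.coe_toMonoidHom, MulAut.conj_apply]
    calc g * a' * g⁻¹ * (g * b' * g⁻¹) = g * (a' * b') * g⁻¹ := by group
      _ = g * (b' * a') * g⁻¹ := by rw [this]
      _ = _ := by group

/-- Connectivity in `S` gives connectivity in `G` for Klein four-subgroups of `S`. -/
lemma rtg_of_sub {P : Subgroup G} (hS : Cfsg.IsFourConnected P) {U V : Subgroup G} (hU : U ≤ P) (hV : V ≤ P)
    (hUK : IsKleinFour U) (hVK : IsKleinFour V) : Relation.ReflTransGen (Rel G) U V := by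
  have kl : ∀ {W : Subgroup G}, W ≤ P → IsKleinFour W → IsKleinFour (W.subgroupOf P) := by
    intro W hW hWK
    have e : (W.subgroupOf P) ≃* W := Subgroup.subgroupOfEquivOfLe hW
    exact IsKleinFour.mk (by rw [Nat.card_congr e.toEquiv]; exact hWK.card_four)
      (by rw [Monoid.exponent_eq_of_mulEquiv e]; exact hWK.exponent_two)
  have kl2 : ∀ W : Subgroup P, IsKleinFour W → IsKleinFour (W.map P.subtype) := by
    intro W hWK
    have e : W ≃* (W.map P.subtype) := W.equivMapOfInjective P.subtype P.subtype_injective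
    exact IsKleinFour.mk (by rw [← Nat.card_congr e.toEquiv]; exact hWK.card_four)
      (by rw [← Monoid.exponent_eq_of_mulEquiv e]; exact hWK.exponent_two)
  have h1 := hS (U.subgroupOf P) (V.subgroupOf P) (kl hU hUK) (kl hV hVK)
  have key : ∀ W : Subgroup P, Relation.ReflTransGen (fun A B : Subgroup P => IsKleinFour A ∧ IsKleinFour B ∧ ∀ a ∈ A, ∀ b ∈ B, a * b = b * a)
      (U.subgroupOf P) W → Relation.ReflTransGen (Rel G) U (W.map P.subtype) := by
    intro W hW
    induction hW with
    | refl =>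
      rw [Subgroup.subgroupOf_map_subtype, inf_eq_left.2 hU]
    | tail _ h2 ih =>
      refine ih.tail ⟨kl2 _ h2.1, kl2 _ h2.2.1, ?_⟩
      rintro a ⟨a', ha', rfl⟩ b ⟨b', hb', rfl⟩
      exact congrArg Subtype.val (h2.2.2 a' ha' b' hb')
  have := key _ h1
  rwa [Subgroup.subgroupOf_map_subtype, inf_eq_left.2 hV] at this

theorem result_aux {G : Type*} [Group G] [Finite G] (h2 : ¬ Cfsg.PRankLE 2 1 G)
    (S : Sylow 2 G) (hS : Cfsg.IsFourConnected (S : Subgroup G)) :
    ¬ Cfsg.IsFourConnected G ↔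
      (⨆ Q : {Q : Subgroup G // Q ≤ (S : Subgroup G) ∧ ¬ Cfsg.PRankLE 2 1 Q},
          Subgroup.normalizer ((Q : Subgroup G) : Set G)) ≠ ⊤ := by
  classical
  set P : Subgroup G := (S : Subgroup G) with hPdef
  set H : Subgroup G := ⨆ Q : {Q : Subgroup G // Q ≤ P ∧ ¬ Cfsg.PRankLE 2 1 Q},
          Subgroup.normalizer ((Q : Subgroup G) : Set G) with hHdef
  have hPp : IsPGroup 2 P := S.isPGroup'
  have hH : ∀ Q : Subgroup G, Q ≤ P → Rk Q → Subgroup.normalizer (Q : Set G) ≤ H := by
    intro Q hQ hR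
    exact le_iSup (fun Q : {Q : Subgroup G // Q ≤ P ∧ ¬ Cfsg.PRankLE 2 1 Q} =>
      Subgroup.normalizer ((Q : Subgroup G) : Set G)) ⟨Q, hQ, (rk_iff Q).2 hR⟩
  -- a Klein four-group in `S`
  obtain ⟨V₀, hV₀P, hV₀K⟩ : ∃ V₀ : Subgroup G, V₀ ≤ P ∧ IsKleinFour V₀ := by
    have h3 : ¬ Cfsg.PRankLE 2 1 (⊤ : Subgroup G) := by
      intro h4
      apply h2
      intro A hc he
      have e : A ≃* (A.map (Subgroup.topEquiv (G := G)).symm.toMonoidHom) :=
        A.equivMapOfInjective _ (MulEquiv.injective _)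
      have h5 := h4 (A.map (Subgroup.topEquiv (G := G)).symm.toMonoidHom) ?_ ?_
      · rwa [← Nat.card_congr e.toEquiv] at h5
      · refine ⟨⟨fun x y => ?_⟩⟩
        exact e.symm.injective (by rw [map_mul, map_mul]; exact hc.is_comm.comm _ _)
      · rintro a ⟨a', ha', rfl⟩
        have := he a' ha'
        apply Subtype.ext
        simpa using this
    obtain ⟨V, _, hK⟩ := (rk_iff _).1 h3
    obtain ⟨y, hy⟩ := exists_le_cj S (klein_isP hK)
    refine ⟨cj y⁻¹ V, ?_, klein_cj hK _⟩
    have := cj_mono y⁻¹ hy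
    rwa [cj_inv_cj] at this
  have hcore : ∀ g : G, Rk (P ⊓ cj g P) → g ∈ H := fun g hg => core_mem S H hH _ g rfl hg
  have hbase : ∀ {W : Subgroup G}, IsKleinFour W → ∀ g g' : G, W ≤ cj g P → W ≤ cj g' P → g⁻¹ * g' ∈ H := by
    intro W hW g g' h1 h2
    apply hcore
    refine ⟨cj g⁻¹ W, le_inf ?_ ?_, klein_cj hW _⟩
    · have := cj_mono g⁻¹ h1
      rwa [cj_inv_cj] at this
    · have := cj_mono g⁻¹ h2
      rwa [← cj_mul] at this
  constructor
  · -- disconnected implies proper
    intro hdis hHtop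
    apply hdis
    have hR : ∀ {U W : Subgroup G}, U ≤ P → W ≤ P → IsKleinFour U → IsKleinFour W →
        Relation.ReflTransGen (Rel G) U W := fun h1 h2 h3 h4 => rtg_of_sub hS h1 h2 h3 h4
    let M : Subgroup G :=
      { carrier := {g | Relation.ReflTransGen (Rel G) V₀ (cj g V₀)}
        one_mem' := by
          show Relation.ReflTransGen (Rel G) V₀ (cj 1 V₀)
          rw [cj_one]
        mul_mem' := by
          intro a b ha hb
          show Relation.ReflTransGen (Rel G) V₀ (cj (a * b) V₀)
          rw [cj_mul]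
          exact Relation.ReflTransGen.trans ha (rtg_cj a hb)
        inv_mem' := by
          intro a ha
          show Relation.ReflTransGen (Rel G) V₀ (cj a⁻¹ V₀)
          have h1 := rtg_cj a⁻¹ (show Relation.ReflTransGen (Rel G) V₀ (cj a V₀) from ha)
          rw [cj_inv_cj] at h1
          exact rtg_symm h1 }
    have hHM : H ≤ M := by
      refine iSup_le ?_
      rintro ⟨Q, hQ, hQ2⟩ g hg
      obtain ⟨V, hVQ, hVK⟩ := (rk_iff Q).1 hQ2
      show Relation.ReflTransGen (Rel G) V₀ (cj g V₀)
      have h1 : cj g V ≤ Q := by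
        intro x hx
        obtain ⟨v, hv, rfl⟩ := hx
        exact (Subgroup.mem_normalizer_iff.1 hg v).1 (hVQ hv)
      have h2 : Relation.ReflTransGen (Rel G) V₀ (cj g V) :=
        hR hV₀P (h1.trans hQ) hV₀K (klein_cj hVK g)
      have h3 : Relation.ReflTransGen (Rel G) V V₀ := hR (hVQ.trans hQ) hV₀P hVK hV₀K
      exact h2.trans (rtg_cj g h3)
    have hMtop : ∀ g, g ∈ M := fun g => by
      have : g ∈ H := by rw [hHtop]; trivial
      exact hHM this
    have hall : ∀ W : Subgroup G, IsKleinFour W → Relation.ReflTransGen (Rel G) V₀ W := by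
      intro W hW
      obtain ⟨y, hy⟩ := exists_le_cj S (klein_isP hW)
      have h1 : cj y⁻¹ W ≤ P := by
        have := cj_mono y⁻¹ hy
        rwa [cj_inv_cj] at this
      have h2 := rtg_cj y (hR hV₀P h1 hV₀K (klein_cj hW _))
      have h3 : cj y (cj y⁻¹ W) = W := by
        have := cj_inv_cj y⁻¹ W
        rwa [inv_inv] at this
      rw [h3] at h2
      exact Relation.ReflTransGen.trans (hMtop y) h2
    intro U W hU hW
    exact (rtg_symm (hall U hU)).trans (hall W hW)
  · -- connected implies `H = ⊤`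
    intro hne hcon
    apply hne
    rw [eq_top_iff]
    intro g _
    have hchain : ∀ {U W : Subgroup G}, IsKleinFour U → Relation.ReflTransGen (Rel G) U W →
        IsKleinFour W → ∀ a b : G, U ≤ cj a P → W ≤ cj b P → a⁻¹ * b ∈ H := by
      intro U W hU hUW
      induction hUW with
      | refl =>
        intro hW a b h1 h2
        exact hbase hU a b h1 h2
      | tail h1 h2 ih =>
        rename_i B C
        intro hC a b hb1 hb2
        have hBK : IsKleinFour B := h2.1
        have hnorm : B ≤ Subgroup.normalizer (C : Set G) := by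
          intro x hx
          rw [Subgroup.mem_normalizer_iff]
          intro c
          have hc : ∀ c ∈ C, x * c * x⁻¹ = c := fun c hc => by
            rw [h2.2.2 x hx c hc]; group
          constructor
          · intro h3; rw [hc c h3]; exact h3
          · intro h3
            have h4 := h2.2.2 x⁻¹ (B.inv_mem hx) _ h3
            have h5 : c = x * c * x⁻¹ := by
              calc c = x⁻¹ * (x * c * x⁻¹) * x := by group
                _ = (x * c * x⁻¹) * x⁻¹ * x := by rw [h4]
                _ = x * c * x⁻¹ := by group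
            rw [h5]; exact h3
        have hp : IsPGroup 2 (B ⊔ C : Subgroup G) :=
          (klein_isP hBK).to_sup_of_normal_right' (klein_isP hC) hnorm
        obtain ⟨c, hc⟩ := exists_le_cj S hp
        have h3 := ih hBK a c hb1 ((le_sup_left (a := B) (b := C)).trans hc) 
        have h4 := hbase hC c b ((le_sup_right (a := B) (b := C)).trans hc) hb2
        have : a⁻¹ * b = (a⁻¹ * c) * (c⁻¹ * b) := by group
        rw [this]
        exact H.mul_mem h3 h4
    have := hchain hV₀K (hcon V₀ (cj g V₀) hV₀K (klein_cj hV₀K g)) (klein_cj hV₀K g) 1 g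
      (by rw [cj_one]; exact hV₀P) (cj_mono g hV₀P)
    simpa using this

/-- Let G be a finite group of 2-rank at least 2 and S a Sylow 2-subgroup whose commuting graph of Klein four-subgroups is
connected. Then the commuting graph of Klein four-subgroups of G is disconnected if and only if the 2-generated core — the
subgroup generated by the normalizers N_G(Q) of the subgroups Q of S that contain a Klein four-group — is a proper
subgroup of G. -/
theorem result {G : Type*} [Group G] [Finite G] (h2 : ¬ Cfsg.PRankLE 2 1 G)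
    (S : Sylow 2 G) (hS : Cfsg.IsFourConnected (S : Subgroup G)) :
    ¬ Cfsg.IsFourConnected G ↔
      (⨆ Q : {Q : Subgroup G // Q ≤ (S : Subgroup G) ∧ ¬ Cfsg.PRankLE 2 1 Q},
          Subgroup.normalizer ((Q : Subgroup G) : Set G)) ≠ ⊤ :=
  result_aux h2 S hS

end Cfsg.Agent.S0520
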