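import Cfsg.Statements.S0521
import Mathlib
import Cfsg.Agent.Lib.Cl.OddLength

set_option autoImplicit false
open Cfsg

namespace Cfsg.Agent.S0521

/-- Let X be a finite solvable group of odd order, p a prime and S a Sylow p-subgroup of X whose commutator subgroup is
cyclic. Then the product of the largest normal subgroup of X of order prime to p with S is a normal subgroup of X. -/
theorem result {X : Type*} [Group X] [Finite X] [Group.IsSolvable X]
    (hX : Odd (Nat.card X)) (p : ℕ) [Fact p.Prime] (S : Sylow p X) (hS : IsCyclic (commutator (S : Subgroup X))) :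
    (Cfsg.pPrimeCore p X ⊔ (S : Subgroup X)).Normal := by
  classical
  set K := Cfsg.pPrimeCore p X with hK
  haveI hKn : K.Normal := Cfsg.Agent.Lib.Core.pPrimeCore_normal p X
  let f := QuotientGroup.mk' K
  have hf : Function.Surjective f := QuotientGroup.mk'_surjective K
  let S' : Sylow p (X ⧸ K) := S.mapSurjective hf
  have hS'coe : (S' : Subgroup (X ⧸ K)) = (S : Subgroup X).map f := Sylow.coe_mapSurjective hf S
  have hcyc : IsCyclic (commutator (S' : Subgroup (X ⧸ K))) := by
    let φ : (S : Subgroup X) →* (S' : Subgroup (X ⧸ K)) :=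
      (f.comp (S : Subgroup X).subtype).codRestrict _ (fun x => by
        rw [hS'coe]
        exact ⟨x, x.2, rfl⟩)
    have hφ : Function.Surjective φ := by
      rintro ⟨y, hy⟩
      rw [hS'coe] at hy
      obtain ⟨x, hx, rfl⟩ := hy
      exact ⟨⟨x, hx⟩, rfl⟩
    have hmap : (commutator (S : Subgroup X)).map φ = commutator (S' : Subgroup (X ⧸ K)) := by
      rw [commutator_def, Subgroup.map_commutator, ← MonoidHom.range_eq_map,
        MonoidHom.range_eq_top.2 hφ, commutator_def]
    rw [← hmap]
    haveI := hS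
    exact isCyclic_of_surjective (φ.subgroupMap _) (φ.subgroupMap_surjective _)
  have hsolv : Group.IsSolvable (X ⧸ K) := Group.isSolvable_of_surjective hf
  have hodd : Odd (Nat.card (X ⧸ K)) := Odd.of_dvd_nat hX (Subgroup.card_quotient_dvd_card K)
  have hle := Cfsg.Agent.Lib.Cl.sylow_le_pCore_of_cyclic_derived hsolv hodd p S' hcyc
    Cfsg.Agent.Lib.Core.pPrimeCore_quotient_eq_bot
  have heq : (S' : Subgroup (X ⧸ K)) = Cfsg.pCore p (X ⧸ K) :=
    le_antisymm hle (Cfsg.Agent.Lib.Core.pCore_le_sylow S')
  have hnorm : (S' : Subgroup (X ⧸ K)).Normal := by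
    rw [heq]
    exact Cfsg.Agent.Lib.Core.pCore_normal p (X ⧸ K)
  have h := hnorm.comap f
  rw [hS'coe, Subgroup.comap_map_eq, QuotientGroup.ker_mk', sup_comm] at h
  exact h

end Cfsg.Agent.S0521
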