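import Cfsg.Statements.S0526
import Mathlib
import Cfsg.Agent.Lib.Super.Prime

set_option autoImplicit false
open Cfsg

namespace Cfsg.Agent.S0526

/-- In a finite supersolvable group the commutator subgroup is nilpotent. -/
theorem result {G : Type*} [Group G] [Finite G] (hG : Cfsg.IsSupersolvable G) : Group.IsNilpotent (commutator G) := by
  exact Cfsg.Agent.Lib.Super.isNilpotent_commutator_of_ss hG

end Cfsg.Agent.S0526
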