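import Cfsg.Statements.S0534
import Mathlib
import Cfsg.Agent.Lib.Super.Lagrange
import Cfsg.Agent.Lib.Hall.Basic

set_option autoImplicit false
open Cfsg

namespace Cfsg.Agent.S0534

universe u

theorem ss_of_comm : ∀ (n : ℕ) (A : Type u) [CommGroup A] [Finite A], Nat.card A = n → Cfsg.IsSupersolvable A := by
  intro n
  induction n using Nat.strong_induction_on with
  | _ n ih =>
    intro A _ _ hn
    by_cases h1 : Subsingleton A
    · exact Cfsg.Agent.Lib.Super.isSupersolvable_of_subsingleton
    rw [not_subsingleton_iff_nontrivial] at h1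
    obtain ⟨x, hx⟩ := exists_ne (1 : A)
    let N := Subgroup.zpowers x
    have hN : N.Normal := inferInstance
    have hcyc : IsCyclic N := inferInstance
    refine Cfsg.Agent.Lib.Super.isSupersolvable_of_cyclic_normal N ?_
    refine ih _ ?_ (A ⧸ N) rfl
    rw [← hn]
    have h2 := N.card_mul_index
    have h3 : Nat.card (A ⧸ N) = N.index := rfl
    rw [h3]
    have h4 : 0 < N.index := Nat.pos_of_ne_zero Subgroup.index_ne_zero_of_finite
    have h5 : 1 < Nat.card N := by
      have := Nat.card_pos (α := N)
      by_contra h6
      have h7 := Subgroup.eq_bot_of_card_eq N (by omega)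
      rw [Subgroup.zpowers_eq_bot] at h7
      exact hx h7
    nlinarith

/-- Let G be a finite solvable group and A a finite abelian group such that every prime dividing the order of A divides the order of G and, for each prime p dividing the order of G, the exponent of p in the order of A is one less than its exponent in the order of G. Then G × A has a subgroup of every order dividing its order. -/
theorem result {G A : Type*} [Group G] [CommGroup A] [Finite G] [Finite A] [Group.IsSolvable G] (hA : ∀ p : ℕ, p.Prime → p ∣ Nat.card A → p ∣ Nat.card G) (hexp : ∀ p : ℕ, p.Prime → p ∣ Nat.card G → (Nat.card A).factorization p + 1 = (Nat.card G).factorization p) : Cfsg.HasSubgroupOfEveryOrder (G × A) := by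
  classical
  intro d hd
  have hcard : Nat.card (G × A) = Nat.card G * Nat.card A := Nat.card_prod G A
  rw [hcard] at hd
  set n := Nat.card G with hn
  set a := Nat.card A with ha
  have hn0 : n ≠ 0 := Nat.card_pos.ne'
  have ha0 : a ≠ 0 := Nat.card_pos.ne'
  have hd0 : d ≠ 0 := fun h => by
    rw [h, zero_dvd_iff] at hd
    exact (Nat.mul_ne_zero hn0 ha0) hd
  let P : ℕ → Prop := fun q => n.factorization q ≤ d.factorization q
  let fm : ℕ →₀ ℕ := n.factorization.filter P
  let fm' : ℕ →₀ ℕ := n.factorization.filter (fun q => ¬ P q)
  have hprime : ∀ p ∈ n.factorization.support, p.Prime := fun p hp =>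
    Nat.prime_of_mem_primeFactors (by simpa using hp)
  have hsupp : ∀ p ∈ fm.support, p.Prime := by
    intro p hp
    have h1 : fm p ≠ 0 := Finsupp.mem_support_iff.mp hp
    have h2 : n.factorization p ≠ 0 := by
      intro h
      apply h1
      simp [fm, Finsupp.filter_apply, h]
    exact hprime p (Finsupp.mem_support_iff.mpr h2)
  have hsupp' : ∀ p ∈ fm'.support, p.Prime := by
    intro p hp
    have h1 : fm' p ≠ 0 := Finsupp.mem_support_iff.mp hp
    have h2 : n.factorization p ≠ 0 := by
      intro h
      apply h1
      simp [fm', Finsupp.filter_apply, h]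
    exact hprime p (Finsupp.mem_support_iff.mpr h2)
  let m := fm.prod (· ^ ·)
  let m' := fm'.prod (· ^ ·)
  have hm : m.factorization = fm := Nat.prod_pow_factorization_eq_self hsupp
  have hm' : m'.factorization = fm' := Nat.prod_pow_factorization_eq_self hsupp'
  have hm0 : m ≠ 0 := by
    apply Finset.prod_ne_zero_iff.mpr
    intro p hp
    exact pow_ne_zero _ (hsupp p hp).ne_zero
  have hm'0 : m' ≠ 0 := by
    apply Finset.prod_ne_zero_iff.mpr
    intro p hp
    exact pow_ne_zero _ (hsupp' p hp).ne_zero
  have hnm : n = m * m' := by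
    apply Nat.eq_of_factorization_eq hn0 (Nat.mul_ne_zero hm0 hm'0)
    intro q
    rw [Nat.factorization_mul hm0 hm'0, hm, hm']
    simp only [fm, fm', Finsupp.add_apply]
    rw [← Finsupp.add_apply, Finsupp.filter_add_filter_not]
  have hfmv : ∀ q, m.factorization q = if P q then n.factorization q else 0 := by
    intro q
    rw [hm]
    exact Finsupp.filter_apply _ _ _
  have hfmv' : ∀ q, m'.factorization q = if ¬ P q then n.factorization q else 0 := by
    intro q
    rw [hm']
    exact Finsupp.filter_apply _ _ _
  have hcop : m.Coprime m' := by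
    apply Nat.coprime_of_dvd
    intro k hk hk1 hk2
    have h1 := hk.factorization_pos_of_dvd hm0 hk1
    have h2 := hk.factorization_pos_of_dvd hm'0 hk2
    rw [hfmv] at h1
    rw [hfmv'] at h2
    by_cases hPk : P k
    · simp [hPk] at h2
    · simp [hPk] at h1
  obtain ⟨K, hK⟩ := Cfsg.Agent.Lib.Hall.exists_card_eq_of_solvable (G := G) m m' hnm hcop
  have hmd : m ∣ d := by
    apply (Nat.factorization_prime_le_iff_dvd hm0 hd0).mp
    intro q _
    rw [hfmv]
    by_cases hPq : P q
    · rw [if_pos hPq]
      exact hPq
    · rw [if_neg hPq]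
      exact Nat.zero_le _
  obtain ⟨e, hde⟩ := hmd
  have he0 : e ≠ 0 := by
    rintro rfl
    exact hd0 (by rw [hde, mul_zero])
  have hdv : ∀ q, d.factorization q ≤ n.factorization q + a.factorization q := by
    intro q
    have h1 := (Nat.factorization_le_iff_dvd hd0 (Nat.mul_ne_zero hn0 ha0)).mpr hd q
    rwa [Nat.factorization_mul hn0 ha0] at h1
  have hmv : ∀ q, d.factorization q = m.factorization q + e.factorization q := by
    intro q
    have h : d.factorization q = (m * e).factorization q := by rw [← hde]
    rw [h, Nat.factorization_mul hm0 he0]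
    rfl
  have hea : e ∣ a := by
    apply (Nat.factorization_prime_le_iff_dvd he0 ha0).mp
    intro q hq
    have h1 := hdv q
    have h2 := hmv q
    by_cases hqn : q ∣ n
    · have h3 := hexp q hq hqn
      by_cases hPq : P q
      · rw [hfmv, if_pos hPq] at h2
        omega
      · rw [hfmv, if_neg hPq] at h2
        have h4 : ¬ n.factorization q ≤ d.factorization q := hPq
        omega
    · have h3 : n.factorization q = 0 := Nat.factorization_eq_zero_of_not_dvd hqn
      have h4 : a.factorization q = 0 := Nat.factorization_eq_zero_of_not_dvd (fun h5 => hqn (hA q hq h5))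
      omega
  obtain ⟨B, hB⟩ := Cfsg.Agent.Lib.Super.hasSubgroupOfEveryOrder_of_ss' (ss_of_comm _ A rfl) e hea
  refine ⟨K.prod B, ?_⟩
  rw [Nat.card_congr (Subgroup.prodEquiv K B).toEquiv, Nat.card_prod, hK, hB, hde]

end Cfsg.Agent.S0534
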