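import Cfsg.Statements.S0535
import Mathlib
import Cfsg.Agent.Lib.Hall.Converse

set_option autoImplicit false
open Cfsg

namespace Cfsg.Agent.S0535

/-- Suppose that for every nontrivial subgroup H of a finite group and every prime p dividing the order of H there is a proper subgroup of H whose index in H is a power of p. Then the group is solvable. -/
theorem result {G : Type*} [Group G] [Finite G] (h : ∀ H : Subgroup G, H ≠ ⊥ → ∀ p : ℕ, p.Prime → p ∣ Nat.card H → ∃ K : Subgroup H, K ≠ ⊤ ∧ ∃ k : ℕ, K.index = p ^ k) : Group.IsSolvable G := by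
  refine Cfsg.Agent.Lib.Hall.isSolvable_of_hallCompl _ G rfl ?_
  intro p hp
  have key : ∀ (n : ℕ) (X : Subgroup G), Nat.card X = n →
      ∃ Y : Subgroup G, Y ≤ X ∧ ¬ p ∣ Nat.card Y ∧ ∃ k, Y.relIndex X = p ^ k := by
    intro n
    induction n using Nat.strong_induction_on with
    | _ n ih =>
      intro X hX
      by_cases hd : p ∣ Nat.card X
      · have hXne : X ≠ ⊥ := by
          rintro rfl
          rw [Subgroup.card_bot] at hd
          exact hp.not_dvd_one hd
        obtain ⟨K, hK, k, hk⟩ := h X hXne p hp hd
        let Z : Subgroup G := K.map X.subtype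
        have hZX : Z ≤ X := by
          rintro _ ⟨x, -, rfl⟩
          exact x.2
        have hcard : Nat.card Z = Nat.card K := Subgroup.card_map_of_injective X.subtype_injective
        have hlt : Nat.card Z < n := by
          rw [hcard, ← hX]
          exact Cfsg.Agent.Lib.Core.card_subgroup_lt (lt_top_iff_ne_top.mpr hK)
        obtain ⟨Y, hYZ, hYp, j, hj⟩ := ih _ hlt Z rfl
        refine ⟨Y, hYZ.trans hZX, hYp, j + k, ?_⟩
        have h1 : Y.relIndex Z * Z.relIndex X = Y.relIndex X := Subgroup.relIndex_mul_relIndex _ _ _ hYZ hZX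
        have h2 : Z.relIndex X = K.index := by
          rw [Subgroup.relIndex]
          congr 1
          exact Subgroup.comap_map_eq_self_of_injective X.subtype_injective K
        rw [← h1, hj, h2, hk, pow_add]
      · exact ⟨X, le_rfl, hd, 0, by simp⟩
  obtain ⟨Y, -, hY, k, hk⟩ := key _ ⊤ rfl
  rw [Subgroup.relIndex_top_right] at hk
  refine ⟨Y, ?_⟩
  have h1 := Y.card_mul_index
  rw [hk]
  congr 1
  rw [← h1, hk, Nat.factorization_mul (Nat.card_pos.ne') (pow_ne_zero _ hp.ne_zero), hp.factorization_pow,
    Finsupp.add_apply, Nat.factorization_eq_zero_of_not_dvd hY, zero_add, Finsupp.single_eq_same]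

end Cfsg.Agent.S0535
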