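import Cfsg.Statements.S0539
import Cfsg.Agent.Lib.Subnormal.Join
-- import your own Cfsg.Agent.* helpers here

set_option autoImplicit false
open Pointwise
open Cfsg

namespace Cfsg.Agent.S0539

/-- Let S be a family of subnormal subgroups of a finite group that is closed under conjugation, and S₀ a proper subfamily. Then some member of S not in S₀ normalizes the join of S₀. -/
theorem result {G : Type*} [Group G] [Finite G] (S S₀ : Set (Subgroup G)) (hS : ∀ U ∈ S, U.IsSubnormal) (hconj : ∀ U ∈ S, ∀ g : G, MulAut.conj g • U ∈ S) (h₀ : S₀ ⊂ S) : ∃ X ∈ S, X ∉ S₀ ∧ X ≤ Subgroup.normalizer ((sSup S₀ : Subgroup G) : Set G) := by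
  classical
  obtain ⟨X₀, hX₀, hX₀'⟩ := Set.exists_of_ssubset h₀
  by_cases hJ : (⊤ : Subgroup G) ≤ Subgroup.normalizer ((sSup S₀ : Subgroup G) : Set G)
  · exact ⟨X₀, hX₀, hX₀', le_top.trans hJ⟩
  have hSN : Cfsg.Agent.Lib.Subnormal.SN ⊤ (sSup S₀) :=
    Cfsg.Agent.Lib.Subnormal.sn_sSup _ fun U hU =>
      Cfsg.Agent.Lib.Subnormal.sn_top_of_isSubnormal (hS U (h₀.subset hU))
  obtain ⟨x, -, hx1, hx2⟩ := Cfsg.Agent.Lib.Subnormal.SN.exists_conj_normalizing hSN le_rfl
    Subgroup.le_normalizer hJ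
  have hex : ∃ U ∈ S₀, ¬ U.map (MulAut.conj x).toMonoidHom ≤ sSup S₀ := by
    by_contra hcon
    push Not at hcon
    apply hx1
    have hle : (sSup S₀).map (MulAut.conj x).toMonoidHom ≤ sSup S₀ := by
      rw [Cfsg.Agent.Lib.Subnormal.map_conj_sSup]
      apply sSup_le
      rintro _ ⟨U, hU, rfl⟩
      exact hcon U hU
    exact Subgroup.eq_of_le_of_card_ge hle (Cfsg.Agent.Lib.FF.card_conj _ x).ge
  obtain ⟨U, hU, hUx⟩ := hex
  refine ⟨U.map (MulAut.conj x).toMonoidHom, hconj U (h₀.subset hU) x, ?_, ?_⟩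
  · intro h
    exact hUx (le_sSup h)
  · exact (Subgroup.map_mono (le_sSup hU)).trans hx2

end Cfsg.Agent.S0539
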