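import Cfsg.Statements.S0540
import Cfsg.Agent.Lib.Subnormal.Join
import Cfsg.Agent.Lib.PGroup.Sylow
-- import your own Cfsg.Agent.* helpers here

set_option autoImplicit false
open Pointwise
open Cfsg

namespace Cfsg.Agent.S0540

/-- A uniqueness lemma of zipper type. Let A be a subgroup of a finite group G and U a nonempty family of subgroups. For V in U write S(V) for the set of conjugates of A that lie in V and are subnormal in V. Assume: A belongs to S(V) for every V in U; a member of some S(W) that lies in V belongs to S(V); and for all V, W in U the normalizer of the join of S(V) ∩ S(W) lies in some member of U. Then U has a greatest element. -/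
theorem result {G : Type*} [Group G] [Finite G] (A : Subgroup G) (U : Set (Subgroup G)) (hU : U.Nonempty) (S : Subgroup G → Set (Subgroup G)) (hS : ∀ V B : Subgroup G, B ∈ S V ↔ (∃ g : G, B = MulAut.conj g • A) ∧ B ≤ V ∧ (B.subgroupOf V).IsSubnormal) (h1 : ∀ V ∈ U, A ∈ S V) (h2 : ∀ V ∈ U, ∀ W ∈ U, ∀ B ∈ S W, B ≤ V → B ∈ S V) (h3 : ∀ V ∈ U, ∀ W ∈ U, ∃ X ∈ U, Subgroup.normalizer ((sSup (S V ∩ S W) : Subgroup G) : Set G) ≤ X) : ∃ M ∈ U, ∀ V ∈ U, V ≤ M := by
  classical
  have hfinU : U.Finite := Set.toFinite U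
  have hSN : ∀ V B : Subgroup G, B ∈ S V → Cfsg.Agent.Lib.Subnormal.SN V B := by
    intro V B hB
    obtain ⟨-, h2', h3'⟩ := (hS V B).mp hB
    exact Cfsg.Agent.Lib.Subnormal.sn_of_subgroupOf h2' h3'
  have hDSN : ∀ V W : Subgroup G, Cfsg.Agent.Lib.Subnormal.SN V (sSup (S V ∩ S W)) :=
    fun V W => Cfsg.Agent.Lib.Subnormal.sn_sSup _ fun B hB => hSN V B hB.1
  have hDle : ∀ V W : Subgroup G, sSup (S V ∩ S W) ≤ W := by
    intro V W
    apply sSup_le
    intro B hB
    exact ((hS W B).mp hB.2).2.1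
  -- two maximal members of `U` coincide
  have huniq : ∀ V W : Subgroup G, Maximal (· ∈ U) V → Maximal (· ∈ U) W → V = W := by
    by_contra hcon
    push Not at hcon
    obtain ⟨V₀, W₀, hV₀, hW₀, hne₀⟩ := hcon
    let Pairs : Set (Subgroup G × Subgroup G) :=
      {x | Maximal (· ∈ U) x.1 ∧ Maximal (· ∈ U) x.2 ∧ x.1 ≠ x.2}
    have hPne : Pairs.Nonempty := ⟨(V₀, W₀), hV₀, hW₀, hne₀⟩
    obtain ⟨⟨V, W⟩, ⟨hV, hW, hVW⟩, hmax⟩ := Set.exists_max_image Pairs
      (fun x => Nat.card ↥(sSup (S x.1 ∩ S x.2) : Subgroup G)) (Set.toFinite _) hPne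
    replace hV : Maximal (· ∈ U) V := hV
    replace hW : Maximal (· ∈ U) W := hW
    replace hVW : V ≠ W := hVW
    have hmax' : ∀ P Q : Subgroup G, Maximal (· ∈ U) P → Maximal (· ∈ U) Q → P ≠ Q →
        Nat.card ↥(sSup (S P ∩ S Q) : Subgroup G) ≤ Nat.card ↥(sSup (S V ∩ S W) : Subgroup G) :=
      fun P Q h1' h2' h3' => hmax (P, Q) ⟨h1', h2', h3'⟩
    -- the step
    have step : ∀ V W Y : Subgroup G, Maximal (· ∈ U) V → Maximal (· ∈ U) W → Maximal (· ∈ U) Y →
        V ≠ Y → Subgroup.normalizer ((sSup (S V ∩ S W) : Subgroup G) : Set G) ≤ Y →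
        Nat.card ↥(sSup (S V ∩ S W) : Subgroup G) < Nat.card ↥(sSup (S V ∩ S Y) : Subgroup G) := by
      intro V W Y hV hW hY hVY hNY
      have hVN : ¬ V ≤ Subgroup.normalizer ((sSup (S V ∩ S W) : Subgroup G) : Set G) := by
        intro h
        exact hVY (le_antisymm (h.trans hNY) (hV.2 hY.1 (h.trans hNY)))
      obtain ⟨x, hxV, hx1, hx2⟩ := Cfsg.Agent.Lib.Subnormal.SN.exists_conj_normalizing (hDSN V W)
        le_rfl Subgroup.le_normalizer hVN
      have hex : ∃ B ∈ S V ∩ S W, ¬ B.map (MulAut.conj x).toMonoidHom ≤ sSup (S V ∩ S W) := by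
        by_contra hcon
        push Not at hcon
        apply hx1
        have hle : (sSup (S V ∩ S W)).map (MulAut.conj x).toMonoidHom ≤ sSup (S V ∩ S W) := by
          rw [Cfsg.Agent.Lib.Subnormal.map_conj_sSup]
          apply sSup_le
          rintro _ ⟨U, hU, rfl⟩
          exact hcon U hU
        exact Subgroup.eq_of_le_of_card_ge hle (Cfsg.Agent.Lib.FF.card_conj _ x).ge
      obtain ⟨B, hB, hBx⟩ := hex
      have hB'V : B.map (MulAut.conj x).toMonoidHom ∈ S V := by
        obtain ⟨⟨g, hg⟩, hB2, hB3⟩ := (hS V B).mp hB.1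
        rw [hS]
        have hmapV : V.map (MulAut.conj x).toMonoidHom = V := Cfsg.Agent.Lib.FF.conj_eq_of_mem hxV
        have hle : B.map (MulAut.conj x).toMonoidHom ≤ V := by
          have := Cfsg.Agent.Lib.FF.conj_mono x hB2
          rwa [hmapV] at this
        refine ⟨⟨x * g, ?_⟩, hle, ?_⟩
        · rw [hg]
          ext y
          simp only [Cfsg.Agent.Lib.FF.mem_conj_iff, Subgroup.mem_pointwise_smul_iff_inv_smul_mem,
            MulAut.smul_def, map_mul, map_inv, MulAut.conj_inv_apply, mul_inv_rev, mul_assoc]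
          simp [MulAut.conj_apply, mul_assoc]
        · have := (hSN V B hB.1).conj x
          rw [hmapV] at this
          exact this.subgroupOf
      have hB'Y : B.map (MulAut.conj x).toMonoidHom ≤ Y :=
        (Subgroup.map_mono (le_sSup hB)).trans (hx2.trans hNY)
      have hmem : B.map (MulAut.conj x).toMonoidHom ∈ S V ∩ S Y :=
        ⟨hB'V, h2 Y hY.1 V hV.1 _ hB'V hB'Y⟩
      have hsub : S V ∩ S W ⊆ S V ∩ S Y := by
        intro C hC
        have hCY : C ≤ Y := (le_sSup hC).trans (Subgroup.le_normalizer.trans hNY)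
        exact ⟨hC.1, h2 Y hY.1 V hV.1 C hC.1 hCY⟩
      apply Cfsg.Agent.Lib.PGroup.card_lt_card_of_lt
      refine lt_of_le_of_ne (sSup_le_sSup hsub) ?_
      intro h
      apply hBx
      rw [h]
      exact le_sSup hmem
    obtain ⟨X, hXU, hX⟩ := h3 V hV.1 W hW.1
    obtain ⟨Y, hXY, hY⟩ := hfinU.exists_le_maximal hXU
    by_cases hVY : V = Y
    · have hWY : W ≠ Y := fun h => hVW (hVY.trans h.symm)
      have h4 := step W V Y hW hV hY hWY (by
        rw [Set.inter_comm]; exact hX.trans hXY)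
      have h5 := hmax' W Y hW hY hWY
      rw [Set.inter_comm (S W) (S V)] at h4
      omega
    · have h4 := step V W Y hV hW hY hVY (hX.trans hXY)
      have h5 := hmax' V Y hV hY hVY
      omega
  obtain ⟨V₀, hV₀⟩ := hU
  obtain ⟨M, -, hM⟩ := hfinU.exists_le_maximal hV₀
  refine ⟨M, hM.1, fun V hV => ?_⟩
  obtain ⟨M', hVM', hM'⟩ := hfinU.exists_le_maximal hV
  rw [huniq M M' hM hM']
  exact hVM'

end Cfsg.Agent.S0540
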