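import Cfsg.Statements.S0552
import Mathlib
import Cfsg.Agent.Lib.Geo.PrimSolvable

set_option autoImplicit false
open Cfsg

namespace Cfsg.Agent.S0552

/-- Let σ be an automorphism of a finite solvable group G fixing every element of the Fitting subgroup. If σ is not the identity then the order of σ and the order of G have a common prime factor. -/
theorem result {G : Type*} [Group G] [Finite G] [Group.IsSolvable G] (σ : G ≃* G) (hσ : ∀ x ∈ Cfsg.fittingSubgroup G, σ x = x) (hne : σ ≠ MulEquiv.refl G) : ¬ (orderOf σ).Coprime (Nat.card G) := by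
  intro hcop
  apply hne
  ext g
  show σ g = g
  have hF : (Cfsg.fittingSubgroup G).Normal := Cfsg.Agent.Lib.Core.fittingSubgroup_normal G
  -- `g⁻¹ σ g` centralizes the Fitting subgroup
  have h1 : g⁻¹ * σ g ∈ Cfsg.fittingSubgroup G := by
    apply Cfsg.Agent.Lib.Geo.centralizer_fitting_le_of_solvable
    rw [Subgroup.mem_centralizer_iff]
    intro x hx
    have h2 : g * x * g⁻¹ ∈ Cfsg.fittingSubgroup G := hF.conj_mem x hx g
    have h3 := hσ _ h2
    have h4 := hσ x hx
    rw [map_mul, map_mul, map_inv, h4] at h3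
    have h5 : σ g * x * (σ g)⁻¹ = g * x * g⁻¹ := h3
    calc x * (g⁻¹ * σ g) = g⁻¹ * (g * x * g⁻¹) * σ g := by group
      _ = g⁻¹ * (σ g * x * (σ g)⁻¹) * σ g := by rw [h5]
      _ = g⁻¹ * σ g * x := by group
  set z := g⁻¹ * σ g with hz
  have hσz : σ z = z := hσ z h1
  have hg : σ g = g * z := by
    rw [hz]
    group
  have hpow : ∀ n : ℕ, (σ ^ n) g = g * z ^ n := by
    intro n
    induction n with
    | zero => simp
    | succ n ih =>
      rw [pow_succ']
      show σ ((σ ^ n) g) = _
      rw [ih, map_mul, hg, map_pow, hσz, pow_succ']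
      group
  have h6 := hpow (orderOf σ)
  rw [pow_orderOf_eq_one] at h6
  have h7 : z ^ orderOf σ = 1 := by
    have : g = g * z ^ orderOf σ := h6
    exact mul_left_cancel (a := g) (by rw [mul_one]; exact this.symm)
  have h8 : orderOf z ∣ orderOf σ := orderOf_dvd_of_pow_eq_one h7
  have h9 : orderOf z ∣ Nat.card G := orderOf_dvd_natCard z
  have h10 : orderOf z = 1 := Nat.eq_one_of_dvd_coprimes hcop h8 h9
  rw [orderOf_eq_one_iff] at h10
  rw [hg, h10, mul_one]

end Cfsg.Agent.S0552
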