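import Cfsg.Statements.S0553
import Mathlib
import Cfsg.Agent.Lib.Core.MinNormal2
import Cfsg.Agent.Lib.Core.Product
import Cfsg.Agent.Lib.Core.Basic

set_option autoImplicit false
open Cfsg

namespace Cfsg.Agent.S0553

universe u

theorem core : ∀ (n : ℕ) (G : Type u) [Group G] [Finite G] [Group.IsSolvable G] [Nontrivial G], Nat.card G = n →
    (∀ M : Subgroup G, IsCoatom M → (Nat.card M).Coprime M.index) →
    ∃ p : ℕ, p.Prime ∧ p ∣ Nat.card G ∧ ∀ P : Sylow p G, (P : Subgroup G).Normal := by
  intro n
  induction n using Nat.strong_induction_on with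
  | _ n ih =>
    intro G _ _ _ _ hn h
    obtain ⟨L, hLn, hL1, -, hLmin⟩ := Cfsg.Agent.Lib.Core.exists_minimal_normal_le
      (inferInstance : (⊤ : Subgroup G).Normal) top_ne_bot
    have hLnn := hLn
    obtain ⟨hLc, p, hp, hLp⟩ := Cfsg.Agent.Lib.Core.minimal_normal_elementary L hL1 hLmin
    have hf : Fact p.Prime := ⟨hp⟩
    have hLpg : IsPGroup p L := by
      intro x
      refine ⟨1, ?_⟩
      apply Subtype.ext
      simpa using hLp x x.2
    obtain ⟨k, hk⟩ := IsPGroup.iff_card.mp hLpg
    have hLcard1 : 1 < Nat.card L := by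
      have := Nat.card_pos (α := L)
      by_contra h3
      exact hL1 (Subgroup.eq_bot_of_card_eq L (by omega))
    have hpL : p ∣ Nat.card L := by
      rw [hk] at hLcard1 ⊢
      have hk0 : k ≠ 0 := by
        rintro rfl
        simp at hLcard1
      exact dvd_pow_self p hk0
    have hpG : p ∣ Nat.card G := hpL.trans (Subgroup.card_subgroup_dvd_card L)
    have hLP : ∀ P : Sylow p G, L ≤ P := fun P =>
      (Cfsg.Agent.Lib.Core.le_pCore hLn hLpg).trans (Cfsg.Agent.Lib.Core.pCore_le_sylow P)
    by_cases hLt : L = ⊤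
    · refine ⟨p, hp, hpG, fun P => ?_⟩
      have : (P : Subgroup G) = ⊤ := eq_top_iff.mpr (hLt ▸ hLP P)
      rw [this]
      infer_instance
    let π := QuotientGroup.mk' L
    have hπ : Function.Surjective π := QuotientGroup.mk'_surjective L
    have hne : Nontrivial (G ⧸ L) := by
      by_contra h3
      rw [not_nontrivial_iff_subsingleton] at h3
      apply hLt
      rw [← Subgroup.index_eq_one]
      exact Nat.card_of_subsingleton (1 : G ⧸ L)
    have hlt : Nat.card (G ⧸ L) < n := by
      rw [← hn]
      have h1 := L.card_mul_index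
      have h3 : Nat.card (G ⧸ L) = L.index := rfl
      rw [h3]
      have h4 : 0 < L.index := Nat.pos_of_ne_zero Subgroup.index_ne_zero_of_finite
      nlinarith
    obtain ⟨r, hr, hrd, hnorm⟩ := ih _ hlt (G ⧸ L) rfl (by
      intro M hM
      have h1 := h (M.comap π) (Subgroup.isCoatom_comap_of_surjective hπ hM)
      have h2 : (M.comap π).index = M.index := Subgroup.index_comap_of_surjective M hπ
      rw [h2] at h1
      have h3 : Nat.card M ∣ Nat.card (M.comap π) := by
        have h4 : (M.comap π).map π = M := Subgroup.map_comap_eq_self_of_surjective hπ M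
        have h5 := Subgroup.card_dvd_of_surjective (π.subgroupMap (M.comap π)) (π.subgroupMap_surjective _)
        rwa [h4] at h5
      exact Nat.Coprime.coprime_dvd_left h3 h1)
    have hfr : Fact r.Prime := ⟨hr⟩
    by_cases hall : ∀ S : Sylow r G, (S : Subgroup G).Normal
    · exact ⟨r, hr, hrd.trans (Subgroup.card_quotient_dvd_card L), hall⟩
    push Not at hall
    obtain ⟨S, hS⟩ := hall
    refine ⟨p, hp, hpG, ?_⟩
    -- the image of `S`
    let Rb : Sylow r (G ⧸ L) := S.mapSurjective hπ
    have hRbn : (Rb : Subgroup (G ⧸ L)).Normal := hnorm Rb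
    have hRb : (Rb : Subgroup (G ⧸ L)) = (S : Subgroup G).map π := Sylow.coe_mapSurjective hπ S
    let R : Subgroup G := (Rb : Subgroup (G ⧸ L)).comap π
    have hRn : R.Normal := Subgroup.Normal.comap hRbn π
    have hSR : (S : Subgroup G) ≤ R := by
      intro x hx
      rw [Subgroup.mem_comap, hRb]
      exact Subgroup.mem_map_of_mem _ hx
    have hRle : R ≤ (S : Subgroup G) ⊔ L := by
      intro x hx
      rw [Subgroup.mem_comap, hRb] at hx
      obtain ⟨s, hs, hsx⟩ := hx
      have h1 : s⁻¹ * x ∈ L := by
        rw [← QuotientGroup.eq_one_iff]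
        have h3 : π (s⁻¹ * x) = 1 := by
          rw [map_mul, map_inv, hsx, inv_mul_cancel]
        exact h3
      have h2 : x = s * (s⁻¹ * x) := by group
      rw [h2]
      exact Subgroup.mul_mem _ (Subgroup.mem_sup_left hs) (Subgroup.mem_sup_right h1)
    have hFr : Subgroup.normalizer (S : Set G) ⊔ R = ⊤ := Sylow.normalizer_sup_eq_top' S hSR
    have hNL : Subgroup.normalizer (S : Set G) ⊔ L = ⊤ := by
      rw [eq_top_iff, ← hFr]
      refine sup_le le_sup_left (hRle.trans (sup_le ?_ le_sup_right))
      exact Subgroup.le_normalizer.trans le_sup_left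
    have hNne : Subgroup.normalizer (S : Set G) ≠ ⊤ := fun h3 => hS (Subgroup.normalizer_eq_top_iff.mp h3)
    obtain ⟨M, hM, hNM⟩ := (eq_top_or_exists_le_coatom (Subgroup.normalizer (S : Set G))).resolve_left hNne
    have hML : M ⊔ L = ⊤ := by
      rw [eq_top_iff, ← hNL]
      exact sup_le_sup_right hNM L
    have hfac : ∀ g : G, ∃ x ∈ M, ∃ y ∈ L, g = x * y := by
      intro g
      have hg : g ∈ M ⊔ L := by rw [hML]; trivial
      obtain ⟨x, hx, y, hy, rfl⟩ := Subgroup.mem_sup_of_normal_right.mp hg
      exact ⟨x, hx, y, hy, rfl⟩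
    have hidx : M.relIndex L = M.index := Cfsg.Agent.Lib.Core.relIndex_eq_index_of_mul hfac
    have hdvd : M.index ∣ p ^ k := by
      rw [← hidx, ← hk]
      exact Subgroup.relIndex_dvd_card M L
    have hidx1 : M.index ≠ 1 := fun h3 => hM.1 (Subgroup.index_eq_one.mp h3)
    obtain ⟨j, -, hj⟩ := (Nat.dvd_prime_pow hp).mp hdvd
    have hpM : p ∣ M.index := by
      rw [hj]
      have hj0 : j ≠ 0 := by
        rintro rfl
        exact hidx1 (by simpa using hj)
      exact dvd_pow_self p hj0
    have hcop := h M hM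
    have hnotM : ¬ p ∣ Nat.card M := fun h3 => by
      have := Nat.dvd_gcd h3 hpM
      rw [hcop] at this
      exact hp.not_dvd_one this
    have hinf : Nat.card (L ⊓ M : Subgroup G) = 1 := by
      have h1 : Nat.card (L ⊓ M : Subgroup G) ∣ Nat.card L :=
        Subgroup.card_dvd_of_le inf_le_left
      have h2 : Nat.card (L ⊓ M : Subgroup G) ∣ Nat.card M :=
        Subgroup.card_dvd_of_le inf_le_right
      rw [hk] at h1
      obtain ⟨i, -, hi⟩ := (Nat.dvd_prime_pow hp).mp h1
      by_contra h3
      have hi0 : i ≠ 0 := by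
        rintro rfl
        simp at hi
        exact h3 hi
      rw [hi] at h2
      exact hnotM ((dvd_pow_self p hi0).trans h2)
    have hcard := Cfsg.Agent.Lib.Core.card_mul_card_of_mul hfac
    rw [inf_comm, hinf, mul_one] at hcard
    have hLidx : L.index = Nat.card M := by
      have h1 := L.card_mul_index
      have h2 : 0 < Nat.card L := Nat.card_pos
      apply Nat.eq_of_mul_eq_mul_left h2
      rw [h1, ← hcard, mul_comm]
    intro P
    have h1 : (P : Subgroup G) ≤ L := by
      rw [← Subgroup.relIndex_eq_one]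
      have h2 : L.relIndex P ∣ L.index := Subgroup.relIndex_dvd_index_of_normal L P
      have h3 : L.relIndex P ∣ Nat.card P := Subgroup.relIndex_dvd_card L P
      obtain ⟨m, hm⟩ := IsPGroup.iff_card.mp P.isPGroup'
      rw [hm] at h3
      obtain ⟨i, -, hi⟩ := (Nat.dvd_prime_pow hp).mp h3
      by_contra h4
      have hi0 : i ≠ 0 := by
        rintro rfl
        exact h4 (by simpa using hi)
      rw [hi, hLidx] at h2
      exact hnotM ((dvd_pow_self p hi0).trans h2)
    have h2 : (P : Subgroup G) = L := le_antisymm h1 (hLP P)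
    rw [h2]
    exact hLn

/-- Let G be a nontrivial finite solvable group in which every maximal subgroup has order coprime to its index. Then for some prime p dividing the order of G the Sylow p-subgroups of G are normal. -/
theorem result {G : Type*} [Group G] [Finite G] [Group.IsSolvable G] [Nontrivial G] (h : ∀ M : Subgroup G, IsCoatom M → (Nat.card M).Coprime M.index) : ∃ p : ℕ, p.Prime ∧ p ∣ Nat.card G ∧ ∀ P : Sylow p G, (P : Subgroup G).Normal := by
  exact core _ G rfl h

end Cfsg.Agent.S0553
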