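import Cfsg.Statements.S0554
import Mathlib
import Cfsg.Agent.Lib.Core.MinNormal2
import Cfsg.Agent.Lib.Core.Basic

set_option autoImplicit false
open Cfsg

namespace Cfsg.Agent.S0554

universe u

theorem prod_mul_mem {G : Type u} [Group G] {L : Subgroup G} [hL : L.Normal] :
    ∀ (t : ℕ) (A : Fin t → Subgroup G) (s : Fin t → G), (∀ i, s i ∈ A i) → (j : Fin t) → L ≤ A j →
      ∀ l ∈ L, ∃ s' : Fin t → G, (∀ i, s' i ∈ A i) ∧ (List.ofFn s).prod * l = (List.ofFn s').prod := by
  intro t
  induction t with
  | zero => intro A s _ j; exact j.elim0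
  | succ t ih =>
    intro A s hs j hj l hl
    rw [List.ofFn_succ, List.prod_cons]
    refine Fin.cases ?_ (fun j' => ?_) j hj
    · intro hj0
      set w := (List.ofFn fun i : Fin t => s i.succ).prod with hw
      have hl' : w * l * w⁻¹ ∈ L := hL.conj_mem l hl w
      refine ⟨Fin.cons (s 0 * (w * l * w⁻¹)) (fun i => s i.succ), ?_, ?_⟩
      · intro i
        refine Fin.cases ?_ (fun i' => ?_) i
        · rw [Fin.cons_zero]
          exact (A 0).mul_mem (hs 0) (hj0 hl')
        · rw [Fin.cons_succ]
          exact hs _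
      · rw [List.ofFn_succ, List.prod_cons, Fin.cons_zero]
        simp only [Fin.cons_succ]
        rw [← hw]
        group
    · intro hj'
      obtain ⟨s', hs', he⟩ := ih (fun i => A i.succ) (fun i => s i.succ) (fun i => hs _) j' hj' l hl
      refine ⟨Fin.cons (s 0) s', ?_, ?_⟩
      · intro i
        refine Fin.cases ?_ (fun i' => ?_) i
        · rw [Fin.cons_zero]
          exact hs 0
        · rw [Fin.cons_succ]
          exact hs' i'
      · rw [List.ofFn_succ, List.prod_cons, Fin.cons_zero]
        simp only [Fin.cons_succ]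
        rw [← he]
        group

theorem core : ∀ (n : ℕ) (G : Type u) [Group G] [Finite G] [Group.IsSolvable G], Nat.card G = n →
    ∀ (t : ℕ) (p : Fin t → ℕ) (hp : ∀ i, Fact (p i).Prime),
    (∀ q : ℕ, q.Prime → q ∣ Nat.card G → ∃ i, p i = q) → (S : (i : Fin t) → Sylow (p i) G) →
    ∀ g : G, ∃ s : (i : Fin t) → G, (∀ i, s i ∈ (S i : Subgroup G)) ∧ g = (List.ofFn s).prod := by
  intro n
  induction n using Nat.strong_induction_on with
  | _ n ih =>
    intro G _ _ _ hn t p hp hall S g
    by_cases hbot : (⊤ : Subgroup G) = ⊥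
    · have hg : ∀ x : G, x = 1 := fun x => Subgroup.mem_bot.mp (hbot ▸ Subgroup.mem_top x)
      refine ⟨fun _ => 1, fun i => one_mem _, ?_⟩
      rw [hg g]
      simp
    obtain ⟨L, hLn, hL1, -, hLmin⟩ := Cfsg.Agent.Lib.Core.exists_minimal_normal_le
      (inferInstance : (⊤ : Subgroup G).Normal) hbot
    have hLnn := hLn
    obtain ⟨hLc, r, hr, hLr⟩ := Cfsg.Agent.Lib.Core.minimal_normal_elementary L hL1 hLmin
    have hf : Fact r.Prime := ⟨hr⟩
    have hLpg : IsPGroup r L := by
      intro x
      refine ⟨1, ?_⟩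
      apply Subtype.ext
      simpa using hLr x x.2
    obtain ⟨k, hk⟩ := IsPGroup.iff_card.mp hLpg
    have hLcard1 : 1 < Nat.card L := by
      have := Nat.card_pos (α := L)
      by_contra h3
      exact hL1 (Subgroup.eq_bot_of_card_eq L (by omega))
    have hrL : r ∣ Nat.card L := by
      rw [hk] at hLcard1 ⊢
      have hk0 : k ≠ 0 := by
        rintro rfl
        simp at hLcard1
      exact dvd_pow_self r hk0
    have hrG : r ∣ Nat.card G := hrL.trans (Subgroup.card_subgroup_dvd_card L)
    obtain ⟨j, hj⟩ := hall r hr hrG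
    have hLS : L ≤ (S j : Subgroup G) := by
      subst hj
      exact (Cfsg.Agent.Lib.Core.le_pCore hLn hLpg).trans (Cfsg.Agent.Lib.Core.pCore_le_sylow (S j))
    let π := QuotientGroup.mk' L
    have hπ : Function.Surjective π := QuotientGroup.mk'_surjective L
    have hlt : Nat.card (G ⧸ L) < n := by
      rw [← hn]
      have h1 := L.card_mul_index
      have h3 : Nat.card (G ⧸ L) = L.index := rfl
      rw [h3]
      have h4 : 0 < L.index := Nat.pos_of_ne_zero Subgroup.index_ne_zero_of_finite
      nlinarith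
    obtain ⟨sb, hsb, hprod⟩ := ih _ hlt (G ⧸ L) rfl t p hp
      (fun q hq hqd => hall q hq (hqd.trans (Subgroup.card_quotient_dvd_card L)))
      (fun i => (S i).mapSurjective hπ) (π g)
    have hlift : ∀ i, ∃ x ∈ (S i : Subgroup G), π x = sb i := by
      intro i
      have h1 := hsb i
      rw [Sylow.coe_mapSurjective] at h1
      obtain ⟨x, hx, hxe⟩ := h1
      exact ⟨x, hx, hxe⟩
    choose s₀ hs₀ hs₀e using hlift
    have hπprod : π (List.ofFn s₀).prod = π g := by
      rw [hprod, map_list_prod, List.map_ofFn]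
      congr 2
      funext i
      exact hs₀e i
    have hl : ((List.ofFn s₀).prod)⁻¹ * g ∈ L := by
      rw [← QuotientGroup.eq_one_iff]
      have h3 : π (((List.ofFn s₀).prod)⁻¹ * g) = 1 := by
        rw [map_mul, map_inv, hπprod, inv_mul_cancel]
      exact h3
    obtain ⟨s', hs', he⟩ := prod_mul_mem t (fun i => (S i : Subgroup G)) s₀ hs₀ j hLS _ hl
    refine ⟨s', hs', ?_⟩
    rw [← he]
    group

/-- Let G be a finite solvable group and let S assign to each of t distinct primes, including every prime divisor of the order of G, a Sylow subgroup of G. Then every element of G is a product s_0 s_1 ⋯ s_(t-1) with s_i in S i, the factors taken in the given order. -/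
theorem result {G : Type*} [Group G] [Finite G] [Group.IsSolvable G] (t : ℕ) (p : Fin t → ℕ) (hp : ∀ i, (p i).Prime) (hinj : Function.Injective p) (hall : ∀ q : ℕ, q.Prime → q ∣ Nat.card G → ∃ i, p i = q) (S : (i : Fin t) → Sylow (p i) G) : ∀ g : G, ∃ s : (i : Fin t) → G, (∀ i, s i ∈ (S i : Subgroup G)) ∧ g = (List.ofFn s).prod := by
  exact core _ G rfl t p (fun i => ⟨hp i⟩) hall S

end Cfsg.Agent.S0554
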