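import Cfsg.Statements.S0555
import Mathlib
import Cfsg.Agent.Lib.Super.Prime

set_option autoImplicit false
open Cfsg

namespace Cfsg.Agent.S0555

open scoped commutatorElement in
theorem core {G : Type*} [Group G] (i : ℕ) (hi : 1 ≤ i) (h₁ : IsCyclic (↥(derivedSeries G i) ⧸ (derivedSeries G (i + 1)).subgroupOf (derivedSeries G i))) (h₂ : IsCyclic (↥(derivedSeries G (i + 1)) ⧸ (derivedSeries G (i + 2)).subgroupOf (derivedSeries G (i + 1)))) : derivedSeries G (i + 1) = derivedSeries G (i + 2) := by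
  have hT : (derivedSeries G (i + 1)).Normal := derivedSeries_normal G (i + 1)
  have hD : (derivedSeries G (i + 2)).Normal := derivedSeries_normal G (i + 2)
  have hSn : (derivedSeries G i).Normal := derivedSeries_normal G i
  -- generators
  have gen : ∀ (A B : Subgroup G) [hA : A.Normal], A ≤ B →
      IsCyclic (↥B ⧸ A.subgroupOf B) → ∃ g ∈ B, ∀ x ∈ B, ∃ a ∈ A, ∃ k : ℤ, x = a * g ^ k := by
    intro A B hA hAB hcyc
    obtain ⟨c, hc⟩ := IsCyclic.exists_generator (α := ↥B ⧸ A.subgroupOf B)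
    obtain ⟨b, rfl⟩ := QuotientGroup.mk'_surjective _ c
    refine ⟨b, b.2, ?_⟩
    intro x hx
    obtain ⟨k, hk⟩ := Subgroup.mem_zpowers_iff.mp (hc (QuotientGroup.mk' (A.subgroupOf B) ⟨x, hx⟩))
    rw [← map_zpow] at hk
    have h1 := QuotientGroup.eq.mp hk.symm
    refine ⟨x * ((b : G) ^ k)⁻¹, ?_, k, by group⟩
    have h3 : x⁻¹ * (b : G) ^ k ∈ A := by simpa [Subgroup.mem_subgroupOf] using h1
    have h2 : (x * ((b : G) ^ k)⁻¹) = (b : G) ^ k * (x⁻¹ * (b : G) ^ k)⁻¹ * ((b : G) ^ k)⁻¹ := by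
      group
    rw [h2]
    exact hA.conj_mem _ (A.inv_mem h3) _
  have hle : derivedSeries G (i + 2) ≤ derivedSeries G (i + 1) := by
    exact Subgroup.commutator_le_left (derivedSeries G (i + 1)) _
  have hle2 : derivedSeries G (i + 1) ≤ derivedSeries G i := by
    exact Subgroup.commutator_le_left (derivedSeries G i) _
  obtain ⟨g, hg, hgen⟩ := gen _ _ hle h₂
  obtain ⟨x, hx, hxgen⟩ := gen _ _ hle2 h₁
  have hTeq : derivedSeries G (i + 1) = derivedSeries G (i + 2) ⊔ Subgroup.zpowers g := by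
    apply le_antisymm
    · intro t ht
      obtain ⟨a, ha, k, rfl⟩ := hgen t ht
      exact Subgroup.mul_mem _ (Subgroup.mem_sup_left ha)
        (Subgroup.mem_sup_right (Subgroup.zpow_mem_zpowers g k))
    · exact sup_le hle ((Subgroup.zpowers_le).mpr hg)
  have hScomm : derivedSeries G i ≤ commutator G := by
    obtain ⟨j, rfl⟩ : ∃ j, i = j + 1 := ⟨i - 1, by omega⟩
    have : derivedSeries G (j + 1) ≤ derivedSeries G 1 := derivedSeries_antitone _ (by omega)
    simpa using this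
  have hcomm : ∀ s ∈ derivedSeries G i, ∀ t ∈ derivedSeries G (i + 1),
      ⁅s, t⁆ ∈ derivedSeries G (i + 2) := by
    intro s hs t ht
    exact Cfsg.Agent.Lib.Super.commutator_mem_of_step hTeq (hScomm hs) ht
  apply le_antisymm _ hle
  change ⁅derivedSeries G i, derivedSeries G i⁆ ≤ _
  rw [Subgroup.commutator_le]
  intro s₁ hs₁ s₂ hs₂
  obtain ⟨t₁, ht₁, k₁, rfl⟩ := hxgen s₁ hs₁
  obtain ⟨t₂, ht₂, k₂, rfl⟩ := hxgen s₂ hs₂
  let π := QuotientGroup.mk' (derivedSeries G (i + 2))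
  have hπ : ∀ y, π y = 1 ↔ y ∈ derivedSeries G (i + 2) := fun y => QuotientGroup.eq_one_iff y
  have hc : ∀ s ∈ derivedSeries G i, ∀ t ∈ derivedSeries G (i + 1), Commute (π s) (π t) := by
    intro s hs t ht
    have := (hπ _).mpr (hcomm s hs t ht)
    simp only [commutatorElement_def, map_mul, map_inv] at this
    rw [Commute, SemiconjBy]
    have h3 : π s * π t * (π s)⁻¹ * (π t)⁻¹ * (π t * π s) = π t * π s := by rw [this, one_mul]
    rw [← h3]
    group
  rw [← hπ, commutatorElement_def]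
  simp only [map_mul, map_inv, map_zpow]
  have h1 : Commute (π t₁) (π t₂) := hc _ (hle2 ht₁) _ ht₂
  have h2 : Commute (π t₁) (π x ^ k₂) := by
    have := hc x hx t₁ ht₁
    exact (this.symm).zpow_right k₂
  have h3 : Commute (π x ^ k₁) (π t₂) := (hc x hx t₂ ht₂).zpow_left k₁
  have h4 : Commute (π x ^ k₁) (π x ^ k₂) := (Commute.refl _).zpow_zpow k₁ k₂
  have h5 : Commute (π t₁ * π x ^ k₁) (π t₂ * π x ^ k₂) :=
    Commute.mul_left (Commute.mul_right h1 h2) (Commute.mul_right h3 h4)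
  have : π t₁ * π x ^ k₁ * (π t₂ * π x ^ k₂) * (π t₁ * π x ^ k₁)⁻¹ * (π t₂ * π x ^ k₂)⁻¹ = 1 := by
    rw [h5.eq]
    group
  simpa [mul_assoc] using this


/-- Let i ≥ 1. If in the derived series of a group the quotient of the i-th term by the (i+1)-st and the quotient of the (i+1)-st by the (i+2)-nd are both cyclic, then the (i+1)-st and (i+2)-nd terms coincide. -/
theorem result {G : Type*} [Group G] (i : ℕ) (hi : 1 ≤ i) (h₁ : IsCyclic (↥(derivedSeries G i) ⧸ (derivedSeries G (i + 1)).subgroupOf (derivedSeries G i))) (h₂ : IsCyclic (↥(derivedSeries G (i + 1)) ⧸ (derivedSeries G (i + 2)).subgroupOf (derivedSeries G (i + 1)))) : derivedSeries G (i + 1) = derivedSeries G (i + 2) := by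
  exact core i hi h₁ h₂

end Cfsg.Agent.S0555
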