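import Cfsg.Statements.S0560
import Mathlib
import Cfsg.Agent.Lib.Core.Factor
import Cfsg.Agent.Lib.Core.Conj
import Cfsg.Agent.Lib.Core.Product
import Cfsg.Agent.Lib.PGroup.Basic

set_option autoImplicit false
open Pointwise
open Cfsg

namespace Cfsg.Agent.S0560

open scoped Pointwise

theorem set_mul_eq {G : Type*} [Group G] [Finite G] (A B R : Subgroup G) (hA : A ≤ R) (hB : B ≤ R)
    (h : Nat.card R * Nat.card (A ⊓ B : Subgroup G) ≤ Nat.card A * Nat.card B) :
    (R : Set G) = (A : Set G) * (B : Set G) := by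
  let H := A.subgroupOf R
  let K := B.subgroupOf R
  have cardH : Nat.card H = Nat.card A := Nat.card_congr (Subgroup.subgroupOfEquivOfLe hA).toEquiv
  have cardK : Nat.card K = Nat.card B := Nat.card_congr (Subgroup.subgroupOfEquivOfLe hB).toEquiv
  have hHK : H ⊓ K = (A ⊓ B).subgroupOf R := by
    ext x
    simp [Subgroup.mem_subgroupOf, H, K]
  have cardHK : Nat.card (H ⊓ K : Subgroup R) = Nat.card (A ⊓ B : Subgroup G) := by
    rw [hHK]
    exact Nat.card_congr (Subgroup.subgroupOfEquivOfLe (inf_le_left.trans hA)).toEquiv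
  have h1 := Cfsg.Agent.Lib.PGroup.card_inf_mul_relIndex H K
  have h2 := H.card_mul_index
  have h3 : H.relIndex K ≤ H.index := by
    have h5 : (H ⊓ K).relIndex K * K.index = (H ⊓ K).index := Subgroup.relIndex_mul_index inf_le_right
    rw [Subgroup.inf_relIndex_right] at h5
    have h6 : (H ⊓ K).index ≤ H.index * K.index := Subgroup.index_inf_le
    rw [← h5] at h6
    exact Nat.le_of_mul_le_mul_right h6 (Nat.pos_of_ne_zero Subgroup.index_ne_zero_of_finite)
  have h4 : H.index ≤ H.relIndex K := by
    rw [cardHK, cardK] at h1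
    rw [cardH] at h2
    rw [← h1, ← h2] at h
    have ha : 0 < Nat.card A := Nat.card_pos
    have hc : 0 < Nat.card (A ⊓ B : Subgroup G) := Nat.card_pos
    have h7 : (Nat.card A * Nat.card (A ⊓ B : Subgroup G)) * H.index ≤
        (Nat.card A * Nat.card (A ⊓ B : Subgroup G)) * H.relIndex K := by
      calc _ = Nat.card A * H.index * Nat.card (A ⊓ B : Subgroup G) := by ring
        _ ≤ _ := h
        _ = _ := by ring
    exact Nat.le_of_mul_le_mul_left h7 (Nat.mul_pos ha hc)
  have heq : H.relIndex K = H.index := le_antisymm h3 h4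
  apply Set.Subset.antisymm
  · intro g hg
    obtain ⟨x, hx, y, hy, he⟩ := Cfsg.Agent.Lib.Core.exists_mul_of_relIndex_eq H K heq (⟨g, hg⟩ : R)
    refine Set.mem_mul.mpr ⟨x, hx, y, hy, ?_⟩
    have := congrArg Subtype.val he
    simpa using this.symm
  · rintro _ ⟨a, ha, b, hb, rfl⟩
    exact R.mul_mem (hA ha) (hB hb)

theorem core {G : Type*} [Group G] [Finite G] (H K : Subgroup G) (hHK : ∀ g : G, ∃ h ∈ H, ∃ k ∈ K, g = h * k) (p : ℕ) [hfact : Fact p.Prime] : ∃ (P : Sylow p H) (Q : Sylow p K) (R : Sylow p G), ((R : Subgroup G) : Set G) = (((P : Subgroup H).map H.subtype : Subgroup G) : Set G) * (((Q : Subgroup K).map K.subtype : Subgroup G) : Set G) := by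
  classical
  have hp := hfact.out
  obtain ⟨P₁⟩ : Nonempty (Sylow p H) := inferInstance
  obtain ⟨Q₁⟩ : Nonempty (Sylow p K) := inferInstance
  have hA : IsPGroup p ((P₁ : Subgroup H).map H.subtype) := P₁.isPGroup'.map _
  have hB : IsPGroup p ((Q₁ : Subgroup K).map K.subtype) := Q₁.isPGroup'.map _
  obtain ⟨R, hR⟩ := hA.exists_le_sylow
  obtain ⟨R', hR'⟩ := hB.exists_le_sylow
  obtain ⟨g, hg⟩ := MulAction.exists_smul_eq G R R'
  obtain ⟨h', hh', k', hk', hgi⟩ := hHK g⁻¹
  let h : H := ⟨h'⁻¹, H.inv_mem hh'⟩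
  let k : K := ⟨k', hk'⟩
  have hg' : g = (k' : G)⁻¹ * h'⁻¹ := by
    have := congrArg (·⁻¹) hgi
    simpa using this
  -- the new subgroups
  let P : Sylow p H := h • P₁
  let Q : Sylow p K := k • Q₁
  let S : Sylow p G := (h : G) • R
  have hPe : (P : Subgroup H).map H.subtype = MulAut.conj (h : G) • ((P₁ : Subgroup H).map H.subtype) := by
    rw [Sylow.coe_subgroup_smul]
    exact Cfsg.Agent.Lib.Core.map_subtype_conj_smul H h _
  have hQe : (Q : Subgroup K).map K.subtype = MulAut.conj (k : G) • ((Q₁ : Subgroup K).map K.subtype) := by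
    rw [Sylow.coe_subgroup_smul]
    exact Cfsg.Agent.Lib.Core.map_subtype_conj_smul K k _
  have hPS : (P : Subgroup H).map H.subtype ≤ (S : Subgroup G) := by
    rw [hPe, Sylow.coe_subgroup_smul]
    exact Cfsg.Agent.Lib.Core.conj_smul_le_conj_smul hR
  have hQS : (Q : Subgroup K).map K.subtype ≤ (S : Subgroup G) := by
    rw [hQe, Sylow.coe_subgroup_smul]
    have h1 : MulAut.conj (k : G) • (R' : Subgroup G) = (S : Subgroup G) := by
      rw [← hg, Sylow.coe_subgroup_smul, Cfsg.Agent.Lib.Core.conj_smul_conj_smul, Sylow.coe_subgroup_smul, hg']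
      congr 2
      simp [k, h]
    rw [← Sylow.coe_subgroup_smul, ← h1]
    exact Cfsg.Agent.Lib.Core.conj_smul_le_conj_smul hR'
  refine ⟨P, Q, S, ?_⟩
  apply set_mul_eq _ _ _ hPS hQS
  -- cardinalities
  have cP : Nat.card ((P : Subgroup H).map H.subtype) = p ^ (Nat.card H).factorization p := by
    rw [Subgroup.card_map_of_injective H.subtype_injective]
    exact P.card_eq_multiplicity
  have cQ : Nat.card ((Q : Subgroup K).map K.subtype) = p ^ (Nat.card K).factorization p := by
    rw [Subgroup.card_map_of_injective K.subtype_injective]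
    exact Q.card_eq_multiplicity
  have cS : Nat.card (S : Subgroup G) = p ^ (Nat.card G).factorization p := S.card_eq_multiplicity
  have hmul := Cfsg.Agent.Lib.Core.card_mul_card_of_mul hHK
  have hfac : (Nat.card H).factorization p + (Nat.card K).factorization p =
      (Nat.card G).factorization p + (Nat.card (H ⊓ K : Subgroup G)).factorization p := by
    have h1 := congrArg (fun n => n.factorization p) hmul
    rwa [Nat.factorization_mul (Nat.card_pos.ne') (Nat.card_pos.ne'),
      Nat.factorization_mul (Nat.card_pos.ne') (Nat.card_pos.ne')] at h1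
  -- the intersection
  have hinfP : IsPGroup p (((P : Subgroup H).map H.subtype ⊓ (Q : Subgroup K).map K.subtype : Subgroup G)) :=
    (P.isPGroup'.map H.subtype).to_le inf_le_left
  obtain ⟨e, he⟩ := IsPGroup.iff_card.mp hinfP
  have hle : (((P : Subgroup H).map H.subtype ⊓ (Q : Subgroup K).map K.subtype : Subgroup G)) ≤ H ⊓ K := by
    apply inf_le_inf
    · rintro _ ⟨x, -, rfl⟩
      exact x.2
    · rintro _ ⟨x, -, rfl⟩
      exact x.2
  have hdvd := Subgroup.card_dvd_of_le hle
  rw [he] at hdvd
  have he' : e ≤ (Nat.card (H ⊓ K : Subgroup G)).factorization p :=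
    (hp.pow_dvd_iff_le_factorization (Nat.card_pos.ne')).mp hdvd
  rw [cP, cQ, cS, he, ← pow_add, ← pow_add]
  apply Nat.pow_le_pow_right hp.pos
  omega

/-- Let the finite group G be the product HK of two subgroups and p a prime. Then there are Sylow p-subgroups P of H and Q of K and a Sylow p-subgroup R of G whose underlying set is the product set of P and Q. -/
theorem result {G : Type*} [Group G] [Finite G] (H K : Subgroup G) (hHK : ∀ g : G, ∃ h ∈ H, ∃ k ∈ K, g = h * k) (p : ℕ) [Fact p.Prime] : ∃ (P : Sylow p H) (Q : Sylow p K) (R : Sylow p G), ((R : Subgroup G) : Set G) = (((P : Subgroup H).map H.subtype : Subgroup G) : Set G) * (((Q : Subgroup K).map K.subtype : Subgroup G) : Set G) := by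
  exact core H K hHK p

end Cfsg.Agent.S0560
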