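import Cfsg.Statements.S0570
import Mathlib
import Cfsg.Agent.Lib.Hall.Carter2

set_option autoImplicit false
open Cfsg

namespace Cfsg.Agent.S0570

/-- Let G be a finite group with a nilpotent normal subgroup F such that G modulo F is nilpotent (nilpotent length at most two). Then a subgroup of G is a Carter subgroup if and only if it is the system normalizer of some Hall complement system. -/
theorem result {G : Type*} [Group G] [Finite G] (F : Subgroup G) [F.Normal] (hF : Group.IsNilpotent F) (hGF : Group.IsNilpotent (G ⧸ F)) (C : Subgroup G) : Cfsg.IsCarterSubgroup C ↔ ∃ K : Nat.Primes → Subgroup G, Cfsg.IsComplementSystem K ∧ C = Cfsg.systemNormalizer K := by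
  have h1 := hF
  have hsolv : Group.IsSolvable G :=
    Group.isSolvable_of_ker_le_range F.subtype (QuotientGroup.mk' F) (by
      rw [QuotientGroup.ker_mk', Subgroup.range_subtype])
  constructor
  · exact Cfsg.Agent.Lib.Hall.carter_eq_system F hF hGF C
  · rintro ⟨K, hK, rfl⟩
    obtain ⟨C₀, h1, h2⟩ := Cfsg.Agent.Lib.Hall.exists_carter _ G rfl
    obtain ⟨K₀, hK₀, h3⟩ := Cfsg.Agent.Lib.Hall.carter_eq_system F hF hGF C₀ ⟨h1, h2⟩
    obtain ⟨g, hg⟩ := Cfsg.Agent.Lib.Hall.system_conj hK₀ hK
    rw [Cfsg.Agent.Lib.Hall.systemNormalizer_conj hg, ← h3]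
    exact Cfsg.Agent.Lib.Hall.carter_conj_smul h1 h2 g

end Cfsg.Agent.S0570
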