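import Cfsg.Statements.S0571
import Mathlib
import Cfsg.Agent.Lib.Super.Basic
import Cfsg.Agent.Lib.Super.Chain
import Cfsg.Agent.Lib.BPair.Cyclic

set_option autoImplicit false
open Cfsg

namespace Cfsg.Agent.S0571

open Cfsg.Agent.Lib.Super

universe u

/-- The counting lemma: `A` meets one of its conjugates under a generator. -/
theorem exists_conj_mem {G : Type u} [Group G] [Finite G] (A B : Subgroup G)
    (hAB : ∀ g : G, ∃ a ∈ A, ∃ b ∈ B, g = a * b) (hle : Nat.card B ≤ Nat.card A) (hA : A ≠ ⊥) (c : G) :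
    ∃ x ∈ A, x ≠ 1 ∧ c * x * c⁻¹ ∈ A := by
  classical
  by_contra hcon
  push Not at hcon
  by_cases hc : c ∈ A
  · obtain ⟨x, hx, hx1⟩ := (Subgroup.ne_bot_iff_exists_ne_one.mp hA |>.imp fun y hy => hy) |>.elim
      (fun y hy => (⟨y, y.2, fun h => hy (Subtype.ext h)⟩ : ∃ x, x ∈ A ∧ x ≠ 1))
    exact hcon x hx hx1 (A.mul_mem (A.mul_mem hc hx) (A.inv_mem hc))
  · -- injection `Option A → G ⧸ A`
    let f : Option A → G ⧸ A := fun o => match o with
      | none => ((1 : G) : G ⧸ A)
      | some a => (((a : G) * c⁻¹ : G) : G ⧸ A)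
    have hinj : Function.Injective f := by
      intro o o' h
      rcases o with _ | a <;> rcases o' with _ | a'
      · rfl
      · exfalso
        have h1 : ((1 : G))⁻¹ * ((a' : G) * c⁻¹) ∈ A := QuotientGroup.eq.mp h
        simp only [inv_one, one_mul] at h1
        apply hc
        have h2 : (a' : G)⁻¹ * ((a' : G) * c⁻¹) ∈ A := A.mul_mem (A.inv_mem a'.2) h1
        rw [inv_mul_cancel_left] at h2
        simpa using A.inv_mem h2
      · exfalso
        have h1 : ((a : G) * c⁻¹)⁻¹ * 1 ∈ A := QuotientGroup.eq.mp h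
        simp only [mul_one, mul_inv_rev, inv_inv] at h1
        apply hc
        have h2 := A.mul_mem h1 a.2
        rwa [mul_assoc, inv_mul_cancel, mul_one] at h2
      · have h1 : ((a : G) * c⁻¹)⁻¹ * ((a' : G) * c⁻¹) ∈ A := QuotientGroup.eq.mp h
        have h2 : c * ((a : G)⁻¹ * a') * c⁻¹ ∈ A := by
          have : c * ((a : G)⁻¹ * a') * c⁻¹ = ((a : G) * c⁻¹)⁻¹ * ((a' : G) * c⁻¹) := by group
          rw [this]; exact h1
        by_contra hne
        apply hcon _ (A.mul_mem (A.inv_mem a.2) a'.2) _ h2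
        intro h3
        apply hne
        rw [inv_mul_eq_one] at h3
        rw [Subtype.ext h3]
    have hsurj : Function.Surjective (fun b : B => ((b : G) : G ⧸ A)) := by
      intro q
      obtain ⟨g, rfl⟩ := QuotientGroup.mk_surjective q
      obtain ⟨a, ha, b, hb, hab⟩ := hAB g⁻¹
      refine ⟨⟨b⁻¹, B.inv_mem hb⟩, ?_⟩
      apply QuotientGroup.eq.mpr
      have hg : g = b⁻¹ * a⁻¹ := by
        have : g = (a * b)⁻¹ := by rw [← hab, inv_inv]
        rw [this, mul_inv_rev]
      show (b⁻¹)⁻¹ * g ∈ A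
      rw [hg, inv_inv, mul_inv_cancel_left]
      exact A.inv_mem ha
    have h1 := Nat.card_le_card_of_injective f hinj
    have h2 := Nat.card_le_card_of_surjective _ hsurj
    rw [Finite.card_option] at h1
    omega

/-- A normal subgroup inside the larger factor. -/
theorem exists_normal {G : Type u} [Group G] [Finite G] (A B : Subgroup G) (hAc : IsCyclic A) (hBc : IsCyclic B)
    (hAB : ∀ g : G, ∃ a ∈ A, ∃ b ∈ B, g = a * b) (hle : Nat.card B ≤ Nat.card A) (hA : A ≠ ⊥) :
    ∃ N : Subgroup G, N ≤ A ∧ N.Normal ∧ 1 < Nat.card N := by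
  classical
  obtain ⟨c, hc⟩ := IsCyclic.exists_generator (α := B)
  obtain ⟨x, hxA, hx1, hcx⟩ := exists_conj_mem A B hAB hle hA (c : G)
  have hord : orderOf x ≠ 1 := fun h => hx1 (orderOf_eq_one_iff.mp h)
  let p := (orderOf x).minFac
  have hpp : p.Prime := Nat.minFac_prime hord
  haveI : Fact p.Prime := ⟨hpp⟩
  have hpd : p ∣ orderOf x := Nat.minFac_dvd _
  let y := x ^ (orderOf x / p)
  have hyA : y ∈ A := A.pow_mem hxA _
  have hyord : orderOf y = p := by
    show orderOf (x ^ (orderOf x / p)) = p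
    rw [orderOf_pow_of_dvd (Nat.div_pos (Nat.le_of_dvd (orderOf_pos x) hpd) hpp.pos).ne' (Nat.div_dvd_of_dvd hpd)]
    exact Nat.div_div_self hpd (orderOf_pos x).ne'
  have hcy : (c : G) * y * (c : G)⁻¹ ∈ A := by
    have : (c : G) * y * (c : G)⁻¹ = ((c : G) * x * (c : G)⁻¹) ^ (orderOf x / p) := by
      show (c : G) * x ^ (orderOf x / p) * (c : G)⁻¹ = _
      rw [← MulAut.conj_apply, map_pow, MulAut.conj_apply]
    rw [this]
    exact A.pow_mem hcx _
  have hmem1 : (c : G) * y * (c : G)⁻¹ ∈ Subgroup.zpowers y := by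
    have h1 : orderOf (⟨y, hyA⟩ : A) = p := by
      rw [Subgroup.orderOf_mk]; exact hyord
    have h2 : orderOf (⟨(c : G) * y * (c : G)⁻¹, hcy⟩ : A) = p := by
      rw [Subgroup.orderOf_mk, ← MulAut.conj_apply, MulEquiv.orderOf_eq]; exact hyord
    obtain ⟨k, hk⟩ := Subgroup.mem_zpowers_iff.mp (Cfsg.Agent.Lib.BPair.mem_zpowers_of_orderOf_eq_prime h1 h2)
    refine Subgroup.mem_zpowers_iff.mpr ⟨k, ?_⟩
    exact congrArg (fun z : A => (z : G)) hk
  have hstep : ∀ z ∈ Subgroup.zpowers y, (c : G) * z * (c : G)⁻¹ ∈ Subgroup.zpowers y := by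
    intro z hz
    obtain ⟨m, rfl⟩ := Subgroup.mem_zpowers_iff.mp hz
    have : (c : G) * y ^ m * (c : G)⁻¹ = ((c : G) * y * (c : G)⁻¹) ^ m := by
      rw [← MulAut.conj_apply, map_zpow, MulAut.conj_apply]
    rw [this]
    exact Subgroup.zpow_mem _ hmem1 m
  have hpowc : ∀ (k : ℕ), ∀ z ∈ Subgroup.zpowers y, ((c : G) ^ k) * z * ((c : G) ^ k)⁻¹ ∈ Subgroup.zpowers y := by
    intro k
    induction k with
    | zero => intro z hz; simpa using hz
    | succ k ih =>
      intro z hz
      have : (c : G) ^ (k + 1) * z * ((c : G) ^ (k + 1))⁻¹ = (c : G) * ((c : G) ^ k * z * ((c : G) ^ k)⁻¹) * (c : G)⁻¹ := by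
        rw [pow_succ']
        group
      rw [this]
      exact hstep _ (ih z hz)
  have hNA : Subgroup.zpowers y ≤ A := by
    rw [Subgroup.zpowers_le]; exact hyA
  have hAcomm : ∀ u ∈ A, ∀ v ∈ A, u * v = v * u := by
    intro u hu v hv
    letI : CommGroup A := IsCyclic.commGroup
    exact congrArg (fun z : A => (z : G)) (mul_comm (⟨u, hu⟩ : A) ⟨v, hv⟩)
  refine ⟨Subgroup.zpowers y, hNA, ?_, ?_⟩
  · apply Cfsg.Agent.Lib.Super.normal_zpowers_of_conj_mem
    intro g
    obtain ⟨a, ha, b, hb, rfl⟩ := hAB g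
    have hbm : (⟨b, hb⟩ : B) ∈ Subgroup.zpowers c := hc _
    obtain ⟨k, hk⟩ := mem_powers_iff_mem_zpowers.mpr hbm
    have hk' : (c : G) ^ k = b := congrArg (fun z : B => (z : G)) hk
    have h1 := hpowc k y (Subgroup.mem_zpowers y)
    rw [hk'] at h1
    have h2 : a * b * y * (a * b)⁻¹ = a * (b * y * b⁻¹) * a⁻¹ := by group
    rw [h2, hAcomm a ha _ (hNA h1), mul_inv_cancel_right]
    exact h1
  · rw [Nat.card_zpowers, hyord]
    exact hpp.one_lt

theorem main_aux : ∀ (n : ℕ) {G : Type u} [Group G] [Finite G], Nat.card G = n → ∀ (A B : Subgroup G),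
    IsCyclic A → IsCyclic B → (∀ g : G, ∃ a ∈ A, ∃ b ∈ B, g = a * b) → IsSupersolvable G := by
  intro n
  induction n using Nat.strong_induction_on with
  | _ n ih =>
    intro G _ _ hn A B hAc hBc hAB
    by_cases hsub : Subsingleton G
    · exact isSupersolvable_of_subsingleton
    have hBA : ∀ g : G, ∃ b ∈ B, ∃ a ∈ A, g = b * a := by
      intro g
      obtain ⟨a, ha, b, hb, hab⟩ := hAB g⁻¹
      refine ⟨b⁻¹, B.inv_mem hb, a⁻¹, A.inv_mem ha, ?_⟩
      have : g = (a * b)⁻¹ := by rw [← hab, inv_inv]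
      rw [this, mul_inv_rev]
    have key : ∃ N : Subgroup G, (N ≤ A ∨ N ≤ B) ∧ N.Normal ∧ 1 < Nat.card N := by
      have hne : ∀ (X Y : Subgroup G), Nat.card Y ≤ Nat.card X → (∀ g : G, ∃ a ∈ X, ∃ b ∈ Y, g = a * b) → X ≠ ⊥ := by
        intro X Y hle hXY hX
        apply hsub
        rw [hX, Subgroup.card_bot] at hle
        have hY : Y = ⊥ := Subgroup.eq_bot_of_card_le _ hle
        refine ⟨fun g g' => ?_⟩
        obtain ⟨a, ha, b, hb, rfl⟩ := hXY g
        obtain ⟨a', ha', b', hb', rfl⟩ := hXY g'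
        rw [hX, Subgroup.mem_bot] at ha ha'
        rw [hY, Subgroup.mem_bot] at hb hb'
        rw [ha, ha', hb, hb']
      rcases le_total (Nat.card B) (Nat.card A) with hle | hle
      · obtain ⟨N, h1, h2, h3⟩ := exists_normal A B hAc hBc hAB hle (hne A B hle hAB)
        exact ⟨N, Or.inl h1, h2, h3⟩
      · obtain ⟨N, h1, h2, h3⟩ := exists_normal B A hBc hAc hBA hle (hne B A hle hBA)
        exact ⟨N, Or.inr h1, h2, h3⟩
    obtain ⟨N, hNle, hNn, hN1⟩ := key
    haveI := hNn
    haveI hNc : IsCyclic N := by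
      rcases hNle with h | h
      · exact isCyclic_of_injective (Subgroup.inclusion h) (Subgroup.inclusion_injective h)
      · exact isCyclic_of_injective (Subgroup.inclusion h) (Subgroup.inclusion_injective h)
    apply isSupersolvable_of_cyclic_normal N
    have hlt := Cfsg.Agent.Lib.Super.card_quotient_lt N hN1
    rw [hn] at hlt
    refine ih _ hlt rfl (A.map (QuotientGroup.mk' N)) (B.map (QuotientGroup.mk' N)) ?_ ?_ ?_
    · haveI := hAc
      exact isCyclic_of_surjective (((QuotientGroup.mk' N).subgroupMap A))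
        ((QuotientGroup.mk' N).subgroupMap_surjective A)
    · haveI := hBc
      exact isCyclic_of_surjective (((QuotientGroup.mk' N).subgroupMap B))
        ((QuotientGroup.mk' N).subgroupMap_surjective B)
    · intro g
      obtain ⟨g', rfl⟩ := QuotientGroup.mk'_surjective N g
      obtain ⟨a, ha, b, hb, rfl⟩ := hAB g'
      exact ⟨_, Subgroup.mem_map_of_mem _ ha, _, Subgroup.mem_map_of_mem _ hb, map_mul _ _ _⟩

/-- If a finite group G is the product AB of two cyclic subgroups (every element is a product ab), then G is supersolvable. -/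
theorem result {G : Type*} [Group G] [Finite G] (A B : Subgroup G) [IsCyclic A] [IsCyclic B] (hAB : ∀ g : G, ∃ a ∈ A, ∃ b ∈ B, g = a * b) : Cfsg.IsSupersolvable G := by
  exact main_aux _ rfl A B inferInstance inferInstance hAB

end Cfsg.Agent.S0571
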