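import Cfsg.Statements.S0574
import Mathlib
import Cfsg.Agent.Lib.Techniques.AbNil

set_option autoImplicit false
open Cfsg

namespace Cfsg.Agent.S0574

/-- Let the finite group G be the product AB of an abelian subgroup A and a subgroup B of nilpotency class at most two, and let Ω be the number of prime factors, with multiplicity, of the order of the commutator subgroup of B. Then the term of index 2(1 + Ω) of the derived series of G is trivial. -/
theorem result {G : Type*} [Group G] [Finite G] (A B : Subgroup G) [IsMulCommutative A] (hB : commutator ↥B ≤ Subgroup.center ↥B) (hAB : ∀ g : G, ∃ a ∈ A, ∃ b ∈ B, g = a * b) : derivedSeries G (2 * (1 + (Nat.card ↥(commutator ↥B)).primeFactorsList.length)) = ⊥ := by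
  have hAc : ∀ x ∈ A, ∀ y ∈ A, x * y = y * x := fun x hx y hy =>
    congrArg Subtype.val (IsMulCommutative.is_comm.comm (⟨x, hx⟩ : A) ⟨y, hy⟩)
  have hBc : ∀ z ∈ ⁅B, B⁆, ∀ b ∈ B, Commute z b := by
    intro z hz b hb
    rw [← Subgroup.map_subtype_commutator] at hz
    obtain ⟨z₀, hz₀, rfl⟩ := hz
    have h1 := Subgroup.mem_center_iff.mp (hB hz₀) ⟨b, hb⟩
    exact (congrArg Subtype.val h1).symm
  have h := Cfsg.Agent.Lib.Techniques.AbNil.main_aux _ G A B rfl hAc hBc hAB
  have hcard : Nat.card ↥(commutator ↥B) = Nat.card ↥⁅B, B⁆ := by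
    rw [← Subgroup.map_subtype_commutator]
    exact Nat.card_congr (Subgroup.equivMapOfInjective _ _ B.subtype_injective).toEquiv
  rw [hcard]
  exact h

end Cfsg.Agent.S0574
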