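import Cfsg.Statements.S0576
import Mathlib
import Cfsg.Agent.Lib.Core.Frattini

set_option autoImplicit false
open Cfsg

namespace Cfsg.Agent.S0576

/-- Let H be a normal subgroup of a finite group G with H contained in the Frattini subgroup of G. Then the group of inner automorphisms of H is contained in the Frattini subgroup of the automorphism group of H. -/
theorem result {G : Type*} [Group G] [Finite G] (H : Subgroup G) [H.Normal] (hH : H ≤ frattini G) : (MulAut.conj : ↥H →* MulAut ↥H).range ≤ frattini (MulAut ↥H) := by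
  have hH' : (MulAut.conj : ↥H →* MulAut ↥H).range.Normal := by
    constructor
    rintro _ ⟨h, rfl⟩ σ
    refine ⟨σ h, ?_⟩
    ext x
    simp [MulAut.conj_apply]
  rw [show frattini (MulAut ↥H) = ⨅ (M : Subgroup (MulAut ↥H)) (_ : IsCoatom M), M from rfl]
  refine le_iInf₂ fun M hM => ?_
  by_contra hnot
  have hsup : M ⊔ (MulAut.conj : ↥H →* MulAut ↥H).range = ⊤ := hM.2 _ (lt_of_le_of_ne le_sup_left (fun h => hnot (h ▸ le_sup_right)))
  let c : G →* MulAut ↥H := MulAut.conjNormal
  have hc : ∀ h : H, c h = MulAut.conj h := by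
    intro h
    exact MulAut.conjNormal_val
  have hU : M.comap c ⊔ H = ⊤ := by
    rw [eq_top_iff]
    intro g _
    have h1 : c g ∈ M ⊔ (MulAut.conj : ↥H →* MulAut ↥H).range := by rw [hsup]; trivial
    obtain ⟨m, hm, y, ⟨h, rfl⟩, hmy⟩ := Subgroup.mem_sup_of_normal_right.mp h1
    have h2 : g * (h : G)⁻¹ ∈ M.comap c := by
      rw [Subgroup.mem_comap, map_mul, map_inv, hc, ← hmy]
      simpa using hm
    have h3 : g = (g * (h : G)⁻¹) * h := by group
    rw [h3]
    exact Subgroup.mul_mem _ (Subgroup.mem_sup_left h2) (Subgroup.mem_sup_right h.2)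
  have htop := Cfsg.Agent.Lib.Core.eq_top_of_sup_eq_top_of_le_frattini hH hU
  apply hnot
  rintro _ ⟨h, rfl⟩
  have h5 : (h : G) ∈ M.comap c := by rw [htop]; trivial
  have h6 := Subgroup.mem_comap.mp h5
  rwa [hc] at h6

end Cfsg.Agent.S0576
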