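import Cfsg.Statements.S0578
import Mathlib
import Cfsg.Agent.Lib.Core.Batch

set_option autoImplicit false
open Cfsg

namespace Cfsg.Agent.S0578

universe u

/-- elementwise form of the hypothesis -/
def Hyp (G : Type u) [Group G] : Prop :=
  ∀ A : Subgroup G, IsMulCommutative A → ∀ x : G, (∀ a, a ∈ A ↔ x * a * x⁻¹ ∈ A) → ∀ a ∈ A, x * a = a * x

theorem Hyp.subgroup {G : Type u} [Group G] (h : Hyp G) (K : Subgroup G) : Hyp K := by
  intro A hA x hx a ha
  have hab : IsMulCommutative (A.map K.subtype) := by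
    refine ⟨⟨?_⟩⟩
    rintro ⟨_, a, ha, rfl⟩ ⟨_, b, hb, rfl⟩
    apply Subtype.ext
    have := hA.is_comm.comm ⟨a, ha⟩ ⟨b, hb⟩
    have h2 := congrArg (fun z : A => ((z : K) : G)) this
    simpa using h2
  have h1 := h (A.map K.subtype) hab (x : G) ?_ (a : G) ⟨a, ha, rfl⟩
  · exact Subtype.ext h1
  · intro g
    constructor
    · rintro ⟨b, hb, rfl⟩
      refine ⟨x * b * x⁻¹, (hx b).mp hb, ?_⟩
      simp
    · rintro ⟨b, hb, hbe⟩
      have hg : g = (x : G)⁻¹ * b * x := by
        simp only [Subgroup.subtype_apply] at hbe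
        rw [hbe]; group
      refine ⟨x⁻¹ * b * x, (hx _).mpr ?_, ?_⟩
      · have : x * (x⁻¹ * b * x) * x⁻¹ = b := by group
        rw [this]
        exact hb
      · simp [hg]

theorem core : ∀ (n : ℕ) (G : Type u) [Group G] [Finite G], Nat.card G = n → Hyp G → ∀ a b : G, a * b = b * a := by
  intro n
  induction n using Nat.strong_induction_on with
  | _ n ih =>
    intro G _ _ hn hG a b
    by_cases h1 : Nat.card G = 1
    · have : Subsingleton G := (Nat.card_eq_one_iff_unique.mp h1).1
      exact Subsingleton.elim _ _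
    obtain ⟨p, hp, hpd⟩ := Nat.exists_prime_and_dvd h1
    have hfact : Fact p.Prime := ⟨hp⟩
    obtain ⟨P⟩ : Nonempty (Sylow p G) := inferInstance
    have hconj : ∀ (N : Subgroup G), N.Normal → ∀ x a, a ∈ N ↔ x * a * x⁻¹ ∈ N := by
      intro N hN x a
      refine ⟨fun h => hN.conj_mem a h x, fun h => ?_⟩
      have := hN.conj_mem _ h x⁻¹
      simpa [mul_assoc] using this
    have hsub : ∀ K : Subgroup G, K ≠ ⊤ → ∀ x y : K, x * y = y * x := by
      intro K hK
      refine ih (Nat.card K) ?_ K rfl (hG.subgroup K)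
      rw [← hn]
      exact Cfsg.Agent.Lib.Core.card_subgroup_lt (lt_top_iff_ne_top.mpr hK)
    by_cases hP : (P : Subgroup G) = ⊤
    · -- `G` is a `p`-group
      have hpg : IsPGroup p G := by
        intro g
        have hgP : g ∈ (P : Subgroup G) := by rw [hP]; trivial
        obtain ⟨k, hk⟩ := P.isPGroup' ⟨g, hgP⟩
        exact ⟨k, by simpa using congrArg Subtype.val hk⟩
      have hnil : Group.IsNilpotent G := hpg.isNilpotent
      let S : Set (Subgroup G) := {N | N.Normal ∧ IsMulCommutative N}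
      have hne : S.Nonempty := by
        refine ⟨⊥, inferInstance, ?_⟩
        exact ⟨⟨fun x y => Subsingleton.elim _ _⟩⟩
      obtain ⟨N, hN, hmax⟩ := (Set.toFinite S).exists_maximal hne
      have hNn := hN.1
      have hNc := hN.2
      have hC := Cfsg.Agent.Lib.Core.centralizer_eq_of_maximal_abelian_normal N
        (fun M hM hMc hle => le_antisymm (hmax ⟨hM, hMc⟩ hle) hle)
      have hall : ∀ x : G, x ∈ N := by
        intro x
        rw [← hC, Subgroup.mem_centralizer_iff]
        intro c hc
        exact (hG N hNc x (hconj N hNn x) c hc).symm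
      exact congrArg Subtype.val (hNc.is_comm.comm ⟨a, hall a⟩ ⟨b, hall b⟩)
    · have hPab : IsMulCommutative (P : Subgroup G) := ⟨⟨hsub _ hP⟩⟩
      have hPnc : Subgroup.normalizer (P : Set G) ≤ Subgroup.centralizer (P : Set G) := by
        intro x hx
        rw [Subgroup.mem_centralizer_iff]
        intro c hc
        refine (hG P hPab x (fun a => ?_) c hc).symm
        exact Subgroup.mem_normalizer_iff.mp hx a
      have hcompl := MonoidHom.ker_transferSylow_isComplement' P hPnc
      set K := (MonoidHom.transferSylow P hPnc).ker with hK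
      have hKn : K.Normal := MonoidHom.normal_ker _
      have hPne : (P : Subgroup G) ≠ ⊥ := P.ne_bot_of_dvd_card hpd
      have hKne : K ≠ ⊤ := by
        intro h
        have := hcompl.disjoint
        rw [h] at this
        exact hPne (by simpa using this)
      have hKab : IsMulCommutative K := ⟨⟨hsub K hKne⟩⟩
      have hKcen : ∀ x : G, ∀ k ∈ K, x * k = k * x := by
        intro x k hk
        exact hG K hKab x (hconj K hKn x) k hk
      have hsupt := hcompl.sup_eq_top
      have hfac : ∀ g : G, ∃ k ∈ K, ∃ q ∈ (P : Subgroup G), g = k * q := by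
        intro g
        have hg : g ∈ K ⊔ (P : Subgroup G) := by rw [hsupt]; trivial
        obtain ⟨k, hk, q, hq, rfl⟩ := Subgroup.mem_sup_of_normal_left.mp hg
        exact ⟨k, hk, q, hq, rfl⟩
      obtain ⟨k₁, hk₁, q₁, hq₁, rfl⟩ := hfac a
      obtain ⟨k₂, hk₂, q₂, hq₂, rfl⟩ := hfac b
      have h4 : q₁ * q₂ = q₂ * q₁ := congrArg Subtype.val (hsub P hP ⟨q₁, hq₁⟩ ⟨q₂, hq₂⟩)
      have h5 := hKcen q₁ k₂ hk₂
      have h6 := hKcen q₂ k₁ hk₁
      have h7 := hKcen k₂ k₁ hk₁
      calc k₁ * q₁ * (k₂ * q₂) = k₁ * (q₁ * k₂) * q₂ := by group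
        _ = k₁ * k₂ * (q₁ * q₂) := by rw [h5]; group
        _ = k₂ * k₁ * (q₂ * q₁) := by rw [h4, ← h7]
        _ = k₂ * (k₁ * q₂) * q₁ := by group
        _ = k₂ * q₂ * (k₁ * q₁) := by rw [← h6]; group

/-- If in a finite group the normalizer of each abelian subgroup coincides with its centralizer, then the group is abelian. -/
theorem result {G : Type*} [Group G] [Finite G] (h : ∀ A : Subgroup G, IsMulCommutative A → Subgroup.normalizer (A : Set G) = Subgroup.centralizer (A : Set G)) : IsMulCommutative G := by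
  refine ⟨⟨core _ G rfl ?_⟩⟩
  intro A hA x hx a ha
  have h1 : x ∈ Subgroup.normalizer (A : Set G) := Subgroup.mem_normalizer_iff.mpr hx
  rw [h A hA, Subgroup.mem_centralizer_iff] at h1
  exact (h1 a ha).symm

end Cfsg.Agent.S0578
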