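import Cfsg.Statements.S0580
import Mathlib
import Cfsg.Agent.Lib.Super.PrimeIndex

set_option autoImplicit false
open Cfsg

namespace Cfsg.Agent.S0580

/-- If every maximal subgroup of a finite group has prime index, then the group is solvable. -/
theorem result {G : Type*} [Group G] [Finite G] (h : ∀ M : Subgroup G, IsCoatom M → M.index.Prime) : Group.IsSolvable G := by
  exact Cfsg.Agent.Lib.Super.isSolvable_of_prime_index _ rfl h

end Cfsg.Agent.S0580
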