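import Cfsg.Statements.S0582
import Mathlib
import Cfsg.Agent.Lib.Super.PrimeIndex
import Cfsg.Agent.Lib.Super.Chain
import Cfsg.Agent.Lib.Core.Conj
import Cfsg.Agent.Lib.Core.Basic

set_option autoImplicit false
open Pointwise
open Cfsg

namespace Cfsg.Agent.S0582

universe u

open scoped Pointwise in
theorem core : ∀ (n : ℕ) (G : Type u) [Group G] [Finite G], Nat.card G = n → ∀ H K : Subgroup G,
    Cfsg.IsSupersolvable H → Cfsg.IsSupersolvable K → Nat.card H = Nat.card K →
    (Nat.card H).Coprime H.index → ∃ x : G, MulAut.conj x • H = K := by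
  intro n
  induction n using Nat.strong_induction_on with
  | _ n ih =>
    intro G _ _ hn H K hH hK hcard hHall
    by_cases h1 : Nat.card H = 1
    · refine ⟨1, ?_⟩
      have h2 := Subgroup.eq_bot_of_card_eq H h1
      have h3 := Subgroup.eq_bot_of_card_eq K (hcard ▸ h1)
      rw [h2, h3, Cfsg.Agent.Lib.Core.conj_one_smul]
    have hHc : 1 < Nat.card H := by
      have := Nat.card_pos (α := H)
      omega
    obtain ⟨p, hp, hpd, hmax⟩ := Cfsg.Agent.Lib.Super.exists_largest_prime hHc
    have hf : Fact p.Prime := ⟨hp⟩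
    obtain ⟨P₀⟩ : Nonempty (Sylow p H) := inferInstance
    obtain ⟨Q₀⟩ : Nonempty (Sylow p K) := inferInstance
    have hP₀n : (P₀ : Subgroup H).Normal := Cfsg.Agent.Lib.Super.sylow_normal_of_prime_index
      (fun M hM => Cfsg.Agent.Lib.Super.index_prime_of_ss' hH M hM) p hmax P₀
    have hQ₀n : (Q₀ : Subgroup K).Normal := Cfsg.Agent.Lib.Super.sylow_normal_of_prime_index
      (fun M hM => Cfsg.Agent.Lib.Super.index_prime_of_ss' hK M hM) p (by rwa [← hcard]) Q₀
    let A : Subgroup G := (P₀ : Subgroup H).map H.subtype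
    let B : Subgroup G := (Q₀ : Subgroup K).map K.subtype
    have hAH : A ≤ H := by
      rintro _ ⟨x, -, rfl⟩
      exact x.2
    have hBK : B ≤ K := by
      rintro _ ⟨x, -, rfl⟩
      exact x.2
    have hvG : (Nat.card G).factorization p = (Nat.card H).factorization p := by
      rw [← H.card_mul_index, Nat.factorization_mul (Nat.card_pos.ne') Subgroup.index_ne_zero_of_finite]
      have h3 : ¬ p ∣ H.index := fun h4 => by
        have := Nat.dvd_gcd hpd h4
        rw [hHall] at this
        exact hp.not_dvd_one this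
      simp [Nat.factorization_eq_zero_of_not_dvd h3]
    have cA : Nat.card A = p ^ (Nat.card G).factorization p := by
      rw [hvG, Subgroup.card_map_of_injective H.subtype_injective]
      exact P₀.card_eq_multiplicity
    have cB : Nat.card B = p ^ (Nat.card G).factorization p := by
      rw [hvG, hcard, Subgroup.card_map_of_injective K.subtype_injective]
      exact Q₀.card_eq_multiplicity
    let SA : Sylow p G := Sylow.ofCard A cA
    let SB : Sylow p G := Sylow.ofCard B cB
    obtain ⟨g, hg⟩ := MulAction.exists_smul_eq G SB SA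
    have hgAB : MulAut.conj g • B = A := by
      have h3 := congrArg (fun S : Sylow p G => (S : Subgroup G)) hg
      simp only [Sylow.coe_subgroup_smul] at h3
      simpa [SA, SB, Sylow.coe_ofCard] using h3
    let K₁ : Subgroup G := MulAut.conj g • K
    have hAK₁ : A ≤ K₁ := by
      rw [← hgAB]
      exact Cfsg.Agent.Lib.Core.conj_smul_le_conj_smul hBK
    have hK₁SS : Cfsg.IsSupersolvable K₁ :=
      Cfsg.Agent.Lib.Super.isSupersolvable_of_equiv (Subgroup.equivSMul (MulAut.conj g) K).symm hK
    have hcK₁ : Nat.card K₁ = Nat.card H := by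
      rw [hcard]
      exact Cfsg.Agent.Lib.Core.card_conj_smul g K
    let M : Subgroup G := Subgroup.normalizer (A : Set G)
    have hHM : H ≤ M := by
      intro h hh
      have h3 : (⟨h, hh⟩ : H) ∈ Subgroup.normalizer ((P₀ : Subgroup H) : Set H) := by
        rw [Subgroup.normalizer_eq_top_iff.mpr hP₀n]
        trivial
      exact Subgroup.le_normalizer_map H.subtype ⟨_, h3, rfl⟩
    have hKM : K₁ ≤ M := by
      intro y hy
      rw [Cfsg.Agent.Lib.Core.mem_conj_smul_iff] at hy
      have h3 : (⟨g⁻¹ * y * g, hy⟩ : K) ∈ Subgroup.normalizer ((Q₀ : Subgroup K) : Set K) := by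
        rw [Subgroup.normalizer_eq_top_iff.mpr hQ₀n]
        trivial
      have h4 : g⁻¹ * y * g ∈ Subgroup.normalizer (B : Set G) := Subgroup.le_normalizer_map K.subtype ⟨_, h3, rfl⟩
      apply Cfsg.Agent.Lib.Core.mem_normalizer_of_conj_smul_eq
      have h5 := Cfsg.Agent.Lib.Core.conj_smul_eq_self_of_mem_normalizer h4
      rw [← hgAB, Cfsg.Agent.Lib.Core.conj_smul_conj_smul]
      have h6 : y * g = g * (g⁻¹ * y * g) := by group
      rw [h6, ← Cfsg.Agent.Lib.Core.conj_smul_conj_smul, h5]
    let A' : Subgroup M := A.subgroupOf M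
    have hA'n : A'.Normal := Subgroup.normal_in_normalizer
    let π := QuotientGroup.mk' A'
    have hπ : Function.Surjective π := QuotientGroup.mk'_surjective A'
    let H' : Subgroup M := H.subgroupOf M
    let K' : Subgroup M := K₁.subgroupOf M
    have hkerH : π.ker ≤ H' := by
      rw [QuotientGroup.ker_mk']
      intro x hx
      exact hAH hx
    have hkerK : π.ker ≤ K' := by
      rw [QuotientGroup.ker_mk']
      intro x hx
      exact hAK₁ hx
    have hH'c : (H'.map π).comap π = H' := Subgroup.comap_map_eq_self hkerH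
    have hK'c : (K'.map π).comap π = K' := Subgroup.comap_map_eq_self hkerK
    have cH' : Nat.card H' = Nat.card H := Nat.card_congr (Subgroup.subgroupOfEquivOfLe hHM).toEquiv
    have cK' : Nat.card K' = Nat.card K₁ := Nat.card_congr (Subgroup.subgroupOfEquivOfLe hKM).toEquiv
    have hcH := Cfsg.Agent.Lib.Core.card_comap_of_surjective π hπ (H'.map π)
    have hcK := Cfsg.Agent.Lib.Core.card_comap_of_surjective π hπ (K'.map π)
    rw [hH'c, cH'] at hcH
    rw [hK'c, cK', hcK₁] at hcK
    have hc12 : Nat.card (H'.map π) = Nat.card (K'.map π) := by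
      have h3 : 0 < Nat.card π.ker := Nat.card_pos
      exact Nat.eq_of_mul_eq_mul_left h3 (hcH.symm.trans hcK)
    have hSS1 : Cfsg.IsSupersolvable (H'.map π) :=
      Cfsg.Agent.Lib.Super.isSupersolvable_of_surjective (π.subgroupMap_surjective H')
        (Cfsg.Agent.Lib.Super.isSupersolvable_of_equiv (Subgroup.subgroupOfEquivOfLe hHM) hH)
    have hSS2 : Cfsg.IsSupersolvable (K'.map π) :=
      Cfsg.Agent.Lib.Super.isSupersolvable_of_surjective (π.subgroupMap_surjective K')
        (Cfsg.Agent.Lib.Super.isSupersolvable_of_equiv (Subgroup.subgroupOfEquivOfLe hKM) hK₁SS)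
    have hcop : (Nat.card (H'.map π)).Coprime (H'.map π).index := by
      have h3 : (H'.map π).index = H'.index := by
        rw [← Subgroup.index_comap_of_surjective _ hπ, hH'c]
      rw [h3]
      have h4 : H'.index ∣ H.index := Subgroup.relIndex_dvd_index_of_le hHM
      have h5 : Nat.card (H'.map π) ∣ Nat.card H := ⟨Nat.card π.ker, by rw [hcH, mul_comm]⟩
      exact Nat.Coprime.coprime_dvd_left h5 (Nat.Coprime.coprime_dvd_right h4 hHall)
    have hlt : Nat.card (M ⧸ A') < n := by
      have h3 : Nat.card A' = Nat.card A :=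
        Nat.card_congr (Subgroup.subgroupOfEquivOfLe (Subgroup.le_normalizer)).toEquiv
      have h4 : 1 < Nat.card A := by
        rw [cA, hvG]
        exact Nat.one_lt_pow (hp.factorization_pos_of_dvd (Nat.card_pos.ne') hpd).ne' hp.one_lt
      have h5 := A'.card_mul_index
      have h6 : Nat.card (M ⧸ A') = A'.index := rfl
      have h7 : Nat.card M ≤ Nat.card G := Subgroup.card_le_card_group M
      rw [h6, ← hn]
      have h8 : 0 < A'.index := Nat.pos_of_ne_zero Subgroup.index_ne_zero_of_finite
      rw [h3] at h5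
      nlinarith
    obtain ⟨x, hx⟩ := ih _ hlt (M ⧸ A') rfl (H'.map π) (K'.map π) hSS1 hSS2 hc12 hcop
    obtain ⟨y, rfl⟩ := hπ x
    have hyH : MulAut.conj (y : G) • H ≤ K₁ := by
      intro z hz
      rw [Cfsg.Agent.Lib.Core.mem_conj_smul_iff] at hz
      have hzM : z ∈ M := by
        have h3 : z = (y : G) * ((y : G)⁻¹ * z * y) * (y : G)⁻¹ := by group
        rw [h3]
        exact M.mul_mem (M.mul_mem y.2 (hHM hz)) (M.inv_mem y.2)
      have h3 : (⟨(y : G)⁻¹ * z * y, hHM hz⟩ : M) ∈ H' := hz
      have h4 : π y * π ⟨(y : G)⁻¹ * z * y, hHM hz⟩ * (π y)⁻¹ ∈ MulAut.conj (π y) • H'.map π :=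
        Cfsg.Agent.Lib.Core.conj_mem_conj_smul (Subgroup.mem_map_of_mem _ h3)
      rw [hx] at h4
      have h5 : π y * π ⟨(y : G)⁻¹ * z * y, hHM hz⟩ * (π y)⁻¹ = π ⟨z, hzM⟩ := by
        rw [← map_inv, ← map_mul, ← map_mul]
        congr 1
        apply Subtype.ext
        simp only [Subgroup.coe_mul, Subgroup.coe_inv]
        group
      rw [h5] at h4
      have h6 : (⟨z, hzM⟩ : M) ∈ (K'.map π).comap π := h4
      rw [hK'c] at h6
      exact h6
    have hy2 : MulAut.conj (y : G) • H = K₁ := by
      apply Subgroup.eq_of_le_of_card_ge hyH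
      rw [hcK₁, Cfsg.Agent.Lib.Core.card_conj_smul]
    refine ⟨g⁻¹ * y, ?_⟩
    rw [← Cfsg.Agent.Lib.Core.conj_smul_conj_smul, hy2, Cfsg.Agent.Lib.Core.conj_inv_smul_conj_smul]

/-- Let H and K be supersolvable subgroups of a finite group G of the same order, that order being coprime to their index. Then H and K are conjugate in G. -/
theorem result {G : Type*} [Group G] [Finite G] (H K : Subgroup G) (hH : Cfsg.IsSupersolvable H) (hK : Cfsg.IsSupersolvable K) (hcard : Nat.card H = Nat.card K) (hHall : (Nat.card H).Coprime H.index) : ∃ x : G, MulAut.conj x • H = K := by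
  exact core _ G rfl H K hH hK hcard hHall

end Cfsg.Agent.S0582
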