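import Cfsg.Statements.S0586
import Mathlib
import Cfsg.Agent.Lib.Core.MinNormal
import Cfsg.Agent.Lib.Core.Solvable

set_option autoImplicit false
open Cfsg

namespace Cfsg.Agent.S0586

open scoped commutatorElement in
theorem commutator_le_of_coatom_normal {G : Type*} [Group G] (M : Subgroup G) [hMn : M.Normal] (hM : IsCoatom M) :
    commutator G ≤ M := by
  obtain ⟨x, hx⟩ : ∃ x, x ∉ M := by
    by_contra hcon
    push Not at hcon
    exact hM.1 (eq_top_iff.mpr fun y _ => hcon y)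
  have hsup : M ⊔ Subgroup.zpowers x = ⊤ := by
    apply hM.2
    refine lt_of_le_of_ne le_sup_left fun h => hx ?_
    rw [h]
    exact Subgroup.mem_sup_right (Subgroup.mem_zpowers x)
  let π := QuotientGroup.mk' M
  have hgen : ∀ a : G, ∃ k : ℤ, π a = π x ^ k := by
    intro a
    have ha : a ∈ M ⊔ Subgroup.zpowers x := by rw [hsup]; trivial
    obtain ⟨m, hm, y, hy, rfl⟩ := Subgroup.mem_sup_of_normal_left.mp ha
    obtain ⟨k, rfl⟩ := Subgroup.mem_zpowers_iff.mp hy
    refine ⟨k, ?_⟩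
    have h1 : π m = 1 := by simpa [π] using (QuotientGroup.eq_one_iff m).mpr hm
    rw [map_mul, h1, one_mul, map_zpow]
  change ⁅(⊤ : Subgroup G), (⊤ : Subgroup G)⁆ ≤ M
  rw [Subgroup.commutator_le]
  intro a _ b _
  obtain ⟨k, hk⟩ := hgen a
  obtain ⟨l, hl⟩ := hgen b
  have h1 : π ⁅a, b⁆ = 1 := by
    simp only [commutatorElement_def, map_mul, map_inv, hk, hl]
    have : Commute (π x ^ k) (π x ^ l) := (Commute.refl _).zpow_zpow k l
    rw [this.eq]
    group
  exact (QuotientGroup.eq_one_iff _).mp h1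

/-- If the Frattini subgroup of a finite group G is trivial, then the Fitting subgroup of G equals the join of all abelian minimal normal subgroups of G. -/
theorem result {G : Type*} [Group G] [Finite G] (hΦ : frattini G = ⊥) : Cfsg.fittingSubgroup G = sSup {N : Subgroup G | N.Normal ∧ N ≠ ⊥ ∧ IsMulCommutative N ∧ ∀ K : Subgroup G, K.Normal → K ≤ N → K = ⊥ ∨ K = N} := by
  classical
  set F := Cfsg.fittingSubgroup G with hF
  have hFn : F.Normal := Cfsg.Agent.Lib.Core.sSup_normal_of_forall (fun N hN => hN.1)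
  have hFnil : Group.IsNilpotent F := Cfsg.Agent.Lib.Core.isNilpotent_fittingSubgroup G
  have hΦF : frattini F = ⊥ := by
    have h1 := Cfsg.Agent.Lib.Core.map_frattini_normal_le F
    rw [hΦ, le_bot_iff, Subgroup.map_eq_bot_iff_of_injective _ F.subtype_injective] at h1
    exact h1
  have hcomm : commutator F = ⊥ := by
    rw [← le_bot_iff, ← hΦF]
    rw [show frattini F = ⨅ (M : Subgroup F) (_ : IsCoatom M), M from rfl]
    refine le_iInf₂ fun M hM => ?_
    have hMn : M.Normal := Subgroup.NormalizerCondition.normal_of_coatom M (normalizerCondition_of_isNilpotent (G := F)) hM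
    exact commutator_le_of_coatom_normal M hM
  have hFcomm : ∀ a ∈ F, ∀ b ∈ F, a * b = b * a := by
    intro a ha b hb
    have h1 := (Subgroup.commutator_mem_commutator (Subgroup.mem_top (⟨a, ha⟩ : F)) (Subgroup.mem_top (⟨b, hb⟩ : F)))
    change _ ∈ commutator F at h1
    rw [hcomm, Subgroup.mem_bot, commutatorElement_eq_one_iff_mul_comm] at h1
    exact congrArg Subtype.val h1
  set A := sSup {N : Subgroup G | N.Normal ∧ N ≠ ⊥ ∧ IsMulCommutative N ∧ ∀ K : Subgroup G, K.Normal → K ≤ N → K = ⊥ ∨ K = N} with hA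
  have hAn : A.Normal := Cfsg.Agent.Lib.Core.sSup_normal_of_forall (fun N hN => hN.1)
  have hAF : A ≤ F := by
    refine sSup_le fun N hN => ?_
    have h2 := hN.2.2.1
    exact Cfsg.Agent.Lib.Core.le_fittingSubgroup hN.1 (Cfsg.Agent.Lib.Core.isNilpotent_of_isMulCommutative N)
  have hAab : IsMulCommutative A :=
    ⟨⟨fun a b => Subtype.ext (hFcomm a (hAF a.2) b (hAF b.2))⟩⟩
  obtain ⟨H, hH⟩ := Cfsg.Agent.Lib.Core.exists_complement_of_frattini_eq_bot hΦ A hAab
  have hsup : A ⊔ H = ⊤ := hH.sup_eq_top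
  have hdisj := hH.disjoint
  have hfac : ∀ g : G, ∃ a ∈ A, ∃ h ∈ H, g = a * h := by
    intro g
    have hg : g ∈ A ⊔ H := by rw [hsup]; trivial
    obtain ⟨a, ha, h, hh, rfl⟩ := Subgroup.mem_sup_of_normal_left.mp hg
    exact ⟨a, ha, h, hh, rfl⟩
  have hDn : (F ⊓ H).Normal := by
    constructor
    rintro d ⟨hdF, hdH⟩ g
    obtain ⟨a, ha, h, hh, rfl⟩ := hfac g
    have h1 : h * d * h⁻¹ ∈ F := hFn.conj_mem d hdF h
    have h2 : h * d * h⁻¹ ∈ H := H.mul_mem (H.mul_mem hh hdH) (H.inv_mem hh)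
    have h3 : a * h * d * (a * h)⁻¹ = h * d * h⁻¹ := by
      have h4 := hFcomm a (hAF ha) _ h1
      calc a * h * d * (a * h)⁻¹ = a * (h * d * h⁻¹) * a⁻¹ := by group
        _ = h * d * h⁻¹ := by rw [h4]; group
    rw [h3]
    exact ⟨h1, h2⟩
  have hD : F ⊓ H = ⊥ := by
    by_contra hne
    obtain ⟨N, hNn, hN1, hNle, hNmin⟩ := Cfsg.Agent.Lib.Core.exists_minimal_normal_le hDn hne
    have hNF : N ≤ F := hNle.trans inf_le_left
    have hNab : IsMulCommutative N :=
      ⟨⟨fun a b => Subtype.ext (hFcomm a (hNF a.2) b (hNF b.2))⟩⟩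
    have hNA : N ≤ A := le_sSup ⟨hNn, hN1, hNab, hNmin⟩
    have hbot : N ≤ A ⊓ H := le_inf hNA (hNle.trans inf_le_right)
    rw [disjoint_iff.mp hdisj, le_bot_iff] at hbot
    exact hN1 hbot
  apply le_antisymm _ hAF
  intro x hx
  obtain ⟨a, ha, h, hh, rfl⟩ := hfac x
  have h1 : h ∈ F := by
    have := F.mul_mem (F.inv_mem (hAF ha)) hx
    simpa using this
  have h2 : h ∈ F ⊓ H := ⟨h1, hh⟩
  rw [hD, Subgroup.mem_bot] at h2
  rw [h2, mul_one]
  exact ha

end Cfsg.Agent.S0586
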