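import Cfsg.Statements.S0588
import Mathlib

set_option autoImplicit false
open Cfsg

namespace Cfsg.Agent.S0588

/-- If a subgroup H of a finite group G contains the centralizer of every non-identity element of H, then the order of H is coprime to its index. -/
theorem result {G : Type*} [Group G] [Finite G] (H : Subgroup G) (h : ∀ x ∈ H, x ≠ 1 → Subgroup.centralizer ({x} : Set G) ≤ H) : (Nat.card H).Coprime H.index := by
  classical
  apply Nat.Coprime.symm
  apply Nat.coprime_of_dvd
  intro p hp hpi hpH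
  haveI : Fact p.Prime := ⟨hp⟩
  -- a Sylow subgroup of `H` inside a Sylow subgroup of `G`
  obtain ⟨P₀⟩ : Nonempty (Sylow p H) := inferInstance
  have hP₀ : IsPGroup p ((P₀ : Subgroup H).map H.subtype) := P₀.isPGroup'.map H.subtype
  obtain ⟨S, hS⟩ := hP₀.exists_le_sylow
  have hne : (P₀ : Subgroup H) ≠ ⊥ := by
    intro hb
    have h1 := P₀.card_eq_multiplicity
    have h2 : Nat.card (P₀ : Subgroup H) = 1 := by
      rw [hb, Subgroup.card_bot]
    have h3 : (Nat.card H).factorization p ≠ 0 :=
      (hp.factorization_pos_of_dvd Nat.card_pos.ne' hpH).ne'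
    have h4 : p ^ (Nat.card H).factorization p = 1 := by
      rw [← h1]
      exact h2
    exact (Nat.one_lt_pow h3 hp.one_lt).ne' h4
  obtain ⟨⟨x, hxP⟩, hx1⟩ := Subgroup.ne_bot_iff_exists_ne_one.mp hne
  have hx1' : (x : G) ≠ 1 := fun h2 => hx1 (Subtype.ext (Subtype.ext h2))
  have hxH : (x : G) ∈ H := x.2
  have hxS : (x : G) ∈ (S : Subgroup G) := hS ⟨x, hxP, rfl⟩
  -- the centre of `S`
  have hSnt : Nontrivial (S : Subgroup G) := ⟨⟨⟨x, hxS⟩, 1, fun h2 => hx1' (congrArg Subtype.val h2)⟩⟩
  have hZ : Nontrivial (Subgroup.center (S : Subgroup G)) := S.isPGroup'.center_nontrivial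
  obtain ⟨z, hz⟩ := exists_ne (1 : Subgroup.center (S : Subgroup G))
  have hz1 : ((z : (S : Subgroup G)) : G) ≠ 1 := fun h2 => hz (Subtype.ext (Subtype.ext h2))
  have hzc : ∀ y ∈ (S : Subgroup G), y * (z : (S : Subgroup G)) = (z : (S : Subgroup G)) * y := by
    intro y hy
    have := Subgroup.mem_center_iff.mp z.2 ⟨y, hy⟩
    exact congrArg Subtype.val this
  have hzH : ((z : (S : Subgroup G)) : G) ∈ H := by
    apply h x hxH hx1'
    rw [Subgroup.mem_centralizer_singleton_iff]
    exact (hzc x hxS).symm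
  have hSH : (S : Subgroup G) ≤ H := by
    intro y hy
    apply h _ hzH hz1
    rw [Subgroup.mem_centralizer_singleton_iff]
    exact hzc y hy
  -- `S ≤ H` contradicts `p ∣ index`
  have h5 := Subgroup.index_dvd_of_le hSH
  exact S.not_dvd_index (hpi.trans h5)

end Cfsg.Agent.S0588
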