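import Cfsg.Statements.S0608
import Cfsg.Agent.Lib.PLocal.Factor
import Mathlib

set_option autoImplicit false
open Cfsg

namespace Cfsg.Agent.S0608

open Cfsg.Agent.Lib.PLocal

/-- With trivial p'-core, Thompson factorizability is equivalent to J(G) centralizing the subgroup generated by all Ω₁(Z(S)), S Sylow. -/
theorem result {G : Type*} [Group G] [Finite G] {p : ℕ} [Fact p.Prime] (hO : Cfsg.pPrimeCore p G = ⊥) : Cfsg.IsThompsonFactorizable p G ↔ Cfsg.thompsonSubgroup p G ≤ Subgroup.centralizer ((⨆ S : Sylow p G, Cfsg.omegaOne p (((S : Subgroup G)) ⊓ Subgroup.centralizer ((S : Subgroup G) : Set G)) : Subgroup G) : Set G) := by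
  exact thompsonFactorizable_iff hO

end Cfsg.Agent.S0608
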