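import Cfsg.Statements.S0626
import Cfsg.Agent.Lib.PLocal.NoSL2
import Mathlib

set_option autoImplicit false
open Cfsg

namespace Cfsg.Agent.S0626

/-- For odd p, groups whose Sylow 2-subgroups are abelian are p-stable in the action sense. -/
theorem result {G : Type*} [Group G] [Finite G] {p : ℕ} [Fact p.Prime] (hp : p ≠ 2) (hab : ∀ T : Sylow 2 G, IsMulCommutative T) : Cfsg.IsActionPStable p G := by
  exact Cfsg.Agent.Lib.PLocal.QuadMat.isActionPStable_of_noSL2 hp (Cfsg.Agent.Lib.PLocal.QuadMat.noSL2_of_comm_sylow hp hab)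

end Cfsg.Agent.S0626
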