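import Cfsg.Statements.S0628
import Cfsg.Agent.Lib.PLocal.GTMain
import Mathlib

set_option autoImplicit false
open Cfsg

namespace Cfsg.Agent.S0628

/-- The normal p-complement Theorem of Thompson in the form with W(S): for odd p, G has a normal p-complement as soon as the normalizer of the characteristic subgroup W(S) of a Sylow p-subgroup S has one. -/
theorem result {G : Type*} [Group G] [Finite G] {p : ℕ} [Fact p.Prime] (hp : p ≠ 2) (S : Sylow p G) (hN : Cfsg.HasNormalPComplement p ↥(Subgroup.normalizer (((Cfsg.stableNormalClosure p ↥(S : Subgroup G)).map (S : Subgroup G).subtype) : Set G))) : Cfsg.HasNormalPComplement p G := by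
  have h1 := (Cfsg.Agent.Lib.FrobThm.hasNormalPComplement_iff_pNil _).mp hN
  exact Cfsg.Agent.Lib.FrobThm.hasNormalPComplement_of_pNil_top (Cfsg.Agent.Lib.PLocal.GT.gt_stable hp S h1)

end Cfsg.Agent.S0628
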