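import Cfsg.Statements.S0633
import Cfsg.Agent.Lib.HHB.GroupRed

set_option autoImplicit false
open Cfsg

namespace Cfsg.Agent.S0633

open scoped TensorProduct
open Cfsg.Agent.Lib.HHB Cfsg.Agent.Lib.OddLocal Cfsg.Agent.Lib.PGroup.HH

/-- Theorem B of Hall and Higman on the minimal polynomial of a p-element of order p^n in a p-solvable linear group on a nonzero vector space in characteristic p with no nontrivial normal p-subgroup: its degree is p^n, except when some p^n₀ - 1 (n₀ ≤ n) is a power of a prime q for which the Sylow q-subgroups are non-abelian, in which case the degree is at least p^(n-n₀)(p^n₀ - 1). -/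
theorem result {F : Type*} [Field F] {p : ℕ} [Fact p.Prime] [CharP F p] {V : Type*} [AddCommGroup V] [Module F V] [FiniteDimensional F V] [Nontrivial V] (H : Subgroup (V ≃ₗ[F] V)) [Finite H] (hsol : Cfsg.IsPSolvable p H) (hOp : Cfsg.pCore p H = ⊥) (x : V ≃ₗ[F] V) (hx : x ∈ H) (n : ℕ) (hn : orderOf x = p ^ n) (r : ℕ) (hr : minpoly F (x : Module.End F V) = (Polynomial.X - 1) ^ r) : r = p ^ n ∨ ∃ n₀ q m : ℕ, 1 ≤ n₀ ∧ n₀ ≤ n ∧ q.Prime ∧ 1 ≤ m ∧ p ^ n₀ - 1 = q ^ m ∧ (∀ Q : Sylow q H, ¬ IsMulCommutative Q) ∧ p ^ (n - n₀) * (p ^ n₀ - 1) ≤ r := by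
  classical
  let ι : (V ≃ₗ[F] V) →* Module.End F V :=
    { toFun := fun g => (g : V →ₗ[F] V)
      map_one' := rfl
      map_mul' := fun _ _ => rfl }
  have hιinv : ∀ g : V ≃ₗ[F] V, ι g * ι g⁻¹ = 1 := by
    intro g
    rw [← map_mul, mul_inv_cancel, map_one]
  have hιinv' : ∀ g : V ≃ₗ[F] V, ι g⁻¹ * ι g = 1 := by
    intro g
    rw [← map_mul, inv_mul_cancel, map_one]
  have hιinj : Function.Injective ι := by
    intro a b hab
    apply LinearEquiv.toLinearMap_injective
    exact hab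
  set xE : Module.End F V := ι x with hxE
  have hgen : (xE - 1) ^ r = 0 := by
    have h1 := minpoly.aeval F xE
    have h2 : minpoly F xE = (Polynomial.X - 1) ^ r := hr
    rw [h2] at h1
    simpa using h1
  have hX1 : ¬ IsUnit (Polynomial.X - 1 : Polynomial F) := by
    intro h
    have h1 := Polynomial.degree_eq_zero_of_isUnit h
    have h2 : (Polynomial.X - 1 : Polynomial F) = Polynomial.X - Polynomial.C 1 := by simp
    rw [h2, Polynomial.degree_X_sub_C] at h1
    exact one_ne_zero h1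
  have hX0 : (Polynomial.X - 1 : Polynomial F) ≠ 0 := by
    intro h
    have h2 : (Polynomial.X - 1 : Polynomial F) = Polynomial.X - Polynomial.C 1 := by simp
    rw [h2] at h
    exact Polynomial.X_sub_C_ne_zero 1 h
  have hminr : ∀ k < r, (xE - 1) ^ k ≠ 0 := by
    intro k hk h0
    have h1 : minpoly F xE ∣ (Polynomial.X - 1) ^ k := minpoly.dvd F xE (by simpa using h0)
    have h2 : minpoly F xE = (Polynomial.X - 1) ^ r := hr
    rw [h2] at h1
    have h3 := (pow_dvd_pow_iff hX0 hX1).mp h1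
    omega
  rcases n with _ | n
  · left
    have hx1 : x = 1 := by simpa using hn
    have hxE1 : xE = 1 := by rw [hxE, hx1, map_one]
    rw [pow_zero]
    have hr0 : r ≠ 0 := by
      rintro rfl
      rw [pow_zero] at hgen
      exact one_ne_zero hgen
    have hr1 : ¬ 1 < r := fun h => hminr 1 h (by rw [hxE1, sub_self, pow_one])
    omega
  -- the group theory
  have hn' : orderOf (⟨x, hx⟩ : H) = p ^ (n + 1) := by
    rw [Subgroup.orderOf_mk, hn]
  obtain ⟨q, hq, hqp, Q, hQq, hQx, hQy, hQP⟩ := exists_red hsol hOp ⟨x, hx⟩ n hn'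
  set x' : H := ⟨x, hx⟩ with hx'
  haveI : Fact q.Prime := ⟨hq⟩
  -- the base change
  let K := AlgebraicClosure F
  let W := K ⊗[F] V
  let bc : Module.End F V →ₐ[F] Module.End K W := Module.End.baseChangeHom _ _ _
  have hbcinj : Function.Injective bc := LinearMap.baseChangeHom_injective F V K
  haveI : Nontrivial W := by
    by_contra hcon
    rw [not_nontrivial_iff_subsingleton] at hcon
    have h1 : bc 0 = bc 1 := by
      apply LinearMap.ext
      intro v
      exact Subsingleton.elim _ _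
    exact zero_ne_one (hbcinj h1)
  letI : Fintype Q := Fintype.ofFinite _
  let ρ : Q →* Module.End K W :=
    (bc.toRingHom.toMonoidHom).comp (ι.comp (H.subtype.comp Q.subtype))
  have hρ : ∀ g : Q, ρ g = bc (ι ((g : H) : V ≃ₗ[F] V)) := fun g => rfl
  have hρinj : Function.Injective ρ := by
    intro a b hab
    exact Subtype.ext (Subtype.ext (hιinj (hbcinj hab)))
  let X : Module.End K W := bc xE
  let Y : Module.End K W := bc (ι x⁻¹)
  have hXY : X * Y = 1 := by
    show bc (ι x) * bc (ι x⁻¹) = 1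
    rw [← map_mul, hιinv, map_one]
  have hYX : Y * X = 1 := by
    show bc (ι x⁻¹) * bc (ι x) = 1
    rw [← map_mul, hιinv', map_one]
  let τ : MulAut Q := conjOn Q x' hQx
  have hτit : ∀ (i : ℕ) (g : Q), (((τ ^ i) g : Q) : H) = x' ^ i * g * (x' ^ i)⁻¹ := by
    intro i g
    rw [mulAut_pow_apply]
    exact conjOn_iter Q x' hQx i g
  have hxp : x' ^ p ^ (n + 1) = 1 := by rw [← hn', pow_orderOf_eq_one]
  have hτn : τ ^ p ^ (n + 1) = 1 := by
    ext g
    rw [hτit, hxp]
    simp
  have hτ : ∀ g, X * ρ g * Y = ρ (τ g) := by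
    intro g
    rw [hρ]
    show bc (ι x) * bc (ι ((g : H) : V ≃ₗ[F] V)) * bc (ι x⁻¹) = bc (ι (((τ g : Q) : H) : V ≃ₗ[F] V))
    rw [← map_mul, ← map_mul, ← map_mul, ← map_mul]
    have : (((τ g : Q) : H) : V ≃ₗ[F] V) = x * ((g : H) : V ≃ₗ[F] V) * x⁻¹ := rfl
    rw [this]
  have hXn : X ^ p ^ (n + 1) = 1 := by
    show bc xE ^ p ^ (n + 1) = 1
    rw [← map_pow, hxE, ← map_pow]
    have : x ^ p ^ (n + 1) = 1 := by rw [← hn, pow_orderOf_eq_one]
    rw [this, map_one, map_one]
  have hP : ∀ g, (τ ^ p ^ (n + 1 - 1)) g = g → ∀ h, g * h = h * g := by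
    intro g hg h
    rw [Nat.add_sub_cancel] at hg
    have h1 := hτit (p ^ n) g
    rw [hg] at h1
    exact Subtype.ext (hQP g g.2 h1.symm h h.2)
  have hnt : ∃ g, ρ ((τ ^ p ^ (n + 1 - 1)) g) ≠ ρ g := by
    obtain ⟨g, hg, hgy⟩ := hQy
    refine ⟨⟨g, hg⟩, fun h => hgy ?_⟩
    have h1 := hρinj h
    rw [Nat.add_sub_cancel] at h1
    have h2 := hτit (p ^ n) ⟨g, hg⟩
    rw [h1] at h2
    exact h2.symm
  have hXsub : X - 1 = bc (xE - 1) := by
    rw [map_sub, map_one]
  have hs : (X - 1) ^ r = 0 := by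
    rw [hXsub, ← map_pow, hgen, map_zero]
  have hmin : ∀ k < r, (X - 1) ^ k ≠ 0 := by
    intro k hk h0
    rw [hXsub, ← map_pow] at h0
    exact hminr k hk (hbcinj (by rw [h0, map_zero]))
  have hqK : (q : K) ≠ 0 := by
    intro h0
    rw [CharP.cast_eq_zero_iff K p q] at h0
    exact hqp ((Nat.prime_dvd_prime_iff_eq Fact.out hq).mp h0).symm
  rcases hhb_core (p := p) (q := q) hQq hqK ρ X Y hXY hYX τ (Nat.succ_pos n) hXn hτn hτ hP hnt r hs hmin with h | h
  · exact Or.inl h
  · obtain ⟨n₀, b, h1, h2, h3, h4, ⟨a, c, hac⟩, h6⟩ := h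
    refine Or.inr ⟨n₀, q, b, h1, h2, hq, h3, h4, ?_, h6⟩
    intro S hS
    obtain ⟨P, hP'⟩ := IsPGroup.exists_le_sylow hQq
    let e := Sylow.equiv P S
    have hcomm : ∀ u v : (S : Subgroup H), u * v = v * u := fun u v => hS.is_comm.comm u v
    have hPc : ∀ u v : (P : Subgroup H), u * v = v * u := by
      intro u v
      apply e.injective
      rw [map_mul, map_mul, hcomm]
    apply hac
    have h7 := hPc ⟨a, hP' a.2⟩ ⟨c, hP' c.2⟩
    have h8 : (a : H) * c = c * a := congrArg Subtype.val h7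
    exact Subtype.ext h8

end Cfsg.Agent.S0633
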