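import Cfsg.Statements.S0635
import Cfsg.Agent.Lib.PLocal.PSeries
import Mathlib

set_option autoImplicit false
open Cfsg

namespace Cfsg.Agent.S0635

open Cfsg.Agent.Lib.PLocal

/-- The p-length of a p-soluble group is at most the nilpotency class of its Sylow p-subgroups. -/
theorem result {G : Type*} [Group G] [Finite G] {p : ℕ} [Fact p.Prime] (hsol : Cfsg.IsPSolvable p G) (S : Sylow p G) : Cfsg.PLengthLE p (Group.nilpotencyClass ↥(S : Subgroup G)) G := by
  exact plength_le_class _ G (Cfsg.Agent.Lib.PSolv.pStep_of_isPSolvable Fact.out hsol) S le_rfl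

end Cfsg.Agent.S0635
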