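import Cfsg.Statements.S0641
import Cfsg.Agent.Lib.PLocal.Regular
import Mathlib

set_option autoImplicit false
open Cfsg

namespace Cfsg.Agent.S0641

open Cfsg.Agent.Lib.PLocal

/-- Regularity of a p-group passes to quotient groups. -/
theorem result {G : Type*} [Group G] {p : ℕ} [Fact p.Prime] (hG : Cfsg.IsRegularPGroup p G) (N : Subgroup G) [N.Normal] : Cfsg.IsRegularPGroup p (G ⧸ N) := by
  exact regular_of_surjective hG (QuotientGroup.mk' N) (QuotientGroup.mk'_surjective N)

end Cfsg.Agent.S0641
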