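import Cfsg.Statements.S0657
import Cfsg.Agent.Lib.PLocal.NoSL2b
import Mathlib

set_option autoImplicit false
open Cfsg

namespace Cfsg.Agent.S0657

/-- For odd p, a group that fails to be p-stable modulo its largest normal subgroup of order prime to p, and whose upper p-series does not stop there, has a section isomorphic to SL(2, p). -/
theorem result {G : Type*} [Group G] [Finite G] {p : ℕ} [Fact p.Prime] (hp : p ≠ 2) (hO : Cfsg.pPrimeCore p G < Cfsg.pPrimePCore p G) (hns : ¬ Cfsg.IsPStable p (G ⧸ Cfsg.pPrimeCore p G)) : ∃ (K L : Subgroup G) (hL : (L.subgroupOf K).Normal), K ≤ ⊤ ∧ Nonempty ((K ⧸ L.subgroupOf K) ≃* Matrix.SpecialLinearGroup (Fin 2) (ZMod p)) := by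
  by_contra hcon
  push Not at hcon
  have hS : Cfsg.Agent.Lib.PLocal.QuadMat.NoSL2 p G := fun K L hL => hcon K L hL le_top
  apply hns
  refine Cfsg.Agent.Lib.PLocal.QuadMat.isPStable_of_noSL2 hp (hS.quotient _) ?_
  intro hbot
  apply hO.not_ge
  intro g hg
  have h1 : (QuotientGroup.mk' (Cfsg.pPrimeCore p G)) g ∈ Cfsg.pCore p (G ⧸ Cfsg.pPrimeCore p G) := hg
  rw [hbot, Subgroup.mem_bot] at h1
  exact (QuotientGroup.eq_one_iff g).mp h1

end Cfsg.Agent.S0657
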