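import Cfsg.Statements.S0668
import Mathlib

set_option autoImplicit false
open Cfsg

namespace Cfsg.Agent.S0668

/-- The equivariant linear maps between the permutation modules of two finite `G`-sets form a space whose dimension is the number of `G`-orbits on the product of the two sets. -/
theorem result {G : Type*} [Group G] {K : Type*} [Field K] {Ω₁ Ω₂ : Type*} [Fintype Ω₁] [Fintype Ω₂] [MulAction G Ω₁] [MulAction G Ω₂] : Module.finrank K ((Cfsg.permRep K G Ω₁).linHom (Cfsg.permRep K G Ω₂)).invariants = Nat.card (MulAction.orbitRel.Quotient G (Ω₁ × Ω₂)) := by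
  classical
  letI : Fintype (MulAction.orbitRel.Quotient G (Ω₁ × Ω₂)) := Fintype.ofFinite _
  let mk : Ω₁ × Ω₂ → MulAction.orbitRel.Quotient G (Ω₁ × Ω₂) := fun z => Quotient.mk'' z
  have hmk : ∀ (g : G) (z : Ω₁ × Ω₂), mk (g • z) = mk z := by
    intro g z
    apply Quotient.sound'
    exact ⟨g, rfl⟩
  -- the operator attached to a function on the orbits
  let Top : (MulAction.orbitRel.Quotient G (Ω₁ × Ω₂) → K) → ((Ω₁ → K) →ₗ[K] (Ω₂ → K)) := fun φ =>
    { toFun := fun f y => ∑ x, φ (mk (x, y)) * f x
      map_add' := by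
        intro f h
        funext y
        simp only [Pi.add_apply, mul_add, Finset.sum_add_distrib]
      map_smul' := by
        intro c f
        funext y
        simp only [Pi.smul_apply, smul_eq_mul, RingHom.id_apply, Finset.mul_sum]
        apply Finset.sum_congr rfl
        intro x _
        ring }
  have hTop : ∀ φ f y, Top φ f y = ∑ x, φ (mk (x, y)) * f x := fun _ _ _ => rfl
  have hinv : ∀ φ, Top φ ∈ ((Cfsg.permRep K G Ω₁).linHom (Cfsg.permRep K G Ω₂)).invariants := by
    intro φ g
    apply LinearMap.ext
    intro f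
    funext y
    rw [Representation.linHom_apply]
    change Top φ (Cfsg.permRep K G Ω₁ g⁻¹ f) (g⁻¹ • y) = Top φ f y
    rw [hTop, hTop]
    apply Fintype.sum_equiv (MulAction.toPerm g)
    intro x
    have h1 : Cfsg.permRep K G Ω₁ g⁻¹ f x = f (g • x) := by
      change f (g⁻¹⁻¹ • x) = f (g • x)
      rw [inv_inv]
    rw [h1]
    congr 1
    rw [← hmk g (x, g⁻¹ • y)]
    simp
  let Φ : (MulAction.orbitRel.Quotient G (Ω₁ × Ω₂) → K) →ₗ[K]
      ((Cfsg.permRep K G Ω₁).linHom (Cfsg.permRep K G Ω₂)).invariants :=
    { toFun := fun φ => ⟨Top φ, hinv φ⟩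
      map_add' := by
        intro φ ψ
        apply Subtype.ext
        apply LinearMap.ext
        intro f
        funext y
        change ∑ x, (φ (mk (x, y)) + ψ (mk (x, y))) * f x = _
        simp only [add_mul, Finset.sum_add_distrib]
        rfl
      map_smul' := by
        intro c φ
        apply Subtype.ext
        apply LinearMap.ext
        intro f
        funext y
        change ∑ x, (c * φ (mk (x, y))) * f x = c * ∑ x, φ (mk (x, y)) * f x
        rw [Finset.mul_sum]
        apply Finset.sum_congr rfl
        intro x _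
        ring }
  -- delta functions
  let δ : Ω₁ → Ω₁ → K := fun x z => if z = x then 1 else 0
  have hTδ : ∀ φ x y, Top φ (δ x) y = φ (mk (x, y)) := by
    intro φ x y
    rw [hTop]
    simp [δ]
  have hinj : Function.Injective Φ := by
    rw [injective_iff_map_eq_zero Φ]
    intro φ hφ
    funext q
    induction q using Quotient.inductionOn' with
    | h z =>
      obtain ⟨x, y⟩ := z
      have h1 : Top φ = 0 := congrArg Subtype.val hφ
      have h2 := hTδ φ x y
      rw [h1] at h2
      exact h2.symm
  have hsurj : Function.Surjective Φ := by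
    rintro ⟨T, hT⟩
    let M : Ω₁ × Ω₂ → K := fun z => T (δ z.1) z.2
    have hM : ∀ (g : G) (z : Ω₁ × Ω₂), M (g • z) = M z := by
      rintro g ⟨x, y⟩
      have h1 := hT g
      rw [Representation.linHom_apply] at h1
      have h2 := congrArg (fun S : (Ω₁ → K) →ₗ[K] (Ω₂ → K) => S (δ (g • x)) (g • y)) h1
      have h3 : Cfsg.permRep K G Ω₁ g⁻¹ (δ (g • x)) = δ x := by
        funext z
        change (if g⁻¹⁻¹ • z = g • x then (1 : K) else 0) = if z = x then 1 else 0
        simp
      simp only [LinearMap.comp_apply, h3] at h2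
      have h4 : Cfsg.permRep K G Ω₂ g (T (δ x)) (g • y) = T (δ x) y := by
        change T (δ x) (g⁻¹ • g • y) = T (δ x) y
        rw [inv_smul_smul]
      rw [h4] at h2
      exact h2.symm
    refine ⟨fun q => Quotient.liftOn' q M (by
      rintro z z' ⟨g, rfl⟩
      exact hM g z'), ?_⟩
    apply Subtype.ext
    apply LinearMap.ext
    intro f
    funext y
    change ∑ x, M (x, y) * f x = T f y
    have hf : f = ∑ x, f x • δ x := by
      funext z
      simp [δ, Finset.sum_apply]
    conv_rhs => rw [hf]
    rw [map_sum]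
    simp only [Finset.sum_apply, map_smul, Pi.smul_apply, smul_eq_mul]
    apply Finset.sum_congr rfl
    intro x _
    exact mul_comm _ _
  let E := LinearEquiv.ofBijective Φ ⟨hinj, hsurj⟩
  rw [← E.finrank_eq, Module.finrank_fintype_fun_eq_card, Nat.card_eq_fintype_card]

end Cfsg.Agent.S0668
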