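import Cfsg.Statements.S0677
import Mathlib
import Cfsg.Agent.Lib.Perm.PrimeAffine
import Cfsg.Agent.Lib.Perm.Basic

set_option autoImplicit false
open Cfsg

namespace Cfsg.Agent.S0677

open MulAction Cfsg.Agent.Lib.Perm
open scoped Pointwise


section Aux

variable {α : Type*} [Fintype α] [DecidableEq α] {p : ℕ} [hp : Fact p.Prime]

/-- The affine case: a subgroup of order prime to `p` fixes a point. -/
theorem fixed_of_affine (hα : Fintype.card α = p) (G : Subgroup (Equiv.Perm α)) (e : ZMod p ≃ α)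
    (haff : ∀ g : G, ∃ a b : ZMod p, ∀ j, toZ e (g : Equiv.Perm α) j = a * j + b)
    (H : Subgroup G) (hH : ¬ p ∣ Nat.card H) : ∃ b : α, ∀ h ∈ H, h • b = b := by
  classical
  obtain ⟨ψ, b, hψ⟩ := exists_affine_hom e G haff
  have hinj : Function.Injective (ψ.comp H.subtype) := by
    rw [injective_iff_map_eq_one]
    intro h hh
    have h1 : ψ (h : G) = 1 := hh
    have htr : ∀ j, toZ e ((h : G) : Equiv.Perm α) j = j + b h := by
      intro j
      rw [hψ, h1]
      simp
    -- powers are translations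
    have hpow : ∀ (n : ℕ) j, toZ e (((h : G) : Equiv.Perm α) ^ n) j = j + n * b h := by
      intro n
      induction n with
      | zero => simp [toZ_apply]
      | succ n ih =>
        intro j
        rw [pow_succ, toZ_mul, Equiv.Perm.mul_apply, htr, ih]
        push_cast
        ring
    have hpp : h ^ p = 1 := by
      apply Subtype.ext
      apply Subtype.ext
      ext z
      obtain ⟨j, rfl⟩ := e.surjective z
      have h3 := hpow p j
      simp only [CharP.cast_eq_zero, zero_mul, add_zero, toZ_apply] at h3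
      rw [Equiv.symm_apply_eq] at h3
      simpa using h3
    have h4 : orderOf h ∣ p := orderOf_dvd_of_pow_eq_one hpp
    rcases (Nat.dvd_prime hp.out).mp h4 with h5 | h5
    · exact orderOf_eq_one_iff.mp h5
    · exfalso
      apply hH
      rw [← h5]
      exact orderOf_dvd_natCard h
  haveI : IsCyclic H := isCyclic_of_injective _ hinj
  obtain ⟨h₀, hh₀⟩ := IsCyclic.exists_generator (α := H)
  -- the generator has a fixed point
  obtain ⟨j₀, hj₀⟩ : ∃ j₀, toZ e ((h₀ : G) : Equiv.Perm α) j₀ = j₀ := by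
    by_cases h1 : ψ (h₀ : G) = 1
    · have h2 : h₀ = 1 := hinj (by simpa using h1)
      exact ⟨0, by simp [h2, toZ_apply]⟩
    · have h3 : ((ψ (h₀ : G) : (ZMod p)ˣ) : ZMod p) - 1 ≠ 0 := by
        intro h4
        apply h1
        apply Units.ext
        simpa using sub_eq_zero.mp h4
      refine ⟨- b h₀ / ((ψ (h₀ : G) : (ZMod p)ˣ) - 1), ?_⟩
      rw [hψ]
      field_simp
      ring
  refine ⟨e j₀, fun h hh => ?_⟩
  obtain ⟨n, hn⟩ := hh₀ ⟨h, hh⟩
  have hfix : ((h₀ : G) : Equiv.Perm α) (e j₀) = e j₀ := by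
    rw [toZ_apply, Equiv.symm_apply_eq] at hj₀
    exact hj₀
  have h5 : h = ((h₀ ^ n : H) : G) := by
    have := congrArg Subtype.val hn
    simpa using this.symm
  rw [h5]
  have h6 : ((h₀ ^ n : H) : G) = (h₀ : G) ^ n := by simp
  rw [h6]
  change (((h₀ : G) ^ n : G) : Equiv.Perm α) (e j₀) = e j₀
  rw [Subgroup.coe_zpow]
  have h7 := Equiv.Perm.zpow_apply_eq_self_of_apply_eq_self hfix n
  exact h7

theorem zpowers_of_involution {Γ : Type*} [Group Γ] (y : Γ) (hy : y * y = 1) (g : Γ)
    (hg : g ∈ Subgroup.zpowers y) : g = 1 ∨ g = y := by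
  obtain ⟨n, rfl⟩ := hg
  rcases Int.even_or_odd' n with ⟨k, rfl | rfl⟩
  · left
    simp only
    rw [zpow_mul, zpow_two, hy, one_zpow]
  · right
    simp only
    rw [zpow_add_one, zpow_mul, zpow_two, hy, one_zpow, one_mul]

/-- Parity of fixed points for an involution with a unique fixed point. -/
theorem parity_of_involution {Γ Q : Type*} [Group Γ] [Finite Q] [MulAction Γ Q] (y : Γ)
    (hy : y * y = 1) (hy1 : y ≠ 1) (c₀ : Q) (hc₀ : ∀ c, y • c = c ↔ c = c₀) (S : Set Q)
    (hS : ∀ c ∈ S, y • c ∈ S) : Odd S.ncard ↔ c₀ ∈ S := by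
  classical
  have hord : orderOf y = 2 := orderOf_eq_prime (by rw [sq, hy]) hy1
  haveI : Fact (Nat.Prime 2) := ⟨Nat.prime_two⟩
  have hP : IsPGroup 2 (Subgroup.zpowers y) := by
    apply IsPGroup.of_card (n := 1)
    rw [Nat.card_zpowers, hord, pow_one]
  have h1 := ncard_modEq_ncard_inter_fixedPoints (Subgroup.zpowers y) hP S (by
    intro g hg c hc
    rcases zpowers_of_involution y hy g hg with rfl | rfl
    · simpa using hc
    · exact hS c hc)
  have h3 : ∀ c, c ∈ fixedPoints (Subgroup.zpowers y) Q ↔ c = c₀ := by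
    intro c
    rw [← hc₀ c]
    constructor
    · intro h
      exact h ⟨y, Subgroup.mem_zpowers y⟩
    · intro h g
      rcases zpowers_of_involution y hy g.1 g.2 with h4 | h4
      · change (g : Γ) • c = c
        rw [h4, one_smul]
      · change (g : Γ) • c = c
        rw [h4, h]
  by_cases h5 : c₀ ∈ S
  · have h2 : S ∩ fixedPoints (Subgroup.zpowers y) Q = {c₀} := by
      ext c
      rw [Set.mem_inter_iff, h3, Set.mem_singleton_iff]
      constructor
      · rintro ⟨-, rfl⟩
        rfl
      · rintro rfl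
        exact ⟨h5, rfl⟩
    rw [h2, Set.ncard_singleton] at h1
    simp only [h5, iff_true]
    rw [Nat.odd_iff]
    exact h1
  · have h2 : S ∩ fixedPoints (Subgroup.zpowers y) Q = ∅ := by
      ext c
      rw [Set.mem_inter_iff, h3]
      constructor
      · rintro ⟨h6, rfl⟩
        exact absurd h6 h5
      · intro h6
        exact absurd h6 (Set.notMem_empty c)
    rw [h2, Set.ncard_empty] at h1
    simp only [h5, iff_false]
    rw [Nat.not_odd_iff]
    exact h1

/-- The doubly transitive case. -/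
theorem fixed_of_two_trans (hα : Fintype.card α = p) (hp2 : p ≠ 2) (G : Subgroup (Equiv.Perm α))
    (P : Sylow p G) (x : G) (e : ZMod p ≃ α) (hzp : (P : Subgroup G) = Subgroup.zpowers x)
    (hxord : orderOf x = p) (hx : ∀ j, (x : Equiv.Perm α) (e j) = e (j + 1)) (y : G)
    (hye : ∀ k, (y : Equiv.Perm α) (e k) = e (-k)) (h2 : IsMultiplyPretransitive G α 2)
    (H : Subgroup G) (hH : H.index = p) (hHp : ¬ p ∣ Nat.card H) :
    ∃ b : α, ∀ h ∈ H, h • b = b := by
  classical
  have hpp := hp.out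
  obtain ⟨a⟩ : Nonempty α := by
    rw [← Fintype.card_pos_iff, hα]; exact hpp.pos
  have hQcard : Nat.card (G ⧸ H) = p := hH
  have htrP : IsPretransitive P (G ⧸ H) :=
    sylow_isPretransitive (p := p) (f := 1) (by rw [hQcard, pow_one]) P
  have hxtr : ∀ c c' : G ⧸ H, ∃ n : ℤ, x ^ n • c = c' := by
    intro c c'
    obtain ⟨g, hg⟩ := exists_smul_eq P c c'
    have hg2 : (g : G) ∈ Subgroup.zpowers x := hzp ▸ g.2
    obtain ⟨n, hn⟩ := hg2
    refine ⟨n, ?_⟩
    have hn' : x ^ n = (g : G) := hn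
    rw [hn']
    exact hg
  have hfree : ∀ (c : G ⧸ H) (m : ℤ), x ^ m • c = c → x ^ m = 1 := by
    intro c m hm
    by_contra hne
    have hord : orderOf (x ^ m) = p := by
      have h1 : (x ^ m) ^ p = 1 := by
        rw [← zpow_natCast, ← zpow_mul, mul_comm, zpow_mul, zpow_natCast, ← hxord,
          pow_orderOf_eq_one, one_zpow]
      exact orderOf_eq_prime h1 hne
    have h1 : orderOf (⟨x ^ m, hm⟩ : stabilizer G c) = p := by
      rw [← Subgroup.orderOf_coe]
      exact hord
    have h2 : p ∣ Nat.card (stabilizer G c) := h1 ▸ orderOf_dvd_natCard _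
    have h3 : Nat.card (stabilizer G c) = Nat.card H := by
      have i1 : (stabilizer G c).index = p := by
        rw [index_stabilizer_of_transitive, hQcard]
      have a1 := (stabilizer G c).card_mul_index
      have a2 := H.card_mul_index
      rw [i1] at a1
      rw [hH] at a2
      exact Nat.eq_of_mul_eq_mul_right hpp.pos (a1.trans a2.symm)
    exact hHp (h3 ▸ h2)
  have hsq : y * y = 1 := by
    apply Subtype.ext
    ext z
    obtain ⟨k, rfl⟩ := e.surjective z
    simp [hye]
  have hyinv : y⁻¹ = y := inv_eq_of_mul_eq_one_left hsq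
  have h2zmod := Cfsg.Agent.Lib.Perm.two_ne_zero_zmod hp2
  have hy1 : y ≠ 1 := by
    rintro rfl
    have h3 := hye 1
    have h4 : (1 : ZMod p) = -1 := e.injective (by simpa using h3)
    apply h2zmod
    linear_combination h4
  have hyx : y * x * y⁻¹ = x⁻¹ := by
    apply Subtype.ext
    ext z
    obtain ⟨k, rfl⟩ := e.surjective z
    rw [hyinv]
    have h5 : ((x⁻¹ : G) : Equiv.Perm α) (e k) = e (k - 1) := by
      have h4 := hx (k - 1)
      rw [sub_add_cancel] at h4
      rw [← h4]
      simp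
    rw [h5]
    change (y : Equiv.Perm α) ((x : Equiv.Perm α) ((y : Equiv.Perm α) (e k))) = e (k - 1)
    rw [hye, hx, hye]
    congr 1
    ring
  have hyzpow : ∀ m : ℤ, y * x ^ m = x ^ (-m) * y := by
    intro m
    have h1 : y * x ^ m * y⁻¹ = (x⁻¹) ^ m := by
      rw [← hyx, conj_zpow]
    rw [inv_zpow', hyinv] at h1
    rw [← h1, mul_assoc, hsq, mul_one]
  obtain ⟨c₁, hc₁⟩ : ∃ c₁ : G ⧸ H, c₁ = ((1 : G) : G ⧸ H) := ⟨_, rfl⟩
  obtain ⟨c₀, hc₀⟩ : ∃ c₀ : G ⧸ H, y • c₀ = c₀ := by
    obtain ⟨n, hn⟩ := hxtr c₁ (y • c₁)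
    obtain ⟨k, hk⟩ : ∃ k : ℤ, x ^ (2 * k) = x ^ n := by
      rcases Int.even_or_odd' n with ⟨k, rfl | rfl⟩
      · exact ⟨k, rfl⟩
      · have hodd : Odd p := hpp.odd_of_ne_two hp2
        obtain ⟨l, hl⟩ := hodd
        refine ⟨k + l + 1, ?_⟩
        have h3 : 2 * (k + l + 1) = (2 * k + 1) + (p : ℤ) := by
          rw [hl]; push_cast; ring
        rw [h3, zpow_add, zpow_natCast, ← hxord, pow_orderOf_eq_one, mul_one]
    refine ⟨x ^ k • c₁, ?_⟩
    rw [smul_smul, hyzpow, mul_smul, ← hn, ← hk, smul_smul, ← zpow_add]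
    congr 2
    ring
  have hc₀u : ∀ c, y • c = c ↔ c = c₀ := by
    intro c
    constructor
    · intro hc
      obtain ⟨m, hm⟩ := hxtr c₀ c
      have h3 : x ^ (-m) • c₀ = x ^ m • c₀ := by
        calc x ^ (-m) • c₀ = x ^ (-m) • (y • c₀) := by rw [hc₀]
          _ = (y * x ^ m) • c₀ := by rw [hyzpow, mul_smul]
          _ = y • (x ^ m • c₀) := by rw [mul_smul]
          _ = x ^ m • c₀ := by rw [hm, hc]
      have h4 : x ^ (2 * m) • c₀ = c₀ := by
        rw [two_mul, zpow_add, mul_smul, ← h3, smul_smul, ← zpow_add, add_neg_cancel, zpow_zero,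
          one_smul]
      have h6 := hfree c₀ _ h4
      rw [← orderOf_dvd_iff_zpow_eq_one, hxord] at h6
      have h7 : (p : ℤ) ∣ m := by
        rcases Int.Prime.dvd_mul' hpp h6 with h8 | h8
        · exfalso
          have h9 : p ∣ 2 := by exact_mod_cast h8
          exact hp2 ((Nat.prime_dvd_prime_iff_eq hpp Nat.prime_two).mp h9)
        · exact h8
      have h10 : x ^ m = 1 := by
        rw [← orderOf_dvd_iff_zpow_eq_one, hxord]
        exact h7
      rw [← hm, h10, one_smul]
    · rintro rfl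
      exact hc₀
  let R : (G ⧸ H) → α → Prop := fun c b => ∃ g : G, g • c₁ = c ∧ g • a = b
  have hR : ∀ (g : G) c b, R (g • c) (g • b) ↔ R c b := by
    intro g c b
    constructor
    · rintro ⟨g', h1, h3⟩
      refine ⟨g⁻¹ * g', ?_, ?_⟩
      · rw [mul_smul, h1, inv_smul_smul]
      · rw [mul_smul, h3, inv_smul_smul]
    · rintro ⟨g', h1, h3⟩
      exact ⟨g * g', by rw [mul_smul, h1], by rw [mul_smul, h3]⟩
  let S : α → α → Set (G ⧸ H) := fun u v => {c | R c u ∧ R c v}
  have hconst : ∀ u v u' v', u ≠ v → u' ≠ v' → (S u v).ncard = (S u' v').ncard := by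
    intro u v u' v' huv huv'
    obtain ⟨g, hg1, hg2⟩ := two_trans_apply h2 u v u' v' huv huv'
    have h3 : S u' v' = (fun c => g • c) '' S u v := by
      ext c
      constructor
      · rintro ⟨h4, h5⟩
        refine ⟨g⁻¹ • c, ⟨?_, ?_⟩, smul_inv_smul g c⟩
        · rw [← hR g, smul_inv_smul, hg1]; exact h4
        · rw [← hR g, smul_inv_smul, hg2]; exact h5
      · rintro ⟨c', ⟨h4, h5⟩, rfl⟩
        exact ⟨by rw [← hg1]; exact (hR g c' u).mpr h4, by rw [← hg2]; exact (hR g c' v).mpr h5⟩
    rw [h3, Set.ncard_image_of_injective _ (MulAction.injective g)]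
  have hpar : ∀ z : ZMod p, z ≠ 0 → (Odd (S (e z) (e (-z))).ncard ↔ R c₀ (e z)) := by
    intro z hz
    have hyz1 : y • e z = e (-z) := hye z
    have hyz2 : y • e (-z) = e z := by
      have := hye (-z)
      rwa [neg_neg] at this
    have hrz : R c₀ (e z) ↔ R c₀ (e (-z)) := by
      conv_rhs => rw [← hc₀, ← hyz1]
      exact (hR y c₀ (e z)).symm
    rw [parity_of_involution y hsq hy1 c₀ hc₀u (S (e z) (e (-z)))]
    · exact ⟨fun h => h.1, fun h => ⟨h, hrz.mp h⟩⟩
    · rintro c ⟨h4, h5⟩
      exact ⟨by rw [← hyz2]; exact (hR y c (e (-z))).mpr h5,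
        by rw [← hyz1]; exact (hR y c (e z)).mpr h4⟩
  have hneg : ∀ z : ZMod p, z ≠ 0 → e z ≠ e (-z) := by
    intro z hz h3
    have h4 : z = -z := e.injective h3
    have h5 : 2 * z = 0 := by linear_combination h4
    exact hz ((mul_eq_zero.mp h5).resolve_left h2zmod)
  have hdich : ∀ z z', z ≠ 0 → z' ≠ 0 → (R c₀ (e z) ↔ R c₀ (e z')) := by
    intro z z' hz hz'
    rw [← hpar z hz, ← hpar z' hz', hconst (e z) (e (-z)) (e z') (e (-z')) (hneg z hz) (hneg z' hz')]
  obtain ⟨g₀, hg₀⟩ := exists_smul_eq G c₁ c₀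
  have hRa : R c₀ (g₀ • a) := ⟨g₀, hg₀, rfl⟩
  have hstab : ∀ g : G, g • c₁ = c₁ ↔ g ∈ H := by
    intro g
    rw [hc₁]
    simp [QuotientGroup.eq]
  have hRh : ∀ h ∈ H, R c₀ (g₀ • h • a) := by
    intro h hh
    refine ⟨g₀ * h, ?_, by rw [mul_smul]⟩
    rw [mul_smul, (hstab h).mpr hh, hg₀]
  have hRinv : ∀ b, R c₀ b → ∃ h ∈ H, g₀ • h • a = b := by
    rintro b ⟨g, h1, rfl⟩
    refine ⟨g₀⁻¹ * g, ?_, by rw [mul_smul, smul_inv_smul]⟩
    rw [← hstab, mul_smul, h1, ← hg₀, inv_smul_smul]
  by_cases hcase : R c₀ (e 1)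
  · have hall : ∀ z, z ≠ 0 → R c₀ (e z) := fun z hz => (hdich 1 z one_ne_zero hz).mp hcase
    refine ⟨g₀⁻¹ • e 0, fun h hh => ?_⟩
    by_contra hne
    apply hHp
    haveI : IsPretransitive H α := by
      rw [isPretransitive_iff_base a]
      intro b'
      by_cases hz : e.symm (g₀ • b') = 0
      · have hb' : b' = g₀⁻¹ • e 0 := by
          rw [← hz, Equiv.apply_symm_apply, inv_smul_smul]
        have hz' : e.symm (g₀ • h • b') ≠ 0 := by
          intro h0
          apply hne
          rw [← hb']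
          have h5 : g₀ • h • b' = e 0 := by
            rw [← h0, Equiv.apply_symm_apply]
          have h6 : g₀ • b' = e 0 := by
            rw [← hz, Equiv.apply_symm_apply]
          exact smul_left_cancel g₀ (h5.trans h6.symm)
        have h7 := hall _ hz'
        rw [Equiv.apply_symm_apply] at h7
        obtain ⟨h', hh', h8⟩ := hRinv _ h7
        have h9 : h' • a = h • b' := smul_left_cancel g₀ h8
        refine ⟨⟨h⁻¹ * h', H.mul_mem (H.inv_mem hh) hh'⟩, ?_⟩
        change (h⁻¹ * h') • a = b'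
        rw [mul_smul, h9, inv_smul_smul]
      · have h7 := hall _ hz
        rw [Equiv.apply_symm_apply] at h7
        obtain ⟨h', hh', h8⟩ := hRinv _ h7
        exact ⟨⟨h', hh'⟩, smul_left_cancel g₀ h8⟩
    exact prime_dvd_card_of_transitive hα
  · have hnone : ∀ z, z ≠ 0 → ¬ R c₀ (e z) :=
      fun z hz h => hcase ((hdich z 1 hz one_ne_zero).mp h)
    have hzero : ∀ b, R c₀ b → b = e 0 := by
      intro b hb
      by_contra hne
      have hz : e.symm b ≠ 0 := by
        intro h0
        apply hne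
        rw [← h0, Equiv.apply_symm_apply]
      have h3 := hnone _ hz
      rw [Equiv.apply_symm_apply] at h3
      exact h3 hb
    refine ⟨a, fun h hh => ?_⟩
    have h3 := hzero _ (hRh h hh)
    have h4 := hzero _ hRa
    exact smul_left_cancel g₀ (h3.trans h4.symm)

end Aux

/-- In a transitive permutation group of prime degree `p` whose Sylow `p`-normaliser has even order, the point stabilisers are the only subgroups of index `p`. -/
theorem result {α : Type*} [Fintype α] [DecidableEq α] {p : ℕ} [Fact p.Prime] (hα : Fintype.card α = p) (G : Subgroup (Equiv.Perm α)) [MulAction.IsPretransitive G α] (P : Sylow p G) (heven : Even (Nat.card (Subgroup.normalizer ((P : Subgroup G) : Set G)))) (H : Subgroup G) (hH : H.index = p) : ∃ a : α, H = MulAction.stabilizer G a := by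
  classical
  have hGp := not_sq_dvd_card hα G
  have hindex : Nat.card H * p = Nat.card G := by
    rw [← hH]
    exact H.card_mul_index
  have hHp : ¬ p ∣ Nat.card H := by
    rintro ⟨m, hm⟩
    apply hGp
    rw [← hindex, hm]
    exact ⟨m, by ring⟩
  -- a fixed point suffices
  suffices hfix : ∃ b : α, ∀ h ∈ H, h • b = b by
    obtain ⟨b, hb⟩ := hfix
    refine ⟨b, ?_⟩
    have hle : H ≤ stabilizer G b := fun h hh => hb h hh
    apply Subgroup.eq_of_le_of_card_ge hle
    have h1 : (stabilizer G b).index = p := by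
      rw [index_stabilizer_of_transitive, Nat.card_eq_fintype_card, hα]
    have h2 := (stabilizer G b).card_mul_index
    rw [h1, ← hindex] at h2
    have hpp : 0 < p := (Fact.out : p.Prime).pos
    exact le_of_eq (Nat.eq_of_mul_eq_mul_right hpp h2)
  obtain ⟨x, e, hzp, hxord, hx⟩ := exists_coord hα G P
  rcases affine_or_two_transitive hα G x e hx with h2 | haff
  · by_cases hp2 : p = 2
    · subst hp2
      have hcardG : Nat.card G ∣ 2 := by
        have h1 := Subgroup.card_subgroup_dvd_card G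
        rw [Nat.card_perm, Nat.card_eq_fintype_card (α := α), hα] at h1
        simpa using h1
      have hH1 : Nat.card H = 1 := by
        have h1 := Nat.le_of_dvd (by norm_num) hcardG
        have h3 : 0 < Nat.card H := Nat.card_pos
        omega
      have hbot : H = ⊥ := Subgroup.eq_bot_of_card_eq H hH1
      obtain ⟨b⟩ : Nonempty α := by
        rw [← Fintype.card_pos_iff, hα]; norm_num
      refine ⟨b, fun h hh => ?_⟩
      rw [hbot, Subgroup.mem_bot] at hh
      rw [hh, one_smul]
    · obtain ⟨y, hy⟩ := exists_neg_of_even G hp2 P x e hzp hx heven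
      have hye : ∀ k, (y : Equiv.Perm α) (e k) = e (-k) := by
        intro k
        have := hy k
        rw [toZ_apply, Equiv.symm_apply_eq] at this
        exact this
      exact fixed_of_two_trans hα hp2 G P x e hzp hxord hx y hye h2 H hH hHp
  · exact fixed_of_affine hα G e haff H hHp

end Cfsg.Agent.S0677
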