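import Cfsg.Statements.S1013
import Cfsg.Agent.Lib.Perm.PrimeDegree
import Mathlib

set_option autoImplicit false
open Cfsg

namespace Cfsg.Agent.S1013

open Cfsg.Agent.Lib.Perm MulAction

/-- Let G be a transitive permutation group of prime degree p having more than one Sylow p-subgroup, and suppose a Sylow p-subgroup P has prime index in its normalizer. Then G is simple. -/
theorem result {α : Type*} [Fintype α] [DecidableEq α] {p : ℕ} [Fact p.Prime] (hα : Fintype.card α = p) (G : Subgroup (Equiv.Perm α)) [MulAction.IsPretransitive ↥G α] (P : Sylow p ↥G) (hn : 1 < Nat.card (Sylow p ↥G)) (ht : (((P : Subgroup ↥G).subgroupOf (Subgroup.normalizer ((P : Subgroup ↥G) : Set ↥G))).index).Prime) : IsSimpleGroup ↥G := by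
  have hP := card_sylow_of_prime_degree hα G P
  have hnt : Nontrivial G := by
    by_contra h
    rw [not_nontrivial_iff_subsingleton] at h
    have h1 := prime_dvd_card_of_transitive (Γ := G) hα
    rw [Nat.card_of_subsingleton (1 : G)] at h1
    exact (Fact.out : p.Prime).one_lt.ne' (Nat.dvd_one.mp h1)
  refine ⟨fun N hN => ?_⟩
  by_contra hcon
  push_neg at hcon
  obtain ⟨hNbot, hNtop⟩ := hcon
  have htr := normal_transitive_of_prime_degree hα G N hNbot
  have hdvd : p ∣ Nat.card N := prime_dvd_card_of_transitive hα
  have hPN := sylow_le_normal_of_dvd P hP N hdvd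
  obtain ⟨K, hKn, hKN, hKc, hKcard⟩ := exists_normal_complement_of_prime_index P hP ht N hPN hNtop
  have hKbot : K = ⊥ := by
    by_contra hK
    have htrK := normal_transitive_of_prime_degree hα G K hK
    have hdK : p ∣ Nat.card K := prime_dvd_card_of_transitive hα
    have : p ∣ 1 := by
      have h2 := Nat.dvd_gcd hdK (dvd_refl p)
      rwa [Nat.Coprime.gcd_eq_one hKc] at h2
    exact (Fact.out : p.Prime).one_lt.ne' (Nat.dvd_one.mp this)
  rw [hKbot] at hKcard
  simp only [Subgroup.card_bot, one_mul] at hKcard
  have hPeq : (P : Subgroup G) = N := by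
    apply Subgroup.eq_of_le_of_card_ge hPN
    rw [hP, hKcard]
  have hPnorm : (P : Subgroup G).Normal := by rw [hPeq]; exact hN
  have := Sylow.unique_of_normal P hPnorm
  have h1 : Nat.card (Sylow p G) = 1 := Nat.card_unique
  omega

end Cfsg.Agent.S1013
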