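import Cfsg.Statements.S0678
import Cfsg.Agent.Lib.Perm.Count
import Cfsg.Agent.Lib.Perm.PrimeNormalizer
import Cfsg.Agent.Lib.Perm.SharplyTwo
import Cfsg.Agent.S0675
import Cfsg.Agent.S0676
import Cfsg.Agent.S1013
import Mathlib

set_option autoImplicit false
open Cfsg

namespace Cfsg.Agent.S0678

open MulAction Cfsg.Agent.Lib.Perm

/-- The arithmetic of the Sylow count. -/
private lemma numerics (n t : ℕ) (ht : t ∣ 6) (h1 : n % 7 = 1) (h2 : n * t ∣ 720) (h3 : 6 ∣ n * t) :
    120 ≤ n * t ∨ (n = 1 ∧ t = 6) ∨ (n = 8 ∧ t = 3) ∨ (n = 15 ∧ t = 2) ∨ (n = 36 ∧ t = 1) ∨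
      (n = 8 ∧ t = 6) ∨ (n = 36 ∧ t = 2) ∨ (n = 15 ∧ t = 6) := by
  have ht6 : t ≤ 6 := Nat.le_of_dvd (by norm_num) ht
  have ht0 : 0 < t := Nat.pos_of_dvd_of_pos ht (by norm_num)
  have hn : n ≤ 720 := by
    have h4 : n * t ≤ 720 := Nat.le_of_dvd (by norm_num) h2
    nlinarith
  have key : ∀ t' : Fin 7, ∀ n' : Fin 721, (t' : ℕ) ∣ 6 → (n' : ℕ) % 7 = 1 → (n' : ℕ) * t' ∣ 720 →
      6 ∣ (n' : ℕ) * t' →
      120 ≤ (n' : ℕ) * t' ∨ ((n' : ℕ) = 1 ∧ (t' : ℕ) = 6) ∨ ((n' : ℕ) = 8 ∧ (t' : ℕ) = 3) ∨
        ((n' : ℕ) = 15 ∧ (t' : ℕ) = 2) ∨ ((n' : ℕ) = 36 ∧ (t' : ℕ) = 1) ∨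
        ((n' : ℕ) = 8 ∧ (t' : ℕ) = 6) ∨ ((n' : ℕ) = 36 ∧ (t' : ℕ) = 2) ∨
        ((n' : ℕ) = 15 ∧ (t' : ℕ) = 6) := by
    decide +kernel
  exact key ⟨t, by omega⟩ ⟨n, by omega⟩ ht h1 h2 h3

/-- A normal Sylow subgroup forces solvability in prime degree. -/
private lemma solvable_of_normal_sylow {α : Type*} [Fintype α] [DecidableEq α] {p : ℕ} [Fact p.Prime]
    (hα : Fintype.card α = p) (G : Subgroup (Equiv.Perm α)) [IsPretransitive G α] (P : Sylow p G)
    (hP : (P : Subgroup G).Normal) : Group.IsSolvable G := by
  classical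
  obtain ⟨x, e, hzp, hxord, hx⟩ := exists_coord hα G P
  apply isSolvable_of_affine e G
  intro g
  have h1 : g * x * g⁻¹ ∈ (P : Subgroup G) := by
    apply hP.conj_mem
    rw [hzp]
    exact Subgroup.mem_zpowers x
  rw [hzp] at h1
  obtain ⟨k, hk⟩ := Subgroup.mem_zpowers_iff.mp h1
  apply affine_of_normalizes e (x := (x : Equiv.Perm α)) hx k
  have := congrArg Subtype.val hk
  simpa using this.symm

/-- An element of order three moving at most five points is a three-cycle. -/
private lemma isThreeCycle_of_order_three {α : Type*} [Fintype α] [DecidableEq α]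
    (σ : Equiv.Perm α) (h3 : orderOf σ = 3) (hs : σ.support.card ≤ 5) : σ.IsThreeCycle := by
  apply card_support_eq_three_iff.mp
  have hall : ∀ n ∈ σ.cycleType, n = 3 := by
    intro n hn
    have h1 : n ∣ 3 := h3 ▸ Equiv.Perm.dvd_of_mem_cycleType hn
    have h2 := Equiv.Perm.two_le_of_mem_cycleType hn
    rcases (Nat.dvd_prime Nat.prime_three).mp h1 with h | h <;> omega
  have h1 : σ.cycleType = Multiset.replicate (Multiset.card σ.cycleType) 3 :=
    Multiset.eq_replicate_card.mpr hall
  have h2 := Equiv.Perm.sum_cycleType σ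
  rw [h1, Multiset.sum_replicate, smul_eq_mul] at h2
  have h5 : σ ≠ 1 := by
    rintro rfl
    simp at h3
  have h6 : σ.support.card ≠ 0 := by
    rw [Ne, Finset.card_eq_zero, Equiv.Perm.support_eq_empty_iff]
    exact h5
  omega

/-- A non-solvable transitive permutation group on 7 points that does not contain the alternating group is a simple group of order 168. -/
theorem result {α : Type*} [Fintype α] [DecidableEq α] (hα : Fintype.card α = 7) (G : Subgroup (Equiv.Perm α)) [MulAction.IsPretransitive G α] (hG : ¬ Group.IsSolvable G) (hA : ¬ alternatingGroup α ≤ G) : Nat.card G = 168 ∧ IsSimpleGroup G := by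
  classical
  haveI : Fact (Nat.Prime 7) := ⟨by norm_num⟩
  have hcardα : Nat.card α = 7 := by rwa [Nat.card_eq_fintype_card]
  have hprim : IsPreprimitive G α :=
    IsPreprimitive.of_prime_card (by rw [hcardα]; norm_num)
  obtain ⟨P⟩ : Nonempty (Sylow 7 G) := inferInstance
  obtain ⟨t, ht, hN, hcount, hmod⟩ := sylow_count_prime_degree hα G P
  have h2 : IsMultiplyPretransitive G α 2 := by
    rcases Cfsg.Agent.S0675.result (hα ▸ (by norm_num : Nat.Prime 7)) G with h | h
    · exact absurd h hG
    · exact h
  obtain ⟨n, hn⟩ : ∃ n, n = Nat.card (Sylow 7 G) := ⟨_, rfl⟩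
  rw [← hn] at hcount hmod
  have hmod' : n % 7 = 1 := hmod
  have ht' : t ∣ 6 := ht
  have hGm : Nat.card G = 7 * (n * t) := by rw [← hcount]; ring
  -- divisibility by the symmetric group order and by `42`
  have hdvd5040 : 7 * (n * t) ∣ 7 * 720 := by
    rw [← hGm]
    have h1 := Subgroup.card_subgroup_dvd_card G
    rw [Nat.card_perm, hcardα] at h1
    simpa [Nat.factorial] using h1
  have h42 : 7 * 6 ∣ 7 * (n * t) := by
    rw [← hGm]
    have h1 := descFactorial_dvd_card (G := G) (α := α) (k := 2) h2 (by omega)
    rw [hα] at h1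
    simpa [Nat.descFactorial] using h1
  have h720 : n * t ∣ 720 := Nat.dvd_of_mul_dvd_mul_left (by norm_num) hdvd5040
  have h6 : 6 ∣ n * t := Nat.dvd_of_mul_dvd_mul_left (by norm_num) h42
  have hindex : G.index * (7 * (n * t)) = 5040 := by
    rw [← hGm, Subgroup.index_mul_card, Nat.card_perm, hcardα]
    decide
  have h3trans : Even (Nat.card (Subgroup.normalizer ((P : Subgroup G) : Set G))) →
      IsMultiplyPretransitive G α 3 := fun he => Cfsg.Agent.S0676.result hα G hG P he
  have h210 : IsMultiplyPretransitive G α 3 → 7 * 30 ∣ 7 * (n * t) := by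
    intro h
    rw [← hGm]
    have h1 := descFactorial_dvd_card (G := G) (α := α) (k := 3) h (by omega)
    rw [hα] at h1
    simpa [Nat.descFactorial] using h1
  rcases numerics n t ht' hmod' h720 h6 with hbig | ⟨h1, h3⟩ | ⟨h1, h3⟩ | ⟨h1, h3⟩ | ⟨h1, h3⟩ | ⟨h1, h3⟩ |
    ⟨h1, h3⟩ | ⟨h1, h3⟩
  · -- large order: small index
    exfalso
    apply hA
    apply alternatingGroup_le_of_small_index G (by omega)
    rw [hα]
    have hi : G.index ≤ 6 := by
      by_contra hcon
      have : 7 * (7 * 120) ≤ G.index * (7 * (n * t)) := Nat.mul_le_mul (by omega) (by omega)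
      omega
    calc G.index.factorial ≤ Nat.factorial 6 := Nat.factorial_le hi
      _ < Nat.factorial 7 := by decide
  · -- normal Sylow subgroup
    exfalso
    apply hG
    apply solvable_of_normal_sylow hα G P
    have hs : Subsingleton (Sylow 7 G) :=
      (Nat.card_eq_one_iff_unique.mp (hn ▸ h1)).1
    exact Sylow.normal_of_subsingleton P
  · -- order 168
    subst h1 h3
    refine ⟨by rw [hGm], ?_⟩
    apply Cfsg.Agent.S1013.result hα G P (by rw [← hn]; omega)
    have hPcard : Nat.card (P : Subgroup G) = 7 := card_sylow_of_prime_degree hα G P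
    have hle : (P : Subgroup G) ≤ Subgroup.normalizer ((P : Subgroup G) : Set G) :=
      Subgroup.le_normalizer
    have h4 := ((P : Subgroup G).subgroupOf
      (Subgroup.normalizer ((P : Subgroup G) : Set G))).card_mul_index
    have h5 : Nat.card ((P : Subgroup G).subgroupOf
        (Subgroup.normalizer ((P : Subgroup G) : Set G))) = 7 := by
      exact (Nat.card_congr (Subgroup.subgroupOfEquivOfLe hle).toEquiv).trans hPcard
    rw [h5, hN] at h4
    have h6 : ((P : Subgroup G).subgroupOf
        (Subgroup.normalizer ((P : Subgroup G) : Set G))).index = 3 := by omega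
    rw [h6]
    norm_num
  · -- order 210
    exfalso
    subst h1 h3
    have h3t := h3trans (by rw [hN]; decide)
    have hstab : ∀ x : Fin 3 ↪ α, stabilizer G x = ⊥ := by
      intro x
      have h4 := card_stabilizer_mul_descFactorial h3t x
      rw [hGm, hα] at h4
      have h5 : Nat.card (stabilizer G x) = 1 := by
        have h6 : Nat.descFactorial 7 3 = 210 := by decide
        rw [h6] at h4
        exact Nat.eq_of_mul_eq_mul_right (by norm_num : 0 < 210) (h4.trans (by norm_num))
      exact Subgroup.card_eq_one.mp h5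
    obtain ⟨a⟩ : Nonempty α := by
      rw [← Fintype.card_pos_iff]; omega
    haveI : IsPretransitive G α := inferInstance
    have h3t' : IsMultiplyPretransitive (stabilizer G a) (SubMulAction.ofStabilizer G a) 2 :=
      (SubMulAction.ofStabilizer.isMultiplyPretransitive (G := G) (α := α) (n := 2) (a := a)).mp h3t
    have hcard6 : Nat.card (SubMulAction.ofStabilizer G a) = 6 := by
      have := SubMulAction.nat_card_ofStabilizer_add_one_eq G a
      omega
    obtain ⟨N', p', j, hp', hj, hcard, -⟩ := sharply_two_structure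
      (Γ := stabilizer G a) (α := SubMulAction.ofStabilizer G a) (by omega)
      (fun u v u' v' huv huv' =>
        (is_two_pretransitive_iff (G := stabilizer G a) (α := SubMulAction.ofStabilizer G a)).mp
          h3t' huv huv')
      (by
        intro g u v huv hu hv
        have hua : (u : α) ≠ a := by
          have := u.2
          rwa [SubMulAction.mem_ofStabilizer_iff] at this
        have hva : (v : α) ≠ a := by
          have := v.2
          rwa [SubMulAction.mem_ofStabilizer_iff] at this
        have huv' : (u : α) ≠ v := fun h => huv (Subtype.ext h)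
        let x : Fin 3 ↪ α := ⟨![a, u, v], by
          intro i j hij
          fin_cases i <;> fin_cases j <;> simp_all⟩
        have hmem : (g : G) ∈ stabilizer G x := by
          rw [mem_stabilizer_iff]
          ext i
          have hga : (g : G) • a = a := g.2
          have hu' : (g : G) • (u : α) = u := congrArg Subtype.val hu
          have hv' : (g : G) • (v : α) = v := congrArg Subtype.val hv
          fin_cases i
          · exact hga
          · exact hu'
          · exact hv'
        rw [hstab, Subgroup.mem_bot] at hmem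
        exact Subtype.ext hmem)
    rw [hcard6] at hcard
    have : IsPrimePow 6 := (isPrimePow_nat_iff _).mpr ⟨p', j, hp', by omega, hcard.symm⟩
    exact absurd this (by decide)
  · -- Burnside transfer
    exfalso
    subst h1 h3
    have hPcard : Nat.card (P : Subgroup G) = 7 := card_sylow_of_prime_degree hα G P
    have hNP : Subgroup.normalizer ((P : Subgroup G) : Set G) = (P : Subgroup G) := by
      symm
      apply Subgroup.eq_of_le_of_card_ge Subgroup.le_normalizer
      rw [hN, hPcard]
    obtain ⟨x, e, hzp, hxord, hx⟩ := exists_coord hα G P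
    have hPC : Subgroup.normalizer ((P : Subgroup G) : Set G) ≤
        Subgroup.centralizer ((P : Subgroup G) : Set G) := by
      rw [hNP]
      intro z hz
      rw [Subgroup.mem_centralizer_iff]
      intro w hw
      have hw' : w ∈ (P : Subgroup G) := hw
      rw [hzp] at hz hw'
      obtain ⟨k, rfl⟩ := Subgroup.mem_zpowers_iff.mp hz
      obtain ⟨l, rfl⟩ := Subgroup.mem_zpowers_iff.mp hw'
      exact zpow_mul_comm x l k
    have hcompl := MonoidHom.ker_transferSylow_isComplement' P hPC
    have hcardK := hcompl.card_mul_card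
    rw [hPcard, hGm] at hcardK
    have hK36 : Nat.card (MonoidHom.transferSylow P hPC).ker = 36 := by omega
    have hKne : (MonoidHom.transferSylow P hPC).ker ≠ ⊥ := by
      intro h
      rw [h] at hK36
      simp at hK36
    haveI : IsPretransitive (MonoidHom.transferSylow P hPC).ker α :=
      normal_transitive_of_prime_degree hα G _ hKne
    have := prime_dvd_card_of_transitive (Γ := (MonoidHom.transferSylow P hPC).ker) (α := α) hα
    rw [hK36] at this
    omega
  · -- order 336
    exfalso
    subst h1 h3
    have := h210 (h3trans (by rw [hN]; decide))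
    omega
  · -- order 504
    exfalso
    subst h1 h3
    have := h210 (h3trans (by rw [hN]; decide))
    omega
  · -- order 630
    exfalso
    subst h1 h3
    obtain ⟨x⟩ : Nonempty (Fin 2 ↪ α) :=
      Function.Embedding.nonempty_of_card_le (by simp [hα])
    have h4 := card_stabilizer_mul_descFactorial h2 x
    rw [hGm, hα] at h4
    have h5 : Nat.card (stabilizer G x) = 15 := by
      have h6 : Nat.descFactorial 7 2 = 42 := by decide
      rw [h6] at h4
      exact Nat.eq_of_mul_eq_mul_right (by norm_num : 0 < 42) (h4.trans (by norm_num))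
    haveI : Fact (Nat.Prime 3) := ⟨Nat.prime_three⟩
    obtain ⟨y, hy⟩ := exists_prime_orderOf_dvd_card' (G := stabilizer G x) 3 (by rw [h5]; norm_num)
    have hy' : orderOf ((y : G) : Equiv.Perm α) = 3 := by
      rw [Subgroup.orderOf_coe, Subgroup.orderOf_coe, hy]
    have hfix : ∀ i, ((y : G) : Equiv.Perm α) (x i) = x i := by
      intro i
      have := y.2
      rw [mem_stabilizer_iff] at this
      exact DFunLike.congr_fun this i
    have hsupp : ((y : G) : Equiv.Perm α).support.card ≤ 5 := by
      have h01 : x 0 ≠ x 1 := fun h => absurd (x.injective h) (by decide)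
      have hsub : ((y : G) : Equiv.Perm α).support ⊆ (Finset.univ.erase (x 0)).erase (x 1) := by
        intro z hz
        rw [Equiv.Perm.mem_support] at hz
        simp only [Finset.mem_erase, Finset.mem_univ, and_true]
        refine ⟨?_, ?_⟩
        · rintro rfl
          exact hz (hfix 1)
        · rintro rfl
          exact hz (hfix 0)
      refine (Finset.card_le_card hsub).trans ?_
      rw [Finset.card_erase_of_mem (by simp [h01.symm]), Finset.card_erase_of_mem (by simp),
        Finset.card_univ, hα]
    exact hA (Equiv.Perm.alternatingGroup_le_of_isPreprimitive_of_isThreeCycle_mem hprim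
      (isThreeCycle_of_order_three _ hy' hsupp) (y : G).2)

end Cfsg.Agent.S0678
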