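import Cfsg.Statements.S0680
import Cfsg.Agent.Lib.Perm.SharplyTwo
import Mathlib

set_option autoImplicit false
open Cfsg

namespace Cfsg.Agent.S0680

open MulAction

/-- A finite sharply doubly transitive permutation group has degree a prime power `p ^ j`; a Sylow `p`-subgroup is normal, elementary abelian and regular, and consists of the identity together with the elements without fixed points. (Frobenius' Theorem is not needed.) -/
theorem result {α : Type*} [Fintype α] [DecidableEq α] (G : Subgroup (Equiv.Perm α)) [MulAction.IsMultiplyPretransitive G α 2] (hsharp : ∀ x : Fin 2 ↪ α, MulAction.stabilizer G x = ⊥) (h2 : 2 ≤ Fintype.card α) : ∃ p j : ℕ, p.Prime ∧ 1 ≤ j ∧ Fintype.card α = p ^ j ∧ ∀ (hp : Fact p.Prime) (P : Sylow p G), (P : Subgroup G).Normal ∧ IsMulCommutative (P : Subgroup G) ∧ (∀ x ∈ (P : Subgroup G), x ^ p = 1) ∧ MulAction.IsPretransitive (P : Subgroup G) α ∧ (∀ a : α, MulAction.stabilizer (P : Subgroup G) a = ⊥) ∧ ∀ g : G, g ∈ (P : Subgroup G) ↔ g = 1 ∨ ∀ a : α,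 g • a ≠ a := by
  classical
  have hT : ∀ a b c d : α, a ≠ b → c ≠ d → ∃ g : G, g • a = c ∧ g • b = d := by
    intro a b c d hab hcd
    exact (is_two_pretransitive_iff (G := G) (α := α)).mp inferInstance hab hcd
  have hS : ∀ (g : G) (a b : α), a ≠ b → g • a = a → g • b = b → g = 1 := by
    intro g a b hab ha hb
    have hmem : g ∈ stabilizer G (Function.Embedding.embFinTwo hab) := by
      rw [mem_stabilizer_iff]
      ext i
      by_cases hi : i = 0
      · subst hi
        exact ha
      · rw [Fin.eq_one_of_ne_zero i hi]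
        exact hb
    rw [hsharp, Subgroup.mem_bot] at hmem
    exact hmem
  obtain ⟨N, p, j, hp, hj, hcard, hNn, hNc, hNp, hNt, hNs, hNm, hNcard, hΓ, hpg⟩ :=
    Cfsg.Agent.Lib.Perm.sharply_two_structure (Γ := G) (α := α)
      (by rwa [Nat.card_eq_fintype_card]) hT hS
  refine ⟨p, j, hp, hj, by rwa [Nat.card_eq_fintype_card] at hcard, ?_⟩
  intro hfact P
  -- N is the Sylow p-subgroup
  have hindex : ¬ p ∣ N.index := by
    have h1 := N.index_mul_card
    rw [hNcard, hΓ, mul_comm] at h1
    have hnpos : 0 < Nat.card α := by rw [Nat.card_eq_fintype_card]; omega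
    have h3 : N.index = Nat.card α - 1 := by
      exact Nat.eq_of_mul_eq_mul_left hnpos h1
    rw [h3, hcard]
    intro hd
    have h4 : p ∣ p ^ j := dvd_pow_self p (by omega)
    have h5 : 0 < p ^ j := pow_pos hp.pos j
    have h6 : p ∣ 1 := by
      have := (Nat.dvd_sub h4 hd)
      have h7 : p ^ j - (p ^ j - 1) = 1 := by omega
      rwa [h7] at this
    exact hp.one_lt.ne' (Nat.dvd_one.mp h6)
  let Q : Sylow p G := hpg.toSylow hindex
  have hQN : (Q : Subgroup G) = N := rfl
  have hPN : (P : Subgroup G) = N := by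
    obtain ⟨g, hg⟩ := MulAction.exists_smul_eq G Q P
    rw [← hg, Sylow.coe_subgroup_smul, hQN]
    exact Subgroup.Normal.conj_smul_eq_self g N
  rw [hPN]
  refine ⟨hNn, ⟨⟨fun a b => Subtype.ext (hNc a a.2 b b.2)⟩⟩, hNp, ⟨fun a b => ?_⟩, ?_, hNm⟩
  · obtain ⟨n, hn, hnab⟩ := hNt a b
    exact ⟨⟨n, hn⟩, hnab⟩
  · intro a
    rw [eq_bot_iff]
    intro n hn
    rw [Subgroup.mem_bot]
    apply Subtype.ext
    exact hNs n n.2 a hn

end Cfsg.Agent.S0680
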