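import Cfsg.Statements.S0682
import Cfsg.Agent.Lib.Perm.NearField
import Mathlib

set_option autoImplicit false
open Cfsg

namespace Cfsg.Agent.S0682

/-- A finite near-field has prime-power order; its additive group is commutative of prime exponent. -/
theorem result {F : Type*} [Cfsg.NearField F] [Finite F] : ∃ p j : ℕ, p.Prime ∧ 1 ≤ j ∧ Nat.card F = p ^ j ∧ (∀ x y : F, x + y = y + x) ∧ ∀ x : F, p • x = 0 := by
  exact Cfsg.Agent.Lib.Perm.nearField_finite_structure

end Cfsg.Agent.S0682
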