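import Cfsg.Statements.S0683
import Cfsg.Agent.Lib.Perm.NearField
import Mathlib

set_option autoImplicit false
open Cfsg

namespace Cfsg.Agent.S0683

/-- A finite sharply doubly transitive permutation group is the affine group of a near-field: the permuted set carries a near-field structure for which the group consists exactly of the maps `x ↦ x * a + b` with `a ≠ 0`. -/
theorem result {α : Type*} [Fintype α] [DecidableEq α] (H : Subgroup (Equiv.Perm α)) [MulAction.IsMultiplyPretransitive H α 2] (hsharp : ∀ x : Fin 2 ↪ α, MulAction.stabilizer H x = ⊥) (h2 : 2 ≤ Fintype.card α) : ∃ _ : Cfsg.NearField α, ∀ σ : Equiv.Perm α, σ ∈ H ↔ ∃ a b : α, a ≠ 0 ∧ ∀ x : α, σ x = x * a + b := by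
  classical
  apply Cfsg.Agent.Lib.Perm.exists_nearField_perm H
  · intro a b c d hab hcd
    exact (MulAction.is_two_pretransitive_iff (G := H) (α := α)).mp inferInstance hab hcd
  · intro g a b hab ha hb
    have hmem : g ∈ MulAction.stabilizer H (Function.Embedding.embFinTwo hab) := by
      rw [MulAction.mem_stabilizer_iff]
      ext i
      by_cases hi : i = 0
      · subst hi
        exact ha
      · rw [Fin.eq_one_of_ne_zero i hi]
        exact hb
    rw [hsharp, Subgroup.mem_bot] at hmem
    exact hmem
  · rwa [Nat.card_eq_fintype_card]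

end Cfsg.Agent.S0683
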