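import Cfsg.Statements.S0685
import Mathlib
import Cfsg.Agent.Lib.Perm.RegLin

set_option autoImplicit false
open Cfsg

namespace Cfsg.Agent.S0685

/-- In a linear group over the prime field that is regular on non-zero vectors and has no irreducible cyclic normal subgroup, a maximal normal abelian subgroup is properly contained in its centraliser, which is non-abelian. -/
theorem result {p : ℕ} [Fact p.Prime] {V : Type*} [AddCommGroup V] [Module (ZMod p) V] [Finite V] (H : Subgroup (V ≃ₗ[ZMod p] V)) (hreg : ∀ v w : V, v ≠ 0 → w ≠ 0 → ∃! h : H, (h : V ≃ₗ[ZMod p] V) v = w) (hI : ∀ A : Subgroup H, A.Normal → IsCyclic A → ∃ W : Submodule (ZMod p) V, W ≠ ⊥ ∧ W ≠ ⊤ ∧ ∀ a ∈ A, ∀ v ∈ W, ((a : H) : V ≃ₗ[ZMod p] V) v ∈ W) (A : Subgroup H) (hAn : A.Normal) (hAc : IsMulCommutative A) (hAmax : ∀ B : Subgroup H, B.Normal → IsMulCommutative B → A ≤ B → B = A) : A < Subgroup.centralizer (A : Set H) ∧ ¬ IsMulCommutative (Subgroup.centralizer (A : Set H)) := by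
  have hnc := Lib.Perm.RegLin.not_comm_centralizer hreg hI A hAn hAc hAmax
  refine ⟨?_, hnc⟩
  have hle : A ≤ Subgroup.centralizer (A : Set H) := by
    intro a ha b hb
    have := hAc.is_comm.comm (⟨a, ha⟩ : A) ⟨b, hb⟩
    exact (congrArg Subtype.val this).symm
  refine lt_of_le_of_ne hle ?_
  intro h
  apply hnc
  rw [← h]
  exact hAc

end Cfsg.Agent.S0685
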