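import Cfsg.Statements.S0691
import Mathlib
import Cfsg.Agent.Lib.Perm.SharpCert
-- import your own Cfsg.Agent.* helpers here

set_option autoImplicit false
open Cfsg

namespace Cfsg.Agent.S0691

/-- Second column table. -/
def tabT : ℕ := 0xd00801701200100e00901801300300b00601501000200c00701601100401400a00f005000
/-- Depth table. -/
def tabR : ℕ := 0x3002004003003004003002003002004003002003002002003004001001002003001000000
/-- Parent table. -/
def tabP : ℕ := 0x400600d00f00401500900500c00501200c002009002006011018001001002004001000000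

open Cfsg.Agent.Lib.Perm in
/-- An exceptional sharply doubly transitive group of degree 5^2: the listed matrices generate a subgroup of GL(2,5) of order 24 acting regularly on the non-zero vectors. -/
theorem result (A : Matrix.GeneralLinearGroup (Fin 2) (ZMod 5)) (B : Matrix.GeneralLinearGroup (Fin 2) (ZMod 5)) (C : Matrix.GeneralLinearGroup (Fin 2) (ZMod 5)) (hA : (A : Matrix (Fin 2) (Fin 2) (ZMod 5)) = !![2, 0; 0, -2]) (hB : (B : Matrix (Fin 2) (Fin 2) (ZMod 5)) = !![0, -1; 1, 0]) (hC : (C : Matrix (Fin 2) (Fin 2) (ZMod 5)) = !![1, 2; 1, -2]) : Nat.card (Subgroup.closure ({A, B, C} : Set (Matrix.GeneralLinearGroup (Fin 2) (ZMod 5)))) = 24 ∧ ∀ v w : Fin 2 → ZMod 5, v ≠ 0 → w ≠ 0 → ∃! h : Subgroup.closure ({A, B, C} : Set (Matrix.GeneralLinearGroup (Fin 2) (ZMod 5))), Matrix.mulVec ((h : Matrix.GeneralLinearGroup (Fin 2) (ZMod 5)) : Matrix (Fin 2) (Fin 2) (ZMod 5)) v = w := by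
  haveI : Fact (Nat.Prime 5) := ⟨by norm_num⟩
  have hA' : (A : Matrix (Fin 2) (Fin 2) (ZMod 5)) = matOfCode 5 (2, 0, 0, 3) := by
    rw [hA]
    decide +kernel
  have hB' : (B : Matrix (Fin 2) (Fin 2) (ZMod 5)) = matOfCode 5 (0, 4, 1, 0) := by
    rw [hB]
    decide +kernel
  have hC' : (C : Matrix (Fin 2) (Fin 2) (ZMod 5)) = matOfCode 5 (1, 2, 1, 3) := by
    rw [hC]
    decide +kernel
  have hchk : sharpCheck 5 [(2, 0, 0, 3), (0, 4, 1, 0), (1, 2, 1, 3)] (digitAt 4096 tabT) (digitAt 4096 tabR) (digitAt 4096 tabP) = true := by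
    decide +kernel
  have := regular_of_sharpCheck (p := 5) ({A, B, C} : Set (Matrix.GeneralLinearGroup (Fin 2) (ZMod 5))) [(2, 0, 0, 3), (0, 4, 1, 0), (1, 2, 1, 3)] _ _ _ (by
      intro g hg
      simp only [Set.mem_insert_iff, Set.mem_singleton_iff] at hg
      simp only [List.mem_cons, List.not_mem_nil, or_false, exists_eq_or_imp, exists_eq_left]
      rcases hg with rfl | rfl | rfl
      · simp only [hA', true_or, or_true]
      · simp only [hB', true_or, or_true]
      · simp only [hC', true_or, or_true]) (by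
      intro t ht
      simp only [List.mem_cons, List.not_mem_nil, or_false] at ht
      rcases ht with rfl | rfl | rfl
      · exact ⟨A, by simp, hA'⟩
      · exact ⟨B, by simp, hB'⟩
      · exact ⟨C, by simp, hC'⟩) hchk (by norm_num)
  exact ⟨this.1.trans (by norm_num), this.2⟩

end Cfsg.Agent.S0691
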