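import Cfsg.Statements.S0692
import Mathlib
import Cfsg.Agent.Lib.Perm.SharpCert
-- import your own Cfsg.Agent.* helpers here

set_option autoImplicit false
open Cfsg

namespace Cfsg.Agent.S0692

/-- Second column table. -/
def tabT : ℕ := 0x6d02801d05804b04005302c01507000100c02a01f00604c04107605d06b05503200404a03402903c01e07705f06c05600f03e02b02003301206305406004200307101b01002300905e04505703d07306803501c01104702d03f02600206107406904f00803702403001607205106405904601302e01802500d06604805b05003a00707502f01902700e04303800506505a07805201406f04d03104403902106705c01700a06e03b04e06201a06a02203604900b000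
/-- Depth table. -/
def tabR : ℕ := 0x700300200900700800c00600500400300800a00800600600900500900b00400600900c00a00c00600a00200b00900300a00c00400500b00a00500c00900700a00900700800c00400500600b00700700800800600900500900400700600b00a00900600800500b00c00300b00c00300600a00700500b00900400b00800a00800a00700800200900b00300700800800a00c00600400600700800b00a00900700400100500100200500900800700500a00a007000000
/-- Parent table. -/
def tabP : ℕ := 0x1500a00d01b04102c03a04805605900a01401f07400900c01a02803603907705501301e06206503f00800b01906b07603803401d02805303e06405400701507502601701c02703203d05206006307100601400501301602403204705205d06806d07000f06f00401202002303105c06705005e00e01906b06e00304501f02206607104c00d04b04e05c06a07800201006507002f02b02e03c02d04d04306907700106f00100b01602102c03b04904d05a063000000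

open Cfsg.Agent.Lib.Perm in
/-- An exceptional sharply doubly transitive group of degree 11^2: the listed matrices generate a subgroup of GL(2,11) of order 120 acting regularly on the non-zero vectors. -/
theorem result (A : Matrix.GeneralLinearGroup (Fin 2) (ZMod 11)) (B : Matrix.GeneralLinearGroup (Fin 2) (ZMod 11)) (hA : (A : Matrix (Fin 2) (Fin 2) (ZMod 11)) = !![0, -1; 1, 0]) (hB : (B : Matrix (Fin 2) (Fin 2) (ZMod 11)) = !![2, 4; 1, -3]) : Nat.card (Subgroup.closure ({A, B} : Set (Matrix.GeneralLinearGroup (Fin 2) (ZMod 11)))) = 120 ∧ ∀ v w : Fin 2 → ZMod 11, v ≠ 0 → w ≠ 0 → ∃! h : Subgroup.closure ({A, B} : Set (Matrix.GeneralLinearGroup (Fin 2) (ZMod 11))), Matrix.mulVec ((h : Matrix.GeneralLinearGroup (Fin 2) (ZMod 11)) : Matrix (Fin 2) (Fin 2) (ZMod 11)) v = w := by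
  haveI : Fact (Nat.Prime 11) := ⟨by norm_num⟩
  have hA' : (A : Matrix (Fin 2) (Fin 2) (ZMod 11)) = matOfCode 11 (0, 10, 1, 0) := by
    rw [hA]
    decide +kernel
  have hB' : (B : Matrix (Fin 2) (Fin 2) (ZMod 11)) = matOfCode 11 (2, 4, 1, 8) := by
    rw [hB]
    decide +kernel
  have hchk : sharpCheck 11 [(0, 10, 1, 0), (2, 4, 1, 8)] (digitAt 4096 tabT) (digitAt 4096 tabR) (digitAt 4096 tabP) = true := by
    decide +kernel
  have := regular_of_sharpCheck (p := 11) ({A, B} : Set (Matrix.GeneralLinearGroup (Fin 2) (ZMod 11))) [(0, 10, 1, 0), (2, 4, 1, 8)] _ _ _ (by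
      intro g hg
      simp only [Set.mem_insert_iff, Set.mem_singleton_iff] at hg
      simp only [List.mem_cons, List.not_mem_nil, or_false, exists_eq_or_imp, exists_eq_left]
      rcases hg with rfl | rfl
      · simp only [hA', true_or, or_true]
      · simp only [hB', true_or, or_true]) (by
      intro t ht
      simp only [List.mem_cons, List.not_mem_nil, or_false] at ht
      rcases ht with rfl | rfl
      · exact ⟨A, by simp, hA'⟩
      · exact ⟨B, by simp, hB'⟩) hchk (by norm_num)
  exact ⟨this.1.trans (by norm_num), this.2⟩

end Cfsg.Agent.S0692
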