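import Cfsg.Statements.S0694
import Mathlib

set_option autoImplicit false
open Cfsg

namespace Cfsg.Agent.S0694


private lemma geom_nat (x s : ℕ) (hx : 1 ≤ x) :
    (∑ i ∈ Finset.range s, x ^ i) * (x - 1) = x ^ s - 1 := by
  have h1 : 1 ≤ x ^ s := Nat.one_le_pow _ _ hx
  zify [hx, h1]
  exact geom_sum_mul (x : ℤ) s

private lemma sum_zmod (x s t : ℕ) (hx : (x : ZMod s) = 1) :
    ((∑ i ∈ Finset.range t, x ^ i : ℕ) : ZMod s) = t := by
  simp [hx]

private lemma coe_one_of_dvd (q s : ℕ) (hq : 1 ≤ q) (h : s ∣ q - 1) : (q : ZMod s) = 1 := by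
  have h1 : ((q - 1 : ℕ) : ZMod s) = 0 := (ZMod.natCast_eq_zero_iff _ _).mpr h
  rw [Nat.cast_sub hq] at h1
  simpa [sub_eq_zero] using h1

/-- Lemma B: `m (q-1)` divides `q^m - 1` when every prime of `m` divides `q - 1`. -/
private lemma mul_sub_one_dvd (q : ℕ) (hq : 1 ≤ q) (m : ℕ) (hm : m ≠ 0)
    (h : ∀ s : ℕ, s.Prime → s ∣ m → s ∣ q - 1) : m * (q - 1) ∣ q ^ m - 1 := by
  induction m using Nat.strong_induction_on with
  | _ m ih =>
    by_cases hm1 : m = 1
    · subst hm1; simp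
    · have hs := Nat.minFac_prime hm1
      obtain ⟨k, hk⟩ := Nat.minFac_dvd m
      set s := m.minFac with hsdef
      have hk0 : k ≠ 0 := by
        rintro rfl
        simp at hk
        exact hm hk
      have hklt : k < m := by
        rw [hk]
        have := hs.two_le
        nlinarith [Nat.pos_of_ne_zero hk0]
      have hIH := ih k hklt hk0 (fun r hr hrk => h r hr (hk ▸ Dvd.dvd.mul_left hrk s))
      have hqk : 1 ≤ q ^ k := Nat.one_le_pow _ _ hq
      have hgeom := geom_nat (q ^ k) s hqk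
      have hsd : s ∣ ∑ i ∈ Finset.range s, (q ^ k) ^ i := by
        rw [← ZMod.natCast_eq_zero_iff]
        have hq1 : (q : ZMod s) = 1 := coe_one_of_dvd q s hq (h s hs (Nat.minFac_dvd m))
        rw [sum_zmod (q ^ k) s s (by simp [hq1])]
        simp
      have hpw : q ^ m = (q ^ k) ^ s := by
        rw [← pow_mul, hk, mul_comm]
      rw [hpw, ← hgeom, hk]
      obtain ⟨t, ht⟩ := hsd
      rw [ht]
      have : s * k * (q - 1) = s * (k * (q - 1)) := by ring
      rw [this]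
      exact Nat.mul_dvd_mul (Dvd.intro _ rfl) hIH

private lemma exists_decomp (a n : ℕ) (hn : n ≠ 0) :
    ∃ n₁ n₂, n = n₁ * n₂ ∧ (∀ s : ℕ, s.Prime → s ∣ n₁ → s ∣ a) ∧ Nat.Coprime n₂ a := by
  induction n using Nat.strong_induction_on with
  | _ n ih =>
    by_cases hn1 : n = 1
    · subst hn1
      refine ⟨1, 1, rfl, ?_, Nat.coprime_one_left _⟩
      intro s hs h1
      exact absurd (Nat.dvd_one.mp h1) hs.ne_one
    · have hs := Nat.minFac_prime hn1
      obtain ⟨k, hk⟩ := Nat.minFac_dvd n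
      set s := n.minFac with hsdef
      have hk0 : k ≠ 0 := by
        rintro rfl
        simp at hk
        exact hn hk
      have hklt : k < n := by
        rw [hk]
        have := hs.two_le
        nlinarith [Nat.pos_of_ne_zero hk0]
      obtain ⟨n₁, n₂, hk2, h1, h2⟩ := ih k hklt hk0
      by_cases hsa : s ∣ a
      · refine ⟨s * n₁, n₂, by rw [hk, hk2]; ring, ?_, h2⟩
        intro r hr hrd
        rcases (Nat.Prime.dvd_mul hr).mp hrd with h' | h'
        · rw [(Nat.prime_dvd_prime_iff_eq hr hs).mp h']; exact hsa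
        · exact h1 r hr h'
      · refine ⟨n₁, s * n₂, by rw [hk, hk2]; ring, h1, ?_⟩
        exact Nat.Coprime.mul_left ((Nat.Prime.coprime_iff_not_dvd hs).mpr hsa) h2

private lemma forward (q n : ℕ) (hq : 2 ≤ q) (hn : 1 < n)
    (h1 : ∀ r : ℕ, r.Prime → r ∣ n → r ∣ q - 1) (h2 : 4 ∣ n → 4 ∣ q - 1) :
    q ^ n ≡ 1 [MOD n * (q - 1)] ∧ ∀ i : ℕ, 0 < i → i < n → ¬ q ^ i ≡ 1 [MOD n * (q - 1)] := by
  have hq1 : 1 ≤ q := by omega
  have hM : n * (q - 1) ∣ q ^ n - 1 := mul_sub_one_dvd q hq1 n (by omega) h1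
  refine ⟨((Nat.modEq_iff_dvd' (Nat.one_le_pow _ _ hq1)).mpr hM).symm, ?_⟩
  intro i hi hin hmod
  have hMi : n * (q - 1) ∣ q ^ i - 1 := (Nat.modEq_iff_dvd' (Nat.one_le_pow _ _ hq1)).mp hmod.symm
  have hMg : n * (q - 1) ∣ q ^ (Nat.gcd i n) - 1 := by
    rw [← Nat.pow_sub_one_gcd_pow_sub_one]
    exact Nat.dvd_gcd hMi hM
  set g := Nat.gcd i n with hg
  have hg0 : 0 < g := Nat.gcd_pos_of_pos_left _ hi
  have hgi : g ≤ i := Nat.le_of_dvd hi (Nat.gcd_dvd_left _ _)
  obtain ⟨c, hc⟩ : g ∣ n := Nat.gcd_dvd_right _ _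
  have hc1 : c ≠ 1 := by
    rintro rfl
    omega
  have hs := Nat.minFac_prime hc1
  obtain ⟨t, ht⟩ := Nat.minFac_dvd c
  set s := c.minFac with hsdef
  have hnst : n = s * g * t := by
    rw [hc, ht]; ring
  have hsn : s ∣ n := by
    rw [hnst, mul_assoc]; exact Dvd.intro _ rfl
  have hsq := h1 s hs hsn
  have hq' : 1 < q := by omega
  have hq01 : q - 1 ≠ 0 := by omega
  have hnsq : ¬ s ∣ q := by
    intro h
    have : s ∣ 1 := by
      have h3 := (Nat.dvd_sub h hsq)
      have h4 : q - (q - 1) = 1 := by omega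
      rwa [h4] at h3
    exact hs.ne_one (Nat.dvd_one.mp this)
  haveI : Fact s.Prime := ⟨hs⟩
  have hgne : g ≠ 0 := by omega
  have hn0 : n ≠ 0 := by omega
  have ht0 : t ≠ 0 := by
    rintro rfl
    simp at hnst
    exact hn0 hnst
  have hpos : q ^ g - 1 ≠ 0 := by
    have : 1 < q ^ g := Nat.one_lt_pow hgne hq'
    omega
  have hval : padicValNat s (n * (q - 1)) ≤ padicValNat s (q ^ g - 1) := by
    have := padicValNat_dvd_iff_le (p := s) (n := padicValNat s (n * (q - 1))) hpos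
    apply this.mp
    exact (pow_padicValNat_dvd).trans hMg
  have hvn : padicValNat s n = 1 + padicValNat s g + padicValNat s t := by
    rw [hnst, padicValNat.mul (mul_ne_zero hs.ne_zero hgne) ht0,
      padicValNat.mul hs.ne_zero hgne, padicValNat.self hs.one_lt]
  rw [padicValNat.mul hn0 hq01] at hval
  by_cases hodd : Odd s
  · have := padicValNat.pow_sub_pow (p := s) (y := 1) hodd hq' hsq hnsq hgne
    rw [one_pow] at this
    omega
  · have hs2 : s = 2 := by
      rcases hs.eq_two_or_odd' with h | h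
      · exact h
      · exact absurd h hodd
    have h2q : 2 ∣ q - 1 := hs2 ▸ hsq
    have h2nq : ¬ 2 ∣ q := hs2 ▸ hnsq
    rcases Nat.even_or_odd g with hge | hgo
    · -- `4 ∣ n`
      have h4n : 4 ∣ n := by
        rw [hnst, hs2]
        obtain ⟨w, hw⟩ := hge
        refine ⟨w * t, ?_⟩
        rw [hw]; ring
      have h4q := h2 h4n
      have hq2 : padicValNat 2 (q + 1) = 1 := by
        have h5 : q + 1 = 2 * ((q + 1) / 2) := by omega
        have h6 : ¬ 2 ∣ (q + 1) / 2 := by omega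
        rw [h5, padicValNat.mul (by norm_num) (by omega), padicValNat.self (by norm_num),
          padicValNat.eq_zero_of_not_dvd h6]
      have := padicValNat.pow_two_sub_one hq' h2nq hgne hge
      rw [hs2] at hval hvn
      omega
    · -- `g` odd: the geometric sum is odd
      have hgeom := geom_nat q g hq1
      have hdv : n ∣ ∑ i ∈ Finset.range g, q ^ i := by
        rw [← hgeom] at hMg
        exact Nat.dvd_of_mul_dvd_mul_right (Nat.pos_of_ne_zero hq01) hMg
      have h2S : 2 ∣ ∑ i ∈ Finset.range g, q ^ i := (hs2 ▸ hsn).trans hdv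
      rw [← ZMod.natCast_eq_zero_iff, sum_zmod q 2 g (coe_one_of_dvd q 2 hq1 h2q),
        ZMod.natCast_eq_zero_iff] at h2S
      exact (Nat.not_even_iff_odd.mpr hgo) (even_iff_two_dvd.mpr h2S)

private lemma backward (q n : ℕ) (hq : 2 ≤ q) (hn : 1 < n)
    (h1 : q ^ n ≡ 1 [MOD n * (q - 1)])
    (h2 : ∀ i : ℕ, 0 < i → i < n → ¬ q ^ i ≡ 1 [MOD n * (q - 1)]) :
    (∀ r : ℕ, r.Prime → r ∣ n → r ∣ q - 1) ∧ (4 ∣ n → 4 ∣ q - 1) := by
  have hq1 : 1 ≤ q := by omega
  have hM : n * (q - 1) ∣ q ^ n - 1 := (Nat.modEq_iff_dvd' (Nat.one_le_pow _ _ hq1)).mp h1.symm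
  have hcop : Nat.Coprime q n := by
    have h3 : q ^ n ≡ 1 [MOD n] := h1.of_mul_right _
    have h4 := h3.gcd_eq
    simp only [Nat.gcd_one_left] at h4
    have h5 : Nat.Coprime (q ^ n) n := h4
    exact Nat.Coprime.coprime_dvd_left (dvd_pow_self q (by omega)) h5
  have hfn : ∀ i : ℕ, 0 < i → i < n → ¬ n * (q - 1) ∣ q ^ i - 1 := by
    intro i hi hin hd
    exact h2 i hi hin ((Nat.modEq_iff_dvd' (Nat.one_le_pow _ _ hq1)).mpr hd).symm
  have hprimes : ∀ r : ℕ, r.Prime → r ∣ n → r ∣ q - 1 := by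
    obtain ⟨n₁, n₂, hdec, hp1, hp2⟩ := exists_decomp (q - 1) n (by omega)
    have hn20 : n₂ ≠ 0 := by
      rintro rfl
      simp at hdec
      omega
    have hn10 : n₁ ≠ 0 := by
      rintro rfl
      simp at hdec
      omega
    by_cases hn21 : n₂ = 1
    · subst hn21
      rw [mul_one] at hdec
      subst hdec
      exact hp1
    · exfalso
      have hn2 : 1 < n₂ := by omega
      have hφ := Nat.totient_lt n₂ hn2
      have hφ0 := Nat.totient_pos.mpr (by omega : 0 < n₂)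
      apply hfn (n₁ * n₂.totient) (Nat.mul_pos (by omega) hφ0)
      · rw [hdec]
        exact Nat.mul_lt_mul_of_pos_left hφ (by omega)
      · have hc1 : Nat.Coprime n₂ n₁ := by
          apply Nat.Coprime.symm
          apply Nat.coprime_of_dvd
          intro r hr hr1 hr2
          have := hp1 r hr hr1
          exact Nat.Prime.not_coprime_iff_dvd.mpr ⟨r, hr, hr2, this⟩ hp2
        have hc2 : Nat.Coprime n₂ (n₁ * (q - 1)) := Nat.Coprime.mul_right hc1 hp2
        have e1 : n * (q - 1) = n₂ * (n₁ * (q - 1)) := by rw [hdec]; ring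
        rw [e1]
        apply Nat.Coprime.mul_dvd_of_dvd_of_dvd hc2
        · have hcq : Nat.Coprime q n₂ := by
            apply Nat.Coprime.coprime_dvd_right _ hcop
            rw [hdec]; exact Dvd.intro_left _ rfl
          have h3 : q ^ n₂.totient ≡ 1 [MOD n₂] := Nat.ModEq.pow_totient hcq
          have h4 : q ^ (n₁ * n₂.totient) ≡ 1 [MOD n₂] := by
            rw [mul_comm, pow_mul]
            simpa using h3.pow n₁
          exact (Nat.modEq_iff_dvd' (Nat.one_le_pow _ _ hq1)).mp h4.symm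
        · have h3 := mul_sub_one_dvd q hq1 n₁ hn10 hp1
          refine h3.trans ?_
          rw [pow_mul]
          simpa using Nat.sub_dvd_pow_sub_pow (q ^ n₁) 1 n₂.totient
  refine ⟨hprimes, ?_⟩
  rintro ⟨k, hk⟩
  by_contra h4
  have h2q : 2 ∣ q - 1 := hprimes 2 Nat.prime_two (by rw [hk]; omega)
  have hk0 : 0 < k := by omega
  apply hfn (2 * k) (by omega) (by omega)
  have hQ : 1 ≤ q ^ 2 := Nat.one_le_pow _ _ hq1
  have h5 := mul_sub_one_dvd (q ^ 2) hQ k (by omega) (by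
    intro r hr hrk
    have h6 : r ∣ q - 1 := hprimes r hr (by rw [hk]; exact Dvd.dvd.mul_left hrk 4)
    refine h6.trans ?_
    simpa using Nat.sub_dvd_pow_sub_pow q 1 2)
  rw [← pow_mul] at h5
  refine Dvd.dvd.trans ?_ h5
  have h7 : q ^ 2 - 1 = (q + 1) * (q - 1) := by
    have := Nat.sq_sub_sq q 1
    simpa [mul_comm] using this
  rw [h7, hk]
  have h8 : 4 ∣ q + 1 := by omega
  obtain ⟨w, hw⟩ := h8
  rw [hw]
  refine ⟨w, ?_⟩
  ring

/-- The Dickson pair condition: for a prime power `q` and `n > 1`, (every prime factor of `n` divides `q - 1`, and `4 ∣ n → 4 ∣ q - 1`) holds exactly when `q ^ n ≡ 1` modulo `n * (q - 1)` but `q ^ i` is not, for `0 < i < n`. -/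
theorem result (q n : ℕ) (hq : IsPrimePow q) (hn : 1 < n) : ((∀ r : ℕ, r.Prime → r ∣ n → r ∣ q - 1) ∧ (4 ∣ n → 4 ∣ q - 1)) ↔ (q ^ n ≡ 1 [MOD n * (q - 1)] ∧ ∀ i : ℕ, 0 < i → i < n → ¬ q ^ i ≡ 1 [MOD n * (q - 1)]) := by
  have hq2 : 2 ≤ q := hq.two_le
  exact ⟨fun h => forward q n hq2 hn h.1 h.2, fun h => backward q n hq2 hn h.1 h.2⟩


end Cfsg.Agent.S0694
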