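import Cfsg.Statements.S0698
import Mathlib
import Cfsg.Agent.Lib.Perm.NormalTrans

set_option autoImplicit false
open Cfsg

namespace Cfsg.Agent.S0698

open MulAction Cfsg.Agent.Lib.Perm

/-- Jordan's Theorem on normal subgroups of multiply transitive groups: if `G` is `k`-transitive (`k > 1`) of degree greater than `k`, a non-trivial normal subgroup is `(k-1)`-transitive, except possibly for `k = 3` when it may be an elementary abelian 2-group. -/
theorem result {α : Type*} [Fintype α] [DecidableEq α] (G : Subgroup (Equiv.Perm α)) {k : ℕ} (hk : 1 < k) (hdeg : k < Fintype.card α) (hG : MulAction.IsMultiplyPretransitive G α k) (N : Subgroup G) [N.Normal] (hN : N ≠ ⊥) : MulAction.IsMultiplyPretransitive N α (k - 1) ∨ (k = 3 ∧ IsMulCommutative N ∧ ∀ n ∈ N, n ^ 2 = 1) := by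
  obtain ⟨k', rfl⟩ : ∃ k', k = k' + 2 := ⟨k - 2, by omega⟩
  have hcard : Nat.card α = Fintype.card α := Nat.card_eq_fintype_card
  have hGp : IsMultiplyPreprimitive G α (k' + 1) :=
    isMultiplyPreprimitive_of_isMultiplyPretransitive_succ _ _ (by
      rw [ENat.card_eq_coe_fintype_card]
      exact_mod_cast hdeg.le)
  have hle : ∀ m, m ≤ k' + 1 → IsMultiplyPreprimitive G α m := by
    intro m hm
    exact isMultiplyPreprimitive_of_le _ _ hGp hm (by
      rw [ENat.card_eq_coe_fintype_card]
      exact_mod_cast (by omega : k' + 1 ≤ Fintype.card α))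
  by_cases hnr : ∃ a : α, stabilizer N a ≠ ⊥
  · left
    exact normal_multiplyTransitive k' G α (by omega) hGp N hN hnr
  · push Not at hnr
    have hprim : IsPreprimitive G α := (is_one_preprimitive_iff _ _).mp (hle 1 (by omega))
    have htr : IsPretransitive N α := pretransitive_of_normal hprim N hN
    rcases Nat.lt_or_ge k' 1 with h0 | h1
    · left
      obtain rfl : k' = 0 := by omega
      exact is_one_pretransitive_iff.mpr htr
    rcases Nat.lt_or_ge k' 2 with h2 | h2
    · right
      obtain rfl : k' = 1 := by omega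
      refine ⟨rfl, ?_⟩
      rcases Cfsg.Agent.S0695.result (by omega) (hle 2 (by omega)) N htr hnr with h | ⟨h3, h4, -⟩
      · omega
      · exact ⟨h3, h4⟩
    · exfalso
      have := Cfsg.Agent.S0696.result (by omega) (hle 3 (by omega)) N htr hnr
      omega

end Cfsg.Agent.S0698
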