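import Cfsg.Statements.S0699
import Mathlib
import Cfsg.Agent.Lib.Perm.Wagner
import Cfsg.Agent.Lib.Perm.Trans
import Cfsg.Agent.Lib.Perm.NormalTrans
import Cfsg.Agent.S0698

set_option autoImplicit false
open Cfsg

namespace Cfsg.Agent.S0699

open MulAction Cfsg.Agent.Lib.Perm

/-- Wagner's Theorem: a non-trivial normal subgroup of a triply transitive permutation group of odd degree at least 5 is triply transitive. -/
theorem result {α : Type*} [Fintype α] [DecidableEq α] (G : Subgroup (Equiv.Perm α)) (hodd : Odd (Fintype.card α)) (h5 : 5 ≤ Fintype.card α) (hG : MulAction.IsMultiplyPretransitive G α 3) (N : Subgroup G) [N.Normal] (hN : N ≠ ⊥) : MulAction.IsMultiplyPretransitive N α 3 := by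
  classical
  have hcard : Nat.card α = Fintype.card α := Nat.card_eq_fintype_card
  have hprim : IsPreprimitive G α := by
    haveI h2' : IsMultiplyPretransitive G α 2 :=
      isMultiplyPretransitive_of_le' (n := 3) (by omega) (by
        rw [ENat.card_eq_coe_fintype_card]
        exact_mod_cast (by omega : 3 ≤ Fintype.card α))
    exact isPreprimitive_of_is_two_pretransitive h2'
  have htrN : IsPretransitive N α := pretransitive_of_normal hprim N hN
  have h2 : IsMultiplyPretransitive N α 2 := by
    rcases Cfsg.Agent.S0698.result (k := 3) G (by norm_num) (by omega) hG N hN with h | ⟨-, -, hsq⟩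
    · exact h
    · exfalso
      -- `N` would be a transitive `2`-group
      haveI : Fact (Nat.Prime 2) := ⟨Nat.prime_two⟩
      have hNp : IsPGroup 2 N := by
        intro g
        refine ⟨1, ?_⟩
        rw [pow_one]
        exact Subtype.ext (hsq g g.2)
      obtain ⟨a⟩ : Nonempty α := by
        rw [← Fintype.card_pos_iff]; omega
      have h3 := index_stabilizer_of_transitive N a
      rw [hcard] at h3
      have h4 : Fintype.card α ∣ Nat.card N := by
        rw [← h3]
        exact Subgroup.index_dvd_card _
      obtain ⟨k, hk⟩ := IsPGroup.iff_card.mp hNp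
      rw [hk] at h4
      obtain ⟨j, -, hj⟩ := (Nat.dvd_prime_pow Nat.prime_two).mp h4
      rw [hj] at h5 hodd
      have hj0 : j ≠ 0 := by
        rintro rfl
        omega
      rw [Nat.odd_pow_iff hj0] at hodd
      exact absurd hodd (by decide)
  have hmain := wagner_core (N := N) (X := α) h2 (by rw [hcard]; exact hodd) (by
    intro a b c c' hab hca hcb hca' hcb'
    have hx : Function.Injective ![a, b, c] := by
      intro i j hij
      fin_cases i <;> fin_cases j <;> simp_all
    have hy : Function.Injective ![a, b, c'] := by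
      intro i j hij
      fin_cases i <;> fin_cases j <;> simp_all
    obtain ⟨g, hg⟩ := hG.exists_smul_eq ⟨![a, b, c], hx⟩ ⟨![a, b, c'], hy⟩
    have hg0 : g • a = a := DFunLike.congr_fun hg 0
    have hg1 : g • b = b := DFunLike.congr_fun hg 1
    have hg2 : g • c = c' := DFunLike.congr_fun hg 2
    refine ⟨MulAut.conjNormal g, MulAction.toPerm g, ?_, hg0, hg1, hg2⟩
    intro n x
    change g • ((n : G) • x) = ((g * (n : G) * g⁻¹ : G)) • (g • x)
    simp [mul_smul])
  obtain ⟨a, b, hab⟩ : ∃ a b : α, a ≠ b := by
    have : Nontrivial α := Fintype.one_lt_card_iff_nontrivial.mp (by omega)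
    exact exists_pair_ne α
  have hs : ({a, b} : Set α).encard = (2 : ℕ) := by
    rw [Set.encard_pair hab]
    rfl
  refine isMultiplyPretransitive_add_of_fixing (m := 2) (n := 1) ({a, b} : Set α) hs h2 ?_
  rw [is_one_pretransitive_iff]
  refine ⟨fun x y => ?_⟩
  have hxm : (x : α) ∉ ({a, b} : Set α) := x.2
  have hym : (y : α) ∉ ({a, b} : Set α) := y.2
  simp only [Set.mem_insert_iff, Set.mem_singleton_iff, not_or] at hxm hym
  obtain ⟨n, h1, h3, h4⟩ := hmain a b x y hab hxm.1 hxm.2 hym.1 hym.2
  refine ⟨⟨n, ?_⟩, Subtype.ext h4⟩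
  rw [mem_fixingSubgroup_iff]
  rintro z (rfl | h)
  · exact h1
  · rw [Set.mem_singleton_iff] at h
    subst h
    exact h3

end Cfsg.Agent.S0699
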