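import Cfsg.Statements.S0701
import Mathlib

set_option autoImplicit false
open Cfsg

namespace Cfsg.Agent.S0701

/-- The centraliser in the full symmetric group of a transitive permutation group `G` is semiregular, and it is transitive if and only if `G` is regular. -/
theorem result {α : Type*} (G : Subgroup (Equiv.Perm α)) [MulAction.IsPretransitive G α] : (∀ c ∈ Subgroup.centralizer (G : Set (Equiv.Perm α)), ∀ a : α, c a = a → c = 1) ∧ (MulAction.IsPretransitive (Subgroup.centralizer (G : Set (Equiv.Perm α))) α ↔ ∀ a : α, MulAction.stabilizer G a = ⊥) := by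
  have comm : ∀ c ∈ Subgroup.centralizer (G : Set (Equiv.Perm α)), ∀ g ∈ G, ∀ x : α, c (g x) = g (c x) := by
    intro c hc g hg x
    have := Subgroup.mem_centralizer_iff.mp hc g hg
    have h2 := congrArg (fun f : Equiv.Perm α => f x) this
    simpa using h2.symm
  have semi : ∀ c ∈ Subgroup.centralizer (G : Set (Equiv.Perm α)), ∀ a : α, c a = a → c = 1 := by
    intro c hc a hca
    ext x
    obtain ⟨g, hg⟩ := MulAction.exists_smul_eq G a x
    have hgx : (g : Equiv.Perm α) a = x := hg
    rw [← hgx, comm c hc g g.2, hca]
    simp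
  refine ⟨semi, ?_, ?_⟩
  · intro htrans a
    rw [eq_bot_iff]
    intro g hg
    have hga : (g : Equiv.Perm α) a = a := hg
    rw [Subgroup.mem_bot]
    ext x
    obtain ⟨c, hc⟩ := MulAction.exists_smul_eq (Subgroup.centralizer (G : Set (Equiv.Perm α))) a x
    have hcx : (c : Equiv.Perm α) a = x := hc
    rw [← hcx, ← comm c c.2 g g.2, hga]
    simp
  · intro hreg
    -- regular: define the centralising permutation by transport
    refine ⟨fun x y => ?_⟩
    classical
    obtain ⟨g₀, hg₀⟩ := MulAction.exists_smul_eq G x y
    have hg0 : (g₀ : Equiv.Perm α) x = y := hg₀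
    have huniq : ∀ g h : G, (g : Equiv.Perm α) x = (h : Equiv.Perm α) x → g = h := by
      intro g h hgh
      have : h⁻¹ * g ∈ MulAction.stabilizer G x := by
        rw [MulAction.mem_stabilizer_iff]
        change ((h⁻¹ * g : G) : Equiv.Perm α) x = x
        simp [hgh]
      rw [hreg x, Subgroup.mem_bot] at this
      exact (inv_mul_eq_one.mp this).symm
    -- c (g x) = g y
    have hex : ∀ z : α, ∃ g : G, (g : Equiv.Perm α) x = z := fun z =>
      MulAction.exists_smul_eq G x z
    choose φ hφ using hex
    have hφ' : ∀ g : G, φ ((g : Equiv.Perm α) x) = g := fun g => huniq _ _ (hφ _)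
    let c : Equiv.Perm α :=
      { toFun := fun z => ((φ z * g₀ : G) : Equiv.Perm α) x
        invFun := fun z => ((φ z * g₀⁻¹ : G) : Equiv.Perm α) x
        left_inv := by
          intro z
          simp only
          rw [hφ', mul_assoc, mul_inv_cancel, mul_one, hφ]
        right_inv := by
          intro z
          simp only
          rw [hφ', mul_assoc, inv_mul_cancel, mul_one, hφ] }
    have hc : ∀ z, c z = ((φ z * g₀ : G) : Equiv.Perm α) x := fun z => rfl
    have hcen : c ∈ Subgroup.centralizer (G : Set (Equiv.Perm α)) := by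
      rw [Subgroup.mem_centralizer_iff]
      intro g hg
      ext z
      simp only [Equiv.Perm.coe_mul, Function.comp_apply]
      rw [hc, hc]
      have h1 : φ (g z) = ⟨g, hg⟩ * φ z := by
        apply huniq
        rw [hφ]
        simp [hφ]
      rw [h1]
      simp [mul_assoc]
    refine ⟨⟨c, hcen⟩, ?_⟩
    change c x = y
    rw [hc]
    have h2 : φ x = 1 := by
      apply huniq
      rw [hφ]; simp
    rw [h2]
    simpa using hg0

end Cfsg.Agent.S0701
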