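import Cfsg.Statements.S0702
import Mathlib

set_option autoImplicit false
open Cfsg

namespace Cfsg.Agent.S0702

open MulAction

theorem mem_normalizer_of_conj_le {Γ : Type*} [Group Γ] [Finite Γ] (H : Subgroup Γ) (h : Γ)
    (hh : ∀ s ∈ H, h * s * h⁻¹ ∈ H) : h ∈ Subgroup.normalizer (H : Set Γ) := by
  have hpow : ∀ n : ℕ, ∀ s ∈ H, h ^ n * s * (h ^ n)⁻¹ ∈ H := by
    intro n
    induction n with
    | zero => simp
    | succ n ih =>
      intro s hs
      have := hh _ (ih s hs)
      rw [pow_succ']
      convert this using 1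
      group
  rw [Subgroup.mem_normalizer_iff]
  intro s
  refine ⟨hh s, fun hs => ?_⟩
  have hfin : 0 < orderOf h := orderOf_pos h
  have h1 : h ^ (orderOf h - 1) * h = 1 := by
    rw [← pow_succ, Nat.sub_add_cancel hfin, pow_orderOf_eq_one]
  have h2 := hpow (orderOf h - 1) _ hs
  have h3 : (h ^ (orderOf h - 1)) = h⁻¹ := eq_inv_of_mul_eq_one_left h1
  rw [h3] at h2
  convert h2 using 1
  group


/-- For a transitive permutation group `G` on a finite set, the centraliser of `G` in the symmetric group is isomorphic to `N_G(G_ω)/G_ω`, and its orbit of `ω` is the set of fixed points of `G_ω`. -/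
theorem result {α : Type*} [Finite α] (G : Subgroup (Equiv.Perm α)) [MulAction.IsPretransitive G α] (a : α) : Nonempty (Subgroup.centralizer (G : Set (Equiv.Perm α)) ≃* Subgroup.normalizer ((MulAction.stabilizer G a : Subgroup G) : Set G) ⧸ (MulAction.stabilizer G a).subgroupOf (Subgroup.normalizer ((MulAction.stabilizer G a : Subgroup G) : Set G))) ∧ MulAction.orbit (Subgroup.centralizer (G : Set (Equiv.Perm α))) a = MulAction.fixedPoints (MulAction.stabilizer G a) α := by
  classical
  have hstabfix : ∀ (h : G), (∀ s ∈ stabilizer G a, s • (h • a) = h • a) →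
      h ∈ Subgroup.normalizer ((stabilizer G a : Subgroup G) : Set G) := by
    intro h hh
    have h1 := mem_normalizer_of_conj_le (stabilizer G a) h⁻¹ (by
      intro s hs
      rw [mem_stabilizer_iff, mul_smul, mul_smul, inv_inv, hh s hs, inv_smul_smul])
    exact (Subgroup.normalizer _).inv_mem_iff.mp h1
  -- choice of transporters
  choose τ hτ using fun x : α => exists_smul_eq G a x
  -- the function attached to an element of the normaliser
  let cfun : Subgroup.normalizer ((stabilizer G a : Subgroup G) : Set G) → α → α :=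
    fun n x => (τ x) • (((n : G))⁻¹ • a)
  have hc : ∀ n (g : G), cfun n (g • a) = g • (((n : G))⁻¹ • a) := by
    intro n g
    change (τ (g • a)) • (((n : G))⁻¹ • a) = g • (((n : G))⁻¹ • a)
    have h1 : g⁻¹ * τ (g • a) ∈ stabilizer G a := by
      rw [mem_stabilizer_iff, mul_smul, hτ, inv_smul_smul]
    have h2 := (Subgroup.mem_normalizer_iff.mp n.2 _).mp h1
    have h4 := mem_stabilizer_iff.mp h2
    rw [mul_smul, mul_smul, smul_eq_iff_eq_inv_smul, mul_smul, inv_smul_eq_iff] at h4
    exact h4
  have hcdef : ∀ n x, cfun n x = (τ x) • (((n : G))⁻¹ • a) := fun _ _ => rfl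
  let f₀ : Subgroup.normalizer ((stabilizer G a : Subgroup G) : Set G) →* Function.End α :=
    { toFun := cfun
      map_one' := by
        funext x
        change (τ x) • (((1 : G))⁻¹ • a) = x
        rw [inv_one, one_smul, hτ]
      map_mul' := by
        intro n m
        funext x
        change (τ x) • ((((n * m : Subgroup.normalizer _) : G))⁻¹ • a) = cfun n (cfun m x)
        have h1 : cfun m x = (τ x * ((m : G))⁻¹) • a := by
          rw [hcdef, mul_smul]
        rw [h1, hc, mul_smul]
        congr 1 }
  let f : Subgroup.normalizer ((stabilizer G a : Subgroup G) : Set G) →* Equiv.Perm α :=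
    MonoidHom.toHomPerm f₀
  have hf : ∀ n x, f n x = cfun n x := fun _ _ => rfl
  have hcomm : ∀ n, f n ∈ Subgroup.centralizer (G : Set (Equiv.Perm α)) := by
    intro n
    rw [Subgroup.mem_centralizer_iff]
    intro h hh
    ext x
    obtain ⟨g, rfl⟩ := exists_smul_eq G a x
    have h1 : h (g • a) = (⟨h, hh⟩ * g : G) • a := by
      rw [mul_smul]; rfl
    simp only [Equiv.Perm.coe_mul, Function.comp_apply]
    rw [h1, hf, hc, hf, hc, mul_smul]
    rfl
  let F : Subgroup.normalizer ((stabilizer G a : Subgroup G) : Set G) →*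
      Subgroup.centralizer (G : Set (Equiv.Perm α)) := f.codRestrict _ hcomm
  have hF : ∀ n x, (F n : Equiv.Perm α) x = cfun n x := fun _ _ => rfl
  have hcomm' : ∀ (c : Subgroup.centralizer (G : Set (Equiv.Perm α))) (g : G) (x : α),
      (c : Equiv.Perm α) (g • x) = g • (c : Equiv.Perm α) x := by
    intro c g x
    have h1 := (Subgroup.mem_centralizer_iff.mp c.2) g g.2
    have h2 := congrArg (fun σ : Equiv.Perm α => σ x) h1
    exact h2.symm
  have hsurj : Function.Surjective F := by
    intro c
    obtain ⟨h, hh⟩ := exists_smul_eq G a ((c : Equiv.Perm α) a)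
    have hN : h ∈ Subgroup.normalizer ((stabilizer G a : Subgroup G) : Set G) := by
      apply hstabfix
      intro s hs
      rw [hh, ← hcomm', mem_stabilizer_iff.mp hs]
    refine ⟨⟨h, hN⟩⁻¹, ?_⟩
    apply Subtype.ext
    ext x
    obtain ⟨g, rfl⟩ := exists_smul_eq G a x
    rw [hF, hc, hcomm', ← hh]
    simp
  have hker : F.ker = (stabilizer G a).subgroupOf
      (Subgroup.normalizer ((stabilizer G a : Subgroup G) : Set G)) := by
    ext n
    rw [MonoidHom.mem_ker, Subgroup.mem_subgroupOf, mem_stabilizer_iff]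
    constructor
    · intro h1
      have h2 := congrArg (fun c : Subgroup.centralizer (G : Set (Equiv.Perm α)) =>
        (c : Equiv.Perm α) ((1 : G) • a)) h1
      simp only [hF, hc] at h2
      simp only [one_smul] at h2
      have h3 : (n : G)⁻¹ • a = a := by
        simpa using h2
      exact inv_smul_eq_iff.mp h3 |>.symm
    · intro h1
      apply Subtype.ext
      ext x
      rw [hF, hcdef]
      have h3 : (n : G)⁻¹ • a = a := inv_smul_eq_iff.mpr h1.symm
      rw [h3, hτ]
      rfl
  refine ⟨⟨((QuotientGroup.quotientMulEquivOfEq hker.symm).trans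
    (QuotientGroup.quotientKerEquivOfSurjective F hsurj)).symm⟩, ?_⟩
  ext b
  constructor
  · rintro ⟨c, rfl⟩ ⟨s, hs⟩
    change s • (c : Equiv.Perm α) a = (c : Equiv.Perm α) a
    rw [← hcomm', mem_stabilizer_iff.mp hs]
  · intro hb
    obtain ⟨h, hh⟩ := exists_smul_eq G a b
    have hN : h ∈ Subgroup.normalizer ((stabilizer G a : Subgroup G) : Set G) := by
      apply hstabfix
      intro s hs
      rw [hh]
      exact hb ⟨s, hs⟩
    refine ⟨F (⟨h, hN⟩⁻¹), ?_⟩
    change (F (⟨h, hN⟩⁻¹) : Equiv.Perm α) a = b
    have h1 := hc (⟨h, hN⟩⁻¹) 1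
    rw [one_smul] at h1
    rw [hF, h1, ← hh]
    simp

end Cfsg.Agent.S0702
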