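import Cfsg.Statements.S0703
import Mathlib

set_option autoImplicit false
open Cfsg

namespace Cfsg.Agent.S0703

/-- An abelian transitive minimal normal subgroup `M` of a permutation group on a finite set is self-centralising in the symmetric group, regular, elementary abelian, and is the unique minimal normal subgroup. -/
theorem result {α : Type*} [Finite α] (G : Subgroup (Equiv.Perm α)) (M : Subgroup G) [M.Normal] (hM : M ≠ ⊥) (hmin : ∀ L : Subgroup G, L.Normal → L ≤ M → L = ⊥ ∨ L = M) (hab : IsMulCommutative M) (htrans : MulAction.IsPretransitive M α) : Subgroup.centralizer ((M.map G.subtype : Subgroup (Equiv.Perm α)) : Set (Equiv.Perm α)) = M.map G.subtype ∧ (∀ a : α, MulAction.stabilizer M a = ⊥) ∧ (∃ p : ℕ, p.Prime ∧ ∀ m ∈ M, m ^ p = 1) ∧ ∀ L : Subgroup G, L.Normal → L ≠ ⊥ → (∀ L' : Subgroup G, L'.Normal → L' ≤ L → L' = ⊥ ∨ L' = L) → L = M := by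
  classical
  set M' := M.map G.subtype with hM'
  have hM'mem : ∀ g : Equiv.Perm α, g ∈ M' ↔ ∃ h : g ∈ G, (⟨g, h⟩ : G) ∈ M := by
    intro g
    constructor
    · rintro ⟨x, hx, rfl⟩
      exact ⟨x.2, hx⟩
    · rintro ⟨h, hg⟩
      exact ⟨⟨g, h⟩, hg, rfl⟩
  have hcomm : ∀ x ∈ M, ∀ y ∈ M, x * y = y * x := by
    intro x hx y hy
    have := mul_comm' (⟨x, hx⟩ : M) ⟨y, hy⟩
    exact congrArg Subtype.val this
  have hsemi : ∀ c ∈ Subgroup.centralizer (M' : Set (Equiv.Perm α)), ∀ a : α, c a = a → c = 1 := by
    intro c hc a hca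
    ext x
    obtain ⟨m, hm⟩ := MulAction.exists_smul_eq M a x
    have hmx : ((m : G) : Equiv.Perm α) a = x := hm
    have hmem : ((m : G) : Equiv.Perm α) ∈ M' := ⟨m, m.2, rfl⟩
    have h1 := Subgroup.mem_centralizer_iff.mp hc _ hmem
    have h2 := congrArg (fun f : Equiv.Perm α => f a) h1
    simp only [Equiv.Perm.coe_mul, Function.comp_apply, hca] at h2
    rw [hmx] at h2
    simp [← h2]
  have hle : M' ≤ Subgroup.centralizer (M' : Set (Equiv.Perm α)) := by
    rintro _ ⟨x, hx, rfl⟩
    rw [Subgroup.mem_centralizer_iff]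
    rintro _ ⟨y, hy, rfl⟩
    have := hcomm y hy x hx
    exact congrArg Subtype.val this
  have hcent : Subgroup.centralizer (M' : Set (Equiv.Perm α)) = M' := by
    apply le_antisymm _ hle
    intro c hc
    by_cases hne : Nonempty α
    · obtain ⟨a⟩ := hne
      obtain ⟨m, hm⟩ := MulAction.exists_smul_eq M a (c a)
      have hmx : ((m : G) : Equiv.Perm α) a = c a := hm
      have hmem : ((m : G) : Equiv.Perm α) ∈ M' := ⟨m, m.2, rfl⟩
      have h1 : ((m : G) : Equiv.Perm α)⁻¹ * c = 1 := by
        apply hsemi _ (Subgroup.mul_mem _ (Subgroup.inv_mem _ (hle hmem)) hc) a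
        simp only [Equiv.Perm.coe_mul, Function.comp_apply]
        rw [← hmx]
        simp
      have h2 : c = ((m : G) : Equiv.Perm α) := (inv_mul_eq_one.mp h1).symm
      rw [h2]
      exact hmem
    · have : IsEmpty α := not_nonempty_iff.mp hne
      have : c = 1 := by
        ext x
        exact (IsEmpty.false x).elim
      rw [this]
      exact Subgroup.one_mem _
  haveI hGfin : Finite (Equiv.Perm α) := inferInstance
  refine ⟨hcent, ?_, ?_, ?_⟩
  · intro a
    rw [eq_bot_iff]
    intro m hm
    rw [Subgroup.mem_bot]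
    have hm' : ((m : G) : Equiv.Perm α) a = a := hm
    have h1 := hsemi _ (hle ⟨m, m.2, rfl⟩) a hm'
    apply Subtype.ext
    apply Subtype.ext
    exact h1
  · -- prime exponent
    haveI : Nontrivial M := (Subgroup.nontrivial_iff_ne_bot M).mpr hM
    obtain ⟨p, hp, hdvd⟩ : ∃ p : ℕ, p.Prime ∧ p ∣ Nat.card M := by
      refine ⟨(Nat.card M).minFac, Nat.minFac_prime ?_, Nat.minFac_dvd _⟩
      exact Finite.one_lt_card.ne'
    haveI : Fact p.Prime := ⟨hp⟩
    obtain ⟨x, hx⟩ := exists_prime_orderOf_dvd_card' p hdvd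
    let L : Subgroup G :=
      { carrier := {g | g ∈ M ∧ g ^ p = 1}
        mul_mem' := by
          rintro a b ⟨ha, ha'⟩ ⟨hb, hb'⟩
          refine ⟨M.mul_mem ha hb, ?_⟩
          have hc : Commute a b := hcomm a ha b hb
          rw [hc.mul_pow, ha', hb', one_mul]
        one_mem' := ⟨M.one_mem, one_pow _⟩
        inv_mem' := by
          rintro a ⟨ha, ha'⟩
          exact ⟨M.inv_mem ha, by rw [inv_pow, ha', inv_one]⟩ }
    have hLn : L.Normal := by
      constructor
      rintro a ⟨ha, ha'⟩ g
      refine ⟨Subgroup.Normal.conj_mem inferInstance a ha g, ?_⟩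
      rw [conj_pow, ha']
      simp
    have hLle : L ≤ M := fun a ha => ha.1
    rcases hmin L hLn hLle with h | h
    · exfalso
      have hxL : (x : G) ∈ L := ⟨x.2, by
        have := pow_orderOf_eq_one x
        rw [hx] at this
        have h2 := congrArg Subtype.val this
        simpa using h2⟩
      rw [h, Subgroup.mem_bot] at hxL
      have hx1 : x = 1 := Subtype.ext hxL
      rw [hx1, orderOf_one] at hx
      exact hp.one_lt.ne hx
    · refine ⟨p, hp, fun m hm => ?_⟩
      rw [← h] at hm
      exact hm.2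
  · intro L hLn hLbot hLmin
    have hinf : (L ⊓ M).Normal := inferInstance
    rcases hLmin (L ⊓ M) hinf inf_le_left with h | h
    · exfalso
      have hcommLM : ∀ l ∈ L, ∀ m ∈ M, l * m = m * l := by
        intro l hl m hm
        exact Subgroup.commute_of_normal_of_disjoint L M hLn inferInstance (by
          rw [disjoint_iff]; exact h) l m hl hm
      have hLle : L ≤ M := by
        intro l hl
        have h1 : (l : Equiv.Perm α) ∈ Subgroup.centralizer (M' : Set (Equiv.Perm α)) := by
          rw [Subgroup.mem_centralizer_iff]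
          rintro _ ⟨y, hy, rfl⟩
          have := hcommLM l hl y hy
          exact (congrArg Subtype.val this).symm
        rw [hcent] at h1
        obtain ⟨y, hy, hyl⟩ := h1
        have : y = l := Subtype.ext hyl
        rwa [← this]
      apply hLbot
      rw [eq_bot_iff, ← h]
      exact le_inf le_rfl hLle
    · have hLM : L ≤ M := by
        rw [← h]; exact inf_le_right
      rcases hmin L hLn hLM with h2 | h2
      · exact absurd h2 hLbot
      · exact h2

end Cfsg.Agent.S0703
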