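import Cfsg.Statements.S0704
import Mathlib

set_option autoImplicit false
open Cfsg

namespace Cfsg.Agent.S0704

/-- Two distinct transitive minimal normal subgroups `M`, `N` of a permutation group are regular, non-abelian, isomorphic, each other's centraliser in the symmetric group, and the only minimal normal subgroups. -/
theorem result {α : Type*} (G : Subgroup (Equiv.Perm α)) (M N : Subgroup G) [M.Normal] [N.Normal] (hM : M ≠ ⊥) (hN : N ≠ ⊥) (hMmin : ∀ L : Subgroup G, L.Normal → L ≤ M → L = ⊥ ∨ L = M) (hNmin : ∀ L : Subgroup G, L.Normal → L ≤ N → L = ⊥ ∨ L = N) (hMN : M ≠ N) (hMt : MulAction.IsPretransitive M α) (hNt : MulAction.IsPretransitive N α) : (∀ a : α, MulAction.stabilizer M a = ⊥) ∧ (∀ a : α, MulAction.stabilizer N a = ⊥) ∧ ¬ IsMulCommutative M ∧ Nonempty (M ≃* N) ∧ Subgroup.centralizer ((M.map G.subtype : Subgroup (Equiv.Perm α)) : Set (Equiv.Perm α)) = N.map G.subtype ∧ Subgroup.centralizer ((N.map G.subtype : Subgroup (Equiv.Perm α)) : Set (Equiv.Perm α)) = M.map G.subtype ∧ ∀ L : Subgroup G, L.Normal → L ≠ ⊥ → (∀ L' :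 Subgroup G, L'.Normal → L' ≤ L → L' = ⊥ ∨ L' = L) → L = M ∨ L = N := by
  classical
  -- general facts about centralisers
  have hInter : M ⊓ N = ⊥ := by
    rcases hMmin (M ⊓ N) inferInstance inf_le_left with h | h
    · exact h
    · exfalso
      have hMN' : M ≤ N := by
        rw [← h]; exact inf_le_right
      rcases hNmin M inferInstance hMN' with h2 | h2
      · exact hM h2
      · exact hMN h2
  have hcomm : ∀ m ∈ M, ∀ n ∈ N, m * n = n * m := by
    intro m hm n hn
    exact Subgroup.commute_of_normal_of_disjoint M N inferInstance inferInstance (by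
      rw [disjoint_iff]; exact hInter) m n hm hn
  -- semiregularity of centraliser of a transitive subgroup
  have hsemi : ∀ (A : Subgroup G), MulAction.IsPretransitive A α →
      ∀ c ∈ Subgroup.centralizer ((A.map G.subtype : Subgroup (Equiv.Perm α)) : Set (Equiv.Perm α)),
      ∀ a : α, c a = a → c = 1 := by
    intro A hA c hc a hca
    ext x
    obtain ⟨m, hm⟩ := MulAction.exists_smul_eq A a x
    have hmx : ((m : G) : Equiv.Perm α) a = x := hm
    have hmem : ((m : G) : Equiv.Perm α) ∈ A.map G.subtype := ⟨m, m.2, rfl⟩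
    have h1 := Subgroup.mem_centralizer_iff.mp hc _ hmem
    have h2 := congrArg (fun f : Equiv.Perm α => f a) h1
    simp only [Equiv.Perm.coe_mul, Function.comp_apply, hca] at h2
    rw [hmx] at h2
    simp [← h2]
  have hCent : ∀ (A B : Subgroup G), (∀ m ∈ A, ∀ n ∈ B, m * n = n * m) →
      MulAction.IsPretransitive A α → MulAction.IsPretransitive B α →
      Subgroup.centralizer ((A.map G.subtype : Subgroup (Equiv.Perm α)) : Set (Equiv.Perm α)) = B.map G.subtype := by
    intro A B hAB hA hB
    have hle : B.map G.subtype ≤ Subgroup.centralizer ((A.map G.subtype : Subgroup (Equiv.Perm α)) : Set (Equiv.Perm α)) := by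
      rintro _ ⟨x, hx, rfl⟩
      rw [Subgroup.mem_centralizer_iff]
      rintro _ ⟨y, hy, rfl⟩
      have := hAB y hy x hx
      exact congrArg Subtype.val this
    apply le_antisymm _ hle
    intro c hc
    by_cases hne : Nonempty α
    · obtain ⟨a⟩ := hne
      obtain ⟨m, hm⟩ := MulAction.exists_smul_eq B a (c a)
      have hmx : ((m : G) : Equiv.Perm α) a = c a := hm
      have hmem : ((m : G) : Equiv.Perm α) ∈ B.map G.subtype := ⟨m, m.2, rfl⟩
      have h1 : ((m : G) : Equiv.Perm α)⁻¹ * c = 1 := by
        apply hsemi A hA _ (Subgroup.mul_mem _ (Subgroup.inv_mem _ (hle hmem)) hc) a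
        simp only [Equiv.Perm.coe_mul, Function.comp_apply]
        rw [← hmx]
        simp
      have h2 : c = ((m : G) : Equiv.Perm α) := (inv_mul_eq_one.mp h1).symm
      rw [h2]
      exact hmem
    · have : IsEmpty α := not_nonempty_iff.mp hne
      have : c = 1 := by
        ext x
        exact (IsEmpty.false x).elim
      rw [this]
      exact Subgroup.one_mem _
  have hcomm' : ∀ n ∈ N, ∀ m ∈ M, n * m = m * n := fun n hn m hm => (hcomm m hm n hn).symm
  have hCMN := hCent M N hcomm hMt hNt
  have hCNM := hCent N M hcomm' hNt hMt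
  have hReg : ∀ (A B : Subgroup G), (∀ m ∈ A, ∀ n ∈ B, m * n = n * m) →
      MulAction.IsPretransitive A α → ∀ a : α, MulAction.stabilizer B a = ⊥ := by
    intro A B hAB hA a
    rw [eq_bot_iff]
    intro m hm
    rw [Subgroup.mem_bot]
    have hm' : ((m : G) : Equiv.Perm α) a = a := hm
    have hmem : ((m : G) : Equiv.Perm α) ∈ Subgroup.centralizer ((A.map G.subtype : Subgroup (Equiv.Perm α)) : Set (Equiv.Perm α)) := by
      rw [Subgroup.mem_centralizer_iff]
      rintro _ ⟨y, hy, rfl⟩
      have := hAB y hy m m.2
      exact congrArg Subtype.val this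
    have h1 := hsemi A hA _ hmem a hm'
    apply Subtype.ext
    apply Subtype.ext
    exact h1
  have hRM := hReg N M hcomm' hNt
  have hRN := hReg M N hcomm hMt
  refine ⟨hRM, hRN, ?_, ?_, hCMN, hCNM, ?_⟩
  · intro hab
    have hMN' : M ≤ N := by
      intro m hm
      have h1 : ((m : G) : Equiv.Perm α) ∈ Subgroup.centralizer ((M.map G.subtype : Subgroup (Equiv.Perm α)) : Set (Equiv.Perm α)) := by
        rw [Subgroup.mem_centralizer_iff]
        rintro _ ⟨y, hy, rfl⟩
        have := mul_comm' (⟨y, hy⟩ : M) ⟨m, hm⟩
        exact congrArg (fun z : M => ((z : G) : Equiv.Perm α)) this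
      rw [hCMN] at h1
      obtain ⟨y, hy, hyl⟩ := h1
      have : y = m := Subtype.ext hyl
      rwa [← this]
    apply hM
    rw [eq_bot_iff, ← hInter]
    exact le_inf le_rfl hMN'
  · -- isomorphism
    by_cases hne : Nonempty α
    · obtain ⟨a⟩ := hne
      have hNbij : ∀ x : α, ∃! n : N, (n : G) • a = x := by
        intro x
        obtain ⟨n, hn⟩ := MulAction.exists_smul_eq N a x
        refine ⟨n, hn, ?_⟩
        intro n' hn'
        have h1 : n⁻¹ * n' ∈ MulAction.stabilizer N a := by
          rw [MulAction.mem_stabilizer_iff, mul_smul]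
          change n⁻¹ • ((n' : G) • a) = a
          rw [hn']
          rw [← hn]
          exact inv_smul_smul n a
        rw [hRN a, Subgroup.mem_bot] at h1
        exact (inv_mul_eq_one.mp h1).symm
      have hMbij : ∀ x : α, ∃! n : M, (n : G) • a = x := by
        intro x
        obtain ⟨n, hn⟩ := MulAction.exists_smul_eq M a x
        refine ⟨n, hn, ?_⟩
        intro n' hn'
        have h1 : n⁻¹ * n' ∈ MulAction.stabilizer M a := by
          rw [MulAction.mem_stabilizer_iff, mul_smul]
          change n⁻¹ • ((n' : G) • a) = a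
          rw [hn']
          rw [← hn]
          exact inv_smul_smul n a
        rw [hRM a, Subgroup.mem_bot] at h1
        exact (inv_mul_eq_one.mp h1).symm
      choose ν hν hν' using hNbij
      choose μ hμ hμ' using hMbij
      -- φ m := (ν (m a))⁻¹
      have hmulν : ∀ m₁ m₂ : M, ν (((m₁ * m₂ : M) : G) • a) = ν ((m₂ : G) • a) * ν ((m₁ : G) • a) := by
        intro m₁ m₂
        symm
        apply hν'
        change ((ν ((m₂ : G) • a) : G) * (ν ((m₁ : G) • a) : G)) • a = _
        rw [mul_smul, hν]
        have h1 := hcomm m₁ m₁.2 (ν ((m₂ : G) • a)) (ν ((m₂ : G) • a)).2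
        rw [← mul_smul, ← h1, mul_smul, hν]
        rfl
      refine ⟨{ toFun := fun m => (ν ((m : G) • a))⁻¹
                invFun := fun n => μ ((n⁻¹ : N) • a)
                left_inv := ?_
                right_inv := ?_
                map_mul' := ?_ }⟩
      · intro m
        change μ (((ν ((m : G) • a))⁻¹⁻¹ : N) • a) = m
        rw [inv_inv]
        symm
        apply hμ'
        change (m : G) • a = ((ν ((m : G) • a) : N) : G) • a
        rw [hν]
      · intro n
        change (ν ((μ ((n⁻¹ : N) • a) : G) • a))⁻¹ = n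
        have h1 : (μ ((n⁻¹ : N) • a) : G) • a = (n⁻¹ : N) • a := hμ _
        rw [h1]
        have h2 : ν ((n⁻¹ : N) • a) = n⁻¹ := (hν' _ n⁻¹ rfl).symm
        change (ν ((n⁻¹ : N) • a))⁻¹ = n
        rw [h2, inv_inv]
      · intro x y
        change (ν (((x * y : M) : G) • a))⁻¹ = (ν ((x : G) • a))⁻¹ * (ν ((y : G) • a))⁻¹
        rw [hmulν, mul_inv_rev]
    · -- α empty: G trivial
      have : IsEmpty α := not_nonempty_iff.mp hne
      exfalso
      apply hM
      rw [eq_bot_iff]
      intro m _
      rw [Subgroup.mem_bot]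
      apply Subtype.ext
      ext x
      exact (IsEmpty.false x).elim
  · intro L hLn hLbot hLmin
    rcases hLmin (L ⊓ M) inferInstance inf_le_left with h | h
    · right
      have hcommLM : ∀ l ∈ L, ∀ m ∈ M, l * m = m * l := by
        intro l hl m hm
        exact Subgroup.commute_of_normal_of_disjoint L M hLn inferInstance (by
          rw [disjoint_iff]; exact h) l m hl hm
      have hLle : L ≤ N := by
        intro l hl
        have h1 : (l : Equiv.Perm α) ∈ Subgroup.centralizer ((M.map G.subtype : Subgroup (Equiv.Perm α)) : Set (Equiv.Perm α)) := by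
          rw [Subgroup.mem_centralizer_iff]
          rintro _ ⟨y, hy, rfl⟩
          have := hcommLM l hl y hy
          exact (congrArg Subtype.val this).symm
        rw [hCMN] at h1
        obtain ⟨y, hy, hyl⟩ := h1
        have : y = l := Subtype.ext hyl
        rwa [← this]
      rcases hNmin L hLn hLle with h2 | h2
      · exact absurd h2 hLbot
      · exact h2
    · left
      have hLM : L ≤ M := by
        rw [← h]; exact inf_le_right
      rcases hMmin L hLn hLM with h2 | h2
      · exact absurd h2 hLbot
      · exact h2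

end Cfsg.Agent.S0704
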