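import Cfsg.Statements.S0705
import Mathlib
import Cfsg.Agent.Lib.Perm.Basic

set_option autoImplicit false
open scoped Pointwise
open Cfsg

namespace Cfsg.Agent.S0705

/-- A generously `k`-transitive permutation group (every `(k+1)`-subset has its full symmetric group induced by the setwise stabiliser) of degree greater than `k` is `k`-transitive, and for a `k`-subset the setwise and pointwise stabilisers have the same orbits outside it. -/
theorem result {α : Type*} [Fintype α] [DecidableEq α] (G : Subgroup (Equiv.Perm α)) {k : ℕ} (hk : k < Fintype.card α) (hgen : ∀ s : Finset α, s.card = k + 1 → ∀ σ : Equiv.Perm ↥s, ∃ g ∈ G, ∀ x : ↥s, g (x : α) = σ x) : MulAction.IsMultiplyPretransitive G α k ∧ ∀ s : Finset α, s.card = k → ∀ a b : α, a ∉ s → b ∉ s → (∃ g ∈ G, g • s = s ∧ g a = b) → ∃ g ∈ G, (∀ x ∈ s, g x = x) ∧ g a = b := by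
  classical
  constructor
  · apply Cfsg.Agent.Lib.Perm.isMultiplyPretransitive_of_fixing
    intro u hu a b ha hb
    by_cases hab : a = b
    · exact ⟨1, by simp, by simp [hab]⟩
    let T : Finset α := (Finset.univ.erase a).erase b
    have huT : u ⊆ T := by
      intro x hx
      simp only [T, Finset.mem_erase, Finset.mem_univ, and_true]
      exact ⟨fun h => hb (h ▸ hx), fun h => ha (h ▸ hx)⟩
    have hTcard : T.card = Fintype.card α - 2 := by
      simp only [T]
      rw [Finset.card_erase_of_mem (by simp [Ne.symm hab]), Finset.card_erase_of_mem (Finset.mem_univ _),
        Finset.card_univ]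
      omega
    obtain ⟨v, huv, hvT, hvcard⟩ := Finset.exists_subsuperset_card_eq huT (n := k - 1) (by omega) (by omega)
    have hav : a ∉ v := fun h => by
      have := hvT h
      simp [T] at this
    have hbv : b ∉ v := fun h => by
      have := hvT h
      simp [T] at this
    let s : Finset α := insert a (insert b v)
    have hscard : s.card = k + 1 := by
      simp only [s]
      rw [Finset.card_insert_of_notMem (by simp [hab, hav]), Finset.card_insert_of_notMem hbv, hvcard]
      omega
    have has : a ∈ s := by simp [s]
    have hbs : b ∈ s := by simp [s]
    obtain ⟨g, hg, hgs⟩ := hgen s hscard (Equiv.swap ⟨a, has⟩ ⟨b, hbs⟩)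
    refine ⟨⟨g, hg⟩, ?_, ?_⟩
    · intro x hx
      have hxv : x ∈ v := huv hx
      have hxs : x ∈ s := by simp [s, hxv]
      have h1 := hgs ⟨x, hxs⟩
      rw [Equiv.swap_apply_of_ne_of_ne] at h1
      · exact h1
      · intro h
        have hxa : x = a := congrArg Subtype.val h
        exact hav (hxa ▸ hxv)
      · intro h
        have hxa : x = b := congrArg Subtype.val h
        exact hbv (hxa ▸ hxv)
    · have h1 := hgs ⟨a, has⟩
      rw [Equiv.swap_apply_left] at h1
      exact h1
  · intro s hs a b has hbs ⟨g, hg, hgs, hga⟩
    by_cases hab : a = b
    · exact ⟨1, G.one_mem, by simp, by simp [hab]⟩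
    -- permutation of s' = insert a s
    have hgmem : ∀ x ∈ s, g x ∈ s := by
      intro x hx
      have : g • x ∈ g • s := Finset.smul_mem_smul_finset hx
      rwa [hgs] at this
    have hginv : ∀ x ∈ s, g.symm x ∈ s := by
      intro x hx
      have h1 : x ∈ g • s := by rw [hgs]; exact hx
      obtain ⟨y, hy, rfl⟩ := Finset.mem_smul_finset.mp h1
      simpa using hy
    let s' : Finset α := insert a s
    have hs'card : s'.card = k + 1 := by
      simp only [s']
      rw [Finset.card_insert_of_notMem has, hs]
    have haS : a ∈ s' := by simp [s']
    let σ : Equiv.Perm ↥s' :=
      { toFun := fun x => if h : (x : α) = a then ⟨a, haS⟩ else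
            ⟨g.symm x, by
              have hx : (x : α) ∈ s := by
                have := x.2
                simp only [s', Finset.mem_insert] at this
                exact this.resolve_left h
              simp only [s', Finset.mem_insert]
              exact Or.inr (hginv _ hx)⟩
        invFun := fun x => if h : (x : α) = a then ⟨a, haS⟩ else
            ⟨g x, by
              have hx : (x : α) ∈ s := by
                have := x.2
                simp only [s', Finset.mem_insert] at this
                exact this.resolve_left h
              simp only [s', Finset.mem_insert]
              exact Or.inr (hgmem _ hx)⟩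
        left_inv := by
          intro x
          by_cases h : (x : α) = a
          · simp only [h, dite_true]
            apply Subtype.ext
            simp [h]
          · have hx : (x : α) ∈ s := by
              have := x.2
              simp only [s', Finset.mem_insert] at this
              exact this.resolve_left h
            have h2 : g.symm (x : α) ≠ a := by
              intro h3
              apply has
              rw [← h3]
              exact hginv _ hx
            simp [h, h2]
        right_inv := by
          intro x
          by_cases h : (x : α) = a
          · simp only [h, dite_true]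
            apply Subtype.ext
            simp [h]
          · have hx : (x : α) ∈ s := by
              have := x.2
              simp only [s', Finset.mem_insert] at this
              exact this.resolve_left h
            have h2 : g (x : α) ≠ a := by
              intro h3
              apply has
              rw [← h3]
              exact hgmem _ hx
            simp [h, h2] }
    obtain ⟨h, hh, hhσ⟩ := hgen s' hs'card σ
    refine ⟨g * h, G.mul_mem hg hh, ?_, ?_⟩
    · intro x hx
      have hxs' : x ∈ s' := by simp [s', hx]
      have hne : x ≠ a := fun h => has (h ▸ hx)
      have h1 := hhσ ⟨x, hxs'⟩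
      have h2 : (σ ⟨x, hxs'⟩ : α) = g.symm x := by
        simp [σ, hne]
      rw [h2] at h1
      simp [h1]
    · have h1 := hhσ ⟨a, haS⟩
      have h2 : (σ ⟨a, haS⟩ : α) = a := by
        simp [σ]
      rw [h2] at h1
      simp only [Equiv.Perm.coe_mul, Function.comp_apply, h1]
      exact hga

end Cfsg.Agent.S0705
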