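import Cfsg.Statements.S0706
import Mathlib
import Cfsg.Agent.Lib.Perm.Basic

set_option autoImplicit false
open Cfsg

namespace Cfsg.Agent.S0706

section helpers

variable {α : Type*} [Fintype α] [DecidableEq α] {G : Subgroup (Equiv.Perm α)}

theorem card_fix_conj {Γ₁ Γ₂ : Set α} (g : G) (h : ∀ x, x ∈ Γ₁ ↔ g • x ∈ Γ₂) :
    Nat.card (fixingSubgroup G Γ₁) = Nat.card (fixingSubgroup G Γ₂) := by
  apply Nat.card_congr
  refine ⟨fun u => ⟨g * u.1 * g⁻¹, ?_⟩, fun u => ⟨g⁻¹ * u.1 * g, ?_⟩, ?_, ?_⟩
  · rw [mem_fixingSubgroup_iff]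
    intro y hy
    have h1 : g⁻¹ • y ∈ Γ₁ := by
      rw [h, smul_inv_smul]
      exact hy
    have h2 := (mem_fixingSubgroup_iff G).mp u.2 _ h1
    rw [mul_smul, mul_smul, h2, smul_inv_smul]
  · rw [mem_fixingSubgroup_iff]
    intro y hy
    have h1 : g • y ∈ Γ₂ := (h y).mp hy
    have h2 := (mem_fixingSubgroup_iff G).mp u.2 _ h1
    rw [mul_smul, mul_smul, h2, inv_smul_smul]
  · intro u
    apply Subtype.ext
    show g⁻¹ * (g * u.1 * g⁻¹) * g = u.1
    group
  · intro u
    apply Subtype.ext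
    show g * (g⁻¹ * u.1 * g) * g⁻¹ = u.1
    group

theorem card_fix_eq {k : ℕ}
    (hgen : ∀ s : Finset α, s.card = k + 1 → ∀ σ : Equiv.Perm ↥s, ∃ g ∈ G, ∀ x : ↥s, g (x : α) = σ x) (n : ℕ) :
    ∀ Γ₁ Γ₂ : Finset α, Γ₁.card = k → Γ₂.card = k → (Γ₂ \ Γ₁).card = n →
      Nat.card (fixingSubgroup G (Γ₁ : Set α)) = Nat.card (fixingSubgroup G (Γ₂ : Set α)) := by
  induction n with
  | zero =>
    intro Γ₁ Γ₂ h1 h2 h3
    have h4 : Γ₂ ⊆ Γ₁ := Finset.sdiff_eq_empty_iff_subset.mp (Finset.card_eq_zero.mp h3)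
    have h5 : Γ₂ = Γ₁ := Finset.eq_of_subset_of_card_le h4 (by omega)
    rw [h5]
  | succ n ih =>
    intro Γ₁ Γ₂ h1 h2 h3
    obtain ⟨y, hy⟩ : (Γ₂ \ Γ₁).Nonempty := by
      rw [← Finset.card_pos]
      omega
    rw [Finset.mem_sdiff] at hy
    obtain ⟨a, ha⟩ : (Γ₁ \ Γ₂).Nonempty := by
      rw [Finset.sdiff_nonempty]
      intro h4
      have h5 : Γ₁ = Γ₂ := Finset.eq_of_subset_of_card_le h4 (by omega)
      exact hy.2 (h5 ▸ hy.1)
    rw [Finset.mem_sdiff] at ha
    have hcard : (insert y Γ₁).card = k + 1 := by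
      rw [Finset.card_insert_of_notMem hy.2, h1]
    obtain ⟨g, hgG, hg⟩ := hgen (insert y Γ₁) hcard
      (Equiv.swap ⟨a, Finset.mem_insert_of_mem ha.1⟩ ⟨y, Finset.mem_insert_self _ _⟩)
    have hay : a ≠ y := fun h => ha.2 (h ▸ hy.1)
    have hga : g a = y := by
      have := hg ⟨a, Finset.mem_insert_of_mem ha.1⟩
      simpa using this
    have hgz : ∀ z ∈ Γ₁, z ≠ a → g z = z := by
      intro z hz hza
      have := hg ⟨z, Finset.mem_insert_of_mem hz⟩
      have hzy : z ≠ y := fun h => hy.2 (h ▸ hz)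
      rw [Equiv.swap_apply_of_ne_of_ne] at this
      · exact this
      · intro h
        exact hza (congrArg Subtype.val h)
      · intro h
        exact hzy (congrArg Subtype.val h)
    set Γ' := insert y (Γ₁.erase a) with hΓ'
    have hΓ'card : Γ'.card = k := by
      rw [hΓ', Finset.card_insert_of_notMem (fun h => hy.2 (Finset.mem_of_mem_erase h)),
        Finset.card_erase_of_mem ha.1, h1]
      have : 0 < k := by
        rw [← h1]
        exact Finset.card_pos.mpr ⟨a, ha.1⟩
      omega
    have h4 : Nat.card (fixingSubgroup G (Γ₁ : Set α)) = Nat.card (fixingSubgroup G (Γ' : Set α)) := by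
      apply card_fix_conj (⟨g, hgG⟩ : G)
      intro x
      show x ∈ Γ₁ ↔ g x ∈ Γ'
      constructor
      · intro hx
        by_cases hxa : x = a
        · rw [hxa, hga]
          exact Finset.mem_insert_self _ _
        · rw [hgz x hx hxa]
          exact Finset.mem_insert_of_mem (Finset.mem_erase.mpr ⟨hxa, hx⟩)
      · intro hx
        rcases Finset.mem_insert.mp hx with h5 | h5
        · have h6 : x = a := g.injective (h5.trans hga.symm)
          rw [h6]
          exact ha.1
        · rw [Finset.mem_erase] at h5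
          have h6 : x = g x := g.injective (hgz _ h5.2 h5.1).symm
          rw [h6]
          exact h5.2
    rw [h4]
    apply ih Γ' Γ₂ hΓ'card h2
    have h5 : Γ₂ \ Γ' = (Γ₂ \ Γ₁).erase y := by
      ext z
      simp only [hΓ', Finset.mem_sdiff, Finset.mem_insert, Finset.mem_erase, not_or, not_and, not_not]
      constructor
      · rintro ⟨h6, h7, h8⟩
        exact ⟨h7, h6, h8 (fun h => ha.2 (h ▸ h6))⟩
      · rintro ⟨h6, h7, h8⟩
        exact ⟨h7, h6, fun _ => h8⟩
    rw [h5, Finset.card_erase_of_mem (Finset.mem_sdiff.mpr hy), h3]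
    rfl

end helpers

/-- In a generously `k`-transitive permutation group, for a prime `p ≤ k` and a `k`-set `Γ`, there are no `p` points outside `Γ` lying in distinct orbits of the pointwise stabiliser of `Γ` all of length prime to `p` (at most `p - 1` such orbits). -/
theorem result {α : Type*} [Fintype α] [DecidableEq α] (G : Subgroup (Equiv.Perm α)) {k : ℕ} (hk : k < Fintype.card α) (hgen : ∀ s : Finset α, s.card = k + 1 → ∀ σ : Equiv.Perm ↥s, ∃ g ∈ G, ∀ x : ↥s, g (x : α) = σ x) {p : ℕ} (hp : p.Prime) (hpk : p ≤ k) (Γ : Finset α) (hΓ : Γ.card = k) (f : Fin p → α) (hf : ∀ i, f i ∉ Γ) (hdist : ∀ i j, i ≠ j → f j ∉ MulAction.orbit (fixingSubgroup G (Γ : Set α)) (f i)) : ∃ i, p ∣ Nat.card (MulAction.orbit (fixingSubgroup G (Γ : Set α)) (f i)) := by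
  classical
  by_contra hcon
  push Not at hcon
  haveI : Fact p.Prime := ⟨hp⟩
  haveI : Finite G := inferInstance
  let H := fixingSubgroup G (Γ : Set α)
  -- the p-cycle
  obtain ⟨A, hAΓ, hAcard⟩ := Finset.exists_subset_card_eq (s := Γ) (n := p) (by omega)
  have hl : A.toList.Nodup := Finset.nodup_toList A
  have hllen : 2 ≤ A.toList.length := by
    rw [Finset.length_toList, hAcard]
    exact hp.two_le
  let c : Equiv.Perm α := A.toList.formPerm
  have hcyc : c.IsCycle := List.isCycle_formPerm hl hllen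
  have hcfix : ∀ x, x ∉ A → c x = x := by
    intro x hx
    apply List.formPerm_apply_of_notMem
    simpa using hx
  have hcA : ∀ x, x ∈ A → c x ∈ A := by
    intro x hx
    exact Finset.mem_toList.mp (List.formPerm_apply_mem_of_mem (Finset.mem_toList.mpr hx))
  have hcp : c ^ p = 1 := by
    have h2 : orderOf c = p := by
      rw [hcyc.orderOf, List.support_formPerm_of_nodup _ hl (fun x hx => by
        rw [hx] at hllen
        simp at hllen)]
      rw [Finset.toList_toFinset, hAcard]
    rw [← h2]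
    exact pow_orderOf_eq_one c
  have hcΓ : ∀ x, x ∈ Γ → c x ∈ Γ := by
    intro x hx
    by_cases hxA : x ∈ A
    · exact hAΓ (hcA x hxA)
    · rw [hcfix x hxA]
      exact hx
  have hcpowΓ : ∀ (m : ℕ), ∀ x, x ∈ Γ → (c ^ m) x ∈ Γ := by
    intro m
    induction m with
    | zero => intro x hx; simpa using hx
    | succ m ih =>
      intro x hx
      rw [pow_succ]
      exact ih _ (hcΓ x hx)
  -- the group inducing powers of the cycle
  let E : Subgroup G :=
    { carrier := {g | ∃ m : ℕ, ∀ x ∈ Γ, (g : Equiv.Perm α) x = (c ^ m) x}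
      one_mem' := ⟨0, fun x _ => by simp⟩
      mul_mem' := by
        rintro a b ⟨m, hm⟩ ⟨m', hm'⟩
        refine ⟨m + m', fun x hx => ?_⟩
        show (a : Equiv.Perm α) ((b : Equiv.Perm α) x) = _
        rw [hm' x hx, hm _ (hcpowΓ m' x hx), pow_add]
        rfl
      inv_mem' := by
        rintro a ⟨m, hm⟩
        refine ⟨(p - 1) * m, fun x hx => ?_⟩
        show ((a : Equiv.Perm α))⁻¹ x = _
        rw [Equiv.Perm.inv_eq_iff_eq, hm _ (hcpowΓ _ x hx)]
        have h1 : c ^ m * c ^ ((p - 1) * m) = 1 := by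
          rw [← pow_add]
          have h2 : m + (p - 1) * m = p * m := by
            have : 1 ≤ p := hp.one_lt.le
            obtain ⟨r, rfl⟩ : ∃ r, p = r + 1 := ⟨p - 1, by omega⟩
            simp only [Nat.add_sub_cancel]
            ring
          rw [h2, pow_mul, hcp, one_pow]
        have h3 := congrArg (fun f : Equiv.Perm α => f x) h1
        exact h3.symm }
  have hHE : H ≤ E := by
    intro u hu
    refine ⟨0, fun x hx => ?_⟩
    have := (mem_fixingSubgroup_iff G).mp hu x hx
    rw [pow_zero]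
    exact this
  -- elements realizing the cycle and fixing a given outside point
  have hlift : ∀ y, y ∉ Γ → ∃ g : G, g ∈ E ∧ (∀ x ∈ Γ, (g : Equiv.Perm α) x = c x) ∧ (g : Equiv.Perm α) y = y := by
    intro y hy
    have hcard : (insert y Γ).card = k + 1 := by
      rw [Finset.card_insert_of_notMem hy, hΓ]
    have hyA : y ∉ A := fun h => hy (hAΓ h)
    have hmem : ∀ x, x ∈ insert y Γ ↔ c x ∈ insert y Γ := by
      intro x
      constructor
      · intro hx
        rcases Finset.mem_insert.mp hx with rfl | hx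
        · rw [hcfix _ hyA]
          exact hx
        · exact Finset.mem_insert_of_mem (hcΓ x hx)
      · intro hx
        by_cases hxA : x ∈ A
        · exact Finset.mem_insert_of_mem (hAΓ hxA)
        · rw [hcfix x hxA] at hx
          exact hx
    obtain ⟨g, hgG, hg⟩ := hgen (insert y Γ) hcard (c.subtypePerm (fun x => (hmem x).symm))
    have hg' : ∀ x (hx : x ∈ insert y Γ), g x = c x := fun x hx => hg ⟨x, hx⟩
    refine ⟨⟨g, hgG⟩, ⟨1, fun x hx => ?_⟩, fun x hx => hg' x (Finset.mem_insert_of_mem hx), ?_⟩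
    · rw [pow_one]
      exact hg' x (Finset.mem_insert_of_mem hx)
    · show g y = y
      rw [hg' y (Finset.mem_insert_self _ _), hcfix y hyA]
  -- elements of E permute Γ
  have hEΓ : ∀ e ∈ E, ∀ x ∈ Γ, (e : Equiv.Perm α) x ∈ Γ := by
    rintro e ⟨m, hm⟩ x hx
    rw [hm x hx]
    exact hcpowΓ m x hx
  -- E normalizes H
  have hEH : ∀ e ∈ E, ∀ u ∈ H, e * u * e⁻¹ ∈ H := by
    intro e he u hu
    rw [mem_fixingSubgroup_iff]
    intro z hz
    have h1 : e⁻¹ • z ∈ (Γ : Set α) := hEΓ _ (E.inv_mem he) z hz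
    have h2 := (mem_fixingSubgroup_iff G).mp hu _ h1
    rw [mul_smul, mul_smul, h2, smul_inv_smul]
  -- invariance of the orbits
  have hinvO : ∀ i, ∀ e ∈ E, ∀ x ∈ MulAction.orbit H (f i), e • x ∈ MulAction.orbit H (f i) := by
    intro i e he x hx
    obtain ⟨g, hgE, hgc, hgf⟩ := hlift (f i) (hf i)
    obtain ⟨m, hm⟩ := he
    have hgpow : ∀ n : ℕ, ∀ x ∈ Γ, ((g ^ n : G) : Equiv.Perm α) x = (c ^ n) x := by
      intro n
      induction n with
      | zero => intro x _; simp
      | succ n ih =>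
        intro x hx
        rw [pow_succ, pow_succ]
        show ((g ^ n : G) : Equiv.Perm α) ((g : Equiv.Perm α) x) = (c ^ n) (c x)
        rw [hgc x hx, ih _ (hcΓ x hx)]
    have hgpowf : ∀ n : ℕ, (g ^ n) • f i = f i := by
      intro n
      induction n with
      | zero => simp
      | succ n ih =>
        rw [pow_succ, mul_smul]
        have : g • f i = f i := hgf
        rw [this, ih]
    -- write e as a power of g times an element of H
    have hw : (g ^ m)⁻¹ * e ∈ H := by
      rw [mem_fixingSubgroup_iff]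
      intro z hz
      rw [mul_smul, inv_smul_eq_iff]
      show (e : Equiv.Perm α) z = ((g ^ m : G) : Equiv.Perm α) z
      rw [hm z hz, hgpow m z hz]
    have hgm : g ^ m ∈ E := E.pow_mem hgE m
    obtain ⟨u, rfl⟩ := hx
    -- e • (u • f i) = (e u e⁻¹) (g^m w g^{-m}) f i
    have h1 : g ^ m * ((g ^ m)⁻¹ * e) * (g ^ m)⁻¹ ∈ H := hEH _ hgm _ hw
    have h2 := hEH e ⟨m, hm⟩ _ u.2
    refine ⟨(⟨_, h2⟩ : H) * ⟨_, h1⟩, ?_⟩
    show (e * (u : G) * e⁻¹ * (g ^ m * ((g ^ m)⁻¹ * e) * (g ^ m)⁻¹)) • f i = e • ((u : G) • f i)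
    have h3 : e * (u : G) * e⁻¹ * (g ^ m * ((g ^ m)⁻¹ * e) * (g ^ m)⁻¹) = e * (u : G) * (g ^ m)⁻¹ := by group
    rw [h3, mul_smul]
    have h4 : (g ^ m)⁻¹ • f i = f i := by
      rw [inv_smul_eq_iff, hgpowf]
    rw [h4, mul_smul]
  -- the order of E
  have hcardE : Nat.card E = p * Nat.card H := by
    obtain ⟨a, ha⟩ : ∃ a, c a ≠ a := by
      by_contra hh
      push Not at hh
      exact hcyc.ne_one (Equiv.ext hh)
    have haA : a ∈ A := by
      by_contra h
      exact ha (hcfix a h)
    have haΓ : a ∈ Γ := hAΓ haA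
    let φ : E →* Equiv.Perm ↥Γ :=
      { toFun := fun e => ((e : G) : Equiv.Perm α).subtypePerm (fun x => by
          constructor
          · intro hx
            have h1 := hEΓ _ (E.inv_mem e.2) _ hx
            have h2 : ((e : G)⁻¹ : G).1 (((e : G) : Equiv.Perm α) x) = x := by
              show (((e : G) : Equiv.Perm α))⁻¹ (((e : G) : Equiv.Perm α) x) = x
              exact Equiv.Perm.inv_eq_iff_eq.mpr rfl
            rwa [h2] at h1
          · intro hx
            exact hEΓ _ e.2 x hx)
        map_one' := by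
          ext x
          rfl
        map_mul' := fun e e' => by
          ext x
          rfl }
    obtain ⟨g₀, hg₀E, hg₀c, -⟩ := hlift (f ⟨0, hp.pos⟩) (hf _)
    set c' := φ ⟨g₀, hg₀E⟩ with hc'
    have hc'apply : ∀ x : ↥Γ, ((c' x : ↥Γ) : α) = c x := fun x => hg₀c x x.2
    have hc'pow : ∀ (m : ℕ) (x : ↥Γ), (((c' ^ m) x : ↥Γ) : α) = (c ^ m) x := by
      intro m
      induction m with
      | zero => intro x; rfl
      | succ m ih =>
        intro x
        rw [pow_succ, pow_succ]
        show (((c' ^ m) (c' x) : ↥Γ) : α) = (c ^ m) (c x)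
        rw [ih, hc'apply]
    have hrange : φ.range = Subgroup.zpowers c' := by
      apply le_antisymm
      · rintro _ ⟨⟨e, m, hm⟩, rfl⟩
        refine ⟨(m : ℤ), ?_⟩
        apply Equiv.ext
        intro x
        apply Subtype.ext
        show (((c' ^ (m : ℤ)) x : ↥Γ) : α) = _
        rw [zpow_natCast, hc'pow]
        exact (hm x x.2).symm
      · rw [Subgroup.zpowers_le]
        exact ⟨_, rfl⟩
    have hordc' : orderOf c' = p := by
      apply orderOf_eq_prime
      · apply Equiv.ext
        intro x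
        apply Subtype.ext
        rw [hc'pow, hcp]
        rfl
      · intro h1
        have h2 := congrArg (fun f : Equiv.Perm ↥Γ => ((f ⟨a, haΓ⟩ : ↥Γ) : α)) h1
        have h3 : c a = a := (hc'apply ⟨a, haΓ⟩).symm.trans h2
        exact ha h3
    have hkercard : Nat.card φ.ker = Nat.card H := by
      apply Nat.card_congr
      refine ⟨fun e => ⟨e.1.1, ?_⟩, fun u => ⟨⟨u.1, hHE u.2⟩, ?_⟩, ?_, ?_⟩
      · rw [mem_fixingSubgroup_iff]
        intro y hy
        have h1 := congrArg (fun f : Equiv.Perm ↥Γ => ((f ⟨y, hy⟩ : ↥Γ) : α)) (MonoidHom.mem_ker.mp e.2)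
        exact h1
      · rw [MonoidHom.mem_ker]
        apply Equiv.ext
        intro x
        apply Subtype.ext
        exact (mem_fixingSubgroup_iff G).mp u.2 x x.2
      · intro e
        rfl
      · intro u
        rfl
    have h1 := φ.ker.card_mul_index
    rw [Subgroup.index_ker, hrange, Nat.card_zpowers, hordc', hkercard] at h1
    rw [← h1, mul_comm]
  -- a Sylow subgroup of E
  obtain ⟨S⟩ : Nonempty (Sylow p E) := inferInstance
  have hScard : Nat.card S = p ^ (Nat.card E).factorization p := S.card_eq_multiplicity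
  let T : Subgroup G := (S : Subgroup E).map E.subtype
  have hTcard : Nat.card T = Nat.card S := by
    apply Nat.card_congr
    exact (Subgroup.equivMapOfInjective (S : Subgroup E) E.subtype E.subtype_injective).toEquiv.symm
  have hTp : IsPGroup p T := (S.isPGroup').map E.subtype
  have hTE : T ≤ E := by
    rintro _ ⟨x, _, rfl⟩
    exact x.2
  -- fixed points in each orbit
  have hfix : ∀ i, ∃ x ∈ MulAction.orbit H (f i), ∀ t ∈ T, t • x = x := by
    intro i
    have h1 := Lib.Perm.ncard_modEq_ncard_inter_fixedPoints T hTp (MulAction.orbit H (f i))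
      (fun g hg x hx => hinvO i g (hTE hg) x hx)
    by_contra hno
    push Not at hno
    have h2 : MulAction.orbit H (f i) ∩ MulAction.fixedPoints T α = ∅ := by
      ext x
      simp only [Set.mem_inter_iff, Set.mem_empty_iff_false, iff_false, not_and]
      intro hx hx2
      obtain ⟨t, ht, hne⟩ := hno x hx
      exact hne (hx2 ⟨t, ht⟩)
    rw [h2, Set.ncard_empty] at h1
    apply hcon i
    rw [Nat.card_coe_set_eq]
    exact (Nat.modEq_zero_iff_dvd).mp h1
  choose x hxO hxT using hfix
  have hxinj : Function.Injective x := by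
    intro i j hij
    by_contra hne
    obtain ⟨u, hu⟩ := hxO i
    obtain ⟨v, hv⟩ := hxO j
    apply hdist i j hne
    refine ⟨v⁻¹ * u, ?_⟩
    have h1 : u • f i = x i := hu
    have h2 : v • f j = x j := hv
    show (v⁻¹ * u) • f i = f j
    rw [mul_smul, h1, hij, ← h2, inv_smul_smul]
  have hxΓ : ∀ i, x i ∉ Γ := by
    intro i hi
    obtain ⟨u, hu⟩ := hxO i
    have h1 : u • f i = x i := hu
    apply hf i
    have h2 : (u⁻¹ : H) • x i = x i := (mem_fixingSubgroup_iff G).mp (u⁻¹).2 _ hi
    rw [← h1, inv_smul_smul] at h2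
    rw [h2, h1]
    exact hi
  -- the new k-set
  let Γs : Finset α := (Γ \ A) ∪ (Finset.univ.image x)
  have hΓs : Γs.card = k := by
    have h1 : Disjoint (Γ \ A) (Finset.univ.image x) := by
      rw [Finset.disjoint_left]
      intro y hy hy2
      obtain ⟨i, -, rfl⟩ := Finset.mem_image.mp hy2
      exact hxΓ i (Finset.mem_sdiff.mp hy).1
    rw [Finset.card_union_of_disjoint h1, Finset.card_sdiff_of_subset hAΓ, Finset.card_image_of_injective _ hxinj,
      hΓ, hAcard, Finset.card_univ, Fintype.card_fin]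
    omega
  have hTle : T ≤ fixingSubgroup G (Γs : Set α) := by
    intro t ht
    rw [mem_fixingSubgroup_iff]
    intro y hy
    rcases Finset.mem_union.mp (Finset.mem_coe.mp hy) with h1 | h1
    · rw [Finset.mem_sdiff] at h1
      obtain ⟨m, hm⟩ := hTE ht
      show (t : Equiv.Perm α) y = y
      rw [hm y h1.1]
      exact Equiv.Perm.pow_apply_eq_self_of_apply_eq_self (hcfix y h1.2) m
    · obtain ⟨i, -, rfl⟩ := Finset.mem_image.mp h1
      exact hxT i t ht
  have hcardeq := card_fix_eq hgen _ Γ Γs hΓ hΓs rfl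
  have hdvd : Nat.card T ∣ Nat.card H := by
    have h1 := Subgroup.card_dvd_of_le hTle
    rwa [← hcardeq] at h1
  rw [hTcard, hScard, hcardE] at hdvd
  have hHpos : Nat.card H ≠ 0 := Nat.card_pos.ne'
  have h2 : (p * Nat.card H).factorization p = (Nat.card H).factorization p + 1 := by
    rw [Nat.factorization_mul hp.ne_zero hHpos, Finsupp.add_apply, hp.factorization_self, add_comm]
  rw [h2] at hdvd
  exact Nat.pow_succ_factorization_not_dvd hHpos hp hdvd

end Cfsg.Agent.S0706
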