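import Cfsg.Statements.S0707
import Mathlib

set_option autoImplicit false
open Cfsg

namespace Cfsg.Agent.S0707

/-- In a primitive permutation group, distinct points have distinct stabilisers unless the group is regular of prime degree. -/
theorem result {α : Type*} (G : Subgroup (Equiv.Perm α)) [MulAction.IsPreprimitive G α] (h : ¬ (Nat.card α).Prime ∨ ∃ a : α, MulAction.stabilizer G a ≠ ⊥) {a b : α} (hab : a ≠ b) : MulAction.stabilizer G a ≠ MulAction.stabilizer G b := by
  classical
  intro hK
  haveI : Nontrivial α := ⟨a, b, hab⟩
  have hco : IsCoatom (MulAction.stabilizer G a) :=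
    MulAction.IsPreprimitive.isCoatom_stabilizer_of_isPreprimitive G a
  obtain ⟨g, hg⟩ := MulAction.exists_smul_eq G a b
  have hstabconj : ∀ (g : G) (x : α) (k : G), k ∈ MulAction.stabilizer G x →
      g * k * g⁻¹ ∈ MulAction.stabilizer G (g • x) := by
    intro g x k hk
    rw [MulAction.mem_stabilizer_iff] at hk ⊢
    rw [mul_smul, mul_smul, inv_smul_smul, hk]
  -- stabilizer of `a` is normal
  have hle : MulAction.stabilizer G a ≤ Subgroup.normalizer (MulAction.stabilizer G a : Set G) :=
    Subgroup.le_normalizer
  have hgn : g ∈ Subgroup.normalizer (MulAction.stabilizer G a : Set G) := by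
    rw [Subgroup.mem_normalizer_iff]
    intro k
    constructor
    · intro hk
      have := hstabconj g a k hk
      rw [hg, ← hK] at this
      exact this
    · intro hk
      have h1 : k ∈ MulAction.stabilizer G (g • a) := by
        have := hstabconj g⁻¹ (g • a) (g * k * g⁻¹) (by rw [hg, ← hK]; exact hk)
        rw [inv_smul_smul] at this
        have h2 : g⁻¹ * (g * k * g⁻¹) * g⁻¹⁻¹ = k := by group
        rw [h2] at this
        exact (by rw [hg, ← hK]; exact this)
      rw [hg, ← hK] at h1
      exact h1
  have hgnot : g ∉ MulAction.stabilizer G a := by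
    rw [MulAction.mem_stabilizer_iff, hg]
    exact fun h => hab h.symm
  have hnorm : Subgroup.normalizer (MulAction.stabilizer G a : Set G) = ⊤ := by
    apply hco.2
    refine lt_of_le_of_ne hle ?_
    intro h
    apply hgnot
    rw [h]
    exact hgn
  have hNormal : (MulAction.stabilizer G a).Normal := Subgroup.normalizer_eq_top_iff.mp hnorm
  -- every element of the stabilizer fixes all points
  have hbot : MulAction.stabilizer G a = ⊥ := by
    rw [eq_bot_iff]
    intro k hk
    rw [Subgroup.mem_bot]
    apply Subtype.ext
    ext x
    obtain ⟨u, hu⟩ := MulAction.exists_smul_eq G a x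
    have h1 : u⁻¹ * k * u ∈ MulAction.stabilizer G a := by
      have := hNormal.conj_mem k hk u⁻¹
      simpa using this
    rw [MulAction.mem_stabilizer_iff, mul_smul, mul_smul, hu] at h1
    have h2 : k • x = x := by
      have := congrArg (fun y => u • y) h1
      simp only [smul_inv_smul, hu] at this
      exact this
    exact h2
  have hallbot : ∀ x : α, MulAction.stabilizer G x = ⊥ := by
    intro x
    obtain ⟨u, hu⟩ := MulAction.exists_smul_eq G a x
    rw [eq_bot_iff]
    intro k hk
    have h1 := hstabconj u⁻¹ x k hk
    rw [← hu, inv_smul_smul, hbot, Subgroup.mem_bot] at h1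
    have : k = 1 := by
      have h3 : k = u * (u⁻¹ * k * u⁻¹⁻¹) * u⁻¹ := by group
      rw [h3, h1]; group
    rw [this]; exact Subgroup.one_mem _
  have hp : (Nat.card α).Prime := by
    -- G is simple abelian
    have hNT : Nontrivial G := by
      refine ⟨g, 1, ?_⟩
      intro h1
      apply hgnot
      rw [h1]; exact Subgroup.one_mem _
    have hsub : ∀ H : Subgroup G, H = ⊥ ∨ H = ⊤ := by
      intro H
      by_cases hH : H = ⊥
      · exact Or.inl hH
      · right
        apply hco.2
        rw [hbot]
        exact bot_lt_iff_ne_bot.mpr hH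
    have hcyc : IsCyclic G := by
      obtain ⟨x, hx⟩ := exists_ne (1 : G)
      refine ⟨x, fun y => ?_⟩
      have : Subgroup.zpowers x = ⊤ := by
        rcases hsub (Subgroup.zpowers x) with h | h
        · exact absurd (Subgroup.zpowers_eq_bot.mp h) hx
        · exact h
      have hy : y ∈ Subgroup.zpowers x := by rw [this]; trivial
      exact Subgroup.mem_zpowers_iff.mp hy
    have hsimple : IsSimpleGroup G :=
      ⟨fun H _ => hsub H⟩
    letI : CommGroup G := IsCyclic.commGroup
    have hpr : (Nat.card G).Prime := IsSimpleGroup.prime_card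
    have hcard : Nat.card α = Nat.card G := by
      rw [← MulAction.index_stabilizer_of_transitive G a, hbot, Subgroup.index_bot]
    rw [hcard]
    exact hpr
  rcases h with h | ⟨x, hx⟩
  · exact h hp
  · exact hx (hallbot x)

end Cfsg.Agent.S0707
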