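import Cfsg.Statements.S0708
import Mathlib

set_option autoImplicit false
open Cfsg

namespace Cfsg.Agent.S0708

section aux

open MulAction

variable {G Ω : Type*} [Group G] [MulAction G Ω]

/-- Four distinct points. -/
def D4 (a b c d : Ω) : Prop := a ≠ b ∧ a ≠ c ∧ a ≠ d ∧ b ≠ c ∧ b ≠ d ∧ c ≠ d

/-- Four distinct points as an embedding. -/
def e4 (a b c d : Ω) (h : D4 a b c d) : Fin 4 ↪ Ω :=
  ⟨![a, b, c, d], by
    obtain ⟨h1, h2, h3, h4, h5, h6⟩ := h
    intro i j hij
    fin_cases i <;> fin_cases j <;> first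
      | rfl
      | (exfalso
         simp only [Fin.zero_eta, Fin.mk_one, Fin.reduceFinMk, Matrix.cons_val, Matrix.cons_val_zero,
          Matrix.cons_val_one] at hij
         first
          | exact h1 hij | exact h2 hij | exact h3 hij | exact h4 hij | exact h5 hij | exact h6 hij
          | exact h1 hij.symm | exact h2 hij.symm | exact h3 hij.symm | exact h4 hij.symm
          | exact h5 hij.symm | exact h6 hij.symm)⟩

theorem exists_map4 (h4 : IsMultiplyPretransitive G Ω 4) {a b c d a' b' c' d' : Ω}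
    (h : D4 a b c d) (h' : D4 a' b' c' d') :
    ∃ g : G, g • a = a' ∧ g • b = b' ∧ g • c = c' ∧ g • d = d' := by
  haveI := h4
  obtain ⟨g, hg⟩ := MulAction.exists_smul_eq G (e4 a b c d h) (e4 a' b' c' d' h')
  refine ⟨g, ?_, ?_, ?_, ?_⟩
  · exact DFunLike.congr_fun hg 0
  · exact DFunLike.congr_fun hg 1
  · exact DFunLike.congr_fun hg 2
  · exact DFunLike.congr_fun hg 3

theorem eq_one_of_fix4 (hsharp : ∀ x : Fin 4 ↪ Ω, stabilizer G x = ⊥) {a b c d : Ω} (h : D4 a b c d)
    {g : G} (ha : g • a = a) (hb : g • b = b) (hc : g • c = c) (hd : g • d = d) : g = 1 := by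
  have hmem : g ∈ stabilizer G (e4 a b c d h) := by
    rw [mem_stabilizer_iff]
    ext i
    fin_cases i
    · exact ha
    · exact hb
    · exact hc
    · exact hd
  rw [hsharp] at hmem
  exact hmem

theorem eq_of_agree4 (hsharp : ∀ x : Fin 4 ↪ Ω, stabilizer G x = ⊥) {a b c d : Ω} (h : D4 a b c d)
    {g g' : G} (ha : g • a = g' • a) (hb : g • b = g' • b) (hc : g • c = g' • c) (hd : g • d = g' • d) :
    g = g' := by
  have : g'⁻¹ * g = 1 := by
    apply eq_one_of_fix4 hsharp h <;> rw [mul_smul, inv_smul_eq_iff] <;> assumption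
  exact (inv_mul_eq_one.mp this).symm

/-- An element swapping two points and fixing three further ones. -/
def Three (G Ω : Type*) [Group G] [MulAction G Ω] : Prop :=
  ∃ (g : G) (a b c d e : Ω), D4 a b c d ∧ e ≠ a ∧ e ≠ b ∧ e ≠ c ∧ e ≠ d ∧
    g • a = b ∧ g • b = a ∧ g • c = c ∧ g • d = d ∧ g • e = e

/-- Without such elements, `(a b)(c d)` fixes all other points. -/
theorem fix_of_not_three (h4 : IsMultiplyPretransitive G Ω 4)
    (hsharp : ∀ x : Fin 4 ↪ Ω, stabilizer G x = ⊥) (hT : ¬ Three G Ω) {a b c d x : Ω}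
    (h : D4 a b c d) (hxa : x ≠ a) (hxb : x ≠ b) (hxc : x ≠ c) (hxd : x ≠ d) {t : G}
    (ht1 : t • a = b) (ht2 : t • b = a) (ht3 : t • c = d) (ht4 : t • d = c) : t • x = x := by
  obtain ⟨h1, h2, h3, h4', h5, h6⟩ := h
  obtain ⟨τ, hτa, hτb, hτc, hτd⟩ := exists_map4 (G := G) h4 (a := a) (b := b) (c := c) (d := d)
    (a' := b) (b' := a) (c' := c) (d' := d) ⟨h1, h2, h3, h4', h5, h6⟩ ⟨h1.symm, h4', h5, h2, h3, h6⟩
  have hτ2 : τ * τ = 1 := by
    apply eq_one_of_fix4 hsharp (a := a) (b := b) (c := c) (d := d) ⟨h1, h2, h3, h4', h5, h6⟩ <;>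
      simp [mul_smul, hτa, hτb, hτc, hτd]
  have hτinv : ∀ z : Ω, τ • (τ • z) = z := by
    intro z
    rw [← mul_smul, hτ2, one_smul]
  set y := τ • x with hy
  have hτy : τ • y = x := hτinv x
  have hxy : x ≠ y := by
    intro h0
    apply hT
    refine ⟨τ, a, b, c, d, x, ⟨h1, h2, h3, h4', h5, h6⟩, hxa, hxb, hxc, hxd, hτa, hτb, hτc, hτd, h0.symm⟩
  have hinj : ∀ {u v : Ω}, τ • u = τ • v → u = v := fun {u v} huv => smul_left_cancel τ huv
  have hya : y ≠ a := by
    intro h0
    apply hxb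
    apply hinj
    rw [← hy, hτb, h0]
  have hyb : y ≠ b := by
    intro h0
    apply hxa
    apply hinj
    rw [← hy, hτa, h0]
  have hyc : y ≠ c := by
    intro h0
    apply hxc
    apply hinj
    rw [← hy, hτc, h0]
  have hyd : y ≠ d := by
    intro h0
    apply hxd
    apply hinj
    rw [← hy, hτd, h0]
  obtain ⟨ξ, hξa, hξb, hξx, hξy⟩ := exists_map4 (G := G) h4 (a := a) (b := b) (c := x) (d := y)
    (a' := b) (b' := a) (c' := x) (d' := y) ⟨h1, hxa.symm, hya.symm, hxb.symm, hyb.symm, hxy⟩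
    ⟨h1.symm, hxb.symm, hyb.symm, hxa.symm, hya.symm, hxy⟩
  have hcomm : ξ * τ = τ * ξ := by
    apply eq_of_agree4 hsharp (a := a) (b := b) (c := x) (d := y)
      ⟨h1, hxa.symm, hya.symm, hxb.symm, hyb.symm, hxy⟩ <;>
      simp [mul_smul, hτa, hτb, hξa, hξb, hξx, hξy, hτy, ← hy]
  have hfix : ∀ z : Ω, τ • z = z → z ≠ a → z ≠ b → z = c ∨ z = d := by
    intro z hz hza hzb
    by_contra hcon
    push Not at hcon
    apply hT
    exact ⟨τ, a, b, c, d, z, ⟨h1, h2, h3, h4', h5, h6⟩, hza, hzb, hcon.1, hcon.2, hτa, hτb, hτc, hτd, hz⟩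
  have hperm : ∀ z : Ω, τ • z = z → τ • (ξ • z) = ξ • z := by
    intro z hz
    rw [← mul_smul, ← hcomm, mul_smul, hz]
  have hne : ∀ z : Ω, τ • z = z → z ≠ a ∧ z ≠ b := by
    intro z hz
    constructor
    · intro h0
      rw [h0] at hz
      exact h1 (hz.symm.trans hτa)
    · intro h0
      rw [h0] at hz
      exact h1 (hτb.symm.trans hz)
  have hξc := hfix _ (hperm c hτc) (hne _ (hperm c hτc)).1 (hne _ (hperm c hτc)).2
  have hξd := hfix _ (hperm d hτd) (hne _ (hperm d hτd)).1 (hne _ (hperm d hτd)).2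
  have hc2 : ξ • c = d ∧ ξ • d = c := by
    rcases hξc with h7 | h7
    · exfalso
      have h8 : ξ • d = d := by
        rcases hξd with h8 | h8
        · exact absurd (smul_left_cancel ξ (h8.trans h7.symm)) h6.symm
        · exact h8
      have h9 : ξ = 1 := eq_one_of_fix4 hsharp (a := x) (b := y) (c := c) (d := d)
        ⟨hxy, hxc, hxd, hyc, hyd, h6⟩ hξx hξy h7 h8
      rw [h9, one_smul] at hξa
      exact h1 hξa
    · refine ⟨h7, ?_⟩
      rcases hξd with h8 | h8
      · exact h8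
      · exact absurd (smul_left_cancel ξ (h7.trans h8.symm)) h6
  have heq : t = ξ := by
    apply eq_of_agree4 hsharp (a := a) (b := b) (c := c) (d := d) ⟨h1, h2, h3, h4', h5, h6⟩
    · rw [ht1, hξa]
    · rw [ht2, hξb]
    · rw [ht3, hc2.1]
    · rw [ht4, hc2.2]
  rw [heq, hξx]

/-- Without such elements there are at most six points. -/
theorem no_seven (h4 : IsMultiplyPretransitive G Ω 4) (hsharp : ∀ x : Fin 4 ↪ Ω, stabilizer G x = ⊥)
    (hT : ¬ Three G Ω) (e : Fin 7 ↪ Ω) : False := by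
  have hne : ∀ i j : Fin 7, i ≠ j → e i ≠ e j := fun i j hij h0 => hij (e.injective h0)
  have hD : D4 (e 0) (e 1) (e 2) (e 3) :=
    ⟨hne _ _ (by decide), hne _ _ (by decide), hne _ _ (by decide), hne _ _ (by decide),
      hne _ _ (by decide), hne _ _ (by decide)⟩
  obtain ⟨t, ht1, ht2, ht3, ht4⟩ := exists_map4 (G := G) h4 hD
    (a' := e 1) (b' := e 0) (c' := e 3) (d' := e 2)
    ⟨hne _ _ (by decide), hne _ _ (by decide), hne _ _ (by decide), hne _ _ (by decide),
      hne _ _ (by decide), hne _ _ (by decide)⟩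
  have key := fun (i : Fin 7) (hi0 : i ≠ 0) (hi1 : i ≠ 1) (hi2 : i ≠ 2) (hi3 : i ≠ 3) =>
    fix_of_not_three h4 hsharp hT hD (hne i 0 hi0) (hne i 1 hi1) (hne i 2 hi2) (hne i 3 hi3) ht1 ht2 ht3 ht4
  apply hT
  refine ⟨t, e 0, e 1, e 4, e 5, e 6, ⟨hne _ _ (by decide), hne _ _ (by decide), hne _ _ (by decide),
      hne _ _ (by decide), hne _ _ (by decide), hne _ _ (by decide)⟩, hne _ _ (by decide),
      hne _ _ (by decide), hne _ _ (by decide), hne _ _ (by decide), ht1, ht2,
      key 4 (by decide) (by decide) (by decide) (by decide),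
      key 5 (by decide) (by decide) (by decide) (by decide),
      key 6 (by decide) (by decide) (by decide) (by decide)⟩

/-- In the other case, the element `(a b)(c)(d)` has a third fixed point. -/
theorem third_fix (h4 : IsMultiplyPretransitive G Ω 4) (hsharp : ∀ x : Fin 4 ↪ Ω, stabilizer G x = ⊥)
    (hT : Three G Ω) {a b c d : Ω} (h : D4 a b c d) :
    ∃ (τ : G) (e : Ω), e ≠ a ∧ e ≠ b ∧ e ≠ c ∧ e ≠ d ∧ τ • a = b ∧ τ • b = a ∧ τ • c = c ∧ τ • d = d ∧
      τ • e = e := by
  obtain ⟨g, a₀, b₀, c₀, d₀, e₀, hD, h1, h2, h3, h5, hg1, hg2, hg3, hg4, hg5⟩ := hT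
  obtain ⟨k, hk1, hk2, hk3, hk4⟩ := exists_map4 (G := G) h4 hD h
  have hinj : ∀ {u v : Ω}, k • u = k • v → u = v := fun {u v} huv => smul_left_cancel k huv
  refine ⟨k * g * k⁻¹, k • e₀, ?_, ?_, ?_, ?_, ?_, ?_, ?_, ?_, ?_⟩
  · rw [← hk1]
    exact fun h0 => h1 (hinj h0)
  · rw [← hk2]
    exact fun h0 => h2 (hinj h0)
  · rw [← hk3]
    exact fun h0 => h3 (hinj h0)
  · rw [← hk4]
    exact fun h0 => h5 (hinj h0)
  · rw [← hk1, ← hk2]
    simp [mul_smul, hg1]
  · rw [← hk1, ← hk2]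
    simp [mul_smul, hg2]
  · rw [← hk3]
    simp [mul_smul, hg3]
  · rw [← hk4]
    simp [mul_smul, hg4]
  · simp [mul_smul, hg5]

/-- In that case there are at most eleven points. -/
theorem no_twelve (h4 : IsMultiplyPretransitive G Ω 4) (hsharp : ∀ x : Fin 4 ↪ Ω, stabilizer G x = ⊥)
    (hT : Three G Ω) (emb : Fin 12 ↪ Ω) : False := by
  classical
  have hne0 : ∀ i j : Fin 12, i ≠ j → emb i ≠ emb j := fun i j hij h0 => hij (emb.injective h0)
  set a := emb 0
  set b := emb 1
  set c := emb 2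
  set d := emb 3
  have hD : D4 a b c d :=
    ⟨hne0 _ _ (by decide), hne0 _ _ (by decide), hne0 _ _ (by decide), hne0 _ _ (by decide),
      hne0 _ _ (by decide), hne0 _ _ (by decide)⟩
  obtain ⟨h1, h2, h3, h4', h5, h6⟩ := id hD
  obtain ⟨τ, e, hea, heb, hec, hed, hτa, hτb, hτc, hτd, hτe⟩ := third_fix h4 hsharp hT hD
  have hτ2 : τ * τ = 1 := by
    apply eq_one_of_fix4 hsharp hD <;> simp [mul_smul, hτa, hτb, hτc, hτd]
  have hτinv : ∀ z : Ω, τ • (τ • z) = z := by
    intro z
    rw [← mul_smul, hτ2, one_smul]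
  have hτ1 : τ ≠ 1 := by
    rintro rfl
    rw [one_smul] at hτa
    exact h1 hτa
  -- the fixed points of τ
  have hfix : ∀ z : Ω, τ • z = z → z = c ∨ z = d ∨ z = e ∨ False := by
    intro z hz
    by_contra hcon
    push Not at hcon
    exact hτ1 (eq_one_of_fix4 hsharp (a := c) (b := d) (c := e) (d := z)
      ⟨h6, hec.symm, hcon.1.symm, hed.symm, hcon.2.1.symm, hcon.2.2.1.symm⟩ hτc hτd hτe hz)
  have hne : ∀ z : Ω, τ • z = z → z ≠ a ∧ z ≠ b := by
    intro z hz
    constructor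
    · intro h0
      rw [h0] at hz
      exact h1 (hz.symm.trans hτa)
    · intro h0
      rw [h0] at hz
      exact h1 (hτb.symm.trans hz)
  obtain ⟨ξc, hc1, hc2, hc3, hc4⟩ := exists_map4 (G := G) h4 (a := a) (b := b) (c := d) (d := e)
    (a' := b) (b' := a) (c' := e) (d' := d) ⟨h1, h3, hea.symm, h5, heb.symm, hed.symm⟩
    ⟨h1.symm, heb.symm, h5, hea.symm, h3, hed⟩
  obtain ⟨ξd, hd1, hd2, hd3, hd4⟩ := exists_map4 (G := G) h4 (a := a) (b := b) (c := c) (d := e)
    (a' := b) (b' := a) (c' := e) (d' := c) ⟨h1, h2, hea.symm, h4', heb.symm, hec.symm⟩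
    ⟨h1.symm, heb.symm, h4', hea.symm, h2, hec⟩
  obtain ⟨ξe, he1, he2, he3, he4⟩ := exists_map4 (G := G) h4 hD
    (a' := b) (b' := a) (c' := d) (d' := c) ⟨h1.symm, h5, h4', h3, h2, h6.symm⟩
  -- the main case distinction
  have hcase : ∀ x, x ≠ a → x ≠ b → x ≠ c → x ≠ d → x ≠ e →
      (ξc • x = x ∧ ξc • c = c) ∨ (ξd • x = x ∧ ξd • d = d) ∨ (ξe • x = x ∧ ξe • e = e) := by
    intro x hxa hxb hxc hxd hxe
    set y := τ • x with hy
    have hτy : τ • y = x := hτinv x
    have hxy : x ≠ y := by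
      intro h0
      rcases hfix x h0.symm with h7 | h7 | h7 | h7
      · exact hxc h7
      · exact hxd h7
      · exact hxe h7
      · exact h7
    have hinj : ∀ {u v : Ω}, τ • u = τ • v → u = v := fun {u v} huv => smul_left_cancel τ huv
    have hya : y ≠ a := by
      intro h0
      apply hxb
      apply hinj
      rw [← hy, hτb, h0]
    have hyb : y ≠ b := by
      intro h0
      apply hxa
      apply hinj
      rw [← hy, hτa, h0]
    have hyc : y ≠ c := by
      intro h0
      apply hxc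
      apply hinj
      rw [← hy, hτc, h0]
    have hyd : y ≠ d := by
      intro h0
      apply hxd
      apply hinj
      rw [← hy, hτd, h0]
    have hye : y ≠ e := by
      intro h0
      apply hxe
      apply hinj
      rw [← hy, hτe, h0]
    obtain ⟨ξ, hξa, hξb, hξx, hξy⟩ := exists_map4 (G := G) h4 (a := a) (b := b) (c := x) (d := y)
      (a' := b) (b' := a) (c' := x) (d' := y) ⟨h1, hxa.symm, hya.symm, hxb.symm, hyb.symm, hxy⟩
      ⟨h1.symm, hxb.symm, hyb.symm, hxa.symm, hya.symm, hxy⟩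
    have hD' : D4 a b x y := ⟨h1, hxa.symm, hya.symm, hxb.symm, hyb.symm, hxy⟩
    have hcomm : ξ * τ = τ * ξ := by
      apply eq_of_agree4 hsharp hD' <;>
        simp [mul_smul, hτa, hτb, hξa, hξb, hξx, hξy, hτy, ← hy]
    have hξ2 : ξ * ξ = 1 := by
      apply eq_one_of_fix4 hsharp hD' <;> simp [mul_smul, hξa, hξb, hξx, hξy]
    have hξinv : ∀ z : Ω, ξ • (ξ • z) = z := by
      intro z
      rw [← mul_smul, hξ2, one_smul]
    have hperm : ∀ z : Ω, τ • z = z → τ • (ξ • z) = ξ • z := by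
      intro z hz
      rw [← mul_smul, ← hcomm, mul_smul, hz]
    have hξ1 : ξ ≠ 1 := by
      rintro rfl
      rw [one_smul] at hξa
      exact h1 hξa
    have himg : ∀ z : Ω, τ • z = z → ξ • z = c ∨ ξ • z = d ∨ ξ • z = e := by
      intro z hz
      rcases hfix _ (hperm z hz) with h7 | h7 | h7 | h7
      · exact Or.inl h7
      · exact Or.inr (Or.inl h7)
      · exact Or.inr (Or.inr h7)
      · exact h7.elim
    have hinjξ : ∀ {u v : Ω}, ξ • u = ξ • v → u = v := fun {u v} huv => smul_left_cancel ξ huv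
    rcases himg c hτc with h7 | h7 | h7
    · -- ξ fixes c
      left
      have h8 : ξ • d = e := by
        rcases himg d hτd with h8 | h8 | h8
        · exact absurd (hinjξ (h8.trans h7.symm)) h6.symm
        · exact absurd (eq_one_of_fix4 hsharp (a := x) (b := y) (c := c) (d := d)
            ⟨hxy, hxc, hxd, hyc, hyd, h6⟩ hξx hξy h7 h8) hξ1
        · exact h8
      have h9 : ξ • e = d := by
        rw [← h8, hξinv]
      have heq : ξc = ξ := by
        apply eq_of_agree4 hsharp (a := a) (b := b) (c := d) (d := e) ⟨h1, h3, hea.symm, h5, heb.symm, hed.symm⟩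
        · rw [hc1, hξa]
        · rw [hc2, hξb]
        · rw [hc3, h8]
        · rw [hc4, h9]
      rw [heq]
      exact ⟨hξx, h7⟩
    · -- ξ swaps c and d
      right; right
      have h8 : ξ • d = c := by
        rw [← h7, hξinv]
      have h9 : ξ • e = e := by
        rcases himg e hτe with h9 | h9 | h9
        · exact absurd (hinjξ (h9.trans h8.symm)) hed
        · exact absurd (hinjξ (h9.trans h7.symm)) hec
        · exact h9
      have heq : ξe = ξ := by
        apply eq_of_agree4 hsharp hD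
        · rw [he1, hξa]
        · rw [he2, hξb]
        · rw [he3, h7]
        · rw [he4, h8]
      rw [heq]
      exact ⟨hξx, h9⟩
    · -- ξ swaps c and e
      right; left
      have h8 : ξ • e = c := by
        rw [← h7, hξinv]
      have h9 : ξ • d = d := by
        rcases himg d hτd with h9 | h9 | h9
        · exact absurd (hinjξ (h9.trans h8.symm)) hed.symm
        · exact h9
        · exact absurd (hinjξ (h9.trans h7.symm)) h6.symm
      have heq : ξd = ξ := by
        apply eq_of_agree4 hsharp (a := a) (b := b) (c := c) (d := e) ⟨h1, h2, hea.symm, h4', heb.symm, hec.symm⟩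
        · rw [hd1, hξa]
        · rw [hd2, hξb]
        · rw [hd3, h7]
        · rw [hd4, h8]
      rw [heq]
      exact ⟨hξx, h9⟩
  -- counting
  let S : Finset Ω := (Finset.univ.map emb) \ {a, b, c, d, e}
  have hS : 7 ≤ S.card := by
    have h7 := Finset.le_card_sdiff ({a, b, c, d, e} : Finset Ω) (Finset.univ.map emb)
    have h8 : ({a, b, c, d, e} : Finset Ω).card ≤ 5 := Finset.card_le_five
    rw [Finset.card_map, Finset.card_univ, Fintype.card_fin] at h7
    show 7 ≤ (Finset.map emb Finset.univ \ {a, b, c, d, e}).card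
    omega
  have hSmem : ∀ x ∈ S, x ≠ a ∧ x ≠ b ∧ x ≠ c ∧ x ≠ d ∧ x ≠ e := by
    intro x hx
    simp only [S, Finset.mem_sdiff, Finset.mem_insert, Finset.mem_singleton, not_or] at hx
    exact hx.2
  have hcov : S ⊆ S.filter (fun x => ξc • x = x ∧ ξc • c = c) ∪
      S.filter (fun x => ξd • x = x ∧ ξd • d = d) ∪ S.filter (fun x => ξe • x = x ∧ ξe • e = e) := by
    intro x hx
    obtain ⟨h7, h8, h9, h10, h11⟩ := hSmem x hx
    simp only [Finset.mem_union, Finset.mem_filter]
    rcases hcase x h7 h8 h9 h10 h11 with h12 | h12 | h12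
    · exact Or.inl (Or.inl ⟨hx, h12⟩)
    · exact Or.inl (Or.inr ⟨hx, h12⟩)
    · exact Or.inr ⟨hx, h12⟩
  have hsmall : ∀ (ξ : G) (z : Ω), ξ • a = b → z ≠ a → z ≠ b →
      (∀ x ∈ S, ξ • z = z → x ≠ z) → (S.filter (fun x => ξ • x = x ∧ ξ • z = z)).card ≤ 2 := by
    intro ξ z hξ hza hzb hxz
    by_contra hcon
    push Not at hcon
    obtain ⟨x₁, x₂, x₃, hx₁, hx₂, hx₃, h12, h13, h23⟩ := Finset.two_lt_card_iff.mp hcon
    simp only [Finset.mem_filter] at hx₁ hx₂ hx₃
    have h7 : ξ = 1 := eq_one_of_fix4 hsharp (a := x₁) (b := x₂) (c := x₃) (d := z)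
      ⟨h12, h13, hxz x₁ hx₁.1 hx₁.2.2, h23, hxz x₂ hx₂.1 hx₂.2.2, hxz x₃ hx₃.1 hx₃.2.2⟩
      hx₁.2.1 hx₂.2.1 hx₃.2.1 hx₁.2.2
    rw [h7, one_smul] at hξ
    exact h1 hξ
  have hA := hsmall ξc c hc1 h2.symm h4'.symm (fun x hx _ => (hSmem x hx).2.2.1)
  have hB := hsmall ξd d hd1 h3.symm h5.symm (fun x hx _ => (hSmem x hx).2.2.2.1)
  have hC := hsmall ξe e he1 hea heb (fun x hx _ => (hSmem x hx).2.2.2.2)
  have h8 := Finset.card_le_card hcov
  have h9 := Finset.card_union_le (S.filter (fun x => ξc • x = x ∧ ξc • c = c) ∪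
      S.filter (fun x => ξd • x = x ∧ ξd • d = d)) (S.filter (fun x => ξe • x = x ∧ ξe • e = e))
  have h10 := Finset.card_union_le (S.filter (fun x => ξc • x = x ∧ ξc • c = c))
      (S.filter (fun x => ξd • x = x ∧ ξd • d = d))
  omega

/-- In that case the number of points is odd. -/
theorem odd_of_three [Finite Ω] (h4 : IsMultiplyPretransitive G Ω 4)
    (hsharp : ∀ x : Fin 4 ↪ Ω, stabilizer G x = ⊥) (hT : Three G Ω) (hev : Even (Nat.card Ω)) : False := by
  classical
  obtain ⟨g, a, b, c, d, e, hD, h1, h2, h3, h5, hg1, hg2, hg3, hg4, hg5⟩ := hT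
  haveI : Fact (Nat.Prime 2) := ⟨Nat.prime_two⟩
  haveI : Fintype Ω := Fintype.ofFinite Ω
  have hg2' : g * g = 1 := by
    apply eq_one_of_fix4 hsharp hD <;> simp [mul_smul, hg1, hg2, hg3, hg4]
  let f : Function.End Ω := MulAction.toEndHom g
  have hf : f ^ 2 ^ 1 = 1 := by
    show (MulAction.toEndHom g : Function.End Ω) ^ 2 ^ 1 = 1
    rw [← map_pow, pow_one, sq, hg2', map_one]
  have hm := Equiv.Perm.card_fixedPoints_modEq hf
  have hfix : Function.fixedPoints f = ({c, d, e} : Set Ω) := by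
    ext z
    simp only [Function.mem_fixedPoints, Set.mem_insert_iff, Set.mem_singleton_iff]
    constructor
    · intro hz
      by_contra hcon
      push Not at hcon
      have h7 : g = 1 := eq_one_of_fix4 hsharp (a := c) (b := d) (c := e) (d := z)
        ⟨hD.2.2.2.2.2, h3.symm, hcon.1.symm, h5.symm, hcon.2.1.symm, hcon.2.2.symm⟩ hg3 hg4 hg5 hz
      rw [h7, one_smul] at hg1
      exact hD.1 hg1
    · rintro (rfl | rfl | rfl)
      · exact hg3
      · exact hg4
      · exact hg5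
  have h3c : Nat.card (Function.fixedPoints f) = 3 := by
    rw [hfix, Nat.card_coe_set_eq]
    rw [Set.ncard_eq_toFinset_card']
    simp only [Set.toFinset_insert, Set.toFinset_singleton]
    rw [Finset.card_insert_of_notMem, Finset.card_insert_of_notMem, Finset.card_singleton]
    · simpa using h5.symm
    · simp [hD.2.2.2.2.2, h3.symm]
  rw [← Nat.card_eq_fintype_card, ← Nat.card_eq_fintype_card, h3c] at hm
  have h7 : Nat.card Ω % 2 = 1 := hm
  rw [Nat.even_iff] at hev
  omega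

end aux

/-- Tits' argument: a sharply 4-transitive group (no finiteness assumed) has finite degree at most 11, and at most 6 when the degree is even. -/
theorem result {G : Type*} [Group G] {Ω : Type*} [MulAction G Ω] (h4 : MulAction.IsMultiplyPretransitive G Ω 4) (hsharp : ∀ x : Fin 4 ↪ Ω, MulAction.stabilizer G x = ⊥) (hne : Nonempty (Fin 4 ↪ Ω)) : Finite Ω ∧ Nat.card Ω ≤ 11 ∧ (Even (Nat.card Ω) → Nat.card Ω ≤ 6) := by
  have hfin : ∀ n : ℕ, 12 ≤ n → ¬ Nonempty (Fin n ↪ Ω) := by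
    rintro n hn ⟨e⟩
    have e' : Fin 12 ↪ Ω := (Fin.castLEEmb hn).trans e
    by_cases hT : Three G Ω
    · exact no_twelve h4 hsharp hT e'
    · exact no_seven h4 hsharp hT ((Fin.castLEEmb (by norm_num)).trans e')
  have hF : Finite Ω := by
    by_contra hinf
    rw [not_finite_iff_infinite] at hinf
    exact hfin 12 le_rfl ⟨(Fin.valEmbedding).trans (Infinite.natEmbedding Ω)⟩
  haveI := hF
  haveI : Fintype Ω := Fintype.ofFinite Ω
  refine ⟨hF, ?_, ?_⟩
  · by_contra hcon
    have h12 : 12 ≤ Nat.card Ω := by omega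
    rw [Nat.card_eq_fintype_card] at h12
    exact hfin 12 le_rfl (Function.Embedding.nonempty_of_card_le (by simpa using h12))
  · intro hev
    by_contra hcon
    have h7 : 7 ≤ Nat.card Ω := by omega
    rw [Nat.card_eq_fintype_card] at h7
    obtain ⟨e⟩ : Nonempty (Fin 7 ↪ Ω) := Function.Embedding.nonempty_of_card_le (by simpa using h7)
    by_cases hT : Three G Ω
    · exact odd_of_three h4 hsharp hT hev
    · exact no_seven h4 hsharp hT e

end Cfsg.Agent.S0708
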