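import Cfsg.Statements.S0709
import Mathlib

set_option autoImplicit false
open Cfsg

namespace Cfsg.Agent.S0709

/-- Witt's Lemma for constructing transitive extensions. Points `q 1, …, q t` (`t ≥ 2`) of a finite set are given; `G` fixes `q i` for `i ≥ 3` and is doubly transitive on the remaining points; `s 1 ∈ G` swaps `q 1, q 2`; for `2 ≤ i ≤ t-1`, `s i` swaps `q i, q (i+1)` and fixes the other `q j`; with `H` the stabiliser of `q 1, q 2` in `G`: `s i ^ 2 ∈ H`, `(s i * s (i+1)) ^ 3 ∈ H`, `(s i * s j) ^ 2 ∈ H` for `j ≥ i + 2`, and `s i` (`i ≥ 2`) normalises the stabiliser of `q 2` in `G`. Then `G` and the `s i` generate a `t`-transitive group whose pointwise stabiliser of the `q`'s is `H`. -/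
theorem result {α : Type*} [Fintype α] [DecidableEq α] (t : ℕ) (ht : 2 ≤ t) (q : ℕ → α) (hq : ∀ i j : ℕ, 1 ≤ i → i ≤ t → 1 ≤ j → j ≤ t → q i = q j → i = j) (G : Subgroup (Equiv.Perm α)) (hfix : ∀ g ∈ G, ∀ i : ℕ, 3 ≤ i → i ≤ t → g (q i) = q i) (h2 : ∀ a b c d : α, (∀ i, 3 ≤ i → i ≤ t → a ≠ q i ∧ b ≠ q i ∧ c ≠ q i ∧ d ≠ q i) → a ≠ b → c ≠ d → ∃ g ∈ G, g a = c ∧ g b = d) (s : ℕ → Equiv.Perm α) (hs1 : s 1 ∈ G) (hs1q : s 1 (q 1) = q 2 ∧ s 1 (q 2) = q 1) (hsq : ∀ i : ℕ, 2 ≤ i → i + 1 ≤ t → s i (q i) = q (i + 1) ∧ s i (q (i + 1)) = q i ∧ ∀ j : ℕ, 1 ≤ j → j ≤ t → j ≠ i → j ≠ i + 1 → s i (q j) = q j) (H : Subgroup (Equiv.Perm α)) (hH : H = G ⊓ MulAction.stabilizer (Equiv.Perm α) (q 1) ⊓ MulAction.stabilizer (Equiv.Perm α) (q 2)) (hsq2 : ∀ i : ℕ, 1 ≤ i → i + 1 ≤ t → s i ^ 2 ∈ H) (hbraid : ∀ i : ℕ, 1 ≤ i → i + 2 ≤ t → (s i * s (i + 1)) ^ 3 ∈ H) (hcomm : ∀ i j : ℕ, 1 ≤ i → i + 2 ≤ j → j + 1 ≤ t → (s i * s j) ^ 2 ∈ H ∧ (s j * s i) ^ 2 ∈ H) (hnorm : ∀ i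 : ℕ, 2 ≤ i → i + 1 ≤ t → ∀ g ∈ G ⊓ MulAction.stabilizer (Equiv.Perm α) (q 2), s i * g * (s i)⁻¹ ∈ G ⊓ MulAction.stabilizer (Equiv.Perm α) (q 2)) : MulAction.IsMultiplyPretransitive ↥(Subgroup.closure ((G : Set (Equiv.Perm α)) ∪ {x | ∃ i : ℕ, 2 ≤ i ∧ i + 1 ≤ t ∧ x = s i})) α t ∧ Subgroup.closure ((G : Set (Equiv.Perm α)) ∪ {x | ∃ i : ℕ, 2 ≤ i ∧ i + 1 ≤ t ∧ x = s i}) ⊓ fixingSubgroup (Equiv.Perm α) {x | ∃ i : ℕ, 1 ≤ i ∧ i ≤ t ∧ x = q i} = H := by
  classical
  obtain ⟨X, hX⟩ : ∃ X : ℕ → Subgroup (Equiv.Perm α), ∀ j, X j = Subgroup.closure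
      ((G : Set (Equiv.Perm α)) ∪ {x | ∃ i : ℕ, 2 ≤ i ∧ i + 1 ≤ j ∧ x = s i}) := ⟨_, fun _ => rfl⟩
  rw [← hX t]
  have hinvapp : ∀ (f : Equiv.Perm α) (z : α), f⁻¹ (f z) = z := fun f z => by simp
  have hHG : H ≤ G := by
    rw [hH]; exact fun x hx => hx.1.1
  have hH1 : ∀ x ∈ H, x (q 1) = q 1 := by
    rw [hH]; exact fun x hx => hx.1.2
  have hH2 : ∀ x ∈ H, x (q 2) = q 2 := by
    rw [hH]; exact fun x hx => hx.2
  have hGX : ∀ j, G ≤ X j := by
    intro j g hg
    rw [hX]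
    exact Subgroup.subset_closure (Or.inl hg)
  have hsX : ∀ i j, 2 ≤ i → i + 1 ≤ j → s i ∈ X j := by
    intro i j h1 h2'
    rw [hX]
    exact Subgroup.subset_closure (Or.inr ⟨i, h1, h2', rfl⟩)
  have hX2 : X 2 = G := by
    rw [hX]
    apply le_antisymm
    · rw [Subgroup.closure_le]
      rintro x (hx | ⟨i, h1, h2', rfl⟩)
      · exact hx
      · omega
    · exact fun g hg => Subgroup.subset_closure (Or.inl hg)
  have hXsucc : ∀ j, X j ≤ X (j + 1) := by
    intro j
    rw [hX, hX]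
    apply Subgroup.closure_mono
    rintro x (hx | ⟨i, h1, h2', rfl⟩)
    · exact Or.inl hx
    · exact Or.inr ⟨i, h1, by omega, rfl⟩
  have hq12 : q 1 ≠ q 2 := fun h0 => by
    have := hq 1 2 (by omega) (by omega) (by omega) (by omega) h0
    omega
  have hGdec : ∀ g ∈ G, g ∈ G ⊓ MulAction.stabilizer (Equiv.Perm α) (q 2) ∨
      ∃ y₁ ∈ G ⊓ MulAction.stabilizer (Equiv.Perm α) (q 2),
      ∃ y₂ ∈ G ⊓ MulAction.stabilizer (Equiv.Perm α) (q 2), g = y₁ * s 1 * y₂ := by
    intro g hg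
    by_cases hg2 : g (q 2) = q 2
    · exact Or.inl ⟨hg, hg2⟩
    · right
      have hcond : ∀ i, 3 ≤ i → i ≤ t → q 2 ≠ q i ∧ q 1 ≠ q i ∧ q 2 ≠ q i ∧ g (q 2) ≠ q i := by
        intro i h3 hi
        have h1 : q 2 ≠ q i := fun h0 => by
          have := hq 2 i (by omega) (by omega) (by omega) hi h0
          omega
        have h1' : q 1 ≠ q i := fun h0 => by
          have := hq 1 i (by omega) (by omega) (by omega) hi h0
          omega
        refine ⟨h1, h1', h1, fun h0 => h1 ?_⟩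
        apply g.injective
        rw [h0, hfix g hg i h3 hi]
      obtain ⟨a, ha, ha1, ha2⟩ := h2 (q 2) (q 1) (q 2) (g (q 2)) hcond (Ne.symm hq12) (Ne.symm hg2)
      refine ⟨a, ⟨ha, ha1⟩, (a * s 1)⁻¹ * g, Subgroup.mem_inf.2 ⟨mul_mem (inv_mem (mul_mem ha hs1)) hg, ?_⟩, by group⟩
      show ((a * s 1)⁻¹ * g) (q 2) = q 2
      have h5 : (a * s 1) (q 2) = g (q 2) := by
        rw [Equiv.Perm.mul_apply, hs1q.2, ha2]
      rw [Equiv.Perm.mul_apply, ← h5, hinvapp]
  have hGnorm : ∀ j, 3 ≤ j → j + 1 ≤ t → ∀ g ∈ G, s j * g * (s j)⁻¹ ∈ G := by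
    intro j h3 hjt g hg
    have hn : ∀ y ∈ G ⊓ MulAction.stabilizer (Equiv.Perm α) (q 2), s j * y * (s j)⁻¹ ∈ G :=
      fun y hy => (hnorm j (by omega) hjt y hy).1
    have hs : s j * s 1 * (s j)⁻¹ ∈ G := by
      have h1 := hHG (hcomm 1 j le_rfl (by omega) hjt).2
      have h2' := hHG (hsq2 j (by omega) hjt)
      have h3 : s j * s 1 * (s j)⁻¹ = (s j * s 1) ^ 2 * (s 1)⁻¹ * (s j ^ 2)⁻¹ := by
        simp only [pow_succ, pow_zero, one_mul]
        group
      rw [h3]
      exact mul_mem (mul_mem h1 (inv_mem hs1)) (inv_mem h2')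
    rcases hGdec g hg with h | ⟨y₁, h1, y₂, h2', rfl⟩
    · exact hn g h
    · have h3 : s j * (y₁ * s 1 * y₂) * (s j)⁻¹ =
          (s j * y₁ * (s j)⁻¹) * (s j * s 1 * (s j)⁻¹) * (s j * y₂ * (s j)⁻¹) := by group
      rw [h3]
      exact mul_mem (mul_mem (hn _ h1) hs) (hn _ h2')
  have hXnorm : ∀ i, 2 ≤ i → i + 2 ≤ t → ∀ x ∈ X i, s (i + 1) * x * (s (i + 1))⁻¹ ∈ X i := by
    intro i hi hit x hx
    rw [hX] at hx
    induction hx using Subgroup.closure_induction with
    | mem x hx =>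
      rcases hx with hx | ⟨k, h1, h2', rfl⟩
      · exact hGX i (hGnorm (i + 1) (by omega) (by omega) x hx)
      · have hc := hHG (hcomm k (i + 1) (by omega) (by omega) (by omega)).2
        have hsq' := hHG (hsq2 (i + 1) (by omega) (by omega))
        have h3 : s (i + 1) * s k * (s (i + 1))⁻¹ =
            (s (i + 1) * s k) ^ 2 * (s k)⁻¹ * (s (i + 1) ^ 2)⁻¹ := by
          simp only [pow_succ, pow_zero, one_mul]
          group
        rw [h3]
        exact mul_mem (mul_mem (hGX i hc) (inv_mem (hsX k i h1 h2'))) (inv_mem (hGX i hsq'))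
    | one => simp
    | mul x y _ _ hx hy =>
      have h3 : s (i + 1) * (x * y) * (s (i + 1))⁻¹ =
          (s (i + 1) * x * (s (i + 1))⁻¹) * (s (i + 1) * y * (s (i + 1))⁻¹) := by group
      rw [h3]
      exact mul_mem hx hy
    | inv x _ hx =>
      have h3 : s (i + 1) * x⁻¹ * (s (i + 1))⁻¹ = (s (i + 1) * x * (s (i + 1))⁻¹)⁻¹ := by group
      rw [h3]
      exact inv_mem hx
  obtain ⟨Y, hY1, hY2⟩ : ∃ Y : ℕ → Subgroup (Equiv.Perm α),
      Y 1 = G ⊓ MulAction.stabilizer (Equiv.Perm α) (q 2) ∧ ∀ i, 2 ≤ i → Y i = X i :=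
    ⟨fun i => if i = 1 then G ⊓ MulAction.stabilizer (Equiv.Perm α) (q 2) else X i, by simp,
      fun i hi => by
        have : i ≠ 1 := by omega
        simp [this]⟩
  have hYnorm : ∀ i, 1 ≤ i → i + 2 ≤ t → ∀ y ∈ Y i, s (i + 1) * y * (s (i + 1))⁻¹ ∈ Y i := by
    intro i hi hit y hy
    rcases Nat.eq_or_lt_of_le hi with rfl | h
    · rw [hY1] at hy ⊢
      exact hnorm 2 le_rfl hit y hy
    · rw [hY2 i h] at hy ⊢
      exact hXnorm i h hit y hy
  have hHY : ∀ i, 1 ≤ i → H ≤ Y i := by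
    intro i hi
    rcases Nat.eq_or_lt_of_le hi with rfl | h
    · rw [hY1]
      exact fun x hx => ⟨hHG hx, hH2 x hx⟩
    · rw [hY2 i h]
      exact hHG.trans (hGX i)
  have hYX : ∀ i, 1 ≤ i → Y i ≤ X (i + 1) := by
    intro i hi
    rcases Nat.eq_or_lt_of_le hi with rfl | h
    · rw [hY1]
      exact fun x hx => hGX _ hx.1
    · rw [hY2 i h]
      exact hXsucc i
  have hYnorm' : ∀ i, 1 ≤ i → i + 2 ≤ t → ∀ y ∈ Y i, (s (i + 1))⁻¹ * y * s (i + 1) ∈ Y i := by
    intro i hi hit y hy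
    have hss := hHY i hi (hsq2 (i + 1) (by omega) (by omega))
    have h3 : (s (i + 1))⁻¹ * y * s (i + 1) =
        (s (i + 1) ^ 2)⁻¹ * (s (i + 1) * y * (s (i + 1))⁻¹) * s (i + 1) ^ 2 := by
      simp only [pow_succ, pow_zero, one_mul]
      group
    rw [h3]
    exact mul_mem (mul_mem (inv_mem hss) (hYnorm i hi hit y hy)) hss
  have hdecomp : ∀ i, 1 ≤ i → i + 1 ≤ t → ∀ g ∈ X (i + 1), g ∈ Y i ∨
      ∃ y₁ ∈ Y i, ∃ y₂ ∈ Y i, g = y₁ * s i * y₂ := by
    intro i hi
    induction i, hi using Nat.le_induction with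
    | base =>
      intro _ g hg
      rw [hY1]
      have hg' : g ∈ G := by
        have h2' : X (1 + 1) = G := hX2
        rwa [h2'] at hg
      exact hGdec g hg'
    | succ i hi ih =>
      intro hit g hg
      have ih' := ih (by omega)
      rw [hY2 (i + 1) (by omega)]
      have hK : ∀ x ∈ X (i + 1), (s (i + 1) * x * s (i + 1)) ∈ X (i + 1) ∨
          ∃ a ∈ X (i + 1), ∃ b ∈ X (i + 1), s (i + 1) * x * s (i + 1) = a * s (i + 1) * b := by
        intro x hx
        have hss := hsq2 (i + 1) (by omega) hit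
        rcases ih' x hx with h | ⟨y₁, h1, y₂, h2', rfl⟩
        · left
          have h3 : s (i + 1) * x * s (i + 1) = (s (i + 1) * x * (s (i + 1))⁻¹) * s (i + 1) ^ 2 := by
            simp only [pow_succ, pow_zero, one_mul]
            group
          rw [h3]
          exact mul_mem (hYX i hi (hYnorm i hi (by omega) x h)) (hGX _ (hHG hss))
        · right
          have hb := hGX (i + 1) (hHG (hbraid i hi (by omega)))
          have hsi : s i ∈ X (i + 1) := by
            rcases Nat.eq_or_lt_of_le hi with rfl | h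
            · exact hGX _ hs1
            · exact hsX i (i + 1) h le_rfl
          have hss' := hGX (i + 1) (hHG hss)
          refine ⟨(s (i + 1) * y₁ * (s (i + 1))⁻¹) * (s i)⁻¹ * (s i * s (i + 1)) ^ 3,
            mul_mem (mul_mem (hYX i hi (hYnorm i hi (by omega) y₁ h1)) (inv_mem hsi)) hb,
            (s (i + 1) ^ 2)⁻¹ * (s i)⁻¹ * ((s (i + 1))⁻¹ * y₂ * s (i + 1)),
            mul_mem (mul_mem (inv_mem hss') (inv_mem hsi)) (hYX i hi (hYnorm' i hi (by omega) y₂ h2')),
            ?_⟩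
          simp only [pow_succ, pow_zero, one_mul]
          group
      rw [hX (i + 1 + 1)] at hg
      induction hg using Subgroup.closure_induction with
      | mem x hx =>
        rcases hx with hx | ⟨k, h1, h2', rfl⟩
        · exact Or.inl (hGX _ hx)
        · rcases Nat.lt_or_ge (k + 1) (i + 2) with hk | hk
          · exact Or.inl (hsX k (i + 1) h1 (by omega))
          · have hk' : k = i + 1 := by omega
            subst hk'
            exact Or.inr ⟨1, one_mem _, 1, one_mem _, by simp⟩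
      | one => exact Or.inl (one_mem _)
      | mul x y _ _ hx hy =>
        rcases hx with hx | ⟨a, ha, b, hb, rfl⟩ <;> rcases hy with hy | ⟨c, hc, d, hd, rfl⟩
        · exact Or.inl (mul_mem hx hy)
        · exact Or.inr ⟨x * c, mul_mem hx hc, d, hd, by group⟩
        · exact Or.inr ⟨a, ha, b * y, mul_mem hb hy, by group⟩
        · have h3 : a * s (i + 1) * b * (c * s (i + 1) * d) =
              a * (s (i + 1) * (b * c) * s (i + 1)) * d := by group
          rw [h3]
          rcases hK (b * c) (mul_mem hb hc) with h | ⟨e, he, f, hf, hef⟩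
          · exact Or.inl (mul_mem (mul_mem ha h) hd)
          · rw [hef]
            exact Or.inr ⟨a * e, mul_mem ha he, f * d, mul_mem hf hd, by group⟩
      | inv x _ hx =>
        rcases hx with hx | ⟨a, ha, b, hb, rfl⟩
        · exact Or.inl (inv_mem hx)
        · have hss := hGX (i + 1) (hHG (hsq2 (i + 1) (by omega) hit))
          refine Or.inr ⟨b⁻¹, inv_mem hb, (s (i + 1) ^ 2)⁻¹ * a⁻¹, mul_mem (inv_mem hss) (inv_mem ha), ?_⟩
          simp only [pow_succ, pow_zero, one_mul]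
          group
  have hfixX : ∀ j, 2 ≤ j → ∀ k, j < k → k ≤ t → ∀ x ∈ X j, x (q k) = q k := by
    intro j hj k hjk hkt x hx
    rw [hX] at hx
    induction hx using Subgroup.closure_induction with
    | mem x hx =>
      rcases hx with hx | ⟨i, h1, h2', rfl⟩
      · exact hfix x hx k (by omega) hkt
      · exact (hsq i h1 (by omega)).2.2 k (by omega) hkt (by omega) (by omega)
    | one => rfl
    | mul x y _ _ hx hy => rw [Equiv.Perm.mul_apply, hy, hx]
    | inv x _ hx => rw [Equiv.Perm.inv_eq_iff_eq, hx]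
  have hstab : ∀ j, 2 ≤ j → j + 1 ≤ t → ∀ x ∈ X (j + 1), x (q (j + 1)) = q (j + 1) → x ∈ X j := by
    intro j hj hjt x hx hxq
    have hYj := hY2 j hj
    rcases hdecomp j (by omega) hjt x hx with h | ⟨y₁, h1, y₂, h2', rfl⟩
    · rwa [hYj] at h
    · exfalso
      rw [hYj] at h1 h2'
      have hb := hfixX j hj (j + 1) (by omega) hjt y₂ h2'
      have ha := hfixX j hj (j + 1) (by omega) hjt y₁ h1
      rw [Equiv.Perm.mul_apply, Equiv.Perm.mul_apply, hb, (hsq j hj hjt).2.1] at hxq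
      have h5 : y₁ (q j) = y₁ (q (j + 1)) := by rw [hxq, ha]
      have h6 := y₁.injective h5
      have := hq j (j + 1) (by omega) (by omega) (by omega) hjt h6
      omega
  have htrans1 : ∀ j, 2 ≤ j → j ≤ t → ∀ z, (∀ k, j < k → k ≤ t → z ≠ q k) → ∃ x ∈ X j, x z = q j := by
    intro j hj
    induction j, hj using Nat.le_induction with
    | base =>
      intro _ z hz
      by_cases hz2 : z = q 2
      · exact ⟨1, one_mem _, by rw [hz2]; rfl⟩
      · have hcond : ∀ i, 3 ≤ i → i ≤ t → z ≠ q i ∧ q 2 ≠ q i ∧ q 2 ≠ q i ∧ q 1 ≠ q i := by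
          intro i h3 hi
          have h1 : q 2 ≠ q i := fun h0 => by
            have := hq 2 i (by omega) (by omega) (by omega) hi h0
            omega
          have h1' : q 1 ≠ q i := fun h0 => by
            have := hq 1 i (by omega) (by omega) (by omega) hi h0
            omega
          exact ⟨hz i (by omega) hi, h1, h1, h1'⟩
        obtain ⟨g, hg, hg1, _⟩ := h2 z (q 2) (q 2) (q 1) hcond hz2 (Ne.symm hq12)
        exact ⟨g, by rw [hX2]; exact hg, hg1⟩
    | succ j hj ih =>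
      intro hjt z hz
      by_cases hzj : z = q (j + 1)
      · exact ⟨1, one_mem _, by rw [hzj]; rfl⟩
      · obtain ⟨x, hx, hxz⟩ := ih (by omega) z (fun k hk hkt => by
          rcases Nat.eq_or_lt_of_le (Nat.succ_le_of_lt hk) with h | h
          · rw [← h]; exact hzj
          · exact hz k h hkt)
        refine ⟨s j * x, mul_mem (hsX j (j + 1) hj le_rfl) (hXsucc j hx), ?_⟩
        rw [Equiv.Perm.mul_apply, hxz]
        exact (hsq j hj hjt).1
  have htrans : ∀ j, 2 ≤ j → j ≤ t → ∀ a b : ℕ → α,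
      (∀ i, 1 ≤ i → i ≤ j → ∀ k, j < k → k ≤ t → a i ≠ q k ∧ b i ≠ q k) →
      (∀ i i', 1 ≤ i → i ≤ j → 1 ≤ i' → i' ≤ j → a i = a i' → i = i') →
      (∀ i i', 1 ≤ i → i ≤ j → 1 ≤ i' → i' ≤ j → b i = b i' → i = i') →
      ∃ x ∈ X j, ∀ i, 1 ≤ i → i ≤ j → x (a i) = b i := by
    intro j hj
    induction j, hj using Nat.le_induction with
    | base =>
      intro _ a b hab ha hb
      have hcond : ∀ i, 3 ≤ i → i ≤ t → a 1 ≠ q i ∧ a 2 ≠ q i ∧ b 1 ≠ q i ∧ b 2 ≠ q i := by
        intro i h3 hi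
        exact ⟨(hab 1 (by omega) (by omega) i (by omega) hi).1, (hab 2 (by omega) (by omega) i (by omega) hi).1,
          (hab 1 (by omega) (by omega) i (by omega) hi).2, (hab 2 (by omega) (by omega) i (by omega) hi).2⟩
      obtain ⟨g, hg, hg1, hg2⟩ := h2 (a 1) (a 2) (b 1) (b 2) hcond
        (fun h0 => by have := ha 1 2 (by omega) (by omega) (by omega) (by omega) h0; omega)
        (fun h0 => by have := hb 1 2 (by omega) (by omega) (by omega) (by omega) h0; omega)
      refine ⟨g, by rw [hX2]; exact hg, ?_⟩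
      intro i hi1 hi2
      have : i = 1 ∨ i = 2 := by omega
      rcases this with rfl | rfl
      · exact hg1
      · exact hg2
    | succ j hj ih =>
      intro hjt a b hab ha hb
      obtain ⟨x, hx, hxa⟩ := htrans1 (j + 1) (by omega) hjt (a (j + 1))
        (fun k hk hkt => (hab (j + 1) (by omega) le_rfl k hk hkt).1)
      obtain ⟨x', hx', hxb⟩ := htrans1 (j + 1) (by omega) hjt (b (j + 1))
        (fun k hk hkt => (hab (j + 1) (by omega) le_rfl k hk hkt).2)
      have hcond : ∀ i, 1 ≤ i → i ≤ j → ∀ k, j < k → k ≤ t → x (a i) ≠ q k ∧ x' (b i) ≠ q k := by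
        intro i hi1 hi2 k hk hkt
        rcases Nat.eq_or_lt_of_le (Nat.succ_le_of_lt hk) with h | h
        · subst h
          constructor
          · intro h0
            have h5 : x (a i) = x (a (j + 1)) := by rw [h0, hxa]
            have := ha i (j + 1) hi1 (by omega) (by omega) le_rfl (x.injective h5)
            omega
          · intro h0
            have h5 : x' (b i) = x' (b (j + 1)) := by rw [h0, hxb]
            have := hb i (j + 1) hi1 (by omega) (by omega) le_rfl (x'.injective h5)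
            omega
        · have hfx := hfixX (j + 1) (by omega) k h hkt x hx
          have hfx' := hfixX (j + 1) (by omega) k h hkt x' hx'
          have hh := hab i hi1 (by omega) k h hkt
          constructor
          · intro h0
            exact hh.1 (x.injective (by rw [h0, hfx]))
          · intro h0
            exact hh.2 (x'.injective (by rw [h0, hfx']))
      obtain ⟨y, hy, hya⟩ := ih (by omega) (fun i => x (a i)) (fun i => x' (b i)) hcond
        (fun i i' h1 h2' h3 h4 h5 => ha i i' h1 (by omega) h3 (by omega) (x.injective h5))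
        (fun i i' h1 h2' h3 h4 h5 => hb i i' h1 (by omega) h3 (by omega) (x'.injective h5))
      refine ⟨x'⁻¹ * y * x, mul_mem (mul_mem (inv_mem hx') (hXsucc j hy)) hx, ?_⟩
      intro i hi1 hi2
      rw [Equiv.Perm.mul_apply, Equiv.Perm.mul_apply]
      rcases Nat.lt_or_ge i (j + 1) with h | h
      · have h5 := hya i hi1 (by omega)
        rw [h5, hinvapp]
      · have hij : i = j + 1 := by omega
        subst hij
        rw [hxa, hfixX j hj (j + 1) (by omega) hjt y hy, ← hxb, hinvapp]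
  have hdesc : ∀ j, 2 ≤ j → j ≤ t → ∀ x ∈ X j, (∀ i, 1 ≤ i → i ≤ j → x (q i) = q i) → x ∈ H := by
    intro j hj
    induction j, hj using Nat.le_induction with
    | base =>
      intro _ x hx hxq
      rw [hX2] at hx
      rw [hH]
      exact ⟨⟨hx, hxq 1 (by omega) (by omega)⟩, hxq 2 (by omega) (by omega)⟩
    | succ j hj ih =>
      intro hjt x hx hxq
      exact ih (by omega) x (hstab j hj hjt x hx (hxq (j + 1) (by omega) le_rfl))
        (fun i h1 h2' => hxq i h1 (by omega))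
  refine ⟨?_, ?_⟩
  · refine ⟨fun x y => ?_⟩
    have hpos : ∀ i, 1 ≤ i → i ≤ t → i - 1 < t := fun i h1 h2' => by omega
    let a : ℕ → α := fun i => if h : 1 ≤ i ∧ i ≤ t then x ⟨i - 1, by omega⟩ else q 1
    let b : ℕ → α := fun i => if h : 1 ≤ i ∧ i ≤ t then y ⟨i - 1, by omega⟩ else q 1
    have ha : ∀ i (h1 : 1 ≤ i) (h2' : i ≤ t), a i = x ⟨i - 1, by omega⟩ :=
      fun i h1 h2' => dif_pos ⟨h1, h2'⟩
    have hb : ∀ i (h1 : 1 ≤ i) (h2' : i ≤ t), b i = y ⟨i - 1, by omega⟩ :=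
      fun i h1 h2' => dif_pos ⟨h1, h2'⟩
    obtain ⟨g, hg, hga⟩ := htrans t ht le_rfl a b (fun i _ _ k h3 h4 => by omega)
      (fun i i' h1 h2' h3 h4 h5 => by
        rw [ha i h1 h2', ha i' h3 h4] at h5
        have := x.injective h5
        simp only [Fin.mk.injEq] at this
        omega)
      (fun i i' h1 h2' h3 h4 h5 => by
        rw [hb i h1 h2', hb i' h3 h4] at h5
        have := y.injective h5
        simp only [Fin.mk.injEq] at this
        omega)
    refine ⟨⟨g, hg⟩, ?_⟩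
    ext i
    have h5 := hga (i.1 + 1) (by omega) (by omega)
    rw [ha _ (by omega) (by omega), hb _ (by omega) (by omega)] at h5
    simpa using h5
  · apply le_antisymm
    · rintro x ⟨hx, hxf⟩
      refine hdesc t ht le_rfl x hx (fun i h1 h2' => ?_)
      have := (mem_fixingSubgroup_iff (Equiv.Perm α)).1 hxf (q i) ⟨i, h1, h2', rfl⟩
      simpa using this
    · intro x hxH
      refine ⟨hGX t (hHG hxH), (mem_fixingSubgroup_iff (Equiv.Perm α)).2 ?_⟩
      rintro z ⟨i, h1, h2', rfl⟩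
      show x (q i) = q i
      have h6 : i = 1 ∨ i = 2 ∨ 3 ≤ i := by omega
      rcases h6 with rfl | rfl | h6
      · exact hH1 x hxH
      · exact hH2 x hxH
      · exact hfix x (hHG hxH) i h6 h2'

end Cfsg.Agent.S0709
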