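import Cfsg.Statements.S0710
import Mathlib
import Cfsg.Agent.Lib.Perm.PrimeNormalizer

set_option autoImplicit false
open Cfsg

namespace Cfsg.Agent.S0710

/-- No transitive permutation group on 13 points has order `13 * 12 * 11 * 10 * 9 * 8`. -/
theorem result {α : Type*} [Fintype α] [DecidableEq α] (hα : Fintype.card α = 13) (G : Subgroup (Equiv.Perm α)) [MulAction.IsPretransitive G α] : Nat.card G ≠ 13 * 12 * 11 * 10 * 9 * 8 := by
  intro hG
  haveI : Fact (Nat.Prime 13) := ⟨by norm_num⟩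
  obtain ⟨P⟩ : Nonempty (Sylow 13 G) := inferInstance
  obtain ⟨t, ht, -, h1, h2⟩ := Cfsg.Agent.Lib.Perm.sylow_count_prime_degree hα G P
  rw [hG] at h1
  have h3 : t ∈ Nat.divisors 12 := by
    rw [Nat.mem_divisors]
    exact ⟨ht, by norm_num⟩
  have h4 : Nat.divisors 12 = {1, 2, 3, 4, 6, 12} := by decide
  rw [h4] at h3
  simp only [Finset.mem_insert, Finset.mem_singleton] at h3
  unfold Nat.ModEq at h2
  rcases h3 with rfl | rfl | rfl | rfl | rfl | rfl <;> omega

end Cfsg.Agent.S0710
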