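import Cfsg.Statements.S0711
import Mathlib

set_option autoImplicit false
open Cfsg

namespace Cfsg.Agent.S0711

section helpers

variable {α : Type*} [Fintype α] [DecidableEq α]

/-- Prescribing values on at most `k` points. -/
private lemma exists_prescribed (G : Subgroup (Equiv.Perm α)) {k : ℕ} (hkn : k ≤ Fintype.card α)
    (hG : MulAction.IsMultiplyPretransitive G α k) (D : Finset α) (hD : D.card ≤ k) (f : α → α)
    (hf : Set.InjOn f D) : ∃ h ∈ G, ∀ x ∈ D, h x = f x := by
  classical
  have hj : MulAction.IsMultiplyPretransitive G α D.card :=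
    MulAction.isMultiplyPretransitive_of_le (n := k) hD (by rwa [Nat.card_eq_fintype_card])
  let e := D.equivFin.symm
  let x : Fin D.card ↪ α := ⟨fun i => (e i : α), fun i j hij => e.injective (Subtype.ext hij)⟩
  let x' : Fin D.card ↪ α := ⟨fun i => f (e i : α), fun i j hij =>
    e.injective (Subtype.ext (hf (e i).2 (e j).2 hij))⟩
  obtain ⟨g, hg⟩ := MulAction.exists_smul_eq G x x'
  refine ⟨g.1, g.2, fun y hy => ?_⟩
  have h1 : e (D.equivFin ⟨y, hy⟩) = ⟨y, hy⟩ := D.equivFin.symm_apply_apply _
  have h2 := DFunLike.congr_fun hg (D.equivFin ⟨y, hy⟩)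
  rw [Function.Embedding.smul_apply] at h2
  change g • ((e _ : D) : α) = f ((e _ : D) : α) at h2
  rw [h1] at h2
  exact h2

/-- Sets with at most one arc-end, of any size. -/
private lemma exists_arc_set (g : Equiv.Perm α) (j : ℕ) (hj : j ≤ g.support.card) :
    ∃ Δ : Finset α, Δ ⊆ g.support ∧ Δ.card = j ∧
      ∀ x ∈ Δ, ∀ y ∈ Δ, g x ∉ Δ → g y ∉ Δ → x = y := by
  induction j with
  | zero => exact ⟨∅, by simp, by simp, by simp⟩
  | succ j ih =>
    obtain ⟨Δ, hsub, hcard, harc⟩ := ih (by omega)
    by_cases hinv : ∀ x ∈ Δ, g x ∈ Δ
    · -- invariant: add any point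
      obtain ⟨z, hz, hzΔ⟩ : ∃ z ∈ g.support, z ∉ Δ := by
        by_contra hcon
        push Not at hcon
        have : g.support.card ≤ Δ.card := Finset.card_le_card hcon
        omega
      refine ⟨insert z Δ, Finset.insert_subset hz hsub, by
        rw [Finset.card_insert_of_notMem hzΔ, hcard], ?_⟩
      intro x hx y hy hgx hgy
      rw [Finset.mem_insert] at hx hy hgx hgy
      push Not at hgx hgy
      rcases hx with rfl | hx
      · rcases hy with rfl | hy
        · rfl
        · exact absurd (hinv y hy) hgy.2
      · exact absurd (hinv x hx) hgx.2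
    · push Not at hinv
      obtain ⟨a, ha, hga⟩ := hinv
      refine ⟨insert (g a) Δ, Finset.insert_subset ?_ hsub, by
        rw [Finset.card_insert_of_notMem hga, hcard], ?_⟩
      · rw [Equiv.Perm.apply_mem_support]; exact hsub ha
      · intro x hx y hy hgx hgy
        rw [Finset.mem_insert] at hx hy hgx hgy
        push Not at hgx hgy
        have key : ∀ z ∈ Δ, g z ≠ g a → g z ∉ Δ → False := by
          intro z hz h1 h2
          have := harc z hz a ha h2 hga
          rw [this] at h1
          exact h1 rfl
        rcases hx with rfl | hx
        · rcases hy with rfl | hy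
          · rfl
          · exact (key y hy hgy.1 hgy.2).elim
        · exact (key x hx hgx.1 hgx.2).elim

private lemma pai (h : Equiv.Perm α) (x : α) : h (h⁻¹ x) = x := Equiv.apply_symm_apply h x

private lemma fix_of_both (g h : Equiv.Perm α) (x : α) (h1 : h x = x) (h2 : h (g x) = g x) :
    (g⁻¹ * (h * g * h⁻¹)) x = x := by
  have h3 : h⁻¹ x = x := by rw [Equiv.Perm.inv_eq_iff_eq]; exact h1.symm
  show g⁻¹ (h (g (h⁻¹ x))) = x
  rw [h3, h2]
  exact Equiv.symm_apply_apply g x

private lemma fix_of_out (g h : Equiv.Perm α) (x : α) (h1 : g x = x) (h2 : g (h⁻¹ x) = h⁻¹ x) :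
    (g⁻¹ * (h * g * h⁻¹)) x = x := by
  show g⁻¹ (h (g (h⁻¹ x))) = x
  rw [h2, pai, Equiv.Perm.inv_eq_iff_eq]
  exact h1.symm

/-- The key reduction of the support. -/
private lemma exists_smaller (G : Subgroup (Equiv.Perm α)) {k : ℕ} (hk : 3 ≤ k)
    (hkn : k ≤ Fintype.card α) (hG : MulAction.IsMultiplyPretransitive G α k)
    (g : Equiv.Perm α) (hg : g ∈ G) (h4 : 4 ≤ g.support.card) (hsupp : g.support.card < 2 * k - 2) :
    ∃ y ∈ G, y ≠ 1 ∧ y.support.card < g.support.card := by
  classical
  set T := g.support with hT
  have hmemT : ∀ x, x ∈ T ↔ g x ≠ x := fun x => Equiv.Perm.mem_support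
  have hgT : ∀ x, x ∈ T ↔ g x ∈ T := fun x => by
    rw [hT, Equiv.Perm.apply_mem_support]
  have hyG : ∀ h ∈ G, g⁻¹ * (h * g * h⁻¹) ∈ G := fun h hh =>
    G.mul_mem (G.inv_mem hg) (G.mul_mem (G.mul_mem hh hg) (G.inv_mem hh))
  have hsub_support : ∀ (y : Equiv.Perm α) (S : Finset α), (∀ x, x ∉ S → y x = x) →
      y.support.card ≤ S.card := by
    intro y S hS
    apply Finset.card_le_card
    intro x hx
    by_contra hxS
    exact (Equiv.Perm.mem_support.mp hx) (hS x hxS)
  by_cases hTall : ∀ c, c ∈ T
  · -- every point is moved by `g`
    obtain ⟨x, b, c, hxb, hxc, hbc⟩ : ∃ x b c : α, x ≠ b ∧ x ≠ c ∧ b ≠ c := by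
      have : 2 < Fintype.card α := by omega
      obtain ⟨x, b, c, -, -, -, h1, h2, h3⟩ := Finset.two_lt_card_iff.mp
        (by rw [Finset.card_univ]; exact this : 2 < (Finset.univ : Finset α).card)
      exact ⟨x, b, c, h1, h2, h3⟩
    obtain ⟨h, hh, hfix⟩ := exists_prescribed G hkn hG {x, b} (by
        rw [Finset.card_pair hxb]; omega) (fun z => if z = b then c else z) (by
        intro u hu v hv huv
        simp only [Finset.coe_insert, Finset.coe_singleton, Set.mem_insert_iff,
          Set.mem_singleton_iff] at hu hv
        rcases hu with rfl | rfl <;> rcases hv with rfl | rfl <;> simp_all)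
    refine ⟨h, hh, ?_, ?_⟩
    · intro h1
      have := hfix b (by simp)
      rw [h1] at this
      simp at this
      exact hbc this
    · have h2 : h x = x := by
        have := hfix x (by simp)
        simpa [hxb] using this
      have h3 : x ∉ h.support := by
        rw [Equiv.Perm.mem_support]; simpa using h2
      have h5 : h.support ⊂ T := by
        refine ⟨fun z _ => hTall z, fun h6 => h3 (h6 (hTall x))⟩
      exact Finset.card_lt_card h5
  · push Not at hTall
    obtain ⟨c, hc⟩ := hTall
    have hcfix : g c = c := by
      by_contra hcon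
      exact hc ((hmemT c).mpr hcon)
    by_cases hmk : T.card ≤ k
    · -- small support
      obtain ⟨b, hb⟩ : T.Nonempty := by
        rw [← Finset.card_pos]; omega
      have hbc : b ≠ c := fun h => hc (h ▸ hb)
      obtain ⟨h, hh, hfix⟩ := exists_prescribed G hkn hG T hmk (fun z => if z = b then c else z) (by
        intro u hu v hv huv
        simp only [] at huv
        by_cases hub : u = b <;> by_cases hvb : v = b
        · rw [hub, hvb]
        · simp only [hub, hvb, if_true, if_false] at huv
          rw [huv] at hc
          exact absurd hv hc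
        · simp only [hub, hvb, if_true, if_false] at huv
          rw [← huv] at hc
          exact absurd hu hc
        · simpa [hub, hvb] using huv)
      have hhb : h b = c := by simpa using hfix b hb
      have hhT : ∀ z ∈ T, z ≠ b → h z = z := by
        intro z hz hzb
        simpa [hzb] using hfix z hz
      refine ⟨_, hyG h hh, ?_, ?_⟩
      · -- `c` is moved
        intro hy1
        have h1 : (g⁻¹ * (h * g * h⁻¹)) c = c := by rw [hy1]; rfl
        have h2 : h⁻¹ c = b := by rw [Equiv.Perm.inv_eq_iff_eq]; exact hhb.symm
        simp only [Equiv.Perm.mul_apply, h2] at h1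
        rw [Equiv.Perm.inv_eq_iff_eq, hcfix] at h1
        have h3 : g b = b := by
          apply h.injective
          rw [h1, hhb]
        exact (hmemT b).mp hb h3
      · set a := g⁻¹ b with ha
        have hS : (g⁻¹ * (h * g * h⁻¹)).support.card ≤ ({a, b, c} : Finset α).card := by
          apply hsub_support
          intro x hx
          simp only [Finset.mem_insert, Finset.mem_singleton, not_or] at hx
          obtain ⟨hxa, hxb, hxc⟩ := hx
          by_cases hxT : x ∈ T
          · apply fix_of_both
            · exact hhT x hxT hxb
            · apply hhT _ ((hgT x).mp hxT)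
              intro h7
              apply hxa
              rw [ha, Equiv.Perm.eq_inv_iff_eq]
              exact h7
          · apply fix_of_out
            · by_contra hcon
              exact hxT ((hmemT x).mpr hcon)
            · by_contra hcon
              have h8 := (hmemT _).mpr hcon
              by_cases h9 : h⁻¹ x = b
              · apply hxc
                rw [← hhb, ← h9, pai]
              · have := hhT _ h8 h9
                rw [pai] at this
                apply hxT
                rw [this]
                exact h8
        have h5 : ({a, b, c} : Finset α).card ≤ 3 := Finset.card_le_three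
        omega
    · -- general case: `k < T.card`
      have hmk' : k < T.card := by omega
      obtain ⟨Δ, hΔT, hΔc, harc⟩ := exists_arc_set g (k - 1) (by show k - 1 ≤ T.card; omega)
      set Δ' := T \ Δ with hΔ'
      have hcardΔ' : Δ'.card = T.card - (k - 1) := by
        rw [hΔ', Finset.card_sdiff_of_subset hΔT, hΔc]
      have hbound : 2 * Δ'.card < T.card := by omega
      have hTeq : ∀ x, x ∈ T → x ∉ Δ' → x ∈ Δ := by
        intro x hx hx'
        by_contra hcon
        exact hx' (Finset.mem_sdiff.mpr ⟨hx, hcon⟩)
      by_cases hinv : ∀ x ∈ Δ, g x ∈ Δ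
      · -- invariant case
        obtain ⟨b, hb⟩ : Δ'.Nonempty := by
          rw [← Finset.card_pos]; omega
        have hbT : b ∈ T := (Finset.mem_sdiff.mp hb).1
        have hbΔ : b ∉ Δ := (Finset.mem_sdiff.mp hb).2
        obtain ⟨h, hh, hfix⟩ := exists_prescribed G hkn hG (insert b Δ) (by
          rw [Finset.card_insert_of_notMem hbΔ, hΔc]; omega) (fun z => if z = b then c else z) (by
          intro u hu v hv huv
          simp only [Finset.coe_insert, Set.mem_insert_iff, Finset.mem_coe] at hu hv
          have hne : ∀ z, z ∈ Δ → z ≠ c := fun z hz hzc => hc (hzc ▸ hΔT hz)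
          have hneb : ∀ z, z ∈ Δ → z ≠ b := fun z hz hzb => hbΔ (hzb ▸ hz)
          simp only [] at huv
          rcases hu with rfl | hu <;> rcases hv with rfl | hv
          · rfl
          · simp only [if_true, if_neg (hneb v hv)] at huv
            exact absurd huv.symm (hne v hv)
          · simp only [if_true, if_neg (hneb u hu)] at huv
            exact absurd huv (hne u hu)
          · simpa [hneb u hu, hneb v hv] using huv)
        have hhb : h b = c := by simpa using hfix b (by simp)
        have hhΔ : ∀ z ∈ Δ, h z = z := by
          intro z hz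
          have hzb : z ≠ b := fun h => hbΔ (h ▸ hz)
          simpa [hzb] using hfix z (by simp [hz])
        refine ⟨_, hyG h hh, ?_, ?_⟩
        · intro hy1
          have h1 : (g⁻¹ * (h * g * h⁻¹)) c = c := by rw [hy1]; rfl
          have h2 : h⁻¹ c = b := by rw [Equiv.Perm.inv_eq_iff_eq]; exact hhb.symm
          simp only [Equiv.Perm.mul_apply, h2] at h1
          rw [Equiv.Perm.inv_eq_iff_eq, hcfix] at h1
          have h3 : g b = b := by
            apply h.injective
            rw [h1, hhb]
          exact (hmemT b).mp hbT h3
        · have hS : (g⁻¹ * (h * g * h⁻¹)).support.card ≤ (Δ' ∪ Δ'.image h).card := by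
            apply hsub_support
            intro x hx
            simp only [Finset.mem_union, Finset.mem_image, not_or, not_exists, not_and] at hx
            obtain ⟨hx1, hx2⟩ := hx
            by_cases hxT : x ∈ T
            · have hxΔ := hTeq x hxT hx1
              exact fix_of_both g h x (hhΔ x hxΔ) (hhΔ _ (hinv x hxΔ))
            · apply fix_of_out
              · by_contra hcon
                exact hxT ((hmemT x).mpr hcon)
              · by_contra hcon
                have h8 := (hmemT _).mpr hcon
                by_cases h9 : h⁻¹ x ∈ Δ'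
                · exact hx2 _ h9 (by rw [pai])
                · have := hhΔ _ (hTeq _ h8 h9)
                  rw [pai] at this
                  apply hxT
                  rw [this]
                  exact h8
          have h5 : (Δ' ∪ Δ'.image h).card ≤ Δ'.card + Δ'.card :=
            (Finset.card_union_le _ _).trans (by
              have := Finset.card_image_le (s := Δ') (f := h)
              omega)
          omega
      · -- one arc end
        push Not at hinv
        obtain ⟨a, haΔ, hga⟩ := hinv
        set b := g a with hb
        have hbT : b ∈ T := (hgT a).mp (hΔT haΔ)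
        have hbΔ' : b ∈ Δ' := Finset.mem_sdiff.mpr ⟨hbT, hga⟩
        have h2 : 1 < Δ'.card := by omega
        obtain ⟨d, hd, hdb⟩ := Finset.exists_mem_ne h2 b
        have hdT : d ∈ T := (Finset.mem_sdiff.mp hd).1
        have hdΔ : d ∉ Δ := (Finset.mem_sdiff.mp hd).2
        obtain ⟨h, hh, hfix⟩ := exists_prescribed G hkn hG (insert b Δ) (by
          rw [Finset.card_insert_of_notMem hga, hΔc]; omega) (fun z => if z = b then d else z) (by
          intro u hu v hv huv
          simp only [Finset.coe_insert, Set.mem_insert_iff, Finset.mem_coe] at hu hv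
          have hne : ∀ z, z ∈ Δ → z ≠ d := fun z hz hzc => hdΔ (hzc ▸ hz)
          have hneb : ∀ z, z ∈ Δ → z ≠ b := fun z hz hzb => hga (hzb ▸ hz)
          simp only [] at huv
          rcases hu with rfl | hu <;> rcases hv with rfl | hv
          · rfl
          · simp only [if_true, if_neg (hneb v hv)] at huv
            exact absurd huv.symm (hne v hv)
          · simp only [if_true, if_neg (hneb u hu)] at huv
            exact absurd huv (hne u hu)
          · simpa [hneb u hu, hneb v hv] using huv)
        have hhb : h b = d := by simpa using hfix b (by simp)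
        have hhΔ : ∀ z ∈ Δ, h z = z := by
          intro z hz
          have hzb : z ≠ b := fun h => hga (h ▸ hz)
          simpa [hzb] using hfix z (by simp [hz])
        refine ⟨_, hyG h hh, ?_, ?_⟩
        · intro hy1
          have h1 : (g⁻¹ * (h * g * h⁻¹)) a = a := by rw [hy1]; rfl
          have h3 : h⁻¹ a = a := by rw [Equiv.Perm.inv_eq_iff_eq]; exact (hhΔ a haΔ).symm
          simp only [Equiv.Perm.mul_apply, h3] at h1
          rw [Equiv.Perm.inv_eq_iff_eq, ← hb, hhb] at h1
          exact hdb h1
        · have hS : (g⁻¹ * (h * g * h⁻¹)).support.card ≤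
              (insert a (Δ' ∪ (Δ'.erase b).image h)).card := by
            apply hsub_support
            intro x hx
            simp only [Finset.mem_insert, Finset.mem_union, Finset.mem_image, Finset.mem_erase,
              not_or, not_exists, not_and] at hx
            obtain ⟨hxa, hx1, hx2⟩ := hx
            by_cases hxT : x ∈ T
            · have hxΔ := hTeq x hxT hx1
              refine fix_of_both g h x (hhΔ x hxΔ) (hhΔ _ ?_)
              by_contra hcon
              exact hxa (harc x hxΔ a haΔ hcon hga)
            · apply fix_of_out
              · by_contra hcon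
                exact hxT ((hmemT x).mpr hcon)
              · by_contra hcon
                have h8 := (hmemT _).mpr hcon
                by_cases h9 : h⁻¹ x ∈ Δ'
                · by_cases h10 : h⁻¹ x = b
                  · apply hxT
                    have : x = d := by
                      rw [← hhb, ← h10, pai]
                    rw [this]; exact hdT
                  · exact hx2 _ ⟨h10, h9⟩ (by rw [pai])
                · have := hhΔ _ (hTeq _ h8 h9)
                  rw [pai] at this
                  apply hxT
                  rw [this]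
                  exact h8
          have h5 : (insert a (Δ' ∪ (Δ'.erase b).image h)).card ≤ 1 + (Δ'.card + (Δ'.card - 1)) := by
            refine (Finset.card_insert_le _ _).trans ?_
            have h6 := Finset.card_union_le Δ' ((Δ'.erase b).image h)
            have h7 := Finset.card_image_le (s := Δ'.erase b) (f := h)
            have h8 : (Δ'.erase b).card = Δ'.card - 1 := Finset.card_erase_of_mem hbΔ'
            omega
          omega

end helpers

/-- A `k`-transitive permutation group (`k ≥ 3`) with a non-identity element of support smaller than `2k - 2` contains a non-identity element of support at most 3, and therefore contains the alternating group. -/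
theorem result {α : Type*} [Fintype α] [DecidableEq α] (G : Subgroup (Equiv.Perm α)) {k : ℕ} (hk : 3 ≤ k) (hkn : k ≤ Fintype.card α) (hG : MulAction.IsMultiplyPretransitive G α k) (g : Equiv.Perm α) (hg : g ∈ G) (hg1 : g ≠ 1) (hsupp : g.support.card < 2 * k - 2) : (∃ h : Equiv.Perm α, h ∈ G ∧ h ≠ 1 ∧ h.support.card ≤ 3) ∧ alternatingGroup α ≤ G := by
  classical
  -- a non-identity element of minimal support
  have hP : ∃ m, ∃ y ∈ G, y ≠ 1 ∧ y.support.card = m := ⟨_, g, hg, hg1, rfl⟩
  let m := Nat.find hP
  obtain ⟨y, hy, hy1, hym⟩ := Nat.find_spec hP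
  have hmin : ∀ z ∈ G, z ≠ 1 → m ≤ z.support.card := fun z hz hz1 =>
    Nat.find_min' hP ⟨z, hz, hz1, rfl⟩
  have hmg : m ≤ g.support.card := hmin g hg hg1
  have hysupp : y.support.card = m := hym
  have hsmall : y.support.card ≤ 3 := by
    by_contra hcon
    obtain ⟨z, hz, hz1, hzlt⟩ := exists_smaller G hk hkn hG y hy (by omega) (by omega)
    have := hmin z hz hz1
    omega
  refine ⟨⟨y, hy, hy1, hsmall⟩, ?_⟩
  -- primitivity
  have h2 : MulAction.IsMultiplyPretransitive G α 2 :=
    MulAction.isMultiplyPretransitive_of_le (n := k) (by omega) (by rwa [Nat.card_eq_fintype_card])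
  haveI hprim : MulAction.IsPreprimitive G α := MulAction.isPreprimitive_of_is_two_pretransitive h2
  have hcases : y.support.card = 2 ∨ y.support.card = 3 := by
    have h1 : y.support.card ≠ 0 := by
      rw [Ne, Finset.card_eq_zero, Equiv.Perm.support_eq_empty_iff]
      exact hy1
    have h3 := Equiv.Perm.card_support_ne_one y
    omega
  rcases hcases with h | h
  · have hs : y.IsSwap := Equiv.Perm.card_support_eq_two.mp h
    rw [Equiv.Perm.subgroup_eq_top_of_isPreprimitive_of_isSwap_mem hprim y hs hy]
    exact le_top
  · have hs : y.IsThreeCycle := card_support_eq_three_iff.mp h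
    exact Equiv.Perm.alternatingGroup_le_of_isPreprimitive_of_isThreeCycle_mem hprim hs hy

end Cfsg.Agent.S0711
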