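import Cfsg.Statements.S0712
import Mathlib
import Cfsg.Agent.Lib.Perm.Trans

set_option autoImplicit false
open Cfsg

namespace Cfsg.Agent.S0712

open MulAction

/-- Jordan: a primitive group in which the pointwise stabiliser of a set `s` is doubly transitive on the complement of `s` (which has at least 2 points) is `(|s| + 2)`-transitive. -/
theorem result {α : Type*} [Fintype α] [DecidableEq α] (G : Subgroup (Equiv.Perm α)) (hG : MulAction.IsPreprimitive G α) (s : Set α) {m : ℕ} (hsm : s.ncard = m) (hm : m + 2 ≤ Fintype.card α) (h2 : MulAction.IsMultiplyPretransitive (fixingSubgroup G s) (SubMulAction.ofFixingSubgroup G s) 2) : MulAction.IsMultiplyPretransitive G α (m + 2) := by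
  classical
  have hfin : s.Finite := Set.toFinite s
  have henc : s.encard = m := by
    rw [← hsm, hfin.cast_ncard_eq]
  have hGm : IsMultiplyPretransitive G α m := by
    cases m with
    | zero => exact is_zero_pretransitive'
    | succ n =>
      have hprim : IsPreprimitive (fixingSubgroup G s) (SubMulAction.ofFixingSubgroup G s) :=
        isPreprimitive_of_is_two_pretransitive h2
      have h3 : IsMultiplyPreprimitive G α (n + 2) :=
        hG.isMultiplyPreprimitive hsm (by rw [Nat.card_eq_fintype_card]; omega) hprim
      haveI := h3.isMultiplyPretransitive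
      exact isMultiplyPretransitive_of_le' (n := n + 2) (by omega) (by
        rw [ENat.card_eq_coe_fintype_card]
        exact_mod_cast (by omega : n + 2 ≤ Fintype.card α))
  exact Cfsg.Agent.Lib.Perm.isMultiplyPretransitive_add_of_fixing s henc hGm h2

end Cfsg.Agent.S0712
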