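import Cfsg.Statements.S0714
import Mathlib

set_option autoImplicit false
open Cfsg

namespace Cfsg.Agent.S0714

section helpers

variable {α : Type*} [Fintype α] [DecidableEq α] {K : Type*} [Field K]

/-- Double transposition lemma. -/
private lemma sub_comp_swap (h : α → K) {p q r s : α} (hpq : p ≠ q) (hpr : p ≠ r) (hps : p ≠ s)
    (hqr : q ≠ r) (hqs : q ≠ s) (hrs : r ≠ s) (hh : h r = h s) :
    h - (fun x => h ((Equiv.swap p q * Equiv.swap r s) x)) =
      (h p - h q) • (Pi.single p (1 : K) - Pi.single q (1 : K)) := by
  funext x
  simp only [Pi.sub_apply, Pi.smul_apply, smul_eq_mul, Equiv.Perm.mul_apply]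
  by_cases hxp : x = p
  · subst hxp
    rw [Equiv.swap_apply_of_ne_of_ne hpr hps, Equiv.swap_apply_left]
    simp [hpq]
  by_cases hxq : x = q
  · subst hxq
    rw [Equiv.swap_apply_of_ne_of_ne hqr hqs, Equiv.swap_apply_right]
    simp [hpq.symm]
  by_cases hxr : x = r
  · subst hxr
    rw [Equiv.swap_apply_left, Equiv.swap_apply_of_ne_of_ne hps.symm hqs.symm]
    simp [hxp, hxq, hh]
  by_cases hxs : x = s
  · subst hxs
    rw [Equiv.swap_apply_right, Equiv.swap_apply_of_ne_of_ne hpr.symm hqr.symm]
    simp [hxp, hxq, hh]
  · rw [Equiv.swap_apply_of_ne_of_ne hxr hxs, Equiv.swap_apply_of_ne_of_ne hxp hxq]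
    simp [hxp, hxq]

private lemma even_swap_swap {p q r s : α} (hpq : p ≠ q) (hrs : r ≠ s) :
    Equiv.swap p q * Equiv.swap r s ∈ alternatingGroup α := by
  rw [Equiv.Perm.mem_alternatingGroup, map_mul, Equiv.Perm.sign_swap hpq, Equiv.Perm.sign_swap hrs]
  decide

end helpers

/-- Over any field, the permutation module of the alternating group of degree at least 5 has exactly four invariant subspaces: zero, the constant functions, the functions with coordinate sum zero, and everything. -/
theorem result {α : Type*} [Fintype α] [DecidableEq α] (hα : 5 ≤ Fintype.card α) {K : Type*} [Field K] (W : Subrepresentation (Cfsg.permRep K (alternatingGroup α) α)) : W.toSubmodule = ⊥ ∨ W = Cfsg.permConstants K (alternatingGroup α) α ∨ W = Cfsg.permSumZero K (alternatingGroup α) α ∨ W.toSubmodule = ⊤ := by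
  classical
  set U := W.toSubmodule with hUdef
  have hcomp : ∀ g : Equiv.Perm α, g ∈ alternatingGroup α → ∀ f ∈ U, (fun x => f (g x)) ∈ U := by
    intro g hg f hf
    have hg' : g⁻¹ ∈ alternatingGroup α := inv_mem hg
    have := W.apply_mem_toSubmodule (⟨g⁻¹, hg'⟩ : alternatingGroup α) hf
    have h2 : (Cfsg.permRep K (alternatingGroup α) α (⟨g⁻¹, hg'⟩ : alternatingGroup α)) f =
        fun x => f (g x) := by
      funext x
      show f ((⟨g⁻¹, hg'⟩ : alternatingGroup α)⁻¹ • x) = f (g x)
      congr 1
    rwa [h2] at this
  have hcard : 5 ≤ Nat.card α := by rwa [Nat.card_eq_fintype_card]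
  obtain ⟨x0⟩ : Nonempty α := by
    rw [← Fintype.card_pos_iff]; omega
  by_cases hconst : ∀ f ∈ U, ∀ a b, f a = f b
  · by_cases hbot : U = ⊥
    · exact Or.inl hbot
    · right; left
      apply Subrepresentation.toSubmodule_injective
      apply le_antisymm
      · intro f hf
        show f ∈ Submodule.span K {fun _ => (1 : K)}
        rw [Submodule.mem_span_singleton]
        refine ⟨f x0, ?_⟩
        funext x
        simp [hconst f hf x0 x]
      · show Submodule.span K {fun _ => (1 : K)} ≤ U
        rw [Submodule.span_singleton_le_iff_mem]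
        obtain ⟨f, hf, hf0⟩ := (Submodule.ne_bot_iff U).mp hbot
        have h1 : f x0 ≠ 0 := by
          intro h
          apply hf0
          funext x
          rw [hconst f hf x x0, h]
          rfl
        have h2 : (fun _ => (1 : K)) = (f x0)⁻¹ • f := by
          funext x
          simp [hconst f hf x x0, h1]
        rw [h2]
        exact U.smul_mem _ hf
  · -- a non-constant function
    push Not at hconst
    obtain ⟨f, hf, a, b, hab⟩ := hconst
    have hne : a ≠ b := fun h => hab (by rw [h])
    -- three further points
    have hS : 2 < (Finset.univ.erase a |>.erase b).card := by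
      rw [Finset.card_erase_of_mem (by simp [hne.symm]), Finset.card_erase_of_mem (by simp),
        Finset.card_univ]
      omega
    obtain ⟨c, d, e, hc, hd, he, hcd, hce, hde⟩ := Finset.two_lt_card_iff.mp hS
    simp only [Finset.mem_erase, Finset.mem_univ, and_true] at hc hd he
    obtain ⟨hcb, hca⟩ := hc
    obtain ⟨hdb, hda⟩ := hd
    obtain ⟨heb, hea⟩ := he
    -- the three-cycle difference
    have hσ : Equiv.swap a b * Equiv.swap b c ∈ alternatingGroup α :=
      even_swap_swap hne hcb.symm
    set h : α → K := f - fun x => f ((Equiv.swap a b * Equiv.swap b c) x) with hh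
    have hhU : h ∈ U := U.sub_mem hf (hcomp _ hσ f hf)
    have hoff : ∀ x, x ≠ a → x ≠ b → x ≠ c → h x = 0 := by
      intro x h1 h2 h3
      simp only [hh, Pi.sub_apply, Equiv.Perm.mul_apply]
      rw [Equiv.swap_apply_of_ne_of_ne h2 h3, Equiv.swap_apply_of_ne_of_ne h1 h2, sub_self]
    have hha : h a ≠ 0 := by
      simp only [hh, Pi.sub_apply, Equiv.Perm.mul_apply]
      rw [Equiv.swap_apply_of_ne_of_ne hne hca.symm, Equiv.swap_apply_left]
      exact sub_ne_zero.mpr hab
    have hdz : h d = 0 := hoff d hda hdb hcd.symm
    have hez : h e = 0 := hoff e hea heb hce.symm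
    -- some difference of basis vectors
    have hex : ∃ p q : α, p ≠ q ∧ Pi.single p (1 : K) - Pi.single q (1 : K) ∈ U := by
      by_cases h1 : h a = h b
      · by_cases h2 : h b = h c
        · -- the third case
          refine ⟨c, e, hce, ?_⟩
          have hτ : Equiv.swap c d * Equiv.swap d e ∈ alternatingGroup α :=
            even_swap_swap hcd hde
          have h3 : h - (fun x => h ((Equiv.swap c d * Equiv.swap d e) x)) =
              (h c) • (Pi.single c (1 : K) - Pi.single e (1 : K)) := by
            funext x
            simp only [Pi.sub_apply, Pi.smul_apply, smul_eq_mul, Equiv.Perm.mul_apply]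
            by_cases hxc : x = c
            · subst hxc
              rw [Equiv.swap_apply_of_ne_of_ne hcd hce, Equiv.swap_apply_left, hdz]
              simp [hce]
            by_cases hxd : x = d
            · subst hxd
              rw [Equiv.swap_apply_left, Equiv.swap_apply_of_ne_of_ne hce.symm hde.symm, hez, hdz]
              simp [hcd.symm, hde]
            by_cases hxe : x = e
            · subst hxe
              rw [Equiv.swap_apply_right, Equiv.swap_apply_right, hez]
              simp [hce.symm]
            · rw [Equiv.swap_apply_of_ne_of_ne hxd hxe, Equiv.swap_apply_of_ne_of_ne hxc hxd]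
              simp [hxc, hxe]
          have h4 : h c ≠ 0 := by
            rw [← h2, ← h1]; exact hha
          have h5 : h - (fun x => h ((Equiv.swap c d * Equiv.swap d e) x)) ∈ U :=
            U.sub_mem hhU (hcomp _ hτ h hhU)
          rw [h3] at h5
          exact (U.smul_mem_iff h4).mp h5
        · refine ⟨b, c, hcb.symm, ?_⟩
          have h3 := sub_comp_swap h hcb.symm hdb.symm heb.symm hcd hce hde (hdz.trans hez.symm)
          have h5 : h - (fun x => h ((Equiv.swap b c * Equiv.swap d e) x)) ∈ U :=
            U.sub_mem hhU (hcomp _ (even_swap_swap hcb.symm hde) h hhU)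
          rw [h3] at h5
          exact (U.smul_mem_iff (sub_ne_zero.mpr h2)).mp h5
      · refine ⟨a, b, hne, ?_⟩
        have h3 := sub_comp_swap h hne hda.symm hea.symm hdb.symm heb.symm hde (hdz.trans hez.symm)
        have h5 : h - (fun x => h ((Equiv.swap a b * Equiv.swap d e) x)) ∈ U :=
          U.sub_mem hhU (hcomp _ (even_swap_swap hne hde) h hhU)
        rw [h3] at h5
        exact (U.smul_mem_iff (sub_ne_zero.mpr h1)).mp h5
    obtain ⟨p, q, hpq, hpqU⟩ := hex
    -- all differences
    have hall : ∀ r s : α, r ≠ s → Pi.single r (1 : K) - Pi.single s (1 : K) ∈ U := by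
      intro r s hrs
      have h2 : MulAction.IsMultiplyPretransitive (alternatingGroup α) α 2 := by
        have := alternatingGroup.isMultiplyPretransitive α
        exact MulAction.isMultiplyPretransitive_of_le (n := Nat.card α - 2) (by omega) (by omega)
      obtain ⟨g, hg1, hg2⟩ := (MulAction.is_two_pretransitive_iff (G := alternatingGroup α) (α := α)).mp
        h2 hpq hrs
      have h3 := hcomp ((g : Equiv.Perm α)⁻¹) (inv_mem g.2) _ hpqU
      have h4 : (fun x => (Pi.single p (1 : K) - Pi.single q (1 : K) : α → K) ((g : Equiv.Perm α)⁻¹ x)) =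
          Pi.single r (1 : K) - Pi.single s (1 : K) := by
        funext x
        have e1 : (g : Equiv.Perm α) p = r := hg1
        have e2 : (g : Equiv.Perm α) q = s := hg2
        simp only [Pi.sub_apply, Pi.single_apply, Equiv.Perm.inv_eq_iff_eq, ← e1, ← e2]
      rwa [h4] at h3
    -- sum zero functions
    have hsum : ∀ u : α → K, ∑ x, u x = 0 → u ∈ U := by
      intro u hu
      have h1 : u = ∑ x, u x • (Pi.single x (1 : K) - Pi.single x0 (1 : K)) := by
        funext y
        simp only [Finset.sum_apply, Pi.smul_apply, Pi.sub_apply, smul_eq_mul, mul_sub,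
          Finset.sum_sub_distrib, ← Finset.sum_mul, hu, zero_mul, sub_zero]
        simp [Pi.single_apply]
      rw [h1]
      apply U.sum_mem
      intro x _
      by_cases hx : x = x0
      · subst hx
        simp
      · exact U.smul_mem _ (hall x x0 hx)
    by_cases hall0 : ∀ u ∈ U, ∑ x, u x = 0
    · right; right; left
      apply Subrepresentation.toSubmodule_injective
      apply le_antisymm
      · intro u hu
        exact hall0 u hu
      · intro u hu
        exact hsum u hu
    · right; right; right
      push Not at hall0
      obtain ⟨v, hv, hv0⟩ := hall0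
      rw [eq_top_iff]
      intro u _
      have h1 : u = (u - ((∑ x, u x) * (∑ x, v x)⁻¹) • v) + ((∑ x, u x) * (∑ x, v x)⁻¹) • v := by
        simp
      rw [h1]
      apply U.add_mem
      · apply hsum
        simp only [Pi.sub_apply, Pi.smul_apply, smul_eq_mul, Finset.sum_sub_distrib,
          ← Finset.mul_sum]
        rw [mul_assoc, inv_mul_cancel₀ hv0, mul_one, sub_self]
      · exact U.smul_mem _ hv

end Cfsg.Agent.S0714
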