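import Cfsg.Statements.S0716
import Mathlib
import Cfsg.Agent.Lib.Perm.CentRing4

set_option autoImplicit false
open Cfsg

namespace Cfsg.Agent.S0716

/-- (a) If all non-principal irreducible constituents of the permutation character of a transitive group have the same degree `f`, the character is multiplicity-free and all non-trivial subdegrees equal `f`. (b) A transitive group of rank at most 5 has multiplicity-free permutation character. -/
theorem result {G : Type*} [Group G] [Fintype G] {Ω : Type*} [Fintype Ω] [MulAction G Ω] [MulAction.IsPretransitive G Ω] (a : Ω) : ((f : ℕ) → (∀ χ : G → ℂ, Cfsg.IsIrrCharacter G χ → χ ≠ (fun _ => 1) → Cfsg.classInner (fun g : G => (Nat.card (MulAction.fixedBy Ω g) : ℂ)) χ ≠ 0 → χ 1 = f) → (∀ χ : G → ℂ, Cfsg.IsIrrCharacter G χ → Cfsg.classInner (fun g : G => (Nat.card (MulAction.fixedBy Ω g) : ℂ)) χ = 0 ∨ Cfsg.classInner (fun g : G => (Nat.card (MulAction.fixedBy Ω g) : ℂ)) χ = 1) ∧ ∀ b : Ω, b ≠ a → Nat.card (MulAction.orbit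 (MulAction.stabilizer G a) b) = f) ∧ (Nat.card (MulAction.orbitRel.Quotient (MulAction.stabilizer G a) Ω) ≤ 5 → ∀ χ : G → ℂ, Cfsg.IsIrrCharacter G χ → Cfsg.classInner (fun g : G => (Nat.card (MulAction.fixedBy Ω g) : ℂ)) χ = 0 ∨ Cfsg.classInner (fun g : G => (Nat.card (MulAction.fixedBy Ω g) : ℂ)) χ = 1) := by
  classical
  open Cfsg.Agent.Lib.Perm.CentRing in
  obtain ⟨m, d, one, hone, hm, hd, hdpos, hm1, hd1, hr, hc⟩ := perm_data (G := G) a
  have hsr : Nat.card (MulAction.orbitRel.Quotient (MulAction.stabilizer G a) Ω) - 1 =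
      ∑ χ ∈ Finset.univ.erase one, m χ ^ 2 := by
    rw [hr, ← Finset.add_sum_erase _ _ (Finset.mem_univ one), hm1]
    simp
  have hsc : Fintype.card Ω - 1 = ∑ χ ∈ Finset.univ.erase one, m χ * d χ := by
    rw [hc, ← Finset.add_sum_erase _ _ (Finset.mem_univ one), hm1, hd1]
    simp
  have hmem : ∀ χ : Cfsg.IrrCharacter G, χ ≠ one → (χ : G → ℂ) ≠ (fun _ => 1) := by
    intro χ hχ h
    apply hχ
    apply Subtype.ext
    rw [h, hone]
  have hval : ∀ (χ : G → ℂ) (hχ : Cfsg.IsIrrCharacter G χ),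
      Cfsg.classInner (fun g : G => (Nat.card (MulAction.fixedBy Ω g) : ℂ)) χ = m ⟨χ, hχ⟩ :=
    fun χ hχ => hm ⟨χ, hχ⟩
  constructor
  · intro f hf
    have hdvd : ∀ b : Ω, b ≠ a → f ∣ Nat.card (MulAction.orbit (MulAction.stabilizer G a) b) := by
      intro b hb
      refine Cfsg.Agent.Lib.Perm.CentRing.subdegree_dvd f (fun χ hχ hne h0 => ⟨1, ?_⟩) a b hb
      rw [hf χ hχ hne h0]
      simp
    obtain ⟨hle, heq⟩ := Cfsg.Agent.Lib.Perm.CentRing.sum_subdegrees (G := G) a f hdvd
    have hdf : ∀ χ ∈ Finset.univ.erase one, m χ ≠ 0 → d χ = f := by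
      intro χ hχ h0
      have h1 := hf χ.1 χ.2 (hmem χ (Finset.ne_of_mem_erase hχ)) (by
        rw [hval χ.1 χ.2]
        exact_mod_cast h0)
      have h2 := hd χ
      rw [h1] at h2
      exact_mod_cast h2.symm
    have hsum : ∑ χ ∈ Finset.univ.erase one, m χ * d χ = ∑ χ ∈ Finset.univ.erase one, m χ * f := by
      refine Finset.sum_congr rfl fun χ hχ => ?_
      by_cases h0 : m χ = 0
      · rw [h0, zero_mul, zero_mul]
      · rw [hdf χ hχ h0]
    have hle' : ∀ χ ∈ Finset.univ.erase one, m χ * f ≤ m χ ^ 2 * f := by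
      intro χ _
      apply Nat.mul_le_mul_right
      rcases Nat.eq_zero_or_pos (m χ) with h | h
      · rw [h]; simp
      · nlinarith
    have hsum2 : ∑ χ ∈ Finset.univ.erase one, m χ * f = ∑ χ ∈ Finset.univ.erase one, m χ ^ 2 * f := by
      apply le_antisymm (Finset.sum_le_sum hle')
      rw [hsr, hsc, hsum, Finset.sum_mul] at hle
      exact hle
    have h01 := (Finset.sum_eq_sum_iff_of_le hle').mp hsum2
    have hfree : ∀ χ : Cfsg.IrrCharacter G, m χ = 0 ∨ m χ = 1 := by
      intro χ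
      by_cases h1 : χ = one
      · right; rw [h1, hm1]
      · have hχ := Finset.mem_erase.mpr ⟨h1, Finset.mem_univ χ⟩
        by_cases h0 : m χ = 0
        · left; exact h0
        · right
          have hfpos : 0 < f := by
            rw [← hdf χ hχ h0]
            exact hdpos χ
          have h2 := h01 χ hχ
          have h3 := Nat.eq_of_mul_eq_mul_right hfpos h2
          nlinarith [Nat.pos_of_ne_zero h0]
    constructor
    · intro χ hχ
      rw [hval χ hχ]
      rcases hfree ⟨χ, hχ⟩ with h | h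
      · left; rw [h]; simp
      · right; rw [h]; simp
    · apply heq
      rw [hsr, hsc, hsum, Finset.sum_mul, hsum2]
  · intro h5 χ hχ
    by_contra hcon
    push Not at hcon
    obtain ⟨h0, h1⟩ := hcon
    rw [hval χ hχ] at h0 h1
    let χ₀ : Cfsg.IrrCharacter G := ⟨χ, hχ⟩
    have h2 : 2 ≤ m χ₀ := by
      have h3 : m χ₀ ≠ 0 := fun h => h0 (by simp only [χ₀] at h; rw [h]; simp)
      have h4 : m χ₀ ≠ 1 := fun h => h1 (by simp only [χ₀] at h; rw [h]; simp)
      omega
    have hne : χ₀ ≠ one := by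
      intro h
      rw [h, hm1] at h2
      omega
    have hmem0 : χ₀ ∈ Finset.univ.erase one := Finset.mem_erase.mpr ⟨hne, Finset.mem_univ _⟩
    have h3 : m χ₀ ^ 2 + ∑ χ ∈ (Finset.univ.erase one).erase χ₀, m χ ^ 2 =
        ∑ χ ∈ Finset.univ.erase one, m χ ^ 2 := Finset.add_sum_erase _ (fun χ => m χ ^ 2) hmem0
    have h4 : ∑ χ ∈ Finset.univ.erase one, m χ ^ 2 ≤ 4 := by
      rw [← hsr]
      omega
    have h6 : m χ₀ = 2 := by
      have h61 : m χ₀ ^ 2 ≤ 4 := by omega
      nlinarith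
    have h7 : ∑ χ ∈ (Finset.univ.erase one).erase χ₀, m χ ^ 2 = 0 := by
      rw [h6] at h3
      omega
    have hrank : Nat.card (MulAction.orbitRel.Quotient (MulAction.stabilizer G a) Ω) - 1 = 4 := by
      rw [hsr, ← h3, h6, h7]
      norm_num
    have hothers : ∀ χ' ∈ (Finset.univ.erase one).erase χ₀, m χ' = 0 := by
      intro χ' hχ'
      have := (Finset.sum_eq_zero_iff_of_nonneg (fun _ _ => Nat.zero_le _)).mp h7 χ' hχ'
      exact pow_eq_zero_iff (two_ne_zero) |>.mp this
    have hdvd : ∀ b : Ω, b ≠ a → d χ₀ ∣ Nat.card (MulAction.orbit (MulAction.stabilizer G a) b) := by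
      intro b hb
      refine Cfsg.Agent.Lib.Perm.CentRing.subdegree_dvd (d χ₀) (fun χ' hχ' hne' h0' => ⟨1, ?_⟩) a b hb
      have h8 : (⟨χ', hχ'⟩ : Cfsg.IrrCharacter G) = χ₀ := by
        by_contra h9
        have h10 : (⟨χ', hχ'⟩ : Cfsg.IrrCharacter G) ≠ one := by
          intro h11
          apply hne'
          have := congrArg Subtype.val h11
          rw [hone] at this
          exact this
        have h11 := hothers _ (Finset.mem_erase.mpr ⟨h9, Finset.mem_erase.mpr ⟨h10, Finset.mem_univ _⟩⟩)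
        apply h0'
        rw [hval χ' hχ', h11]
        simp
      have h12 : χ' 1 = (d ⟨χ', hχ'⟩ : ℂ) := hd ⟨χ', hχ'⟩
      rw [h8] at h12
      rw [h12]
      simp
    obtain ⟨hle, -⟩ := Cfsg.Agent.Lib.Perm.CentRing.sum_subdegrees (G := G) a (d χ₀) hdvd
    have hsum : ∑ χ ∈ Finset.univ.erase one, m χ * d χ = 2 * d χ₀ := by
      rw [← Finset.add_sum_erase _ _ hmem0, h6, Finset.sum_eq_zero, add_zero]
      intro χ' hχ'
      rw [hothers χ' hχ', zero_mul]
    rw [hrank, hsc, hsum] at hle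
    have := hdpos χ₀
    omega

end Cfsg.Agent.S0716
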