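import Cfsg.Statements.S0717
import Mathlib
import Cfsg.Agent.Lib.Perm.CentRing2

set_option autoImplicit false
open Cfsg

namespace Cfsg.Agent.S0717

/-- All suborbits of a transitive group are self-paired (every pair of points is interchanged by some group element) if and only if the permutation character is multiplicity-free and each of its irreducible constituents is real-valued. -/
theorem result {G : Type*} [Group G] [Fintype G] {Ω : Type*} [Fintype Ω] [MulAction G Ω] [MulAction.IsPretransitive G Ω] : (∀ a b : Ω, ∃ g : G, g • a = b ∧ g • b = a) ↔ ∀ χ : G → ℂ, Cfsg.IsIrrCharacter G χ → Cfsg.classInner (fun g : G => (Nat.card (MulAction.fixedBy Ω g) : ℂ)) χ ≠ 0 → Cfsg.classInner (fun g : G => (Nat.card (MulAction.fixedBy Ω g) : ℂ)) χ = 1 ∧ ∀ g : G, (starRingEnd ℂ) (χ g) = χ g := by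
  classical
  have hπ : (fun g : G => (Nat.card (MulAction.fixedBy Ω g) : ℂ)) = (Cfsg.permRep ℂ G Ω).character := by
    funext g
    exact (Cfsg.Agent.Lib.Perm.CentRing.permRep_character g).symm
  rw [hπ]
  exact Cfsg.Agent.Lib.Perm.CentRing.selfPaired_iff

end Cfsg.Agent.S0717
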