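import Cfsg.Statements.S0720
import Mathlib
import Cfsg.Agent.Lib.Perm.Basic
import Cfsg.Agent.Lib.Perm.Jordan
import Cfsg.Agent.Lib.Perm.TwoP.Rank

set_option autoImplicit false
open Cfsg

namespace Cfsg.Agent.S0720

open MulAction Cfsg.Agent.Lib.Perm.TwoP
open Cfsg.Agent.Lib.Perm.Wielandt (subdeg stabilizer_normal_of_subdeg_one)

/-- Double transitivity from transitivity of a point stabiliser on the remaining points. -/
theorem two_trans_of {G α : Type*} [Group G] [MulAction G α] [DecidableEq α] [IsPretransitive G α]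
    (a₀ : α) (h : ∀ b b', b ≠ a₀ → b' ≠ a₀ → b' ∈ orbit (stabilizer G a₀) b) :
    IsMultiplyPretransitive G α 2 := by
  apply Cfsg.Agent.Lib.Perm.isMultiplyPretransitive_of_fixing 2
  intro u hu a b ha hb
  rcases u.eq_empty_or_nonempty with rfl | ⟨c, hc⟩
  · obtain ⟨g, hg⟩ := MulAction.exists_smul_eq G a b
    exact ⟨g, by simp, hg⟩
  · have hu1 : ∀ y ∈ u, y = c := fun y hy => Finset.card_le_one.mp (by omega) y hy c hc
    obtain ⟨h₀, hh₀⟩ := MulAction.exists_smul_eq G a₀ c
    have ha' : h₀⁻¹ • a ≠ a₀ := by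
      intro h1
      apply ha
      have h2 : a = c := by
        rw [← hh₀, ← h1, smul_inv_smul]
      rw [h2]
      exact hc
    have hb' : h₀⁻¹ • b ≠ a₀ := by
      intro h1
      apply hb
      have h2 : b = c := by
        rw [← hh₀, ← h1, smul_inv_smul]
      rw [h2]
      exact hc
    obtain ⟨⟨s, hs⟩, hsb⟩ := h _ _ ha' hb'
    have hs' : s • a₀ = a₀ := hs
    have hsb' : s • h₀⁻¹ • a = h₀⁻¹ • b := hsb
    refine ⟨h₀ * s * h₀⁻¹, ?_, ?_⟩
    · intro y hy
      rw [hu1 y hy, ← hh₀, mul_smul, mul_smul, inv_smul_smul, hs']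
    · rw [mul_smul, mul_smul, hsb', smul_inv_smul]

/-- A non-trivial subdegree is never one. -/
theorem subdeg_ne_one {α : Type*} [Fintype α] [DecidableEq α] {p : ℕ} (hp : p.Prime)
    (hα : Fintype.card α = 2 * p) (G : Subgroup (Equiv.Perm α)) (hG : IsPreprimitive G α) (a₀ : α)
    {x : G} (hx : orderOf x = p) {b : α} (hb : b ≠ a₀) : subdeg G a₀ b ≠ 1 := by
  intro h1
  haveI : Fintype G := Fintype.ofFinite G
  haveI := hG
  have hall := stabilizer_normal_of_subdeg_one hG hb h1
  have hS : stabilizer G a₀ = ⊥ := by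
    rw [eq_bot_iff]
    intro s hs
    rw [Subgroup.mem_bot]
    apply Subtype.ext
    ext c
    have h2 := hall c
    have h3 : Nat.card (orbit (stabilizer G a₀) c) = 1 := h2
    have h4 : s • c ∈ orbit (stabilizer G a₀) c := ⟨⟨s, hs⟩, rfl⟩
    have h5 : c ∈ orbit (stabilizer G a₀) c := mem_orbit_self c
    rw [Nat.card_eq_one_iff_unique] at h3
    have h6 := h3.1.elim ⟨_, h4⟩ ⟨_, h5⟩
    exact congrArg Subtype.val h6
  let H : Subgroup G := Subgroup.zpowers x
  have hB : IsBlock G (orbit H a₀) := IsBlock.of_orbit (by rw [hS]; exact bot_le)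
  have hxa : x • a₀ ≠ a₀ := by
    intro h2
    have h3 : x ∈ stabilizer G a₀ := h2
    rw [hS, Subgroup.mem_bot] at h3
    rw [h3, orderOf_one] at hx
    exact hp.one_lt.ne hx
  rcases hG.isTrivialBlock_of_isBlock hB with h2 | h2
  · have h3 : x • a₀ ∈ orbit H a₀ := ⟨⟨x, Subgroup.mem_zpowers x⟩, rfl⟩
    exact hxa (h2 h3 (mem_orbit_self a₀))
  · have h3 : Nat.card (orbit H a₀) ≤ Nat.card H := by
      apply Nat.card_le_card_of_surjective (fun h : H => (⟨h • a₀, ⟨h, rfl⟩⟩ : orbit H a₀))
      rintro ⟨_, ⟨h, rfl⟩⟩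
      exact ⟨h, rfl⟩
    have h4 : Nat.card H = p := by
      rw [Nat.card_zpowers, hx]
    have h5 : Nat.card (orbit H a₀) = 2 * p := by
      rw [h2, Nat.card_coe_set_eq, Set.ncard_univ, Nat.card_eq_fintype_card, hα]
    have := hp.pos
    omega

/-- Wielandt's Theorem on primitive groups of degree `2p`: such a group is doubly transitive, or it has rank 3, `p = 2a² + 2a + 1`, and subdegrees `a(2a+1)` and `(a+1)(2a+1)`. -/
theorem result {α : Type*} [Fintype α] [DecidableEq α] {p : ℕ} (hp : p.Prime) (hα : Fintype.card α = 2 * p) (G : Subgroup (Equiv.Perm α)) (hG : MulAction.IsPreprimitive G α) (a₀ : α) : MulAction.IsMultiplyPretransitive G α 2 ∨ (Nat.card (MulAction.orbitRel.Quotient (MulAction.stabilizer G a₀) α) = 3 ∧ ∃ a : ℕ, 0 < a ∧ p = 2 * a ^ 2 + 2 * a + 1 ∧ ∀ b : α, b ≠ a₀ → Nat.card (MulAction.orbit (MulAction.stabilizer G a₀) b) = a * (2 * a + 1) ∨ Nat.card (MulAction.orbit (MulAction.stabilizer G a₀) b) = (a + 1) * (2 * a + 1)) := by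
  by_cases h2 : IsMultiplyPretransitive G α 2
  · exact Or.inl h2
  right
  haveI : Fact p.Prime := ⟨hp⟩
  haveI : Fintype G := Fintype.ofFinite G
  haveI := hG
  haveI : IsPretransitive G α := hG.toIsPretransitive
  have hp1 := hp.one_lt
  -- two nontrivial orbitals
  obtain ⟨b₁, b₂, hb₁, hb₂, hnot⟩ : ∃ b₁ b₂ : α, b₁ ≠ a₀ ∧ b₂ ≠ a₀ ∧
      b₂ ∉ orbit (stabilizer G a₀) b₁ := by
    by_contra hcon
    push Not at hcon
    exact h2 (two_trans_of a₀ hcon)
  -- an element of order p
  have hdvd : p ∣ Nat.card G := by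
    have h3 : (stabilizer G a₀).index = (orbit G a₀).ncard := index_stabilizer G a₀
    have h4 : (orbit G a₀) = Set.univ := orbit_eq_univ G a₀
    rw [h4, Set.ncard_univ, Nat.card_eq_fintype_card, hα] at h3
    have h5 := Subgroup.index_dvd_card (stabilizer G a₀)
    rw [h3] at h5
    exact dvd_trans (dvd_mul_left p 2) h5
  obtain ⟨x, hx⟩ := exists_prime_orderOf_dvd_card' p hdvd
  have hsub := fun {b : α} (hb : b ≠ a₀) => subdeg_ne_one hp hα G hG a₀ hx hb
  have hsubpos : ∀ b : α, 0 < subdeg G a₀ b := fun b =>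
    Nat.card_pos_iff.mpr ⟨⟨⟨_, mem_orbit_self _⟩⟩, inferInstance⟩
  -- the prime two
  have hodd : p ≠ 2 := by
    rintro rfl
    have h3 : Disjoint (orbit (stabilizer G a₀) b₁) (orbit (stabilizer G a₀) b₂) := by
      rw [Set.disjoint_left]
      intro y hy1 hy2
      apply hnot
      rw [← orbit_eq_iff.mpr hy1, orbit_eq_iff.mpr hy2]
      exact mem_orbit_self b₂
    have h4 : a₀ ∉ orbit (stabilizer G a₀) b₁ ∪ orbit (stabilizer G a₀) b₂ := by
      rintro (⟨⟨s, hs⟩, hsb⟩ | ⟨⟨s, hs⟩, hsb⟩)
      · apply hb₁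
        have h5 : s • b₁ = a₀ := hsb
        have hs' : s • a₀ = a₀ := hs
        exact MulAction.injective s (h5.trans hs'.symm)
      · apply hb₂
        have h5 : s • b₂ = a₀ := hsb
        have hs' : s • a₀ = a₀ := hs
        exact MulAction.injective s (h5.trans hs'.symm)
    have h5 := Set.ncard_insert_of_notMem h4 (Set.toFinite _)
    rw [Set.ncard_union_eq h3 (Set.toFinite _) (Set.toFinite _)] at h5
    have h6 : (insert a₀ (orbit (stabilizer G a₀) b₁ ∪ orbit (stabilizer G a₀) b₂)).ncard ≤ 4 := by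
      have h7 := Set.ncard_le_ncard (Set.subset_univ
        (insert a₀ (orbit (stabilizer G a₀) b₁ ∪ orbit (stabilizer G a₀) b₂))) (Set.toFinite _)
      rw [Set.ncard_univ, Nat.card_eq_fintype_card, hα] at h7
      exact h7
    have h7 := hsub hb₁
    have h8 := hsub hb₂
    have h9 := hsubpos b₁
    have h10 := hsubpos b₂
    have h11 : subdeg G a₀ b₁ = (orbit (stabilizer G a₀) b₁).ncard := Nat.card_coe_set_eq _
    have h12 : subdeg G a₀ b₂ = (orbit (stabilizer G a₀) b₂).ncard := Nat.card_coe_set_eq _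
    omega
  have hxp : ∀ ω : α, (x ^ p) • ω = ω := by
    intro ω
    rw [← hx, pow_orderOf_eq_one, one_smul]
  -- fixed points give the alternating group
  have hfree : ∀ ω : α, x • ω ≠ ω := by
    intro ω hω
    apply h2
    have hx' : orderOf (x : Equiv.Perm α) = p := by
      rw [Subgroup.orderOf_coe, hx]
    have hsupp : (x : Equiv.Perm α).support.card < 2 * orderOf (x : Equiv.Perm α) := by
      rw [hx', ← hα]
      apply Finset.card_lt_univ_of_notMem (x := ω)
      rw [Equiv.Perm.mem_support, not_not]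
      exact hω
    have hcyc := Equiv.Perm.isCycle_of_prime_order (by rw [hx']; exact hp) hsupp
    have hcard : (x : Equiv.Perm α).support.card = p := by
      rw [← hcyc.orderOf, hx']
    have hp3 : p ≠ 2 := hodd
    have hle := Cfsg.Agent.Lib.Perm.alternatingGroup_le_of_prime_cycle G hG hp (by
      rw [hα]
      have : 3 ≤ p := by
        have := hp.two_le
        omega
      omega) hcyc hcard x.2
    haveI := alternatingGroup.isMultiplyPretransitive (α := α)
    have h3 : IsMultiplyPretransitive (alternatingGroup α) α 2 := by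
      apply isMultiplyPretransitive_of_le (n := Nat.card α - 2) _ (Nat.sub_le _ _)
      rw [Nat.card_eq_fintype_card, hα]
      have : 3 ≤ p := by
        have := hp.two_le
        omega
      omega
    refine ⟨fun u v => ?_⟩
    obtain ⟨g, hg⟩ := h3.exists_smul_eq u v
    refine ⟨⟨g, hle g.2⟩, ?_⟩
    exact hg
  -- the base of the second orbit
  obtain ⟨b₀, hb₀⟩ : ∃ b₀ : α, b₀ ∉ (Finset.range p).image (fun i => (x ^ i) • a₀) := by
    by_contra hcon
    push Not at hcon
    have h3 : Finset.univ ⊆ (Finset.range p).image (fun i => (x ^ i) • a₀) := fun y _ => hcon y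
    have h4 := Finset.card_le_card h3
    have h5 := Finset.card_image_le (s := Finset.range p) (f := fun i => (x ^ i) • a₀)
    rw [Finset.card_univ, hα] at h4
    rw [Finset.card_range] at h5
    omega
  have hsep : ∀ i j : ℕ, (x ^ i) • a₀ ≠ (x ^ j) • b₀ := by
    intro i j h3
    apply hb₀
    have h4 : b₀ = (x ^ ((p - 1) * j + i)) • a₀ := by
      have h5 : x ^ ((p - 1) * j + i) = (x ^ j)⁻¹ * x ^ i := by
        rw [pow_add, eq_inv_mul_iff_mul_eq, ← mul_assoc, ← pow_add]
        have h6 : j + (p - 1) * j = p * j := by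
          have h7 : 1 + (p - 1) = p := by omega
          calc j + (p - 1) * j = (1 + (p - 1)) * j := by ring
            _ = p * j := by rw [h7]
        rw [h6, pow_mul, ← hx, pow_orderOf_eq_one, one_pow, one_mul]
      rw [h5, mul_smul, h3, inv_smul_smul]
    rw [Finset.mem_image]
    refine ⟨((p - 1) * j + i) % p, Finset.mem_range.mpr (Nat.mod_lt _ hp.pos), ?_⟩
    rw [h4]
    have h5 : x ^ (((p - 1) * j + i) % p) = x ^ ((p - 1) * j + i) := by
      conv_lhs => rw [← hx]
      conv_rhs => rw [← pow_mod_orderOf, hx]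
      rw [hx]
    rw [h5]
  let C : Ctx G α p :=
    { x := x
      a₀ := a₀
      b₀ := b₀
      prim := hG
      card := hα
      odd := hodd
      pow := hxp
      free := hfree
      sep := hsep }
  obtain ⟨e, H⟩ := C.exists_idem_of_two (b := b₁) (b' := b₂) hb₁ hb₂ hnot
  have hle := C.rank_le H
  have hge : 3 ≤ Nat.card (orbitRel.Quotient (stabilizer G a₀) α) := by
    classical
    letI : Fintype (orbitRel.Quotient (stabilizer G a₀) α) := Fintype.ofFinite _
    rw [Nat.card_eq_fintype_card]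
    let m : α → orbitRel.Quotient (stabilizer G a₀) α := fun y => Quotient.mk'' y
    have hmem : ∀ y z : α, m y = m z → y ∈ orbit (stabilizer G a₀) z := by
      intro y z hyz
      exact orbitRel_apply.mp (Quotient.exact' hyz)
    have hfix : ∀ y : α, y ∈ orbit (stabilizer G a₀) a₀ → y = a₀ := by
      rintro y ⟨⟨s, hs⟩, rfl⟩
      exact hs
    have h01 : m a₀ ≠ m b₁ := by
      intro h3
      have h4 := hmem _ _ h3.symm
      exact hb₁ (hfix _ h4)
    have h02 : m a₀ ≠ m b₂ := by
      intro h3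
      have h4 := hmem _ _ h3.symm
      exact hb₂ (hfix _ h4)
    have h12 : m b₁ ≠ m b₂ := by
      intro h3
      exact hnot (hmem _ _ h3.symm)
    have h3 : ({m a₀, m b₁, m b₂} : Finset _).card = 3 := by
      rw [Finset.card_insert_of_notMem, Finset.card_pair h12]
      simp [h01, h02]
    rw [← h3]
    exact Finset.card_le_univ _
  have hrank : Nat.card (orbitRel.Quotient (stabilizer G a₀) α) = 3 := le_antisymm hle hge
  exact ⟨hrank, C.rank_three_main hrank⟩

end Cfsg.Agent.S0720
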