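import Cfsg.Statements.S0722
import Mathlib

set_option autoImplicit false
open Cfsg

namespace Cfsg.Agent.S0722

/-- In a primitive group `H`, with `N` a minimal normal subgroup and `K` a point stabiliser, `K ⊓ N` is maximal among proper `K`-invariant subgroups of `N`. -/
theorem result {α : Type*} [Finite α] (H : Subgroup (Equiv.Perm α)) [MulAction.IsPreprimitive H α] (N : Subgroup H) [N.Normal] (hN : N ≠ ⊥) (hmin : ∀ M : Subgroup H, M.Normal → M ≤ N → M = ⊥ ∨ M = N) (a : α) (X : Subgroup H) (hX : X ≤ N) (hKX : MulAction.stabilizer H a ⊓ N ≤ X) (hinv : MulAction.stabilizer H a ≤ Subgroup.normalizer (X : Set H)) : X = MulAction.stabilizer H a ⊓ N ∨ X = N := by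
  classical
  -- Consider `K ⊔ X`; since K is maximal, it is K or H.
  set K := MulAction.stabilizer H a with hK
  by_cases hXK : X ≤ K
  · left
    exact le_antisymm (le_inf hXK hX) hKX
  · right
    -- Nontrivial α: some element moves a
    have hnt : Nontrivial α := by
      by_contra hnt
      rw [not_nontrivial_iff_subsingleton] at hnt
      apply hXK
      intro x _
      rw [MulAction.mem_stabilizer_iff]
      exact Subsingleton.elim _ _
    have hco : IsCoatom K := MulAction.IsPreprimitive.isCoatom_stabilizer_of_isPreprimitive H a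
    -- `K X` is a subgroup strictly containing K, so it is everything
    have htop : K ⊔ X = ⊤ := by
      apply hco.2
      refine lt_of_le_of_ne le_sup_left ?_
      intro h
      exact hXK (by rw [h]; exact le_sup_right)
    -- Core idea: the normal closure argument. N = X (K ⊓ N)= X.
    -- every element of N is x * k with x ∈ X, k ∈ K (since K normalizes X, K ⊔ X = X K)
    have hmulmem : ∀ g : H, ∃ x ∈ X, ∃ k ∈ K, g = x * k := by
      intro g
      have hgmem : g ∈ K ⊔ X := by rw [htop]; trivial
      have h1 := Subgroup.coe_mul_of_right_le_normalizer_left X K hinv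
      have h2 : g ∈ ((X ⊔ K : Subgroup H) : Set H) := by
        rw [sup_comm]; exact hgmem
      rw [h1] at h2
      obtain ⟨x, hx, k, hk, rfl⟩ := Set.mem_mul.mp h2
      exact ⟨x, hx, k, hk, rfl⟩
    apply le_antisymm hX
    intro n hn
    obtain ⟨x, hx, k, hk, rfl⟩ := hmulmem n
    have hkN : k ∈ N := by
      have := N.mul_mem (N.inv_mem (hX hx)) hn
      simpa using this
    have hkX : k ∈ X := hKX ⟨hk, hkN⟩
    exact X.mul_mem hx hkX

end Cfsg.Agent.S0722
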