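import Cfsg.Statements.S0723
import Mathlib
import Cfsg.Agent.Lib.GS1.ONS
import Cfsg.Agent.Lib.Perm.MinNormalPower

set_option autoImplicit false
open Cfsg

namespace Cfsg.Agent.S0723

/-- The core of the O'Nan–Scott Theorem. Let `H` be a primitive permutation group on a finite set whose unique minimal normal subgroup `N` is non-abelian, and `K` a point stabiliser. Then there are a non-abelian simple group `T` and an isomorphism `N ≃* T^m` (`m ≥ 1`) under which `K ⊓ N` becomes either a product `∏ K_i` of proper subgroups `K_i < T`, or the set of functions constant on each block of a partition of the index set into blocks of one common size `k ≥ 2`. -/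
theorem result {α : Type*} [Finite α] (H : Subgroup (Equiv.Perm α)) [MulAction.IsPreprimitive H α] (N : Subgroup H) [N.Normal] (hN : N ≠ ⊥) (hmin : ∀ M : Subgroup H, M.Normal → M ≤ N → M = ⊥ ∨ M = N) (huniq : ∀ L : Subgroup H, L.Normal → L ≠ ⊥ → (∀ M : Subgroup H, M.Normal → M ≤ L → M = ⊥ ∨ M = L) → L = N) (hnab : ¬ IsMulCommutative N) (a : α) : ∃ (T : Type) (_ : Group T) (m : ℕ) (e : N ≃* (Fin m → T)), IsSimpleGroup T ∧ ¬ IsMulCommutative T ∧ 0 < m ∧ ((∃ K : Fin m → Subgroup T, (∀ i, K i ≠ ⊤) ∧ ∀ n : N, (n : H) ∈ MulAction.stabilizer H a ↔ ∀ i, e n i ∈ K i) ∨ (∃ (k : ℕ) (c : Fin m → Fin m), 2 ≤ k ∧ (∀ j : Fin m, Nat.card {i : Fin m // c i = j} = k ∨ Nat.card {i : Fin m // c i = j} = 0) ∧ ∀ n : N, (n : H) ∈ MulAction.stabilizer H a ↔ ∀ i j : Fin m, c i = c j → e n i = e n j)) := by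
  classical
  obtain ⟨T0, -, hT0s, m, hm, ⟨e0⟩⟩ := Cfsg.Agent.Lib.Perm.MinNormal.exists_power hN hmin
  let E : Lib.GS1.ONS.Car (Nat.card T0) ≃ T0 := (Finite.equivFin T0).symm
  letI instG : Group (Lib.GS1.ONS.Car (Nat.card T0)) := E.group
  let E' : Lib.GS1.ONS.Car (Nat.card T0) ≃* T0 := E.mulEquiv
  let e1 : N ≃* (Fin m → Lib.GS1.ONS.Car (Nat.card T0)) :=
    e0.trans (MulEquiv.piCongrRight fun _ => E'.symm)
  haveI hs : IsSimpleGroup (Lib.GS1.ONS.Car (Nat.card T0)) := E'.isSimpleGroup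
  have hnc : ¬ IsMulCommutative (Lib.GS1.ONS.Car (Nat.card T0)) := by
    intro hc
    apply hnab
    refine ⟨⟨fun x y => e1.injective ?_⟩⟩
    funext i
    rw [map_mul, map_mul]
    exact hc.is_comm.comm _ _
  obtain ⟨n0, hn0, hn01⟩ : ∃ n0 : H, n0 ∈ N ∧ n0 ≠ 1 := by
    obtain ⟨x, hx⟩ := Subgroup.ne_bot_iff_exists_ne_one.mp hN
    exact ⟨x.1, x.2, fun h => hx (Subtype.ext h)⟩
  have hn1' : ∃ x : α, (n0 : H) • x ≠ x := by
    by_contra hcon
    push Not at hcon
    apply hn01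
    apply Subtype.ext
    ext x
    exact hcon x
  obtain ⟨x0, hx0⟩ := hn1'
  haveI : Nontrivial α := ⟨⟨_, _, hx0⟩⟩
  have hcoat : IsCoatom (MulAction.stabilizer H a) :=
    MulAction.IsPreprimitive.isCoatom_stabilizer_of_isPreprimitive H a
  have hNS : ¬ N ≤ MulAction.stabilizer H a := by
    intro hle
    obtain ⟨g, hg⟩ := MulAction.exists_smul_eq H a x0
    have h1 : g⁻¹ * n0 * g ∈ N := by
      have := (inferInstance : N.Normal).conj_mem n0 hn0 g⁻¹
      simpa using this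
    have h2 := hle h1
    rw [MulAction.mem_stabilizer_iff, mul_smul, mul_smul, hg, inv_smul_eq_iff, hg] at h2
    exact hx0 h2
  obtain ⟨e', he'⟩ := Cfsg.Agent.Lib.GS1.ONS.main_abstract N e1 hnc hm hmin _ hcoat hNS
  exact ⟨_, instG, m, e', hs, hnc, hm, he'⟩

end Cfsg.Agent.S0723
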