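import Cfsg.Statements.S0724
import Mathlib

set_option autoImplicit false
open Cfsg

namespace Cfsg.Agent.S0724

/-- Blichfeldt's Theorem: if a finite set `L` of natural numbers contains the number of fixed points of every non-identity element of a permutation group `G` of degree `n`, then the order of `G` divides `∏ (n - l)` over `l ∈ L`. -/
theorem result {α : Type*} [Fintype α] [DecidableEq α] (G : Subgroup (Equiv.Perm α)) (L : Finset ℕ) (hL : ∀ g ∈ G, g ≠ 1 → Nat.card (MulAction.fixedBy α g) ∈ L) : Nat.card G ∣ ∏ l ∈ L, (Fintype.card α - l) := by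
  classical
  by_cases hbig : ∃ l ∈ L, Fintype.card α ≤ l
  · obtain ⟨l, hl, hle⟩ := hbig
    rw [Finset.prod_eq_zero hl (Nat.sub_eq_zero_of_le hle)]
    exact dvd_zero _
  push Not at hbig
  -- the polynomial
  let f : Polynomial ℤ := ∏ l ∈ L, (Polynomial.X - Polynomial.C (l : ℤ))
  have heval : ∀ m : ℤ, f.eval m = ∏ l ∈ L, (m - l) := by
    intro m
    simp [f, Polynomial.eval_prod]
  -- counting fixed points on tuples
  have hpow : ∀ j : ℕ, (Nat.card G : ℤ) ∣
      ∑ g : G, ((Nat.card (MulAction.fixedBy α (g : Equiv.Perm α)) : ℤ)) ^ j := by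
    intro j
    have h1 := MulAction.sum_card_fixedBy_eq_card_orbits_mul_card_group G (Fin j → α)
    have h2 : ∀ g : G, Fintype.card (MulAction.fixedBy (Fin j → α) g)
        = (Nat.card (MulAction.fixedBy α (g : Equiv.Perm α))) ^ j := by
      intro g
      let e : MulAction.fixedBy (Fin j → α) g ≃ (Fin j → MulAction.fixedBy α (g : Equiv.Perm α)) :=
        { toFun := fun f i => ⟨f.1 i, congrFun f.2 i⟩
          invFun := fun f => ⟨fun i => (f i).1, by funext i; exact (f i).2⟩
          left_inv := by intro f; rfl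
          right_inv := by intro f; rfl }
      rw [← Nat.card_eq_fintype_card, Nat.card_congr e, Nat.card_fun]
      simp
    simp only [h2] at h1
    rw [Nat.card_eq_fintype_card]
    refine ⟨(Fintype.card (Quotient (MulAction.orbitRel G (Fin j → α))) : ℤ), ?_⟩
    have h3 := congrArg (Nat.cast : ℕ → ℤ) h1
    push_cast at h3
    rw [h3]
    ring
  have hdvd : (Nat.card G : ℤ) ∣ ∑ g : G, f.eval (Nat.card (MulAction.fixedBy α (g : Equiv.Perm α)) : ℤ) := by
    simp only [Polynomial.eval_eq_sum_range]
    rw [Finset.sum_comm]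
    apply Finset.dvd_sum
    intro i _
    rw [← Finset.mul_sum]
    exact Dvd.dvd.mul_left (hpow i) _
  have hsingle : ∑ g : G, f.eval (Nat.card (MulAction.fixedBy α (g : Equiv.Perm α)) : ℤ)
      = f.eval (Fintype.card α : ℤ) := by
    rw [Finset.sum_eq_single (1 : G)]
    · congr 2
      have h5 : MulAction.fixedBy α ((1 : G) : Equiv.Perm α) = Set.univ := by
        ext x
        simp
      rw [h5]
      simp
    · intro g _ hg
      rw [heval]
      apply Finset.prod_eq_zero (hL g g.2 (fun h => hg (Subtype.ext h)))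
      simp
    · intro h
      exact absurd (Finset.mem_univ _) h
  rw [hsingle, heval] at hdvd
  have hcast : (∏ l ∈ L, ((Fintype.card α : ℤ) - l)) = ((∏ l ∈ L, (Fintype.card α - l) : ℕ) : ℤ) := by
    rw [Nat.cast_prod]
    apply Finset.prod_congr rfl
    intro l hl
    rw [Nat.cast_sub (hbig l hl).le]
  rw [hcast] at hdvd
  exact Int.natCast_dvd_natCast.mp hdvd

end Cfsg.Agent.S0724
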