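import Cfsg.Statements.S0726
import Mathlib

set_option autoImplicit false
open Cfsg

namespace Cfsg.Agent.S0726

/-- The left and right regular permutation representations of a group are each other's centralisers in the symmetric group: the centraliser of the left regular image is the right regular image, and a transitive subgroup centralising the left regular image is the whole right regular image. -/
theorem result {G : Type*} [Group G] : Subgroup.centralizer ((MulAction.toPermHom G G).range : Set (Equiv.Perm G)) = (MulAction.toPermHom Gᵐᵒᵖ G).range ∧ ∀ H : Subgroup (Equiv.Perm G), H ≤ Subgroup.centralizer ((MulAction.toPermHom G G).range : Set (Equiv.Perm G)) → MulAction.IsPretransitive H G → H = (MulAction.toPermHom Gᵐᵒᵖ G).range := by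
  have hmain : Subgroup.centralizer ((MulAction.toPermHom G G).range : Set (Equiv.Perm G)) = (MulAction.toPermHom Gᵐᵒᵖ G).range := by
    apply le_antisymm
    · intro c hc
      have hc' : ∀ g x : G, c (g * x) = g * c x := by
        intro g x
        have := Subgroup.mem_centralizer_iff.mp hc (MulAction.toPermHom G G g) ⟨g, rfl⟩
        have h2 := congrArg (fun f : Equiv.Perm G => f x) this
        simpa [MulAction.toPermHom, MulAction.toPerm] using h2.symm
      refine ⟨MulOpposite.op (c 1), ?_⟩
      ext x
      have := hc' x 1
      simp only [mul_one] at this
      simp [this, MulAction.toPermHom, MulAction.toPerm]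
    · rintro _ ⟨y, rfl⟩
      rw [Subgroup.mem_centralizer_iff]
      rintro _ ⟨g, rfl⟩
      ext x
      simp [MulAction.toPermHom, MulAction.toPerm, mul_assoc]
  refine ⟨hmain, ?_⟩
  intro H hH htrans
  apply le_antisymm (hmain ▸ hH)
  rintro _ ⟨y, rfl⟩
  -- some element of H moves 1 to y⁻¹-translate
  obtain ⟨h, hh⟩ := MulAction.exists_smul_eq H (1 : G) ((MulOpposite.unop y))
  have hh' : (h : Equiv.Perm G) 1 = MulOpposite.unop y := hh
  have hcent := hH h.2
  rw [hmain] at hcent
  obtain ⟨z, hz⟩ := hcent
  have hzy : z = y := by
    have := congrArg (fun f : Equiv.Perm G => f 1) hz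
    simp only [MulAction.toPermHom, MulAction.toPerm] at this
    apply MulOpposite.unop_injective
    rw [← hh']
    simpa using this
  rw [← hzy, hz]
  exact h.2

end Cfsg.Agent.S0726
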