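import Cfsg.Statements.S0728
import Mathlib

set_option autoImplicit false
open Cfsg

namespace Cfsg.Agent.S0728

/-- Embedding of `Fin 3` from three distinct points. -/
private def mkEmb {α : Type*} (p q r : α) (h1 : p ≠ q) (h2 : p ≠ r) (h3 : q ≠ r) : Fin 3 ↪ α :=
  ⟨![p, q, r], by
    intro i j hij
    fin_cases i <;> fin_cases j <;> simp_all⟩

private lemma emb_ext {α : Type*} {x y : Fin 3 ↪ α} (h0 : x 0 = y 0) (h1 : x 1 = y 1) (h2 : x 2 = y 2) :
    x = y := by
  ext i
  fin_cases i
  · exact h0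
  · exact h1
  · exact h2

/-- In a sharply triply transitive group of even degree at least 6 (degree `q + 1`, `q` odd), a two-point stabiliser has at most one subgroup of order 3. -/
theorem result {α : Type*} [Fintype α] [DecidableEq α] (heven : Even (Fintype.card α)) (h6 : 6 ≤ Fintype.card α) (G : Subgroup (Equiv.Perm α)) (h3 : MulAction.IsMultiplyPretransitive G α 3) (hsharp : ∀ x : Fin 3 ↪ α, MulAction.stabilizer G x = ⊥) {a b : α} (hab : a ≠ b) (A B : Subgroup G) (hA : A ≤ MulAction.stabilizer G a ⊓ MulAction.stabilizer G b) (hB : B ≤ MulAction.stabilizer G a ⊓ MulAction.stabilizer G b) (hA3 : Nat.card A = 3) (hB3 : Nat.card B = 3) : A = B := by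
  classical
  by_contra hAB
  have hcard3 : 3 ≤ Nat.card α := by rw [Nat.card_eq_fintype_card]; omega
  -- sharpness
  have hS : ∀ (g : G) (p q r : α), p ≠ q → p ≠ r → q ≠ r → g • p = p → g • q = q → g • r = r →
      g = 1 := by
    intro g p q r h1 h2 h3 hp hq hr
    have hmem : g ∈ MulAction.stabilizer G (mkEmb p q r h1 h2 h3) := by
      rw [MulAction.mem_stabilizer_iff]
      ext i
      fin_cases i
      · exact hp
      · exact hq
      · exact hr
    rw [hsharp, Subgroup.mem_bot] at hmem
    exact hmem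
  -- double transitivity
  have hT : ∀ u v : α, u ≠ v → ∃ c : G, c • a = u ∧ c • b = v := by
    intro u v huv
    have h2 : MulAction.IsMultiplyPretransitive G α 2 :=
      MulAction.isMultiplyPretransitive_of_le (n := 3) (by omega) hcard3
    exact (MulAction.is_two_pretransitive_iff (G := G) (α := α)).mp h2 hab huv
  -- elements of order three
  have hAp : Nontrivial A := by
    rw [← Finite.one_lt_card_iff_nontrivial, hA3]; omega
  have hBp : Nontrivial B := by
    rw [← Finite.one_lt_card_iff_nontrivial, hB3]; omega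
  obtain ⟨x, hx1⟩ := exists_ne (1 : A)
  obtain ⟨y, hy1⟩ := exists_ne (1 : B)
  have hx3 : (x : G) ^ 3 = 1 := by
    have := pow_card_eq_one' (x := x)
    rw [hA3] at this
    exact_mod_cast congrArg Subtype.val this
  have hy3 : (y : G) ^ 3 = 1 := by
    have := pow_card_eq_one' (x := y)
    rw [hB3] at this
    exact_mod_cast congrArg Subtype.val this
  haveI : Fact (Nat.Prime 3) := ⟨Nat.prime_three⟩
  have hxne : (x : G) ≠ 1 := fun h => hx1 (Subtype.ext h)
  have hyne : (y : G) ≠ 1 := fun h => hy1 (Subtype.ext h)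
  have hzx : ∀ (P Q : Subgroup G), Nat.card P = 3 → Nat.card Q = 3 → ∀ z ∈ P, z ≠ 1 → z ∈ Q → P = Q := by
    intro P Q hP hQ z hzP hz1 hzQ
    have h1 : Subgroup.zpowers z = P := by
      apply Subgroup.eq_of_le_of_card_ge (Subgroup.zpowers_le.mpr hzP)
      rw [hP, Nat.card_zpowers]
      have h2 : orderOf z ∣ 3 := orderOf_dvd_of_pow_eq_one (by
        have := pow_card_eq_one' (x := (⟨z, hzP⟩ : P))
        rw [hP] at this
        simpa using congrArg Subtype.val this)
      rcases (Nat.dvd_prime Nat.prime_three).mp h2 with h3 | h3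
      · exact absurd (orderOf_eq_one_iff.mp h3) hz1
      · omega
    have h2 : Subgroup.zpowers z = Q := by
      apply Subgroup.eq_of_le_of_card_ge (Subgroup.zpowers_le.mpr hzQ)
      rw [hQ, Nat.card_zpowers]
      have h2 : orderOf z ∣ 3 := orderOf_dvd_of_pow_eq_one (by
        have := pow_card_eq_one' (x := (⟨z, hzQ⟩ : Q))
        rw [hQ] at this
        simpa using congrArg Subtype.val this)
      rcases (Nat.dvd_prime Nat.prime_three).mp h2 with h3 | h3
      · exact absurd (orderOf_eq_one_iff.mp h3) hz1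
      · omega
    rw [← h1, h2]
  have hxB : (x : G) ∉ B := fun h => hAB (hzx A B hA3 hB3 _ x.2 hxne h)
  have hyA : (y : G) ∉ A := fun h => hAB ((hzx B A hB3 hA3 _ y.2 hyne h).symm)
  have hxx : (x : G) ≠ (x : G)⁻¹ := by
    intro h
    apply hxne
    have h2 : (x : G) ^ 2 = 1 := by
      rw [pow_two]; nth_rw 1 [h]; simp
    have h3 : (x : G) ^ 3 = (x : G) ^ 2 * x := pow_succ _ 2
    rw [hx3, h2, one_mul] at h3
    exact h3.symm
  have hyy : (y : G) ≠ (y : G)⁻¹ := by
    intro h
    apply hyne
    have h2 : (y : G) ^ 2 = 1 := by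
      rw [pow_two]; nth_rw 1 [h]; simp
    have h3 : (y : G) ^ 3 = (y : G) ^ 2 * y := pow_succ _ 2
    rw [hy3, h2, one_mul] at h3
    exact h3.symm
  let t : Fin 4 → G := ![x, (x : G)⁻¹, y, (y : G)⁻¹]
  have ht_inj : Function.Injective t := by
    intro i j hij
    have e1 : ∀ (w : G), w ∈ B → (x : G) ≠ w := fun w hw h => hxB (h ▸ hw)
    have e2 : ∀ (w : G), w ∈ B → (x : G)⁻¹ ≠ w := fun w hw h => hxB (by
      have : (x : G) = w⁻¹ := by rw [← h, inv_inv]
      rw [this]; exact B.inv_mem hw)
    fin_cases i <;> fin_cases j <;> first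
      | rfl
      | exact absurd hij hxx
      | exact absurd hij.symm hxx
      | exact absurd hij hyy
      | exact absurd hij.symm hyy
      | exact absurd hij (e1 _ y.2)
      | exact absurd hij.symm (e1 _ y.2)
      | exact absurd hij (e1 _ (B.inv_mem y.2))
      | exact absurd hij.symm (e1 _ (B.inv_mem y.2))
      | exact absurd hij (e2 _ y.2)
      | exact absurd hij.symm (e2 _ y.2)
      | exact absurd hij (e2 _ (B.inv_mem y.2))
      | exact absurd hij.symm (e2 _ (B.inv_mem y.2))
  have ht1 : ∀ i, t i ≠ 1 := by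
    intro i
    fin_cases i
    · exact hxne
    · exact inv_ne_one.mpr hxne
    · exact hyne
    · exact inv_ne_one.mpr hyne
  have ht3 : ∀ i, t i ^ 3 = 1 := by
    intro i
    fin_cases i
    · exact hx3
    · show ((x : G)⁻¹) ^ 3 = 1
      rw [inv_pow, hx3, inv_one]
    · exact hy3
    · show ((y : G)⁻¹) ^ 3 = 1
      rw [inv_pow, hy3, inv_one]
  have hxs : ∀ z ∈ A, z • a = a ∧ z • b = b := by
    intro z hz
    have := hA hz
    exact ⟨(Subgroup.mem_inf.mp this).1, (Subgroup.mem_inf.mp this).2⟩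
  have hys : ∀ z ∈ B, z • a = a ∧ z • b = b := by
    intro z hz
    have := hB hz
    exact ⟨(Subgroup.mem_inf.mp this).1, (Subgroup.mem_inf.mp this).2⟩
  have htfix : ∀ i, t i • a = a ∧ t i • b = b := by
    intro i
    fin_cases i
    · exact hxs _ x.2
    · exact hxs _ (A.inv_mem x.2)
    · exact hys _ y.2
    · exact hys _ (B.inv_mem y.2)
  -- conjugators
  have hc : ∀ y : Fin 3 ↪ α, ∃ c : G, c • a = y 0 ∧ c • b = y 1 := by
    intro y
    exact hT _ _ (fun h => absurd (y.injective h) (by decide))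
  choose c hca hcb using hc
  let g : (Fin 3 ↪ α) → Fin 4 → G := fun y i => c y * t i * (c y)⁻¹
  have hg0 : ∀ y i, g y i • y 0 = y 0 := by
    intro y i
    show (c y * t i * (c y)⁻¹) • y 0 = y 0
    rw [← hca y, mul_smul, mul_smul, inv_smul_smul, (htfix i).1]
  have hg1 : ∀ y i, g y i • y 1 = y 1 := by
    intro y i
    show (c y * t i * (c y)⁻¹) • y 1 = y 1
    rw [← hcb y, mul_smul, mul_smul, inv_smul_smul, (htfix i).2]
  have hgne : ∀ y i, g y i ≠ 1 := by
    intro y i h
    apply ht1 i
    have : t i = (c y)⁻¹ * g y i * c y := by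
      show t i = (c y)⁻¹ * (c y * t i * (c y)⁻¹) * c y
      group
    rw [this, h]; simp
  have hg3 : ∀ y i, g y i ^ 3 = 1 := by
    intro y i
    show (c y * t i * (c y)⁻¹) ^ 3 = 1
    have : (c y * t i * (c y)⁻¹) ^ 3 = c y * t i ^ 3 * (c y)⁻¹ := by
      simp [conj_pow]
    rw [this, ht3]; simp
  have h01 : ∀ y : Fin 3 ↪ α, y 0 ≠ y 1 := fun y h => absurd (y.injective h) (by decide)
  have h02 : ∀ y : Fin 3 ↪ α, y 0 ≠ y 2 := fun y h => absurd (y.injective h) (by decide)
  have h12 : ∀ y : Fin 3 ↪ α, y 1 ≠ y 2 := fun y h => absurd (y.injective h) (by decide)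
  have hcube : ∀ (k : G) (z : α), k ^ 3 = 1 → k • k • k • z = z := by
    intro k z hk
    rw [← mul_smul, ← mul_smul]
    have : k * k * k = k ^ 3 := by rw [pow_succ, pow_two]
    rw [this, hk, one_smul]
  -- fixed points
  have hfixonly : ∀ y i (z : α), g y i • z = z → z = y 0 ∨ z = y 1 := by
    intro y i z hz
    by_contra hcon
    push Not at hcon
    exact hgne y i (hS _ (y 0) (y 1) z (h01 y) (Ne.symm hcon.1) (Ne.symm hcon.2) (hg0 y i) (hg1 y i) hz)
  have hmoved : ∀ y i, g y i • y 2 ≠ y 2 := by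
    intro y i h
    rcases hfixonly y i _ h with h' | h'
    · exact h02 y h'.symm
    · exact h12 y h'.symm
  have hdist1 : ∀ y i, y 2 ≠ g y i • y 2 := fun y i h => hmoved y i h.symm
  have hdist2 : ∀ y i, y 2 ≠ g y i • g y i • y 2 := by
    intro y i h
    apply hmoved y i
    have h4 : g y i • (g y i • g y i • y 2) = y 2 := hcube _ _ (hg3 y i)
    rw [← h] at h4
    exact h4
  have hdist3 : ∀ y i, g y i • y 2 ≠ g y i • g y i • y 2 := by
    intro y i h
    apply hmoved y i
    exact (smul_left_cancel _ h).symm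
  -- the count
  let e := Fintype.equivFin α
  let Φ : (Fin 3 ↪ α) × Fin 4 → (Fin 3 ↪ α) × Bool := fun p =>
    (mkEmb (p.1 2) (g p.1 p.2 • p.1 2) (g p.1 p.2 • g p.1 p.2 • p.1 2)
      (hdist1 _ _) (hdist2 _ _) (hdist3 _ _), decide (e (p.1 0) < e (p.1 1)))
  have hΦ : Function.Injective Φ := by
    rintro ⟨y, i⟩ ⟨y', i'⟩ hp
    have hp1 := congrArg Prod.fst hp
    have hp2 := congrArg Prod.snd hp
    have e0 : y 2 = y' 2 := congrArg (fun z : Fin 3 ↪ α => z 0) hp1
    have e1 : g y i • y 2 = g y' i' • y' 2 := congrArg (fun z : Fin 3 ↪ α => z 1) hp1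
    have e2 : g y i • g y i • y 2 = g y' i' • g y' i' • y' 2 :=
      congrArg (fun z : Fin 3 ↪ α => z 2) hp1
    rw [← e0] at e1 e2
    -- equal group elements
    have hgg : g y i = g y' i' := by
      have h1 : (g y' i')⁻¹ * g y i = 1 := by
        apply hS _ (y 2) (g y i • y 2) (g y i • g y i • y 2) (hdist1 _ _) (hdist2 _ _) (hdist3 _ _)
        · rw [mul_smul, e1, inv_smul_smul]
        · rw [mul_smul, e2, e1, inv_smul_smul]
        · rw [mul_smul]
          have h3 : g y i • g y i • g y i • y 2 = y 2 := hcube _ _ (hg3 y i)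
          rw [h3, inv_smul_eq_iff, e2, hcube _ _ (hg3 y' i')]
      exact (inv_mul_eq_one.mp h1).symm
    have hu' := hfixonly y i (y' 0) (by rw [hgg]; exact hg0 y' i')
    have hv' := hfixonly y i (y' 1) (by rw [hgg]; exact hg1 y' i')
    have hord : decide (e (y 0) < e (y 1)) = decide (e (y' 0) < e (y' 1)) := hp2
    have hne : e (y 0) ≠ e (y 1) := fun h => h01 y (e.injective h)
    have hyy' : y = y' := by
      rcases hu' with hu' | hu' <;> rcases hv' with hv' | hv'
      · exact absurd (hu'.trans hv'.symm) (h01 y')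
      · exact emb_ext hu'.symm hv'.symm e0
      · exfalso
        rw [hu', hv'] at hord
        by_cases hlt : e (y 0) < e (y 1)
        · simp [hlt, not_lt_of_gt hlt] at hord
        · have : e (y 1) < e (y 0) := lt_of_le_of_ne (not_lt.mp hlt) (Ne.symm hne)
          simp [hlt, this] at hord
      · exact absurd (hu'.trans hv'.symm) (h01 y')
    subst hyy'
    have hii : i = i' := by
      apply ht_inj
      have : c y * t i * (c y)⁻¹ = c y * t i' * (c y)⁻¹ := hgg
      simpa using this
    rw [hii]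
  have hcard := Fintype.card_le_of_injective Φ hΦ
  simp only [Fintype.card_prod, Fintype.card_fin, Fintype.card_bool] at hcard
  have hpos : 0 < Fintype.card (Fin 3 ↪ α) := by
    rw [Fintype.card_pos_iff]
    exact Function.Embedding.nonempty_of_card_le (by
      simp only [Fintype.card_fin]; omega)
  omega

end Cfsg.Agent.S0728
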