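import Cfsg.Statements.S0731
import Mathlib
import Cfsg.Agent.Lib.Perm.ZassAb10

set_option autoImplicit false
open Cfsg

namespace Cfsg.Agent.S0731

/-- A finite Zassenhaus group whose point stabiliser has an abelian regular normal subgroup on the remaining points is sharply triply transitive or isomorphic to `PSL(2, F)` for a finite field `F` of odd characteristic. -/
theorem result {G Ω : Type*} [Group G] [Finite G] [MulAction G Ω] [Finite Ω] (hZ : Cfsg.IsZassenhausGroup G Ω) (x : Ω) (F : Subgroup G) (hFle : F ≤ MulAction.stabilizer G x) (hFn : (F.subgroupOf (MulAction.stabilizer G x)).Normal) (hFab : IsMulCommutative F) (hreg : ∀ y z : Ω, y ≠ x → z ≠ x → ∃! u : F, (u : G) • y = z) : (MulAction.IsMultiplyPretransitive G Ω 3 ∧ ∀ t : Fin 3 ↪ Ω, MulAction.stabilizer G t = ⊥) ∨ ∃ (K : Type) (_ : Field K) (_ : Fintype K), ringChar K ≠ 2 ∧ Nonempty (G ≃* Matrix.ProjectiveSpecialLinearGroup (Fin 2) K) := by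
  classical
  haveI := Fintype.ofFinite G
  haveI := Fintype.ofFinite Ω
  obtain ⟨b, hb⟩ : ∃ b : Ω, b ≠ x := by
    obtain ⟨g, -, c, d, hcd, -, -⟩ := hZ.2.2.2.1
    by_cases hc : c = x
    · exact ⟨d, fun h => hcd (hc.trans h.symm)⟩
    · exact ⟨c, hc⟩
  have S : Lib.Perm.ZA.Setup G Ω x b F := by
    refine ⟨hZ, Ne.symm hb, hFle, ?_, ?_, ?_⟩
    · have hne : ∀ u : F, (u : G) • b ≠ x := by
        intro u h0
        apply hb
        have h1 : (u : G) • x = x := hFle u.2
        exact smul_left_cancel (u : G) (h0.trans h1.symm)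
      let f : F → {y : Ω // y ≠ x} := fun u => ⟨(u : G) • b, hne u⟩
      have hf : Function.Bijective f := by
        constructor
        · intro u v huv
          have h1 : (u : G) • b = (v : G) • b := congrArg Subtype.val huv
          obtain ⟨w, -, hw⟩ := hreg b ((v : G) • b) hb (hne v)
          rw [hw u h1, hw v rfl]
        · rintro ⟨z, hz⟩
          obtain ⟨u, hu, -⟩ := hreg b z hb hz
          exact ⟨u, Subtype.ext hu⟩
      have h1 := Nat.card_congr (Equiv.ofBijective f hf)
      have h2 : Fintype.card {y : Ω // y ≠ x} + 1 = Fintype.card Ω := by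
        have := Fintype.card_congr (Equiv.optionSubtypeNe x)
        rwa [Fintype.card_option] at this
      rw [h1, Nat.card_eq_fintype_card, h2]
    · intro u hu hu1 c hc
      by_contra hcx
      obtain ⟨w, -, hw⟩ := hreg c c hcx hcx
      have h1 : (⟨u, hu⟩ : F) = w := hw _ hc
      have h2 : (1 : F) = w := hw _ (by simp)
      exact hu1 (congrArg Subtype.val (h1.trans h2.symm))
    · intro u hu v hv
      have h1 := hFab.is_comm.comm (⟨u, hu⟩ : F) ⟨v, hv⟩
      exact congrArg Subtype.val h1
  have hcF := S.card_ge_two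
  have hFc := S.hFcard
  rcases S.numeric with h | h
  · exact Or.inl (S.sharply_three h)
  · right
    rcases Nat.even_or_odd (Nat.card (MulAction.stabilizer G x ⊓ MulAction.stabilizer G b : Subgroup G)) with heven | hodd
    · obtain ⟨p, f, K, iF, iT, hp, hp2, hK, hΩ, hnon⟩ :=
        Lib.Perm.ZP.main hZ (Ne.symm hb) heven (by omega)
      refine ⟨K, iF, iT, ?_, hnon⟩
      intro h0
      have h1 := FiniteField.even_card_of_char_two h0
      rw [hK] at h1
      have h2 : 2 ∣ p ^ f := Nat.dvd_of_mod_eq_zero h1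
      have h3 := Nat.Prime.dvd_of_dvd_pow Nat.prime_two h2
      exact hp2 ((Nat.prime_dvd_prime_iff_eq Nat.prime_two hp).mp h3).symm
    · obtain ⟨K, iF, iT, hK, hnon⟩ := S.psl_odd hodd h
      refine ⟨K, iF, iT, ?_, hnon⟩
      intro h0
      have h1 := FiniteField.even_card_of_char_two h0
      omega

end Cfsg.Agent.S0731
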