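import Cfsg.Statements.S0733
import Mathlib

set_option autoImplicit false
open Cfsg

namespace Cfsg.Agent.S0733

open scoped Pointwise

/-- A permutation group of affine type — generated by the translations of a finite vector space `V` over `ZMod p` together with a group `G₀` of linear automorphisms — is primitive on `V` if and only if `G₀` is irreducible on `V`. -/
theorem result {p : ℕ} [Fact p.Prime] {V : Type*} [AddCommGroup V] [Module (ZMod p) V] [Finite V] [Nontrivial V] (G₀ : Subgroup (V ≃ₗ[ZMod p] V)) (G : Subgroup (Equiv.Perm V)) (hG : ∀ σ : Equiv.Perm V, σ ∈ G ↔ ∃ g ∈ G₀, ∃ b : V, ∀ x : V, σ x = (g : V ≃ₗ[ZMod p] V) x + b) : MulAction.IsPreprimitive G V ↔ ∀ W : Submodule (ZMod p) V, (∀ g ∈ G₀, ∀ v ∈ W, (g : V ≃ₗ[ZMod p] V) v ∈ W) → W = ⊥ ∨ W = ⊤ := by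
  classical
  have htrans : ∀ b : V, ∃ σ : G, ∀ x, (σ : Equiv.Perm V) x = x + b := by
    intro b
    refine ⟨⟨Equiv.addRight b, ?_⟩, fun x => rfl⟩
    rw [hG]
    exact ⟨1, G₀.one_mem, b, fun x => by simp⟩
  have hmem : ∀ g ∈ G₀, ∃ σ : G, ∀ x, (σ : Equiv.Perm V) x = (g : V ≃ₗ[ZMod p] V) x := by
    intro g hg
    refine ⟨⟨(g : V ≃ₗ[ZMod p] V).toEquiv, ?_⟩, fun x => rfl⟩
    rw [hG]
    exact ⟨g, hg, 0, fun x => by simp⟩
  have hpretrans : MulAction.IsPretransitive G V := by
    refine ⟨fun x y => ?_⟩
    obtain ⟨σ, hσ⟩ := htrans (y - x)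
    refine ⟨σ, ?_⟩
    change (σ : Equiv.Perm V) x = y
    rw [hσ]
    abel
  constructor
  · intro hprim W hW
    -- W is a block
    have hblock : MulAction.IsBlock G (W : Set V) := by
      rw [MulAction.isBlock_iff_smul_eq_or_disjoint]
      intro σ
      obtain ⟨g, hg, b, hσ⟩ := (hG σ).mp σ.2
      have hσW : ∀ w ∈ W, (σ : Equiv.Perm V) w - b ∈ W := by
        intro w hw
        rw [hσ]
        simp [hW g hg w hw]
      by_cases hb : b ∈ W
      · left
        apply Set.eq_of_subset_of_ncard_le
        · rintro _ ⟨w, hw, rfl⟩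
          have h1 := hσW w hw
          have := W.add_mem h1 hb
          have h3 : σ • w = (σ : Equiv.Perm V) w := rfl
          simp only [h3]
          simpa using this
        · rw [Set.ncard_smul_set]
        · exact Set.toFinite _
      · right
        rw [Set.disjoint_left]
        rintro _ ⟨w, hw, rfl⟩ hw2
        apply hb
        have h1 := hσW w hw
        have h2 : (σ : Equiv.Perm V) w ∈ W := hw2
        have := W.sub_mem h2 h1
        simpa using this
    rcases hprim.isTrivialBlock_of_isBlock hblock with h | h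
    · left
      rw [eq_bot_iff]
      intro x hx
      rw [Submodule.mem_bot]
      exact h hx W.zero_mem
    · right
      rw [eq_top_iff]
      intro x _
      have : x ∈ (W : Set V) := by rw [h]; trivial
      exact this
  · intro hirr
    apply MulAction.IsPreprimitive.of_isTrivialBlock_base (0 : V)
    intro B hB0 hB
    rw [MulAction.isBlock_iff_smul_eq_of_mem] at hB
    -- B is closed under addition
    have hadd : ∀ x ∈ B, ∀ y ∈ B, x + y ∈ B := by
      intro x hx y hy
      obtain ⟨σ, hσ⟩ := htrans x
      have h1 : σ • (0 : V) = x := by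
        change (σ : Equiv.Perm V) 0 = x
        rw [hσ]; simp
      have h2 : σ • B = B := hB hB0 (by rw [h1]; exact hx)
      have h3 : σ • y ∈ σ • B := Set.smul_mem_smul_set hy
      rw [h2] at h3
      have h4 : σ • y = y + x := hσ y
      rw [h4, add_comm] at h3
      exact h3
    have hnsmul : ∀ x ∈ B, ∀ n : ℕ, n • x ∈ B := by
      intro x hx n
      induction n with
      | zero => simpa using hB0
      | succ n ih =>
        rw [succ_nsmul]
        exact hadd _ ih _ hx
    let W : Submodule (ZMod p) V :=
      { carrier := B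
        add_mem' := fun {x y} hx hy => hadd x hx y hy
        zero_mem' := hB0
        smul_mem' := by
          intro c x hx
          have h1 : c • x = c.val • x := by
            rw [← Nat.cast_smul_eq_nsmul (ZMod p), ZMod.natCast_zmod_val]
          change c • x ∈ B
          rw [h1]
          exact hnsmul x hx _ }
    have hWinv : ∀ g ∈ G₀, ∀ v ∈ W, (g : V ≃ₗ[ZMod p] V) v ∈ W := by
      intro g hg v hv
      obtain ⟨σ, hσ⟩ := hmem g hg
      have h1 : σ • (0 : V) = 0 := by
        change (σ : Equiv.Perm V) 0 = 0
        rw [hσ]; simp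
      have h2 : σ • B = B := hB hB0 (by rw [h1]; exact hB0)
      have h3 : σ • v ∈ σ • B := Set.smul_mem_smul_set hv
      rw [h2] at h3
      have h4 : σ • v = (g : V ≃ₗ[ZMod p] V) v := hσ v
      rw [h4] at h3
      exact h3
    rcases hirr W hWinv with h | h
    · left
      have : B = ((⊥ : Submodule (ZMod p) V) : Set V) := by rw [← h]; rfl
      rw [this]
      simp
    · right
      have : B = ((⊤ : Submodule (ZMod p) V) : Set V) := by rw [← h]; rfl
      rw [this]
      simp
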