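import Cfsg.Statements.S0734
import Mathlib

set_option autoImplicit false
open Cfsg

namespace Cfsg.Agent.S0734

open scoped Pointwise
open MulAction

/-- Higman's criterion for primitivity: a transitive action on a finite set is primitive if and only if every non-trivial orbital graph (edges = images of a fixed pair of distinct points) is connected. -/
theorem result {G : Type*} [Group G] {Ω : Type*} [Finite Ω] [MulAction G Ω] [MulAction.IsPretransitive G Ω] [Nontrivial Ω] : MulAction.IsPreprimitive G Ω ↔ ∀ a b : Ω, a ≠ b → (SimpleGraph.fromRel fun x y : Ω => ∃ g : G, g • a = x ∧ g • b = y).Connected := by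
  classical
  constructor
  · intro hprim a b hab
    set Γ := SimpleGraph.fromRel fun x y : Ω => ∃ g : G, g • a = x ∧ g • b = y with hΓ
    have hadj : ∀ g : G, ∀ x y : Ω, Γ.Adj x y → Γ.Adj (g • x) (g • y) := by
      intro g x y hxy
      rw [hΓ, SimpleGraph.fromRel_adj] at hxy ⊢
      obtain ⟨hne, h⟩ := hxy
      refine ⟨fun h2 => hne (smul_left_cancel g h2), ?_⟩
      rcases h with ⟨u, hu, hv⟩ | ⟨u, hu, hv⟩
      · exact Or.inl ⟨g * u, by rw [mul_smul, hu], by rw [mul_smul, hv]⟩
      · exact Or.inr ⟨g * u, by rw [mul_smul, hu], by rw [mul_smul, hv]⟩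
    have hreach : ∀ g : G, ∀ x y : Ω, Γ.Reachable x y → Γ.Reachable (g • x) (g • y) := by
      intro g x y h
      induction h.some with
      | nil => exact SimpleGraph.Reachable.refl _
      | cons hxy _ ih =>
        exact (hadj g _ _ hxy).reachable.trans (ih ⟨by assumption⟩)
    let B : Set Ω := {x | Γ.Reachable a x}
    have hB : MulAction.IsBlock G B := by
      rw [MulAction.isBlock_iff_smul_eq_or_disjoint]
      intro g
      by_cases hd : Disjoint (g • B) B
      · exact Or.inr hd
      · left
        rw [Set.not_disjoint_iff] at hd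
        obtain ⟨z, ⟨w, hw, rfl⟩, hz⟩ := hd
        have h1 : Γ.Reachable (g • a) (g • w) := hreach g a w hw
        have h2 : Γ.Reachable a (g • w) := hz
        have h3 : Γ.Reachable a (g • a) := h2.trans h1.symm
        ext y
        constructor
        · rintro ⟨v, hv, rfl⟩
          exact h3.trans (hreach g a v hv)
        · intro hy
          refine ⟨g⁻¹ • y, ?_, by simp⟩
          have h4 : Γ.Reachable (g • a) y := h3.symm.trans hy
          have h5 := hreach g⁻¹ _ _ h4
          rw [inv_smul_smul] at h5
          exact h5
    have hab' : Γ.Adj a b := by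
      rw [hΓ, SimpleGraph.fromRel_adj]
      exact ⟨hab, Or.inl ⟨1, by simp, by simp⟩⟩
    have haB : a ∈ B := SimpleGraph.Reachable.refl _
    have hbB : b ∈ B := hab'.reachable
    rcases hprim.isTrivialBlock_of_isBlock hB with h | h
    · exact absurd (h haB hbB) hab
    · rw [SimpleGraph.connected_iff]
      refine ⟨fun x y => ?_, ⟨a⟩⟩
      have hx : x ∈ B := by rw [h]; trivial
      have hy : y ∈ B := by rw [h]; trivial
      exact (SimpleGraph.Reachable.symm hx).trans hy
  · intro hconn
    apply MulAction.IsPreprimitive.mk
    intro B hB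
    rcases B.subsingleton_or_nontrivial with h | h
    · exact Or.inl h
    · right
      obtain ⟨a, ha, b, hb, hab⟩ := h
      have hB' := hB
      rw [MulAction.isBlock_iff_smul_eq_of_mem] at hB'
      set Γ := SimpleGraph.fromRel fun x y : Ω => ∃ g : G, g • a = x ∧ g • b = y with hΓ
      have hstep : ∀ x y : Ω, Γ.Adj x y → x ∈ B → y ∈ B := by
        intro x y hxy hx
        rw [hΓ, SimpleGraph.fromRel_adj] at hxy
        obtain ⟨_, h⟩ := hxy
        rcases h with ⟨u, hu, hv⟩ | ⟨u, hu, hv⟩
        · have h1 : u • B = B := hB' ha (by rw [hu]; exact hx)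
          rw [← h1, ← hv]
          exact ⟨b, hb, rfl⟩
        · have h1 : u • B = B := hB' hb (by rw [hv]; exact hx)
          rw [← h1, ← hu]
          exact ⟨a, ha, rfl⟩
      have hwalk : ∀ x y : Ω, Γ.Reachable x y → x ∈ B → y ∈ B := by
        intro x y h
        induction h.some with
        | nil => exact id
        | cons hxy _ ih =>
          exact fun hx => ih ⟨by assumption⟩ (hstep _ _ hxy hx)
      ext y
      simp only [Set.mem_univ, iff_true]
      exact hwalk a y ((hconn a b hab).preconnected a y) ha

end Cfsg.Agent.S0734
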