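import Cfsg.Statements.S0735
import Mathlib

set_option autoImplicit false
open Cfsg

namespace Cfsg.Agent.S0735

open scoped Pointwise
open MulAction

/-- A 2-homogeneous permutation group (transitive on 2-subsets) of even order is doubly transitive; a non-trivial 2-homogeneous group is primitive. -/
theorem result {α : Type*} [Fintype α] [DecidableEq α] (G : Subgroup (Equiv.Perm α)) (h2 : MulAction.IsPretransitive G (Set.powersetCard α 2)) (hα : 3 ≤ Fintype.card α) : (Even (Nat.card G) → MulAction.IsMultiplyPretransitive G α 2) ∧ (G ≠ ⊥ → MulAction.IsPreprimitive G α) := by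
  classical
  have hmk : ∀ {a b : α}, a ≠ b → ({a, b} : Finset α) ∈ Set.powersetCard α 2 := by
    intro a b hab
    exact Finset.card_pair hab
  have hpair : ∀ a b c d : α, a ≠ b → c ≠ d → ∃ g : G,
      (g • a = c ∧ g • b = d) ∨ (g • a = d ∧ g • b = c) := by
    intro a b c d hab hcd
    obtain ⟨g, hg⟩ := h2.exists_smul_eq ⟨{a, b}, hmk hab⟩ ⟨{c, d}, hmk hcd⟩
    have h3 : g • ({a, b} : Finset α) = {c, d} := congrArg Subtype.val hg
    have ha : g • a ∈ ({c, d} : Finset α) := by
      rw [← h3]; exact Finset.smul_mem_smul_finset (by simp)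
    have hb : g • b ∈ ({c, d} : Finset α) := by
      rw [← h3]; exact Finset.smul_mem_smul_finset (by simp)
    simp only [Finset.mem_insert, Finset.mem_singleton] at ha hb
    have hne : g • a ≠ g • b := fun h => hab (smul_left_cancel g h)
    refine ⟨g, ?_⟩
    rcases ha with ha | ha <;> rcases hb with hb | hb
    · exact absurd (ha.trans hb.symm) hne
    · exact Or.inl ⟨ha, hb⟩
    · exact Or.inr ⟨ha, hb⟩
    · exact absurd (ha.trans hb.symm) hne
  constructor
  · intro heven
    have h2dvd : 2 ∣ Nat.card G := heven.two_dvd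
    haveI : Fact (Nat.Prime 2) := ⟨Nat.prime_two⟩
    obtain ⟨t, ht⟩ := exists_prime_orderOf_dvd_card' 2 h2dvd
    have ht1 : t ≠ 1 := by
      rintro rfl
      simp at ht
    have ht2 : t * t = 1 := by
      have := pow_orderOf_eq_one t
      rw [ht, pow_two] at this
      exact this
    obtain ⟨a, hta⟩ : ∃ a : α, (t : Equiv.Perm α) a ≠ a := by
      by_contra hcon
      push Not at hcon
      apply ht1
      apply Subtype.ext
      ext x
      simpa using hcon x
    set b := (t : Equiv.Perm α) a with hb
    have htb : (t : Equiv.Perm α) b = a := by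
      have := congrArg (fun f : G => ((f : Equiv.Perm α)) a) ht2
      simpa using this
    have hba : a ≠ b := Ne.symm hta
    rw [MulAction.is_two_pretransitive_iff]
    intro x y c d hxy hcd
    -- (a, b) reaches all ordered pairs
    have hreach : ∀ c d : α, c ≠ d → ∃ g : G, g • a = c ∧ g • b = d := by
      intro c d hcd
      obtain ⟨g, h4⟩ := hpair a b c d hba hcd
      rcases h4 with h5 | ⟨h5, h6⟩
      · exact ⟨g, h5⟩
      · refine ⟨g * t, ?_, ?_⟩
        · rw [mul_smul]
          have : t • a = b := rfl
          rw [this, h6]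
        · rw [mul_smul]
          have : t • b = a := htb
          rw [this, h5]
    obtain ⟨g₁, h1, h1'⟩ := hreach x y hxy
    obtain ⟨g₂, h2', h2''⟩ := hreach c d hcd
    exact ⟨g₂ * g₁⁻¹, by rw [mul_smul, ← h1, inv_smul_smul, h2'],
      by rw [mul_smul, ← h1', inv_smul_smul, h2'']⟩
  · intro _
    have htrans : MulAction.IsPretransitive G α := by
      refine ⟨fun x y => ?_⟩
      by_cases hxy : x = y
      · exact ⟨1, by simp [hxy]⟩
      obtain ⟨z, hzx, hzy⟩ : ∃ z : α, z ≠ x ∧ z ≠ y := by
        by_contra hcon
        push Not at hcon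
        have h3 : (Finset.univ : Finset α) ⊆ {x, y} := by
          intro z _
          by_cases h : z = x
          · simp [h]
          · simp [hcon z h]
        have := Finset.card_le_card h3
        rw [Finset.card_univ, Finset.card_pair hxy] at this
        omega
      obtain ⟨g, h4⟩ := hpair x z y z (Ne.symm hzx) (Ne.symm hzy)
      rcases h4 with ⟨h5, _⟩ | ⟨h5, h6⟩
      · exact ⟨g, h5⟩
      · exact ⟨g * g, by rw [mul_smul, h5, h6]⟩
    apply MulAction.IsPreprimitive.mk
    intro B hB
    rcases B.subsingleton_or_nontrivial with h | h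
    · exact Or.inl h
    · right
      obtain ⟨a, ha, b, hb, hab⟩ := h
      rw [MulAction.isBlock_iff_smul_eq_of_mem] at hB
      ext c
      simp only [Set.mem_univ, iff_true]
      by_cases hca : c = a
      · rw [hca]; exact ha
      obtain ⟨g, h4⟩ := hpair a b a c hab (Ne.symm hca)
      rcases h4 with ⟨h5, h6⟩ | ⟨h5, h6⟩
      · have h7 : g • B = B := hB ha (by rw [h5]; exact ha)
        rw [← h7, ← h6]
        exact ⟨b, hb, rfl⟩
      · have h7 : g • B = B := hB hb (by rw [h6]; exact ha)
        rw [← h7, ← h5]
        exact ⟨a, ha, rfl⟩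

end Cfsg.Agent.S0735
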