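import Cfsg.Statements.S0743
import Mathlib
import Cfsg.Agent.Lib.Perm.Basic

set_option autoImplicit false
open Cfsg

namespace Cfsg.Agent.S0743

open scoped Pointwise
open MulAction

/-- Gleason's Lemma: let `p` be a prime and `1 ≤ k < n`; if every `k`-subset of the `n` points is exactly the fixed-point set of some `p`-subgroup of `G`, then `G` is `k`-transitive. -/
theorem result {α : Type*} [Fintype α] [DecidableEq α] (G : Subgroup (Equiv.Perm α)) {p k : ℕ} (hp : p.Prime) (hk : 1 ≤ k) (hkn : k < Fintype.card α) (h : ∀ s : Finset α, s.card = k → ∃ P : Subgroup G, IsPGroup p P ∧ MulAction.fixedPoints P α = (s : Set α)) : MulAction.IsMultiplyPretransitive G α k := by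
  classical
  apply Cfsg.Agent.Lib.Perm.isMultiplyPretransitive_of_fixing
  intro u hu a b ha hb
  by_cases hab : a = b
  · exact ⟨1, by simp, by simp [hab]⟩
  -- extend u
  let T : Finset α := (Finset.univ.erase a).erase b
  have huT : u ⊆ T := by
    intro x hx
    simp only [T, Finset.mem_erase, Finset.mem_univ, and_true]
    exact ⟨fun h => hb (h ▸ hx), fun h => ha (h ▸ hx)⟩
  have hTcard : T.card = Fintype.card α - 2 := by
    simp only [T]
    rw [Finset.card_erase_of_mem (by simp [Ne.symm hab]), Finset.card_erase_of_mem (Finset.mem_univ _),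
      Finset.card_univ]
    omega
  obtain ⟨v, huv, hvT, hvcard⟩ := Finset.exists_subsuperset_card_eq huT (n := k - 1) (by omega) (by omega)
  have hav : a ∉ v := fun h => by
    have := hvT h
    simp [T] at this
  have hbv : b ∉ v := fun h => by
    have := hvT h
    simp [T] at this
  -- the pointwise stabiliser of v
  let H : Subgroup G := fixingSubgroup G (v : Set α)
  have hHmem : ∀ g : G, g ∈ H ↔ ∀ x ∈ v, g • x = x := by
    intro g
    simp only [H, mem_fixingSubgroup_iff]
    simp
  -- key: for x ∉ v, a p-subgroup of H with exactly x as fixed point off v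
  have hkey : ∀ x : α, x ∉ v → ∃ P : Subgroup G, IsPGroup p P ∧ P ≤ H ∧
      ∀ y : α, y ∉ v → (y ∈ fixedPoints P α ↔ y = x) := by
    intro x hx
    obtain ⟨P, hP, hfix⟩ := h (insert x v) (by
      rw [Finset.card_insert_of_notMem hx, hvcard]; omega)
    refine ⟨P, hP, ?_, ?_⟩
    · intro g hg
      rw [hHmem]
      intro y hy
      have : y ∈ fixedPoints P α := by
        rw [hfix]; simp [hy]
      exact this ⟨g, hg⟩
    · intro y hy
      rw [hfix]
      simp [hy]
  haveI : Fact p.Prime := ⟨hp⟩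
  -- orbit of a under H
  let A : Set α := {y | ∃ g ∈ H, g • a = y}
  have hAinv : ∀ g ∈ H, ∀ x ∈ A, g • x ∈ A := by
    rintro g hg x ⟨g', hg', rfl⟩
    exact ⟨g * g', H.mul_mem hg hg', mul_smul _ _ _⟩
  have hAv : ∀ y ∈ A, y ∉ v := by
    rintro y ⟨g, hg, rfl⟩ hy
    apply hav
    have h1 := (hHmem g).mp hg _ hy
    have h2 := smul_left_cancel g h1
    rw [h2] at hy
    exact hy
  have haA : a ∈ A := ⟨1, H.one_mem, one_smul _ _⟩
  by_contra hcon
  push Not at hcon
  have hbA : b ∉ A := by
    rintro ⟨g, hg, hgb⟩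
    exact hcon g (fun x hx => (hHmem g).mp hg x (huv hx)) hgb
  obtain ⟨Pa, hPa, hPaH, hPafix⟩ := hkey a hav
  obtain ⟨Pb, hPb, hPbH, hPbfix⟩ := hkey b hbv
  have h1 := Cfsg.Agent.Lib.Perm.ncard_modEq_ncard_inter_fixedPoints Pa hPa A
    (fun g hg x hx => hAinv g (hPaH hg) x hx)
  have h2 := Cfsg.Agent.Lib.Perm.ncard_modEq_ncard_inter_fixedPoints Pb hPb A
    (fun g hg x hx => hAinv g (hPbH hg) x hx)
  have h3 : A ∩ fixedPoints Pa α = {a} := by
    ext y
    simp only [Set.mem_inter_iff, Set.mem_singleton_iff]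
    constructor
    · rintro ⟨hyA, hy⟩
      exact (hPafix y (hAv y hyA)).mp hy
    · rintro rfl
      exact ⟨haA, (hPafix y hav).mpr rfl⟩
  have h4 : A ∩ fixedPoints Pb α = ∅ := by
    ext y
    simp only [Set.mem_inter_iff, Set.mem_empty_iff_false, iff_false, not_and]
    intro hyA hy
    have := (hPbfix y (hAv y hyA)).mp hy
    exact hbA (this ▸ hyA)
  rw [h3, Set.ncard_singleton] at h1
  rw [h4, Set.ncard_empty] at h2
  have h5 : 1 ≡ 0 [MOD p] := h1.symm.trans h2
  have h6 : p ∣ 1 := (Nat.modEq_zero_iff_dvd).mp h5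
  exact hp.one_lt.ne' (Nat.dvd_one.mp h6)

end Cfsg.Agent.S0743
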