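import Cfsg.Statements.S0744
import Mathlib
import Cfsg.Agent.Lib.Perm.Basic

set_option autoImplicit false
open Cfsg

namespace Cfsg.Agent.S0744

open MulAction


/-- Orbit-stabiliser for pointwise stabilisers. -/
theorem card_orbit_fix {α : Type*} [Fintype α] [DecidableEq α] (G : Subgroup (Equiv.Perm α))
    (s : Finset α) (y : α) :
    (orbit (fixingSubgroup G (s : Set α)) y).ncard *
        Nat.card (fixingSubgroup G ((insert y s : Finset α) : Set α)) =
      Nat.card (fixingSubgroup G (s : Set α)) := by
  classical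
  have h1 := (stabilizer (fixingSubgroup G (s : Set α)) y).index_mul_card
  rw [index_stabilizer] at h1
  rw [← h1]
  congr 1
  symm
  apply Nat.card_congr
  refine ⟨fun g => ⟨g.1.1, ?_⟩, fun g => ⟨⟨g.1, ?_⟩, ?_⟩, ?_, ?_⟩
  · rw [mem_fixingSubgroup_iff]
    intro x hx
    simp only [Finset.coe_insert, Set.mem_insert_iff, Finset.mem_coe] at hx
    rcases hx with rfl | hx
    · exact g.2
    · exact (mem_fixingSubgroup_iff G).mp g.1.2 x hx
  · rw [mem_fixingSubgroup_iff]
    intro x hx
    exact (mem_fixingSubgroup_iff G).mp g.2 x (by simp [Finset.mem_coe.mp hx])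
  · exact (mem_fixingSubgroup_iff G).mp g.2 y (by simp)
  · intro g; rfl
  · intro g; rfl

/-- If for some `k > 1` the pointwise stabilisers of all `(k-1)`-subsets have the same order `> 1` and those of all `k`-subsets have the same order, then the group is `(k-1)`-transitive. -/
theorem result {α : Type*} [Fintype α] [DecidableEq α] (G : Subgroup (Equiv.Perm α)) {k : ℕ} (hk : 1 < k) (hkn : k ≤ Fintype.card α) (l m : ℕ) (hl : 1 < l) (hkm1 : ∀ s : Finset α, s.card = k - 1 → Nat.card (fixingSubgroup G (s : Set α)) = l) (hkm : ∀ s : Finset α, s.card = k → Nat.card (fixingSubgroup G (s : Set α)) = m) : MulAction.IsMultiplyPretransitive G α (k - 1)  := by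
  classical
  apply Cfsg.Agent.Lib.Perm.isMultiplyPretransitive_of_fixing
  intro u hu a b ha hb
  by_cases hab : a = b
  · exact ⟨1, by simp, by simp [hab]⟩
  let T : Finset α := (Finset.univ.erase a).erase b
  have huT : u ⊆ T := by
    intro x hx
    simp only [T, Finset.mem_erase, Finset.mem_univ, and_true]
    exact ⟨fun h => hb (h ▸ hx), fun h => ha (h ▸ hx)⟩
  have hTcard : T.card = Fintype.card α - 2 := by
    simp only [T]
    rw [Finset.card_erase_of_mem (by simp [Ne.symm hab]), Finset.card_erase_of_mem (Finset.mem_univ _),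
      Finset.card_univ]
    omega
  obtain ⟨v, huv, hvT, hvcard⟩ := Finset.exists_subsuperset_card_eq huT (n := k - 2) (by omega) (by omega)
  have hav : a ∉ v := fun h => by
    have := hvT h
    simp [T] at this
  have hbv : b ∉ v := fun h => by
    have := hvT h
    simp [T] at this
  -- it suffices to move `a` to `b` within the stabiliser of `v`
  suffices hmove : b ∈ orbit (fixingSubgroup G (v : Set α)) a by
    obtain ⟨g, hg⟩ := hmove
    refine ⟨g.1, fun x hx => (mem_fixingSubgroup_iff G).mp g.2 x (huv hx), hg⟩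
  by_contra hnot
  obtain ⟨H, hH⟩ : ∃ H : Subgroup G, H = fixingSubgroup G (v : Set α) := ⟨_, rfl⟩
  -- sizes of orbits
  have hlpos : 0 < l := by omega
  have hHorbit : ∀ x, x ∉ v → (orbit (fixingSubgroup G (v : Set α)) x).ncard * l =
      Nat.card (fixingSubgroup G (v : Set α)) := by
    intro x hx
    have h1 := card_orbit_fix G v x
    rwa [hkm1 _ (by rw [Finset.card_insert_of_notMem hx, hvcard]; omega)] at h1
  have hKcard : Nat.card (fixingSubgroup G ((insert a v : Finset α) : Set α)) = l :=
    hkm1 _ (by rw [Finset.card_insert_of_notMem hav, hvcard]; omega)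
  have hKorbit : ∀ x, x ∉ v → x ≠ a →
      (orbit (fixingSubgroup G ((insert a v : Finset α) : Set α)) x).ncard * m = l := by
    intro x hx hxa
    have h1 := card_orbit_fix G (insert a v) x
    rw [hKcard, hkm _ (by
      rw [Finset.card_insert_of_notMem (by simp [hxa, hx]), Finset.card_insert_of_notMem hav, hvcard]
      omega)] at h1
    exact h1
  have hmpos : 0 < m := by
    have := hkm (insert b (insert a v)) (by
      rw [Finset.card_insert_of_notMem (by simp [Ne.symm hab, hbv]),
        Finset.card_insert_of_notMem hav, hvcard]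
      omega)
    rw [← this]
    exact Nat.card_pos
  obtain ⟨d, hd⟩ : ∃ d, d = (orbit (fixingSubgroup G ((insert a v : Finset α) : Set α)) b).ncard :=
    ⟨_, rfl⟩
  have hKd : ∀ x, x ∉ v → x ≠ a →
      (orbit (fixingSubgroup G ((insert a v : Finset α) : Set α)) x).ncard = d := by
    intro x hx hxa
    have h1 := hKorbit x hx hxa
    have h2 := hKorbit b hbv (Ne.symm hab)
    rw [hd]
    exact Nat.eq_of_mul_eq_mul_right hmpos (h1.trans h2.symm)
  have hKle : ∀ g ∈ fixingSubgroup G ((insert a v : Finset α) : Set α),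
      g ∈ fixingSubgroup G (v : Set α) := by
    intro g hg
    rw [mem_fixingSubgroup_iff] at hg ⊢
    intro x hx
    exact hg x (by simp [Finset.mem_coe.mp hx])
  have hKa : ∀ g ∈ fixingSubgroup G ((insert a v : Finset α) : Set α), g • a = a := by
    intro g hg
    exact (mem_fixingSubgroup_iff G).mp hg a (by simp)
  have horbv : ∀ c, c ∉ v → ∀ x ∈ orbit (fixingSubgroup G (v : Set α)) c, x ∉ v := by
    intro c hc x hx' hx
    obtain ⟨g, hg⟩ := hx'
    have hg' : (g : G) • c = x := hg
    have h1 : (g : G) • x = x := (mem_fixingSubgroup_iff G).mp g.2 _ (Finset.mem_coe.mpr hx)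
    rw [← hg'] at h1 hx
    have h2 : (g : G) • c = c := smul_left_cancel (g : G) h1
    rw [h2] at hx
    exact hc hx
  have hHinv : ∀ c : α, ∀ g ∈ fixingSubgroup G (v : Set α),
      ∀ x ∈ orbit (fixingSubgroup G (v : Set α)) c, g • x ∈ orbit (fixingSubgroup G (v : Set α)) c := by
    rintro c g hg _ ⟨h, rfl⟩
    refine ⟨⟨g, hg⟩ * h, ?_⟩
    change ((g * h.1 : G)) • c = g • ((h.1 : G) • c)
    rw [mul_smul]
  have hab2 : ∀ x ∈ orbit (fixingSubgroup G (v : Set α)) b, x ≠ a := by
    rintro _ ⟨h, rfl⟩ hh
    apply hnot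
    refine ⟨h⁻¹, ?_⟩
    change (h⁻¹) • a = b
    rw [← hh]
    exact inv_smul_smul h b
  -- divisibility
  have hdA : d ∣ (orbit (fixingSubgroup G (v : Set α)) a \ {a}).ncard := by
    apply Cfsg.Agent.Lib.Perm.dvd_ncard_of_orbits (fixingSubgroup G ((insert a v : Finset α) : Set α))
    · rintro g hg x ⟨hx1, hx2⟩
      refine ⟨hHinv a g (hKle g hg) x hx1, ?_⟩
      intro h3
      apply hx2
      have h4 : g • x = g • a := by rw [hKa g hg]; exact h3
      exact smul_left_cancel g h4
    · rintro x ⟨hx1, hx2⟩
      rw [hKd x (horbv a hav x hx1) hx2]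
  have hdB : d ∣ (orbit (fixingSubgroup G (v : Set α)) b).ncard := by
    apply Cfsg.Agent.Lib.Perm.dvd_ncard_of_orbits (fixingSubgroup G ((insert a v : Finset α) : Set α))
    · intro g hg x hx
      exact hHinv b g (hKle g hg) x hx
    · intro x hx
      rw [hKd x (horbv b hbv x hx) (hab2 x hx)]
  have hcardA : (orbit (fixingSubgroup G (v : Set α)) a \ {a}).ncard + 1
      = (orbit (fixingSubgroup G (v : Set α)) a).ncard := by
    apply Set.ncard_diff_singleton_add_one (mem_orbit_self a)
  have hcardB : (orbit (fixingSubgroup G (v : Set α)) b).ncard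
      = (orbit (fixingSubgroup G (v : Set α)) a).ncard :=
    Nat.eq_of_mul_eq_mul_right hlpos ((hHorbit b hbv).trans (hHorbit a hav).symm)
  have hd1 : d = 1 := by
    rw [hcardB, ← hcardA] at hdB
    exact Nat.dvd_one.mp ((Nat.dvd_add_right hdA).mp hdB)
  -- the stabiliser of `a` is trivial
  have hK1 : ∀ g ∈ fixingSubgroup G ((insert a v : Finset α) : Set α), g = 1 := by
    intro g hg
    apply Subtype.ext
    ext x
    by_cases hx : x ∈ insert a v
    · exact congrArg id ((mem_fixingSubgroup_iff G).mp hg x (Finset.mem_coe.mpr hx))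
    · have hxa : x ≠ a := fun h => hx (by simp [h])
      have hxv : x ∉ v := fun h => hx (by simp [h])
      have h3 := hKd x hxv hxa
      rw [hd1, Set.ncard_eq_one] at h3
      obtain ⟨z, hz⟩ := h3
      have h4 : x ∈ orbit (fixingSubgroup G ((insert a v : Finset α) : Set α)) x := mem_orbit_self x
      have h5 : g • x ∈ orbit (fixingSubgroup G ((insert a v : Finset α) : Set α)) x :=
        ⟨⟨g, hg⟩, rfl⟩
      rw [hz] at h4 h5
      rw [Set.mem_singleton_iff] at h4 h5
      exact h5.trans h4.symm
  have hbot : fixingSubgroup G ((insert a v : Finset α) : Set α) = ⊥ := by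
    rw [Subgroup.eq_bot_iff_forall]
    exact hK1
  rw [hbot] at hKcard
  simp at hKcard
  omega

end Cfsg.Agent.S0744
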