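import Cfsg.Statements.S0757
import Mathlib

set_option autoImplicit false
open Cfsg

namespace Cfsg.Agent.S0757

/-- The two diagonal forms Σ x_i^2 and Σ_(i<n) x_i^2 + α x_n^2 on F^(n+1), with α a non-square and 2 ≠ 0 in F, are inequivalent quadratic forms (so over a finite field of odd order there are exactly two classes of non-singular symmetric bilinear forms in each dimension). -/
theorem result {F : Type*} [Field F] (h2 : (2 : F) ≠ 0) (n : ℕ) (α : F) (hα : ¬ IsSquare α) : ¬ (QuadraticMap.weightedSumSquares F (fun _ : Fin (n + 1) => (1 : F))).Equivalent (QuadraticMap.weightedSumSquares F (fun i : Fin (n + 1) => if i = Fin.last n then α else (1 : F))) := by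
  classical
  rintro ⟨e⟩
  set w : Fin (n + 1) → F := fun i => if i = Fin.last n then α else 1 with hw
  set A : Matrix (Fin (n + 1)) (Fin (n + 1)) F := LinearMap.toMatrix' (e.toLinearEquiv : (Fin (n + 1) → F) →ₗ[F] (Fin (n + 1) → F)) with hAdef
  have hA : ∀ v, e v = A.mulVec v := by
    intro v
    rw [hAdef, LinearMap.toMatrix'_mulVec]
    rfl
  have hiso : ∀ v : Fin (n + 1) → F, ∑ i, w i * (A.mulVec v i * A.mulVec v i) = ∑ i, v i * v i := by
    intro v
    have := e.map_app v
    rw [hA] at this
    simpa [QuadraticMap.weightedSumSquares_apply] using this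
  have hpol : ∀ x y : Fin (n + 1) → F, ∑ i, w i * (A.mulVec x i * A.mulVec y i) = ∑ i, x i * y i := by
    intro x y
    have h1 := hiso (x + y)
    have h2' := hiso x
    have h3 := hiso y
    have e1 : ∑ i, w i * (A.mulVec (x + y) i * A.mulVec (x + y) i) = ∑ i, w i * (A.mulVec x i * A.mulVec x i) + ∑ i, w i * (A.mulVec y i * A.mulVec y i) + 2 * ∑ i, w i * (A.mulVec x i * A.mulVec y i) := by
      rw [Finset.mul_sum, ← Finset.sum_add_distrib, ← Finset.sum_add_distrib]
      refine Finset.sum_congr rfl fun i _ => ?_
      rw [Matrix.mulVec_add, Pi.add_apply]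
      ring
    have e2 : ∑ i, (x + y) i * (x + y) i = ∑ i, x i * x i + ∑ i, y i * y i + 2 * ∑ i, x i * y i := by
      rw [Finset.mul_sum, ← Finset.sum_add_distrib, ← Finset.sum_add_distrib]
      refine Finset.sum_congr rfl fun i _ => ?_
      rw [Pi.add_apply]
      ring
    rw [e1, e2, h2', h3] at h1
    exact mul_left_cancel₀ h2 (add_left_cancel h1)
  have hB : A.transpose * Matrix.diagonal w * A = 1 := by
    ext i j
    have := hpol (Pi.single i 1) (Pi.single j 1)
    simp only [Matrix.mulVec_single_one] at this
    rw [Matrix.mul_apply]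
    simp only [Matrix.mul_diagonal, Matrix.transpose_apply]
    simp only [Matrix.col_apply] at this
    have e3 : ∑ k, A k i * w k * A k j = ∑ k, w k * (A k i * A k j) := Finset.sum_congr rfl fun k _ => by ring
    rw [e3, this, Matrix.one_apply]
    by_cases h : i = j
    · subst h; simp [Pi.single_apply]
    · simp [Pi.single_apply, h, Ne.symm h]
  have hdet := congrArg Matrix.det hB
  rw [Matrix.det_mul, Matrix.det_mul, Matrix.det_transpose, Matrix.det_diagonal, Matrix.det_one] at hdet
  have hprod : ∏ i, w i = α := by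
    rw [Fin.prod_univ_castSucc]
    simp [hw, Fin.castSucc_ne_last]
  rw [hprod] at hdet
  apply hα
  have hd : A.det ≠ 0 := by
    rintro h
    rw [h] at hdet
    simp at hdet
  refine ⟨A.det⁻¹, ?_⟩
  field_simp
  linear_combination hdet

end Cfsg.Agent.S0757
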