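import Cfsg.Statements.S0758
import Mathlib

set_option autoImplicit false
open Cfsg

namespace Cfsg.Agent.S0758

/-- For a finite field F of odd order q and a non-square α: the form x² + y² is isotropic iff q ≡ 1 mod 4, and the form x² + α y² is isotropic iff q ≡ 3 mod 4. -/
theorem result {F : Type*} [Field F] [Fintype F] (h2 : (2 : F) ≠ 0) (α : F) (hα : ¬ IsSquare α) : ((∃ x y : F, (x ≠ 0 ∨ y ≠ 0) ∧ x ^ 2 + y ^ 2 = 0) ↔ Fintype.card F % 4 = 1) ∧ ((∃ x y : F, (x ≠ 0 ∨ y ≠ 0) ∧ x ^ 2 + α * y ^ 2 = 0) ↔ Fintype.card F % 4 = 3) := by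
  classical
  have hodd : ringChar F ≠ 2 := fun h => h2 (by
    have := CharP.ringChar_of_prime_eq_zero (R := F) Nat.prime_two
    have hc : (2 : F) = ((ringChar F : ℕ) : F) := by rw [h]; norm_cast
    rw [hc]; exact CharP.cast_eq_zero F (ringChar F))
  have hcard_odd : Fintype.card F % 2 = 1 := FiniteField.odd_card_of_char_ne_two hodd
  have hsq := FiniteField.isSquare_neg_one_iff (F := F)
  have h4 : Fintype.card F % 4 = 1 ∨ Fintype.card F % 4 = 3 := by omega
  -- the key: x ^ 2 + a y ^ 2 = 0, y ≠ 0  iff  -a is a square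
  have key : ∀ a : F, a ≠ 0 → ((∃ x y : F, (x ≠ 0 ∨ y ≠ 0) ∧ x ^ 2 + a * y ^ 2 = 0) ↔ IsSquare (-a)) := by
    intro a ha
    constructor
    · rintro ⟨x, y, hxy, h⟩
      have hy : y ≠ 0 := by
        rintro rfl
        rcases hxy with hx | hy
        · apply hx
          have : x ^ 2 = 0 := by simpa using h
          exact pow_eq_zero_iff (two_ne_zero) |>.mp this
        · exact hy rfl
      refine ⟨x / y, ?_⟩
      field_simp
      linear_combination -h
    · rintro ⟨r, hr⟩
      refine ⟨r, 1, Or.inr one_ne_zero, ?_⟩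
      linear_combination -hr
  have hnna : α ≠ 0 := by
    rintro rfl
    exact hα (IsSquare.zero)
  have hneg : IsSquare (-1 : F) → ¬ IsSquare (-α) := by
    intro h1 h3
    apply hα
    have := h1.mul h3
    simpa using this
  have hneg' : ¬ IsSquare (-1 : F) → IsSquare (-α) := by
    intro h1
    have h3 : quadraticChar F (-1) = -1 := quadraticChar_neg_one_iff_not_isSquare.mpr h1
    have h4 : quadraticChar F α = -1 := quadraticChar_neg_one_iff_not_isSquare.mpr hα
    have h5 : quadraticChar F (-α) = 1 := by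
      have : (-α) = (-1) * α := by ring
      rw [this, map_mul, h3, h4]; norm_num
    exact (quadraticChar_one_iff_isSquare (neg_ne_zero.mpr hnna)).mp h5
  constructor
  · have := key 1 one_ne_zero
    simp only [one_mul] at this
    rw [this, hsq]
    omega
  · rw [key α hnna]
    constructor
    · intro h
      by_contra h5
      have h6 : Fintype.card F % 4 = 1 := by omega
      exact hneg (hsq.mpr (by omega)) h
    · intro h
      exact hneg' (fun h7 => by have := hsq.mp h7; omega)

end Cfsg.Agent.S0758
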