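import Cfsg.Statements.S0759
import Mathlib
import Cfsg.Agent.Lib.Classical.SymType

set_option autoImplicit false
open Cfsg

namespace Cfsg.Agent.S0759

/-- The standard dot product as a bilinear form. -/
noncomputable def dotB (F : Type*) [Field F] (n : ℕ) : LinearMap.BilinForm F (Fin n → F) :=
  LinearMap.mk₂ F (fun x y => ∑ i, x i * y i)
    (fun x x' y => by simp only [Pi.add_apply, add_mul, Finset.sum_add_distrib])
    (fun c x y => by simp only [Pi.smul_apply, smul_eq_mul, Finset.mul_sum, mul_assoc])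
    (fun x y y' => by simp only [Pi.add_apply, mul_add, Finset.sum_add_distrib])
    (fun c x y => by simp only [Pi.smul_apply, smul_eq_mul, Finset.mul_sum]; exact Finset.sum_congr rfl fun i _ => by ring)

lemma dotB_apply (F : Type*) [Field F] (n : ℕ) (x y : Fin n → F) : dotB F n x y = ∑ i, x i * y i := rfl

lemma dotB_symm (F : Type*) [Field F] (n : ℕ) : (dotB F n).IsSymm :=
  ⟨fun x y => by simp only [dotB_apply, RingHom.id_apply]; exact Finset.sum_congr rfl fun i _ => by ring⟩

lemma dotB_nondeg (F : Type*) [Field F] (n : ℕ) : (dotB F n).Nondegenerate := by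
  have hL : (dotB F n).SeparatingLeft := by
    intro x hx
    ext i
    have := hx (Pi.single i 1)
    simpa [dotB_apply, Pi.single_apply] using this
  refine ⟨hL, ?_⟩
  intro x hx
  apply hL
  intro y
  have := hx y
  rw [dotB_apply] at this ⊢
  rw [← this]
  exact Finset.sum_congr rfl fun i _ => by ring

/-- Type of the orthonormal form: over a finite field of odd order q and for m ≥ 1, the quadratic form Σ_(i<2m) x_i² on F^(2m) admits an m-dimensional subspace on which it vanishes identically if and only if it is not the case that q ≡ 3 (mod 4) and m is odd. -/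
theorem result {F : Type*} [Field F] [Fintype F] (h2 : (2 : F) ≠ 0) (m : ℕ) (hm : 1 ≤ m) : (∃ W : Submodule F (Fin (2 * m) → F), Module.finrank F W = m ∧ ∀ w ∈ W, ∑ i, w i ^ 2 = 0) ↔ ¬ (Fintype.card F % 4 = 3 ∧ Odd m) := by
  classical
  set e : Fin (2 * m) → (Fin (2 * m) → F) := fun i => Pi.single i 1 with he
  have he1 : ∀ i j, i ≠ j → dotB F (2 * m) (e i) (e j) = 0 := by
    intro i j hij
    simp [dotB_apply, he, Pi.single_apply, hij, Ne.symm hij]
  have he2 : ∀ i, dotB F (2 * m) (e i) (e i) = 1 := by
    intro i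
    simp [dotB_apply, he, Pi.single_apply]
  have he3 : ∀ i, dotB F (2 * m) (e i) (e i) ≠ 0 := fun i => by rw [he2]; exact one_ne_zero
  have hprod : ∏ i, dotB F (2 * m) (e i) (e i) = 1 := by simp [he2]
  have hfin : Module.finrank F (Fin (2 * m) → F) = 2 * m := by simp
  constructor
  · rintro ⟨W, hW, hW0⟩ ⟨h4, hodd⟩
    have hts : ∀ x ∈ W, ∀ y ∈ W, dotB F (2 * m) x y = 0 := by
      intro x hx y hy
      have h1 := hW0 (x + y) (W.add_mem hx hy)
      have h3 := hW0 x hx
      have h5 := hW0 y hy
      have h6 : 2 * dotB F (2 * m) x y = 0 := by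
        rw [dotB_apply, Finset.mul_sum]
        have : ∑ i, 2 * (x i * y i) = ∑ i, (x + y) i ^ 2 - ∑ i, x i ^ 2 - ∑ i, y i ^ 2 := by
          rw [← Finset.sum_sub_distrib, ← Finset.sum_sub_distrib]
          refine Finset.sum_congr rfl fun i _ => ?_
          simp only [Pi.add_apply]
          ring
        rw [this, h1, h3, h5]
        simp
      exact (mul_eq_zero.mp h6).resolve_left h2
    obtain ⟨c, hc1, hc2, hc3⟩ := Cfsg.Agent.Lib.Classical.Sym.exists_family_of_ts h2 m _ (dotB F (2 * m)) (dotB_symm F _) (dotB_nondeg F _) hfin W hW hts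
    obtain ⟨d, hd0, hd⟩ := Cfsg.Agent.Lib.Classical.Sym.prod_eq_sq_mul (dotB F (2 * m)) hfin e c he1 he3 hc1 hc2
    rw [hprod, hc3, hodd.neg_one_pow] at hd
    have hsq : IsSquare (-1 : F) := by
      refine ⟨d⁻¹, ?_⟩
      field_simp
      linear_combination -hd
    exact (FiniteField.isSquare_neg_one_iff.mp hsq) h4
  · intro hcond
    have hsq : IsSquare ((-1 : F) ^ m * ∏ i, dotB F (2 * m) (e i) (e i)) := by
      rw [hprod, mul_one]
      rcases Nat.even_or_odd m with hm | hm
      · rw [hm.neg_one_pow]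
        exact IsSquare.one
      · rw [hm.neg_one_pow]
        apply FiniteField.isSquare_neg_one_iff.mpr
        intro h4
        exact hcond ⟨h4, hm⟩
    obtain ⟨T, hT1, hT2⟩ := Cfsg.Agent.Lib.Classical.Sym.exists_ts_of_family h2 m _ (dotB F (2 * m)) (dotB_symm F _) (dotB_nondeg F _) hfin e he1 he3 hsq
    refine ⟨T, hT1, fun w hw => ?_⟩
    have := hT2 w hw w hw
    rw [dotB_apply] at this
    rw [← this]
    exact Finset.sum_congr rfl fun i _ => by ring

end Cfsg.Agent.S0759
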