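import Cfsg.Statements.S0760
import Mathlib
import Cfsg.Agent.Lib.Classical.WittQuad

set_option autoImplicit false
open Cfsg

namespace Cfsg.Agent.S0760

lemma key {F V : Type*} [Field F] [Finite F] [AddCommGroup V] [Module F V] [FiniteDimensional F V] (Q : QuadraticForm F V) (hQ : (QuadraticMap.polarBilin Q).Nondegenerate) (W₁ W₂ : Submodule F V) (h₁ : ∀ w ∈ W₁, Q w = 0) (h₂ : ∀ w ∈ W₂, Q w = 0) (hmax₁ : ∀ W : Submodule F V, W₁ ≤ W → (∀ w ∈ W, Q w = 0) → W = W₁) (hle : Module.finrank F W₁ ≤ Module.finrank F W₂) : Module.finrank F W₂ = Module.finrank F W₁ := by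
  obtain ⟨f, hf⟩ := finrank_le_iff_exists_linearMap.mp hle
  have hf' : Function.Injective (W₂.subtype ∘ₗ f) := W₂.injective_subtype.comp hf
  let φ : W₁ ≃ₗ[F] LinearMap.range (W₂.subtype ∘ₗ f) := LinearEquiv.ofInjective _ hf'
  obtain ⟨g, hg1, hg2⟩ := Cfsg.Agent.Lib.Classical.Witt.extend_of_core (F := F) (fun u _ => Q u) (by
      intro X₀ x y hx hy hyp
      obtain ⟨g, h1, h2, h3⟩ := Cfsg.Agent.Lib.Classical.Witt.core_quad Q hQ X₀ x y hx hy (fun a ha s => hyp a 0 ha X₀.zero_mem s 0)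
      exact ⟨g, fun u _ => h1 u, h2, h3⟩) W₁ _ φ (by
      intro a _
      have h3 : ((φ a : LinearMap.range (W₂.subtype ∘ₗ f)) : V) ∈ W₂ := by
        simp [φ]
      simp only [h₂ _ h3, h₁ _ a.2])
  have hQg : ∀ v, Q (g v) = Q v := fun v => hg1 v v
  have hle' : W₁ ≤ W₂.map (g.symm : V →ₗ[F] V) := by
    intro x hx
    refine ⟨g x, ?_, by simp⟩
    rw [hg2 ⟨x, hx⟩]
    simp [φ]
  have hsing : ∀ w ∈ W₂.map (g.symm : V →ₗ[F] V), Q w = 0 := by
    rintro w ⟨u, hu, rfl⟩
    rw [← hQg]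
    simpa using h₂ u hu
  have := hmax₁ _ hle' hsing
  rw [← this]
  exact (LinearEquiv.finrank_map_eq g.symm W₂).symm

/-- Witt index is well defined: if Q is a quadratic form on a finite-dimensional space V over a finite field with non-degenerate polar form, and W₁, W₂ are subspaces on which Q vanishes that are maximal with this property, then W₁ and W₂ have the same dimension, and twice this dimension is at most dim V. -/
theorem result {F V : Type*} [Field F] [Finite F] [AddCommGroup V] [Module F V] [FiniteDimensional F V] (Q : QuadraticForm F V) (hQ : (QuadraticMap.polarBilin Q).Nondegenerate) (W₁ W₂ : Submodule F V) (h₁ : ∀ w ∈ W₁, Q w = 0) (h₂ : ∀ w ∈ W₂, Q w = 0) (hmax₁ : ∀ W : Submodule F V, W₁ ≤ W → (∀ w ∈ W, Q w = 0) → W = W₁) (hmax₂ : ∀ W : Submodule F V, W₂ ≤ W → (∀ w ∈ W, Q w = 0) → W = W₂) : Module.finrank F W₁ = Module.finrank F W₂ ∧ 2 * Module.finrank F W₁ ≤ Module.finrank F V := by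
  refine ⟨?_, ?_⟩
  · rcases le_total (Module.finrank F W₁) (Module.finrank F W₂) with h | h
    · exact (key Q hQ W₁ W₂ h₁ h₂ hmax₁ h).symm
    · exact key Q hQ W₂ W₁ h₂ h₁ hmax₂ h
  · have hle : W₁ ≤ LinearMap.BilinForm.orthogonal (QuadraticMap.polarBilin Q) W₁ := by
      intro x hx
      rw [LinearMap.BilinForm.mem_orthogonal_iff]
      intro y hy
      change QuadraticMap.polar (⇑Q) y x = 0
      simp only [QuadraticMap.polar]
      rw [h₁ _ (W₁.add_mem hy hx), h₁ _ hy, h₁ _ hx]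
      simp
    have h1 := LinearMap.BilinForm.finrank_orthogonal hQ W₁
    have h2 := Submodule.finrank_mono hle
    have h3 : Module.finrank F W₁ ≤ Module.finrank F V := Submodule.finrank_le W₁
    omega

end Cfsg.Agent.S0760
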