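import Cfsg.Statements.S0761
import Mathlib

set_option autoImplicit false
open Cfsg

namespace Cfsg.Agent.S0761

/-- Hyperbolic partners: let B be a non-degenerate bilinear form on a finite-dimensional space, either alternating, or symmetric with 2 ≠ 0. If Z is a subspace on which B vanishes, x ∉ Z is isotropic and orthogonal to Z, then there is an isotropic y with B x y = 1 which is orthogonal to Z. -/
theorem result {F V : Type*} [Field F] [AddCommGroup V] [Module F V] [FiniteDimensional F V] (B : LinearMap.BilinForm F V) (hB : B.Nondegenerate) (hform : B.IsAlt ∨ (B.IsSymm ∧ (2 : F) ≠ 0)) (x : V) (Z : Submodule F V) (hxZ : x ∉ Z) (hx : B x x = 0) (hxz : ∀ z ∈ Z, B x z = 0) (hZ : ∀ z ∈ Z, ∀ z' ∈ Z, B z z' = 0) : ∃ y : V, B y y = 0 ∧ B x y = 1 ∧ ∀ z ∈ Z, B z y = 0 := by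
  obtain ⟨f, hfx, hfZ⟩ := Submodule.exists_dual_map_eq_bot_of_notMem hxZ inferInstance
  have hsep : B.Nondegenerate := hB
  -- representation of the functional `f` through `B` 
  let y0 : V := (B.flip.toDual hB.flip).symm ((f x)⁻¹ • f)
  have hy0 : ∀ v, B v y0 = (f x)⁻¹ * f v := by
    intro v
    have h1 : B v y0 = B.flip y0 v := rfl
    rw [h1, ← LinearMap.BilinForm.toDual_def (b := hB.flip)]
    simp [y0]
  have hxy0 : B x y0 = 1 := by
    rw [hy0]; exact inv_mul_cancel₀ hfx
  have hZy0 : ∀ z ∈ Z, B z y0 = 0 := by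
    intro z hz
    rw [hy0]
    have : f z ∈ Z.map f := Submodule.mem_map_of_mem hz
    rw [hfZ] at this
    simp [(Submodule.mem_bot F).mp this]
  rcases hform with hA | ⟨hS, h2⟩
  · refine ⟨y0, hA y0, hxy0, hZy0⟩
  · refine ⟨y0 - (B y0 y0 / 2) • x, ?_, ?_, ?_⟩
    · have hsymm : B y0 x = 1 := by rw [← hS.eq x y0]; simpa using hxy0
      simp only [map_sub, map_smul, LinearMap.sub_apply, LinearMap.smul_apply, smul_eq_mul, hx, hsymm, hxy0]
      field_simp
      ring
    · simp [hx, hxy0]
    · intro z hz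
      have := hxz z hz
      have h3 : B z x = 0 := by
        rw [← hS.eq x z]; simpa using this
      simp [h3, hZy0 z hz]

end Cfsg.Agent.S0761
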