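import Cfsg.Statements.S0762
import Mathlib

set_option autoImplicit false
open Cfsg

namespace Cfsg.Agent.S0762

/-- In characteristic two over a finite field, a quadratic form on a space of dimension at least 3 vanishes on some non-zero vector. -/
theorem result {F V : Type*} [Field F] [Finite F] [CharP F 2] [AddCommGroup V] [Module F V] [FiniteDimensional F V] (Q : QuadraticForm F V) (h3 : 3 ≤ Module.finrank F V) : ∃ v : V, v ≠ 0 ∧ Q v = 0 := by
  classical
  haveI : Fintype F := Fintype.ofFinite F
  have hc : ringChar F = 2 := ringChar.eq F 2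
  have key : ∀ x y : V, LinearIndependent F ![x, y] → QuadraticMap.polar Q x y = 0 → ∃ v : V, v ≠ 0 ∧ Q v = 0 := by
    intro x y hli hp
    have hli' := LinearIndependent.pair_iff.mp hli
    by_cases hx : Q x = 0
    · refine ⟨x, ?_, hx⟩
      rintro rfl
      have := hli' 1 0 (by simp)
      simp at this
    · obtain ⟨t, ht⟩ := FiniteField.isSquare_of_char_two hc (Q y / Q x)
      refine ⟨t • x + y, ?_, ?_⟩
      · intro h0
        have := hli' t 1 (by simpa using h0)
        simp at this
      · rw [QuadraticMap.map_add Q, QuadraticMap.map_smul, QuadraticMap.polar_smul_left, hp, ← ht]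
        simp only [smul_eq_mul, mul_zero, add_zero]
        field_simp
        rw [← two_mul, CharTwo.two_eq_zero]
        simp
  let b := Module.finBasis F V
  let i0 : Fin (Module.finrank F V) := ⟨0, by omega⟩
  let i1 : Fin (Module.finrank F V) := ⟨1, by omega⟩
  let i2 : Fin (Module.finrank F V) := ⟨2, by omega⟩
  have h01 : i0 ≠ i1 := by simp [i0, i1, Fin.ext_iff]
  have h02 : i0 ≠ i2 := by simp [i0, i2, Fin.ext_iff]
  have h12 : i1 ≠ i2 := by simp [i1, i2, Fin.ext_iff]
  by_cases hC : QuadraticMap.polar Q (b i0) (b i1) = 0
  · refine key (b i0) (b i1) ?_ hC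
    rw [LinearIndependent.pair_iff]
    intro s t hst
    have h0 := congrArg (b.repr · i0) hst
    have h1 := congrArg (b.repr · i1) hst
    simp [Finsupp.single_apply, h01, h01.symm] at h0 h1
    exact ⟨h0, h1⟩
  · set A := QuadraticMap.polar Q (b i1) (b i2) with hA
    set B := QuadraticMap.polar Q (b i2) (b i0) with hB
    set C := QuadraticMap.polar Q (b i0) (b i1) with hC'
    refine key (A • b i0 + B • b i1 + C • b i2) (b i0) ?_ ?_
    · rw [LinearIndependent.pair_iff]
      intro s t hst
      have h0 := congrArg (b.repr · i2) hst
      simp [Finsupp.single_apply, h02, h12] at h0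
      have hs : s = 0 := by
        rcases h0 with h | h
        · exact h
        · exact absurd h hC
      subst hs
      simp only [zero_smul, zero_add] at hst
      refine ⟨rfl, ?_⟩
      have h1 := congrArg (b.repr · i0) hst
      simpa using h1
    · have hsym : QuadraticMap.polar Q (b i1) (b i0) = C := QuadraticMap.polar_comm _ _ _
      have hsq : QuadraticMap.polar Q (b i0) (b i0) = 0 := by
        simp only [QuadraticMap.polar, ← two_smul F (b i0)]
        rw [CharTwo.two_eq_zero]
        simp only [zero_smul, QuadraticMap.map_zero, sub_zero]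
        rw [zero_sub, sub_eq_add_neg, ← neg_add, CharTwo.add_self_eq_zero, neg_zero]
      rw [QuadraticMap.polar_add_left, QuadraticMap.polar_add_left, QuadraticMap.polar_smul_left, QuadraticMap.polar_smul_left, QuadraticMap.polar_smul_left, hsq, hsym, ← hB]
      simp only [smul_eq_mul, mul_zero, zero_add]
      rw [mul_comm C B]
      exact CharTwo.add_self_eq_zero _

end Cfsg.Agent.S0762
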