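import Cfsg.Statements.S0763
import Mathlib

set_option autoImplicit false
open Cfsg

namespace Cfsg.Agent.S0763

/-- Binary quadratic forms in characteristic two over a finite field: if Q is a quadratic form on a 2-dimensional space whose polar form is non-degenerate, then either there are vectors v, w with Q v = Q w = 0 and polar value 1 (Q is xy in these coordinates), or there are v, w and μ with Q v = 1, Q w = μ, polar value 1 and x² + x + μ without roots in F (Q is x² + xy + μy²). -/
theorem result {F V : Type*} [Field F] [Finite F] [CharP F 2] [AddCommGroup V] [Module F V] (Q : QuadraticForm F V) (h2 : Module.finrank F V = 2) (hQ : (QuadraticMap.polarBilin Q).Nondegenerate) : (∃ v w : V, LinearIndependent F ![v, w] ∧ Q v = 0 ∧ Q w = 0 ∧ QuadraticMap.polar Q v w = 1) ∨ (∃ (v w : V) (μ : F), LinearIndependent F ![v, w] ∧ (∀ x : F, x ^ 2 + x + μ ≠ 0) ∧ Q v = 1 ∧ Q w = μ ∧ QuadraticMap.polar Q v w = 1) := by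
  classical
  haveI : Fintype F := Fintype.ofFinite F
  have hc : ringChar F = 2 := ringChar.eq F 2
  have hpartner : ∀ v : V, v ≠ 0 → ∃ y : V, QuadraticMap.polar Q v y = 1 := by
    intro v hv
    by_contra hcon
    push Not at hcon
    apply hv
    apply hQ.1
    intro y
    by_contra hy
    change QuadraticMap.polar Q v y ≠ 0 at hy
    apply hcon ((QuadraticMap.polar Q v y)⁻¹ • y)
    rw [QuadraticMap.polar_smul_right, smul_eq_mul, inv_mul_cancel₀ hy]
  have hself : ∀ v : V, QuadraticMap.polar Q v v = 0 := by
    intro v
    simp only [QuadraticMap.polar, ← two_smul F v]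
    rw [CharTwo.two_eq_zero]
    simp only [zero_smul, QuadraticMap.map_zero, sub_zero]
    rw [zero_sub, sub_eq_add_neg, ← neg_add, CharTwo.add_self_eq_zero, neg_zero]
  have hli : ∀ v w : V, v ≠ 0 → QuadraticMap.polar Q v w = 1 → LinearIndependent F ![v, w] := by
    intro v w hv hvw
    rw [LinearIndependent.pair_iff]
    intro s t hst
    have h1 : t = 0 := by
      have := congrArg (QuadraticMap.polar Q v) hst
      rw [QuadraticMap.polar_add_right, QuadraticMap.polar_smul_right, QuadraticMap.polar_smul_right, hself, hvw] at this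
      simpa using this
    subst h1
    refine ⟨?_, rfl⟩
    simp only [zero_smul, add_zero] at hst
    exact (smul_eq_zero.mp hst).resolve_right hv
  by_cases hsing : ∃ v : V, v ≠ 0 ∧ Q v = 0
  · left
    obtain ⟨v, hv, hQv⟩ := hsing
    obtain ⟨y, hy⟩ := hpartner v hv
    refine ⟨v, y + Q y • v, ?_, hQv, ?_, ?_⟩
    · apply hli v _ hv
      rw [QuadraticMap.polar_add_right, QuadraticMap.polar_smul_right, hself, hy]
      simp
    · rw [QuadraticMap.map_add Q, QuadraticMap.map_smul, hQv, QuadraticMap.polar_smul_right, QuadraticMap.polar_comm, hy]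
      simp only [smul_eq_mul, mul_zero, add_zero, mul_one]
      exact CharTwo.add_self_eq_zero _
    · rw [QuadraticMap.polar_add_right, QuadraticMap.polar_smul_right, hself, hy]
      simp
  · right
    push Not at hsing
    have hne : ∃ u : V, u ≠ 0 := by
      have : Nontrivial V := by
        apply Module.nontrivial_of_finrank_pos (R := F)
        omega
      exact exists_ne 0
    obtain ⟨u, hu⟩ := hne
    have hQu := hsing u hu
    obtain ⟨t, ht⟩ := FiniteField.isSquare_of_char_two hc (Q u)⁻¹
    have ht0 : t ≠ 0 := by
      rintro rfl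
      simp at ht
      exact hQu ht
    have hv : t • u ≠ 0 := smul_ne_zero ht0 hu
    obtain ⟨y, hy⟩ := hpartner _ hv
    refine ⟨t • u, y, Q y, hli _ _ hv hy, ?_, ?_, rfl, hy⟩
    · intro x hx
      have hli2 := LinearIndependent.pair_iff.mp (hli _ _ hv hy)
      have hz : x • (t • u) + y ≠ 0 := by
        intro h0
        have := hli2 x 1 (by simpa using h0)
        simp at this
      apply hsing _ hz
      rw [QuadraticMap.map_add Q, QuadraticMap.map_smul, QuadraticMap.polar_smul_left, hy, QuadraticMap.map_smul, ← ht]
      simp only [smul_eq_mul]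
      rw [inv_mul_cancel₀ hQu, mul_one]
      rw [← hx]
      ring
    · rw [QuadraticMap.map_smul, ← ht]
      simp [hQu]

end Cfsg.Agent.S0763
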