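import Cfsg.Statements.S0767
import Mathlib
import Cfsg.Agent.Lib.Classical.Symplectic

set_option autoImplicit false
open Cfsg

namespace Cfsg.Agent.S0767

/-- The root group of a point: T_v(c) T_v(d) = T_v(c + d), and for A in the symplectic group with A v = a v, the conjugate A T_v(c) A⁻¹ is again some T_v(d). -/
theorem result {F : Type*} [Field F] (m : ℕ) (v : Fin m ⊕ Fin m → F) : (∀ c d : F, Cfsg.sympTransvection m v c * Cfsg.sympTransvection m v d = Cfsg.sympTransvection m v (c + d)) ∧ ∀ (A : Matrix (Fin m ⊕ Fin m) (Fin m ⊕ Fin m) F) (a : F), A ∈ Matrix.symplecticGroup (Fin m) F → A.mulVec v = a • v → ∀ c : F, ∃ d : F, A * Cfsg.sympTransvection m v c * A⁻¹ = Cfsg.sympTransvection m v d := by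
  open Cfsg.Agent.Lib.Classical in
  refine ⟨fun c d => sympTransvection_add v c d, ?_⟩
  open Cfsg.Agent.Lib.Classical in
  intro A a hA hAv c
  refine ⟨a * a * c, ?_⟩
  have hdet : IsUnit A.det := SymplecticGroup.symplectic_det hA
  have hAinv : A * A⁻¹ = 1 := Matrix.mul_nonsing_inv A hdet
  apply Matrix.toLin'.injective
  apply LinearMap.ext
  intro x
  simp only [Matrix.toLin'_apply, ← Matrix.mulVec_mulVec, sympTransvection_mulVec]
  set y := A⁻¹.mulVec x with hy
  have hAy : A.mulVec y = x := by
    rw [hy, Matrix.mulVec_mulVec, hAinv, Matrix.one_mulVec]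
  rw [Matrix.mulVec_add, hAy, Matrix.mulVec_smul, hAv]
  have hf : Cfsg.sympForm m F y v = a * Cfsg.sympForm m F x v := by
    have := mem_symplecticGroup_iff_preserves.mp hA y v
    rw [hAy, hAv, sympForm_smul_right] at this
    exact this.symm
  rw [hf]
  congr 1
  rw [smul_smul]
  congr 1
  ring

end Cfsg.Agent.S0767
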