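import Cfsg.Statements.S0769
import Mathlib

set_option autoImplicit false
open Cfsg

namespace Cfsg.Agent.S0769

/-- Lower triangular matrix from its strictly lower part and its diagonal. -/
noncomputable def lowM {F : Type*} [Field F] {n : ℕ} (a : {p : Fin n × Fin n // p.2 < p.1} → F) (d : Fin n → Fˣ) :
    Matrix (Fin n) (Fin n) F :=
  Matrix.of fun i j => if h : j < i then a ⟨(i, j), h⟩ else if i = j then (d i : F) else 0

lemma lowM_det {F : Type*} [Field F] {n : ℕ} (a : {p : Fin n × Fin n // p.2 < p.1} → F) (d : Fin n → Fˣ) :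
    (lowM a d).det = ∏ i, (d i : F) := by
  classical
  have h : (lowM a d).BlockTriangular OrderDual.toDual := by
    intro i j hij
    have hij' : i < j := hij
    simp [lowM, not_lt.mpr hij'.le, hij'.ne]
  rw [Matrix.det_of_lowerTriangular _ h]
  simp [lowM]

/-- The equivalence. -/
noncomputable def lowE (F : Type*) [Field F] (n : ℕ) :
    {g : Matrix.GeneralLinearGroup (Fin n) F // ∀ i j : Fin n, i < j → (g : Matrix (Fin n) (Fin n) F) i j = 0} ≃
      (({p : Fin n × Fin n // p.2 < p.1} → F) × (Fin n → Fˣ)) where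
  toFun g := (fun p => (g.1 : Matrix (Fin n) (Fin n) F) p.1.1 p.1.2,
    fun i => Units.mk0 ((g.1 : Matrix (Fin n) (Fin n) F) i i) (by
      intro h0
      have h : (g.1 : Matrix (Fin n) (Fin n) F).BlockTriangular OrderDual.toDual := by
        intro i j hij
        exact g.2 i j hij
      have hd := Matrix.det_of_lowerTriangular _ h
      have hu : IsUnit (g.1 : Matrix (Fin n) (Fin n) F).det := (Matrix.isUnit_iff_isUnit_det _).mp g.1.isUnit
      rw [hd] at hu
      exact hu.ne_zero (Finset.prod_eq_zero (Finset.mem_univ i) h0)))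
  invFun x := ⟨Matrix.GeneralLinearGroup.mkOfDetNeZero (lowM x.1 x.2) (by
      rw [lowM_det]; exact Finset.prod_ne_zero_iff.mpr (fun i _ => (x.2 i).ne_zero)), by
      intro i j hij
      simp [Matrix.GeneralLinearGroup.mkOfDetNeZero, lowM, not_lt.mpr hij.le, hij.ne]⟩
  left_inv g := by
    apply Subtype.ext
    apply Units.ext
    ext i j
    simp only [Matrix.GeneralLinearGroup.mkOfDetNeZero, lowM]
    rcases lt_trichotomy i j with h | h | h
    · simp [not_lt.mpr h.le, h.ne, g.2 i j h]
    · subst h; simp
    · simp [h]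
  right_inv x := by
    apply Prod.ext
    · funext p
      have := p.2
      simp [Matrix.GeneralLinearGroup.mkOfDetNeZero, lowM, this]
    · funext i
      apply Units.ext
      simp [Matrix.GeneralLinearGroup.mkOfDetNeZero, lowM]

lemma card_pairs (n : ℕ) : Nat.card {p : Fin n × Fin n // p.2 < p.1} = n * (n - 1) / 2 := by
  classical
  rw [Nat.card_eq_fintype_card, Fintype.card_subtype]
  have : (Finset.univ.filter fun p : Fin n × Fin n => p.2 < p.1) =
      (Finset.univ.sigma (fun i : Fin n => Finset.Iio i)).map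
        ⟨fun x => (x.1, x.2), by rintro ⟨a, b⟩ ⟨c, d⟩ h; simp at h; obtain ⟨rfl, rfl⟩ := h; rfl⟩ := by
    ext ⟨i, j⟩
    simp only [Finset.mem_filter, Finset.mem_univ, true_and, Finset.mem_map, Finset.mem_sigma, Finset.mem_Iio, Function.Embedding.coeFn_mk]
    constructor
    · intro h
      exact ⟨⟨i, j⟩, h, rfl⟩
    · rintro ⟨⟨a, b⟩, h, h2⟩
      obtain ⟨rfl, rfl⟩ := Prod.mk.inj h2
      exact h
  rw [this, Finset.card_map, Finset.card_sigma]
  have h2 : ∀ i : Fin n, (Finset.Iio i).card = (i : ℕ) := fun i => by simp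
  rw [Finset.sum_congr rfl (fun i _ => h2 i)]
  rw [Fin.sum_univ_eq_sum_range (fun i => i) n, Finset.sum_range_id, mul_comm]

/-- Order of the Borel subgroup of GL_n(q): the invertible lower-triangular n × n matrices over a field with q elements number q^(n(n-1)/2) (q-1)^n (unitriangular part times the diagonal torus). -/
theorem result {F : Type*} [Field F] [Fintype F] {q : ℕ} (hF : Fintype.card F = q) (n : ℕ) : Nat.card {g : Matrix.GeneralLinearGroup (Fin n) F // ∀ i j : Fin n, i < j → (g : Matrix (Fin n) (Fin n) F) i j = 0} = q ^ (n * (n - 1) / 2) * (q - 1) ^ n := by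
  classical
  rw [Nat.card_congr (lowE F n), Nat.card_prod, Nat.card_fun, Nat.card_fun, card_pairs]
  simp only [Nat.card_eq_fintype_card, Fintype.card_fin, Fintype.card_units, hF]

end Cfsg.Agent.S0769
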