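import Cfsg.Statements.S0770
import Mathlib

set_option autoImplicit false
open Cfsg

namespace Cfsg.Agent.S0770

open Matrix in
private lemma row_ne {F : Type*} [Field F] {n : ℕ} (g : GL (Fin n) F) (i : Fin n) : ∃ j, (g : Matrix (Fin n) (Fin n) F) i j ≠ 0 := by
  by_contra h
  push Not at h
  have h1 : ((g : Matrix (Fin n) (Fin n) F) * ((g⁻¹ : GL (Fin n) F) : Matrix (Fin n) (Fin n) F)) i i = 1 := by
    rw [← Matrix.GeneralLinearGroup.coe_mul, mul_inv_cancel]
    simp
  rw [Matrix.mul_apply] at h1
  simp [h] at h1

private noncomputable def unitDiag {F : Type*} [Field F] {n : ℕ} (d : (Fin n → F)ˣ) (σ : Fin n → Fin n) : (Fin n → F)ˣ :=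
  ⟨fun i => (d : Fin n → F) (σ i), fun i => ((d⁻¹ : (Fin n → F)ˣ) : Fin n → F) (σ i),
    by
      funext i
      have := congrFun d.mul_inv (σ i)
      simpa using this,
    by
      funext i
      have := congrFun d.inv_mul (σ i)
      simpa using this⟩

private lemma conj_diag {F : Type*} [Field F] {n : ℕ} (g : GL (Fin n) F) (σ : Fin n → Fin n)
    (hσ : ∀ i j, (g : Matrix (Fin n) (Fin n) F) i j ≠ 0 → j = σ i) (d : (Fin n → F)ˣ) :
    g * Units.map (Matrix.diagonalRingHom (Fin n) F).toMonoidHom d * g⁻¹ =
      Units.map (Matrix.diagonalRingHom (Fin n) F).toMonoidHom (unitDiag d σ) := by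
  rw [mul_inv_eq_iff_eq_mul]
  apply Units.ext
  ext i j
  simp only [Matrix.GeneralLinearGroup.coe_mul, Units.coe_map, RingHom.toMonoidHom_eq_coe, MonoidHom.coe_coe,
    Matrix.diagonalRingHom_apply, Matrix.mul_diagonal, Matrix.diagonal_mul]
  by_cases h : (g : Matrix (Fin n) (Fin n) F) i j = 0
  · simp [h]
  · rw [hσ i j h]
    simp [unitDiag]
    exact mul_comm _ _

/-- For a field with at least 3 elements, an invertible matrix normalises the subgroup of invertible diagonal matrices of GL_n if and only if it is monomial (exactly one non-zero entry in each row). -/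
theorem result {F : Type*} [Field F] (hF : ∃ a : F, a ≠ 0 ∧ a ≠ 1) (n : ℕ) (g : Matrix.GeneralLinearGroup (Fin n) F) : g ∈ Subgroup.normalizer ((Units.map (Matrix.diagonalRingHom (Fin n) F).toMonoidHom).range : Subgroup (Matrix.GeneralLinearGroup (Fin n) F)) ↔ ∀ i : Fin n, ∃! j : Fin n, (g : Matrix (Fin n) (Fin n) F) i j ≠ 0 := by
  classical
  rw [Subgroup.mem_normalizer_iff]
  constructor
  · intro hg i
    obtain ⟨a, ha0, ha1⟩ := hF
    obtain ⟨j, hj⟩ := row_ne g i
    refine ⟨j, hj, ?_⟩
    intro l hl
    by_contra hne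
    -- the diagonal element with `a` at `j`, 1 elsewhere
    let d : (Fin n → F)ˣ := ⟨Function.update (fun _ => 1) j a, Function.update (fun _ => 1) j a⁻¹, by
      funext x
      by_cases hx : x = j
      · subst hx; simp [ha0]
      · simp [Function.update_of_ne hx], by
      funext x
      by_cases hx : x = j
      · subst hx; simp [ha0]
      · simp [Function.update_of_ne hx]⟩
    have h1 : g * Units.map (Matrix.diagonalRingHom (Fin n) F).toMonoidHom d * g⁻¹ ∈
        (Units.map (Matrix.diagonalRingHom (Fin n) F).toMonoidHom).range := (hg _).mp ⟨d, rfl⟩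
    obtain ⟨d', hd'⟩ := h1
    rw [eq_comm, mul_inv_eq_iff_eq_mul] at hd'
    have h2 := congrArg (fun y => ((y : GL (Fin n) F) : Matrix (Fin n) (Fin n) F)) hd'
    have h3 : ∀ x, (g : Matrix (Fin n) (Fin n) F) i x * (d : Fin n → F) x = (d' : Fin n → F) i * (g : Matrix (Fin n) (Fin n) F) i x := by
      intro x
      have := congrFun (congrFun h2 i) x
      simpa using this
    have h4 := h3 j
    have h5 := h3 l
    have hdj : (d : Fin n → F) j = a := by simp [d]
    have hdl : (d : Fin n → F) l = 1 := by simp [d, Function.update_of_ne hne]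
    rw [hdj] at h4
    rw [hdl] at h5
    have h6 : (d' : Fin n → F) i = a := by
      apply mul_right_cancel₀ hj
      rw [← h4, mul_comm]
    have h7 : (d' : Fin n → F) i = 1 := by
      apply mul_right_cancel₀ hl
      rw [← h5, mul_comm]
    exact ha1 (h6 ▸ h7)
  · intro hg h
    choose σ hσ hσ' using hg
    have hinj : Function.Injective σ := by
      intro i i' heq
      by_contra hne
      have h1 : ((g : Matrix (Fin n) (Fin n) F) * ((g⁻¹ : GL (Fin n) F) : Matrix (Fin n) (Fin n) F)) i' i' = 1 := by
        rw [← Matrix.GeneralLinearGroup.coe_mul, mul_inv_cancel]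
        simp
      have h2 : ((g : Matrix (Fin n) (Fin n) F) * ((g⁻¹ : GL (Fin n) F) : Matrix (Fin n) (Fin n) F)) i i' = 0 := by
        rw [← Matrix.GeneralLinearGroup.coe_mul, mul_inv_cancel]
        simp [hne]
      rw [Matrix.mul_apply, Finset.sum_eq_single (σ i')] at h1 h2
      · rw [← heq] at h1 h2
        have : ((g⁻¹ : GL (Fin n) F) : Matrix (Fin n) (Fin n) F) (σ i) i' = 0 := by
          have := mul_eq_zero.mp h2
          rcases this with h | h
          · exact absurd h (hσ i)
          · exact h
        rw [this] at h1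
        simp at h1
      · intro b _ hb
        have : (g : Matrix (Fin n) (Fin n) F) i b = 0 := by
          by_contra h3
          apply hb
          rw [← heq]
          exact hσ' i b h3
        rw [this, zero_mul]
      · simp
      · intro b _ hb
        have : (g : Matrix (Fin n) (Fin n) F) i' b = 0 := by
          by_contra h3
          exact hb (hσ' i' b h3)
        rw [this, zero_mul]
      · simp
    have hh : ∀ i j, (g : Matrix (Fin n) (Fin n) F) i j ≠ 0 → j = σ i := fun i j h => hσ' i j h
    have hbij : Function.Bijective σ := Finite.injective_iff_bijective.mp hinj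
    constructor
    · rintro ⟨d, rfl⟩
      exact ⟨unitDiag d σ, (conj_diag g σ hh d).symm⟩
    · rintro ⟨d, hd⟩
      let τ := Equiv.ofBijective σ hbij
      refine ⟨unitDiag d τ.symm, ?_⟩
      have h1 := conj_diag g σ hh (unitDiag d τ.symm)
      have h2 : unitDiag (unitDiag d τ.symm) σ = d := by
        apply Units.ext
        funext x
        have : τ.symm (σ x) = x := τ.symm_apply_apply x
        simp [unitDiag, this]
      rw [h2, hd] at h1
      exact mul_left_cancel (mul_right_cancel h1)

end Cfsg.Agent.S0770
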