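import Cfsg.Statements.S0771
import Mathlib

set_option autoImplicit false
open Cfsg

namespace Cfsg.Agent.S0771

open Matrix in
/-- the reindexing -/
private noncomputable def eqv (n k : ℕ) (hk : k ≤ n) : Fin k ⊕ Fin (n - k) ≃ Fin n :=
  finSumFinEquiv.trans (finCongr (by omega))

private lemma eqv_inl (n k : ℕ) (hk : k ≤ n) (i : Fin k) : ((eqv n k hk (Sum.inl i) : Fin n) : ℕ) = i := by
  simp [eqv]

private lemma eqv_inr (n k : ℕ) (hk : k ≤ n) (i : Fin (n - k)) : ((eqv n k hk (Sum.inr i) : Fin n) : ℕ) = k + i := by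
  simp [eqv]

open Matrix in
private lemma block_zero {F : Type*} [Field F] (n k : ℕ) (hk : k ≤ n) (g : GL (Fin n) F)
    (hg : g ∈ Cfsg.stabilizing (Cfsg.glToMat (Fin n) F) {v : Fin n → F | ∀ i : Fin n, k ≤ (i : ℕ) → v i = 0}) :
    ((g : Matrix (Fin n) (Fin n) F).submatrix (eqv n k hk) (eqv n k hk)).toBlocks₂₁ = 0 := by
  ext i j
  have h := (hg (Pi.single (eqv n k hk (Sum.inl j)) 1)).mp ?_ (eqv n k hk (Sum.inr i)) (by rw [eqv_inr]; omega)
  · simpa [Cfsg.glToMat, Matrix.toBlocks₂₁] using h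
  · intro i' hi'
    rw [Pi.single_apply, if_neg]
    rintro rfl
    rw [eqv_inl] at hi'
    have := j.2
    omega

open Matrix in
private noncomputable def mkG {F : Type*} [Field F] (n k : ℕ) (hk : k ≤ n)
    (x : GL (Fin k) F × GL (Fin (n - k)) F × Matrix (Fin k) (Fin (n - k)) F) : GL (Fin n) F :=
  Matrix.GeneralLinearGroup.mkOfDetNeZero
    ((Matrix.fromBlocks (x.1 : Matrix (Fin k) (Fin k) F) x.2.2 0 (x.2.1 : Matrix (Fin (n - k)) (Fin (n - k)) F)).submatrix (eqv n k hk).symm (eqv n k hk).symm) (by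
      rw [Matrix.det_submatrix_equiv_self, Matrix.det_fromBlocks_zero₂₁]
      exact mul_ne_zero (by
        have := (Matrix.isUnit_iff_isUnit_det _).mp x.1.isUnit
        exact this.ne_zero) (by
        have := (Matrix.isUnit_iff_isUnit_det _).mp x.2.1.isUnit
        exact this.ne_zero))

open Matrix in
private lemma mkG_coe {F : Type*} [Field F] (n k : ℕ) (hk : k ≤ n)
    (x : GL (Fin k) F × GL (Fin (n - k)) F × Matrix (Fin k) (Fin (n - k)) F) :
    ((mkG n k hk x : GL (Fin n) F) : Matrix (Fin n) (Fin n) F) =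
    (Matrix.fromBlocks (x.1 : Matrix (Fin k) (Fin k) F) x.2.2 0 (x.2.1 : Matrix (Fin (n - k)) (Fin (n - k)) F)).submatrix (eqv n k hk).symm (eqv n k hk).symm := rfl

open Matrix in
private lemma mkG_mem {F : Type*} [Field F] (n k : ℕ) (hk : k ≤ n)
    (x : GL (Fin k) F × GL (Fin (n - k)) F × Matrix (Fin k) (Fin (n - k)) F) :
    mkG n k hk x ∈ Cfsg.stabilizing (Cfsg.glToMat (Fin n) F) {v : Fin n → F | ∀ i : Fin n, k ≤ (i : ℕ) → v i = 0} := by
  intro v
  have hform : ∀ w : Fin n → F, (∀ i : Fin n, k ≤ (i : ℕ) → w i = 0) ↔ (fun j => w (eqv n k hk (Sum.inr j))) = 0 := by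
    intro w
    constructor
    · intro h
      funext j
      exact h _ (by rw [eqv_inr]; omega)
    · intro h i hi
      obtain ⟨y, rfl⟩ := (eqv n k hk).surjective i
      rcases y with y | y
      · rw [eqv_inl] at hi
        have := y.2
        omega
      · exact congrFun h y
  simp only [Set.mem_setOf_eq]
  rw [hform, hform]
  have hcomp : (fun j => ((Cfsg.glToMat (Fin n) F) (mkG n k hk x) *ᵥ v) (eqv n k hk (Sum.inr j))) =
      (x.2.1 : Matrix (Fin (n - k)) (Fin (n - k)) F) *ᵥ (fun j => v (eqv n k hk (Sum.inr j))) := by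
    funext j
    have h1 : (Cfsg.glToMat (Fin n) F) (mkG n k hk x) = ((mkG n k hk x : GL (Fin n) F) : Matrix (Fin n) (Fin n) F) := rfl
    rw [h1, mkG_coe]
    simp only [Matrix.mulVec, dotProduct, Matrix.submatrix_apply, Equiv.symm_apply_apply]
    rw [← Equiv.sum_comp (eqv n k hk), Fintype.sum_sum_type]
    simp
  rw [hcomp]
  constructor
  · intro h
    rw [h, Matrix.mulVec_zero]
  · intro h
    have h2 := congrArg (fun w => ((x.2.1⁻¹ : GL (Fin (n - k)) F) : Matrix (Fin (n - k)) (Fin (n - k)) F) *ᵥ w) h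
    simp only [Matrix.mulVec_mulVec, Matrix.mulVec_zero] at h2
    rw [← Matrix.GeneralLinearGroup.coe_mul, inv_mul_cancel, Matrix.GeneralLinearGroup.coe_one, Matrix.one_mulVec] at h2
    exact h2

/-- Maximal parabolic of GL_n(q): the stabiliser of the coordinate subspace spanned by the first k basis vectors has order q^(k(n-k)) · |GL_k(q)| · |GL_(n-k)(q)| (unipotent radical of order q^(k(n-k)) and Levi complement GL_k × GL_(n-k)). -/
theorem result {F : Type*} [Field F] [Fintype F] {q : ℕ} (hF : Fintype.card F = q) (n k : ℕ) (hk : k ≤ n) : Nat.card ↥(Cfsg.stabilizing (Cfsg.glToMat (Fin n) F) {v : Fin n → F | ∀ i : Fin n, k ≤ (i : ℕ) → v i = 0}) = q ^ (k * (n - k)) * (∏ i : Fin k, (q ^ k - q ^ (i : ℕ))) * ∏ i : Fin (n - k), (q ^ (n - k) - q ^ (i : ℕ)) := by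
  classical
  subst hF
  have hbij : Function.Bijective (fun x : GL (Fin k) F × GL (Fin (n - k)) F × Matrix (Fin k) (Fin (n - k)) F =>
      (⟨mkG n k hk x, mkG_mem n k hk x⟩ : ↥(Cfsg.stabilizing (Cfsg.glToMat (Fin n) F) {v : Fin n → F | ∀ i : Fin n, k ≤ (i : ℕ) → v i = 0}))) := by
    constructor
    · rintro ⟨A, D, B⟩ ⟨A', D', B'⟩ h
      have h1 : (mkG n k hk (A, D, B) : Matrix (Fin n) (Fin n) F) = (mkG n k hk (A', D', B') : Matrix (Fin n) (Fin n) F) := by
        have := congrArg (fun y => ((y : GL (Fin n) F) : Matrix (Fin n) (Fin n) F)) (congrArg Subtype.val h)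
        exact this
      rw [mkG_coe, mkG_coe] at h1
      have h2 := congrArg (fun M => Matrix.submatrix M (eqv n k hk) (eqv n k hk)) h1
      simp only [Matrix.submatrix_submatrix, Equiv.symm_comp_self, Matrix.submatrix_id_id] at h2
      obtain ⟨h3, h4, h5, h6⟩ := Matrix.fromBlocks_inj.mp h2
      have hA : A = A' := Units.ext h3
      have hD : D = D' := Units.ext h6
      rw [hA, hD, h4]
    · rintro ⟨g, hg⟩
      set e := eqv n k hk with he
      set M := (g : Matrix (Fin n) (Fin n) F).submatrix e e with hM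
      set N := ((g⁻¹ : GL (Fin n) F) : Matrix (Fin n) (Fin n) F).submatrix e e with hN
      have hMN : M * N = 1 := by
        rw [hM, hN, Matrix.submatrix_mul_equiv, ← Matrix.GeneralLinearGroup.coe_mul, mul_inv_cancel]
        simp
      have hNM : N * M = 1 := by
        rw [hM, hN, Matrix.submatrix_mul_equiv, ← Matrix.GeneralLinearGroup.coe_mul, inv_mul_cancel]
        simp
      have hM0 : M.toBlocks₂₁ = 0 := block_zero n k hk g hg
      have hN0 : N.toBlocks₂₁ = 0 := block_zero n k hk g⁻¹ (Subgroup.inv_mem _ hg)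
      have hM' : M = Matrix.fromBlocks M.toBlocks₁₁ M.toBlocks₁₂ 0 M.toBlocks₂₂ := by
        rw [← hM0, Matrix.fromBlocks_toBlocks]
      have hN' : N = Matrix.fromBlocks N.toBlocks₁₁ N.toBlocks₁₂ 0 N.toBlocks₂₂ := by
        rw [← hN0, Matrix.fromBlocks_toBlocks]
      have h1 := hMN
      have h2 := hNM
      rw [hM', hN', Matrix.fromBlocks_multiply, ← Matrix.fromBlocks_one, ] at h1 h2
      obtain ⟨a1, a2, a3, a4⟩ := Matrix.fromBlocks_inj.mp h1
      obtain ⟨b1, b2, b3, b4⟩ := Matrix.fromBlocks_inj.mp h2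
      simp only [Matrix.mul_zero, add_zero, Matrix.zero_mul, zero_add] at a1 a4 b1 b4
      refine ⟨(⟨M.toBlocks₁₁, N.toBlocks₁₁, a1, b1⟩, ⟨M.toBlocks₂₂, N.toBlocks₂₂, a4, b4⟩, M.toBlocks₁₂), ?_⟩
      apply Subtype.ext
      apply Units.ext
      change ((mkG n k hk _ : GL (Fin n) F) : Matrix (Fin n) (Fin n) F) = _
      rw [mkG_coe]
      change (Matrix.fromBlocks M.toBlocks₁₁ M.toBlocks₁₂ 0 M.toBlocks₂₂).submatrix e.symm e.symm = _
      rw [← hM', hM, Matrix.submatrix_submatrix]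
      simp
  rw [Nat.card_congr (Equiv.ofBijective _ hbij).symm]
  rw [Nat.card_prod, Nat.card_prod, Matrix.card_GL_field, Matrix.card_GL_field]
  have h : Nat.card (Matrix (Fin k) (Fin (n - k)) F) = Fintype.card F ^ (k * (n - k)) := by
    rw [Nat.card_eq_fintype_card]
    change Fintype.card (Fin k → Fin (n - k) → F) = _
    simp [Fintype.card_fun, ← pow_mul, mul_comm]
  rw [h]
  ring

end Cfsg.Agent.S0771
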