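import Cfsg.Statements.S0774
import Mathlib
import Cfsg.Agent.S0245
import Cfsg.Agent.Lib.Classical.FramesSp

set_option autoImplicit false
open Cfsg

namespace Cfsg.Agent.S0774

open Cfsg.Agent.Lib.Classical Cfsg.Agent.Lib.Classical.Frames Cfsg.Agent.Lib.Classical.Abs Module

variable {F : Type*} [Field F]

/-- The flag subspaces. -/
def DD (m : ℕ) (F : Type*) [Field F] (j : ℕ) : Submodule F (Fin m ⊕ Fin m → F) where
  carrier := {v | (∀ i : Fin m, j < (i : ℕ) → v (Sum.inl i) = 0) ∧ ∀ i : Fin m, v (Sum.inr i) = 0}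
  add_mem' {a b} ha hb := ⟨fun i hi => by simp [ha.1 i hi, hb.1 i hi], fun i => by simp [ha.2 i, hb.2 i]⟩
  zero_mem' := ⟨fun _ _ => rfl, fun _ => rfl⟩
  smul_mem' c a ha := ⟨fun i hi => by simp [ha.1 i hi], fun i => by simp [ha.2 i]⟩

lemma mem_DD {m j : ℕ} {v : Fin m ⊕ Fin m → F} :
    v ∈ DD m F j ↔ (∀ i : Fin m, j < (i : ℕ) → v (Sum.inl i) = 0) ∧ ∀ i : Fin m, v (Sum.inr i) = 0 := Iff.rfl

lemma finrank_DD {m j : ℕ} (hj : j < m) : finrank F (DD m F j) = j + 1 := by
  classical
  let e : DD m F j ≃ₗ[F] (Fin (j + 1) → F) :=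
    { toFun := fun v i => v.1 (Sum.inl ⟨i, by omega⟩)
      map_add' := fun _ _ => rfl
      map_smul' := fun _ _ => rfl
      invFun := fun a => ⟨Sum.elim (fun i => if h : (i : ℕ) < j + 1 then a ⟨i, h⟩ else 0) 0, by
        constructor
        · intro i hi
          have : ¬ ((i : ℕ) < j + 1) := by omega
          simp only [Sum.elim_inl]
          exact dif_neg this
        · intro i
          rfl⟩
      left_inv := by
        intro v
        apply Subtype.ext
        funext x
        rcases x with i | i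
        · by_cases h : (i : ℕ) < j + 1
          · simp only [Sum.elim_inl]
            rw [dif_pos h]
          · simp only [Sum.elim_inl]
            rw [dif_neg h]
            exact (v.2.1 i (by omega)).symm
        · exact (v.2.2 i).symm
      right_inv := by
        intro a
        funext i
        change (if h : (i : ℕ) < j + 1 then a ⟨i, h⟩ else 0) = a i
        rw [dif_pos i.2] }
  rw [e.finrank_eq]
  simp

lemma arith2 (q m : ℕ) (hq : 2 ≤ q) : (∏ j ∈ Finset.range m, (q ^ (j + 1) - q ^ j)) * q ^ (m * (m + 1) / 2) = q ^ (m ^ 2) * (q - 1) ^ m := by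
  induction m with
  | zero => simp
  | succ m ih =>
    rw [Finset.prod_range_succ, tri_succ]
    have e1 : q ^ (m + 1) - q ^ m = q ^ m * (q - 1) := by
      rw [Nat.mul_sub, mul_one, pow_succ]
    rw [e1]
    calc _ = ((∏ j ∈ Finset.range m, (q ^ (j + 1) - q ^ j)) * q ^ (m * (m + 1) / 2)) * (q ^ m * q ^ (m + 1) * (q - 1)) := by
          rw [pow_add _ _ (m + 1)]
          ring
      _ = _ := by
        rw [ih]
        have : (m + 1) ^ 2 = m ^ 2 + (m + (m + 1)) := by ring
        rw [this]
        ring

/-- Borel subgroup of the symplectic group: the elements of Sp_2m(q) stabilising each of the totally isotropic coordinate subspaces ⟨e_0, ..., e_k⟩ (k < m) form a subgroup of order q^(m²) (q − 1)^m. -/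
theorem result {F : Type*} [Field F] [Fintype F] {q : ℕ} (hF : Fintype.card F = q) (m : ℕ) : Nat.card ↥(⨅ k : Fin m, Cfsg.stabilizing (Cfsg.spToMat m F) {v : Fin m ⊕ Fin m → F | (∀ i : Fin m, (k : ℕ) < (i : ℕ) → v (Sum.inl i) = 0) ∧ ∀ i : Fin m, v (Sum.inr i) = 0}) = q ^ (m ^ 2) * (q - 1) ^ m := by
  classical
  subst hF
  set q := Fintype.card F with hq
  have hq2 : 2 ≤ q := Fintype.one_lt_card
  let s₀ : Fin m → Fin m ⊕ Fin m → F := fun i => Pi.single (Sum.inl i) 1
  have hs₀ : LinearIndependent F s₀ := by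
    have h1 := (Pi.basisFun F (Fin m ⊕ Fin m)).linearIndependent.comp (Sum.inl : Fin m → Fin m ⊕ Fin m) Sum.inl_injective
    convert h1 using 1
    funext i
    simp [s₀, Function.comp]
  have hs₀D : ∀ i : Fin m, s₀ i ∈ DD m F i := by
    intro i
    constructor
    · intro j hj
      have : Sum.inl i ≠ (Sum.inl j : Fin m ⊕ Fin m) := by
        intro h
        have := Sum.inl.inj h
        subst this
        omega
      simp [s₀, Pi.single_apply, this.symm]
    · intro j
      simp [s₀]
  have hsum : ∀ {j : ℕ} {w : Fin m ⊕ Fin m → F}, w ∈ DD m F j → w = ∑ i, w (Sum.inl i) • s₀ i := by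
    intro j w hw
    funext x
    rcases x with x | x
    · simp [s₀, Finset.sum_apply, Pi.single_apply]
    · simp [s₀, Finset.sum_apply, Pi.single_apply, hw.2 x]
  have hmono : ∀ i j, i ≤ j → DD m F i ≤ DD m F j := by
    intro i j hij v hv
    exact ⟨fun a ha => hv.1 a (by omega), hv.2⟩
  have key := stab_count (Cfsg.sympForm m F) (spE m F) (DD m F) s₀ hs₀ hs₀D (fun i j hij _ => hmono i j hij)
    (fun j _ u hu v hv => by
      rw [sympForm_apply]
      simp [hu.2, hv.2]) (⨅ k : Fin m, Cfsg.stabilizing (Cfsg.spToMat m F) {v : Fin m ⊕ Fin m → F | (∀ i : Fin m, (k : ℕ) < (i : ℕ) → v (Sum.inl i) = 0) ∧ ∀ i : Fin m, v (Sum.inr i) = 0}) (by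
      intro A
      rw [Subgroup.mem_iInf]
      constructor
      · intro hA i
        rw [spE_apply]
        exact (hA i _).mp (hs₀D i)
      · intro hA k v
        have h1 : ∀ w ∈ DD m F k, (spE m F A).1 w ∈ DD m F k := by
          intro w hw
          rw [hsum hw, map_sum]
          apply Submodule.sum_mem
          intro i _
          rw [map_smul]
          by_cases hik : (i : ℕ) ≤ k
          · exact Submodule.smul_mem _ _ (hmono i k hik (hA i))
          · rw [hw.1 i (by omega), zero_smul]
            exact Submodule.zero_mem _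
        have h2 := iff_of_map_le (DD m F k) (spE m F A).1 h1 v
        rw [spE_apply] at h2
        exact h2) (symp_RR m) (symp_h0l m) (symp_h0r m) (symp_core m)
    (fun j => q ^ (2 * m - j) - q ^ j) (fun j _ s => card_Ext_symp m s)
  have e1 : ∏ j ∈ Finset.range m, (Fintype.card F ^ finrank F (DD m F j) - Fintype.card F ^ j) =
      ∏ j ∈ Finset.range m, (q ^ (j + 1) - q ^ j) := by
    apply Finset.prod_congr rfl
    intro j hj
    rw [finrank_DD (Finset.mem_range.mp hj)]
  rw [e1, Cfsg.Agent.S0245.result hq.symm m] at key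
  have h1 := arith q hq2 m 0
  simp only [add_zero] at h1
  change _ = _ * PP q m at key
  rw [← h1] at key
  have hpos : 0 < ∏ j ∈ Finset.range m, (q ^ (2 * m - j) - q ^ j) := by
    apply Finset.prod_pos
    intro j hj
    have hj' := Finset.mem_range.mp hj
    have : q ^ j < q ^ (2 * m - j) := Nat.pow_lt_pow_right (by omega) (by omega)
    omega
  rw [← arith2 q m hq2]
  apply Nat.eq_of_mul_eq_mul_right hpos
  rw [key]
  simp [PP]
  ring

end Cfsg.Agent.S0774
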