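import Cfsg.Statements.S0775
import Mathlib
import Cfsg.Agent.S0245
import Cfsg.Agent.Lib.Classical.FramesSp

set_option autoImplicit false
open Cfsg

namespace Cfsg.Agent.S0775

open Cfsg.Agent.Lib.Classical Cfsg.Agent.Lib.Classical.Frames Cfsg.Agent.Lib.Classical.Abs Module

/-- Maximal parabolics of the symplectic group: if W is a k-dimensional subspace of F^(2m) on which the symplectic form vanishes identically, its stabiliser in Sp_2m(q) has order q^(k(k+1)/2 + 2k(m−k)) · |Sp_(2m−2k)(q)| · |GL_k(q)|. -/
theorem result {F : Type*} [Field F] [Fintype F] {q : ℕ} (hF : Fintype.card F = q) (m k : ℕ) (hk : k ≤ m) (W : Submodule F (Fin m ⊕ Fin m → F)) (hWk : Module.finrank F W = k) (hW : ∀ u ∈ W, ∀ v ∈ W, Cfsg.sympForm m F u v = 0) : Nat.card ↥(Cfsg.stabilizing (Cfsg.spToMat m F) (W : Set (Fin m ⊕ Fin m → F))) = q ^ (k * (k + 1) / 2 + 2 * k * (m - k)) * (q ^ ((m - k) ^ 2) * ∏ i ∈ Finset.range (m - k), (q ^ (2 * (i + 1)) - 1)) * ∏ i : Fin k, (q ^ k - q ^ (i : ℕ)) := by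
  classical
  subst hF
  set q := Fintype.card F with hq
  have hq2 : 2 ≤ q := Fintype.one_lt_card
  have hV : Finite (Fin m ⊕ Fin m → F) := inferInstance
  let b := Module.finBasisOfFinrankEq F W hWk
  let s₀ : Fin k → Fin m ⊕ Fin m → F := fun i => (b i : Fin m ⊕ Fin m → F)
  have hs₀ : LinearIndependent F s₀ := by
    have h1 := b.linearIndependent
    exact h1.map' W.subtype (Submodule.ker_subtype W)
  have hs₀W : ∀ i, s₀ i ∈ W := fun i => (b i).2
  have hspan : ∀ v ∈ W, v ∈ Submodule.span F (Set.range s₀) := by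
    intro v hv
    have h1 : (⟨v, hv⟩ : W) ∈ Submodule.span F (Set.range b) := by
      rw [b.span_eq]; trivial
    have h2 := Submodule.mem_map_of_mem (f := W.subtype) h1
    rw [Submodule.map_span] at h2
    have h3 : W.subtype '' Set.range b = Set.range s₀ := by
      ext x
      simp [s₀]
    rwa [h3] at h2
  have key := stab_count (Cfsg.sympForm m F) (spE m F) (fun _ => W) s₀ hs₀ hs₀W (fun _ _ _ _ => le_rfl)
    (fun _ _ => hW) (Cfsg.stabilizing (Cfsg.spToMat m F) (W : Set (Fin m ⊕ Fin m → F))) (by
      intro A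
      constructor
      · intro hA i
        rw [spE_apply]
        exact (hA _).mp (hs₀W i)
      · intro hA v
        have h1 : ∀ w ∈ W, (spE m F A).1 w ∈ W := by
          intro w hw
          have h2 := hspan w hw
          clear hw
          induction h2 using Submodule.span_induction with
          | mem x hx =>
            obtain ⟨i, rfl⟩ := hx
            exact hA i
          | zero => rw [map_zero]; exact W.zero_mem
          | add x y _ _ hx hy =>
            rw [map_add]
            exact W.add_mem hx hy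
          | smul c x _ hx =>
            rw [map_smul]
            exact W.smul_mem _ hx
        have h2 := iff_of_map_le W (spE m F A).1 h1 v
        rw [spE_apply] at h2
        exact h2) (symp_RR m) (symp_h0l m) (symp_h0r m) (symp_core m)
    (fun j => q ^ (2 * m - j) - q ^ j) (fun j _ s => card_Ext_symp m s)
  have hWfr : finrank F W = k := hWk
  simp only [hWfr] at key
  rw [Cfsg.Agent.S0245.result hq.symm m] at key
  obtain ⟨r, rfl⟩ : ∃ r, m = k + r := ⟨m - k, by omega⟩
  have e0 : k + r - k = r := by omega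
  rw [e0]
  have h1 := arith q hq2 k r
  change _ = _ * PP q (k + r) at key
  rw [← h1] at key
  have e1 : ∏ i : Fin k, (q ^ k - q ^ (i : ℕ)) = ∏ j ∈ Finset.range k, (q ^ k - q ^ j) :=
    Fin.prod_univ_eq_prod_range (fun i => q ^ k - q ^ i) k
  rw [e1]
  change _ = q ^ (k * (k + 1) / 2 + 2 * k * r) * PP q r * _
  have hpos : 0 < ∏ j ∈ Finset.range k, (q ^ (2 * (k + r) - j) - q ^ j) := by
    apply Finset.prod_pos
    intro j hj
    have hj' := Finset.mem_range.mp hj
    have : q ^ j < q ^ (2 * (k + r) - j) := Nat.pow_lt_pow_right (by omega) (by omega)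
    omega
  apply Nat.eq_of_mul_eq_mul_right hpos
  rw [key]
  ring

end Cfsg.Agent.S0775
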