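import Cfsg.Statements.S0776
import Mathlib
import Cfsg.Agent.Lib.Classical.StabDecomp
import Cfsg.Agent.Lib.Classical.SympStd
import Cfsg.Agent.Lib.Classical.OrderQuad
import Cfsg.Agent.Lib.Classical.IsoBridge

set_option autoImplicit false
open Cfsg

namespace Cfsg.Agent.S0776

open Cfsg.Agent.Lib.Classical Cfsg.Agent.Lib.Classical.Abs in
/-- Sp as the abstract isometry group. -/
private noncomputable def spE (m : ℕ) (F : Type*) [Field F] :
    Matrix.symplecticGroup (Fin m) F ≃* isoG (Cfsg.sympForm m F) :=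
  (spEquivGL m F).trans (glIsoEquiv (Cfsg.sympForm m F))

open Cfsg.Agent.Lib.Classical Cfsg.Agent.Lib.Classical.Abs in
private lemma spE_apply (m : ℕ) (F : Type*) [Field F] (A : Matrix.symplecticGroup (Fin m) F) (v : Fin m ⊕ Fin m → F) :
    (spE m F A).1 v = Matrix.mulVec (A.1) v := by
  exact glIsoEquiv_apply (Cfsg.sympForm m F) (spEquivGL m F A) v

/-- If W ≤ F^(2m) is a 2k-dimensional subspace on which the symplectic form is non-degenerate, then the stabiliser of W in Sp_2m(F) is isomorphic to Sp_2k(F) × Sp_(2m−2k)(F). -/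
theorem result {F : Type*} [Field F] (m k : ℕ) (hk : k ≤ m) (W : Submodule F (Fin m ⊕ Fin m → F)) (hWk : Module.finrank F W = 2 * k) (hW : ∀ u ∈ W, (∀ v ∈ W, Cfsg.sympForm m F u v = 0) → u = 0) : Nonempty (↥(Cfsg.stabilizing (Cfsg.spToMat m F) (W : Set (Fin m ⊕ Fin m → F))) ≃* Matrix.symplecticGroup (Fin k) F × Matrix.symplecticGroup (Fin (m - k)) F) := by
  classical
  open Cfsg.Agent.Lib.Classical Cfsg.Agent.Lib.Classical.Abs in
  have hrefl : (sympBilin m F).IsRefl := (sympBilin_isAlt (m := m) (R := F)).isRefl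
  have hanti : ∀ u v, Cfsg.sympForm m F v u = - Cfsg.sympForm m F u v := fun u v => sympForm_flip u v
  have hnd : ((sympBilin m F).restrict W).Nondegenerate := by
    have hL : ((sympBilin m F).restrict W).SeparatingLeft := by
      intro a ha
      apply Subtype.ext
      exact hW a a.2 (fun v hv => ha ⟨v, hv⟩)
    refine ⟨hL, ?_⟩
    intro a ha
    apply hL
    intro b
    have h1 := ha b
    change Cfsg.sympForm m F b a = 0 at h1
    change Cfsg.sympForm m F a b = 0
    rw [hanti b a, h1, neg_zero]
  have hc : IsCompl W ((sympBilin m F).orthogonal W) :=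
    LinearMap.BilinForm.isCompl_orthogonal_of_restrict_nondegenerate hrefl hnd
  set W' := (sympBilin m F).orthogonal W with hW'
  have hperp : ∀ v, v ∈ W' ↔ ∀ w ∈ W, Cfsg.sympForm m F v w = 0 := by
    intro v
    rw [hW', LinearMap.BilinForm.mem_orthogonal_iff]
    constructor
    · intro h w hw
      have h1 : Cfsg.sympForm m F w v = 0 := h w hw
      rw [hanti w v, h1, neg_zero]
    · intro h w hw
      change Cfsg.sympForm m F w v = 0
      rw [hanti v w, h w hw, neg_zero]
  have hD : ∀ w ∈ W, ∀ w' ∈ W', ∀ u ∈ W, ∀ u' ∈ W', Cfsg.sympForm m F (w + w') (u + u') =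
      Cfsg.sympForm m F w u + Cfsg.sympForm m F w' u' := by
    intro w hw w' hw' u hu u' hu'
    rw [sympForm_add_left, sympForm_add_right, sympForm_add_right, (hperp w').mp hw' u hu, hanti u' w,
      (hperp u').mp hu' w hw]
    ring
  have hdim : Module.finrank F W + Module.finrank F W' = 2 * m := by
    rw [Submodule.finrank_add_eq_of_isCompl hc]
    simp
    omega
  have hnd' : ((sympBilin m F).restrict W').Nondegenerate := by
    have hL : ((sympBilin m F).restrict W').SeparatingLeft := by
      intro a ha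
      apply Subtype.ext
      apply sympForm_eq_zero_iff
      intro u
      rw [hanti (a : Fin m ⊕ Fin m → F) u]
      rw [neg_eq_zero]
      obtain ⟨w, hw, w', hw', rfl⟩ := Submodule.mem_sup.mp (show u ∈ W ⊔ W' by rw [hc.sup_eq_top]; trivial)
      rw [sympForm_add_right, (hperp _).mp a.2 w hw, zero_add]
      exact ha ⟨w', hw'⟩
    refine ⟨hL, ?_⟩
    intro a ha
    apply hL
    intro b
    have h1 := ha b
    change Cfsg.sympForm m F b a = 0 at h1
    change Cfsg.sympForm m F a b = 0
    rw [hanti b a, h1, neg_zero]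
  obtain ⟨θ₁, hθ₁⟩ := exists_symp_isometry ((sympBilin m F).restrict W) hnd
    (fun x => sympForm_self _) k hWk
  obtain ⟨θ₂, hθ₂⟩ := exists_symp_isometry ((sympBilin m F).restrict W') hnd'
    (fun x => sympForm_self _) (m - k) (by omega)
  have hE : ∀ g, g ∈ Cfsg.stabilizing (Cfsg.spToMat m F) (W : Set (Fin m ⊕ Fin m → F)) ↔
      spE m F g ∈ setStabG (Cfsg.sympForm m F) W := by
    intro g
    rw [mem_setStabG]
    constructor
    · intro h v
      rw [spE_apply]
      exact h v
    · intro h v
      have := h v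
      rw [spE_apply] at this
      exact this
  exact ⟨(subgroupEquivOfIff (spE m F) _ _ hE).trans ((stabDecomp (Cfsg.sympForm m F) W W' hc hD hperp).trans
    (MulEquiv.prodCongr
      ((isoGCongr θ₁ _ _ (fun u v => hθ₁ u v)).trans (spE k F).symm)
      ((isoGCongr θ₂ _ _ (fun u v => hθ₂ u v)).trans (spE (m - k) F).symm)))⟩

end Cfsg.Agent.S0776
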