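import Cfsg.Statements.S0778
import Mathlib

set_option autoImplicit false
open Cfsg

namespace Cfsg.Agent.S0778

open Matrix
open scoped Matrix

variable {F : Type*} [Field F] (m : ℕ)

/-- The block matrix attached to an invertible matrix. -/
def blockM (g : GeneralLinearGroup (Fin m) F) : Matrix (Fin m ⊕ Fin m) (Fin m ⊕ Fin m) F :=
  fromBlocks g.1 0 0 (g⁻¹).1.transpose

lemma ginv_mul (g : GeneralLinearGroup (Fin m) F) : g.1 * (g⁻¹).1.transpose.transpose = 1 := by
  rw [Matrix.transpose_transpose]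
  exact congrArg Units.val (mul_inv_cancel g)

lemma blockM_mem (g : GeneralLinearGroup (Fin m) F) : blockM m g ∈ Matrix.symplecticGroup (Fin m) F := by
  rw [SymplecticGroup.mem_iff, blockM, Matrix.J, fromBlocks_transpose, fromBlocks_multiply, fromBlocks_multiply]
  have h1 : (g⁻¹).1.transpose * g.1.transpose = 1 := by
    rw [← Matrix.transpose_mul]
    have := congrArg Units.val (mul_inv_cancel g)
    simp only [Units.val_mul, Units.val_one] at this
    rw [this, Matrix.transpose_one]
  have h2 : g.1 * (g⁻¹).1.transpose.transpose = 1 := ginv_mul m g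
  simp at h1 h2 ⊢
  exact h1

lemma mulVec_blockM (g : GeneralLinearGroup (Fin m) F) (v : Fin m ⊕ Fin m → F) (i : Fin m) :
    (blockM m g *ᵥ v) (Sum.inl i) = (g.1 *ᵥ (fun j => v (Sum.inl j))) i ∧
    (blockM m g *ᵥ v) (Sum.inr i) = ((g⁻¹).1.transpose *ᵥ (fun j => v (Sum.inr j))) i := by
  constructor
  · simp [blockM, Matrix.mulVec, dotProduct, Fintype.sum_sum_type]
  · simp [blockM, Matrix.mulVec, dotProduct, Fintype.sum_sum_type]

lemma mulVec_inj_zero (g : Matrix (Fin m) (Fin m) F) (h : IsUnit g.det) (w : Fin m → F) :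
    g *ᵥ w = 0 ↔ w = 0 := by
  constructor
  · intro hw
    have := congrArg (fun x => g⁻¹ *ᵥ x) hw
    simp only [Matrix.mulVec_mulVec, Matrix.nonsing_inv_mul _ h, Matrix.one_mulVec, Matrix.mulVec_zero] at this
    exact this
  · rintro rfl
    simp

lemma isUnit_det_gl (g : GeneralLinearGroup (Fin m) F) : IsUnit (g.1).det :=
  (Matrix.isUnit_iff_isUnit_det _).mp g.isUnit

lemma isUnit_det_glinv (g : GeneralLinearGroup (Fin m) F) : IsUnit ((g⁻¹).1.transpose).det := by
  rw [Matrix.det_transpose]
  exact isUnit_det_gl m g⁻¹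

lemma fun_eq_zero_iff (w : Fin m → F) : (∀ i, w i = 0) ↔ w = 0 := ⟨fun h => funext h, fun h i => by rw [h]; rfl⟩

/-- The homomorphism from `GL_m`. -/
def phiM : GeneralLinearGroup (Fin m) F →* ↥(Cfsg.stabilizing (Cfsg.spToMat m F) {v : Fin m ⊕ Fin m → F | ∀ i : Fin m, v (Sum.inr i) = 0} ⊓ Cfsg.stabilizing (Cfsg.spToMat m F) {v : Fin m ⊕ Fin m → F | ∀ i : Fin m, v (Sum.inl i) = 0}) where
  toFun g := ⟨⟨blockM m g, blockM_mem m g⟩, by
    constructor
    · intro v
      simp only [Set.mem_setOf_eq]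
      change (∀ i, v (Sum.inr i) = 0) ↔ ∀ i, (blockM m g *ᵥ v) (Sum.inr i) = 0
      simp only [fun i => (mulVec_blockM m g v i).2]
      rw [fun_eq_zero_iff m (fun j => v (Sum.inr j)),
        fun_eq_zero_iff m (((g⁻¹).1.transpose *ᵥ (fun j => v (Sum.inr j)))),
        mulVec_inj_zero m _ (isUnit_det_glinv m g)]
    · intro v
      simp only [Set.mem_setOf_eq]
      change (∀ i, v (Sum.inl i) = 0) ↔ ∀ i, (blockM m g *ᵥ v) (Sum.inl i) = 0
      simp only [fun i => (mulVec_blockM m g v i).1]
      rw [fun_eq_zero_iff m (fun j => v (Sum.inl j)),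
        fun_eq_zero_iff m ((g.1 *ᵥ (fun j => v (Sum.inl j)))),
        mulVec_inj_zero m _ (isUnit_det_gl m g)]⟩
  map_one' := by
    apply Subtype.ext
    apply Subtype.ext
    change blockM m 1 = 1
    simp [blockM]
  map_mul' a b := by
    apply Subtype.ext
    apply Subtype.ext
    change blockM m (a * b) = blockM m a * blockM m b
    simp only [blockM, fromBlocks_multiply]
    simp [_root_.mul_inv_rev, Matrix.transpose_mul]

/-- The elements of Sp_2m(F) stabilising both W = ⟨e_1..e_m⟩ and U = ⟨f_1..f_m⟩ form a subgroup isomorphic to GL_m(F) (block-diagonal matrices diag(X, X^(−ᵀ)) up to the sign convention of J), for m ≥ 1 or m = 0 alike. -/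
theorem result {F : Type*} [Field F] (m : ℕ) : Nonempty (↥(Cfsg.stabilizing (Cfsg.spToMat m F) {v : Fin m ⊕ Fin m → F | ∀ i : Fin m, v (Sum.inr i) = 0} ⊓ Cfsg.stabilizing (Cfsg.spToMat m F) {v : Fin m ⊕ Fin m → F | ∀ i : Fin m, v (Sum.inl i) = 0}) ≃* Matrix.GeneralLinearGroup (Fin m) F) := by
  classical
  refine ⟨(MulEquiv.ofBijective (phiM m (F := F)) ⟨?_, ?_⟩).symm⟩
  · intro a b h
    have h1 : blockM m a = blockM m b := congrArg (fun x => x.1.1) h
    apply Units.ext
    have := congrArg Matrix.toBlocks₁₁ h1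
    simpa [blockM] using this
  · rintro ⟨⟨A, hA⟩, hA1, hA2⟩
    -- the off-diagonal blocks vanish
    have hc : ∀ i j, A (Sum.inr i) (Sum.inl j) = 0 := by
      intro i j
      have h := (hA1 (Pi.single (Sum.inl j) 1)).mp (by
        intro k
        simp)
      have h' := h i
      change (A *ᵥ (Pi.single (Sum.inl j) 1)) (Sum.inr i) = 0 at h'
      simpa using h'
    have hb : ∀ i j, A (Sum.inl i) (Sum.inr j) = 0 := by
      intro i j
      have h := (hA2 (Pi.single (Sum.inr j) 1)).mp (by
        intro k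
        simp)
      have h' := h i
      change (A *ᵥ (Pi.single (Sum.inr j) 1)) (Sum.inl i) = 0 at h'
      simpa using h'
    let a : Matrix (Fin m) (Fin m) F := fun i j => A (Sum.inl i) (Sum.inl j)
    let d : Matrix (Fin m) (Fin m) F := fun i j => A (Sum.inr i) (Sum.inr j)
    have hAb : A = fromBlocks a 0 0 d := by
      ext i j
      rcases i with i | i <;> rcases j with j | j
      · rfl
      · exact hb i j
      · exact hc i j
      · rfl
    have hJ := SymplecticGroup.mem_iff.mp hA
    rw [hAb, Matrix.J, fromBlocks_transpose, fromBlocks_multiply, fromBlocks_multiply] at hJ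
    have h12 := congrArg Matrix.toBlocks₁₂ hJ
    simp at h12
    have had : a * d.transpose = 1 := h12
    have hda : d.transpose * a = 1 := mul_eq_one_comm.mp had
    let g : GeneralLinearGroup (Fin m) F := ⟨a, d.transpose, had, hda⟩
    refine ⟨g, ?_⟩
    apply Subtype.ext
    apply Subtype.ext
    change blockM m g = A
    rw [hAb, blockM]
    simp [g]

end Cfsg.Agent.S0778
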