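import Cfsg.Statements.S0779
import Mathlib
import Cfsg.Agent.Lib.Classical.Hermitian

set_option autoImplicit false
open Cfsg

namespace Cfsg.Agent.S0779

/-- Unitary transvections: let |F| = q², h the standard Hermitian form Σ x_i y_i^q and v ≠ 0 with h(v, v) = 0. The linear map x ↦ x + c h(x, v) v is an isometry of h if and only if c = 0 or c^(q−1) = −1. -/
theorem result {F : Type*} [Field F] [Fintype F] {q : ℕ} (hF : Fintype.card F = q ^ 2) (n : ℕ) (v : Fin n → F) (hv : v ≠ 0) (hv0 : Cfsg.hermForm n F q v v = 0) (c : F) : (∀ x y : Fin n → F, Cfsg.hermForm n F q ((Cfsg.unitaryTransvection n q v c).mulVec x) ((Cfsg.unitaryTransvection n q v c).mulVec y) = Cfsg.hermForm n F q x y) ↔ (c = 0 ∨ c ^ (q - 1) = -1) := by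
  open Cfsg.Agent.Lib.Classical in
  have hq := one_lt_q hF
  -- the fundamental identity
  have key : ∀ x y : Fin n → F, Cfsg.hermForm n F q ((Cfsg.unitaryTransvection n q v c).mulVec x) ((Cfsg.unitaryTransvection n q v c).mulVec y) =
      Cfsg.hermForm n F q x y + (c ^ q + c) * Cfsg.hermForm n F q x v * Cfsg.hermForm n F q v y := by
    intro x y
    simp only [Cfsg.Agent.Lib.Classical.unitaryTransvection_mulVec, hermForm_add_left hF, hermForm_add_right hF, hermForm_smul_left, hermForm_smul_right, hv0]
    rw [mul_pow, hermForm_symm hF y v]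
    ring
  constructor
  · intro h
    -- choose x y with h(x,v) ≠ 0
    have h1 : ∃ x, Cfsg.hermForm n F q x v ≠ 0 := by
      by_contra hc
      push Not at hc
      exact hv (hermForm_nondeg_right hF hc)
    have h2 : ∃ y, Cfsg.hermForm n F q v y ≠ 0 := by
      by_contra hc
      push Not at hc
      exact hv (hermForm_nondeg_left hF hc)
    obtain ⟨x, hx⟩ := h1
    obtain ⟨y, hy⟩ := h2
    have h3 := h x y
    rw [key] at h3
    have h4 : (c ^ q + c) * Cfsg.hermForm n F q x v * Cfsg.hermForm n F q v y = 0 := by
      linear_combination h3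
    have h5 : c ^ q + c = 0 := by
      simpa [hx, hy] using h4
    by_cases hc : c = 0
    · exact Or.inl hc
    · right
      have h6 : c ^ (q - 1) * c = c ^ q := by
        rw [← pow_succ, Nat.sub_add_cancel (by omega)]
      apply mul_right_cancel₀ hc
      rw [h6]
      linear_combination h5
  · intro h x y
    rw [key]
    have h5 : c ^ q + c = 0 := by
      rcases h with rfl | h
      · rw [zero_pow (by omega)]; ring
      · have h6 : c ^ (q - 1) * c = c ^ q := by
          rw [← pow_succ, Nat.sub_add_cancel (by omega)]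
        rw [← h6, h]; ring
    rw [h5]; ring

end Cfsg.Agent.S0779
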