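import Cfsg.Statements.S0782
import Mathlib
import Cfsg.Agent.S0277
import Cfsg.Agent.Lib.Classical.FramesHerm

set_option autoImplicit false
open Cfsg

namespace Cfsg.Agent.S0782

open Cfsg.Agent.Lib.Classical Cfsg.Agent.Lib.Classical.Frames Cfsg.Agent.Lib.Classical.Abs Module

/-- The factors of the order of `GU`. -/
def uu (q i : ℕ) : ℕ := if Even i then q ^ (i + 1) + 1 else q ^ (i + 1) - 1

/-- The order of `GU`. -/
def OO (q t : ℕ) : ℕ := q ^ (t * (t - 1) / 2) * ∏ i ∈ Finset.range t, uu q i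

lemma OO_succ (q t : ℕ) : OO q (t + 1) = q ^ t * uu q t * OO q t := by
  unfold OO
  rw [Finset.prod_range_succ]
  simp only [Nat.add_sub_cancel]
  have e : (t + 1) * t / 2 = t + t * (t - 1) / 2 := by
    have : (t + 1) * t = t * (t - 1) + 2 * t := by
      cases t with
      | zero => rfl
      | succ k =>
        simp only [Nat.add_sub_cancel]
        ring
    rw [this, Nat.add_mul_div_left _ _ (by norm_num)]
    omega
  rw [e, pow_add]
  ring

lemma uu_cast {q : ℕ} (hq : 1 < q) (i : ℕ) : (uu q i : ℤ) = (q : ℤ) ^ (i + 1) - (-1) ^ (i + 1) := by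
  unfold uu
  split_ifs with h
  · have : (-1 : ℤ) ^ (i + 1) = -1 := by
      rw [pow_succ, h.neg_one_pow]
      ring
    rw [this]
    push_cast
    ring
  · have h1 : Odd i := Nat.not_even_iff_odd.mp h
    have : (-1 : ℤ) ^ (i + 1) = 1 := by
      rw [pow_succ, h1.neg_one_pow]
      ring
    rw [this]
    have h2 : 1 ≤ q ^ (i + 1) := Nat.one_le_pow _ _ (by omega)
    push_cast [Nat.cast_sub h2]
    ring

lemma uu_pos {q : ℕ} (hq : 1 < q) (i : ℕ) : 0 < uu q i := by
  unfold uu
  split_ifs with h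
  · omega
  · have h2 : q ^ 1 ≤ q ^ (i + 1) := Nat.pow_le_pow_right (by omega) (by omega)
    rw [pow_one] at h2
    omega

lemma hcnt_eq {F : Type*} [Field F] [Fintype F] {q : ℕ} (hF : Fintype.card F = q ^ 2) (T : ℕ) :
    hcnt (T + 2) F q 0 = uu q (T + 1) * uu q T + 1 := by
  have hq := one_lt_q hF
  have h1 := TI.hcnt_zero hF (T + 2)
  have hq0 : (q : ℤ) ≠ 0 := by
    have : q ≠ 0 := by omega
    exact_mod_cast this
  have h2 : (hcnt (T + 2) F q 0 : ℤ) = ((uu q (T + 1) * uu q T + 1 : ℕ) : ℤ) := by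
    apply mul_left_cancel₀ hq0
    rw [h1]
    push_cast
    rw [uu_cast hq, uu_cast hq]
    ring
  exact_mod_cast h2

lemma prod_id (q k r : ℕ) :
    q ^ (k * (k + 2 * r)) * OO q r * ∏ j ∈ Finset.range k, ((q ^ 2) ^ j * (uu q (2 * k + r - 2 * j - 1) * uu q (2 * k + r - 2 * j - 2))) =
      OO q (2 * k + r) := by
  induction k generalizing r with
  | zero => simp
  | succ k ih =>
    have h1 := ih (r + 2)
    have e0 : 2 * k + (r + 2) = 2 * (k + 1) + r := by ring
    rw [e0] at h1
    rw [← h1, Finset.prod_range_succ]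
    have e1 : 2 * (k + 1) + r - 2 * k - 1 = r + 1 := by omega
    have e2 : 2 * (k + 1) + r - 2 * k - 2 = r := by omega
    rw [e1, e2, show r + 2 = (r + 1) + 1 by ring, OO_succ, OO_succ]
    have e3 : q ^ ((k + 1) * (k + 1 + 2 * r)) * (q ^ 2) ^ k = q ^ (k * (k + 2 * (r + 1 + 1))) * (q ^ (r + 1) * q ^ r) := by
      rw [← pow_mul, ← pow_add, ← pow_add, ← pow_add]
      congr 1
      ring
    have e4 : ∀ (P : ℕ), q ^ ((k + 1) * (k + 1 + 2 * r)) * OO q r * (P * ((q ^ 2) ^ k * (uu q (r + 1) * uu q r))) =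
        (q ^ ((k + 1) * (k + 1 + 2 * r)) * (q ^ 2) ^ k) * OO q r * P * (uu q (r + 1) * uu q r) := by
      intro P; ring
    rw [e4, e3]
    have e5 : 2 * (k + 1) + r = 2 * k + (r + 1 + 1) := by ring
    have e6 : ∀ j, 2 * (k + 1) + r - 2 * j - 1 = 2 * (k + 1) + r - 2 * j - 1 := fun _ => rfl
    ring

/-- Maximal parabolics of SU_n(q): if W is a k-dimensional subspace of F^n (n ≥ 1, |F| = q²) on which the Hermitian form vanishes, then (q + 1) times the order of its stabiliser in SU_n(q) equals q^(k(2n−3k)) · |GL_k(q²)| · |GU_(n−2k)(q)|, where |GU_m(q)| = q^(m(m−1)/2) Π_(i=1..m) (q^i − (−1)^i). -/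
theorem result {F : Type*} [Field F] [Fintype F] {q : ℕ} (hF : Fintype.card F = q ^ 2) (n k : ℕ) (hn : 1 ≤ n) (hk : 2 * k ≤ n) (W : Submodule F (Fin n → F)) (hWk : Module.finrank F W = k) (hW : ∀ u ∈ W, ∀ v ∈ W, Cfsg.hermForm n F q u v = 0) : (q + 1) * Nat.card ↥((Cfsg.stabilizing (Cfsg.slToMat n F) (W : Set (Fin n → F))).subgroupOf (Cfsg.SU n F q)) = q ^ (k * (2 * n - 3 * k)) * (∏ i : Fin k, ((q ^ 2) ^ k - (q ^ 2) ^ (i : ℕ))) * (q ^ ((n - 2 * k) * ((n - 2 * k) - 1) / 2) * ∏ i ∈ Finset.range (n - 2 * k), (if Even i then q ^ (i + 1) + 1 else q ^ (i + 1) - 1)) := by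
  classical
  have hq := one_lt_q hF
  obtain ⟨r, hn'⟩ : ∃ r, n = 2 * k + r := ⟨n - 2 * k, by omega⟩
  have e0 : n - 2 * k = r := by omega
  have e1 : k * (2 * n - 3 * k) = k * (k + 2 * r) := by
    congr 1
    omega
  rw [e0, e1]
  let b := Module.finBasisOfFinrankEq F W hWk
  let s₀ : Fin k → Fin n → F := fun i => (b i : Fin n → F)
  have hs₀ : LinearIndependent F s₀ := b.linearIndependent.map' W.subtype (Submodule.ker_subtype W)
  have hs₀W : ∀ i, s₀ i ∈ W := fun i => (b i).2
  have hspan : ∀ v ∈ W, v ∈ Submodule.span F (Set.range s₀) := by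
    intro v hv
    have h1 : (⟨v, hv⟩ : W) ∈ Submodule.span F (Set.range b) := by
      rw [b.span_eq]; trivial
    have h2 := Submodule.mem_map_of_mem (f := W.subtype) h1
    rw [Submodule.map_span] at h2
    have h3 : W.subtype '' Set.range b = Set.range s₀ := by
      ext x
      simp [s₀]
    rwa [h3] at h2
  have key := stab_count (Cfsg.hermForm n F q) (guE n F q) (fun _ => W) s₀ hs₀ hs₀W (fun _ _ _ _ => le_rfl)
    (fun _ _ => hW) (stabGU n F q W) (by
      intro g
      constructor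
      · intro hA i
        rw [guE_apply]
        exact (hA _).mp (hs₀W i)
      · intro hA v
        have h1 : ∀ w ∈ W, (guE n F q g).1 w ∈ W := by
          intro w hw
          have h2 := hspan w hw
          clear hw
          induction h2 using Submodule.span_induction with
          | mem x hx =>
            obtain ⟨i, rfl⟩ := hx
            exact hA i
          | zero => rw [map_zero]; exact W.zero_mem
          | add x y _ _ hx hy =>
            rw [map_add]
            exact W.add_mem hx hy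
          | smul c x _ hx =>
            rw [map_smul]
            exact W.smul_mem _ hx
        have h2 := iff_of_map_le W (guE n F q g).1 h1 v
        rw [guE_apply] at h2
        exact h2) (TI.herm_rel hF n) herm_zero_left (herm_zero_right hF) (herm_core hF)
    (fun j => (q ^ 2) ^ j * hcnt (n - 2 * j) F q 0 - (q ^ 2) ^ j) (fun j _ s => card_Ext_herm hF s)
  have hWfr : finrank F W = k := hWk
  simp only [hWfr, hF] at key
  rw [Cfsg.Agent.S0277.result hF n] at key
  rw [card_stabGU hF hn W hW] at key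
  have hc : ∏ j ∈ Finset.range k, ((q ^ 2) ^ j * hcnt (n - 2 * j) F q 0 - (q ^ 2) ^ j) =
      ∏ j ∈ Finset.range k, ((q ^ 2) ^ j * (uu q (n - 2 * j - 1) * uu q (n - 2 * j - 2))) := by
    apply Finset.prod_congr rfl
    intro j hj
    have hj' := Finset.mem_range.mp hj
    obtain ⟨T, hT⟩ : ∃ T, n - 2 * j = T + 2 := ⟨n - 2 * j - 2, by omega⟩
    rw [hT, hcnt_eq hF, show T + 2 - 1 = T + 1 by omega, show T + 2 - 2 = T by omega, mul_add, mul_one, Nat.add_sub_cancel]
  rw [hc] at key
  have h1 := prod_id q k r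
  rw [← hn'] at h1
  change _ = _ * OO q n at key
  rw [← h1] at key
  have hpos : 0 < ∏ j ∈ Finset.range k, ((q ^ 2) ^ j * (uu q (n - 2 * j - 1) * uu q (n - 2 * j - 2))) := by
    apply Finset.prod_pos
    intro j _
    have : 0 < q := by omega
    have h3 := uu_pos hq (n - 2 * j - 1)
    have h4 := uu_pos hq (n - 2 * j - 2)
    positivity
  have e1' : ∏ i : Fin k, ((q ^ 2) ^ k - (q ^ 2) ^ (i : ℕ)) = ∏ j ∈ Finset.range k, ((q ^ 2) ^ k - (q ^ 2) ^ j) :=
    Fin.prod_univ_eq_prod_range (fun i => (q ^ 2) ^ k - (q ^ 2) ^ i) k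
  rw [e1']
  change _ = q ^ (k * (k + 2 * r)) * _ * OO q r
  apply Nat.eq_of_mul_eq_mul_right hpos
  rw [key]
  ring

end Cfsg.Agent.S0782
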