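import Cfsg.Statements.S0783
import Mathlib
import Cfsg.Agent.S0307
import Cfsg.Agent.Lib.Classical.UnitaryCenter
import Cfsg.Agent.Lib.Classical.UnitaryDet

set_option autoImplicit false
open Cfsg

namespace Cfsg.Agent.S0783

open Matrix in
open Cfsg.Agent.Lib.Classical in
private lemma central_scalar {F : Type*} [Field F] [Fintype F] {q : ℕ} (hF : Fintype.card F = q ^ 2) {n : ℕ}
    (g : Cfsg.GU n F q) (hg : g ∈ Subgroup.center (Cfsg.GU n F q)) (i₀ : Fin n) :
    ((g.1 : Matrix.GeneralLinearGroup (Fin n) F) : Matrix (Fin n) (Fin n) F) =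
      ((g.1 : Matrix.GeneralLinearGroup (Fin n) F) : Matrix (Fin n) (Fin n) F) i₀ i₀ • (1 : Matrix (Fin n) (Fin n) F) := by
  classical
  have hq := one_lt_q hF
  set M : Matrix (Fin n) (Fin n) F := ((g.1 : Matrix.GeneralLinearGroup (Fin n) F) : Matrix (Fin n) (Fin n) F) with hM
  have hcomm : ∀ (A : Matrix (Fin n) (Fin n) F) (h0 : A.det ≠ 0)
      (hA : ∀ u v, Cfsg.hermForm n F q (A *ᵥ u) (A *ᵥ v) = Cfsg.hermForm n F q u v), M * A = A * M := by
    intro A h1 hA
    have := (Subgroup.mem_center_iff.mp hg) (mkGU A h1 hA)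
    have h2 := congrArg (fun x : Cfsg.GU n F q => ((x.1 : Matrix.GeneralLinearGroup (Fin n) F) : Matrix (Fin n) (Fin n) F)) this
    exact h2.symm
  obtain ⟨l, hl, hl2⟩ := exists_norm_one_sq_ne hF
  have hl1 : l ≠ 1 := by
    rintro rfl
    simp at hl2
  have hl0 : l ≠ 0 := by
    rintro rfl
    rw [zero_pow (by omega)] at hl
    exact zero_ne_one hl
  have hoff : ∀ a b : Fin n, a ≠ b → M a b = 0 := by
    intro a b hab
    let d : Fin n → F := fun i => if i = a then l else 1
    have hd : ∀ i, d i ^ (q + 1) = 1 := by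
      intro i
      simp only [d]
      split_ifs <;> simp [hl]
    have hdet : (Matrix.diagonal d).det ≠ 0 := by
      rw [Matrix.det_diagonal, Finset.prod_ne_zero_iff]
      intro i _
      simp only [d]
      split_ifs <;> simp [hl0]
    have h := hcomm _ hdet (diagonal_pres hF d hd)
    have h2 := congrFun (congrFun h a) b
    rw [Matrix.mul_diagonal, Matrix.diagonal_mul] at h2
    have hda : d a = l := by simp [d]
    have hdb : d b = 1 := by simp [d, hab.symm]
    rw [hda, hdb] at h2
    have h3 : M a b * (1 - l) = 0 := by linear_combination h2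
    exact (mul_eq_zero.mp h3).resolve_right (sub_ne_zero.mpr hl1.symm)
  have hdiag : ∀ a b : Fin n, a ≠ b → M a a = M b b := by
    intro a b hab
    let σ : Equiv.Perm (Fin n) := Equiv.swap a b
    have hdet : (σ.toPEquiv.toMatrix : Matrix (Fin n) (Fin n) F).det ≠ 0 := by
      have h1 := Matrix.det_permutation (R := F) σ
      rw [Equiv.Perm.permMatrix] at h1
      rw [h1]
      rcases Int.units_eq_one_or (Equiv.Perm.sign σ) with h | h <;> rw [h] <;> simp
    have hA : ∀ u v, Cfsg.hermForm n F q ((σ.toPEquiv.toMatrix : Matrix (Fin n) (Fin n) F) *ᵥ u) ((σ.toPEquiv.toMatrix : Matrix (Fin n) (Fin n) F) *ᵥ v) = Cfsg.hermForm n F q u v := by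
      intro u v
      simp only [Cfsg.hermForm, PEquiv.toMatrix_toPEquiv_mulVec, Function.comp]
      exact Equiv.sum_comp σ (fun i => u i * v i ^ q)
    have h := hcomm _ hdet hA
    have h2 := congrFun (congrFun h a) b
    rw [PEquiv.mul_toMatrix_toPEquiv, PEquiv.toMatrix_toPEquiv_mul] at h2
    simpa [σ, Equiv.swap_apply_left, Equiv.swap_apply_right] using h2
  ext a b
  rw [Matrix.smul_apply, Matrix.one_apply]
  by_cases hab : a = b
  · subst hab
    by_cases h : a = i₀
    · simp [h]
    · simp [hdiag a i₀ h]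
  · simp [hab, hoff a b hab]

/-- PGU_n(q)/PSU_n(q) is cyclic of order (n, q+1): for n ≥ 2 and |F| = q² there is a surjective homomorphism from GU_n(q) onto the cyclic group of order gcd(n, q + 1) whose kernel is generated by the determinant-one elements together with the centre. -/
theorem result {F : Type*} [Field F] [Fintype F] {q : ℕ} (hF : Fintype.card F = q ^ 2) (n : ℕ) (hn : 2 ≤ n) : ∃ φ : ↥(Cfsg.GU n F q) →* Multiplicative (ZMod (Nat.gcd n (q + 1))), Function.Surjective φ ∧ φ.ker = (Matrix.GeneralLinearGroup.det : Matrix.GeneralLinearGroup (Fin n) F →* Fˣ).ker.subgroupOf (Cfsg.GU n F q) ⊔ Subgroup.center ↥(Cfsg.GU n F q) := by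
  classical
  have hq := Cfsg.Agent.Lib.Classical.one_lt_q hF
  let U : Subgroup Fˣ := (powMonoidHom (q + 1) : Fˣ →* Fˣ).ker
  have hcU : Nat.card U = q + 1 := by
    rw [IsCyclic.card_powMonoidHom_ker, Cfsg.Agent.Lib.Classical.card_units_eq hF]
    apply Nat.gcd_eq_right
    rw [← Cfsg.Agent.Lib.Classical.q_add_one_mul hq]
    exact Nat.dvd_mul_right _ _
  haveI : IsCyclic U := Subgroup.isCyclic U
  obtain ⟨χ, hχs, hχk⟩ : ∃ χ : U →* Multiplicative (ZMod (Nat.gcd n (q + 1))),
      Function.Surjective χ ∧ ∀ u : U, χ u = 1 ↔ ∃ v : U, u = v ^ n := by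
    have := Cfsg.Agent.S0307.exists_chi (G := U) n
    rwa [hcU] at this
  let D : Cfsg.GU n F q →* U := (Cfsg.Agent.Lib.Classical.detGU n F q).codRestrict U (by
    intro g
    rw [MonoidHom.mem_ker]
    apply Units.ext
    simp only [powMonoidHom_apply, Units.val_pow_eq_pow_val, Units.val_one, Cfsg.Agent.Lib.Classical.detGU_coe]
    exact Cfsg.Agent.Lib.Classical.det_pow_eq_one hF _ g.2)
  have hDc : ∀ g, (((D g : U) : Fˣ) : F) = ((g.1 : Matrix.GeneralLinearGroup (Fin n) F) : Matrix (Fin n) (Fin n) F).det := fun g => rfl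
  have hmemU : ∀ u : U, ((u : Fˣ) : F) ^ (q + 1) = 1 := by
    intro u
    have h := u.2
    rw [MonoidHom.mem_ker] at h
    have := congrArg Units.val h
    simpa using this
  let i₀ : Fin n := ⟨0, by omega⟩
  refine ⟨χ.comp D, ?_, ?_⟩
  · intro y
    obtain ⟨u, rfl⟩ := hχs y
    let d : Fin n → F := fun i => if i = i₀ then ((u : Fˣ) : F) else 1
    have hdet : (Matrix.diagonal d).det = ((u : Fˣ) : F) := by
      rw [Matrix.det_diagonal]
      simp [d, Finset.prod_ite_eq']
    have hd : ∀ i, d i ^ (q + 1) = 1 := by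
      intro i
      simp only [d]
      split_ifs <;> simp [hmemU u]
    refine ⟨Cfsg.Agent.Lib.Classical.mkGU (Matrix.diagonal d) (by rw [hdet]; exact (u : Fˣ).ne_zero) (Cfsg.Agent.Lib.Classical.diagonal_pres hF d hd), ?_⟩
    rw [MonoidHom.comp_apply]
    congr 1
    apply Subtype.ext
    apply Units.ext
    rw [hDc]
    exact hdet
  · apply le_antisymm
    · intro g hg
      rw [MonoidHom.mem_ker, MonoidHom.comp_apply] at hg
      obtain ⟨v, hv⟩ := (hχk _).mp hg
      have hvp := hmemU v
      let S : Matrix (Fin n) (Fin n) F := ((v : Fˣ) : F) • (1 : Matrix (Fin n) (Fin n) F)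
      have hSdet : S.det = ((v : Fˣ) : F) ^ n := by
        simp [S, Matrix.det_smul]
      have hSpres : ∀ a b, Cfsg.hermForm n F q (Matrix.mulVec S a) (Matrix.mulVec S b) = Cfsg.hermForm n F q a b := by
        intro a b
        simp only [S, Matrix.smul_mulVec, Matrix.one_mulVec, Cfsg.Agent.Lib.Classical.hermForm_smul_left, Cfsg.Agent.Lib.Classical.hermForm_smul_right]
        rw [pow_succ] at hvp
        linear_combination (Cfsg.hermForm n F q a b) * hvp
      let s : Cfsg.GU n F q := Cfsg.Agent.Lib.Classical.mkGU S (by rw [hSdet]; exact pow_ne_zero _ (v : Fˣ).ne_zero) hSpres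
      have hs : s ∈ Subgroup.center (Cfsg.GU n F q) := by
        rw [Subgroup.mem_center_iff]
        intro x
        apply Subtype.ext
        apply Units.ext
        change ((x.1 : Matrix.GeneralLinearGroup (Fin n) F) : Matrix (Fin n) (Fin n) F) * S = S * ((x.1 : Matrix.GeneralLinearGroup (Fin n) F) : Matrix (Fin n) (Fin n) F) at *
        simp [S]
      have hDs : ((D s : U) : Fˣ) = ((D g : U) : Fˣ) := by
        apply Units.ext
        rw [hv, hDc]
        change S.det = _
        rw [hSdet]
        simp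
      have h1 : g * s⁻¹ ∈ (Matrix.GeneralLinearGroup.det : Matrix.GeneralLinearGroup (Fin n) F →* Fˣ).ker.subgroupOf (Cfsg.GU n F q) := by
        rw [Subgroup.mem_subgroupOf, MonoidHom.mem_ker]
        have h2 : D (g * s⁻¹) = 1 := by
          rw [map_mul, map_inv, mul_inv_eq_one]
          exact (Subtype.ext hDs).symm
        have := congrArg (fun y : U => ((y : Fˣ) : Fˣ)) h2
        exact this
      have h3 := Subgroup.mul_mem_sup h1 hs
      simpa using h3
    · rw [sup_le_iff]
      constructor
      · intro g hg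
        rw [Subgroup.mem_subgroupOf, MonoidHom.mem_ker] at hg
        rw [MonoidHom.mem_ker, MonoidHom.comp_apply]
        have : D g = 1 := by
          apply Subtype.ext
          exact hg
        rw [this, map_one]
      · intro g hg
        rw [MonoidHom.mem_ker, MonoidHom.comp_apply, hχk]
        have h1 := central_scalar hF g hg i₀
        set l := ((g.1 : Matrix.GeneralLinearGroup (Fin n) F) : Matrix (Fin n) (Fin n) F) i₀ i₀ with hl
        have hdet : ((D g : U) : Fˣ).1 = l ^ n := by
          rw [hDc, h1]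
          simp [Matrix.det_smul]
        have hl0 : l ≠ 0 := by
          intro h0
          have h2 := ((D g : U) : Fˣ).ne_zero
          rw [hdet, h0, zero_pow (by omega)] at h2
          exact h2 rfl
        have hln : l ^ (q + 1) = 1 := by
          have h2 := g.2 (Pi.single i₀ 1) (Pi.single i₀ 1)
          have h3 : (Units.coeHom (Matrix (Fin n) (Fin n) F)) g.1 = l • (1 : Matrix (Fin n) (Fin n) F) := h1
          rw [h3] at h2
          simp only [Matrix.smul_mulVec, Matrix.one_mulVec, Cfsg.Agent.Lib.Classical.hermForm_smul_left, Cfsg.Agent.Lib.Classical.hermForm_smul_right] at h2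
          have h4 : Cfsg.hermForm n F q (Pi.single i₀ 1) (Pi.single i₀ 1) = 1 := by
            simp [Cfsg.hermForm, Pi.single_apply, show q ≠ 0 by omega, apply_ite]
          rw [h4] at h2
          rw [pow_succ]
          linear_combination h2
        refine ⟨⟨Units.mk0 l hl0, ?_⟩, ?_⟩
        · rw [MonoidHom.mem_ker]
          apply Units.ext
          simpa using hln
        · apply Subtype.ext
          apply Units.ext
          rw [hdet]
          simp

end Cfsg.Agent.S0783
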