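import Cfsg.Statements.S0790
import Mathlib
import Cfsg.Agent.Lib.Classical.OrthNeg

set_option autoImplicit false
open Cfsg

namespace Cfsg.Agent.S0790

/-- −1 ∈ Ω⁺_2m(q) iff q^m ≡ 1 (mod 4), for q odd and m ≥ 1 (so that in the other case SO⁺_2m(q) = 2 × Ω⁺_2m(q)). -/
theorem result {F : Type*} [Field F] [Fintype F] {q : ℕ} (hF : Fintype.card F = q) (hodd : Odd q) (m : ℕ) (hm : 1 ≤ m) : (∃ g : ↥(Cfsg.isometryGroup F (Cfsg.quadFormPlus m F)), g ∈ Cfsg.Omega F (Cfsg.quadFormPlus m F) ∧ ((g : Matrix.GeneralLinearGroup (Fin m ⊕ Fin m) F) : Matrix (Fin m ⊕ Fin m) (Fin m ⊕ Fin m) F) = -1) ↔ q ^ m % 4 = 1 := by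
  classical
  open Cfsg.Agent.Lib.Classical.Orth Cfsg.Agent.Lib.Classical.Abs in
  have e : Cfsg.quadFormPlus m F = ⇑(Qplus m F) := funext fun v => (Qplus_apply m v).symm
  rw [e]
  obtain ⟨k, rfl⟩ : ∃ k, m = k + 1 := ⟨m - 1, by omega⟩
  have hq2 : Fintype.card F % 2 = 1 := by
    rw [hF]
    exact Nat.odd_iff.mp hodd
  have h2 : (2 : F) ≠ 0 := Ring.two_ne_zero (fun h => by
    have := FiniteField.even_card_iff_char_two.mp h
    omega)
  have hN : ∀ c : F, c ≠ 0 → Nat.card {x : Fin (k + 1) ⊕ Fin (k + 1) → F // Qplus (k + 1) F x = c} =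
      q ^ k * (q ^ (k + 1) - 1) := by
    intro c hc
    have h1 := Qplus_level (F := F) k hc
    rw [hF] at h1
    have h3 : q ^ (2 * k + 1) = q ^ k * q ^ (k + 1) := by ring
    rw [h3] at h1
    obtain ⟨l, hl⟩ : ∃ l, q ^ (k + 1) = l + 1 := ⟨q ^ (k + 1) - 1, by
      have : 0 < q ^ (k + 1) := by
        apply Nat.pos_of_ne_zero
        intro h0
        have := pow_eq_zero_iff (by omega) |>.mp h0
        subst this
        simp at hodd
      omega⟩
    rw [hl] at h1 ⊢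
    simp only [add_tsub_cancel_right]
    rw [mul_add, mul_one] at h1
    omega
  rw [exists_neg_Omega_iff (Qplus (k + 1) F) h2 (Qplus_nondeg (k + 1)) (by simp; omega) _ hN]
  have hqk : Odd (q ^ k) := hodd.pow
  have hcop : Nat.Coprime 4 (q ^ k) := by
    have : Nat.Coprime (2 ^ 2) (q ^ k) := Nat.Coprime.pow_left 2 (Nat.coprime_two_left.mpr hqk)
    simpa using this
  have hqk1 : Odd (q ^ (k + 1)) := hodd.pow
  rw [Nat.Coprime.dvd_mul_left hcop]
  have h5 : q ^ (k + 1) % 2 = 1 := Nat.odd_iff.mp hqk1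
  omega

end Cfsg.Agent.S0790
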