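import Cfsg.Statements.S0791
import Mathlib
import Cfsg.Agent.Lib.Classical.OrthNeg

set_option autoImplicit false
open Cfsg

namespace Cfsg.Agent.S0791

/-- −1 ∈ Ω⁻_2m(q) iff q^m ≡ −1 (mod 4), for q odd and m ≥ 1; for the minus-type form quadFormMinus (m−1) with anisotropic binary part. -/
theorem result {F : Type*} [Field F] [Fintype F] {q : ℕ} (hF : Fintype.card F = q) (hodd : Odd q) (m : ℕ) (hm : 1 ≤ m) (a b : F) (hab : ∀ z₁ z₂ : F, z₁ ^ 2 + a * z₁ * z₂ + b * z₂ ^ 2 = 0 → z₁ = 0 ∧ z₂ = 0) : (∃ g : ↥(Cfsg.isometryGroup F (Cfsg.quadFormMinus (m - 1) F a b)), g ∈ Cfsg.Omega F (Cfsg.quadFormMinus (m - 1) F a b) ∧ ((g : Matrix.GeneralLinearGroup ((Fin (m - 1) ⊕ Fin (m - 1)) ⊕ Fin 2) F) : Matrix ((Fin (m - 1) ⊕ Fin (m - 1)) ⊕ Fin 2) ((Fin (m - 1) ⊕ Fin (m - 1)) ⊕ Fin 2) F) = -1) ↔ q ^ m % 4 = 3 := by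
  classical
  open Cfsg.Agent.Lib.Classical.Orth Cfsg.Agent.Lib.Classical.Abs in
  have e : Cfsg.quadFormMinus (m - 1) F a b = ⇑(Qminus (m - 1) F a b) := funext fun v => (Qminus_apply (m - 1) a b v).symm
  rw [e]
  obtain ⟨k, rfl⟩ : ∃ k, m = k + 1 := ⟨m - 1, by omega⟩
  have hq2 : Fintype.card F % 2 = 1 := by
    rw [hF]
    exact Nat.odd_iff.mp hodd
  have h2 : (2 : F) ≠ 0 := Ring.two_ne_zero (fun h => by
    have := FiniteField.even_card_iff_char_two.mp h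
    omega)
  have hN : ∀ c : F, c ≠ 0 → Nat.card {x : (Fin k ⊕ Fin k) ⊕ Fin 2 → F // Qminus k F a b x = c} =
      q ^ k * (q ^ (k + 1) + 1) := by
    intro c hc
    rw [Qminus_level hab k hc, hF]
    ring
  have key := exists_neg_Omega_iff (Qminus k F a b) h2 (Qminus_nondeg hab k) (by simp) _ hN
  have hqk : Odd (q ^ k) := hodd.pow
  have hcop : Nat.Coprime 4 (q ^ k) := by
    have : Nat.Coprime (2 ^ 2) (q ^ k) := Nat.Coprime.pow_left 2 (Nat.coprime_two_left.mpr hqk)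
    simpa using this
  have hqk1 : Odd (q ^ (k + 1)) := hodd.pow
  have hiff : 4 ∣ q ^ k * (q ^ (k + 1) + 1) ↔ q ^ (k + 1) % 4 = 3 := by
    rw [Nat.Coprime.dvd_mul_left hcop]
    have h5 : q ^ (k + 1) % 2 = 1 := Nat.odd_iff.mp hqk1
    omega
  exact key.trans hiff

end Cfsg.Agent.S0791
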