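import Cfsg.Statements.S0792
import Mathlib
import Cfsg.Agent.Lib.Classical.OrthBridge

set_option autoImplicit false
open Cfsg

namespace Cfsg.Agent.S0792

/-- For q odd and Q with non-degenerate polar form on F^n, the determinant-one isometries form the subgroup generated by all products r_u r_v of two reflections (Q(u), Q(v) ≠ 0). -/
theorem result {F : Type*} [Field F] [Fintype F] (h2 : (2 : F) ≠ 0) {n : ℕ} (Q : QuadraticForm F (Fin n → F)) (hQ : (QuadraticMap.polarBilin Q).Nondegenerate) : Cfsg.specialIsometryGroup F ⇑Q = Subgroup.closure {g : ↥(Cfsg.isometryGroup F ⇑Q) | ∃ u v : Fin n → F, Q u ≠ 0 ∧ Q v ≠ 0 ∧ ((g : Matrix.GeneralLinearGroup (Fin n) F) : Matrix (Fin n) (Fin n) F) = Cfsg.reflectionMatrix ⇑Q u * Cfsg.reflectionMatrix ⇑Q v} := by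
  classical
  open Cfsg.Agent.Lib.Classical.Orth Cfsg.Agent.Lib.Classical in
  set R := {g : ↥(Cfsg.isometryGroup F ⇑Q) | ∃ v : Fin n → F, Q v ≠ 0 ∧
      ((g : Matrix.GeneralLinearGroup (Fin n) F) : Matrix (Fin n) (Fin n) F) = Cfsg.reflectionMatrix ⇑Q v} with hR
  set S := {g : ↥(Cfsg.isometryGroup F ⇑Q) | ∃ u v : Fin n → F, Q u ≠ 0 ∧ Q v ≠ 0 ∧
      ((g : Matrix.GeneralLinearGroup (Fin n) F) : Matrix (Fin n) (Fin n) F) = Cfsg.reflectionMatrix ⇑Q u * Cfsg.reflectionMatrix ⇑Q v} with hS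
  have hdet : ∀ g : ↥(Cfsg.isometryGroup F ⇑Q),
      g ∈ Cfsg.specialIsometryGroup F ⇑Q ↔ ((g : Matrix.GeneralLinearGroup (Fin n) F) : Matrix (Fin n) (Fin n) F).det = 1 := by
    intro g
    unfold Cfsg.specialIsometryGroup
    rw [MonoidHom.mem_ker, Units.ext_iff]
    rfl
  have hle : Subgroup.closure S ≤ Cfsg.specialIsometryGroup F ⇑Q := by
    rw [Subgroup.closure_le]
    rintro g ⟨u, v, hu, hv, hg⟩
    change g ∈ Cfsg.specialIsometryGroup F ⇑Q
    rw [hdet, hg, Matrix.det_mul, Cfsg.Agent.Lib.Classical.reflectionMatrix_det Q u hu,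
      Cfsg.Agent.Lib.Classical.reflectionMatrix_det Q v hv]
    ring
  have hRinv : ∀ y ∈ R, y⁻¹ = y := by
    rintro y ⟨v, hv, hy⟩
    apply inv_eq_of_mul_eq_one_left
    have hy' : y = Cfsg.Agent.Lib.Classical.reflIso Q v hv := by
      apply Subtype.ext
      apply Units.ext
      exact hy
    rw [hy']
    apply (Cfsg.Agent.Lib.Classical.Orth.toOG Q).injective
    rw [map_mul, Cfsg.Agent.Lib.Classical.Orth.toOG_reflIso, Cfsg.Agent.Lib.Classical.Orth.refl_mul_self, map_one]
  have hpair : ∀ y ∈ R, ∀ r ∈ R, r * y ∈ Subgroup.closure S := by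
    rintro y ⟨v, hv, hy⟩ r ⟨u, hu, hr⟩
    apply Subgroup.subset_closure
    refine ⟨u, v, hu, hv, ?_⟩
    rw [← hy, ← hr]
    rfl
  have key : ∀ g ∈ Subgroup.closure R, g ∈ Subgroup.closure S ∨ ∃ r ∈ R, g * r ∈ Subgroup.closure S := by
    intro g hg
    have hstep : ∀ g y, y ∈ R → (g ∈ Subgroup.closure S ∨ ∃ r ∈ R, g * r ∈ Subgroup.closure S) →
        (g * y ∈ Subgroup.closure S ∨ ∃ r ∈ R, g * y * r ∈ Subgroup.closure S) := by
      intro g y hy h
      rcases h with h | ⟨r, hr, h⟩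
      · right
        refine ⟨y, hy, ?_⟩
        have : g * y * y = g * (y⁻¹ * y) := by
          rw [hRinv y hy, mul_assoc]
        rw [this, inv_mul_cancel, mul_one]
        exact h
      · left
        have : g * y = (g * r) * (r * y) := by
          have h1 : r * r = 1 := by
            nth_rewrite 1 [← hRinv r hr]
            exact inv_mul_cancel r
          rw [mul_assoc, ← mul_assoc r r y, h1, one_mul]
        rw [this]
        exact Subgroup.mul_mem _ h (hpair y hy r hr)
    induction hg using Subgroup.closure_induction_right with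
    | one => exact Or.inl (Subgroup.one_mem _)
    | mul_right x _ y hy ih => exact hstep x y hy ih
    | mul_inv_cancel x _ y hy ih =>
      rw [hRinv y hy]
      exact hstep x y hy ih
  apply le_antisymm _ hle
  intro g hg
  have htop := Cfsg.Agent.Lib.Classical.Orth.closure_reflections_top Q (Cfsg.Agent.Lib.Classical.Orth.Rf_eq_top_odd h2 hQ)
  have hmem : g ∈ Subgroup.closure R := by
    rw [hR, htop]
    trivial
  rcases key g hmem with h | ⟨r, hr, h⟩
  · exact h
  · exfalso
    have h1 := (hdet _).mp (hle h)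
    obtain ⟨v, hv, hrv⟩ := hr
    have h3 : ((g * r : ↥(Cfsg.isometryGroup F ⇑Q)) : Matrix.GeneralLinearGroup (Fin n) F).1 =
        ((g : Matrix.GeneralLinearGroup (Fin n) F) : Matrix (Fin n) (Fin n) F) * Cfsg.reflectionMatrix ⇑Q v := by
      rw [← hrv]
      rfl
    have h4 : ((g * r : ↥(Cfsg.isometryGroup F ⇑Q)) : Matrix.GeneralLinearGroup (Fin n) F).1.det = 1 := h1
    rw [h3, Matrix.det_mul, (hdet g).mp hg, Cfsg.Agent.Lib.Classical.reflectionMatrix_det Q v hv] at h4
    have h5 : (2 : F) = 0 := by linear_combination -h4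
    exact h2 h5

end Cfsg.Agent.S0792
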