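import Cfsg.Statements.S0793
import Mathlib
import Cfsg.Agent.Lib.Classical.QuadMatrix

set_option autoImplicit false
open Cfsg

namespace Cfsg.Agent.S0793

/-- Root elements: if Q(u) = Q(v) = 0 and f(u, v) = 0 (f the polar form), then for every c the Siegel matrix T_(u,v)(c) preserves Q, fixes u and v, and T(c) T(d) = T(c + d). -/
theorem result {F : Type*} [Field F] {n : ℕ} (Q : QuadraticForm F (Fin n → F)) (u v : Fin n → F) (hu : Q u = 0) (hv : Q v = 0) (huv : QuadraticMap.polar ⇑Q u v = 0) : (∀ c x, Q ((Cfsg.siegelMatrix ⇑Q u v c).mulVec x) = Q x) ∧ (∀ c, (Cfsg.siegelMatrix ⇑Q u v c).mulVec u = u ∧ (Cfsg.siegelMatrix ⇑Q u v c).mulVec v = v) ∧ ∀ c d, Cfsg.siegelMatrix ⇑Q u v c * Cfsg.siegelMatrix ⇑Q u v d = Cfsg.siegelMatrix ⇑Q u v (c + d) := by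
  have hpu : QuadraticMap.polar (⇑Q) u u = 0 := by rw [Cfsg.Agent.Lib.Classical.polar_add_smul_self, hu, mul_zero]
  have hpv : QuadraticMap.polar (⇑Q) v v = 0 := by rw [Cfsg.Agent.Lib.Classical.polar_add_smul_self, hv, mul_zero]
  have huv' : QuadraticMap.polar (⇑Q) v u = 0 := by rw [Cfsg.Agent.Lib.Classical.polar_comm', huv]
  have hlin : ∀ a b x y : Fin n → F, True := fun _ _ _ _ => trivial
  have hp := QuadraticMap.polarBilin Q
  -- the polar form is additive
  have hpol : ∀ z a b x : Fin n → F, ∀ s t : F, QuadraticMap.polar (⇑Q) z (x + s • a - t • b) =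
      QuadraticMap.polar (⇑Q) z x + s * QuadraticMap.polar (⇑Q) z a - t * QuadraticMap.polar (⇑Q) z b := by
    intro z a b x s t
    have : ∀ y, QuadraticMap.polar (⇑Q) z y = QuadraticMap.polarBilin Q z y := fun _ => rfl
    simp only [this, map_sub, map_add, map_smul, smul_eq_mul]
  refine ⟨fun c x => ?_, fun c => ⟨?_, ?_⟩, fun c d => ?_⟩
  · rw [Cfsg.Agent.Lib.Classical.siegelMatrix_mulVec, sub_eq_add_neg, add_assoc, ← neg_smul]
    set a := c * QuadraticMap.polar (⇑Q) u x with ha
    set b := -(c * QuadraticMap.polar (⇑Q) v x) with hb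
    have hsum : a • v + b • u = (a • v + b • u) := rfl
    have e1 : Q (x + (a • v + b • u)) = Q x + Q (a • v + b • u) + QuadraticMap.polar (⇑Q) x (a • v + b • u) := by
      simp [QuadraticMap.polar]
    have e2 : Q (a • v + b • u) = a * a * Q v + b * b * Q u + QuadraticMap.polar (⇑Q) (a • v) (b • u) := by
      simp [QuadraticMap.polar, QuadraticMap.map_smul]
    have e3 : QuadraticMap.polar (⇑Q) (a • v) (b • u) = a * b * QuadraticMap.polar (⇑Q) v u := by
      have : ∀ y z, QuadraticMap.polar (⇑Q) y z = QuadraticMap.polarBilin Q y z := fun _ _ => rfl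
      simp only [this, map_smul, LinearMap.smul_apply, smul_eq_mul]
      ring
    have e4 : QuadraticMap.polar (⇑Q) x (a • v + b • u) = a * QuadraticMap.polar (⇑Q) x v + b * QuadraticMap.polar (⇑Q) x u := by
      have : ∀ y z, QuadraticMap.polar (⇑Q) y z = QuadraticMap.polarBilin Q y z := fun _ _ => rfl
      simp only [this, map_add, map_smul, smul_eq_mul]
    rw [e1, e2, e3, e4, hu, hv, huv', Cfsg.Agent.Lib.Classical.polar_comm' Q x v, Cfsg.Agent.Lib.Classical.polar_comm' Q x u, ha, hb]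
    ring
  · rw [Cfsg.Agent.Lib.Classical.siegelMatrix_mulVec, hpu, huv']; simp
  · rw [Cfsg.Agent.Lib.Classical.siegelMatrix_mulVec, huv, hpv]; simp
  · apply Matrix.toLin'.injective
    apply LinearMap.ext
    intro x
    simp only [Matrix.toLin'_apply, ← Matrix.mulVec_mulVec, Cfsg.Agent.Lib.Classical.siegelMatrix_mulVec]
    rw [hpol u v u x, hpol v v u x, hpu, huv, huv', hpv]
    simp only [mul_zero, add_zero, sub_zero]
    (module)

end Cfsg.Agent.S0793
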