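import Cfsg.Statements.S0794
import Mathlib
import Cfsg.Agent.Lib.Classical.OrthSing
import Cfsg.Agent.Lib.Classical.QuadMatrix

set_option autoImplicit false
open Cfsg

namespace Cfsg.Agent.S0794

open Cfsg.Agent.Lib.Classical Cfsg.Agent.Lib.Classical.Orth Cfsg.Agent.Lib.Classical.Witt in
/-- The bridge to matrices. -/
lemma toOG_eq_sg {F : Type*} [Field F] {n : ℕ} (Q : QuadraticForm F (Fin n → F)) {u v : Fin n → F}
    (hu : Q u = 0) (hv : Q v = 0) (huv : QuadraticMap.polar ⇑Q u v = 0) (c : F)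
    (g : ↥(Cfsg.isometryGroup F ⇑Q))
    (hg : ((g : Matrix.GeneralLinearGroup (Fin n) F) : Matrix (Fin n) (Fin n) F) = Cfsg.siegelMatrix ⇑Q u v c) :
    toOG Q g = sg Q u (c • v) := by
  apply OG_ext
  intro x
  rw [toOG_apply, hg, siegelMatrix_mulVec, sg_eq_of_sing hu hv huv c x]
  simp only [smul_smul]
  rfl

/-- For q odd, n ≥ 5 and Q with non-degenerate polar form: an isometry whose matrix is a Siegel transformation T_(u,v)(c) (u, v singular and orthogonal) is a commutator in the isometry group, so lies in Ω. -/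
theorem result {F : Type*} [Field F] [Fintype F] (h2 : (2 : F) ≠ 0) {n : ℕ} (hn : 5 ≤ n) (Q : QuadraticForm F (Fin n → F)) (hQ : (QuadraticMap.polarBilin Q).Nondegenerate) (u v : Fin n → F) (hu : Q u = 0) (hv : Q v = 0) (huv : QuadraticMap.polar ⇑Q u v = 0) (c : F) (g : ↥(Cfsg.isometryGroup F ⇑Q)) (hg : ((g : Matrix.GeneralLinearGroup (Fin n) F) : Matrix (Fin n) (Fin n) F) = Cfsg.siegelMatrix ⇑Q u v c) : g ∈ commutatorSet ↥(Cfsg.isometryGroup F ⇑Q) ∧ g ∈ Cfsg.Omega F ⇑Q := by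
  open Cfsg.Agent.Lib.Classical Cfsg.Agent.Lib.Classical.Orth Cfsg.Agent.Lib.Classical.Witt in
  have hfr : 5 ≤ Module.finrank F (Fin n → F) := by simpa using hn
  have hg' := toOG_eq_sg Q hu hv huv c g hg
  have hm : toOG Q g ∈ commutator (OG Q) := by
    rw [hg']
    exact sg_mem_comm hQ hfr hu (by
      rw [map_smul]
      have : QuadraticMap.polarBilin Q u v = 0 := huv
      rw [this, smul_zero])
  refine ⟨?_, (mem_Omega_iff Q g).mpr hm⟩
  obtain ⟨z, z', h1, h3, h4, h5, h6⟩ := exists_pair_orth hQ hfr u v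
  refine ⟨(toOG Q).symm (sg Q u z), (toOG Q).symm (sg Q v (c • z')), ?_⟩
  apply (toOG Q).injective
  rw [map_commutatorElement, MulEquiv.apply_symm_apply, MulEquiv.apply_symm_apply, hg',
    comm_sg hu hv huv h1 h3 (by rw [map_smul, h4, smul_zero]) (by rw [map_smul, h5, smul_zero])]
  rw [map_smul, h6, smul_eq_mul, mul_one]

end Cfsg.Agent.S0794
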