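import Cfsg.Statements.S0795
import Mathlib
import Cfsg.Agent.S0794
import Cfsg.Agent.Lib.Classical.OrthSing
import Cfsg.Agent.Lib.Classical.QuadMatrix

set_option autoImplicit false
open Cfsg

namespace Cfsg.Agent.S0795

/-- Generation of Ω by root elements: for q odd, n ≥ 5 and Q with non-degenerate polar form on F^n, the commutator subgroup of the isometry group equals the subgroup generated by the isometries whose matrices are Siegel transformations T_(u,v)(c) with u, v singular and orthogonal. -/
theorem result {F : Type*} [Field F] [Fintype F] (h2 : (2 : F) ≠ 0) {n : ℕ} (hn : 5 ≤ n) (Q : QuadraticForm F (Fin n → F)) (hQ : (QuadraticMap.polarBilin Q).Nondegenerate) : Cfsg.Omega F ⇑Q = Subgroup.closure {g : ↥(Cfsg.isometryGroup F ⇑Q) | ∃ (u v : Fin n → F) (c : F), Q u = 0 ∧ Q v = 0 ∧ QuadraticMap.polar ⇑Q u v = 0 ∧ ((g : Matrix.GeneralLinearGroup (Fin n) F) : Matrix (Fin n) (Fin n) F) = Cfsg.siegelMatrix ⇑Q u v c} := by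
  open Cfsg.Agent.Lib.Classical Cfsg.Agent.Lib.Classical.Orth Cfsg.Agent.Lib.Classical.Witt in
  have hfr : 5 ≤ Module.finrank F (Fin n → F) := by simpa using hn
  apply le_antisymm
  · intro g hg
    have h1 : toOG Q g ∈ EEs Q := by
      rw [EEs_eq hQ hfr, EE_eq_comm hQ hfr]
      exact (mem_Omega_iff Q g).mp hg
    have key : ∀ x ∈ EEs Q, (toOG Q).symm x ∈ Subgroup.closure {g : ↥(Cfsg.isometryGroup F ⇑Q) | ∃ (u v : Fin n → F) (c : F), Q u = 0 ∧ Q v = 0 ∧ QuadraticMap.polar ⇑Q u v = 0 ∧ ((g : Matrix.GeneralLinearGroup (Fin n) F) : Matrix (Fin n) (Fin n) F) = Cfsg.siegelMatrix ⇑Q u v c} := by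
      intro x hx
      induction hx using Subgroup.closure_induction with
      | mem x hx =>
        obtain ⟨u, v, hu, hv, huv, rfl⟩ := hx
        refine Subgroup.subset_closure ⟨u, v, 1, hu, hv, huv, ?_⟩
        apply Matrix.mulVec_injective
        funext y
        rw [toOG_symm_apply, siegelMatrix_mulVec]
        have huv' : QuadraticMap.polar ⇑Q u v = 0 := huv
        have := sg_eq_of_sing hu hv huv 1 y
        rw [one_smul] at this
        rw [this]
        simp only [one_smul, one_mul]
        rfl
      | one => simp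
      | mul x y _ _ h3 h4 =>
        rw [map_mul]
        exact Subgroup.mul_mem _ h3 h4
      | inv x _ h3 =>
        rw [map_inv]
        exact Subgroup.inv_mem _ h3
    simpa using key _ h1
  · rw [Subgroup.closure_le]
    rintro g ⟨u, v, c, hu, hv, huv, hg⟩
    exact (Cfsg.Agent.S0794.result h2 hn Q hQ u v hu hv huv c g hg).2

end Cfsg.Agent.S0795
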