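import Cfsg.Statements.S0796
import Mathlib

set_option autoImplicit false
open Cfsg

namespace Cfsg.Agent.S0796

/-- If G is finite and acts faithfully and primitively on X, H is the stabiliser of a point, A is a normal subgroup of H whose normal closure in G is G, then for every non-trivial normal subgroup K of G the quotient G ⧸ K is isomorphic to A ⧸ B for some normal subgroup B of A. -/
theorem result {G X : Type*} [Group G] [Finite G] [MulAction G X] [FaithfulSMul G X] (hprim : MulAction.IsPreprimitive G X) (x : X) (A : Subgroup G) (hA : A ≤ MulAction.stabilizer G x) (hAn : (A.subgroupOf (MulAction.stabilizer G x)).Normal) (hgen : Subgroup.normalClosure (A : Set G) = ⊤) (K : Subgroup G) [K.Normal] (hK : K ≠ ⊥) : ∃ (B : Subgroup A) (_ : B.Normal), Nonempty (G ⧸ K ≃* A ⧸ B) := by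
  classical
  have hcoat : ∀ N : Subgroup G, N.Normal → N ≠ ⊥ → N ⊔ MulAction.stabilizer G x = ⊤ := by
    intro N hN hN0
    have : Nontrivial X := by
      by_contra hnt
      rw [not_nontrivial_iff_subsingleton] at hnt
      apply hN0
      rw [eq_bot_iff]
      intro g _
      rw [Subgroup.mem_bot]
      apply FaithfulSMul.eq_of_smul_eq_smul (α := X)
      intro y
      exact Subsingleton.elim _ _
    have hmax : IsCoatom (MulAction.stabilizer G x) :=
      (MulAction.isCoatom_stabilizer_iff_preprimitive G x).mpr hprim
    by_contra hne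
    have hle : N ≤ MulAction.stabilizer G x := by
      have h1 : MulAction.stabilizer G x ≤ N ⊔ MulAction.stabilizer G x := le_sup_right
      rcases (hmax.le_iff.mp h1) with h2 | h2
      · exact absurd h2 hne
      · rw [← h2]; exact le_sup_left
    apply hN0
    rw [eq_bot_iff]
    intro g hg
    rw [Subgroup.mem_bot]
    apply FaithfulSMul.eq_of_smul_eq_smul (α := X)
    intro y
    obtain ⟨h, rfl⟩ := MulAction.exists_smul_eq G x y
    rw [one_smul, ← mul_smul]
    have h3 : h⁻¹ * g * h ∈ N := by
      have := hN.conj_mem g hg h⁻¹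
      simpa using this
    have h4 := hle h3
    rw [MulAction.mem_stabilizer_iff] at h4
    have : g * h = h * (h⁻¹ * g * h) := by group
    rw [this, mul_smul, h4]
  have hKS := hcoat K inferInstance hK
  -- K ⊔ A is normal
  have hNorm : (K ⊔ A).Normal := by
    constructor
    intro n hn g
    have hg : g ∈ K ⊔ MulAction.stabilizer G x := by rw [hKS]; trivial
    -- the normaliser of K ⊔ A contains K and the stabiliser
    have hKle : K ≤ Subgroup.normalizer ((K ⊔ A : Subgroup G) : Set G) := by
      refine le_trans ?_ Subgroup.le_normalizer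
      exact le_sup_left
    have hSle : MulAction.stabilizer G x ≤ Subgroup.normalizer ((K ⊔ A : Subgroup G) : Set G) := by
      intro s hs
      have hAs : ∀ a ∈ A, s * a * s⁻¹ ∈ A := by
        intro a ha
        have := (hAn).conj_mem ⟨a, hA ha⟩ (Subgroup.mem_subgroupOf.mpr ha) ⟨s, hs⟩
        simpa [Subgroup.mem_subgroupOf] using this
      have h1 : (K ⊔ A).map (MulAut.conj s).toMonoidHom ≤ K ⊔ A := by
        rw [Subgroup.map_sup]
        apply sup_le_sup
        · rintro _ ⟨k, hk, rfl⟩
          exact (inferInstance : K.Normal).conj_mem k hk s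
        · rintro _ ⟨a, ha, rfl⟩
          exact hAs a ha
      have h2 : (K ⊔ A).map (MulAut.conj s⁻¹).toMonoidHom ≤ K ⊔ A := by
        have hAs' : ∀ a ∈ A, s⁻¹ * a * s ∈ A := by
          intro a ha
          have := (hAn).conj_mem ⟨a, hA ha⟩ (Subgroup.mem_subgroupOf.mpr ha) ⟨s⁻¹, inv_mem hs⟩
          simpa [Subgroup.mem_subgroupOf] using this
        rw [Subgroup.map_sup]
        apply sup_le_sup
        · rintro _ ⟨k, hk, rfl⟩
          have := (inferInstance : K.Normal).conj_mem k hk s⁻¹
          simpa using this
        · rintro _ ⟨a, ha, rfl⟩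
          simpa using hAs' a ha
      rw [Subgroup.mem_normalizer_iff]
      intro n
      constructor
      · intro hn
        exact h1 ⟨n, hn, rfl⟩
      · intro hn
        have := h2 ⟨s * n * s⁻¹, hn, rfl⟩
        simpa [mul_assoc] using this
    have := (sup_le hKle hSle) hg
    rw [Subgroup.mem_normalizer_iff] at this
    exact (this n).mp hn
  have hTop : K ⊔ A = ⊤ := by
    rw [eq_top_iff, ← hgen]
    apply Subgroup.normalClosure_le_normal
    intro a ha
    exact (le_sup_right : A ≤ K ⊔ A) ha
  let φ : A →* G ⧸ K := (QuotientGroup.mk' K).comp A.subtype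
  have hφ : Function.Surjective φ := by
    intro y
    obtain ⟨g, rfl⟩ := QuotientGroup.mk_surjective y
    have hg : g ∈ A ⊔ K := by rw [sup_comm, hTop]; trivial
    rw [Subgroup.mem_sup_of_normal_right] at hg
    obtain ⟨a, ha, k, hk, rfl⟩ := hg
    refine ⟨⟨a, ha⟩, ?_⟩
    simp only [φ, MonoidHom.comp_apply, QuotientGroup.mk'_apply, Subgroup.subtype_apply]
    rw [eq_comm, QuotientGroup.eq]
    simpa using hk
  exact ⟨φ.ker, inferInstance, ⟨(QuotientGroup.quotientKerEquivOfSurjective φ hφ).symm⟩⟩

end Cfsg.Agent.S0796
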