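import Cfsg.Statements.S0798
import Mathlib
import Cfsg.Agent.Lib.Classical.OrthRc

set_option autoImplicit false
open Cfsg

namespace Cfsg.Agent.S0798

/-- For q odd, n ≥ 2 even, Q with non-degenerate polar form (n, |F|) ≠ (4, 3), and a fixed c ≠ 0: the subgroup of the isometry group generated by the reflections r_v with Q(v) ∈ c·(F^×)² has index 2. -/
theorem result {F : Type*} [Field F] [Fintype F] (h2 : (2 : F) ≠ 0) {n : ℕ} (hn : 2 ≤ n) (heven : Even n) (Q : QuadraticForm F (Fin n → F)) (hQ : (QuadraticMap.polarBilin Q).Nondegenerate) (h43 : ¬ (n = 4 ∧ Fintype.card F = 3)) (c : F) (hc : c ≠ 0) : (Subgroup.closure {g : ↥(Cfsg.isometryGroup F ⇑Q) | ∃ (v : Fin n → F) (t : F), t ≠ 0 ∧ Q v = c * t ^ 2 ∧ ((g : Matrix.GeneralLinearGroup (Fin n) F) : Matrix (Fin n) (Fin n) F) = Cfsg.reflectionMatrix ⇑Q v}).index = 2 := by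
  classical
  have hclos : (Subgroup.closure {g : ↥(Cfsg.isometryGroup F ⇑Q) | ∃ (v : Fin n → F) (t : F), t ≠ 0 ∧ Q v = c * t ^ 2 ∧ ((g : Matrix.GeneralLinearGroup (Fin n) F) : Matrix (Fin n) (Fin n) F) = Cfsg.reflectionMatrix ⇑Q v}).map (Cfsg.Agent.Lib.Classical.Orth.toOG Q).toMonoidHom = Cfsg.Agent.Lib.Classical.OrthRc.Rc Q c := by
    rw [MonoidHom.map_closure]
    unfold Cfsg.Agent.Lib.Classical.OrthRc.Rc
    congr 1
    ext x
    constructor
    · rintro ⟨g, ⟨v, t, ht, hvt, hg⟩, rfl⟩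
      have hv : Q v ≠ 0 := by
        rw [hvt]
        exact mul_ne_zero hc (pow_ne_zero 2 ht)
      exact ⟨v, hv, t, ht, hvt, (Cfsg.Agent.Lib.Classical.Orth.toOG_eq_refl_iff Q g v hv).mpr hg⟩
    · rintro ⟨v, hv, t, ht, hvt, rfl⟩
      refine ⟨(Cfsg.Agent.Lib.Classical.Orth.toOG Q).symm (Cfsg.Agent.Lib.Classical.Orth.refl Q v hv), ⟨v, t, ht, hvt, ?_⟩, ?_⟩
      · apply (Cfsg.Agent.Lib.Classical.Orth.toOG_eq_refl_iff Q _ v hv).mp
        simp
      · simp
  refine (Subgroup.index_map_of_bijective (f := (Cfsg.Agent.Lib.Classical.Orth.toOG Q).toMonoidHom) (Cfsg.Agent.Lib.Classical.Orth.toOG Q).bijective _).symm.trans ?_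
  have h := congrArg Subgroup.index hclos
  refine Eq.trans h ?_
  apply Cfsg.Agent.Lib.Classical.OrthRc.index_Rc h2 hQ
  · simpa using hn
  · intro hq
    rw [Module.finrank_fin_fun]
    obtain ⟨k, rfl⟩ := heven
    have h4 : k + k ≠ 4 := fun h => h43 ⟨h, hq⟩
    omega
  · exact hc

end Cfsg.Agent.S0798
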