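import Cfsg.Statements.S0799
import Mathlib
import Cfsg.Agent.Lib.Classical.Dick.Main

set_option autoImplicit false
open Cfsg

namespace Cfsg.Agent.S0799

open Cfsg.Agent.Lib.Classical.Dick Cfsg.Agent.Lib.KS2.SL2 in
private theorem aux_good {F : Type*} [Field F] [Fintype F] {q : ℕ} (hF : Fintype.card F = q)
    (H : Subgroup (Matrix.ProjectiveSpecialLinearGroup (Fin 2) F)) (s : ℕ) (h : Good H s) :
    ∃ (K : Type) (_ : Field K) (_ : Fintype K) (m : ℕ), Fintype.card K ^ m = q ∧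
      (Nonempty (H ≃* Matrix.ProjectiveSpecialLinearGroup (Fin 2) K) ∨
       Nonempty (H ≃* Matrix.ProjGenLinGroup (Fin 2) K)) := by
  classical
  obtain ⟨E, f, hE, -, -, -, -, hiso⟩ := h
  haveI : Fintype E := Fintype.ofFinite _
  let e0 : {x : Fin (Fintype.card E) // True} ≃ E :=
    (Equiv.subtypeUnivEquiv (fun _ => trivial)).trans (Fintype.equivFin E).symm
  letI : Field {x : Fin (Fintype.card E) // True} := e0.field
  let r : E ≃+* {x : Fin (Fintype.card E) // True} := (e0.ringEquiv).symm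
  refine ⟨{x : Fin (Fintype.card E) // True}, inferInstance, inferInstance, Module.finrank E F, ?_, ?_⟩
  · rw [Fintype.card_congr e0, ← hF]
    exact (Module.card_eq_pow_finrank (K := E) (V := F)).symm
  · rcases hiso with (⟨⟨i⟩⟩ | ⟨⟨i⟩⟩)
    · exact Or.inl ⟨i.trans (Cfsg.Agent.Lib.Classical.RC.pslCongr r)⟩
    · refine Or.inr ⟨i.trans ?_⟩
      exact QuotientGroup.congr _ _ (Cfsg.Agent.Lib.Classical.RC.glCongr r) (Cfsg.Agent.Lib.Classical.RC.map_center_eq _)

/-- Dickson's classification of the subgroups of PSL_2(q), q a power of the prime p, d = gcd(2, q − 1): every subgroup H is (a) cyclic or dihedral with k dividing (q+1)/d or (q−1)/d (cyclic of order k, or dihedral of order 2k), (b) isomorphic to a subgroup of the normaliser of a Sylow p-subgroup, (c) isomorphic to A_4, S_4 or A_5, or (d) isomorphic to PSL_2(K) or PGL_2(K) for a finite field K with |K|^m = q. -/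
theorem result {F : Type*} [Field F] [Fintype F] {q : ℕ} (hF : Fintype.card F = q) (p : ℕ) [Fact p.Prime] [CharP F p] (H : Subgroup (Matrix.ProjectiveSpecialLinearGroup (Fin 2) F)) : (∃ k : ℕ, (k ∣ (q + 1) / Nat.gcd 2 (q - 1) ∨ k ∣ (q - 1) / Nat.gcd 2 (q - 1)) ∧ ((IsCyclic H ∧ Nat.card H = k) ∨ Nonempty (H ≃* DihedralGroup k))) ∨ (∃ (P : Sylow p (Matrix.ProjectiveSpecialLinearGroup (Fin 2) F)) (K : Subgroup (Matrix.ProjectiveSpecialLinearGroup (Fin 2) F)), K ≤ Subgroup.normalizer ((P : Subgroup (Matrix.ProjectiveSpecialLinearGroup (Fin 2) F)) : Set (Matrix.ProjectiveSpecialLinearGroup (Fin 2) F)) ∧ Nonempty (H ≃* K)) ∨ Nonempty (H ≃* alternatingGroup (Fin 4)) ∨ Nonempty (H ≃* Equiv.Perm (Fin 4)) ∨ Nonempty (H ≃* alternatingGroup (Fin 5)) ∨ (∃ (K : Type) (_ : Field K) (_ : Fintype K) (m : ℕ), Fintype.card K ^ m = q ∧ (Nonempty (H ≃* Matrix.ProjectiveSpecialLinearGroup (Fin 2) K) ∨ Nonempty (H ≃* Matrix.ProjGenLinGroup (Fin 2) K)))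 := by
  rcases Cfsg.Agent.Lib.Classical.Dick.dickson_main hF p H with h | ⟨Q, hQ⟩ | h | h | h | ⟨S, -, -, hS⟩
  · exact Or.inl h
  · exact Or.inr (Or.inl ⟨Q, H, hQ, ⟨MulEquiv.refl _⟩⟩)
  · exact Or.inr (Or.inr (Or.inl h))
  · exact Or.inr (Or.inr (Or.inr (Or.inl h)))
  · exact Or.inr (Or.inr (Or.inr (Or.inr (Or.inl h))))
  · exact Or.inr (Or.inr (Or.inr (Or.inr (Or.inr (aux_good hF H _ hS)))))

end Cfsg.Agent.S0799
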