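import Cfsg.Statements.S0802
import Mathlib
import Cfsg.Agent.Lib.Classical.Dick.NV2

set_option autoImplicit false
open Cfsg

namespace Cfsg.Agent.S0802

/-- PSL_2(p^n) has a subgroup isomorphic to A_4 if and only if it is not the case that p = 2 and n is odd. -/
theorem result {F : Type*} [Field F] [Fintype F] (p n : ℕ) [Fact p.Prime] [CharP F p] (hF : Fintype.card F = p ^ n) : (∃ H : Subgroup (Matrix.ProjectiveSpecialLinearGroup (Fin 2) F), Nonempty (H ≃* alternatingGroup (Fin 4))) ↔ ¬ (p = 2 ∧ Odd n) := by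
  have hpp : p.Prime := Fact.out
  constructor
  · rintro ⟨H, ⟨i⟩⟩ ⟨rfl, hn⟩
    exact Cfsg.Agent.Lib.Classical.Dick.no_A4_odd n hF hn H i
  · intro h
    by_cases hp2 : p = 2
    · subst hp2
      have hn : ¬ Odd n := fun hn => h ⟨rfl, hn⟩
      obtain ⟨m, hm⟩ := Nat.not_odd_iff_even.mp hn
      have hm' : n = 2 * m := by omega
      have hq : 2 ≤ Fintype.card F := Fintype.one_lt_card
      have hm0 : 1 ≤ m := by
        by_contra hm1
        have : m = 0 := by omega
        subst this
        rw [hm'] at hF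
        simp at hF
        omega
      rw [hm'] at hF
      exact Cfsg.Agent.Lib.Classical.Dick.exists_A4_even m hF hm0
    · apply Cfsg.Agent.Lib.Classical.Dick.exists_A4_odd
      intro h20
      have h3 : ((2 : ℕ) : F) = 0 := by exact_mod_cast h20
      have h4 : p ∣ 2 := (CharP.cast_eq_zero_iff F p 2).mp h3
      exact hp2 ((Nat.prime_dvd_prime_iff_eq hpp Nat.prime_two).mp h4)

end Cfsg.Agent.S0802
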