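import Cfsg.Statements.S0803
import Mathlib
import Cfsg.Agent.Lib.Classical.Dick.NV2

set_option autoImplicit false
open Cfsg

namespace Cfsg.Agent.S0803

/-- PSL_2(q) has a subgroup isomorphic to S_4 iff q² ≡ 1 (mod 16). -/
theorem result {F : Type*} [Field F] [Fintype F] {q : ℕ} (hF : Fintype.card F = q) : (∃ H : Subgroup (Matrix.ProjectiveSpecialLinearGroup (Fin 2) F), Nonempty (H ≃* Equiv.Perm (Fin 4))) ↔ q ^ 2 % 16 = 1 := by
  subst hF
  constructor
  · rintro ⟨H, ⟨i⟩⟩
    exact Cfsg.Agent.Lib.Classical.Dick.sq_mod_of_S4 H i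
  · intro h
    have hodd : Fintype.card F % 2 = 1 := by
      by_contra hne
      have h2 : Fintype.card F % 2 = 0 := by omega
      obtain ⟨k, hk⟩ := Nat.dvd_of_mod_eq_zero h2
      rw [hk] at h
      have e : (2 * k) ^ 2 = 2 * (2 * k ^ 2) := by ring
      rw [e] at h
      omega
    have h2 : (2 : F) ≠ 0 := by
      intro h20
      have hc : CharP F 2 := by
        haveI := CharTwo.of_one_ne_zero_of_two_eq_zero (R := F) one_ne_zero h20
        infer_instance
      have := FiniteField.even_card_of_char_two (ringChar.eq F 2)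
      omega
    apply Cfsg.Agent.Lib.Classical.Dick.exists_S4 h2
    rw [FiniteField.isSquare_two_iff]
    have h3 : Fintype.card F % 16 = 1 ∨ Fintype.card F % 16 = 3 ∨ Fintype.card F % 16 = 5 ∨ Fintype.card F % 16 = 7 ∨
        Fintype.card F % 16 = 9 ∨ Fintype.card F % 16 = 11 ∨ Fintype.card F % 16 = 13 ∨ Fintype.card F % 16 = 15 := by omega
    have h4 : Fintype.card F ^ 2 % 16 = (Fintype.card F % 16) ^ 2 % 16 := Nat.pow_mod _ _ _
    rw [h] at h4
    rcases h3 with h3 | h3 | h3 | h3 | h3 | h3 | h3 | h3 <;> rw [h3] at h4 <;> first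
      | omega
      | (norm_num at h4)

end Cfsg.Agent.S0803
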