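import Cfsg.Statements.S0806
import Mathlib
import Cfsg.Agent.Lib.Classical.Dick.Conseq

set_option autoImplicit false
open Cfsg

namespace Cfsg.Agent.S0806

private lemma small_arith (q c P : ℕ) (hq : q ∉ ({2, 3, 5, 7, 9, 11} : Finset ℕ)) (hq2 : 2 ≤ q)
    (hP : Nat.gcd 2 (q - 1) * P = q * (q ^ 2 - 1)) (hc : c = 12 ∨ c = 24 ∨ c = 60) (hdvd : c ∣ P)
    (hi : q ^ 2 - 1 ≤ Nat.gcd 2 (q - 1) * c) (hne : c ≠ P) (h6 : q ≠ 6) : False := by
  have hg : Nat.gcd 2 (q - 1) ≤ 2 := Nat.le_of_dvd (by norm_num) (Nat.gcd_dvd_left _ _)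
  have hc60 : c ≤ 60 := by
    rcases hc with rfl | rfl | rfl <;> norm_num
  have h120 : q ^ 2 - 1 ≤ 120 := le_trans hi (Nat.mul_le_mul hg hc60)
  have hq12 : q ≤ 11 := by
    by_contra h
    have : 12 ≤ q := by omega
    have h2 : 144 ≤ q ^ 2 := by nlinarith
    omega
  simp only [Finset.mem_insert, Finset.mem_singleton, not_or] at hq
  rcases hc with rfl | rfl | rfl <;> interval_cases q <;> first
    | omega
    | (norm_num at hP hi; done)
    | (norm_num at hP hi; omega)

/-- Minimal index (Galois): if q ∉ {2, 3, 5, 7, 9, 11} then every proper subgroup of PSL_2(q) has index ≥ q + 1, and some subgroup has index exactly q + 1. -/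
theorem result {F : Type*} [Field F] [Fintype F] {q : ℕ} (hF : Fintype.card F = q) (hq : q ∉ ({2, 3, 5, 7, 9, 11} : Finset ℕ)) : (∀ H : Subgroup (Matrix.ProjectiveSpecialLinearGroup (Fin 2) F), H ≠ ⊤ → q + 1 ≤ H.index) ∧ ∃ H : Subgroup (Matrix.ProjectiveSpecialLinearGroup (Fin 2) F), H.index = q + 1 := by
  classical
  subst hF
  refine ⟨?_, Cfsg.Agent.Lib.Classical.Dick.BP F, Cfsg.Agent.Lib.Classical.Dick.index_BP⟩
  intro H hH
  by_contra hlt
  push Not at hlt
  obtain ⟨p, hp⟩ := CharP.exists F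
  haveI : Fact p.Prime := ⟨CharP.char_is_prime F p⟩
  have hq1 : 1 < Fintype.card F := Fintype.one_lt_card
  have hqpos : 0 < Fintype.card F := by omega
  have h1 := Cfsg.Agent.Lib.Classical.Dick.card_PP_eq (F := F)
  have h2 := Subgroup.card_mul_index H
  have hdg := Cfsg.Agent.Lib.Classical.Dick.card_roots1_eq_gcd (F := F)
  set d := Nat.card (Cfsg.Agent.Lib.KS2.SL2.Roots1 F) with hd
  have hd2 : d ≤ 2 := by
    rw [hdg]
    exact Nat.le_of_dvd (by norm_num) (Nat.gcd_dvd_left _ _)
  have hd1 : 0 < d := Cfsg.Agent.Lib.Classical.Dick.pos_card_roots F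
  have key : Fintype.card F ^ 2 - 1 ≤ d * Nat.card H := by
    apply Nat.le_of_mul_le_mul_left _ hqpos
    rw [← h1, ← h2]
    calc d * (Nat.card H * H.index) ≤ d * (Nat.card H * Fintype.card F) := by
          apply Nat.mul_le_mul_left
          apply Nat.mul_le_mul_left
          omega
      _ = Fintype.card F * (d * Nat.card H) := by ring
  have hne : Nat.card H ≠ Nat.card (Matrix.ProjectiveSpecialLinearGroup (Fin 2) F) :=
    fun h => hH (Subgroup.eq_top_of_card_eq H h)
  have hdvd : Nat.card H ∣ Nat.card (Matrix.ProjectiveSpecialLinearGroup (Fin 2) F) := Subgroup.card_subgroup_dvd_card H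
  have h6 : Fintype.card F ≠ 6 := by
    intro h
    have : IsPrimePow (Fintype.card F) := FiniteField.isPrimePow_card F
    rw [h] at this
    revert this
    decide
  have hqs := hq
  simp only [Finset.mem_insert, Finset.mem_singleton, not_or] at hqs
  obtain ⟨hq2, hq3, -, -, -, -⟩ := hqs
  rcases Cfsg.Agent.Lib.Classical.Dick.dickson_main rfl p H with ⟨k, hk, h⟩ | ⟨Q, hQ⟩ | ⟨⟨i⟩⟩ | ⟨⟨i⟩⟩ | ⟨⟨i⟩⟩ | ⟨S, hS4, -, hS⟩
  · -- cyclic or dihedral
    have hgp : Nat.gcd 2 (Fintype.card F - 1) = d := hdg.symm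
    rw [hgp] at hk
    have hk2 : d * k ≤ Fintype.card F + 1 := by
      rcases hk with hk | hk
      · have hpos : 0 < (Fintype.card F + 1) / d := Nat.div_pos (by
          have : d ∣ Fintype.card F + 1 := by
            have h3 : d ∣ 2 := by rw [hdg]; exact Nat.gcd_dvd_left _ _
            have h4 : d ∣ Fintype.card F - 1 := by rw [hdg]; exact Nat.gcd_dvd_right _ _
            have e : Fintype.card F + 1 = (Fintype.card F - 1) + 2 := by omega
            rw [e]
            exact Nat.dvd_add h4 h3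
          exact Nat.le_of_dvd (by omega) this) hd1
        calc d * k ≤ d * ((Fintype.card F + 1) / d) := Nat.mul_le_mul_left _ (Nat.le_of_dvd hpos hk)
          _ ≤ Fintype.card F + 1 := Nat.mul_div_le _ _
      · have hpos : 0 < (Fintype.card F - 1) / d := Nat.div_pos (by
          have h4 : d ∣ Fintype.card F - 1 := by rw [hdg]; exact Nat.gcd_dvd_right _ _
          exact Nat.le_of_dvd (by omega) h4) hd1
        calc d * k ≤ d * ((Fintype.card F - 1) / d) := Nat.mul_le_mul_left _ (Nat.le_of_dvd hpos hk)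
          _ ≤ Fintype.card F - 1 := Nat.mul_div_le _ _
          _ ≤ Fintype.card F + 1 := by omega
    have hc : Nat.card H ≤ 2 * k := by
      rcases h with ⟨-, h⟩ | ⟨⟨i⟩⟩
      · omega
      · rw [Nat.card_congr i.toEquiv, DihedralGroup.nat_card]
    have h3 : Fintype.card F ^ 2 - 1 ≤ 2 * (Fintype.card F + 1) := by
      calc Fintype.card F ^ 2 - 1 ≤ d * Nat.card H := key
        _ ≤ d * (2 * k) := Nat.mul_le_mul_left _ hc
        _ = 2 * (d * k) := by ring
        _ ≤ 2 * (Fintype.card F + 1) := Nat.mul_le_mul_left _ hk2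
    rw [Cfsg.Agent.Lib.Classical.Dick.sq_sub_one_eq _ (by omega)] at h3
    have h4 : Fintype.card F - 1 ≤ 2 := Nat.le_of_mul_le_mul_right h3 (by omega)
    omega
  · -- Borel
    have h3 := Cfsg.Agent.Lib.Classical.Dick.card_dvd_BP p Q H hQ
    have h4 := Cfsg.Agent.Lib.Classical.Dick.card_BP_eq (F := F)
    have hBpos : 0 < Nat.card (Cfsg.Agent.Lib.Classical.Dick.BP F) := Nat.card_pos
    have h5 : Nat.card H ≤ Nat.card (Cfsg.Agent.Lib.Classical.Dick.BP F) := Nat.le_of_dvd hBpos h3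
    have h6 : Fintype.card F ^ 2 - 1 ≤ (Fintype.card F - 1) * Fintype.card F := by
      rw [← h4]
      exact le_trans key (Nat.mul_le_mul_left _ h5)
    rw [Cfsg.Agent.Lib.Classical.Dick.sq_sub_one_eq _ (by omega)] at h6
    have h7 : Fintype.card F + 1 ≤ Fintype.card F := Nat.le_of_mul_le_mul_left h6 (by omega)
    omega
  · have hc : Nat.card H = 12 := by rw [Nat.card_congr i.toEquiv, Cfsg.Agent.Lib.Classical.Dick.card_A4]
    rw [hdg] at h1 key
    exact small_arith _ _ _ hq (by omega) h1 (Or.inl hc) hdvd key hne h6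
  · have hc : Nat.card H = 24 := by rw [Nat.card_congr i.toEquiv, Cfsg.Agent.Lib.Classical.Dick.card_S4]
    rw [hdg] at h1 key
    exact small_arith _ _ _ hq (by omega) h1 (Or.inr (Or.inl hc)) hdvd key hne h6
  · have hc : Nat.card H = 60 := by rw [Nat.card_congr i.toEquiv, Cfsg.Agent.Lib.Classical.Dick.card_A5]
    rw [hdg] at h1 key
    exact small_arith _ _ _ hq (by omega) h1 (Or.inr (Or.inr hc)) hdvd key hne h6
  · obtain ⟨⟨m, hm⟩, hle, htop⟩ := Cfsg.Agent.Lib.Classical.Dick.good_facts hS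
    have hsne : Nat.card (S : Subgroup H) ≠ Fintype.card F := fun h => hH (htop h)
    exact Cfsg.Agent.Lib.Classical.Dick.good_index_arith _ _ m d _ (by omega) hS4 hm hsne hd2 hle key

end Cfsg.Agent.S0806
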