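import Cfsg.Statements.S0809
import Mathlib
import Cfsg.Agent.Lib.Classical.PSL2Inv

set_option autoImplicit false
open Cfsg

namespace Cfsg.Agent.S0809

open Cfsg.Agent.Lib.Classical Cfsg.Agent.Lib.Classical.P2

/-- In SL_2(q), q odd: any two subgroups of order 4 are conjugate, and the normaliser of a subgroup of order 4 has order 2(q − 1) if q ≡ 1 (mod 4) and 2(q + 1) if q ≡ 3 (mod 4); consequently all involutions of PSL_2(q) are conjugate. -/
theorem result {F : Type*} [Field F] [Fintype F] {q : ℕ} (hF : Fintype.card F = q) (hodd : Odd q) (A : Subgroup (Matrix.SpecialLinearGroup (Fin 2) F)) (hA : Nat.card A = 4) : (∀ B : Subgroup (Matrix.SpecialLinearGroup (Fin 2) F), Nat.card B = 4 → ∃ g : Matrix.SpecialLinearGroup (Fin 2) F, B = A.map (MulAut.conj g).toMonoidHom) ∧ (q % 4 = 1 → Nat.card ↥(Subgroup.normalizer (A : Set (Matrix.SpecialLinearGroup (Fin 2) F))) = 2 * (q - 1)) ∧ (q % 4 = 3 → Nat.card ↥(Subgroup.normalizer (A : Set (Matrix.SpecialLinearGroup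 (Fin 2) F))) = 2 * (q + 1)) ∧ (∀ x y : Matrix.ProjectiveSpecialLinearGroup (Fin 2) F, orderOf x = 2 → orderOf y = 2 → IsConj x y) := by
  subst hF
  have h2 := two_ne_zero_of_odd hodd
  obtain ⟨g, hg, rfl⟩ := order_four_form h2 hA
  refine ⟨?_, ?_, ?_, ?_⟩
  · intro B hB
    obtain ⟨g', hg', rfl⟩ := order_four_form h2 hB
    obtain ⟨h, hh⟩ := isI_conj h2 hg hg'
    refine ⟨h, ?_⟩
    rw [MonoidHom.map_zpowers]
    congr 1
    exact hh.symm
  · intro h
    rw [card_normalizer h2 hg, card_centralizer_one h2 hg h]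
  · intro h
    rw [card_normalizer h2 hg, card_centralizer_three h2 hg h]
  · intro x y hx hy
    obtain ⟨a, rfl, ha⟩ := exists_lift_isI h2 hx
    obtain ⟨b, rfl, hb⟩ := exists_lift_isI h2 hy
    obtain ⟨c, hc⟩ := isI_conj h2 ha hb
    refine isConj_iff.mpr ⟨QuotientGroup.mk c, ?_⟩
    rw [← hc]
    rfl

end Cfsg.Agent.S0809
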