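import Cfsg.Statements.S0810
import Mathlib
import Cfsg.Agent.Lib.Classical.Dick.Min

set_option autoImplicit false
open Cfsg

namespace Cfsg.Agent.S0810

open Cfsg.Agent.Lib.Classical.Dick

private lemma s_cases (P r s m : ℕ) (hP : P.Prime) (hr : r.Prime) (h : s ^ m = P ^ r) (hs : s ≠ 1) :
    s = P ∨ s = P ^ r := by
  have hm : m ≠ 0 := by
    rintro rfl
    rw [pow_zero] at h
    have : 1 < P ^ r := Nat.one_lt_pow hr.ne_zero hP.one_lt
    omega
  have hd : s ∣ P ^ r := by
    rw [← h]
    exact dvd_pow_self _ hm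
  obtain ⟨a, -, rfl⟩ := (Nat.dvd_prime_pow hP).mp hd
  rw [← pow_mul] at h
  have h2 : a * m = r := Nat.pow_right_injective hP.two_le h
  rcases Nat.prime_mul_iff.mp (h2 ▸ hr) with ⟨-, h3⟩ | ⟨-, h3⟩
  · subst h3
    rw [mul_one] at h2
    rw [h2]
    exact Or.inr rfl
  · subst h3
    exact Or.inl (pow_one _)

private lemma pow_mod5 (x j : ℕ) (hx : x % 5 = 4) : x ^ (2 * j + 1) % 5 = 4 := by
  induction j with
  | zero => simpa using hx
  | succ j ih =>
    have e : x ^ (2 * (j + 1) + 1) = x ^ (2 * j + 1) * (x * x) := by ring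
    rw [e, Nat.mul_mod, ih, Nat.mul_mod x x, hx]

private lemma not5 (q x : ℕ) (hq : q ^ 2 = x) (hx : x % 5 = 4) (hq5 : ¬ 5 ∣ q) : ¬ 5 ∣ q * (q ^ 2 - 1) := by
  intro h
  rcases (by norm_num : Nat.Prime 5).dvd_mul.mp h with h1 | h1
  · exact hq5 h1
  · rw [hq] at h1
    omega

open Cfsg.Agent.Lib.KS2.SL2 in
private lemma excl_A5 {F : Type*} [Field F] [Fintype F] (H : Subgroup (Matrix.ProjectiveSpecialLinearGroup (Fin 2) F))
    (h : ¬ 5 ∣ Fintype.card F * (Fintype.card F ^ 2 - 1)) : Nonempty (H ≃* alternatingGroup (Fin 5)) → False := by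
  rintro ⟨i⟩
  have h1 : Nat.card H = 60 := by rw [Nat.card_congr i.toEquiv, card_A5]
  have h2 : Nat.card H ∣ Nat.card (Matrix.ProjectiveSpecialLinearGroup (Fin 2) F) := Subgroup.card_subgroup_dvd_card H
  rw [h1] at h2
  apply h
  rw [← card_PP_eq]
  exact Dvd.dvd.mul_left ((by norm_num : 5 ∣ 60).trans h2) _

open Cfsg.Agent.Lib.KS2.SL2 in
private lemma excl_A5_60 {F : Type*} [Field F] [Fintype F] (H : Subgroup (Matrix.ProjectiveSpecialLinearGroup (Fin 2) F))
    (hne : H ≠ ⊤) (h : Nat.card (Matrix.ProjectiveSpecialLinearGroup (Fin 2) F) = 60) : Nonempty (H ≃* alternatingGroup (Fin 5)) → False := by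
  rintro ⟨i⟩
  apply hne
  apply Subgroup.eq_top_of_card_eq
  rw [Nat.card_congr i.toEquiv, card_A5, h]

open Cfsg.Agent.Lib.KS2.SL2 in
private theorem aux_forward {F : Type*} [Field F] [Fintype F]
    (hmin : Cfsg.IsMinimalSimple (Matrix.ProjectiveSpecialLinearGroup (Fin 2) F)) :
    ((∃ r : ℕ, r.Prime ∧ Fintype.card F = 2 ^ r) ∨ (∃ r : ℕ, r.Prime ∧ r ≠ 2 ∧ Fintype.card F = 3 ^ r) ∨
      ((Fintype.card F).Prime ∧ 5 < Fintype.card F ∧ (Fintype.card F % 5 = 2 ∨ Fintype.card F % 5 = 3)) ∨ Fintype.card F = 5) := by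
  classical
  obtain ⟨hs, hnc, hall⟩ := hmin
  have hq1 : 2 ≤ Fintype.card F := Fintype.one_lt_card
  have hrb : Nat.card (Roots1 F) ≤ 2 := by
    rw [card_roots1_eq_gcd]
    exact Nat.le_of_dvd (by norm_num) (Nat.gcd_dvd_left _ _)
  have hrp : 1 ≤ Nat.card (Roots1 F) := pos_card_roots F
  have hPP := card_PP_eq (F := F)
  have hq4 : 4 ≤ Fintype.card F := by
    by_contra hlt
    have h1 : Nat.card (Matrix.ProjectiveSpecialLinearGroup (Fin 2) F) < 60 := by
      have h2 : Fintype.card F ≤ 3 := by omega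
      have h3 : Fintype.card F ^ 2 ≤ 9 := by nlinarith
      have h4 : Fintype.card F * (Fintype.card F ^ 2 - 1) ≤ 3 * 8 := Nat.mul_le_mul h2 (by omega)
      have h5 : Nat.card (Matrix.ProjectiveSpecialLinearGroup (Fin 2) F) ≤
          Nat.card (Roots1 F) * Nat.card (Matrix.ProjectiveSpecialLinearGroup (Fin 2) F) := Nat.le_mul_of_pos_left _ hrp
      omega
    have h2 := Cfsg.Agent.Lib.Cl.Pres.solvable_of_card_lt_60 _ h1 (Matrix.ProjectiveSpecialLinearGroup (Fin 2) F) rfl
    apply hnc
    exact ⟨⟨IsSimpleGroup.comm_iff_isSolvable.mpr h2⟩⟩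
  -- subfield subgroups
  have hA : ∀ (K : Type) [Field K] [Fintype K] (m : ℕ), 4 ≤ Fintype.card K → 2 ≤ m →
      Fintype.card K ^ m = Fintype.card F → False := by
    intro K _ _ m hK hm hc
    obtain ⟨E, -, ⟨i⟩⟩ := exists_psl_subgroup (F := F) K m (by omega) hc
    have hne : (embP E).range ≠ ⊤ := by
      apply ne_top_of_card_le _ (Fintype.card K) m (by omega) hm hc
      rw [Nat.card_congr i.toEquiv]
      have := card_PSL2' K
      rw [← this]
      exact Nat.le_mul_of_pos_left _ (pos_card_roots K)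
    have hsol := hall _ hne
    apply not_solvable_PSL K hK
    exact Group.isSolvable_of_isSolvable_injective (f := i.symm.toMonoidHom) i.symm.injective
  -- `A₅`
  have hB : 5 ∣ Fintype.card F * (Fintype.card F ^ 2 - 1) → Fintype.card F ≠ 4 → Fintype.card F ≠ 5 → False := by
    intro h5 h4' h5'
    obtain ⟨H, ⟨i⟩⟩ := exists_A5 h5
    have hne : H ≠ ⊤ := by
      intro htop
      have h1 : Nat.card H = Nat.card (Matrix.ProjectiveSpecialLinearGroup (Fin 2) F) := by
        rw [htop]
        exact Nat.card_congr Subgroup.topEquiv.toEquiv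
      rw [Nat.card_congr i.toEquiv, card_A5] at h1
      rw [← h1] at hPP
      have h6 : 6 ≤ Fintype.card F := by omega
      have h3 : 36 ≤ Fintype.card F ^ 2 := by nlinarith
      have h4 : 6 * 35 ≤ Fintype.card F * (Fintype.card F ^ 2 - 1) := Nat.mul_le_mul h6 (by omega)
      omega
    have hsol := hall _ hne
    apply not_solvable_A5
    exact Group.isSolvable_of_isSolvable_injective (f := i.symm.toMonoidHom) i.symm.injective
  obtain ⟨p, hp⟩ := CharP.exists F
  haveI hpf : Fact p.Prime := ⟨CharP.char_is_prime F p⟩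
  have hpp : p.Prime := hpf.out
  obtain ⟨n', -, hn'⟩ := FiniteField.card F p
  obtain ⟨n, hnn⟩ : ∃ n : ℕ, n = (n' : ℕ) := ⟨_, rfl⟩
  have hn1 : 1 ≤ n := by rw [hnn]; exact n'.pos
  rw [← hnn] at hn'
  have hcomposite : ∀ a b : ℕ, 2 ≤ a → 2 ≤ b → a * b = n → 4 ≤ p ^ a → False := by
    intro a b ha hb hab h4
    haveI : Fintype (GaloisField p a) := Fintype.ofFinite _
    have hK : Fintype.card (GaloisField p a) = p ^ a := by
      rw [← Nat.card_eq_fintype_card, GaloisField.card p a (by omega)]
    apply hA (GaloisField p a) b (by rw [hK]; exact h4) hb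
    rw [hK, hn', ← pow_mul, hab]
  have hdecomp : ∀ n : ℕ, 2 ≤ n → ¬ n.Prime → ∃ a b : ℕ, 2 ≤ a ∧ 2 ≤ b ∧ a * b = n := by
    intro n hn hnp
    obtain ⟨a, b, ha, hb, hab⟩ := (Nat.not_prime_iff_exists_mul_eq hn).mp hnp
    refine ⟨a, b, ?_, ?_, hab⟩
    · by_contra hlt
      have : a = 0 ∨ a = 1 := by omega
      rcases this with rfl | rfl
      · omega
      · omega
    · by_contra hlt
      have : b = 0 ∨ b = 1 := by omega
      rcases this with rfl | rfl
      · omega
      · omega
  by_cases hn2 : n = 1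
  · -- prime field
    subst hn2
    rw [pow_one] at hn'
    by_cases h5 : p = 5
    · right; right; right
      rw [hn', h5]
    · right; right; left
      rw [hn'] at hq4 ⊢
      have hpne : p ≠ 4 := by
        rintro rfl
        revert hpp
        norm_num
      have hp5 : 5 < p := by omega
      refine ⟨hpp, hp5, ?_⟩
      have h0 : p % 5 ≠ 0 := by
        intro h
        have h6 : 5 ∣ p := Nat.dvd_of_mod_eq_zero h
        exact h5 ((Nat.prime_dvd_prime_iff_eq (by norm_num) hpp).mp h6).symm
      by_contra hne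
      have h14 : p % 5 = 1 ∨ p % 5 = 4 := by omega
      apply hB
      · rw [hn']
        apply Dvd.dvd.mul_left
        have h7 : p ^ 2 % 5 = 1 := by
          rw [Nat.pow_mod]
          rcases h14 with h | h <;> rw [h]
        have h8 : 1 ≤ p ^ 2 := Nat.one_le_pow _ _ hpp.pos
        omega
      · rw [hn']; exact hpne
      · rw [hn']; exact h5
  · have hn3 : 2 ≤ n := by omega
    by_cases hp2 : p = 2
    · subst hp2
      left
      refine ⟨n, ?_, hn'⟩
      by_contra hnp
      obtain ⟨a, b, ha, hb, hab⟩ := hdecomp n hn3 hnp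
      apply hcomposite a b ha hb hab
      calc 4 = 2 ^ 2 := by norm_num
        _ ≤ 2 ^ a := Nat.pow_le_pow_right (by norm_num) ha
    · by_cases hp3 : p = 3
      · subst hp3
        right; left
        rcases Nat.even_or_odd n with he | ho
        · exfalso
          obtain ⟨t, ht⟩ := he
          apply hB
          · apply Dvd.dvd.mul_left
            have h1 : Fintype.card F ^ 2 = 81 ^ t := by
              rw [hn', ht, ← pow_mul]
              have : 3 ^ ((t + t) * 2) = (3 ^ 4) ^ t := by
                rw [← pow_mul]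
                congr 1
                ring
              rw [this]
              norm_num
            have h2 : 81 ^ t % 5 = 1 := by
              rw [Nat.pow_mod]
              norm_num
            rw [h1]
            have h3 : 1 ≤ 81 ^ t := Nat.one_le_pow _ _ (by norm_num)
            omega
          · rw [hn']
            have : 3 ^ 2 ≤ 3 ^ n := Nat.pow_le_pow_right (by norm_num) hn3
            omega
          · rw [hn']
            have : 3 ^ 2 ≤ 3 ^ n := Nat.pow_le_pow_right (by norm_num) hn3
            omega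
        · refine ⟨n, ?_, ?_, hn'⟩
          · by_contra hnp
            obtain ⟨a, b, ha, hb, hab⟩ := hdecomp n hn3 hnp
            apply hcomposite a b ha hb hab
            calc 4 ≤ 3 ^ 2 := by norm_num
              _ ≤ 3 ^ a := Nat.pow_le_pow_right (by norm_num) ha
          · rintro rfl
            revert ho
            decide
      · exfalso
        have hp5 : 5 ≤ p := by
          have := hpp.two_le
          have hp4 : p ≠ 4 := by
            rintro rfl
            revert hpp
            norm_num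
          omega
        have hKc : Fintype.card (ZMod p) = p := ZMod.card p
        exact hA (ZMod p) n (by rw [hKc]; omega) hn3 (by rw [hKc, hn'])

open Cfsg.Agent.Lib.KS2.SL2 in
private theorem aux_backward {F : Type*} [Field F] [Fintype F]
    (h : (∃ r : ℕ, r.Prime ∧ Fintype.card F = 2 ^ r) ∨ (∃ r : ℕ, r.Prime ∧ r ≠ 2 ∧ Fintype.card F = 3 ^ r) ∨
      ((Fintype.card F).Prime ∧ 5 < Fintype.card F ∧ (Fintype.card F % 5 = 2 ∨ Fintype.card F % 5 = 3)) ∨ Fintype.card F = 5) :
    Cfsg.IsMinimalSimple (Matrix.ProjectiveSpecialLinearGroup (Fin 2) F) := by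
  classical
  obtain ⟨p, hp⟩ := CharP.exists F
  haveI hpf : Fact p.Prime := ⟨CharP.char_is_prime F p⟩
  have hq4 : 4 ≤ Fintype.card F := by
    rcases h with ⟨r, hr, h⟩ | ⟨r, hr, -, h⟩ | ⟨-, h, -⟩ | h
    · rw [h]
      calc 4 = 2 ^ 2 := by norm_num
        _ ≤ 2 ^ r := Nat.pow_le_pow_right (by norm_num) hr.two_le
    · rw [h]
      calc 4 ≤ 3 ^ 2 := by norm_num
        _ ≤ 3 ^ r := Nat.pow_le_pow_right (by norm_num) hr.two_le
    · omega
    · omega
  refine ⟨Matrix.ProjectiveSpecialLinearGroup.rank_two_simple (by rw [Nat.card_eq_fintype_card]; omega), ?_, ?_⟩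
  · rintro ⟨⟨hc⟩⟩
    exact not_comm_PP hc
  · intro H hH
    have hPP := card_PP_eq (F := F)
    apply proper_solvable p H hH
    · rcases h with ⟨r, hr, h⟩ | ⟨r, hr, hr2, h⟩ | ⟨h1, h2, h3⟩ | h
      · by_cases hr2 : r = 2
        · subst hr2
          apply excl_A5_60 H hH
          rw [card_roots1_eq_gcd, h] at hPP
          have e1 : Nat.gcd 2 (2 ^ 2 - 1) = 1 := by norm_num
          have e2 : 2 ^ 2 * ((2 ^ 2) ^ 2 - 1) = 60 := by norm_num
          rw [e1, e2, one_mul] at hPP
          exact hPP
        · apply excl_A5 H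
          obtain ⟨j, hj⟩ := hr.odd_of_ne_two hr2
          apply not5 _ (4 ^ r)
          · rw [h, ← pow_mul, mul_comm, pow_mul]
            norm_num
          · rw [hj]
            exact pow_mod5 4 j (by norm_num)
          · rw [h]
            intro h5
            have := Nat.Prime.dvd_of_dvd_pow (by norm_num : Nat.Prime 5) h5
            omega
      · apply excl_A5 H
        obtain ⟨j, hj⟩ := hr.odd_of_ne_two hr2
        apply not5 _ (9 ^ r)
        · rw [h, ← pow_mul, mul_comm, pow_mul]
          norm_num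
        · rw [hj]
          exact pow_mod5 9 j (by norm_num)
        · rw [h]
          intro h5
          have := Nat.Prime.dvd_of_dvd_pow (by norm_num : Nat.Prime 5) h5
          omega
      · apply excl_A5 H
        apply not5 _ (Fintype.card F ^ 2) rfl
        · rw [Nat.pow_mod]
          rcases h3 with h3 | h3 <;> rw [h3]
        · intro h5
          have := (Nat.prime_dvd_prime_iff_eq (by norm_num) h1).mp h5
          omega
      · apply excl_A5_60 H hH
        rw [card_roots1_eq_gcd, h] at hPP
        have e1 : Nat.gcd 2 (5 - 1) = 2 := by norm_num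
        have e2 : 5 * (5 ^ 2 - 1) = 120 := by norm_num
        rw [e1, e2] at hPP
        omega
    · intro s m hs hm hne
      rcases h with ⟨r, hr, h⟩ | ⟨r, hr, -, h⟩ | ⟨h1, -, -⟩ | h
      · rw [h] at hm hne
        rcases s_cases 2 r s m Nat.prime_two hr hm (by omega) with h2 | h2
        · omega
        · exact hne h2
      · rw [h] at hm hne
        rcases s_cases 3 r s m Nat.prime_three hr hm (by omega) with h2 | h2
        · omega
        · exact hne h2
      · have hm0 : m ≠ 0 := by
          rintro rfl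
          rw [pow_zero] at hm
          have := h1.one_lt
          omega
        have h2 : s ∣ Fintype.card F := by
          rw [← hm]
          exact dvd_pow_self _ hm0
        rcases (Nat.dvd_prime h1).mp h2 with h3 | h3
        · omega
        · exact hne h3
      · rw [h] at hm hne
        have hm0 : m ≠ 0 := by
          rintro rfl
          rw [pow_zero] at hm
          omega
        have h2 : s ∣ 5 := by
          rw [← hm]
          exact dvd_pow_self _ hm0
        rcases (Nat.dvd_prime (by norm_num)).mp h2 with h3 | h3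
        · omega
        · exact hne h3

/-- PSL_2(q) is minimal simple iff q is 2^r (r prime), 3^r (r an odd prime), a prime greater than 5 congruent to 2 or 3 mod 5, or 5. -/
theorem result {F : Type*} [Field F] [Fintype F] {q : ℕ} (hF : Fintype.card F = q) : Cfsg.IsMinimalSimple (Matrix.ProjectiveSpecialLinearGroup (Fin 2) F) ↔ ((∃ r : ℕ, r.Prime ∧ q = 2 ^ r) ∨ (∃ r : ℕ, r.Prime ∧ r ≠ 2 ∧ q = 3 ^ r) ∨ (q.Prime ∧ 5 < q ∧ (q % 5 = 2 ∨ q % 5 = 3)) ∨ q = 5) := by
  subst hF
  exact ⟨aux_forward, aux_backward⟩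

end Cfsg.Agent.S0810
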