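import Cfsg.Statements.S0811
import Mathlib
import Cfsg.Agent.Lib.Classical.Dick.Coatom

set_option autoImplicit false
open Cfsg

namespace Cfsg.Agent.S0811

private lemma arith_12 (m : ℕ) (h1 : 2 * 2 ∣ m) (h2 : m ∣ 12) (h3 : m ≠ 4) : m = 3 * (2 ^ 2 - 1 + 1) := by
  have h4 : m ≤ 12 := Nat.le_of_dvd (by norm_num) h2
  interval_cases m <;> omega

private lemma arith_S4 (q a P : ℕ) (hq : q ∉ ({2, 7, 9} : Finset ℕ)) (hq3 : q ≠ 3) (hq2 : 2 ≤ q)
    (ha : Nat.gcd 2 (q - 1) * a = q + 1) (hP : Nat.gcd 2 (q - 1) * P = q * (q ^ 2 - 1))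
    (h1 : 24 ∣ P) (h2 : a ≤ 4) : False := by
  have hg : Nat.gcd 2 (q - 1) ≤ 2 := Nat.le_of_dvd (by norm_num) (Nat.gcd_dvd_left _ _)
  have hq8 : q + 1 ≤ 8 := by
    rw [← ha]
    exact Nat.mul_le_mul hg h2
  simp only [Finset.mem_insert, Finset.mem_singleton, not_or] at hq
  have : q ≤ 7 := by omega
  interval_cases q <;> first
    | omega
    | (norm_num at ha hP; omega)

private lemma arith_A5 (q a P : ℕ) (hq : q ∉ ({2, 7, 9} : Finset ℕ)) (hq3 : q ≠ 3) (hq2 : 2 ≤ q)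
    (ha : Nat.gcd 2 (q - 1) * a = q + 1) (hP : Nat.gcd 2 (q - 1) * P = q * (q ^ 2 - 1))
    (h1 : 60 ∣ P) (h0 : 60 ≠ P) (h2 : a = 3 ∨ a = 5) : False := by
  have hg : Nat.gcd 2 (q - 1) ≤ 2 := Nat.le_of_dvd (by norm_num) (Nat.gcd_dvd_left _ _)
  have hq8 : q + 1 ≤ 2 * 5 := by
    rw [← ha]
    exact Nat.mul_le_mul hg (by omega)
  simp only [Finset.mem_insert, Finset.mem_singleton, not_or] at hq
  have : q ≤ 9 := by omega
  interval_cases q <;> first
    | omega
    | (norm_num at ha hP; omega)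

private lemma arith_good (q a s m : ℕ) (hq2 : 2 ≤ q) (hs : 4 ≤ s) (hm : s ^ m = q) (hne : s ≠ q)
    (ha : Nat.gcd 2 (q - 1) * a = q + 1) (h : a ≤ s + 1) : False := by
  have hg : Nat.gcd 2 (q - 1) ≤ 2 := Nat.le_of_dvd (by norm_num) (Nat.gcd_dvd_left _ _)
  have hm2 : 2 ≤ m := by
    by_contra h
    have : m = 0 ∨ m = 1 := by omega
    rcases this with rfl | rfl
    · simp at hm
      omega
    · simp at hm
      exact hne hm
  have hsq : s ^ 2 ≤ q := by
    rw [← hm]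
    exact Nat.pow_le_pow_right (by omega) hm2
  have h3 : q + 1 ≤ 2 * (s + 1) := by
    rw [← ha]
    exact Nat.mul_le_mul hg h
  nlinarith

/-- For q ∉ {2, 7, 9}, PSL_2(q) has a maximal subgroup isomorphic to the dihedral group of order 2(q + 1)/d, d = gcd(2, q − 1). -/
theorem result {F : Type*} [Field F] [Fintype F] {q : ℕ} (hF : Fintype.card F = q) (hq : q ∉ ({2, 7, 9} : Finset ℕ)) : ∃ H : Subgroup (Matrix.ProjectiveSpecialLinearGroup (Fin 2) F), IsCoatom H ∧ Nonempty (H ≃* DihedralGroup ((q + 1) / Nat.gcd 2 (q - 1))) := by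
  classical
  subst hF
  obtain ⟨p, hp⟩ := CharP.exists F
  haveI : Fact p.Prime := ⟨CharP.char_is_prime F p⟩
  have hq1 : 1 < Fintype.card F := Fintype.one_lt_card
  obtain ⟨x₀, hτ₀, ha₀⟩ := Cfsg.Agent.Lib.Classical.Dick.exists_nonsplit (F := F)
  have hdg := Cfsg.Agent.Lib.Classical.Dick.card_roots1_eq_gcd (F := F)
  rw [hdg] at ha₀
  have hgpos : 0 < Nat.gcd 2 (Fintype.card F - 1) := Nat.gcd_pos_of_pos_left _ (by norm_num)
  have hg2 : Nat.gcd 2 (Fintype.card F - 1) ≤ 2 := Nat.le_of_dvd (by norm_num) (Nat.gcd_dvd_left _ _)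
  have hP := Cfsg.Agent.Lib.Classical.Dick.card_PP_eq (F := F)
  rw [hdg] at hP
  have hP' : Nat.card (Matrix.ProjectiveSpecialLinearGroup (Fin 2) F) =
      Fintype.card F * (Fintype.card F - 1) * Nat.card (Cfsg.Agent.Lib.Classical.Dick.CP (Cfsg.Agent.Lib.KS2.SL2.pi x₀) : Subgroup (Matrix.ProjectiveSpecialLinearGroup (Fin 2) F)) := by
    apply Nat.eq_of_mul_eq_mul_left hgpos
    rw [hP, Cfsg.Agent.Lib.Classical.Dick.sq_sub_one_eq _ (by omega), ← ha₀]
    ring
  by_cases hq3 : Fintype.card F = 3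
  · -- `q = 3`
    set N := Subgroup.normalizer ((Cfsg.Agent.Lib.Classical.Dick.CP (Cfsg.Agent.Lib.KS2.SL2.pi x₀) : Subgroup (Matrix.ProjectiveSpecialLinearGroup (Fin 2) F)) : Set (Matrix.ProjectiveSpecialLinearGroup (Fin 2) F)) with hN
    have hcN := Cfsg.Agent.Lib.Classical.Dick.card_normalizer_torus x₀ hτ₀
    have ha2 : Nat.card (Cfsg.Agent.Lib.Classical.Dick.CP (Cfsg.Agent.Lib.KS2.SL2.pi x₀) : Subgroup (Matrix.ProjectiveSpecialLinearGroup (Fin 2) F)) = 2 := by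
      have h5 : Nat.gcd 2 (Fintype.card F - 1) = 2 := by rw [hq3]; rfl
      rw [h5, hq3] at ha₀
      omega
    rw [ha2] at hcN hP'
    rw [hq3] at hP'
    obtain ⟨i⟩ := Cfsg.Agent.Lib.Classical.Dick.normalizer_dihedral x₀ hτ₀
    rw [ha2] at i
    refine ⟨N, ⟨?_, ?_⟩, ?_⟩
    · intro h
      have h1 : Nat.card N = Nat.card (Matrix.ProjectiveSpecialLinearGroup (Fin 2) F) := by
        rw [h]
        exact Nat.card_congr Subgroup.topEquiv.toEquiv
      rw [hcN, hP'] at h1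
      norm_num at h1
    · intro M hM
      apply Subgroup.eq_top_of_card_eq
      rw [hP']
      have h1 : Nat.card N ∣ Nat.card M := Subgroup.card_dvd_of_le hM.le
      have h2 : Nat.card M ∣ 12 := by
        have := Subgroup.card_subgroup_dvd_card M
        rw [hP'] at this
        simpa using this
      rw [hcN] at h1
      have h3 : Nat.card M ≠ 4 := by
        intro h4
        apply hM.ne
        apply Subgroup.eq_of_le_of_card_ge hM.le
        rw [hcN, h4]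
      have h4 : Nat.card M ≤ 12 := Nat.le_of_dvd (by norm_num) h2
      exact arith_12 _ h1 h2 h3
    · rw [hq3]
      exact ⟨i⟩
  have hq2 : Fintype.card F ≠ 2 := fun h => hq (by simp [h])
  have ha3₀ : 3 ≤ Nat.card (Cfsg.Agent.Lib.Classical.Dick.CP (Cfsg.Agent.Lib.KS2.SL2.pi x₀) : Subgroup (Matrix.ProjectiveSpecialLinearGroup (Fin 2) F)) := by
    have h1 : Fintype.card F + 1 ≤ 2 * Nat.card (Cfsg.Agent.Lib.Classical.Dick.CP (Cfsg.Agent.Lib.KS2.SL2.pi x₀) : Subgroup (Matrix.ProjectiveSpecialLinearGroup (Fin 2) F)) := by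
      rw [← ha₀]
      exact Nat.mul_le_mul_right _ hg2
    omega
  obtain ⟨x, hτ, hCP, hgen⟩ := Cfsg.Agent.Lib.Classical.Dick.exists_gen x₀ hτ₀ (by omega)
  rw [← hCP] at ha₀ hP' ha3₀
  set a := Nat.card (Cfsg.Agent.Lib.Classical.Dick.CP (Cfsg.Agent.Lib.KS2.SL2.pi x) : Subgroup (Matrix.ProjectiveSpecialLinearGroup (Fin 2) F)) with ha
  have hdiv : (Fintype.card F + 1) / Nat.gcd 2 (Fintype.card F - 1) = a := by
    rw [← ha₀]
    exact Nat.mul_div_cancel_left _ hgpos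
  obtain ⟨i⟩ := Cfsg.Agent.Lib.Classical.Dick.normalizer_dihedral x hτ
  refine ⟨Subgroup.normalizer ((Cfsg.Agent.Lib.Classical.Dick.CP (Cfsg.Agent.Lib.KS2.SL2.pi x) : Subgroup (Matrix.ProjectiveSpecialLinearGroup (Fin 2) F)) : Set (Matrix.ProjectiveSpecialLinearGroup (Fin 2) F)), ?_, ?_⟩
  · apply Cfsg.Agent.Lib.Classical.Dick.normalizer_coatom rfl p x hτ hgen ha3₀
    · intro h
      have h1 := Cfsg.Agent.Lib.Classical.Dick.card_normalizer_torus x hτ
      rw [h, Subgroup.card_top, hP'] at h1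
      have h2 : Fintype.card F * (Fintype.card F - 1) = 2 := by
        apply Nat.eq_of_mul_eq_mul_right (show 0 < a by omega)
        exact h1
      have h3 : 4 ≤ Fintype.card F := by omega
      have h4 : 4 * 3 ≤ Fintype.card F * (Fintype.card F - 1) := Nat.mul_le_mul h3 (by omega)
      omega
    · rw [hdiv]
      omega
    · intro h1 h2
      exact arith_S4 _ _ _ hq hq3 (by omega) ha₀ hP h1 h2
    · intro h1 h0 h2
      exact arith_A5 _ _ _ hq hq3 (by omega) ha₀ hP h1 h0 h2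
    · intro s m hs hm hne h
      exact arith_good _ _ _ m (by omega) hs hm hne ha₀ h
  · rw [hdiv]
    exact ⟨i⟩

end Cfsg.Agent.S0811
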