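import Cfsg.Statements.S0812
import Mathlib
import Cfsg.Agent.Lib.Classical.Dick.Coatom

set_option autoImplicit false
open Cfsg

namespace Cfsg.Agent.S0812

private lemma arith_S4 (q a P : ℕ) (hq : q ∉ ({2, 3, 5, 7, 9, 11} : Finset ℕ)) (hq2 : 2 ≤ q)
    (ha : Nat.gcd 2 (q - 1) * a = q - 1) (hP : Nat.gcd 2 (q - 1) * P = q * (q ^ 2 - 1))
    (h1 : 24 ∣ P) (h2 : a ≤ 4) : False := by
  have hg : Nat.gcd 2 (q - 1) ≤ 2 := Nat.le_of_dvd (by norm_num) (Nat.gcd_dvd_left _ _)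
  have hq8 : q - 1 ≤ 2 * 4 := by
    rw [← ha]
    exact Nat.mul_le_mul hg h2
  simp only [Finset.mem_insert, Finset.mem_singleton, not_or] at hq
  have : q ≤ 9 := by omega
  interval_cases q <;> first
    | omega
    | (norm_num at ha hP; omega)

private lemma arith_A5 (q a P : ℕ) (hq : q ∉ ({2, 3, 5, 7, 9, 11} : Finset ℕ)) (hq2 : 2 ≤ q)
    (ha : Nat.gcd 2 (q - 1) * a = q - 1) (hP : Nat.gcd 2 (q - 1) * P = q * (q ^ 2 - 1))
    (h1 : 60 ∣ P) (h0 : 60 ≠ P) (h2 : a = 3 ∨ a = 5) : False := by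
  have hg : Nat.gcd 2 (q - 1) ≤ 2 := Nat.le_of_dvd (by norm_num) (Nat.gcd_dvd_left _ _)
  have hq8 : q - 1 ≤ 2 * 5 := by
    rw [← ha]
    exact Nat.mul_le_mul hg (by omega)
  simp only [Finset.mem_insert, Finset.mem_singleton, not_or] at hq
  have : q ≤ 11 := by omega
  interval_cases q <;> first
    | omega
    | (norm_num at ha hP; omega)

private lemma arith_good (q a s m : ℕ) (hq2 : 2 ≤ q) (hs : 4 ≤ s) (hm : s ^ m = q) (hne : s ≠ q)
    (ha : Nat.gcd 2 (q - 1) * a = q - 1) (h : a ≤ s + 1) : False := by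
  have hg : Nat.gcd 2 (q - 1) ≤ 2 := Nat.le_of_dvd (by norm_num) (Nat.gcd_dvd_left _ _)
  have hm2 : 2 ≤ m := by
    by_contra h
    have : m = 0 ∨ m = 1 := by omega
    rcases this with rfl | rfl
    · simp at hm
      omega
    · simp at hm
      exact hne hm
  have hsq : s ^ 2 ≤ q := by
    rw [← hm]
    exact Nat.pow_le_pow_right (by omega) hm2
  have h3 : q - 1 ≤ 2 * (s + 1) := by
    rw [← ha]
    exact Nat.mul_le_mul hg h
  have h4 : q ≤ 2 * (s + 1) + 1 := by omega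
  nlinarith

private lemma arith_a3 (q a : ℕ) (hq : q ∉ ({2, 3, 5, 7, 9, 11} : Finset ℕ)) (hq2 : 2 ≤ q)
    (ha : Nat.gcd 2 (q - 1) * a = q - 1) : 3 ≤ a := by
  have hg : Nat.gcd 2 (q - 1) ≤ 2 := Nat.le_of_dvd (by norm_num) (Nat.gcd_dvd_left _ _)
  simp only [Finset.mem_insert, Finset.mem_singleton, not_or] at hq
  by_cases h6 : 6 ≤ q
  · have h1 : q - 1 ≤ 2 * a := by
      rw [← ha]
      exact Nat.mul_le_mul_right _ hg
    omega
  · have : q = 4 := by omega
    subst this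
    norm_num at ha
    omega

/-- For q ∉ {2, 3, 5, 7, 9, 11}, PSL_2(q) has a maximal subgroup isomorphic to the dihedral group of order 2(q − 1)/d, d = gcd(2, q − 1). -/
theorem result {F : Type*} [Field F] [Fintype F] {q : ℕ} (hF : Fintype.card F = q) (hq : q ∉ ({2, 3, 5, 7, 9, 11} : Finset ℕ)) : ∃ H : Subgroup (Matrix.ProjectiveSpecialLinearGroup (Fin 2) F), IsCoatom H ∧ Nonempty (H ≃* DihedralGroup ((q - 1) / Nat.gcd 2 (q - 1))) := by
  classical
  subst hF
  obtain ⟨p, hp⟩ := CharP.exists F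
  haveI : Fact p.Prime := ⟨CharP.char_is_prime F p⟩
  have hq1 : 1 < Fintype.card F := Fintype.one_lt_card
  have hqs := hq
  simp only [Finset.mem_insert, Finset.mem_singleton, not_or] at hqs
  have h4 : 4 ≤ Fintype.card F := by omega
  obtain ⟨x₀, hτ₀, ha₀⟩ := Cfsg.Agent.Lib.Classical.Dick.exists_split (F := F) h4
  have hdg := Cfsg.Agent.Lib.Classical.Dick.card_roots1_eq_gcd (F := F)
  rw [hdg] at ha₀
  have hgpos : 0 < Nat.gcd 2 (Fintype.card F - 1) := Nat.gcd_pos_of_pos_left _ (by norm_num)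
  have hg2 : Nat.gcd 2 (Fintype.card F - 1) ≤ 2 := Nat.le_of_dvd (by norm_num) (Nat.gcd_dvd_left _ _)
  have hP := Cfsg.Agent.Lib.Classical.Dick.card_PP_eq (F := F)
  rw [hdg] at hP
  have hP' : Nat.card (Matrix.ProjectiveSpecialLinearGroup (Fin 2) F) =
      Fintype.card F * (Fintype.card F + 1) * Nat.card (Cfsg.Agent.Lib.Classical.Dick.CP (Cfsg.Agent.Lib.KS2.SL2.pi x₀) : Subgroup (Matrix.ProjectiveSpecialLinearGroup (Fin 2) F)) := by
    apply Nat.eq_of_mul_eq_mul_left hgpos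
    calc Nat.gcd 2 (Fintype.card F - 1) * Nat.card (Matrix.ProjectiveSpecialLinearGroup (Fin 2) F)
        = Fintype.card F * (Fintype.card F ^ 2 - 1) := hP
      _ = Fintype.card F * ((Fintype.card F - 1) * (Fintype.card F + 1)) := by
          rw [Cfsg.Agent.Lib.Classical.Dick.sq_sub_one_eq _ (by omega)]
      _ = Fintype.card F * ((Nat.gcd 2 (Fintype.card F - 1) * Nat.card (Cfsg.Agent.Lib.Classical.Dick.CP (Cfsg.Agent.Lib.KS2.SL2.pi x₀) : Subgroup (Matrix.ProjectiveSpecialLinearGroup (Fin 2) F))) * (Fintype.card F + 1)) := by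
          rw [ha₀]
      _ = _ := by ring
  have ha3₀ := arith_a3 _ _ hq (by omega) ha₀
  obtain ⟨x, hτ, hCP, hgen⟩ := Cfsg.Agent.Lib.Classical.Dick.exists_gen x₀ hτ₀ (by omega)
  rw [← hCP] at ha₀ hP' ha3₀
  set a := Nat.card (Cfsg.Agent.Lib.Classical.Dick.CP (Cfsg.Agent.Lib.KS2.SL2.pi x) : Subgroup (Matrix.ProjectiveSpecialLinearGroup (Fin 2) F)) with ha
  have hdiv : (Fintype.card F - 1) / Nat.gcd 2 (Fintype.card F - 1) = a := by
    exact Nat.div_eq_of_eq_mul_right hgpos ha₀.symm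
  obtain ⟨i⟩ := Cfsg.Agent.Lib.Classical.Dick.normalizer_dihedral x hτ
  refine ⟨Subgroup.normalizer ((Cfsg.Agent.Lib.Classical.Dick.CP (Cfsg.Agent.Lib.KS2.SL2.pi x) : Subgroup (Matrix.ProjectiveSpecialLinearGroup (Fin 2) F)) : Set (Matrix.ProjectiveSpecialLinearGroup (Fin 2) F)), ?_, ?_⟩
  · apply Cfsg.Agent.Lib.Classical.Dick.normalizer_coatom rfl p x hτ hgen ha3₀
    · intro h
      have h1 := Cfsg.Agent.Lib.Classical.Dick.card_normalizer_torus x hτ
      rw [h, Subgroup.card_top, hP'] at h1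
      have h2 : Fintype.card F * (Fintype.card F + 1) = 2 := by
        apply Nat.eq_of_mul_eq_mul_right (show 0 < a by omega)
        exact h1
      have h4 : 4 * 5 ≤ Fintype.card F * (Fintype.card F + 1) := Nat.mul_le_mul h4 (by omega)
      omega
    · rw [Nat.div_lt_iff_lt_mul hgpos]
      have : 2 * a * Nat.gcd 2 (Fintype.card F - 1) = 2 * (Nat.gcd 2 (Fintype.card F - 1) * a) := by ring
      rw [this, ha₀]
      omega
    · intro h1 h2
      exact arith_S4 _ _ _ hq (by omega) ha₀ hP h1 h2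
    · intro h1 h0 h2
      exact arith_A5 _ _ _ hq (by omega) ha₀ hP h1 h0 h2
    · intro s m hs hm hne h
      exact arith_good _ _ _ m (by omega) hs hm hne ha₀ h
  · rw [hdiv]
    exact ⟨i⟩

end Cfsg.Agent.S0812
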