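import Cfsg.Statements.S0813
import Mathlib
import Cfsg.Agent.Lib.Classical.AutCount2
import Cfsg.Agent.S2601
import Cfsg.Agent.S2602

set_option autoImplicit false
open Cfsg

namespace Cfsg.Agent.S0813

/-- |Aut(PSL_n(q))|, q = p^f: for n ≥ 3 it is 2 f |PGL_n(q)|, and for n = 2 (q ≥ 4) it is f |PGL_2(q)|. -/
theorem result {F : Type*} [Field F] [Fintype F] (p f : ℕ) [Fact p.Prime] (hf : 1 ≤ f) (hF : Fintype.card F = p ^ f) (n : ℕ) (hn : 2 ≤ n) (h2 : n = 2 → 4 ≤ p ^ f) : Nat.card (MulAut (Matrix.ProjectiveSpecialLinearGroup (Fin n) F)) = (if n = 2 then 1 else 2) * f * Nat.card (Matrix.ProjGenLinGroup (Fin n) F) := by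
  classical
  have hq : Fintype.card F - 1 = p ^ f - 1 := by rw [hF]
  have hn2 := Cfsg.Agent.Lib.Classical.AutCount.card_PGL_eq (F := F) hn
  rw [hn2, hq]
  haveI : NeZero f := ⟨by omega⟩
  by_cases hn3 : n = 2
  · subst hn3
    obtain ⟨φ, hs, -, hk⟩ := Cfsg.Agent.S2602.result (F := F) hf hF (h2 rfl)
    have hsimple : IsSimpleGroup (Matrix.ProjectiveSpecialLinearGroup (Fin 2) F) :=
      Matrix.ProjectiveSpecialLinearGroup.rank_two_simple (by rw [Nat.card_eq_fintype_card, hF]; exact h2 rfl)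
    obtain ⟨a, b, hab⟩ := Cfsg.Agent.Lib.Classical.AutCount.psl_noncomm (F := F) hn
    have hc := Cfsg.Agent.Lib.Classical.AutCount.center_eq_bot_of_noncomm hsimple a b hab
    have h1 := Cfsg.Agent.Lib.Classical.AutCount.card_mulAut_eq hc
    have h3 := Cfsg.Agent.Lib.Classical.AutCount.card_of_surjective φ hs
    have h4 : Nat.card (Multiplicative (ZMod f)) = f := by
      rw [Nat.card_congr Multiplicative.toAdd, Nat.card_zmod]
    rw [h1, h3, hk, h4]
    simp only [if_true]
    ring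
  · have hn3' : 3 ≤ n := by omega
    obtain ⟨φ, hs, -, hk⟩ := Cfsg.Agent.S2601.result (F := F) hf hF hn3'
    have hsimple := Cfsg.Agent.S0249.result (F := F) n hn3'
    obtain ⟨a, b, hab⟩ := Cfsg.Agent.Lib.Classical.AutCount.psl_noncomm (F := F) hn
    have hc := Cfsg.Agent.Lib.Classical.AutCount.center_eq_bot_of_noncomm hsimple a b hab
    have h1 := Cfsg.Agent.Lib.Classical.AutCount.card_mulAut_eq hc
    have h3 := Cfsg.Agent.Lib.Classical.AutCount.card_of_surjective φ hs
    have h4 : Nat.card (Multiplicative (ZMod f × ZMod 2)) = f * 2 := by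
      rw [Nat.card_congr Multiplicative.toAdd, Nat.card_prod, Nat.card_zmod, Nat.card_zmod]
    rw [h1, h3, hk, h4, if_neg hn3]
    ring

end Cfsg.Agent.S0813
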