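import Cfsg.Statements.S0814
import Mathlib
import Cfsg.Agent.Lib.Classical.AutPSpCount
import Cfsg.Agent.S2600
import Cfsg.Agent.S0270

set_option autoImplicit false
open Cfsg

namespace Cfsg.Agent.S0814

/-- |Aut(PSp_2m(q))| = gcd(2, q−1) · f · |PSp_2m(q)| for q = p^f, m ≥ 2, (m, q) ≠ (2, 2), with an extra factor 2 exactly when m = 2 and p = 2. -/
theorem result {F : Type*} [Field F] [Fintype F] (p f : ℕ) [Fact p.Prime] (hf : 1 ≤ f) (hF : Fintype.card F = p ^ f) (m : ℕ) (hm : 2 ≤ m) (h22 : m = 2 → 3 ≤ p ^ f) : Nat.card (MulAut (Cfsg.PSp m F)) = (if m = 2 ∧ p = 2 then 2 else 1) * Nat.gcd 2 (p ^ f - 1) * f * Nat.card (Cfsg.PSp m F) := by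
  classical
  have hp : p.Prime := Fact.out
  by_cases hc : m = 2 ∧ p = 2
  · obtain ⟨rfl, rfl⟩ := hc
    rw [if_pos ⟨rfl, rfl⟩]
    obtain ⟨-, h1⟩ := Cfsg.Agent.S2600.result (F := F) hf hF
    have hs := Cfsg.Agent.S0270.result (F := F) 2 hm (fun _ => by rw [hF]; exact h22 rfl)
    have hcen := Cfsg.Agent.Lib.Classical.AutCount.center_psp (m := 2) (F := F)
      (Or.inr (Or.inl ⟨rfl, by rw [hF]; exact h22 rfl⟩)) hs
    rw [Cfsg.Agent.Lib.Classical.AutCount.card_mulAut_eq hcen, h1]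
    have hg : Nat.gcd 2 (2 ^ f - 1) = 1 := by
      have h2 : 2 ≤ 2 ^ f := by
        calc 2 = 2 ^ 1 := rfl
          _ ≤ 2 ^ f := Nat.pow_le_pow_right (by norm_num) hf
      have h3 : (2 : ℕ) ∣ 2 ^ f := dvd_pow_self 2 (by omega)
      have h4 : Nat.Coprime 2 (2 ^ f - 1) := by
        rw [Nat.coprime_two_left]
        rw [Nat.odd_iff]
        omega
      exact h4
    rw [hg, mul_one]
  · rw [if_neg hc, one_mul]
    have hchar : CharP F p := by
      obtain ⟨r, hr⟩ := CharP.exists F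
      have hrp := CharP.char_is_prime F r
      obtain ⟨n, -, hn⟩ := FiniteField.card F r
      have h1 : r ∣ p ^ f := by
        rw [← hF, hn]
        exact dvd_pow_self r n.ne_zero
      have h2 : r = p := (Nat.prime_dvd_prime_iff_eq hrp hp).mp (hrp.dvd_of_dvd_pow h1)
      rw [← h2]
      exact hr
    exact Cfsg.Agent.Lib.Classical.AutCount.card_aut_psp hF hf hm (fun h h' => hc ⟨h, h'⟩)

end Cfsg.Agent.S0814
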