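import Cfsg.Statements.S0815
import Mathlib
import Cfsg.Agent.Lib.Classical.AutCount
import Cfsg.Agent.S2603
import Cfsg.Agent.S0283
import Cfsg.Agent.S0280

set_option autoImplicit false
open Cfsg

namespace Cfsg.Agent.S0815

/-- |Aut(PSU_n(q))| = gcd(n, q+1) · 2f · |PSU_n(q)| for q = p^f, n ≥ 3, (n, q) ≠ (3, 2); the form is realised over F with |F| = q². -/
theorem result {F : Type*} [Field F] [Fintype F] (p f : ℕ) [Fact p.Prime] (hf : 1 ≤ f) {q : ℕ} (hq : q = p ^ f) (hF : Fintype.card F = q ^ 2) (n : ℕ) (hn : 3 ≤ n) (h32 : ¬ (n = 3 ∧ q = 2)) : Nat.card (MulAut (Cfsg.PSU n F q)) = Nat.gcd n (q + 1) * (2 * f) * Nat.card (Cfsg.PSU n F q) := by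
  classical
  have hqq : 2 ≤ q := by
    by_contra h
    have h1 : q ≤ 1 := by omega
    have h2 : 2 ≤ Fintype.card F := Fintype.one_lt_card
    rw [hF] at h2
    have h3 : q ^ 2 ≤ 1 := by
      calc q ^ 2 ≤ 1 ^ 2 := Nat.pow_le_pow_left h1 2
        _ = 1 := rfl
    omega
  haveI : NeZero (2 * f) := ⟨by omega⟩
  obtain ⟨φ, hs, -, hk⟩ := Cfsg.Agent.S2603.result (K := F) hf hq hF hn h32
  have hsimple := Cfsg.Agent.S0283.result (F := F) hF n hn h32
  have hord := Cfsg.Agent.S0280.result (F := F) hF n (by omega)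
  have hN : 2 ≤ n * (n - 1) / 2 := by
    obtain ⟨k, rfl⟩ : ∃ k, n = k + 3 := ⟨n - 3, by omega⟩
    have h6 : (k + 3) * (k + 3 - 1) = (k + 3) * (k + 2) := rfl
    rw [h6]
    have : 4 ≤ (k + 3) * (k + 2) := by nlinarith
    omega
  have hdvd : q ^ (n * (n - 1) / 2) ∣ Nat.card (Cfsg.PSU n F q) := by
    have h1 : q ^ (n * (n - 1) / 2) ∣ Nat.gcd n (q + 1) * ((q + 1) * Nat.card (Cfsg.PSU n F q)) := by
      rw [hord]
      exact dvd_mul_right _ _
    have hc1 : Nat.Coprime q (q + 1) := by simp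
    have hc2 : Nat.Coprime q (Nat.gcd n (q + 1)) := Nat.Coprime.coprime_dvd_right (Nat.gcd_dvd_right _ _) hc1
    have h2 := (Nat.Coprime.pow_left _ hc2).dvd_of_dvd_mul_left h1
    exact (Nat.Coprime.pow_left _ hc1).dvd_of_dvd_mul_left h2
  have hc := Cfsg.Agent.Lib.Classical.AutCount.center_eq_bot_of_not_prime hsimple
    (Cfsg.Agent.Lib.Classical.AutCount.not_prime_of_pow_dvd hqq hN hdvd)
  have h1 := Cfsg.Agent.Lib.Classical.AutCount.card_mulAut_eq hc
  have h3 := Cfsg.Agent.Lib.Classical.AutCount.card_of_surjective φ hs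
  have h4 : Nat.card (Multiplicative (ZMod (2 * f))) = 2 * f := by
    rw [Nat.card_congr Multiplicative.toAdd, Nat.card_zmod]
  rw [h1, h3, hk, h4]

end Cfsg.Agent.S0815
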