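import Cfsg.Statements.S0816
import Mathlib
import Cfsg.Agent.Lib.Classical.AutCount
import Cfsg.Agent.S2604
import Cfsg.Agent.S0295
import Cfsg.Agent.S0292

set_option autoImplicit false
open Cfsg

namespace Cfsg.Agent.S0816

/-- |Aut(PΩ_(2m+1)(q))| = 2 f · |PΩ_(2m+1)(q)| for q = p^f odd and m ≥ 3 (for the form quadFormOdd). -/
theorem result {F : Type*} [Field F] [Fintype F] (p f : ℕ) [Fact p.Prime] (hf : 1 ≤ f) (hF : Fintype.card F = p ^ f) (hodd : Odd p) (m : ℕ) (hm : 3 ≤ m) : Nat.card (MulAut (Cfsg.POmega F (Cfsg.quadFormOdd m F))) = 2 * f * Nat.card (Cfsg.POmega F (Cfsg.quadFormOdd m F)) := by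
  classical
  have hp : p.Prime := Fact.out
  have hp2 : p ≠ 2 := by
    rintro rfl
    exact absurd hodd (by decide)
  have hqodd : Odd (Fintype.card F) := by
    rw [hF]
    exact hodd.pow
  have hqq : 2 ≤ Fintype.card F := Fintype.one_lt_card
  haveI : NeZero f := ⟨by omega⟩
  obtain ⟨e⟩ := Cfsg.Agent.S2604.result (F := F) hf hF hp2 hm
  have hsimple := Cfsg.Agent.S0295.result (F := F) hqodd m hm
  have hord := Cfsg.Agent.S0292.result (F := F) rfl hqodd m hm
  have hN : 2 ≤ m ^ 2 := by nlinarith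
  have hdvd : Fintype.card F ^ (m ^ 2) ∣ Nat.card (Cfsg.POmega F (Cfsg.quadFormOdd m F)) := by
    have h1 : Fintype.card F ^ (m ^ 2) ∣ 2 * Nat.card (Cfsg.POmega F (Cfsg.quadFormOdd m F)) := by
      rw [hord]
      exact dvd_mul_right _ _
    have hc1 : Nat.Coprime (Fintype.card F) 2 := by
      exact Nat.coprime_two_right.mpr hqodd
    exact (Nat.Coprime.pow_left _ hc1).dvd_of_dvd_mul_left h1
  have hc := Cfsg.Agent.Lib.Classical.AutCount.center_eq_bot_of_not_prime hsimple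
    (Cfsg.Agent.Lib.Classical.AutCount.not_prime_of_pow_dvd hqq hN hdvd)
  have h1 := Cfsg.Agent.Lib.Classical.AutCount.card_mulAut_eq hc
  have h4 : Nat.card (Cfsg.Out (Cfsg.POmega F (Cfsg.quadFormOdd m F))) = 2 * f := by
    rw [Nat.card_congr e.toEquiv, Nat.card_congr Multiplicative.toAdd, Nat.card_prod, Nat.card_zmod, Nat.card_zmod]
  rw [h1, h4]

end Cfsg.Agent.S0816
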