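import Cfsg.Statements.S2605
import Mathlib
import Cfsg.Agent.Lib.AutPO.OutMinus

set_option autoImplicit false
open Cfsg


namespace Cfsg.Agent.S2605


/-- Outer automorphism group of PΩ⁻_2m(q), m ≥ 4, q = 2^f: cyclic of order 2f, generated by a semilinear map inducing the Frobenius automorphism of the field (its f-th power is a graph automorphism, an orthogonal transvection). -/
theorem result {F : Type*} [Field F] [Fintype F] {f m : ℕ} (hf : 1 ≤ f) (hF : Fintype.card F = 2 ^ f) (hm : 4 ≤ m) (a b : F) (hab : ∀ z₁ z₂ : F, z₁ ^ 2 + a * z₁ * z₂ + b * z₂ ^ 2 = 0 → z₁ = 0 ∧ z₂ = 0) : IsCyclic (Cfsg.Out (Cfsg.POmega F (Cfsg.quadFormMinus (m - 1) F a b))) ∧ Nat.card (Cfsg.Out (Cfsg.POmega F (Cfsg.quadFormMinus (m - 1) F a b))) = 2 * f := by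
  have e : Cfsg.quadFormMinus (m - 1) F a b = ⇑(Cfsg.Agent.Lib.Classical.Abs.Qminus (m - 1) F a b) :=
    (funext fun v => Cfsg.Agent.Lib.Classical.Abs.Qminus_apply (m - 1) a b v).symm
  rw [e]
  exact Cfsg.Agent.Lib.AutPO.out_minus_two hf hF (by omega) a b hab

end Cfsg.Agent.S2605
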