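import Cfsg.Statements.S0818
import Mathlib
import Cfsg.Agent.Lib.Classical.AutCount
import Cfsg.Agent.S2605
import Cfsg.Agent.S2606
import Cfsg.Agent.S0297
import Cfsg.Agent.S0294

set_option autoImplicit false
open Cfsg

namespace Cfsg.Agent.S0818

/-- |Aut(PΩ⁻_2m(q))| for q = p^f, m ≥ 4 (form quadFormMinus (m−1) with anisotropic binary part): |PΩ⁻_2m(q)| times f, times 2 if p = 2, and times 4 or 8 if p is odd according as m(q−1)/2 is even or odd. -/
theorem result {F : Type*} [Field F] [Fintype F] (p f : ℕ) [Fact p.Prime] (hf : 1 ≤ f) (hF : Fintype.card F = p ^ f) (m : ℕ) (hm : 4 ≤ m) (a b : F) (hab : ∀ z₁ z₂ : F, z₁ ^ 2 + a * z₁ * z₂ + b * z₂ ^ 2 = 0 → z₁ = 0 ∧ z₂ = 0) : Nat.card (MulAut (Cfsg.POmega F (Cfsg.quadFormMinus (m - 1) F a b))) = (if p = 2 then 2 else (if Even (m * (p ^ f - 1) / 2) then 4 else 8)) * f * Nat.card (Cfsg.POmega F (Cfsg.quadFormMinus (m - 1) F a b)) := by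
  classical
  have hp : p.Prime := Fact.out
  have hqq : 2 ≤ Fintype.card F := Fintype.one_lt_card
  haveI : NeZero f := ⟨by omega⟩
  have hsimple := Cfsg.Agent.S0297.result (F := F) m hm a b hab
  have hord := Cfsg.Agent.S0294.result (F := F) rfl m hm a b hab
  have hN : 2 ≤ m * (m - 1) := by
    obtain ⟨k, rfl⟩ : ∃ k, m = k + 4 := ⟨m - 4, by omega⟩
    have h6 : (k + 4) * (k + 4 - 1) = (k + 4) * (k + 3) := rfl
    rw [h6]
    nlinarith
  have hm0 : m ≠ 0 := by omega
  have hdvd : Fintype.card F ^ (m * (m - 1)) ∣ Nat.card (Cfsg.POmega F (Cfsg.quadFormMinus (m - 1) F a b)) := by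
    have h1 : Fintype.card F ^ (m * (m - 1)) ∣ Nat.gcd 4 (Fintype.card F ^ m + 1) * Nat.card (Cfsg.POmega F (Cfsg.quadFormMinus (m - 1) F a b)) := by
      rw [hord, mul_assoc]
      exact dvd_mul_right _ _
    have hc1 : Nat.Coprime (Fintype.card F) (Fintype.card F ^ m + 1) := by
      have hd1 := Nat.gcd_dvd_left (Fintype.card F) (Fintype.card F ^ m + 1)
      have hd2 := Nat.gcd_dvd_right (Fintype.card F) (Fintype.card F ^ m + 1)
      have hd3 : Nat.gcd (Fintype.card F) (Fintype.card F ^ m + 1) ∣ Fintype.card F ^ m := dvd_pow hd1 hm0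
      exact Nat.dvd_one.mp ((Nat.dvd_add_right hd3).mp hd2)
    have hc2 : Nat.Coprime (Fintype.card F) (Nat.gcd 4 (Fintype.card F ^ m + 1)) :=
      Nat.Coprime.coprime_dvd_right (Nat.gcd_dvd_right _ _) hc1
    exact (Nat.Coprime.pow_left _ hc2).dvd_of_dvd_mul_left h1
  have hc := Cfsg.Agent.Lib.Classical.AutCount.center_eq_bot_of_not_prime hsimple
    (Cfsg.Agent.Lib.Classical.AutCount.not_prime_of_pow_dvd hqq hN hdvd)
  have h1 := Cfsg.Agent.Lib.Classical.AutCount.card_mulAut_eq hc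
  by_cases hp2 : p = 2
  · subst hp2
    obtain ⟨-, hk⟩ := Cfsg.Agent.S2605.result (F := F) hf hF hm a b hab
    rw [h1, hk, if_pos rfl]
  · have hq := Cfsg.Agent.S2606.result (F := F) hf hF hp2 hm a b hab
    rw [if_neg hp2]
    have hoddp : p % 2 = 1 := Nat.odd_iff.mp (hp.odd_of_ne_two hp2)
    have hqodd : p ^ f % 2 = 1 := by
      rw [Nat.pow_mod, hoddp]
      simp
    have heven : Even (m * (p ^ f - 1) / 2) ↔ ¬ (p ^ f % 4 = 3 ∧ Odd m) := by
      obtain ⟨k, hk⟩ : ∃ k, p ^ f = 2 * k + 1 := ⟨(p ^ f - 1) / 2, by omega⟩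
      have e : m * (p ^ f - 1) / 2 = m * k := by
        rw [hk, Nat.add_sub_cancel, show m * (2 * k) = 2 * (m * k) by ring]
        exact Nat.mul_div_cancel_left _ (by norm_num)
      rw [e, Nat.even_mul, hk, Nat.even_iff, Nat.even_iff, Nat.odd_iff]
      omega
    split_ifs at hq with hc3
    · obtain ⟨e⟩ := hq
      have h4 : Nat.card (Cfsg.Out (Cfsg.POmega F (Cfsg.quadFormMinus (m - 1) F a b))) = 8 * f := by
        rw [Nat.card_congr e.toEquiv, Nat.card_prod, DihedralGroup.nat_card, Nat.card_congr Multiplicative.toAdd, Nat.card_zmod]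
      have : ¬ Even (m * (p ^ f - 1) / 2) := by
        rw [heven]
        simpa using hc3
      rw [if_neg this, h1, h4]
    · obtain ⟨e⟩ := hq
      have h4 : Nat.card (Cfsg.Out (Cfsg.POmega F (Cfsg.quadFormMinus (m - 1) F a b))) = 2 * (2 * f) := by
        rw [Nat.card_congr e.toEquiv, Nat.card_congr Multiplicative.toAdd, Nat.card_prod, Nat.card_zmod, Nat.card_zmod]
      have : Even (m * (p ^ f - 1) / 2) := heven.mpr hc3
      rw [if_pos this, h1, h4]
      ring

end Cfsg.Agent.S0818
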