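import Cfsg.Statements.S0819
import Mathlib
import Cfsg.Agent.Lib.Classical.F4

set_option autoImplicit false
open Cfsg

namespace Cfsg.Agent.S0819

open Cfsg.Agent.Lib.Classical.FF4 Cfsg.Agent.Lib.Classical

/-- Coefficients of powers modulo the characteristic polynomial. -/
def pwc (c1 c2 : F4) : ℕ → F4 × F4 × F4
  | 0 => (0, 0, 1)
  | n + 1 => ((pwc c1 c2 n).1 * c2 + (pwc c1 c2 n).2.1, (pwc c1 c2 n).1 * c1 + (pwc c1 c2 n).2.2, (pwc c1 c2 n).1)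

set_option maxRecDepth 100000 in
lemma table_pw : ∀ c1 c2 : F4, ((pwc c1 c2 3).1 = 0 ∧ (pwc c1 c2 3).2.1 = 0) ∨ ((pwc c1 c2 4).1 = 0 ∧ (pwc c1 c2 4).2.1 = 0) ∨
    ((pwc c1 c2 5).1 = 0 ∧ (pwc c1 c2 5).2.1 = 0) ∨ ((pwc c1 c2 21).1 = 0 ∧ (pwc c1 c2 21).2.1 = 0) := by
  decide

/-- Cayley–Hamilton in dimension three. -/
lemma cayley3 {R : Type*} [CommRing R] (A : Matrix (Fin 3) (Fin 3) R) :
    A * A * A = A.trace • (A * A) - (A 0 0 * A 1 1 - A 0 1 * A 1 0 + (A 0 0 * A 2 2 - A 0 2 * A 2 0) + (A 1 1 * A 2 2 - A 1 2 * A 2 1)) • A + A.det • 1 := by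
  ext i j
  fin_cases i <;> fin_cases j <;>
    simp [Matrix.mul_apply, Fin.sum_univ_three, Matrix.det_fin_three, Matrix.trace, Matrix.one_apply] <;> ring

lemma pow_eq_pwc (A : Matrix (Fin 3) (Fin 3) F4) {c1 c2 : F4} (h : A * A * A = c2 • (A * A) + c1 • A + (1 : F4) • 1) (n : ℕ) :
    A ^ n = (pwc c1 c2 n).1 • (A * A) + (pwc c1 c2 n).2.1 • A + (pwc c1 c2 n).2.2 • 1 := by
  induction n with
  | zero => simp [pwc]
  | succ n ih =>
    rw [pow_succ', ih]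
    have hs : pwc c1 c2 (n + 1) = ((pwc c1 c2 n).1 * c2 + (pwc c1 c2 n).2.1, (pwc c1 c2 n).1 * c1 + (pwc c1 c2 n).2.2, (pwc c1 c2 n).1) := rfl
    rw [hs]
    generalize (pwc c1 c2 n).1 = a
    generalize (pwc c1 c2 n).2.1 = b
    generalize (pwc c1 c2 n).2.2 = c
    have h1 : A * (a • (A * A) + b • A + c • 1) = a • (A * A * A) + b • (A * A) + c • A := by
      rw [Matrix.mul_add, Matrix.mul_add, Matrix.mul_smul, Matrix.mul_smul, Matrix.mul_smul, Matrix.mul_one, Matrix.mul_assoc]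
    rw [h1, h]
    simp only []
    (module)

/-- No element of PSL_3(4) has order 15. -/
theorem result {F : Type*} [Field F] [Fintype F] (hF : Fintype.card F = 4) (g : Matrix.ProjectiveSpecialLinearGroup (Fin 3) F) : orderOf g ≠ 15 := by
  classical
  intro hord
  obtain ⟨e⟩ := exists_equiv hF
  let E : Matrix.ProjectiveSpecialLinearGroup (Fin 3) F4 ≃* Matrix.ProjectiveSpecialLinearGroup (Fin 3) F := RC.pslCongr e
  obtain ⟨g₀, rfl⟩ := E.surjective g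
  rw [MulEquiv.orderOf_eq] at hord
  obtain ⟨A, rfl⟩ := QuotientGroup.mk_surjective g₀
  set c2 := (A : Matrix (Fin 3) (Fin 3) F4).trace with hc2
  set c1 := -((A : Matrix (Fin 3) (Fin 3) F4) 0 0 * (A : Matrix (Fin 3) (Fin 3) F4) 1 1 - (A : Matrix (Fin 3) (Fin 3) F4) 0 1 * (A : Matrix (Fin 3) (Fin 3) F4) 1 0 + ((A : Matrix (Fin 3) (Fin 3) F4) 0 0 * (A : Matrix (Fin 3) (Fin 3) F4) 2 2 - (A : Matrix (Fin 3) (Fin 3) F4) 0 2 * (A : Matrix (Fin 3) (Fin 3) F4) 2 0) + ((A : Matrix (Fin 3) (Fin 3) F4) 1 1 * (A : Matrix (Fin 3) (Fin 3) F4) 2 2 - (A : Matrix (Fin 3) (Fin 3) F4) 1 2 * (A : Matrix (Fin 3) (Fin 3) F4) 2 1)) with hc1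
  have hch : (A : Matrix (Fin 3) (Fin 3) F4) * A * A = c2 • ((A : Matrix (Fin 3) (Fin 3) F4) * A) + c1 • (A : Matrix (Fin 3) (Fin 3) F4) + (1 : F4) • 1 := by
    have := cayley3 (A : Matrix (Fin 3) (Fin 3) F4)
    rw [A.2, ← hc2] at this
    rw [this, hc1, neg_smul, sub_eq_add_neg]
  have hpow := pow_eq_pwc (A : Matrix (Fin 3) (Fin 3) F4) hch
  have key : ∀ k, (pwc c1 c2 k).1 = 0 → (pwc c1 c2 k).2.1 = 0 → (QuotientGroup.mk A : Matrix.ProjectiveSpecialLinearGroup (Fin 3) F4) ^ k = 1 := by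
    intro k h1 h3
    rw [← QuotientGroup.mk_pow, QuotientGroup.eq_one_iff, Subgroup.mem_center_iff]
    intro C
    apply Subtype.ext
    have h4 := hpow k
    rw [h1, h3, zero_smul, zero_smul, zero_add, zero_add] at h4
    simp only [Matrix.SpecialLinearGroup.coe_mul, Matrix.SpecialLinearGroup.coe_pow, h4]
    simp
  have hnot : ∀ k, ¬ 15 ∣ k → (pwc c1 c2 k).1 = 0 → (pwc c1 c2 k).2.1 = 0 → False := by
    intro k hk h1 h3
    apply hk
    rw [← hord]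
    exact orderOf_dvd_of_pow_eq_one (key k h1 h3)
  rcases table_pw c1 c2 with ⟨h1, h3⟩ | ⟨h1, h3⟩ | ⟨h1, h3⟩ | ⟨h1, h3⟩
  · exact hnot 3 (by norm_num) h1 h3
  · exact hnot 4 (by norm_num) h1 h3
  · exact hnot 5 (by norm_num) h1 h3
  · exact hnot 21 (by norm_num) h1 h3

end Cfsg.Agent.S0819
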