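import Cfsg.Statements.S0820
import Mathlib
import Cfsg.Agent.Lib.Classical.LinAlg

set_option autoImplicit false
open Cfsg

namespace Cfsg.Agent.S0820

open Matrix Cfsg.Agent.Lib.Classical

/-- A basis adapted to a transvection. -/
lemma exists_conj_std {F : Type*} [Field F] (u w : Fin 3 → F) (hu : u ≠ 0) (hw : w ≠ 0) (huw : w ⬝ᵥ u = 0) :
    ∃ M : Matrix.SpecialLinearGroup (Fin 3) F, (1 + vecMulVec u w) * (M : Matrix (Fin 3) (Fin 3) F) =
      (M : Matrix (Fin 3) (Fin 3) F) * (1 + vecMulVec (Pi.single 0 1) (Pi.single 1 1)) := by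
  classical
  -- `f₁`
  obtain ⟨i, hi⟩ : ∃ i, w i ≠ 0 := by
    by_contra hcon
    push Not at hcon
    exact hw (funext hcon)
  set f₁ : Fin 3 → F := (w i)⁻¹ • Pi.single i 1 with hf₁
  have hwf₁ : w ⬝ᵥ f₁ = 1 := by
    rw [hf₁, dotProduct_smul, dotProduct_single, mul_one, smul_eq_mul, inv_mul_cancel₀ hi]
  -- `f₂`
  let φ : (Fin 3 → F) →ₗ[F] F :=
    { toFun := fun x => w ⬝ᵥ x
      map_add' := fun x y => dotProduct_add _ _ _
      map_smul' := fun c x => by simp [dotProduct_smul] }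
  have hφ : ∀ x, φ x = w ⬝ᵥ x := fun x => rfl
  obtain ⟨f₂, hf₂, hf₂'⟩ : ∃ f₂, φ f₂ = 0 ∧ f₂ ∉ Submodule.span F {u} := by
    by_contra hcon
    push Not at hcon
    have h1 : LinearMap.ker φ ≤ Submodule.span F {u} := fun x hx => hcon x hx
    have h2 := Submodule.finrank_mono h1
    have h3 := LinearMap.finrank_range_add_finrank_ker φ
    have h4 : LinearMap.range φ = ⊤ := by
      rw [LinearMap.range_eq_top]
      intro c
      exact ⟨c • f₁, by rw [map_smul, hφ, hwf₁, smul_eq_mul, mul_one]⟩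
    rw [h4, finrank_top, Module.finrank_self] at h3
    rw [finrank_span_singleton hu] at h2
    have h6 : Module.finrank F (Fin 3 → F) = 3 := by simp
    omega
  have hwf₂ : w ⬝ᵥ f₂ = 0 := hf₂
  -- the matrix
  let M₀ : Matrix (Fin 3) (Fin 3) F := Matrix.of fun a b => ![u, f₁, f₂] b a
  have hM₀ : ∀ x : Fin 3 → F, M₀ *ᵥ x = x 0 • u + x 1 • f₁ + x 2 • f₂ := by
    intro x
    funext a
    simp [M₀, Matrix.mulVec, dotProduct, Fin.sum_univ_three]
    ring
  have hd : M₀.det ≠ 0 := by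
    intro h0
    obtain ⟨x, hx0, hx⟩ := Matrix.exists_mulVec_eq_zero_iff.mpr h0
    rw [hM₀] at hx
    have h1 : x 1 = 0 := by
      have := congrArg (fun y => w ⬝ᵥ y) hx
      simpa [dotProduct_add, dotProduct_smul, huw, hwf₁, hwf₂] using this
    rw [h1, zero_smul, add_zero] at hx
    have h2 : x 2 = 0 := by
      by_contra hne
      apply hf₂'
      refine Submodule.mem_span_singleton.mpr ⟨-(x 2)⁻¹ * x 0, ?_⟩
      have : x 2 • f₂ = -(x 0 • u) := eq_neg_of_add_eq_zero_right hx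
      have h3 : f₂ = (x 2)⁻¹ • (x 2 • f₂) := by rw [smul_smul, inv_mul_cancel₀ hne, one_smul]
      rw [h3, this, smul_neg, smul_smul]
      simp [neg_mul]
    rw [h2, zero_smul, add_zero] at hx
    have h3 : x 0 = 0 := (smul_eq_zero.mp hx).resolve_right hu
    apply hx0
    funext a
    fin_cases a
    · exact h3
    · exact h1
    · exact h2
  let D : Matrix (Fin 3) (Fin 3) F := Matrix.diagonal ![1, 1, (M₀.det)⁻¹]
  have hdet : (M₀ * D).det = 1 := by
    rw [Matrix.det_mul, Matrix.det_diagonal, Fin.prod_univ_three]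
    simp [hd]
  refine ⟨⟨M₀ * D, hdet⟩, ?_⟩
  change (1 + vecMulVec u w) * (M₀ * D) = (M₀ * D) * (1 + vecMulVec (Pi.single 0 1) (Pi.single 1 1))
  rw [Matrix.add_mul, Matrix.mul_add, Matrix.one_mul, Matrix.mul_one, vecMulVec_mul', mul_vecMulVec']
  congr 1
  have h1 : (M₀ * D) *ᵥ (Pi.single 0 1) = u := by
    rw [← Matrix.mulVec_mulVec, hM₀]
    simp [D, Matrix.mulVec_diagonal, Pi.single_apply]
  have h2 : w ᵥ* (M₀ * D) = Pi.single 1 1 := by
    rw [← Matrix.vecMul_vecMul]
    have h3 : w ᵥ* M₀ = ![0, 1, 0] := by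
      funext b
      fin_cases b
      · simpa [M₀, Matrix.vecMul, dotProduct, Fin.sum_univ_three] using huw
      · simpa [M₀, Matrix.vecMul, dotProduct, Fin.sum_univ_three] using hwf₁
      · simpa [M₀, Matrix.vecMul, dotProduct, Fin.sum_univ_three] using hwf₂
    rw [h3]
    funext b
    rw [Matrix.vecMul_diagonal]
    fin_cases b <;> simp [Pi.single_apply]
  rw [h1, h2]

/-- Every involution of PSL₃ over a field with `2 = 0` and the right scalars is the image of a transvection. -/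
lemma exists_lift {F : Type*} [Field F] [Fintype F] (h2 : (2 : F) = 0)
    (x : Matrix.ProjectiveSpecialLinearGroup (Fin 3) F) (hx : orderOf x = 2) :
    ∃ (A M : Matrix.SpecialLinearGroup (Fin 3) F), x = QuotientGroup.mk A ∧
      (A : Matrix (Fin 3) (Fin 3) F) * (M : Matrix (Fin 3) (Fin 3) F) =
      (M : Matrix (Fin 3) (Fin 3) F) * (1 + vecMulVec (Pi.single 0 1) (Pi.single 1 1)) := by
  classical
  obtain ⟨B, rfl⟩ := QuotientGroup.mk_surjective x
  have hx2 : (QuotientGroup.mk B : Matrix.ProjectiveSpecialLinearGroup (Fin 3) F) ^ 2 = 1 := by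
    rw [← hx]
    exact pow_orderOf_eq_one _
  have hx1 : (QuotientGroup.mk B : Matrix.ProjectiveSpecialLinearGroup (Fin 3) F) ≠ 1 := by
    intro h
    rw [h, orderOf_one] at hx
    omega
  rw [← QuotientGroup.mk_pow, QuotientGroup.eq_one_iff, Matrix.SpecialLinearGroup.mem_center_iff] at hx2
  obtain ⟨r, hr3, hr⟩ := hx2
  rw [Fintype.card_fin] at hr3
  have hr0 : r ≠ 0 := by
    rintro rfl
    simp at hr3
  -- the corrected lift
  let S : Matrix.SpecialLinearGroup (Fin 3) F := ⟨Matrix.scalar (Fin 3) r, by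
    rw [Matrix.scalar_apply, Matrix.det_diagonal]
    simp [hr3]⟩
  have hS : S ∈ Subgroup.center (Matrix.SpecialLinearGroup (Fin 3) F) :=
    Matrix.SpecialLinearGroup.mem_center_iff.mpr ⟨r, by simpa using hr3, rfl⟩
  let A := S * B
  have hA : (A : Matrix (Fin 3) (Fin 3) F) = r • (B : Matrix (Fin 3) (Fin 3) F) := by
    change Matrix.scalar (Fin 3) r * (B : Matrix (Fin 3) (Fin 3) F) = _
    ext i j
    simp [Matrix.scalar_apply, Matrix.diagonal_mul]
  have hmk : (QuotientGroup.mk B : Matrix.ProjectiveSpecialLinearGroup (Fin 3) F) = QuotientGroup.mk A := by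
    rw [QuotientGroup.eq]
    have : B⁻¹ * A = S := by
      change B⁻¹ * (S * B) = S
      rw [← (Subgroup.mem_center_iff.mp hS) B]
      group
    rw [this]
    exact hS
  have hAA : (A : Matrix (Fin 3) (Fin 3) F) * A = 1 := by
    rw [hA]
    have h3 : (B : Matrix (Fin 3) (Fin 3) F) * B = r • 1 := by
      have h9 : (B : Matrix (Fin 3) (Fin 3) F) * B = ((B ^ 2 : Matrix.SpecialLinearGroup (Fin 3) F) : Matrix (Fin 3) (Fin 3) F) := by
        rw [Matrix.SpecialLinearGroup.coe_pow, pow_two]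
      rw [h9, ← hr]
      ext i j
      simp [Matrix.one_apply, Matrix.scalar_apply, Matrix.diagonal_apply]
    rw [Matrix.smul_mul, Matrix.mul_smul, h3, smul_smul, smul_smul]
    have : r * r * r = 1 := by
      rw [← hr3]
      ring
    rw [this, one_smul]
  set N : Matrix (Fin 3) (Fin 3) F := (A : Matrix (Fin 3) (Fin 3) F) - 1 with hN
  have hN0 : N ≠ 0 := by
    intro h0
    have h3 : A = 1 := Subtype.ext (sub_eq_zero.mp h0)
    apply hx1
    rw [hmk, h3]
    rfl
  have hNN : N * N = 0 := by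
    rw [hN, Matrix.sub_mul, Matrix.mul_sub, Matrix.mul_sub, hAA, Matrix.mul_one, Matrix.one_mul, Matrix.mul_one]
    have h3 : (2 : Matrix (Fin 3) (Fin 3) F) = 0 := by
      have : (2 : Matrix (Fin 3) (Fin 3) F) = (2 : F) • 1 := by
        rw [two_smul, one_add_one_eq_two]
      rw [this, h2, zero_smul]
    have h4 : (1 : Matrix (Fin 3) (Fin 3) F) - (A : Matrix (Fin 3) (Fin 3) F) - ((A : Matrix (Fin 3) (Fin 3) F) - 1) = 2 * (1 - (A : Matrix (Fin 3) (Fin 3) F)) := by
      noncomm_ring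
    rw [h4, h3, zero_mul]
  have hrank : N.rank = 1 := by
    have h3 : LinearMap.range N.mulVecLin ≤ LinearMap.ker N.mulVecLin := by
      rintro _ ⟨v, rfl⟩
      rw [LinearMap.mem_ker, Matrix.mulVecLin_apply, Matrix.mulVecLin_apply, Matrix.mulVec_mulVec, hNN, Matrix.zero_mulVec]
    have h4 := Submodule.finrank_mono h3
    have h5 := LinearMap.finrank_range_add_finrank_ker N.mulVecLin
    have h6 : Module.finrank F (Fin 3 → F) = 3 := by simp
    have h7 : N.rank ≠ 0 := by
      intro h0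
      have h10 : LinearMap.range N.mulVecLin = ⊥ := Submodule.finrank_eq_zero.mp h0
      have h11 : N.mulVecLin = 0 := LinearMap.range_eq_bot.mp h10
      apply hN0
      apply Matrix.mulVec_injective
      funext v
      have := congrFun (congrArg DFunLike.coe h11) v
      simpa using this
    have h8 : N.rank = Module.finrank F (LinearMap.range N.mulVecLin) := rfl
    omega
  obtain ⟨u, w, huw⟩ := exists_vecMulVec_of_rank_one N hrank
  have hu : u ≠ 0 := by
    rintro rfl
    apply hN0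
    rw [huw]
    ext i j
    simp [vecMulVec_apply]
  have hw : w ≠ 0 := by
    rintro rfl
    apply hN0
    rw [huw]
    ext i j
    simp [vecMulVec_apply]
  have hdot : w ⬝ᵥ u = 0 := by
    rw [huw, Lib.Classical.vecMulVec_mul_vecMulVec] at hNN
    have h3 : (w ⬝ᵥ u) • N = 0 := by
      rw [huw]
      rw [← hNN]
    exact (smul_eq_zero.mp h3).resolve_right hN0
  obtain ⟨M, hM⟩ := exists_conj_std u w hu hw hdot
  refine ⟨A, M, hmk, ?_⟩
  rw [← hM, ← huw]
  congr 1
  rw [hN]
  abel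

/-- Any two elements of order 2 of PSL_3(4) are conjugate. -/
theorem result {F : Type*} [Field F] [Fintype F] (hF : Fintype.card F = 4) (x y : Matrix.ProjectiveSpecialLinearGroup (Fin 3) F) (hx : orderOf x = 2) (hy : orderOf y = 2) : IsConj x y := by
  classical
  have h2 : (2 : F) = 0 := by
    have hch : ringChar F = 2 := FiniteField.even_card_iff_char_two.mpr (by rw [hF])
    have h7 := ringChar.Nat.cast_ringChar (R := F)
    rw [hch] at h7
    exact_mod_cast h7
  obtain ⟨A, M, rfl, hM⟩ := exists_lift h2 x hx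
  obtain ⟨B, N, rfl, hN⟩ := exists_lift h2 y hy
  have hconj : IsConj A B := by
    rw [isConj_iff]
    refine ⟨N * M⁻¹, ?_⟩
    apply Subtype.ext
    have e : (N * M⁻¹)⁻¹ = M * N⁻¹ := by group
    rw [e]
    simp only [Matrix.SpecialLinearGroup.coe_mul]
    have hMi : ((M⁻¹ : Matrix.SpecialLinearGroup (Fin 3) F) : Matrix (Fin 3) (Fin 3) F) * (M : Matrix (Fin 3) (Fin 3) F) = 1 := by
      rw [← Matrix.SpecialLinearGroup.coe_mul, inv_mul_cancel]
      rfl
    have hNi : (N : Matrix (Fin 3) (Fin 3) F) * ((N⁻¹ : Matrix.SpecialLinearGroup (Fin 3) F) : Matrix (Fin 3) (Fin 3) F) = 1 := by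
      rw [← Matrix.SpecialLinearGroup.coe_mul, mul_inv_cancel]
      rfl
    calc (N : Matrix (Fin 3) (Fin 3) F) * ↑M⁻¹ * ↑A * (↑M * ↑N⁻¹)
        = ↑N * ↑M⁻¹ * (↑A * ↑M) * ↑N⁻¹ := by simp only [Matrix.mul_assoc]
      _ = ↑N * (↑M⁻¹ * ↑M) * (1 + vecMulVec (Pi.single 0 1) (Pi.single 1 1)) * ↑N⁻¹ := by
        rw [hM]
        simp only [Matrix.mul_assoc]
      _ = ↑N * (1 + vecMulVec (Pi.single 0 1) (Pi.single 1 1)) * ↑N⁻¹ := by rw [hMi, Matrix.mul_one]
      _ = ↑B * ↑N * ↑N⁻¹ := by rw [← hN]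
      _ = ↑B := by rw [Matrix.mul_assoc, hNi, Matrix.mul_one]
  exact MonoidHom.map_isConj (QuotientGroup.mk' _) hconj

end Cfsg.Agent.S0820
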