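import Cfsg.Statements.S0821
import Mathlib
import Cfsg.Agent.Lib.Classical.SpInv
import Cfsg.Agent.Lib.Classical.OmegaInv
import Cfsg.Agent.Lib.Classical.OrderForms

set_option autoImplicit false
open Cfsg

namespace Cfsg.Agent.S0821

/-- PSp_2m(q) ≇ PΩ_(2m+1)(q) for q odd and m ≥ 3 (they have the same order). -/
theorem result {F : Type*} [Field F] [Fintype F] (hodd : Odd (Fintype.card F)) (m : ℕ) (hm : 3 ≤ m) : IsEmpty (Cfsg.PSp m F ≃* Cfsg.POmega F (Cfsg.quadFormOdd m F)) := by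
  classical
  open Cfsg.Agent.Lib.Classical Cfsg.Agent.Lib.Classical.Abs Cfsg.Agent.Lib.Classical.Orth in
  have h2 : (2 : F) ≠ 0 := by
    intro h
    have hch : ringChar F = 2 := CharP.ringChar_of_prime_eq_zero Nat.prime_two (by exact_mod_cast h)
    have := FiniteField.even_card_iff_char_two.mp hch
    rw [Nat.odd_iff] at hodd
    omega
  have e : Cfsg.quadFormOdd m F = ⇑(Qodd m F) := funext fun v => (Qodd_apply m v).symm
  rw [e]
  have hQ := Qodd_nondeg (F := F) h2 m
  have hcard : Fintype.card (Unit ⊕ (Fin m ⊕ Fin m)) = 2 * m + 1 := by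
    simp
    omega
  obtain ⟨E⟩ := pomega_equiv (Qodd m F) h2 hQ (by rw [hcard]; exact odd_two_mul_add_one m) (by rw [hcard]; omega)
  obtain ⟨t, ht, hne⟩ := omega_inv h2 hQ m (by simp; omega)
  obtain ⟨κ, hκ, hκ2⟩ := SpInv.psp_classes (m := m) h2 (by omega)
  have hno := SpInv.no_iso m (m / 2 + 1) (by omega) t ht hne κ hκ hκ2
  exact ⟨fun e' => hno.false (E.symm.trans e'.symm)⟩

end Cfsg.Agent.S0821
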