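import Cfsg.Statements.S0822
import Cfsg.Agent.Lib.ChevSmall.U42

set_option autoImplicit false
open Cfsg

namespace Cfsg.Agent.S0822

/-- PSU_4(2) ≅ PSp_4(3): with |F| = 4 and |K| = 3, the projective special unitary group of the standard Hermitian form on F^4 is isomorphic to PSp_4(K). -/
theorem result {F K : Type*} [Field F] [Fintype F] [Field K] [Fintype K] (hF : Fintype.card F = 4) (hK : Fintype.card K = 3) : Nonempty (Cfsg.PSU 4 F 2 ≃* Cfsg.PSp 2 K) := by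
  obtain ⟨e⟩ := Cfsg.Agent.Lib.Classical.FF4.exists_equiv hF
  have e' : K ≃+* ZMod 3 := FiniteField.ringEquivOfCardEq (hK.trans (ZMod.card 3).symm)
  obtain ⟨m⟩ := Cfsg.Agent.Lib.ChevSmall.U42.main
  let e1 : Cfsg.PSU 4 F 2 ≃* Cfsg.PSU 4 Cfsg.Agent.Lib.Classical.FF4.F4 2 :=
    (Cfsg.Agent.Lib.Classical.RC.psuCongr e 4 2).symm
  let e2 : Cfsg.PSp 2 K ≃* Cfsg.PSp 2 (ZMod 3) :=
    QuotientGroup.congr _ _ (Cfsg.Agent.Lib.Classical.RC.spCongr 2 e')
      (Cfsg.Agent.Lib.Classical.RC.map_center_eq (Cfsg.Agent.Lib.Classical.RC.spCongr 2 e'))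
  exact ⟨e1.trans (m.trans e2.symm)⟩

end Cfsg.Agent.S0822
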