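import Cfsg.Statements.S0823
import Mathlib
import Cfsg.Agent.S0286
import Cfsg.Agent.Lib.Classical.ListGroup2
import Cfsg.Agent.Lib.Classical.RingCongr2

set_option autoImplicit false
open Cfsg

namespace Cfsg.Agent.S0823

open Cfsg.Agent.Lib.Classical

abbrev ι3 := Unit ⊕ (Fin 1 ⊕ Fin 1)
abbrev K3 := ZMod 3
abbrev G3 := Matrix.GeneralLinearGroup ι3 K3
abbrev S4 := Equiv.Perm (Fin 4)

def toI : ι3 → Fin 3
  | .inl _ => 0
  | .inr (.inl _) => 1
  | .inr (.inr _) => 2

def M3 (A : Matrix (Fin 3) (Fin 3) K3) : Matrix ι3 ι3 K3 := A.submatrix toI toI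

def sM : G3 := ⟨M3 !![2, 0, 0; 0, 0, 1; 0, 1, 0], M3 !![2, 0, 0; 0, 0, 1; 0, 1, 0],
  by decide +kernel, by decide +kernel⟩

def cM : G3 := ⟨M3 !![2, 2, 0; 1, 2, 1; 0, 1, 0], M3 !![2, 0, 2; 0, 0, 1; 1, 1, 2],
  by decide +kernel, by decide +kernel⟩

abbrev gs : S4 × G3 := (Equiv.swap 0 1, sM)
abbrev gc : S4 × G3 := (finRotate 4, cM)

def words4 : List (List Bool) := [[], [false], [true], [false, true], [true, false], [true, true], [false, true, false], [false, true, true], [true, false, true], [true, true, false], [true, true, true], [false, true, false, true], [false, true, true, false], [false, true, true, true], [true, false, true, true], [true, true, false, true], [false, true, false, true, true], [false, true, true, false, true], [true, false, true, true, false], [true, false, true, true, true], [true, true, false, true, true], [false, true, false, true, true, false], [false, true, false, true, true, true], [false, true, true, false, true, true]]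

abbrev ev := ListGroup.evalW2 gs gc

theorem L_one : 1 ∈ words4.map ev := by decide +kernel
theorem L_closed : ∀ a ∈ words4.map ev, a * gs ∈ words4.map ev ∧ a * gc ∈ words4.map ev := by
  decide +kernel
theorem L_nodup : ((words4.map ev).map Prod.fst).Nodup := by decide +kernel
theorem L_nodup2 : ((words4.map ev).map Prod.snd).Nodup := by decide +kernel
theorem L_sub : ∀ a ∈ words4.map ev, ∀ u : ι3 → K3,
    Cfsg.quadFormOdd 1 K3 (a.2.1.mulVec u) = Cfsg.quadFormOdd 1 K3 u ∧ a.2.1.det = 1 := by
  decide +kernel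

theorem card_S4 : Nat.card S4 = words4.length := by
  rw [Nat.card_eq_fintype_card, Fintype.card_perm]
  rfl

lemma exists_psi : ∃ ψ : S4 →* Cfsg.specialIsometryGroup K3 (Cfsg.quadFormOdd 1 K3), Function.Injective ψ := by
  classical
  obtain ⟨φ, hφ, hφ'⟩ := ListGroup.exists_hom_of_words gs gc words4 L_one L_closed L_nodup card_S4
  have hisom : ∀ a, φ a ∈ Cfsg.isometryGroup K3 (Cfsg.quadFormOdd 1 K3) := by
    intro a u _
    exact (L_sub _ (hφ' a) u).1
  let ψ0 : S4 →* Cfsg.isometryGroup K3 (Cfsg.quadFormOdd 1 K3) := φ.codRestrict _ hisom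
  have hdet : ∀ a, ψ0 a ∈ Cfsg.specialIsometryGroup K3 (Cfsg.quadFormOdd 1 K3) := by
    intro a
    change Matrix.GeneralLinearGroup.det (φ a) = 1
    apply Units.ext
    have := (L_sub _ (hφ' a) 0).2
    simpa using this
  refine ⟨ψ0.codRestrict _ hdet, ?_⟩
  intro a b h
  have h1 : φ a = φ b := congrArg (fun x => (x.1.1 : G3)) h
  have h2 := List.inj_on_of_nodup_map L_nodup2 (hφ' a) (hφ' b) h1
  exact congrArg Prod.fst h2

lemma neg_mem : (-(1 : Matrix ι3 ι3 K3)) * (-(1 : Matrix ι3 ι3 K3)) = 1 := by simp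

/-- The element `-1`. -/
def negG : G3 := ⟨-1, -1, neg_mem, neg_mem⟩

lemma negG_mem : negG ∈ Cfsg.isometryGroup K3 (Cfsg.quadFormOdd 1 K3) := by
  intro u _
  change Cfsg.quadFormOdd 1 K3 ((-(1 : Matrix ι3 ι3 K3)).mulVec u) = Cfsg.quadFormOdd 1 K3 u
  rw [Matrix.neg_mulVec, Matrix.one_mulVec]
  simp [Cfsg.quadFormOdd]

lemma negG_det : ((Matrix.GeneralLinearGroup.det negG : K3ˣ) : K3) = -1 := by
  change (-(1 : Matrix ι3 ι3 K3)).det = -1
  decide +kernel

theorem card_SO : Nat.card (Cfsg.specialIsometryGroup K3 (Cfsg.quadFormOdd 1 K3)) = 24 := by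
  classical
  have h48 : Nat.card (Cfsg.isometryGroup K3 (Cfsg.quadFormOdd 1 K3)) = 48 := by
    rw [Cfsg.Agent.S0286.result (q := 3) (ZMod.card 3) (by decide) 1]
    norm_num
  let D : Cfsg.isometryGroup K3 (Cfsg.quadFormOdd 1 K3) →* K3ˣ :=
    Matrix.GeneralLinearGroup.det.comp (Cfsg.isometryGroup K3 (Cfsg.quadFormOdd 1 K3)).subtype
  have hsurj : Function.Surjective D := by
    intro u
    have hu : u = 1 ∨ (u : K3) = -1 := by
      have : ∀ x : K3ˣ, x = 1 ∨ (x : K3) = -1 := by decide
      exact this u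
    rcases hu with rfl | hu
    · exact ⟨1, map_one _⟩
    · refine ⟨⟨negG, negG_mem⟩, ?_⟩
      apply Units.ext
      rw [hu]
      exact negG_det
  have hidx : D.ker.index = 2 := by
    rw [Subgroup.index_ker, MonoidHom.range_eq_top.mpr hsurj, Nat.card_congr Subgroup.topEquiv.toEquiv,
      Nat.card_eq_fintype_card]
    decide
  have := Subgroup.card_mul_index D.ker
  rw [hidx, h48] at this
  have e : Nat.card (Cfsg.specialIsometryGroup K3 (Cfsg.quadFormOdd 1 K3)) = Nat.card D.ker := rfl
  omega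

/-- SO_3(3) ≅ S_4: the determinant-one isometries of the form x_0² + x_1y_1 over the field with 3 elements form a group isomorphic to the symmetric group on 4 letters. -/
theorem result {F : Type*} [Field F] [Fintype F] (hF : Fintype.card F = 3) : Nonempty (↥(Cfsg.specialIsometryGroup F (Cfsg.quadFormOdd 1 F)) ≃* Equiv.Perm (Fin 4)) := by
  classical
  let e : ZMod 3 ≃+* F := ZMod.ringEquivOfPrime F Nat.prime_three hF
  obtain ⟨ψ, hψ⟩ := exists_psi
  have hb : Function.Bijective ψ := by
    apply hψ.bijective_of_nat_card_le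
    rw [card_SO, card_S4]
    rfl
  have e2 : Cfsg.specialIsometryGroup K3 (Cfsg.quadFormOdd 1 K3) ≃* Cfsg.specialIsometryGroup F (Cfsg.quadFormOdd 1 F) :=
    RC.specialCongr e _ _ (by
      intro u
      simp [Cfsg.quadFormOdd, RC.vecCongr, map_sum])
  exact ⟨e2.symm.trans (MulEquiv.ofBijective ψ hb).symm⟩

end Cfsg.Agent.S0823
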