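import Cfsg.Statements.S0824
import Mathlib
import Cfsg.Agent.S0288
import Cfsg.Agent.S0290
import Cfsg.Agent.Lib.Classical.SmallIso
import Cfsg.Agent.Lib.Classical.SmallAct
import Cfsg.Agent.Lib.Classical.Isometry

set_option autoImplicit false
open Cfsg

namespace Cfsg.Agent.S0824

/-- O⁻_4(2) ≅ S_5: the isometry group of the form x y + z_1² + z_1 z_2 + z_2² over the field with 2 elements is isomorphic to the symmetric group on 5 letters. -/
theorem result {F : Type*} [Field F] [Fintype F] (hF : Fintype.card F = 2) : Nonempty (↥(Cfsg.isometryGroup F (Cfsg.quadFormMinus 1 F 1 1)) ≃* Equiv.Perm (Fin 5)) := by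
  classical
  have h2 : (2 : F) = 0 := by
    have := FiniteField.cast_card_eq_zero F
    rw [hF] at this
    exact_mod_cast this
  have hel : ∀ x : F, x = 0 ∨ x = 1 := by
    intro x
    by_cases hx : x = 0
    · exact Or.inl hx
    · right
      have := FiniteField.pow_card_sub_one_eq_one x hx
      rw [hF] at this
      simpa using this
  have hab : ∀ z₁ z₂ : F, z₁ ^ 2 + 1 * z₁ * z₂ + 1 * z₂ ^ 2 = 0 → z₁ = 0 ∧ z₂ = 0 := by
    intro z₁ z₂ h
    rcases hel z₁ with rfl | rfl <;> rcases hel z₂ with rfl | rfl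
    · exact ⟨rfl, rfl⟩
    · simp at h
    · simp at h
    · exfalso
      have h3 : (1 : F) = 0 := by
        have : (1 : F) ^ 2 + 1 * 1 * 1 + 1 * 1 ^ 2 = 1 + 2 := by ring
        rw [this, h2, add_zero] at h
        exact h
      exact one_ne_zero h3
  have hcard := Cfsg.Agent.S0288.result hF 2 (by norm_num) 1 1 hab
  simp only [Nat.add_one_sub_one, Finset.prod_range_one] at hcard
  have hz := Cfsg.Agent.S0290.result hF 2 (by norm_num) 1 1 hab
  simp only [Nat.add_one_sub_one] at hz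
  have hz' : Nat.card {v : (Fin 1 ⊕ Fin 1) ⊕ Fin 2 → F // Cfsg.quadFormMinus 1 F 1 1 v = 0} = 6 := by
    simpa using hz
  set Q := Cfsg.quadFormMinus 1 F 1 1 with hQdef
  let S : Set ((Fin 1 ⊕ Fin 1) ⊕ Fin 2 → F) := {v | v ≠ 0 ∧ Q v = 0}
  have hQ0 : Q 0 = 0 := by simp [hQdef, Cfsg.quadFormMinus]
  have hSc := Cfsg.Agent.Lib.Classical.Small.card_sing_add_one Q hQ0
  rw [hz'] at hSc
  haveI : Fintype S := Fintype.ofFinite _
  have hX : Fintype.card S = 5 := by
    rw [← Nat.card_eq_fintype_card]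
    change Nat.card {v // v ≠ 0 ∧ Q v = 0} = 5
    omega
  have ha : ∀ v, Q v = v (Sum.inl (Sum.inl 0)) * v (Sum.inl (Sum.inr 0)) +
      (v (Sum.inr 0) ^ 2 + v (Sum.inr 0) * v (Sum.inr 1) + v (Sum.inr 1) ^ 2) := by
    intro v
    simp [hQdef, Cfsg.quadFormMinus]
  let e1 : (Fin 1 ⊕ Fin 1) ⊕ Fin 2 → F := Pi.single (Sum.inl (Sum.inl 0)) 1
  let e2 : (Fin 1 ⊕ Fin 1) ⊕ Fin 2 → F := Pi.single (Sum.inl (Sum.inr 0)) 1
  let e3 : (Fin 1 ⊕ Fin 1) ⊕ Fin 2 → F := Pi.single (Sum.inr 0) 1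
  let e4 : (Fin 1 ⊕ Fin 1) ⊕ Fin 2 → F := Pi.single (Sum.inr 1) 1
  have hne : ∀ (v : (Fin 1 ⊕ Fin 1) ⊕ Fin 2 → F) (i), v i = 1 → v ≠ 0 := by
    rintro v i hi rfl
    simp at hi
  have m1 : e1 ∈ S := ⟨hne _ (Sum.inl (Sum.inl 0)) (by simp [e1]), by
    rw [ha]; simp [e1]⟩
  have m2 : e2 ∈ S := ⟨hne _ (Sum.inl (Sum.inr 0)) (by simp [e2]), by
    rw [ha]; simp [e2]⟩
  have m3 : e1 + e2 + e3 ∈ S := ⟨hne _ (Sum.inr 0) (by simp [e1, e2, e3]), by
    rw [ha]
    simp [e1, e2, e3]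
    linear_combination h2⟩
  have m4 : e1 + e2 + e4 ∈ S := ⟨hne _ (Sum.inr 1) (by simp [e1, e2, e4]), by
    rw [ha]
    simp [e1, e2, e4]
    linear_combination h2⟩
  have hspan : Submodule.span F S = ⊤ := by
    apply Cfsg.Agent.Lib.Classical.Small.span_eq_top_of_single
    have s1 : e1 ∈ Submodule.span F S := Submodule.subset_span m1
    have s2 : e2 ∈ Submodule.span F S := Submodule.subset_span m2
    have s3 : e1 + e2 + e3 ∈ Submodule.span F S := Submodule.subset_span m3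
    have s4 : e1 + e2 + e4 ∈ Submodule.span F S := Submodule.subset_span m4
    rintro ((i | i) | i)
    · have : i = 0 := Subsingleton.elim _ _
      rw [this]
      exact s1
    · have : i = 0 := Subsingleton.elim _ _
      rw [this]
      exact s2
    · fin_cases i
      · have := (Submodule.sub_mem _ s3 (Submodule.add_mem _ s1 s2))
        simpa using this
      · have := (Submodule.sub_mem _ s4 (Submodule.add_mem _ s1 s2))
        simpa using this
  exact Cfsg.Agent.Lib.Classical.Small.perm_of_injective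
    (Cfsg.Agent.Lib.Classical.Small.isoAct Q S (fun g v hv => Cfsg.Agent.Lib.Classical.Small.sing_stable Q 0 g v hv))
    (Cfsg.Agent.Lib.Classical.Small.isoAct_injective _ _ _ hspan) 5 hX (by
      rw [hcard]
      rfl)

end Cfsg.Agent.S0824
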