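import Cfsg.Statements.S0829
import Mathlib
import Cfsg.Agent.Lib.Classical.TICount

set_option autoImplicit false
open Cfsg

namespace Cfsg.Agent.S0829

/-- The unitary quadrangle of PSU_4(q): with |F| = q², the number of 2-dimensional subspaces of F^4 on which the Hermitian form Σ x_i y_i^q vanishes is (q + 1)(q³ + 1). -/
theorem result {F : Type*} [Field F] [Fintype F] {q : ℕ} (hF : Fintype.card F = q ^ 2) : Nat.card {W : Submodule F (Fin 4 → F) // Module.finrank F W = 2 ∧ ∀ u ∈ W, ∀ v ∈ W, Cfsg.hermForm 4 F q u v = 0} = (q + 1) * (q ^ 3 + 1) := by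
  open Cfsg.Agent.Lib.Classical Cfsg.Agent.Lib.Classical.TI in
  have hq := one_lt_q hF
  have hq' : 2 ≤ q := hq
  have hQ : ∀ n, ((Nat.card {v : Fin n → F // v ≠ 0 ∧ Cfsg.hermForm n F q v v = 0} : ℕ) : ℤ) = ((hcnt n F q 0 : ℕ) : ℤ) - 1 := by
    intro n
    have e : {v : Fin n → F // v ≠ 0 ∧ Cfsg.hermForm n F q v v = 0} ≃
        {v : Fin n → F // v ∈ {x : Fin n → F | Cfsg.hermForm n F q x x = 0} ∧ v ∉ ({0} : Set (Fin n → F))} :=
      { toFun := fun x => ⟨x.1, x.2.2, x.2.1⟩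
        invFun := fun y => ⟨y.1, y.2.2, y.2.1⟩
        left_inv := fun _ => rfl
        right_inv := fun _ => rfl }
    rw [Nat.card_congr e, card_sub_of_subset (by simp [Cfsg.hermForm])]
    have h1 : Nat.card ({0} : Set (Fin n → F)) = 1 := by simp
    rw [h1]
    have h2 : 1 ≤ hcnt n F q 0 := by
      haveI : Nonempty {v : Fin n → F // Cfsg.hermForm n F q v v = 0} := ⟨⟨0, by simp [Cfsg.hermForm]⟩⟩
      exact Nat.card_pos
    change (((hcnt n F q 0) - 1 : ℕ) : ℤ) = _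
    push_cast [h2]
    rfl
  -- planes through an isotropic vector
  have hA : ∀ v : Fin 4 → F, v ≠ 0 → Cfsg.hermForm 4 F q v v = 0 →
      Nat.card {W : Submodule F (Fin 4 → F) // Module.finrank F W = 2 ∧ v ∈ W ∧ ∀ u ∈ W, ∀ w ∈ W, Cfsg.hermForm 4 F q u w = 0} = q + 1 := by
    intro v hv hvv
    have h1 := card_through (K := F) (herm_rel hF 4) hv hvv
    have h2 := card_I (n := 2) hF hv hvv
    rw [h2, hF] at h1
    have h3 := hcnt_zero hF 2
    have h4 : ((hcnt 2 F q 0 : ℕ) : ℤ) = ((q : ℤ) ^ 2 - 1) * ((q : ℤ) + 1) + 1 := by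
      have hq0 : (q : ℤ) ≠ 0 := by positivity
      apply mul_left_cancel₀ hq0
      rw [h3]
      ring
    have hpos : 0 < (q ^ 2) ^ 2 - q ^ 2 := by
      have : q ^ 2 < (q ^ 2) ^ 2 := by nlinarith [pow_pos (show 0 < q by omega) 2]
      omega
    apply Nat.eq_of_mul_eq_mul_right hpos
    rw [h1]
    zify [show q ^ 2 ≤ (q ^ 2) ^ 2 by nlinarith [pow_pos (show 0 < q by omega) 2],
      show q ^ 2 ≤ q ^ 2 * hcnt 2 F q 0 by
        have : 1 ≤ hcnt 2 F q 0 := by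
          haveI : Nonempty {v : Fin 2 → F // Cfsg.hermForm 2 F q v v = 0} := ⟨⟨0, by simp [Cfsg.hermForm]⟩⟩
          exact Nat.card_pos
        nlinarith]
    rw [h4]
    ring
  have h1 := card_all (K := F) (R := fun u v : Fin 4 → F => Cfsg.hermForm 4 F q u v = 0) (q + 1) hA
  rw [hF] at h1
  have hpos : 0 < (q ^ 2) ^ 2 - 1 := by
    have : 1 < (q ^ 2) ^ 2 := by nlinarith [pow_pos (show 0 < q by omega) 2, pow_le_pow_left₀ (by omega : 0 ≤ 2) hq' 2]
    omega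
  apply Nat.eq_of_mul_eq_mul_right hpos
  rw [h1]
  zify [show 1 ≤ (q ^ 2) ^ 2 by nlinarith [pow_pos (show 0 < q by omega) 2]]
  rw [hQ 4]
  have h3 := hcnt_zero hF 4
  have hq0 : (q : ℤ) ≠ 0 := by positivity
  have h4 : ((hcnt 4 F q 0 : ℕ) : ℤ) = ((q : ℤ) ^ 4 - 1) * ((q : ℤ) ^ 3 + 1) + 1 := by
    apply mul_left_cancel₀ hq0
    rw [h3]
    ring
  rw [h4]
  ring

end Cfsg.Agent.S0829
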