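import Cfsg.Statements.S0831
import Mathlib
import Cfsg.Agent.Lib.Classical.OrthTS

set_option autoImplicit false
open Cfsg

namespace Cfsg.Agent.S0831

/-- The two families of maximal totally singular subspaces of the hyperbolic quadric: for the form Σ x_i y_i on F^(2m), m ≥ 1, and m-dimensional subspaces U, W, X on which it vanishes, the parities of m − dim(U ∩ W), m − dim(W ∩ X) and m − dim(U ∩ X) sum to an even number (so 'even codimension of the intersection' is an equivalence relation), and there exist two such subspaces meeting in codimension 1 (so there are exactly two classes). -/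
theorem result {F : Type*} [Field F] (m : ℕ) (hm : 1 ≤ m) : (∀ U W X : Submodule F (Fin m ⊕ Fin m → F), (Module.finrank F U = m ∧ ∀ w ∈ U, Cfsg.quadFormPlus m F w = 0) → (Module.finrank F W = m ∧ ∀ w ∈ W, Cfsg.quadFormPlus m F w = 0) → (Module.finrank F X = m ∧ ∀ w ∈ X, Cfsg.quadFormPlus m F w = 0) → Even ((m - Module.finrank F ↥(U ⊓ W)) + (m - Module.finrank F ↥(W ⊓ X)) + (m - Module.finrank F ↥(U ⊓ X)))) ∧ ∃ U W : Submodule F (Fin m ⊕ Fin m → F), (Module.finrank F U = m ∧ ∀ w ∈ U, Cfsg.quadFormPlus m F w = 0) ∧ (Module.finrank F W = m ∧ ∀ w ∈ W, Cfsg.quadFormPlus m F w = 0) ∧ Module.finrank F ↥(U ⊓ W) + 1 = m := by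
  open Cfsg.Agent.Lib.Classical.Orth Cfsg.Agent.Lib.Classical.Abs in
  have e : Cfsg.quadFormPlus m F = ⇑(Qplus m F) := funext fun v => (Qplus_apply m v).symm
  rw [e]
  have hQ := Qplus_nondeg' (F' := F) m
  have hV : Module.finrank F (Fin m ⊕ Fin m → F) = 2 * m := by
    simp
    omega
  constructor
  · intro U W X hU hW hX
    exact lagr_parity hQ hV ⟨hU.1, hU.2⟩ ⟨hW.1, hW.2⟩ ⟨hX.1, hX.2⟩
  · have h1 := inlL_lagr (F' := F) m
    have h2 := inrL_lagr (F' := F) m
    obtain ⟨W', hW', h3, -⟩ := exists_flip hQ hV h1 h2 (std_ne m hm)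
    exact ⟨_, W', ⟨h1.dim, h1.ts⟩, ⟨hW'.dim, hW'.ts⟩, h3⟩

end Cfsg.Agent.S0831
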