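import Cfsg.Statements.S0832
import Mathlib
import Cfsg.Agent.Lib.Classical.OrthTS

set_option autoImplicit false
open Cfsg

namespace Cfsg.Agent.S0832

/-- For the form Σ x_i y_i on F^(2m) over a finite field, m ≥ 1: an (m−1)-dimensional subspace on which the form vanishes is contained in exactly two m-dimensional subspaces on which it vanishes. -/
theorem result {F : Type*} [Field F] [Finite F] (m : ℕ) (hm : 1 ≤ m) (U : Submodule F (Fin m ⊕ Fin m → F)) (hU : Module.finrank F U + 1 = m ∧ ∀ u ∈ U, Cfsg.quadFormPlus m F u = 0) : Nat.card {W : Submodule F (Fin m ⊕ Fin m → F) // Module.finrank F W = m ∧ (∀ w ∈ W, Cfsg.quadFormPlus m F w = 0) ∧ U ≤ W} = 2 := by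
  open Cfsg.Agent.Lib.Classical.Orth Cfsg.Agent.Lib.Classical.Abs in
  have e : Cfsg.quadFormPlus m F = ⇑(Qplus m F) := funext fun v => (Qplus_apply m v).symm
  rw [e] at hU ⊢
  have hQ := Qplus_nondeg' (F' := F) m
  have hV : Module.finrank F (Fin m ⊕ Fin m → F) = 2 * m := by
    simp
    omega
  obtain ⟨W₁, W₂, h1, h1', h2, h2', hne, hall⟩ := two_lagr hQ hV (inlL_lagr (F' := F) m) hU.2 hU.1
  rw [Nat.card_eq_two_iff]
  refine ⟨⟨W₁, h1.dim, h1.ts, h1'⟩, ⟨W₂, h2.dim, h2.ts, h2'⟩, ?_, ?_⟩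
  · intro h
    exact hne (congrArg Subtype.val h)
  · rw [Set.eq_univ_iff_forall]
    rintro ⟨L, hL1, hL2, hL3⟩
    rcases hall L ⟨hL1, hL2⟩ hL3 with h | h
    · left
      exact Subtype.ext h
    · right
      exact Subtype.ext h

end Cfsg.Agent.S0832
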