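import Cfsg.Statements.S0833
import Mathlib
import Cfsg.Agent.S0752
import Cfsg.Agent.Lib.Classical.TensorForm

set_option autoImplicit false
open Cfsg

namespace Cfsg.Agent.S0833

/-- If B₁, B₂ are non-degenerate alternating forms on U (dim 2k) and W (dim 2l), then B₁ ⊗ B₂ on U ⊗ W is symmetric, non-degenerate, and vanishes identically on some subspace of dimension 2kl (half of dim U ⊗ W). -/
theorem result {F U W : Type*} [Field F] [Fintype F] [AddCommGroup U] [Module F U] [FiniteDimensional F U] [AddCommGroup W] [Module F W] [FiniteDimensional F W] (B₁ : LinearMap.BilinForm F U) (B₂ : LinearMap.BilinForm F W) (h₁ : B₁.Nondegenerate) (h₂ : B₂.Nondegenerate) (hA₁ : B₁.IsAlt) (hA₂ : B₂.IsAlt) (k l : ℕ) (hU : Module.finrank F U = 2 * k) (hW : Module.finrank F W = 2 * l) : (B₁.tmul B₂).IsSymm ∧ (B₁.tmul B₂).Nondegenerate ∧ (∃ X : Submodule F (TensorProduct F U W), Module.finrank F X = 2 * k * l ∧ ∀ x ∈ X, ∀ y ∈ X, (B₁.tmul B₂) x y = 0) := by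
  classical
  open TensorProduct in
  refine ⟨⟨?_⟩, Cfsg.Agent.Lib.Classical.Tens.tmul_nondeg B₁ B₂ h₁ h₂, ?_⟩
  · intro x y
    simp only [RingHom.id_apply]
    induction x using TensorProduct.induction_on with
    | zero => simp
    | add a b ha hb => simp only [map_add, LinearMap.add_apply, ha, hb]
    | tmul a b =>
      induction y using TensorProduct.induction_on with
      | zero => simp
      | add c d hc hd => simp only [map_add, LinearMap.add_apply, hc, hd]
      | tmul c d =>
        simp only [Cfsg.Agent.Lib.Classical.Tens.tmul_apply]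
        rw [Cfsg.Agent.Lib.Classical.Witt.alt_antisymm B₁ hA₁ a c, Cfsg.Agent.Lib.Classical.Witt.alt_antisymm B₂ hA₂ b d]
        ring
  · obtain ⟨m, k', b, h1, h2, h3, h4⟩ := Cfsg.Agent.S0752.result B₂ hA₂
    have hk' : k' = 0 := by
      by_contra hne
      have hj : Fin k' := ⟨0, Nat.pos_of_ne_zero hne⟩
      exact b.ne_zero (.inr hj) (h₂.1 _ (h4 hj))
    subst hk'
    have hm : m = l := by
      have := Module.finrank_eq_card_basis b
      simp only [Fintype.card_sum, Fintype.card_fin] at this
      omega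
    subst hm
    obtain ⟨X, hX1, hX2⟩ := Cfsg.Agent.Lib.Classical.Tens.exists_ts_tensor B₁ B₂ (fun i : Fin m => b (.inl (.inl i)))
      (b.linearIndependent.comp _ (fun i j h => by simpa using h)) (fun i j => h2 i j)
    exact ⟨X, by rw [hX1, hU], hX2⟩

end Cfsg.Agent.S0833
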