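import Cfsg.Statements.S0834
import Mathlib
import Cfsg.Agent.Lib.Classical.TensorForm

set_option autoImplicit false
open Cfsg

namespace Cfsg.Agent.S0834

/-- Over a finite field with 2 ≠ 0: if B₁ on U (dim 2k, k ≥ 1) and B₂ on W (dim 2l, l ≥ 1) are non-degenerate symmetric forms admitting no totally isotropic subspaces of dimensions k, resp. l (minus type), then B₁ ⊗ B₂ admits a totally isotropic subspace of dimension 2kl (plus type). -/
theorem result {F U W : Type*} [Field F] [Fintype F] [AddCommGroup U] [Module F U] [FiniteDimensional F U] [AddCommGroup W] [Module F W] [FiniteDimensional F W] (h2 : (2 : F) ≠ 0) (B₁ : LinearMap.BilinForm F U) (B₂ : LinearMap.BilinForm F W) (h₁ : B₁.Nondegenerate) (h₂ : B₂.Nondegenerate) (hS₁ : B₁.IsSymm) (hS₂ : B₂.IsSymm) (k l : ℕ) (hk : 1 ≤ k) (hl : 1 ≤ l) (hU : Module.finrank F U = 2 * k) (hW : Module.finrank F W = 2 * l) (hm₁ : ¬ (∃ X : Submodule F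 (U), Module.finrank F X = k ∧ ∀ x ∈ X, ∀ y ∈ X, (B₁) x y = 0)) (hm₂ : ¬ (∃ X : Submodule F (W), Module.finrank F X = l ∧ ∀ x ∈ X, ∀ y ∈ X, (B₂) x y = 0)) : (∃ X : Submodule F (TensorProduct F U W), Module.finrank F X = 2 * k * l ∧ ∀ x ∈ X, ∀ y ∈ X, (B₁.tmul B₂) x y = 0) := by
  classical
  obtain ⟨a, ha1, ha2⟩ := Cfsg.Agent.Lib.Classical.Sym.exists_orth_family h2 (2 * k) U B₁ hS₁ h₁ hU
  obtain ⟨c, hc1, hc2⟩ := Cfsg.Agent.Lib.Classical.Sym.exists_orth_family h2 (2 * l) W B₂ hS₂ h₂ hW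
  have hdim : 2 * k * (2 * l) = 2 * (2 * k * l) := by ring
  obtain ⟨e, he1, he2, he3⟩ := Cfsg.Agent.Lib.Classical.Tens.tensor_family B₁ B₂ hdim a c ha1 ha2 hc1 hc2
  have hsq : IsSquare ((-1 : F) ^ (2 * k * l) * ∏ i, (B₁.tmul B₂) (e i) (e i)) := by
    rw [he3]
    set A := ∏ i, B₁ (a i) (a i)
    set D := ∏ j, B₂ (c j) (c j)
    refine ⟨A ^ l * D ^ k, ?_⟩
    have h1 : (-1 : F) ^ (2 * k * l) = 1 := by
      rw [mul_assoc, pow_mul]
      simp
    rw [h1, one_mul]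
    ring
  exact Cfsg.Agent.Lib.Classical.Sym.exists_ts_of_family h2 (2 * k * l) _ (B₁.tmul B₂) (Cfsg.Agent.Lib.Classical.Tens.tmul_isSymm B₁ B₂ hS₁ hS₂)
    (Cfsg.Agent.Lib.Classical.Tens.tmul_nondeg B₁ B₂ h₁ h₂) (by rw [Module.finrank_tensorProduct, hU, hW]; ring) e he1 he2 hsq

end Cfsg.Agent.S0834
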