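import Cfsg.Statements.S0835
import Mathlib
import Cfsg.Agent.Lib.Classical.TensorForm

set_option autoImplicit false
open Cfsg

namespace Cfsg.Agent.S0835

/-- Over a finite field with 2 ≠ 0: if B₁ on U (dim 2k, k ≥ 1) is non-degenerate symmetric of minus type (no totally isotropic k-subspace) and B₂ on W (dim 2l + 1) is non-degenerate symmetric, then B₁ ⊗ B₂ (dimension 2k(2l+1)) admits no totally isotropic subspace of dimension k(2l+1) (minus type). -/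
theorem result {F U W : Type*} [Field F] [Fintype F] [AddCommGroup U] [Module F U] [FiniteDimensional F U] [AddCommGroup W] [Module F W] [FiniteDimensional F W] (h2 : (2 : F) ≠ 0) (B₁ : LinearMap.BilinForm F U) (B₂ : LinearMap.BilinForm F W) (h₁ : B₁.Nondegenerate) (h₂ : B₂.Nondegenerate) (hS₁ : B₁.IsSymm) (hS₂ : B₂.IsSymm) (k l : ℕ) (hk : 1 ≤ k) (hU : Module.finrank F U = 2 * k) (hW : Module.finrank F W = 2 * l + 1) (hm₁ : ¬ (∃ X : Submodule F (U), Module.finrank F X = k ∧ ∀ x ∈ X, ∀ y ∈ X, (B₁) x y = 0)) : ¬ (∃ X : Submodule F (TensorProduct F U W), Module.finrank F X = k * (2 * l + 1) ∧ ∀ x ∈ X, ∀ y ∈ X, (B₁.tmul B₂) x y = 0) := by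
  classical
  rintro ⟨X, hX1, hX2⟩
  obtain ⟨a, ha1, ha2⟩ := Cfsg.Agent.Lib.Classical.Sym.exists_orth_family h2 (2 * k) U B₁ hS₁ h₁ hU
  obtain ⟨c, hc1, hc2⟩ := Cfsg.Agent.Lib.Classical.Sym.exists_orth_family h2 (2 * l + 1) W B₂ hS₂ h₂ hW
  have hdim : 2 * k * (2 * l + 1) = 2 * (k * (2 * l + 1)) := by ring
  obtain ⟨e, he1, he2, he3⟩ := Cfsg.Agent.Lib.Classical.Tens.tensor_family B₁ B₂ hdim a c ha1 ha2 hc1 hc2
  have hfin : Module.finrank F (TensorProduct F U W) = 2 * (k * (2 * l + 1)) := by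
    rw [Module.finrank_tensorProduct, hU, hW]; ring
  obtain ⟨f, hf1, hf2, hf3⟩ := Cfsg.Agent.Lib.Classical.Sym.exists_family_of_ts h2 (k * (2 * l + 1)) _ (B₁.tmul B₂) (Cfsg.Agent.Lib.Classical.Tens.tmul_isSymm B₁ B₂ hS₁ hS₂)
    (Cfsg.Agent.Lib.Classical.Tens.tmul_nondeg B₁ B₂ h₁ h₂) hfin X hX1 hX2
  obtain ⟨d, hd0, hd⟩ := Cfsg.Agent.Lib.Classical.Sym.prod_eq_sq_mul (B₁.tmul B₂) hfin e f he1 he2 hf1 hf2
  rw [he3, hf3] at hd
  set A := ∏ i, B₁ (a i) (a i) with hA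
  set D := ∏ j, B₂ (c j) (c j) with hD
  have hA0 : A ≠ 0 := Finset.prod_ne_zero_iff.mpr fun i _ => ha2 i
  have hD0 : D ≠ 0 := Finset.prod_ne_zero_iff.mpr fun i _ => hc2 i
  apply hm₁
  have hsq : IsSquare ((-1 : F) ^ k * A) := by
    refine ⟨d * (-1) ^ (k * l) * (-1) ^ k / (A ^ l * D ^ k), ?_⟩
    have hs : ((-1 : F) ^ k) * ((-1 : F) ^ k) = 1 := by
      rw [← mul_pow]; simp
    have e1 : A ^ (2 * l + 1) = A * (A ^ l) ^ 2 := by ring
    have e2 : D ^ (2 * k) = (D ^ k) ^ 2 := by ring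
    have e3 : (-1 : F) ^ (k * (2 * l + 1)) = (-1) ^ k * ((-1) ^ (k * l)) ^ 2 := by ring
    rw [e1, e2, e3] at hd
    have hAl : A ^ l ≠ 0 := pow_ne_zero _ hA0
    have hDk : D ^ k ≠ 0 := pow_ne_zero _ hD0
    have hY : A ^ l * D ^ k ≠ 0 := mul_ne_zero hAl hDk
    rw [div_mul_div_comm, eq_div_iff (mul_ne_zero hY hY)]
    linear_combination ((-1 : F) ^ k) * hd
  exact Cfsg.Agent.Lib.Classical.Sym.exists_ts_of_family h2 k _ B₁ hS₁ h₁ hU a ha1 ha2 hsq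

end Cfsg.Agent.S0835
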