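import Cfsg.Statements.S0836
import Mathlib
import Cfsg.Agent.Lib.Classical.Transvection

set_option autoImplicit false
open Cfsg

namespace Cfsg.Agent.S0836

/-- For i ≠ j and any scalar c, the elementary transvection 1 + c E_ij is a commutator ⁅g, h⁆ of two elements of SL_n(F) provided n ≥ 3, or n = 2 and F contains x ≠ 0 with x² ≠ 1. -/
theorem result {F : Type*} [Field F] (n : ℕ) (hn : 3 ≤ n ∨ (n = 2 ∧ ∃ x : F, x ≠ 0 ∧ x ^ 2 ≠ 1)) (i j : Fin n) (hij : i ≠ j) (c : F) (t : Matrix.SpecialLinearGroup (Fin n) F) (ht : (t : Matrix (Fin n) (Fin n) F) = Matrix.transvection i j c) : t ∈ commutatorSet (Matrix.SpecialLinearGroup (Fin n) F) := by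
  have ht' : t = Matrix.SpecialLinearGroup.transvection hij c := Subtype.ext ht
  subst ht'
  rcases hn with hn | ⟨rfl, x, hx, hx2⟩
  · obtain ⟨k, hki, hkj⟩ : ∃ k : Fin n, k ≠ i ∧ k ≠ j := by
      by_contra h
      push Not at h
      have : (Finset.univ : Finset (Fin n)) ⊆ {i, j} := by
        intro k _
        by_cases hk : k = i
        · simp [hk]
        · simp [h k hk]
      have := Finset.card_le_card this
      have h2 : ({i, j} : Finset (Fin n)).card ≤ 2 := Finset.card_le_two
      simp only [Finset.card_univ, Fintype.card_fin] at this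
      omega
    exact Cfsg.Agent.Lib.Classical.transvection_mem_commutatorSet_of_three hij hki.symm hkj c
  · exact Cfsg.Agent.Lib.Classical.transvection_mem_commutatorSet_of_diag hij c x hx hx2

end Cfsg.Agent.S0836
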