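import Cfsg.Statements.S0837
import Mathlib
import Cfsg.Agent.Lib.Classical.StabDecomp
import Cfsg.Agent.Lib.Classical.HermStd

set_option autoImplicit false
open Cfsg

namespace Cfsg.Agent.S0837

/-- If W ≤ F^n (|F| = q²) is a k-dimensional subspace on which the Hermitian form Σ x_i y_i^q is non-degenerate, then the stabiliser of W in GU_n(q) is isomorphic to GU_k(q) × GU_(n−k)(q). -/
theorem result {F : Type*} [Field F] [Fintype F] {q : ℕ} (hF : Fintype.card F = q ^ 2) (n k : ℕ) (hk : k ≤ n) (W : Submodule F (Fin n → F)) (hWk : Module.finrank F W = k) (hW : ∀ u ∈ W, (∀ v ∈ W, Cfsg.hermForm n F q u v = 0) → u = 0) : Nonempty (↥((Cfsg.stabilizing (Cfsg.glToMat (Fin n) F) (W : Set (Fin n → F))).subgroupOf (Cfsg.GU n F q)) ≃* ↥(Cfsg.GU k F q) × ↥(Cfsg.GU (n - k) F q)) := by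
  classical
  open Cfsg.Agent.Lib.Classical Cfsg.Agent.Lib.Classical.Abs in
  have hc := hermPerp_isCompl hF W hW
  set W' := hermPerp (q := q) hF W with hW'
  have hdim : Module.finrank F W + Module.finrank F W' = n := by
    rw [Submodule.finrank_add_eq_of_isCompl hc]
    simp
  obtain ⟨θ₁, hθ₁⟩ := exists_herm_isometry hF (hermR hF W) (hermR_symm hF W) (hermR_nondeg hF W hW) k hWk
  obtain ⟨θ₂, hθ₂⟩ := exists_herm_isometry hF (hermR hF W') (hermR_symm hF W') (hermR_nondeg hF W' (hermPerp_nondeg hF W hW)) (n - k) (by omega)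
  let E : ∀ n : ℕ, Cfsg.GU n F q ≃* isoG (Cfsg.hermForm n F q) := fun n => glIsoEquiv (Cfsg.hermForm n F q)
  have hE : ∀ g, g ∈ (Cfsg.stabilizing (Cfsg.glToMat (Fin n) F) (W : Set (Fin n → F))).subgroupOf (Cfsg.GU n F q) ↔
      E n g ∈ setStabG (Cfsg.hermForm n F q) W := by
    intro g
    rw [mem_setStabG, Subgroup.mem_subgroupOf]
    constructor
    · intro h v
      have h1 := glIsoEquiv_apply (Cfsg.hermForm n F q) g v
      have h2 := h v
      change v ∈ W ↔ (E n g).1 v ∈ W
      change (E n g).1 v = _ at h1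
      rw [h1]
      exact h2
    · intro h v
      have h1 := glIsoEquiv_apply (Cfsg.hermForm n F q) g v
      have h2 := h v
      change (E n g).1 v = _ at h1
      rw [h1] at h2
      exact h2
  exact ⟨(subgroupEquivOfIff (E n) _ _ hE).trans ((stabDecomp (Cfsg.hermForm n F q) W W' hc (hermPerp_add hF W) (fun v => mem_hermPerp hF)).trans
    (MulEquiv.prodCongr
      ((isoGCongr θ₁ _ _ (fun u v => hθ₁ u v)).trans (E k).symm)
      ((isoGCongr θ₂ _ _ (fun u v => hθ₂ u v)).trans (E (n - k)).symm)))⟩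

end Cfsg.Agent.S0837
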