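import Cfsg.Statements.S0838
import Mathlib
import Cfsg.Agent.Lib.Classical.SymType

set_option autoImplicit false
open Cfsg

namespace Cfsg.Agent.S0838

lemma prod_normal {F : Type*} [Field F] {k : ℕ} (x : Fin (k + 1) → F) (h : ∀ i, i ≠ Fin.last k → x i = 1) :
    ∏ i, x i = x (Fin.last k) := by
  rw [Fin.prod_univ_castSucc]
  have : ∀ i : Fin k, x i.castSucc = 1 := fun i => h _ (Fin.castSucc_lt_last i).ne
  simp [this]

/-- Over a finite field with 2 ≠ 0 and n odd: two quadratic forms Q₁, Q₂ on F^n with non-degenerate polar forms are similar — there are an invertible linear map g and a scalar c ≠ 0 with Q₂ (g v) = c · Q₁ v for all v. -/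
theorem result {F : Type*} [Field F] [Fintype F] (h2 : (2 : F) ≠ 0) {n : ℕ} (hn : Odd n) (Q₁ Q₂ : QuadraticForm F (Fin n → F)) (h₁ : (QuadraticMap.polarBilin Q₁).Nondegenerate) (h₂ : (QuadraticMap.polarBilin Q₂).Nondegenerate) : ∃ (g : (Fin n → F) ≃ₗ[F] (Fin n → F)) (c : F), c ≠ 0 ∧ ∀ v, Q₂ (g v) = c * Q₁ v := by
  classical
  obtain ⟨k, rfl⟩ := hn
  have hchar : ringChar F ≠ 2 := by
    intro h
    apply h2
    have : CharP F 2 := by
      rw [← h]; exact ringChar.charP F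
    exact CharTwo.two_eq_zero
  obtain ⟨α, hα⟩ := FiniteField.exists_nonsquare hchar
  have hα0 : α ≠ 0 := by
    rintro rfl
    exact hα IsSquare.zero
  have hfin : Module.finrank F (Fin (2 * k + 1) → F) = 2 * k + 1 := by simp
  set B₁ : LinearMap.BilinForm F (Fin (2 * k + 1) → F) := QuadraticMap.polarBilin Q₁ with hB₁
  set B₂ : LinearMap.BilinForm F (Fin (2 * k + 1) → F) := QuadraticMap.polarBilin Q₂ with hB₂
  have hS₁ : LinearMap.BilinForm.IsSymm B₁ := ⟨fun x y => QuadraticMap.polar_comm _ _ _⟩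
  have hS₂ : LinearMap.BilinForm.IsSymm B₂ := ⟨fun x y => QuadraticMap.polar_comm _ _ _⟩
  obtain ⟨e₁, he₁1, he₁2⟩ := Cfsg.Agent.Lib.Classical.Sym.exists_orth_family h2 _ _ B₁ hS₁ h₁ hfin
  obtain ⟨e₂, he₂1, he₂2⟩ := Cfsg.Agent.Lib.Classical.Sym.exists_orth_family h2 _ _ B₂ hS₂ h₂ hfin
  set A := ∏ i, B₁ (e₁ i) (e₁ i) with hA
  set D := ∏ i, B₂ (e₂ i) (e₂ i) with hD
  have hA0 : A ≠ 0 := Finset.prod_ne_zero_iff.mpr fun i _ => he₁2 i
  have hD0 : D ≠ 0 := Finset.prod_ne_zero_iff.mpr fun i _ => he₂2 i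
  set c := D / A with hc
  have hc0 : c ≠ 0 := div_ne_zero hD0 hA0
  set C : LinearMap.BilinForm F (Fin (2 * k + 1) → F) := c • B₁ with hC
  have hCapp : ∀ x y, C x y = c * B₁ x y := fun x y => rfl
  have hSC : LinearMap.BilinForm.IsSymm C := ⟨fun x y => by simp only [hCapp]; rw [hS₁.eq x y]⟩
  have hCnd : C.Nondegenerate := by
    constructor
    · intro x hx
      apply h₁.1
      intro y
      have := hx y
      rw [hCapp] at this
      exact (mul_eq_zero.mp this).resolve_left hc0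
    · intro x hx
      apply h₁.2
      intro y
      have := hx y
      rw [hCapp] at this
      exact (mul_eq_zero.mp this).resolve_left hc0
  obtain ⟨f₁, hf₁1, hf₁2, hf₁3⟩ := Cfsg.Agent.Lib.Classical.Sym.exists_normal_family h2 α hα _ _ C hSC hCnd hfin
  obtain ⟨f₂, hf₂1, hf₂2, hf₂3⟩ := Cfsg.Agent.Lib.Classical.Sym.exists_normal_family h2 α hα _ _ B₂ hS₂ h₂ hfin
  have hne₁ : ∀ i, C (f₁ i) (f₁ i) ≠ 0 := by
    intro i
    by_cases hi : i = Fin.last (2 * k)
    · subst hi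
      rcases hf₁3 with h | h <;> rw [h]
      · exact one_ne_zero
      · exact hα0
    · rw [hf₁2 i hi]; exact one_ne_zero
  have hne₂ : ∀ i, B₂ (f₂ i) (f₂ i) ≠ 0 := by
    intro i
    by_cases hi : i = Fin.last (2 * k)
    · subst hi
      rcases hf₂3 with h | h <;> rw [h]
      · exact one_ne_zero
      · exact hα0
    · rw [hf₂2 i hi]; exact one_ne_zero
  obtain ⟨d₁, hd₁0, hd₁⟩ := Cfsg.Agent.Lib.Classical.Sym.prod_eq_sq_mul C hfin f₁ e₁ hf₁1 hne₁
    (fun i j hij => by rw [hCapp, he₁1 i j hij, mul_zero]) (fun i => by rw [hCapp]; exact mul_ne_zero hc0 (he₁2 i))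
  obtain ⟨d₂, hd₂0, hd₂⟩ := Cfsg.Agent.Lib.Classical.Sym.prod_eq_sq_mul B₂ hfin f₂ e₂ hf₂1 hne₂ he₂1 he₂2
  rw [prod_normal _ (fun i hi => hf₁2 i hi)] at hd₁
  rw [prod_normal _ (fun i hi => hf₂2 i hi), ← hD] at hd₂
  have hprodC : ∏ i, C (e₁ i) (e₁ i) = c ^ (2 * k + 1) * A := by
    simp only [hCapp]
    rw [Finset.prod_mul_distrib, Finset.prod_const, Finset.card_univ, Fintype.card_fin]
  rw [hprodC] at hd₁
  set δ₁ := C (f₁ (Fin.last (2 * k))) (f₁ (Fin.last (2 * k))) with hδ₁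
  set δ₂ := B₂ (f₂ (Fin.last (2 * k))) (f₂ (Fin.last (2 * k))) with hδ₂
  have hkey : δ₁ = (d₁ * c ^ k / d₂) * (d₁ * c ^ k / d₂) * δ₂ := by
    rw [hd₁, hd₂]
    have hcA : c * A = D := by rw [hc]; field_simp
    field_simp
    rw [← hcA]
    ring
  have hδ : δ₁ = δ₂ := by
    have hsne : d₁ * c ^ k / d₂ ≠ 0 := div_ne_zero (mul_ne_zero hd₁0 (pow_ne_zero _ hc0)) hd₂0
    rcases hf₁3 with h3 | h3 <;> rcases hf₂3 with h4 | h4
    · rw [h3, h4]
    · exfalso
      apply hα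
      rw [h3, h4] at hkey
      generalize d₁ * c ^ k / d₂ = s at hkey hsne
      have h5 : α * (s * s) = 1 := by linear_combination -hkey
      refine ⟨s⁻¹, ?_⟩
      field_simp
      linear_combination h5
    · exfalso
      apply hα
      rw [h3, h4] at hkey
      refine ⟨d₁ * c ^ k / d₂, ?_⟩
      rw [hkey, mul_one]
    · rw [h3, h4]
  -- the linear map
  let b₁ := Cfsg.Agent.Lib.Classical.Sym.orthBasis C f₁ hf₁1 hne₁ hfin
  let b₂ := Cfsg.Agent.Lib.Classical.Sym.orthBasis B₂ f₂ hf₂1 hne₂ hfin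
  let g : (Fin (2 * k + 1) → F) ≃ₗ[F] (Fin (2 * k + 1) → F) := b₁.equiv b₂ (Equiv.refl _)
  have hgb : ∀ i, g (f₁ i) = f₂ i := by
    intro i
    have h3 : g (b₁ i) = b₂ i := by simp [g]
    simpa [b₁, b₂] using h3
  have hform : ∀ u v, B₂ (g u) (g v) = C u v := by
    have hE : B₂.compl₁₂ (g : (Fin (2 * k + 1) → F) →ₗ[F] (Fin (2 * k + 1) → F)) (g : (Fin (2 * k + 1) → F) →ₗ[F] (Fin (2 * k + 1) → F)) = C := by
      apply LinearMap.BilinForm.ext_basis b₁
      intro i j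
      simp only [LinearMap.compl₁₂_apply, LinearEquiv.coe_coe, b₁, Cfsg.Agent.Lib.Classical.Sym.orthBasis_apply, hgb]
      by_cases hij : i = j
      · subst hij
        by_cases hi : i = Fin.last (2 * k)
        · subst hi
          exact hδ.symm
        · rw [hf₁2 i hi, hf₂2 i hi]
      · rw [hf₁1 i j hij, hf₂1 i j hij]
    intro u v
    have := congrArg (fun T : LinearMap.BilinForm F (Fin (2 * k + 1) → F) => T u v) hE
    simpa using this
  refine ⟨g, c, hc0, ?_⟩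
  intro v
  have h3 := hform v v
  rw [hCapp] at h3
  have h4 : ∀ (Q : QuadraticForm F (Fin (2 * k + 1) → F)) (x : Fin (2 * k + 1) → F), QuadraticMap.polarBilin Q x x = 2 * Q x := by
    intro Q x
    change QuadraticMap.polar (⇑Q) x x = _
    simp [QuadraticMap.polar_self]
  rw [hB₂, hB₁, h4, h4] at h3
  apply mul_left_cancel₀ h2
  linear_combination h3

end Cfsg.Agent.S0838
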