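import Cfsg.Statements.S0839
import Mathlib
import Cfsg.Agent.Lib.Classical.LinAlg

set_option autoImplicit false
open Cfsg
open Matrix

namespace Cfsg.Agent.S0839

/-- Every transvection t ∈ SL_(n+2)(F) (rank(t − 1) = 1, (t − 1)² = 0) is conjugate in SL_(n+2)(F) to 1 + v·e_0ᵀ for some column vector v with v_0 = 0 (the group A of matrices that are the identity except in the first column below the diagonal); the dimension is written n + 2 ≥ 2. -/
theorem result {F : Type*} [Field F] (n : ℕ) (t : Matrix.SpecialLinearGroup (Fin (n + 2)) F) (ht : Cfsg.IsTransvection (t : Matrix (Fin (n + 2)) (Fin (n + 2)) F)) : ∃ (g : Matrix.SpecialLinearGroup (Fin (n + 2)) F) (v : Fin (n + 2) → F), v 0 = 0 ∧ ((g⁻¹ * t * g : Matrix.SpecialLinearGroup (Fin (n + 2)) F) : Matrix (Fin (n + 2)) (Fin (n + 2)) F) = 1 + Matrix.vecMulVec v (Pi.single 0 1) := by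
  classical
  obtain ⟨hr, hsq⟩ := ht
  set N := (t : Matrix (Fin (n + 2)) (Fin (n + 2)) F) - 1 with hN
  obtain ⟨u, w, huw⟩ := Cfsg.Agent.Lib.Classical.exists_vecMulVec_of_rank_one N hr
  have hN0 : N ≠ 0 := by
    intro h
    rw [h, Matrix.rank_zero] at hr
    exact zero_ne_one hr
  have hw0 : w ≠ 0 := by
    rintro rfl
    exact hN0 (by rw [huw]; simp)
  have hu0 : u ≠ 0 := by
    rintro rfl
    exact hN0 (by rw [huw]; simp)
  have hwu : w ⬝ᵥ u = 0 := by
    rw [huw, Cfsg.Agent.Lib.Classical.vecMulVec_mul_vecMulVec] at hsq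
    have h3 := (smul_eq_zero.mp hsq).resolve_right (Matrix.vecMulVec_ne_zero hu0 hw0)
    exact h3
  obtain ⟨k, hk⟩ := Cfsg.Agent.Lib.Classical.exists_SL_mulVec_single n w hw0
  -- the transpose `h` has first row `w`
  let h : Matrix.SpecialLinearGroup (Fin (n + 2)) F := ⟨(k : Matrix (Fin (n + 2)) (Fin (n + 2)) F).transpose, by rw [Matrix.det_transpose]; exact k.2⟩
  have hrow : (Pi.single 0 1 : Fin (n + 2) → F) ᵥ* (h : Matrix (Fin (n + 2)) (Fin (n + 2)) F) = w := by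
    change (Pi.single 0 1 : Fin (n + 2) → F) ᵥ* (k : Matrix (Fin (n + 2)) (Fin (n + 2)) F).transpose = w
    rw [Matrix.vecMul_transpose, hk]
  have hinv : w ᵥ* ((h⁻¹ : Matrix.SpecialLinearGroup (Fin (n + 2)) F) : Matrix (Fin (n + 2)) (Fin (n + 2)) F) = Pi.single 0 1 := by
    rw [← hrow, Matrix.vecMul_vecMul, ← Matrix.SpecialLinearGroup.coe_mul, mul_inv_cancel]
    simp
  refine ⟨h⁻¹, (h : Matrix (Fin (n + 2)) (Fin (n + 2)) F) *ᵥ u, ?_, ?_⟩
  · have : ((h : Matrix (Fin (n + 2)) (Fin (n + 2)) F) *ᵥ u) 0 = ((Pi.single 0 1 : Fin (n + 2) → F) ᵥ* (h : Matrix (Fin (n + 2)) (Fin (n + 2)) F)) ⬝ᵥ u := by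
      rw [← Matrix.dotProduct_mulVec]
      simp
    rw [this, hrow, hwu]
  · have ht : (t : Matrix (Fin (n + 2)) (Fin (n + 2)) F) = 1 + vecMulVec u w := by
      rw [← huw, hN]; abel
    rw [inv_inv, Matrix.SpecialLinearGroup.coe_mul, Matrix.SpecialLinearGroup.coe_mul, ht, Matrix.mul_add, Matrix.add_mul, Matrix.mul_one,
      Cfsg.Agent.Lib.Classical.mul_vecMulVec', Cfsg.Agent.Lib.Classical.vecMulVec_mul', hinv]
    congr 1
    rw [← Matrix.SpecialLinearGroup.coe_mul, mul_inv_cancel]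
    rfl

end Cfsg.Agent.S0839
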