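import Cfsg.Statements.S0840
import Cfsg.Agent.Lib.Degree.Sums

set_option autoImplicit false
open scoped ComplexConjugate
open Cfsg

namespace Cfsg.Agent.S0840

open Classical in
theorem count_conj {G : Type*} [Group G] [Fintype G] (a x : G) :
    ((Finset.univ.filter fun s : G => s * a * s⁻¹ = x).card : ℂ) =
      if IsConj a x then (Nat.card (Subgroup.centralizer ({a} : Set G)) : ℂ) else 0 := by
  split_ifs with h
  · obtain ⟨c, rfl⟩ := isConj_iff.mp h
    congr 1
    rw [Nat.card_eq_fintype_card, Fintype.card_subtype]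
    symm
    refine Finset.card_bij (fun s _ => c * s) ?_ ?_ ?_
    · intro s hs
      simp only [Finset.mem_filter, Finset.mem_univ, true_and] at hs ⊢
      have : s * a = a * s := Subgroup.mem_centralizer_singleton_iff.mp hs |>.trans (by simp)
      rw [mul_inv_rev, mul_assoc, mul_assoc, ← mul_assoc s, this, mul_assoc a, mul_assoc,
        mul_inv_cancel_left] 
    · intro s _ t _ hst
      exact mul_left_cancel hst
    · intro s hs
      simp only [Finset.mem_filter, Finset.mem_univ, true_and] at hs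
      refine ⟨c⁻¹ * s, ?_, by simp⟩
      simp only [Finset.mem_filter, Finset.mem_univ, true_and]
      rw [Subgroup.mem_centralizer_singleton_iff]
      have h2 : c⁻¹ * s * a = a * (c⁻¹ * s) := by
        have h3 : s * a = c * a * c⁻¹ * s := by
          rw [← hs]
          group
        rw [mul_assoc, h3]
        group
      exact h2
  · rw [Nat.cast_eq_zero, Finset.card_eq_zero, Finset.filter_eq_empty_iff]
    rintro s _ rfl
    exact h (isConj_iff.mpr ⟨s, rfl⟩)

open Classical in
theorem sum_conj_eq_card_mul {G : Type*} [Group G] [Fintype G] (a : G) (F : G → ℂ) :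
    ∑ s : G, F (s * a * s⁻¹) =
      (Nat.card (Subgroup.centralizer ({a} : Set G)) : ℂ) * ∑ x, if IsConj a x then F x else 0 := by
  have h1 : ∀ s : G, F (s * a * s⁻¹) = ∑ x, if s * a * s⁻¹ = x then F x else 0 := by
    intro s
    simp
  simp only [h1]
  rw [Finset.sum_comm, Finset.mul_sum]
  refine Finset.sum_congr rfl fun x _ => ?_
  rw [← Finset.sum_filter, Finset.sum_const, nsmul_eq_mul, count_conj]
  split_ifs <;> simp

/-- Class multiplication coefficients from the character table: for elements a, b, c of a finite group G, the number of ordered pairs (x, y) with x conjugate to a, y conjugate to b and x * y = c equals the product of the sizes of the conjugacy classes of a and b, divided by the order of G, times the sum over the irreducible characters χ of χ a * χ b * conj (χ c) / χ 1. -/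
theorem result {G : Type*} [Group G] [Finite G] (a b c : G) : (Nat.card {p : G × G // IsConj a p.1 ∧ IsConj b p.2 ∧ p.1 * p.2 = c} : ℂ) = (Nat.card {x : G // IsConj a x} : ℂ) * (Nat.card {x : G // IsConj b x} : ℂ) / (Nat.card G : ℂ) * ∑ᶠ χ : Cfsg.IrrCharacter G, (χ : G → ℂ) a * (χ : G → ℂ) b * conj ((χ : G → ℂ) c) / (χ : G → ℂ) 1 := by

  classical
  haveI := Fintype.ofFinite G
  rw [finsum_eq_sum_of_fintype]
  set T := ∑ χ : Cfsg.IrrCharacter G, (χ : G → ℂ) a * (χ : G → ℂ) b * conj ((χ : G → ℂ) c) /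
    (χ : G → ℂ) 1 with hT
  set N := Nat.card {p : G × G // IsConj a p.1 ∧ IsConj b p.2 ∧ p.1 * p.2 = c} with hN
  have hG : (Nat.card G : ℂ) ≠ 0 := by exact_mod_cast Nat.card_pos.ne'
  have hFG : (Fintype.card G : ℂ) = (Nat.card G : ℂ) := by rw [Nat.card_eq_fintype_card]
  -- first step: the class sums
  have h1 : ∀ χ : Cfsg.IrrCharacter G, ∑ s : G, ∑ t : G,
      (χ : G → ℂ) (s * a * s⁻¹ * (t * b * t⁻¹)) =
      (Nat.card G : ℂ) ^ 2 * ((χ : G → ℂ) a * (χ : G → ℂ) b / (χ : G → ℂ) 1) := by
    intro χ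
    have hcl := Cfsg.Agent.Lib.Char.IsCharacter.isClassFunction
      (Cfsg.Agent.Lib.Char.IsIrrCharacter.isCharacter χ.2)
    simp only [Cfsg.Agent.Lib.Degree.irr_sum_conj, hcl a, hFG]
    rw [Finset.sum_const, Finset.card_univ, nsmul_eq_mul, hFG]
    ring
  have h2 : ∑ s : G, ∑ t : G, (if IsConj (s * a * s⁻¹ * (t * b * t⁻¹)) c then
      (Nat.card (Subgroup.centralizer ({c} : Set G)) : ℂ) else 0) = (Nat.card G : ℂ) ^ 2 * T := by
    rw [hT, Finset.mul_sum]
    simp only [← Cfsg.Agent.Lib.Char.second_orthogonality']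
    simp only [Finset.sum_comm (s := (Finset.univ : Finset G)) (t := Finset.univ (α := Cfsg.IrrCharacter G))]
    refine Finset.sum_congr rfl fun χ _ => ?_
    simp only [← Finset.sum_mul, h1]
    ring
  -- second step
  have h3 : ∀ w : G, (if IsConj w c then
      (Nat.card (Subgroup.centralizer ({c} : Set G)) : ℂ) else 0) =
      ∑ r : G, if w = r * c * r⁻¹ then (1 : ℂ) else 0 := by
    intro w
    rw [Finset.sum_boole]
    have h4 : (Finset.univ.filter fun r : G => w = r * c * r⁻¹) =
        Finset.univ.filter fun r : G => r * c * r⁻¹ = w := by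
      ext r
      simp [eq_comm]
    rw [h4, count_conj]
    have h5 : IsConj c w ↔ IsConj w c := isConj_comm
    simp only [h5]
  have h6 : ∑ s : G, ∑ t : G, (if IsConj (s * a * s⁻¹ * (t * b * t⁻¹)) c then
      (Nat.card (Subgroup.centralizer ({c} : Set G)) : ℂ) else 0) =
      (Nat.card G : ℂ) * ∑ s : G, ∑ t : G,
        if s * a * s⁻¹ * (t * b * t⁻¹) = c then (1 : ℂ) else 0 := by
    simp only [h3]
    rw [Nat.card_eq_fintype_card, ← nsmul_eq_mul, ← Finset.card_univ, ← Finset.sum_const]
    have h7 : ∀ s t r : G, (s * a * s⁻¹ * (t * b * t⁻¹) = r * c * r⁻¹) ↔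
        ((r⁻¹ * s) * a * (r⁻¹ * s)⁻¹ * ((r⁻¹ * t) * b * (r⁻¹ * t)⁻¹) = c) := by
      intro s t r
      constructor
      · intro h
        have : (r⁻¹ * s) * a * (r⁻¹ * s)⁻¹ * ((r⁻¹ * t) * b * (r⁻¹ * t)⁻¹) =
            r⁻¹ * (s * a * s⁻¹ * (t * b * t⁻¹)) * r := by group
        rw [this, h]
        group
      · intro h
        have : s * a * s⁻¹ * (t * b * t⁻¹) =
            r * ((r⁻¹ * s) * a * (r⁻¹ * s)⁻¹ * ((r⁻¹ * t) * b * (r⁻¹ * t)⁻¹)) * r⁻¹ := by group
        rw [this, h]
    simp only [h7]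
    have key : ∀ r : G, (∑ s : G, ∑ t : G, if (r⁻¹ * s) * a * (r⁻¹ * s)⁻¹ *
        ((r⁻¹ * t) * b * (r⁻¹ * t)⁻¹) = c then (1 : ℂ) else 0) =
        ∑ s : G, ∑ t : G, if s * a * s⁻¹ * (t * b * t⁻¹) = c then (1 : ℂ) else 0 := by
      intro r
      rw [← Equiv.sum_comp (Equiv.mulLeft r⁻¹)
        (fun s => ∑ t : G, if s * a * s⁻¹ * (t * b * t⁻¹) = c then (1 : ℂ) else 0)]
      refine Finset.sum_congr rfl fun s _ => ?_
      exact Equiv.sum_comp (Equiv.mulLeft r⁻¹)
        (fun t => if (r⁻¹ * s) * a * (r⁻¹ * s)⁻¹ * (t * b * t⁻¹) = c then (1 : ℂ) else 0)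
    rw [Finset.sum_congr rfl fun s _ => Finset.sum_comm, Finset.sum_comm]
    exact Finset.sum_congr rfl fun r _ => key r
  -- third step
  have h8 : ∑ s : G, ∑ t : G, (if s * a * s⁻¹ * (t * b * t⁻¹) = c then (1 : ℂ) else 0) =
      (Nat.card (Subgroup.centralizer ({a} : Set G)) : ℂ) *
      (Nat.card (Subgroup.centralizer ({b} : Set G)) : ℂ) * (N : ℂ) := by
    have h9 := sum_conj_eq_card_mul a (fun x => ∑ t : G, if x * (t * b * t⁻¹) = c then (1 : ℂ) else 0)
    rw [h9, mul_assoc]
    congr 1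
    have h10 : ∀ x : G, (∑ t : G, if x * (t * b * t⁻¹) = c then (1 : ℂ) else 0) =
        (Nat.card (Subgroup.centralizer ({b} : Set G)) : ℂ) *
          ∑ y, if IsConj b y then (if x * y = c then (1 : ℂ) else 0) else 0 :=
      fun x => sum_conj_eq_card_mul b (fun y => if x * y = c then (1 : ℂ) else 0)
    simp only [h10]
    have h11 : ∀ x : G, (if IsConj a x then ((Nat.card (Subgroup.centralizer ({b} : Set G)) : ℂ) *
          ∑ y, if IsConj b y then (if x * y = c then (1 : ℂ) else 0) else 0) else 0) =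
        (Nat.card (Subgroup.centralizer ({b} : Set G)) : ℂ) *
          ∑ y, if IsConj a x ∧ IsConj b y ∧ x * y = c then (1 : ℂ) else 0 := by
      intro x
      by_cases hx : IsConj a x
      · rw [if_pos hx]
        congr 1
        refine Finset.sum_congr rfl fun y _ => ?_
        by_cases hy : IsConj b y
        · rw [if_pos hy]
          by_cases hxy : x * y = c
          · rw [if_pos hxy, if_pos ⟨hx, hy, hxy⟩]
          · rw [if_neg hxy, if_neg (fun h => hxy h.2.2)]
        · rw [if_neg hy, if_neg (fun h => hy h.2.1)]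
      · rw [if_neg hx]
        symm
        apply mul_eq_zero_of_right
        apply Finset.sum_eq_zero
        intro y _
        rw [if_neg (fun h => hx h.1)]
    simp only [h11]
    rw [← Finset.mul_sum]
    have h12 : (N : ℂ) = ∑ p : G × G,
        if IsConj a p.1 ∧ IsConj b p.2 ∧ p.1 * p.2 = c then (1 : ℂ) else 0 := by
      rw [Finset.sum_boole, hN, Nat.card_eq_fintype_card, Fintype.card_subtype]
    rw [h12, Fintype.sum_prod_type]
  have hCa := Cfsg.Agent.Lib.Char.index_mul_card_centralizer a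
  have hCb := Cfsg.Agent.Lib.Char.index_mul_card_centralizer b
  rw [← Cfsg.Agent.Lib.Char.card_isConj_eq_index] at hCa hCb
  have hCa' : (Nat.card {x : G // IsConj a x} : ℂ) *
      (Nat.card (Subgroup.centralizer ({a} : Set G)) : ℂ) = (Nat.card G : ℂ) := by
    exact_mod_cast hCa
  have hCb' : (Nat.card {x : G // IsConj b x} : ℂ) *
      (Nat.card (Subgroup.centralizer ({b} : Set G)) : ℂ) = (Nat.card G : ℂ) := by
    exact_mod_cast hCb
  have hfinal : (Nat.card G : ℂ) * T = (Nat.card (Subgroup.centralizer ({a} : Set G)) : ℂ) *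
      (Nat.card (Subgroup.centralizer ({b} : Set G)) : ℂ) * (N : ℂ) := by
    apply mul_left_cancel₀ hG
    rw [← h8]
    rw [h6] at h2
    rw [h2]
    ring
  rw [div_mul_eq_mul_div, eq_div_iff hG]
  apply mul_left_cancel₀ hG
  calc (Nat.card G : ℂ) * ((N : ℂ) * (Nat.card G : ℂ)) = (Nat.card {x : G // IsConj a x} : ℂ) *
      (Nat.card (Subgroup.centralizer ({a} : Set G)) : ℂ) * ((Nat.card {x : G // IsConj b x} : ℂ) *
      (Nat.card (Subgroup.centralizer ({b} : Set G)) : ℂ)) * (N : ℂ) := by
        rw [hCa', hCb']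
        ring
    _ = (Nat.card {x : G // IsConj a x} : ℂ) * (Nat.card {x : G // IsConj b x} : ℂ) *
        ((Nat.card (Subgroup.centralizer ({a} : Set G)) : ℂ) *
      (Nat.card (Subgroup.centralizer ({b} : Set G)) : ℂ) * (N : ℂ)) := by ring
    _ = _ := by
        rw [← hfinal]
        ring
end Cfsg.Agent.S0840
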