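import Cfsg.Statements.S0841
import Mathlib

set_option autoImplicit false
open Cfsg

namespace Cfsg.Agent.S0841

/-- If the commutator subgroup of G lies in the centre, then for all x, y in G and every natural number n one has (x * y) ^ n = x ^ n * y ^ n * c ^ (n * (n - 1) / 2) with c = y⁻¹ * x⁻¹ * y * x. -/
theorem result {G : Type*} [Group G] (hG : commutator G ≤ Subgroup.center G) (x y : G) (n : ℕ) : (x * y) ^ n = x ^ n * y ^ n * (y⁻¹ * x⁻¹ * y * x) ^ (n * (n - 1) / 2) := by
  set c := y⁻¹ * x⁻¹ * y * x with hc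
  have hcz : c ∈ Subgroup.center G := by
    apply hG
    have : c = y⁻¹ * x⁻¹ * (y⁻¹)⁻¹ * (x⁻¹)⁻¹ := by simp [hc]
    rw [this]
    exact Subgroup.commutator_mem_commutator (g₁ := y⁻¹) (g₂ := x⁻¹) (Subgroup.mem_top _)
      (Subgroup.mem_top _)
  have hcomm : ∀ a : G, c * a = a * c := fun a =>
    (Subgroup.mem_center_iff.mp hcz a).symm
  have hcp : ∀ (k : ℕ) (a : G), c ^ k * a = a * c ^ k := by
    intro k a
    induction k with
    | zero => simp
    | succ k ih =>
      rw [pow_succ, mul_assoc, hcomm, ← mul_assoc, ih, mul_assoc]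
  have hyx : y * x = x * y * c := by
    rw [hc]; group
  have hypx : ∀ k : ℕ, y ^ k * x = x * y ^ k * c ^ k := by
    intro k
    induction k with
    | zero => simp
    | succ k ih =>
      calc y ^ (k + 1) * x = y ^ k * (y * x) := by rw [pow_succ]; group
        _ = y ^ k * (x * y * c) := by rw [hyx]
        _ = (y ^ k * x) * y * c := by group
        _ = x * y ^ k * c ^ k * y * c := by rw [ih]
        _ = x * y ^ k * (c ^ k * y) * c := by group
        _ = x * y ^ k * (y * c ^ k) * c := by rw [hcp]
        _ = x * y ^ (k + 1) * c ^ (k + 1) := by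
            rw [pow_succ, pow_succ]; group
  induction n with
  | zero => simp
  | succ n ih =>
    have htri : (n + 1) * (n + 1 - 1) / 2 = n * (n - 1) / 2 + n := by
      cases n with
      | zero => simp
      | succ m =>
        simp only [Nat.add_sub_cancel]
        have h1 : (m + 1 + 1) * (m + 1) = (m + 1) * m + 2 * (m + 1) := by ring
        rw [h1, Nat.add_mul_div_left _ _ (by norm_num : 0 < 2)]
    rw [pow_succ, ih, htri, pow_add c]
    calc x ^ n * y ^ n * c ^ (n * (n - 1) / 2) * (x * y)
        = x ^ n * y ^ n * (c ^ (n * (n - 1) / 2) * (x * y)) := by group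
      _ = x ^ n * y ^ n * ((x * y) * c ^ (n * (n - 1) / 2)) := by rw [hcp]
      _ = x ^ n * (y ^ n * x) * y * c ^ (n * (n - 1) / 2) := by group
      _ = x ^ n * (x * y ^ n * c ^ n) * y * c ^ (n * (n - 1) / 2) := by rw [hypx]
      _ = x ^ n * x * y ^ n * (c ^ n * y) * c ^ (n * (n - 1) / 2) := by group
      _ = x ^ n * x * y ^ n * (y * c ^ n) * c ^ (n * (n - 1) / 2) := by rw [hcp]
      _ = x ^ (n + 1) * y ^ (n + 1) * (c ^ (n * (n - 1) / 2) * c ^ n) := by
          rw [pow_succ, pow_succ]
          have : c ^ n * c ^ (n * (n - 1) / 2) = c ^ (n * (n - 1) / 2) * c ^ n := by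
            rw [← pow_add, ← pow_add, add_comm]
          simp only [mul_assoc]
          rw [this]

end Cfsg.Agent.S0841
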