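import Cfsg.Statements.S0849
import Cfsg.Agent.Lib.Char.TI

set_option autoImplicit false
open Cfsg

namespace Cfsg.Agent.S0849

/-- Let H be a subgroup of a finite group G and S a subset of H that is mapped to itself under conjugation by H, is disjoint from its conjugate by any element outside H, and is closed under inverses. Let φ be a class function of H vanishing on H away from S, and let u, v be involutions of G. Then the sum of the induced function of φ over all products a * b with a conjugate to u and b conjugate to v equals the index of H times the sum of φ (a * b) over such pairs with a and b in H. -/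
theorem result {G : Type*} [Group G] [Fintype G] (H : Subgroup G) (S : Set G) (hSH : S ⊆ H) (hHS : ∀ h ∈ H, ∀ s ∈ S, h * s * h⁻¹ ∈ S) (hTI : ∀ g : G, g ∉ H → ∀ s ∈ S, g * s * g⁻¹ ∉ S) (hinv : ∀ s ∈ S, s⁻¹ ∈ S) (φ : H → ℂ) (hφ : Cfsg.IsClassFunction H φ) (hφS : ∀ x : H, (x : G) ∉ S → φ x = 0) (u v : G) (hu : orderOf u = 2) (hv : orderOf v = 2) : ∑ᶠ p ∈ {p : G × G | IsConj u p.1 ∧ IsConj v p.2}, Cfsg.indFun H φ (p.1 * p.2) = (H.index : ℂ) * ∑ᶠ p ∈ {p : H × H | IsConj u (p.1 : G) ∧ IsConj v (p.2 : G)}, φ (p.1 * p.2) := by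
  classical
  haveI : Fintype H := Fintype.ofFinite H
  have hHne : (Nat.card H : ℂ) ≠ 0 := Cfsg.Agent.Lib.Char.card_subgroup_ne_zero H
  have hidx : (H.index : ℂ) = (Nat.card H : ℂ)⁻¹ * (Nat.card G : ℂ) := by
    have := Subgroup.index_mul_card H
    rw [← this]
    push_cast
    field_simp
  -- convert the finite sums
  have hL : ∑ᶠ p ∈ {p : G × G | IsConj u p.1 ∧ IsConj v p.2}, Cfsg.indFun H φ (p.1 * p.2) =
      ∑ p : G × G, if IsConj u p.1 ∧ IsConj v p.2 then Cfsg.indFun H φ (p.1 * p.2) else 0 := by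
    rw [finsum_mem_eq_toFinset_sum, Set.toFinset_ofPred, Finset.sum_filter]
  have hR : ∑ᶠ p ∈ {p : H × H | IsConj u (p.1 : G) ∧ IsConj v (p.2 : G)}, φ (p.1 * p.2) =
      ∑ p ∈ Finset.univ.filter (fun p : H × H => IsConj u (p.1 : G) ∧ IsConj v (p.2 : G)),
        φ (p.1 * p.2) := by
    rw [finsum_mem_eq_toFinset_sum, Set.toFinset_ofPred]
  rw [hL, hR]
  set E := Cfsg.extendByZero H φ with hE
  have hT : ∑ p ∈ Finset.univ.filter (fun p : H × H => IsConj u (p.1 : G) ∧ IsConj v (p.2 : G)),
      φ (p.1 * p.2) = ∑ p ∈ Finset.univ.filter (fun p : G × G => IsConj u p.1 ∧ IsConj v p.2),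
        E (p.1 * p.2) := by
    refine Finset.sum_of_injOn (fun p : H × H => ((p.1 : G), (p.2 : G))) ?_ ?_ ?_ ?_
    · intro p _ q _ hpq
      simp only [Prod.mk.injEq] at hpq
      exact Prod.ext (Subtype.ext hpq.1) (Subtype.ext hpq.2)
    · intro p hp
      simpa using hp
    · rintro ⟨a, b⟩ hab hni
      have hab' := (Finset.mem_filter.mp hab).2
      obtain ⟨hau, hbv⟩ := hab'
      simp only at hau hbv
      by_contra hne
      have hmemH : a * b ∈ H := by
        by_contra hn
        exact hne (Cfsg.Agent.Lib.Char.extendByZero_of_not_mem H φ hn)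
      have hmemS : a * b ∈ S := by
        by_contra hn
        apply hne
        rw [hE, Cfsg.Agent.Lib.Char.extendByZero_of_mem H φ hmemH]
        exact hφS _ hn
      have ha2 : a * a = 1 := by
        obtain ⟨c, rfl⟩ := isConj_iff.mp hau
        have h1 : u * u = 1 := by
          have := pow_orderOf_eq_one u
          rw [hu, sq] at this
          exact this
        calc c * u * c⁻¹ * (c * u * c⁻¹) = c * (u * u) * c⁻¹ := by group
          _ = 1 := by rw [h1]; group
      have hb2 : b * b = 1 := by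
        obtain ⟨c, rfl⟩ := isConj_iff.mp hbv
        have h1 : v * v = 1 := by
          have := pow_orderOf_eq_one v
          rw [hv, sq] at this
          exact this
        calc c * v * c⁻¹ * (c * v * c⁻¹) = c * (v * v) * c⁻¹ := by group
          _ = 1 := by rw [h1]; group
      have hainv : a⁻¹ = a := inv_eq_of_mul_eq_one_left ha2
      have hbinv : b⁻¹ = b := inv_eq_of_mul_eq_one_left hb2
      have hinvS : b * a ∈ S := by
        have := hinv _ hmemS
        rwa [mul_inv_rev, hainv, hbinv] at this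
      have haH : a ∈ H := by
        by_contra hn
        apply hTI a hn _ hmemS
        have : a * (a * b) * a⁻¹ = b * a := by
          rw [hainv, ← mul_assoc, ha2, one_mul]
        rwa [this]
      have hbH : b ∈ H := by
        by_contra hn
        apply hTI b hn _ hmemS
        have : b * (a * b) * b⁻¹ = b * a := by
          rw [hbinv, mul_assoc, mul_assoc, hb2, mul_one]
        rwa [this]
      exact hni ⟨(⟨a, haH⟩, ⟨b, hbH⟩), Finset.mem_coe.mpr
        (Finset.mem_filter.mpr ⟨Finset.mem_univ _, hau, hbv⟩), rfl⟩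
    · intro p _
      simp only
      rw [hE, ← Subgroup.coe_mul, Cfsg.Agent.Lib.Char.extendByZero_coe]
  rw [hT, hidx]
  -- the main computation
  simp only [Cfsg.Agent.Lib.Char.indFun_apply]
  have hmain : ∑ p : G × G, (if IsConj u p.1 ∧ IsConj v p.2 then
      (Nat.card H : ℂ)⁻¹ * ∑ x : G, Cfsg.extendByZero H φ (x⁻¹ * (p.1 * p.2) * x) else 0) =
      (Nat.card H : ℂ)⁻¹ * ∑ x : G, ∑ p : G × G, if IsConj u p.1 ∧ IsConj v p.2 then
        E (x⁻¹ * (p.1 * p.2) * x) else 0 := by
    rw [Finset.sum_comm, Finset.mul_sum]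
    refine Finset.sum_congr rfl fun p _ => ?_
    split_ifs
    · rfl
    · simp
  rw [hmain, mul_assoc]
  congr 1
  have hinner : ∀ x : G, ∑ p : G × G, (if IsConj u p.1 ∧ IsConj v p.2 then
      E (x⁻¹ * (p.1 * p.2) * x) else 0) =
      ∑ p ∈ Finset.univ.filter (fun p : G × G => IsConj u p.1 ∧ IsConj v p.2), E (p.1 * p.2) := by
    intro x
    rw [Finset.sum_filter]
    let e : G × G ≃ G × G := (MulAut.conj x⁻¹).toEquiv.prodCongr (MulAut.conj x⁻¹).toEquiv
    refine Eq.trans (Finset.sum_congr rfl fun p _ => ?_) (Equiv.sum_comp e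
      (fun p => if IsConj u p.1 ∧ IsConj v p.2 then E (p.1 * p.2) else 0))
    have he1 : (e p).1 = x⁻¹ * p.1 * x := by simp [e]
    have he2 : (e p).2 = x⁻¹ * p.2 * x := by simp [e]
    have hmul : (e p).1 * (e p).2 = x⁻¹ * (p.1 * p.2) * x := by
      rw [he1, he2]
      group
    have hiff : (IsConj u (e p).1 ∧ IsConj v (e p).2) ↔ (IsConj u p.1 ∧ IsConj v p.2) := by
      rw [he1, he2]
      have h1 : ∀ w y : G, IsConj w (x⁻¹ * y * x) ↔ IsConj w y := by
        intro w y
        have : IsConj y (x⁻¹ * y * x) := isConj_iff.mpr ⟨x⁻¹, by simp⟩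
        exact ⟨fun h => h.trans this.symm, fun h => h.trans this⟩
      rw [h1, h1]
    simp only [hiff, hmul]
  simp only [hinner]
  rw [Finset.sum_const, Finset.card_univ, nsmul_eq_mul, Nat.card_eq_fintype_card]

end Cfsg.Agent.S0849
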