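import Cfsg.Statements.S0850
import Cfsg.Agent.Lib.Char.TI

set_option autoImplicit false
open Cfsg

namespace Cfsg.Agent.S0850

/-- Let K be a subgroup of the finite group G that meets each conjugate by an element outside its normalizer N trivially, is properly contained in N, and contains the centralizer of each of its non-identity elements (a T.I. subgroup with Frobenius normalizer). Then no element of N outside K is conjugate in G to an element of K, and for every class function ϑ of N that vanishes on N away from K and at the identity, the function induced from ϑ to G agrees with ϑ on all of N. -/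
theorem result {G : Type*} [Group G] [Fintype G] (K : Subgroup G) (hTI : ∀ g : G, g ∉ Subgroup.normalizer (K : Set G) → ∀ k ∈ K, g * k * g⁻¹ ∈ K → k = 1) (hlt : K < Subgroup.normalizer (K : Set G)) (hC : ∀ k ∈ K, k ≠ 1 → Subgroup.centralizer ({k} : Set G) ≤ K) : (∀ x ∈ Subgroup.normalizer (K : Set G), x ∉ K → ∀ g : G, g * x * g⁻¹ ∉ K) ∧ ∀ (ϑ : Subgroup.normalizer (K : Set G) → ℂ), Cfsg.IsClassFunction (Subgroup.normalizer (K : Set G)) ϑ → (∀ x : Subgroup.normalizer (K : Set G), (x : G) ∉ K → ϑ x = 0) → ϑ 1 = 0 → ∀ x : Subgroup.normalizer (K : Set G), Cfsg.indFun (Subgroup.normalizer (K : Set G)) ϑ x = ϑ x := by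
  classical
  have hpart1 := fun x hx hxK g =>
    Cfsg.Agent.Lib.Char.not_conj_mem_of_frobenius K hTI hC (x := x) hx hxK g
  refine ⟨hpart1, ?_⟩
  intro ϑ hcl hvan h1 x
  by_cases hx1 : x = 1
  · rw [hx1, Subgroup.coe_one, Cfsg.Agent.Lib.Char.indFun_one, h1]
    simp
  by_cases hxK : (x : G) ∈ K
  · refine Cfsg.Agent.Lib.Char.indFun_ti_apply (Subgroup.normalizer (K : Set G)) (K : Set G) ?_ hTI
      ϑ hcl hvan x hxK hx1
    intro y hy
    exact Subgroup.le_normalizer hy
  · rw [hvan x hxK, Cfsg.Agent.Lib.Char.indFun_apply]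
    refine mul_eq_zero_of_right _ (Finset.sum_eq_zero fun g _ => ?_)
    have h2 := hpart1 x x.2 hxK g⁻¹
    rw [inv_inv] at h2
    by_cases hm : g⁻¹ * (x : G) * g ∈ Subgroup.normalizer (K : Set G)
    · rw [Cfsg.Agent.Lib.Char.extendByZero_of_mem _ _ hm]
      exact hvan _ h2
    · exact Cfsg.Agent.Lib.Char.extendByZero_of_not_mem _ _ hm

end Cfsg.Agent.S0850
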