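import Cfsg.Statements.S0851
import Cfsg.Agent.Lib.Char.FrobKernel
import Cfsg.Agent.S0170
import Cfsg.Agent.Lib.Char.Degrees

set_option autoImplicit false
open Cfsg

namespace Cfsg.Agent.S0851

open Cfsg.Agent.Lib.Char Cfsg.Agent.Lib.Degree in
theorem charDegree_dvd_index_abelian {G : Type*} [Group G] [Fintype G] {χ : G → ℂ}
    (hχ : Cfsg.IsIrrCharacter G χ) (H : Subgroup G) (hN : H.Normal)
    (hH : ∀ a ∈ H, ∀ b ∈ H, a * b = b * a) : Cfsg.charDegree χ ∣ H.index := by
  obtain ⟨n, ρ, hρ, rfl⟩ := hχ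
  rw [charDegree_natCast (Representation.char_one ρ)]
  exact finrank_dvd_index_of_abelian_normal ρ hρ H hN hH

/-- Let K be a subgroup of the finite group G that meets each conjugate by an element outside its normalizer N trivially, is properly contained in N, and contains the centralizer of each of its non-identity elements (a T.I. subgroup with Frobenius normalizer). Suppose K is abelian, let e be the index of K in N, and call an irreducible character of N relevant when it takes at some element of K a value different from its degree. Then either there is exactly one relevant character and K is an elementary abelian p-group of order e + 1 for some prime p, or there are a sign ε and an injective map f from the relevant characters to the irreducible characters of G such that inducing χ - ξ to G gives ε (f χ - f ξ) for all relevant χ and ξ. -/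
theorem result {G : Type*} [Group G] [Fintype G] (K : Subgroup G) (hTI : ∀ g : G, g ∉ Subgroup.normalizer (K : Set G) → ∀ k ∈ K, g * k * g⁻¹ ∈ K → k = 1) (hlt : K < Subgroup.normalizer (K : Set G)) (hC : ∀ k ∈ K, k ≠ 1 → Subgroup.centralizer ({k} : Set G) ≤ K) (hab : ∀ a ∈ K, ∀ b ∈ K, a * b = b * a) : (Nat.card {χ : Cfsg.IrrCharacter (Subgroup.normalizer (K : Set G)) // ∃ k : Subgroup.normalizer (K : Set G), (k : G) ∈ K ∧ (χ : ↥(Subgroup.normalizer (K : Set G)) → ℂ) k ≠ (χ : ↥(Subgroup.normalizer (K : Set G)) → ℂ) 1} = 1 ∧ ∃ p : ℕ, p.Prime ∧ Cfsg.IsElementaryAbelian p K ∧ Nat.card K = (K.subgroupOf (Subgroup.normalizer (K : Set G))).index + 1) ∨ ∃ (ε : ℂ) (f : {χ : Cfsg.IrrCharacter (Subgroup.normalizer (K : Set G)) // ∃ k : Subgroup.normalizer (K : Set G), (k : G) ∈ K ∧ (χ : ↥(Subgroup.normalizer (K : Set G)) → ℂ) k ≠ (χ : ↥(Subgroup.normalizer (K : Set G)) → ℂ) 1} → Cfsg.IrrCharacter G), (ε = 1 ∨ ε = -1) ∧ Function.Injective f ∧ ∀ χ ξ, Cfsg.indFun (Subgroup.normalizer (K : Set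 G)) ((χ.1 : ↥(Subgroup.normalizer (K : Set G)) → ℂ) - (ξ.1 : ↥(Subgroup.normalizer (K : Set G)) → ℂ)) = ε • ((f χ : G → ℂ) - (f ξ : G → ℂ)) := by

  classical
  open Cfsg.Agent.Lib.Char Cfsg.Agent.Lib.Degree in
  haveI : Fintype (Subgroup.normalizer (K : Set G)) := Fintype.ofFinite _
  set N := Subgroup.normalizer (K : Set G) with hNdef
  have hmemN : ∀ g : G, g ∈ N ↔ ∀ h : G, h ∈ (K : Set G) ↔ g * h * g⁻¹ ∈ (K : Set G) :=
    fun g => Subgroup.mem_normalizer_iff
  have hKN : K ≤ N := by
    intro k hk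
    rw [hmemN]
    intro h
    constructor
    · intro hh
      exact K.mul_mem (K.mul_mem hk hh) (K.inv_mem hk)
    · intro hh
      have : h = k⁻¹ * (k * h * k⁻¹) * k := by group
      rw [this]
      exact K.mul_mem (K.mul_mem (K.inv_mem hk) hh) hk
  let K' : Subgroup N := K.subgroupOf N
  have hK'mem : ∀ x : N, x ∈ K' ↔ (x : G) ∈ K := fun x => Subgroup.mem_subgroupOf
  haveI hK'n : K'.Normal := by
    refine ⟨fun n hn t => ?_⟩
    rw [hK'mem] at hn ⊢
    exact ((hmemN t).mp t.2 n).mp hn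
  haveI : Fintype K' := Fintype.ofFinite K'
  have hcent : Cfsg.Agent.Lib.Char.CentIn K' := by
    intro k hk hk1 x hx
    rw [hK'mem] at hk ⊢
    refine hC k hk (fun h0 => hk1 (Subtype.ext h0)) ?_
    rw [Subgroup.mem_centralizer_singleton_iff]
    exact congrArg Subtype.val hx
  have hK'ab : ∀ a ∈ K', ∀ b ∈ K', a * b = b * a := by
    intro a ha b hb
    exact Subtype.ext (hab _ ((hK'mem a).mp ha) _ ((hK'mem b).mp hb))
  -- relevant iff not trivial on `K`
  have hrel : ∀ χ : Cfsg.IrrCharacter N, (∃ k : N, (k : G) ∈ K ∧ (χ : N → ℂ) k ≠ (χ : N → ℂ) 1) ↔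
      ¬ Cfsg.Agent.Lib.Degree.KerContains K' (χ : N → ℂ) := by
    intro χ
    constructor
    · rintro ⟨k, hk, hne⟩ h
      exact hne (h k ((hK'mem k).mpr hk))
    · intro h
      simp only [Cfsg.Agent.Lib.Degree.KerContains] at h
      push Not at h
      obtain ⟨k, hk, hne⟩ := h
      exact ⟨k, (hK'mem k).mp hk, hne⟩
  -- degrees
  have hdeg : ∀ χ : Cfsg.IrrCharacter N, ¬ Cfsg.Agent.Lib.Degree.KerContains K' (χ : N → ℂ) →
      (χ : N → ℂ) 1 = (K'.index : ℂ) := by
    intro χ hχ
    rw [Cfsg.Agent.Lib.Char.map_one_eq_charDegree (Cfsg.Agent.Lib.Char.IsIrrCharacter.isCharacter χ.2)]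
    congr 1
    exact Nat.dvd_antisymm (charDegree_dvd_index_abelian χ.2 K' hK'n hK'ab)
      (Cfsg.Agent.Lib.Char.frobKer_index_dvd hcent χ hχ)
  have hvan : ∀ χ : Cfsg.IrrCharacter N, ¬ Cfsg.Agent.Lib.Degree.KerContains K' (χ : N → ℂ) →
      ∀ x : N, (x : G) ∉ (K : Set G) → (χ : N → ℂ) x = 0 := by
    intro χ hχ x hx
    exact Cfsg.Agent.Lib.Char.frobKer_vanish hcent χ hχ (fun h => hx ((hK'mem x).mp h))
  set T := {χ : Cfsg.IrrCharacter N // ∃ k : N, (k : G) ∈ K ∧
    (χ : N → ℂ) k ≠ (χ : N → ℂ) 1} with hT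
  have he0 : (K'.index : ℂ) ≠ 0 := by exact_mod_cast (Subgroup.index_ne_zero_of_finite (H := K'))
  by_cases hcard : Nat.card T = 1
  · left
    refine ⟨hcard, ?_⟩
    haveI : Subsingleton T := (Nat.card_eq_one_iff_unique.mp hcard).1
    haveI : Nonempty T := (Nat.card_eq_one_iff_unique.mp hcard).2
    obtain ⟨χ₀⟩ := ‹Nonempty T›
    have hset : Cfsg.Agent.Lib.Char.nontrivSet K' = {χ₀.1} := by
      ext χ
      rw [Cfsg.Agent.Lib.Char.mem_nontrivSet, Finset.mem_singleton]
      constructor
      · intro h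
        have := Subsingleton.elim (⟨χ, (hrel χ).mpr h⟩ : T) χ₀
        exact congrArg Subtype.val this
      · rintro rfl
        exact (hrel _).mp χ₀.2
    have hχ₀ : ¬ Cfsg.Agent.Lib.Degree.KerContains K' (χ₀.1 : N → ℂ) := (hrel _).mp χ₀.2
    have hd := hdeg _ hχ₀
    -- the order
    have hsq := Cfsg.Agent.Lib.Char.sum_nontriv_sq (K := K')
    rw [hset, Finset.sum_singleton, hd] at hsq
    have hcardN : (Nat.card N : ℂ) = (Nat.card K' : ℂ) * K'.index := by
      rw [← Subgroup.card_mul_index K']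
      push_cast
      ring
    rw [hcardN] at hsq
    have hKcardC : (Nat.card K' : ℂ) = K'.index + 1 := by
      have h2 : (K'.index : ℂ) * K'.index = ((Nat.card K' : ℂ) - 1) * K'.index := by
        rw [sub_mul, one_mul]
        rw [sq] at hsq
        exact hsq
      have h3 := mul_right_cancel₀ he0 h2
      rw [h3]
      ring
    have hKcard : Nat.card K' = K'.index + 1 := by exact_mod_cast hKcardC
    have hKeq : Nat.card K' = Nat.card K := Nat.card_congr (Subgroup.subgroupOfEquivOfLe hKN).toEquiv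
    -- values
    have hval : ∀ k : N, k ∈ K' → k ≠ 1 → (χ₀.1 : N → ℂ) k = -1 := by
      intro k hk hk1
      have h1 := Cfsg.Agent.Lib.Char.sum_nontriv_val hk hk1
      rw [hset, Finset.sum_singleton, hd] at h1
      have h2 : (K'.index : ℂ) * (χ₀.1 : N → ℂ) k = (K'.index : ℂ) * (-1) := by
        rw [h1]; ring
      exact mul_left_cancel₀ he0 h2
    have hconj : ∀ a ∈ K', ∀ b ∈ K', a ≠ 1 → b ≠ 1 → IsConj a b := by
      intro a ha b hb ha1 hb1
      by_contra hnc
      have h2 := Cfsg.Agent.Lib.Char.second_orthogonality' a b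
      rw [if_neg hnc] at h2
      have h3 := Cfsg.Agent.Lib.Char.sum_nontriv_split (K := K')
        (fun χ : Cfsg.IrrCharacter N => (χ : N → ℂ) a * (starRingEnd ℂ) ((χ : N → ℂ) b))
      rw [h2, hset, Finset.sum_singleton, hval a ha ha1, hval b hb hb1] at h3
      have h4 : ∑ χ ∈ (Finset.univ.filter fun χ : Cfsg.IrrCharacter N =>
          Cfsg.Agent.Lib.Degree.KerContains K' (χ : N → ℂ)),
          (χ : N → ℂ) a * (starRingEnd ℂ) ((χ : N → ℂ) b) = (K'.index : ℂ) := by
        rw [← Cfsg.Agent.Lib.Degree.sum_kerContains_degree_sq K']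
        refine Finset.sum_congr rfl fun χ hχ => ?_
        have h6 : Cfsg.Agent.Lib.Degree.KerContains K' (χ : N → ℂ) := (Finset.mem_filter.mp hχ).2
        rw [h6 a ha, h6 b hb]
        have h7 := Cfsg.Agent.Lib.Char.map_one_eq_charDegree
          (Cfsg.Agent.Lib.Char.IsIrrCharacter.isCharacter χ.2)
        rw [h7, Complex.conj_natCast]
        ring
      rw [h4] at h3
      simp only [map_neg, map_one, mul_neg, mul_one, neg_neg] at h3
      have h5 : ((K'.index + 1 : ℕ) : ℂ) = 0 := by
        push_cast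
        rw [add_comm]
        exact h3
      exact (Nat.succ_ne_zero K'.index) (by exact_mod_cast h5)
    -- a nontrivial element of prime order
    have hKgt : 1 < Nat.card K := by
      rw [← hKeq, hKcard]
      have : 0 < K'.index := Nat.pos_of_ne_zero Subgroup.index_ne_zero_of_finite
      omega
    obtain ⟨p, hp, hpd⟩ : ∃ p, p.Prime ∧ p ∣ Nat.card K := ⟨_, Nat.minFac_prime hKgt.ne', Nat.minFac_dvd _⟩
    haveI : Fact p.Prime := ⟨hp⟩
    obtain ⟨a, ha⟩ := exists_prime_orderOf_dvd_card' p hpd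
    have ha1 : (a : G) ≠ 1 := by
      intro h0
      have : a = 1 := Subtype.ext h0
      rw [this, orderOf_one] at ha
      exact hp.one_lt.ne ha
    refine ⟨p, hp, ⟨⟨⟨fun x y => Subtype.ext (hab _ x.2 _ y.2)⟩⟩, fun b hb => ?_⟩, hKeq ▸ hKcard⟩
    by_cases hb1 : b = 1
    · rw [hb1, one_pow]
    have hconjab := hconj ⟨a, hKN a.2⟩ ((hK'mem _).mpr a.2) ⟨b, hKN hb⟩ ((hK'mem _).mpr hb)
      (fun h0 => ha1 (congrArg Subtype.val h0)) (fun h0 => hb1 (congrArg Subtype.val h0))
    obtain ⟨c, hc⟩ := isConj_iff.mp hconjab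
    have hcG : (c : G) * a * (c : G)⁻¹ = b := congrArg Subtype.val hc
    have h1 : orderOf b = p := by
      rw [← hcG, ← MulAut.conj_apply, MulEquiv.orderOf_eq, Subgroup.orderOf_coe]
      exact ha
    rw [← h1]
    exact pow_orderOf_eq_one b
  · right
    haveI : Fintype T := Fintype.ofFinite T
    rcases Nat.lt_or_ge (Fintype.card T) 2 with hlt | hge
    · -- no relevant characters
      have h0 : Fintype.card T = 0 := by
        have : Fintype.card T ≠ 1 := by
          rw [← Nat.card_eq_fintype_card]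
          exact hcard
        omega
      haveI : IsEmpty T := Fintype.card_eq_zero_iff.mp h0
      exact ⟨1, fun χ => isEmptyElim χ, Or.inl rfl, fun χ => isEmptyElim χ, fun χ => isEmptyElim χ⟩
    · let e : Fin (Fintype.card T) ≃ T := (Fintype.equivFin T).symm
      obtain ⟨ε, hε, θ, hθ, hinj, hθind⟩ := Cfsg.Agent.S0170.result (K : Set G) hKN hTI
        (Fintype.card T) hge (fun i => ((e i).1 : N → ℂ)) (fun i => (e i).1.2)
        (fun i j hij => e.injective (Subtype.ext (Subtype.ext hij)))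
        (fun i x hx => hvan _ ((hrel _).mp (e i).2) x hx)
        (fun i j => by
          rw [hdeg _ ((hrel _).mp (e i).2), hdeg _ ((hrel _).mp (e j).2)])
      refine ⟨ε, fun χ => ⟨θ (e.symm χ), hθ _⟩, hε, ?_, ?_⟩
      · intro χ ξ h
        have h1 : θ (e.symm χ) = θ (e.symm ξ) := congrArg Subtype.val h
        exact e.symm.injective (hinj h1)
      · intro χ ξ
        have h2 := hθind (e.symm χ) (e.symm ξ)
        simp only [Equiv.apply_symm_apply] at h2
        rw [Cfsg.Agent.Lib.Char.indFun_sub]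
        exact h2

end Cfsg.Agent.S0851
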