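import Cfsg.Statements.S0852
import Cfsg.Agent.Lib.Char.Coherent

set_option autoImplicit false
open Cfsg

namespace Cfsg.Agent.S0852

theorem cohOf {G : Type*} [Group G] [Fintype G] (K : Subgroup G) (hTI : ∀ g : G, g ∉ Subgroup.normalizer (K : Set G) → ∀ k ∈ K, g * k * g⁻¹ ∈ K → k = 1) (hC : ∀ k ∈ K, k ≠ 1 → Subgroup.centralizer ({k} : Set G) ≤ K) [Fintype ↥(Subgroup.normalizer (K : Set G))] (star : (↥(Subgroup.normalizer (K : Set G)) → ℂ) → (G → ℂ))
    (hstar : Cfsg.IsLinearIsometryOn (Cfsg.zspan (Cfsg.Agent.Lib.Char.cohS (Subgroup.normalizer (K : Set G)) K)) star)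
    (hext : ∀ α ∈ Cfsg.zspanOn (Cfsg.Agent.Lib.Char.cohS (Subgroup.normalizer (K : Set G)) K) ({1}ᶜ : Set ↥(Subgroup.normalizer (K : Set G))), star α = Cfsg.indFun (Subgroup.normalizer (K : Set G)) α) :
    Cfsg.Agent.Lib.Char.Coh (Subgroup.normalizer (K : Set G)) K star := by
  refine ⟨?_, hTI, ?_, ?_, hstar, hext⟩
  · intro k hk
    rw [Subgroup.mem_normalizer_iff]
    intro h
    constructor
    · intro hh
      exact K.mul_mem (K.mul_mem hk hh) (K.inv_mem hk)
    · intro hh
      have : h = k⁻¹ * (k * h * k⁻¹) * k := by group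
      rw [this]
      exact K.mul_mem (K.mul_mem (K.inv_mem hk) hh) hk
  · intro h hh k hk
    exact ((Subgroup.mem_normalizer_iff).mp hh k).mp hk
  · intro k hk hk1 x hx
    refine hC k hk hk1 ?_
    rw [Subgroup.mem_centralizer_singleton_iff]
    exact hx

/-- Let K be a subgroup of the finite group G that meets each conjugate by an element outside its normalizer N trivially, is properly contained in N, and contains the centralizer of each of its non-identity elements (a T.I. subgroup with Frobenius normalizer). Let S be the set of irreducible characters of N taking at some element of K a value different from their degree, suppose S has at least two members, and let star be a linear isometry on the integer span of S into the generalized characters of G that agrees with induction on the members vanishing at the identity (so S is coherent, with star as the extending isometry). Then an irreducible character ψ of G is of the form star χ or -star χ for some χ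 in S if and only if ψ is not constant on the non-identity elements of K. -/
theorem result {G : Type*} [Group G] [Fintype G] (K : Subgroup G) (hTI : ∀ g : G, g ∉ Subgroup.normalizer (K : Set G) → ∀ k ∈ K, g * k * g⁻¹ ∈ K → k = 1) (hlt : K < Subgroup.normalizer (K : Set G)) (hC : ∀ k ∈ K, k ≠ 1 → Subgroup.centralizer ({k} : Set G) ≤ K) [Fintype ↥(Subgroup.normalizer (K : Set G))] (S : Set (↥(Subgroup.normalizer (K : Set G)) → ℂ)) (hS : S = {χ : ↥(Subgroup.normalizer (K : Set G)) → ℂ | Cfsg.IsIrrCharacter ↥(Subgroup.normalizer (K : Set G)) χ ∧ ∃ k : ↥(Subgroup.normalizer (K : Set G)), (k : G) ∈ K ∧ χ k ≠ χ 1}) (htwo : ∃ χ ∈ S, ∃ ξ ∈ S, χ ≠ ξ) (star : (↥(Subgroup.normalizer (K : Set G)) → ℂ) → (G → ℂ)) (hstar : Cfsg.IsLinearIsometryOn (Cfsg.zspan S) star) (hext : ∀ α ∈ Cfsg.zspanOn S ({1}ᶜ : Set ↥(Subgroup.normalizer (K : Set G))), star α = Cfsg.indFun (Subgroup.normalizer (K : Set G)) α) (ψ : G → ℂ) (hψ : Cfsg.IsIrrCharacter G ψ) : (∃ χ ∈ S, ψ = star χ ∨ ψ =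 -star χ) ↔ ∃ a ∈ K, ∃ b ∈ K, a ≠ 1 ∧ b ≠ 1 ∧ ψ a ≠ ψ b := by

  classical
  subst hS
  obtain ⟨χ₀, hχ₀, ξ₀, hξ₀, hne₀⟩ := htwo
  have hc := cohOf K hTI hC star hstar hext
  constructor
  · rintro ⟨χ, hχ, hψχ⟩
    by_contra hcon
    push Not at hcon
    have hcon' : ∀ a ∈ K, ∀ b ∈ K, a ≠ 1 → b ≠ 1 → ψ a = ψ b := hcon
    obtain ⟨x₀, hx₀, hx₀1⟩ : ∃ x₀ : ↥(Subgroup.normalizer (K : Set G)), (x₀ : G) ∈ K ∧ x₀ ≠ 1 := by
      obtain ⟨-, k, hk, hne⟩ := hχ
      refine ⟨k, hk, ?_⟩
      rintro rfl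
      exact hne rfl
    obtain ⟨c, hc'⟩ := hc.exists_c hχ hx₀ hx₀1
    have hstarconst : ∀ x : ↥(Subgroup.normalizer (K : Set G)), (x : G) ∈ K → x ≠ 1 →
        star χ x = star χ x₀ := by
      intro x hx hx1
      have h1 := hcon' x hx x₀ hx₀ (fun h0 => hx1 (Subtype.ext h0)) (fun h0 => hx₀1 (Subtype.ext h0))
      rcases hψχ with h | h
      · rw [h] at h1
        exact h1
      · rw [h] at h1
        simpa using h1
    obtain ⟨ξ, hξ, hne⟩ : ∃ ξ ∈ Cfsg.Agent.Lib.Char.cohS (Subgroup.normalizer (K : Set G)) K, χ ≠ ξ := by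
      by_cases h : χ = χ₀
      · exact ⟨ξ₀, hξ₀, by rw [h]; exact hne₀⟩
      · exact ⟨χ₀, hχ₀, h⟩
    refine hc.not_const hχ hξ hne (χ x₀) fun x hx hx1 => ?_
    have h1 := hc' χ hχ x hx hx1
    have h2 := hc' χ hχ x₀ hx₀ hx₀1
    rw [hstarconst x hx hx1] at h1
    linear_combination -h1 + h2
  · rintro ⟨a, ha, b, hb, ha1, hb1, hne⟩
    by_contra hcon
    push Not at hcon
    have hort : ∀ χ ∈ Cfsg.Agent.Lib.Char.cohS (Subgroup.normalizer (K : Set G)) K,
        Cfsg.classInner ψ (star χ) = 0 := by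
      intro χ hχ
      obtain ⟨ψ', hψ', h | h⟩ := Cfsg.Agent.Lib.Char.exists_irr_of_norm_one (hc.star_gen hχ) (hc.star_norm hχ)
      · rw [h]
        exact Cfsg.Agent.Lib.Char.classInner_irr_of_ne hψ hψ' (fun h' => (hcon χ hχ).1 (by rw [h, h']))
      · rw [h]
        have h0 : Cfsg.classInner ψ ψ' = 0 :=
          Cfsg.Agent.Lib.Char.classInner_irr_of_ne hψ hψ' (fun h' => (hcon χ hχ).2 (by rw [h, h']; simp))
        simp only [Cfsg.Agent.Lib.Char.classInner_def, Pi.neg_apply, map_neg, mul_neg, Finset.sum_neg_distrib] at h0 ⊢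
        rw [h0, neg_zero]
    obtain ⟨v, hv⟩ := hc.orth_const hχ₀
      (Cfsg.Agent.Lib.Char.IsCharacter.isClassFunction (Cfsg.Agent.Lib.Char.IsIrrCharacter.isCharacter hψ)) hort
    have h1 := hv ⟨a, hc.le ha⟩ ha (fun h0 => ha1 (congrArg Subtype.val h0))
    have h2 := hv ⟨b, hc.le hb⟩ hb (fun h0 => hb1 (congrArg Subtype.val h0))
    exact hne (h1.trans h2.symm)

end Cfsg.Agent.S0852
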