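import Cfsg.Statements.S0853
import Cfsg.Agent.Lib.Char.Coherent

set_option autoImplicit false
open Cfsg

namespace Cfsg.Agent.S0853

theorem cohOf {G : Type*} [Group G] [Fintype G] (K : Subgroup G) (hTI : ∀ g : G, g ∉ Subgroup.normalizer (K : Set G) → ∀ k ∈ K, g * k * g⁻¹ ∈ K → k = 1) (hC : ∀ k ∈ K, k ≠ 1 → Subgroup.centralizer ({k} : Set G) ≤ K) [Fintype ↥(Subgroup.normalizer (K : Set G))] (star : (↥(Subgroup.normalizer (K : Set G)) → ℂ) → (G → ℂ))
    (hstar : Cfsg.IsLinearIsometryOn (Cfsg.zspan (Cfsg.Agent.Lib.Char.cohS (Subgroup.normalizer (K : Set G)) K)) star)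
    (hext : ∀ α ∈ Cfsg.zspanOn (Cfsg.Agent.Lib.Char.cohS (Subgroup.normalizer (K : Set G)) K) ({1}ᶜ : Set ↥(Subgroup.normalizer (K : Set G))), star α = Cfsg.indFun (Subgroup.normalizer (K : Set G)) α) :
    Cfsg.Agent.Lib.Char.Coh (Subgroup.normalizer (K : Set G)) K star := by
  refine ⟨?_, hTI, ?_, ?_, hstar, hext⟩
  · intro k hk
    rw [Subgroup.mem_normalizer_iff]
    intro h
    constructor
    · intro hh
      exact K.mul_mem (K.mul_mem hk hh) (K.inv_mem hk)
    · intro hh
      have : h = k⁻¹ * (k * h * k⁻¹) * k := by group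
      rw [this]
      exact K.mul_mem (K.mul_mem (K.inv_mem hk) hh) hk
  · intro h hh k hk
    exact ((Subgroup.mem_normalizer_iff).mp hh k).mp hk
  · intro k hk hk1 x hx
    refine hC k hk hk1 ?_
    rw [Subgroup.mem_centralizer_singleton_iff]
    exact hx

/-- Let K be a subgroup of the finite group G that meets each conjugate by an element outside its normalizer N trivially, is properly contained in N, and contains the centralizer of each of its non-identity elements (a T.I. subgroup with Frobenius normalizer). Let S be the set of irreducible characters of N taking at some element of K a value different from their degree, suppose S has at least two members, and let star be a linear isometry on the integer span of S into the generalized characters of G that agrees with induction on the members vanishing at the identity (so S is coherent, with star as the extending isometry). Then there is a single integer m such that star χ k - χ k = m * χ 1 / e for every χ in S and every non-identity element k of K, where e is the index of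 K in N. -/
theorem result {G : Type*} [Group G] [Fintype G] (K : Subgroup G) (hTI : ∀ g : G, g ∉ Subgroup.normalizer (K : Set G) → ∀ k ∈ K, g * k * g⁻¹ ∈ K → k = 1) (hlt : K < Subgroup.normalizer (K : Set G)) (hC : ∀ k ∈ K, k ≠ 1 → Subgroup.centralizer ({k} : Set G) ≤ K) [Fintype ↥(Subgroup.normalizer (K : Set G))] (S : Set (↥(Subgroup.normalizer (K : Set G)) → ℂ)) (hS : S = {χ : ↥(Subgroup.normalizer (K : Set G)) → ℂ | Cfsg.IsIrrCharacter ↥(Subgroup.normalizer (K : Set G)) χ ∧ ∃ k : ↥(Subgroup.normalizer (K : Set G)), (k : G) ∈ K ∧ χ k ≠ χ 1}) (htwo : ∃ χ ∈ S, ∃ ξ ∈ S, χ ≠ ξ) (star : (↥(Subgroup.normalizer (K : Set G)) → ℂ) → (G → ℂ)) (hstar : Cfsg.IsLinearIsometryOn (Cfsg.zspan S) star) (hext : ∀ α ∈ Cfsg.zspanOn S ({1}ᶜ : Set ↥(Subgroup.normalizer (K : Set G))), star α = Cfsg.indFun (Subgroup.normalizer (K : Set G)) α) : ∃ m : ℤ, ∀ χ ∈ S, ∀ k : ↥(Subgroup.normalizer (K : Set G)), (k : G) ∈ K → k ≠ 1 → star χ k - χ k = (m : ℂ) * χ 1 / ((K.subgroupOf (Subgroup.normalizer (K : Set G))).index : ℂ) := by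

  subst hS
  obtain ⟨χ, hχ, -, -, -⟩ := htwo
  exact (cohOf K hTI hC star hstar hext).exists_m hχ

end Cfsg.Agent.S0853
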