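import Cfsg.Statements.S0859
import Cfsg.Agent.Lib.Char.MonoNormal

set_option autoImplicit false
open Cfsg

namespace Cfsg.Agent.S0859

/-- Let G be a finite solvable group and N a normal subgroup such that for every prime p every Sylow p-subgroup of N is abelian. Suppose every irreducible character of G is induced from an irreducible character of some subgroup containing N whose restriction to N is irreducible. Then every irreducible character of G is induced from a character of degree 1 of some subgroup. -/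
theorem result {G : Type*} [Group G] [Fintype G] [Group.IsSolvable G] (N : Subgroup G) [N.Normal] (hab : ∀ (p : ℕ) [Fact p.Prime] (P : Sylow p N), ∀ a ∈ P, ∀ b ∈ P, a * b = b * a) (hrel : ∀ χ : G → ℂ, Cfsg.IsIrrCharacter G χ → ∃ (H : Subgroup G) (hNH : N ≤ H) (ψ : H → ℂ), Cfsg.IsIrrCharacter H ψ ∧ Cfsg.indFun H ψ = χ ∧ Cfsg.IsIrrCharacter N (fun n : N => ψ ⟨(n : G), hNH n.2⟩)) (χ : G → ℂ) (hχ : Cfsg.IsIrrCharacter G χ) : ∃ (U : Subgroup G) (lam : U → ℂ), Cfsg.IsCharacter U lam ∧ lam 1 = 1 ∧ Cfsg.indFun U lam = χ := by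
  classical
  obtain ⟨H, hNH, ψ, hψ, hind, hres⟩ := hrel χ hχ
  have hab' : Cfsg.Agent.Lib.Char.AbSyl N := by
    intro p hp P hPN hPp a ha b hb
    haveI : Fact p.Prime := ⟨hp⟩
    have hP' : IsPGroup p (P.subgroupOf N) := hPp.comap_of_injective N.subtype N.subtype_injective
    obtain ⟨S, hS⟩ := hP'.exists_le_sylow
    have h1 := hab p S ⟨a, hPN ha⟩ (hS (Subgroup.mem_subgroupOf.mpr ha)) ⟨b, hPN hb⟩
      (hS (Subgroup.mem_subgroupOf.mpr hb))
    exact congrArg Subtype.val h1
  haveI : Fintype H := Fintype.ofFinite H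
  let Y : Subgroup H := N.subgroupOf H
  haveI hYn : Y.Normal := by
    refine ⟨fun n hn t => ?_⟩
    rw [Subgroup.mem_subgroupOf] at hn ⊢
    exact ‹N.Normal›.conj_mem n hn t
  let ee : Y ≃* N := Subgroup.subgroupOfEquivOfLe hNH
  have hYirr : Cfsg.IsIrrCharacter Y (fun x => ψ x) :=
    Cfsg.Agent.Lib.Char.isIrr_comp_equiv ee hres
  have hmono := Cfsg.Agent.Lib.Char.monomial_of_irr_restrict _ H Y rfl
    (hab'.subgroupOf H N le_rfl) ψ hψ hYirr
  obtain ⟨U, lam, hU⟩ := Cfsg.Agent.Lib.Char.isMonomialFn_indFun H hmono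
  refine ⟨U, fun u => (lam u : ℂ), Cfsg.Agent.Lib.Char.IsIrrCharacter.isCharacter
    (Cfsg.Agent.Lib.Char.isIrrCharacter_of_hom lam), by simp, ?_⟩
  rw [← hU, hind]

end Cfsg.Agent.S0859
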