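import Cfsg.Statements.S0861
import Cfsg.Agent.Lib.Degree.Burnside
import Cfsg.Agent.Lib.Degree.PElement
import Cfsg.Agent.Lib.Degree.Inflate
import Cfsg.Agent.Lib.Char.Degrees
import Cfsg.Agent.S0187

set_option autoImplicit false
open Cfsg

namespace Cfsg.Agent.S0861

/-- Let P be a normal abelian Sylow p-subgroup of the finite group G and suppose some element g of P has centralizer exactly P. Then the number of irreducible characters of G is at most the order of P, and if equality holds then G / P is abelian (the commutator subgroup lies in P). -/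
theorem result {G : Type*} [Group G] [Finite G] (p : ℕ) [Fact p.Prime] (P : Sylow p G) [(P : Subgroup G).Normal] (hab : ∀ a ∈ P, ∀ b ∈ P, a * b = b * a) (g : G) (hg : g ∈ P) (hC : Subgroup.centralizer ({g} : Set G) = P) : Nat.card (Cfsg.IrrCharacter G) ≤ Nat.card P ∧ (Nat.card (Cfsg.IrrCharacter G) = Nat.card P → commutator G ≤ P) := by
  classical
  haveI := Fintype.ofFinite G
  have hp : p.Prime := Fact.out
  obtain ⟨a, ha⟩ := (IsPGroup.iff_orderOf.mp P.isPGroup') ⟨g, hg⟩
  have hga : g ^ p ^ a = 1 := by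
    have h1 := pow_orderOf_eq_one (⟨g, hg⟩ : (P : Subgroup G))
    rw [ha] at h1
    exact congrArg Subtype.val h1
  set n := p ^ a with hn
  haveI : NeZero n := ⟨pow_ne_zero _ hp.ne_zero⟩
  -- non-vanishing
  have hne : ∀ χ : Cfsg.IrrCharacter G, (χ : G → ℂ) g ≠ 0 := by
    rintro ⟨χ, hχ⟩
    have hχ' := hχ
    obtain ⟨m, ρ, hρ, rfl⟩ := hχ
    have hdvd : Module.finrank ℂ (Fin m → ℂ) ∣ (P : Subgroup G).index :=
      Cfsg.Agent.Lib.Char.finrank_dvd_index_of_abelian_normal ρ hρ P inferInstance hab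
    have hnd : ¬ p ∣ Module.finrank ℂ (Fin m → ℂ) := fun h =>
      P.not_dvd_index (h.trans hdvd)
    refine Cfsg.Agent.Lib.Degree.character_ne_zero_of_pow_prime_pow
      (Cfsg.Agent.Lib.Char.IsIrrCharacter.isCharacter hχ') p hp g a hga _ ?_ hnd
    rw [Representation.char_one]
  -- centralizers
  have hcent : ∀ u : (ZMod n)ˣ, Nat.card (Subgroup.centralizer ({g ^ (u : ZMod n).val} : Set G)) =
      Nat.card P := by
    intro u
    have hmemP : g ^ (u : ZMod n).val ∈ (P : Subgroup G) := Subgroup.pow_mem _ hg _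
    have hle1 : (P : Subgroup G) ≤ Subgroup.centralizer ({g ^ (u : ZMod n).val} : Set G) := by
      intro x hx
      rw [Subgroup.mem_centralizer_singleton_iff]
      exact hab x hx _ hmemP
    have hle2 : Subgroup.centralizer ({g ^ (u : ZMod n).val} : Set G) ≤ P := by
      intro x hx
      rw [← hC]
      obtain ⟨v, hv⟩ : ∃ v : ℕ, (g ^ (u : ZMod n).val) ^ v = g := by
        refine ⟨((u⁻¹ : (ZMod n)ˣ) : ZMod n).val, ?_⟩
        rw [← pow_mul]
        have h1 : ((u : ZMod n).val * ((u⁻¹ : (ZMod n)ˣ) : ZMod n).val : ℕ) ≡ 1 [MOD n] := by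
          rw [← ZMod.natCast_eq_natCast_iff]
          push_cast
          simp
        have h2 : g ^ ((u : ZMod n).val * ((u⁻¹ : (ZMod n)ˣ) : ZMod n).val) = g ^ 1 := by
          have hgn : g ^ n = 1 := hga
          exact (pow_eq_pow_iff_modEq.mpr (h1.of_dvd (orderOf_dvd_of_pow_eq_one hgn)))
        rw [h2, pow_one]
      rw [Subgroup.mem_centralizer_singleton_iff] at hx ⊢
      rw [← hv]
      exact (Commute.pow_right hx v)
    rw [le_antisymm hle2 hle1]
  have hortho : ∀ w : G, ∑ χ : Cfsg.IrrCharacter G, ‖(χ : G → ℂ) w‖ ^ 2 =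
      (Nat.card (Subgroup.centralizer ({w} : Set G)) : ℝ) := by
    intro w
    have h1 := Cfsg.Agent.Lib.Char.second_orthogonality' w w
    rw [if_pos (IsConj.refl _)] at h1
    have h2 : ((∑ χ : Cfsg.IrrCharacter G, ‖(χ : G → ℂ) w‖ ^ 2 : ℝ) : ℂ) =
        (Nat.card (Subgroup.centralizer ({w} : Set G)) : ℂ) := by
      rw [← h1]
      push_cast
      refine Finset.sum_congr rfl fun χ _ => ?_
      rw [Complex.mul_conj, Complex.normSq_eq_norm_sq]
      push_cast
      rfl
    exact_mod_cast h2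
  have hcardU : Fintype.card (ZMod n)ˣ = n.totient := ZMod.card_units_eq_totient n
  have htot : 0 < n.totient := Nat.totient_pos.mpr (NeZero.pos n)
  have hdouble : ∑ χ : Cfsg.IrrCharacter G, ∑ u : (ZMod n)ˣ, ‖(χ : G → ℂ) (g ^ (u : ZMod n).val)‖ ^ 2
      = (n.totient : ℝ) * (Nat.card P : ℝ) := by
    rw [Finset.sum_comm]
    simp only [hortho, hcent]
    rw [Finset.sum_const, Finset.card_univ, hcardU, nsmul_eq_mul]
  have hlow : ∀ χ : Cfsg.IrrCharacter G, (n.totient : ℝ) ≤
      ∑ u : (ZMod n)ˣ, ‖(χ : G → ℂ) (g ^ (u : ZMod n).val)‖ ^ 2 := fun χ =>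
    Cfsg.Agent.Lib.Degree.totient_le_sum_norm_sq
      (Cfsg.Agent.Lib.Char.IsIrrCharacter.isCharacter χ.2) g n hga (hne χ)
  have hcount : (Nat.card (Cfsg.IrrCharacter G) : ℝ) * (n.totient : ℝ) ≤
      (n.totient : ℝ) * (Nat.card P : ℝ) := by
    rw [← hdouble, Nat.card_eq_fintype_card, ← nsmul_eq_mul, ← Finset.card_univ, ← Finset.sum_const]
    exact Finset.sum_le_sum fun χ _ => hlow χ
  have htot' : (0 : ℝ) < n.totient := by exact_mod_cast htot
  refine ⟨?_, ?_⟩
  · have : (Nat.card (Cfsg.IrrCharacter G) : ℝ) ≤ (Nat.card P : ℝ) := by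
      have h1 : (Nat.card (Cfsg.IrrCharacter G) : ℝ) * (n.totient : ℝ) ≤
          (Nat.card P : ℝ) * (n.totient : ℝ) := by linarith
      exact le_of_mul_le_mul_right h1 htot'
    exact_mod_cast this
  · intro heq
    -- every term is tight
    have htight : ∀ χ : Cfsg.IrrCharacter G,
        ∑ u : (ZMod n)ˣ, ‖(χ : G → ℂ) (g ^ (u : ZMod n).val)‖ ^ 2 = (n.totient : ℝ) := by
      have h1 : ∑ χ : Cfsg.IrrCharacter G, ((∑ u : (ZMod n)ˣ,
          ‖(χ : G → ℂ) (g ^ (u : ZMod n).val)‖ ^ 2) - (n.totient : ℝ)) = 0 := by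
        rw [Finset.sum_sub_distrib, hdouble, Finset.sum_const, Finset.card_univ,
          ← Nat.card_eq_fintype_card, heq, nsmul_eq_mul]
        ring
      intro χ
      have h2 := (Finset.sum_eq_zero_iff_of_nonneg (fun χ _ => sub_nonneg.mpr (hlow χ))).mp h1 χ
        (Finset.mem_univ _)
      linarith
    have hlin : ∀ χ : Cfsg.IrrCharacter G, Cfsg.Agent.Lib.Degree.KerContains (P : Subgroup G)
        (χ : G → ℂ) → (χ : G → ℂ) 1 = 1 := by
      intro χ hker
      have h1 := htight χ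
      have h2 : ∀ u : (ZMod n)ˣ, (χ : G → ℂ) (g ^ (u : ZMod n).val) = (χ : G → ℂ) 1 := fun u =>
        hker _ (Subgroup.pow_mem _ hg _)
      simp only [h2] at h1
      rw [Finset.sum_const, Finset.card_univ, hcardU, nsmul_eq_mul] at h1
      have h3 : ‖(χ : G → ℂ) 1‖ ^ 2 = 1 := by
        have h4 : (n.totient : ℝ) * (‖(χ : G → ℂ) 1‖ ^ 2 - 1) = 0 := by linarith
        rcases mul_eq_zero.mp h4 with h5 | h5
        · exact absurd h5 htot'.ne'
        · linarith
      rw [Cfsg.Agent.Lib.Char.map_one_eq_charDegree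
        (Cfsg.Agent.Lib.Char.IsIrrCharacter.isCharacter χ.2)] at h3 ⊢
      simp only [Complex.norm_natCast] at h3
      have h6 : ((Cfsg.charDegree (χ : G → ℂ) : ℝ)) = 1 := by
        have h7 : (0 : ℝ) ≤ (Cfsg.charDegree (χ : G → ℂ) : ℝ) := Nat.cast_nonneg _
        nlinarith
      have h8 : Cfsg.charDegree (χ : G → ℂ) = 1 := by exact_mod_cast h6
      rw [h8]
      simp
    -- the quotient is abelian
    have hquot : ∀ ψ : Cfsg.IrrCharacter (G ⧸ (P : Subgroup G)), (ψ : G ⧸ (P : Subgroup G) → ℂ) 1 = 1 := by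
      intro ψ
      have h1 := hlin (Cfsg.Agent.Lib.Degree.inflate (P : Subgroup G) ψ)
        (Cfsg.Agent.Lib.Degree.inflate_kerContains _ ψ)
      simpa [Cfsg.Agent.Lib.Degree.inflate] using h1
    have hcomm := (Cfsg.Agent.S0187.result (G := G ⧸ (P : Subgroup G))).mpr hquot
    rw [commutator_def, Subgroup.commutator_le]
    intro x _ y _
    have h1 := hcomm (x : G ⧸ (P : Subgroup G)) (y : G ⧸ (P : Subgroup G))
    rw [← QuotientGroup.mk_mul, ← QuotientGroup.mk_mul, QuotientGroup.eq] at h1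
    have h2 := (inferInstance : (P : Subgroup G).Normal).conj_mem _ h1 (x * y)
    have h3 := (P : Subgroup G).inv_mem h2
    have h4 : (x * y * ((x * y)⁻¹ * (y * x)) * (x * y)⁻¹)⁻¹ = x * y * x⁻¹ * y⁻¹ := by group
    rw [h4] at h3
    exact h3

end Cfsg.Agent.S0861
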