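import Cfsg.Statements.S0862
import Cfsg.Agent.Lib.Char.DetExt

set_option autoImplicit false
open Cfsg

namespace Cfsg.Agent.S0862

/-- Let N be a normal subgroup of the finite group G and ϑ an irreducible character of N of degree d coprime to the index of N, which is the restriction of some irreducible character of G. Let μ be a character of G of degree 1 whose restriction to N is the determinantal character of ϑ. Then there is exactly one irreducible character χ of G restricting to ϑ whose determinantal character is μ. -/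
theorem result {G : Type*} [Group G] [Finite G] (N : Subgroup G) [N.Normal] (ϑ : N → ℂ) (hϑ : Cfsg.IsIrrCharacter N ϑ) (d : ℕ) (hd : ϑ 1 = d) (hcop : Nat.Coprime N.index d) (hext : ∃ η : G → ℂ, Cfsg.IsIrrCharacter G η ∧ (∀ n : N, η n = ϑ n)) (μ : G → ℂ) (hμ : Cfsg.IsCharacter G μ ∧ μ 1 = 1) (hμN : ∀ n : N, μ n = Cfsg.detChar ϑ n) : ∃! χ : G → ℂ, Cfsg.IsIrrCharacter G χ ∧ (∀ n : N, χ n = ϑ n) ∧ Cfsg.detChar χ = μ := by
  classical
  obtain ⟨η, hη, hηN⟩ := hext
  obtain ⟨d', X, hX, rfl⟩ := hϑ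
  obtain rfl := Cfsg.Agent.Lib.Char.dim_eq_of_char_one X hd
  obtain ⟨σ₀, hσ₀c, hσ₀⟩ := Cfsg.Agent.Lib.Char.exists_rep_of_extends X
    (Cfsg.Agent.Lib.Char.IsIrrCharacter.isCharacter hη) hηN
  obtain ⟨m, rfl⟩ := Cfsg.Agent.Lib.Char.exists_hom_of_character_one hμ.1 hμ.2
  have hmN : ∀ n : N, (m n : ℂ) = LinearMap.det (X n) := fun n =>
    (hμN n).trans (Cfsg.Agent.Lib.Char.detChar_character X n)
  let δ := Cfsg.Agent.Lib.Char.detHom σ₀
  have hδ : ∀ g, (δ g : ℂ) = LinearMap.det (σ₀ g) := fun g => rfl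
  let γ : G →* ℂˣ := m * δ⁻¹
  have hγN : ∀ n : N, γ n = 1 := by
    intro n
    ext
    show (m n : ℂ) * ((δ n)⁻¹ : ℂˣ) = 1
    rw [Units.val_inv_eq_inv_val, hδ, hmN, hσ₀]
    exact mul_inv_cancel₀ (Cfsg.Agent.Lib.Char.det_rep_ne_zero X n)
  have hγg : ∀ g, (γ g : ℂ) * LinearMap.det (σ₀ g) = m g := by
    intro g
    show (m g : ℂ) * ((δ g)⁻¹ : ℂˣ) * _ = _
    rw [Units.val_inv_eq_inv_val, hδ, mul_assoc,
      inv_mul_cancel₀ (Cfsg.Agent.Lib.Char.det_rep_ne_zero σ₀ g), mul_one]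
  obtain ⟨k, hk1, hk0⟩ := Nat.chineseRemainder hcop 1 0
  obtain ⟨b, hb⟩ := (Nat.modEq_zero_iff_dvd).mp hk0
  let β : G →* ℂˣ := (powMonoidHom b).comp γ
  have hβN : ∀ n : N, β n = 1 := by
    intro n
    show (γ n) ^ b = 1
    rw [hγN, one_pow]
  have hβd : ∀ g, (β g : ℂ) ^ d' = γ g := by
    intro g
    have h1 := Cfsg.Agent.Lib.Char.pow_index_eq_one_of_trivial γ hγN g
    have h2 : (γ g) ^ k = (γ g) ^ 1 := Cfsg.Agent.Lib.Char.pow_eq_pow_of_modEq h1 hk1
    have h3 : ((β g) ^ d') = γ g := by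
      show ((γ g) ^ b) ^ d' = γ g
      rw [← pow_mul, mul_comm, ← hb, h2, pow_one]
    exact congrArg (fun u : ℂˣ => (u : ℂ)) h3 |>.symm ▸ (by simp)
  let σ := Cfsg.Agent.Lib.Char.scaleRep β σ₀
  have hσN : ∀ n : N, σ n = X n := by
    intro n
    rw [Cfsg.Agent.Lib.Char.scaleRep_apply, hβN, hσ₀]
    simp
  have hσdet : ∀ g, LinearMap.det (σ g) = m g := by
    intro g
    rw [Cfsg.Agent.Lib.Char.scaleRep_det]
    simp only [Module.finrank_fin_fun]
    rw [hβd, hγg]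
  refine ⟨σ.character, ⟨⟨d', σ, Cfsg.Agent.Lib.Char.isIrreducible_of_restrict N X hX σ hσN, rfl⟩,
    fun n => ?_, ?_⟩, ?_⟩
  · simp only [Representation.character, hσN]
  · funext g
    rw [Cfsg.Agent.Lib.Char.detChar_character, hσdet]
  · rintro χ' ⟨hχ', hχ'N, hχ'det⟩
    obtain ⟨σ', hσ'c, hσ'⟩ := Cfsg.Agent.Lib.Char.exists_rep_of_extends X
      (Cfsg.Agent.Lib.Char.IsIrrCharacter.isCharacter hχ') hχ'N
    obtain ⟨β', hβ'N, hβ'⟩ := Cfsg.Agent.Lib.Char.exists_scale_of_two_ext X hX σ σ' hσN hσ'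
    have hβ'1 : ∀ g, β' g = 1 := by
      intro g
      have h1 := Cfsg.Agent.Lib.Char.pow_index_eq_one_of_trivial β' hβ'N g
      have h2 : (β' g) ^ d' = 1 := by
        ext
        have h3 : LinearMap.det (σ' g) = m g := by
          rw [← Cfsg.Agent.Lib.Char.detChar_character, hσ'c, hχ'det]
        rw [hβ', LinearMap.det_smul] at h3
        simp only [Module.finrank_fin_fun] at h3
        rw [hσdet] at h3
        have h4 := (m g).ne_zero
        simpa using mul_right_cancel₀ h4 (h3.trans (one_mul _).symm)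
      exact Cfsg.Agent.Lib.Char.eq_one_of_pow_of_coprime h1 h2 hcop
    rw [← hσ'c]
    funext g
    simp only [Representation.character, hβ', hβ'1]
    simp

end Cfsg.Agent.S0862
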