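import Cfsg.Statements.S0864
import Cfsg.Agent.Lib.Char.DetExt

set_option autoImplicit false
open Cfsg

namespace Cfsg.Agent.S0864

/-- Let N be a normal subgroup of the finite group G and λ a character of N of degree 1 invariant under conjugation by G. Suppose that for every prime p dividing the order of λ (in the group of functions under pointwise multiplication) there is a subgroup H containing N, of index prime to p and with the index of N in H a power of p, together with a character of H of degree 1 restricting to λ. Then λ is the restriction of a character of G of degree 1. -/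
theorem result {G : Type*} [Group G] [Finite G] (N : Subgroup G) [hN : N.Normal] (lam : N → ℂ) (hlam : Cfsg.IsCharacter N lam ∧ lam 1 = 1) (hinv : ∀ (g : G) (n : N), lam ⟨g * n * g⁻¹, hN.conj_mem (n : G) n.2 g⟩ = lam n) (hsyl : ∀ p : ℕ, p.Prime → p ∣ orderOf lam → ∃ (H : Subgroup G) (hNH : N ≤ H) (ν : H → ℂ), Nat.Coprime H.index p ∧ (∃ k : ℕ, N.relIndex H = p ^ k) ∧ Cfsg.IsCharacter H ν ∧ ν 1 = 1 ∧ ∀ n : N, ν ⟨(n : G), hNH n.2⟩ = lam n) : ∃ μ : G → ℂ, Cfsg.IsCharacter G μ ∧ μ 1 = 1 ∧ ∀ n : N, μ n = lam n := by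
  classical
  obtain ⟨X, hX, hXc, hXo⟩ := Cfsg.Agent.Lib.Char.linear_irr_data hlam.1 hlam.2
  subst hXc
  have hU := Cfsg.Agent.Lib.Char.nontrivial_of_irr hX
  obtain ⟨E⟩ := Cfsg.Agent.Lib.Char.exists_projExt N X hX hinv
  have hone : E.IsCobExp 1 := by
    refine Cfsg.Agent.Lib.Char.ProjExt.isCobExp_one_of_primes (m := N.index)
      (Nat.pos_of_ne_zero Subgroup.index_ne_zero_of_finite) E.isCobExp_index fun p hp => ?_
    by_cases hpo : p ∣ orderOf (X.character)
    · obtain ⟨H, hNH, ν, hcop, -, hν, -, hνN⟩ := hsyl p hp hpo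
      refine ⟨(H.index : ℤ), E.isCobExp_index_of_extends hX hinv H hNH ν hν hνN, fun hdvd => ?_⟩
      have h1 : p ∣ H.index := by exact_mod_cast hdvd
      exact hp.one_lt.ne' (Nat.eq_one_of_dvd_coprimes hcop h1 dvd_rfl)
    · refine ⟨_, E.isCobExp_detOrder, fun hdvd => hpo ?_⟩
      rw [hXo, one_mul] at hdvd
      exact_mod_cast hdvd
  obtain ⟨σ, hσ⟩ := hone.exists_rep
  refine ⟨σ.character, Cfsg.Agent.Lib.Char.isCharacter_character σ, ?_, fun n => ?_⟩
  · have h1 := Representation.char_one σ
    rw [h1]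
    simp
  · simp only [Representation.character, hσ]

end Cfsg.Agent.S0864
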