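import Cfsg.Statements.S0865
import Cfsg.Agent.Lib.Char.DetExt

set_option autoImplicit false
open Cfsg

namespace Cfsg.Agent.S0865

/-- Let N be a normal subgroup of the finite group G and λ a character of N of degree 1, invariant under conjugation by G, whose order (under pointwise multiplication) is coprime to the index of N. Then there is a character μ of G of degree 1 restricting to λ with the same order as λ, and μ is the only degree-1 character of G restricting to λ whose order is coprime to the index of N. -/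
theorem result {G : Type*} [Group G] [Finite G] (N : Subgroup G) [hN : N.Normal] (lam : N → ℂ) (hlam : Cfsg.IsCharacter N lam ∧ lam 1 = 1) (hinv : ∀ (g : G) (n : N), lam ⟨g * n * g⁻¹, hN.conj_mem (n : G) n.2 g⟩ = lam n) (hcop : Nat.Coprime N.index (orderOf lam)) : ∃ μ : G → ℂ, (Cfsg.IsCharacter G μ ∧ μ 1 = 1 ∧ (∀ n : N, μ n = lam n) ∧ orderOf μ = orderOf lam) ∧ ∀ μ' : G → ℂ, Cfsg.IsCharacter G μ' ∧ μ' 1 = 1 → (∀ n : N, μ' n = lam n) → Nat.Coprime N.index (orderOf μ') → μ' = μ := by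
  classical
  obtain ⟨X, hX, hXc, hXo⟩ := Cfsg.Agent.Lib.Char.linear_irr_data hlam.1 hlam.2
  have hU := Cfsg.Agent.Lib.Char.nontrivial_of_irr hX
  have hinv' : ∀ (g : G) (n : N), X.character (Cfsg.Agent.Lib.Char.nconj N g n) = X.character n := by
    rw [hXc]
    exact hinv
  obtain ⟨E⟩ := Cfsg.Agent.Lib.Char.exists_projExt N X hX hinv'
  have hE := E.isCobExp_detOrder
  rw [hXo, one_mul] at hE
  obtain ⟨σ, hσ⟩ := E.exists_rep_of_coprime hE hcop
  -- a degree one extension
  have hσc : σ.character 1 = 1 := by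
    have h1 := Representation.char_one σ
    rw [h1]
    simp
  obtain ⟨m₀, hm₀⟩ := Cfsg.Agent.Lib.Char.exists_hom_of_character_one
    (Cfsg.Agent.Lib.Char.isCharacter_character σ) hσc
  have hm₀N : ∀ n : N, (m₀ n : ℂ) = lam n := by
    intro n
    have h1 : σ.character (n : G) = (m₀ n : ℂ) := congrFun hm₀ (n : G)
    rw [← h1, ← hXc]
    simp only [Representation.character, hσ]
  set o := orderOf lam with ho
  have hlamo : ∀ n : N, lam n ^ o = 1 := fun n => by
    have := congrFun (pow_orderOf_eq_one lam) n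
    simpa using this
  -- the exponent
  obtain ⟨k, hk0, hk1⟩ := Nat.chineseRemainder hcop 0 1
  have hkdvd : N.index ∣ k := (Nat.modEq_zero_iff_dvd).mp hk0
  obtain ⟨b, hb⟩ := hkdvd
  let m : G →* ℂˣ := (powMonoidHom k).comp m₀
  have hm : ∀ g, (m g : ℂ) = (m₀ g : ℂ) ^ k := fun g => rfl
  let β : G →* ℂˣ := (powMonoidHom o).comp m₀
  have hβ : ∀ n : N, β n = 1 := by
    intro n
    ext
    show ((m₀ n : ℂ)) ^ o = 1
    rw [hm₀N, hlamo]
  have hpow0 : ∀ g, (m g : ℂ) ^ o = 1 := by
    intro g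
    have h1 := Cfsg.Agent.Lib.Char.pow_index_eq_one_of_trivial β hβ g
    have h2 : ((m₀ g : ℂ) ^ o) ^ N.index = 1 := by
      have := congrArg (fun u : ℂˣ => (u : ℂ)) h1
      simpa [β] using this
    rw [hm, hb]
    calc ((m₀ g : ℂ) ^ (N.index * b)) ^ o = (((m₀ g : ℂ) ^ o) ^ N.index) ^ b := by ring
      _ = 1 := by rw [h2, one_pow]
  have hmN : ∀ n : N, (m n : ℂ) = lam n := by
    intro n
    rw [hm, hm₀N, Cfsg.Agent.Lib.Char.pow_eq_pow_of_modEq (hlamo n) hk1, pow_one]
  refine ⟨fun g => (m g : ℂ), ⟨Cfsg.Agent.Lib.Char.IsIrrCharacter.isCharacter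
    (Cfsg.Agent.Lib.Char.isIrrCharacter_of_hom m), by simp, hmN, ?_⟩, ?_⟩
  · apply Nat.dvd_antisymm
    · apply orderOf_dvd_of_pow_eq_one
      funext g
      simpa using hpow0 g
    · apply orderOf_dvd_of_pow_eq_one
      funext n
      have h1 := congrFun (pow_orderOf_eq_one (fun g => (m g : ℂ))) (n : G)
      simp only [Pi.pow_apply, Pi.one_apply] at h1 ⊢
      rw [← hmN]
      exact h1
  · rintro μ' ⟨hμ'c, hμ'1⟩ hμ'N hcop'
    obtain ⟨m', rfl⟩ := Cfsg.Agent.Lib.Char.exists_hom_of_character_one hμ'c hμ'1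
    funext g
    set o' := orderOf (fun g => (m' g : ℂ)) with ho'
    have hm'o : (m' g : ℂ) ^ o' = 1 := by
      have := congrFun (pow_orderOf_eq_one (fun g => (m' g : ℂ))) g
      simpa using this
    have h1 : ((m' g : ℂ) * (m g : ℂ)⁻¹) ^ (o' * o) = 1 := by
      rw [mul_pow, inv_pow]
      calc ((m' g : ℂ) ^ (o' * o)) * ((m g : ℂ) ^ (o' * o))⁻¹
          = ((m' g : ℂ) ^ o') ^ o * (((m g : ℂ) ^ o) ^ o')⁻¹ := by ring
        _ = 1 := by rw [hm'o, hpow0]; simp
    have h2 : ((m' g : ℂ) * (m g : ℂ)⁻¹) ^ N.index = 1 := by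
      have hmem : g ^ N.index ∈ N := Subgroup.pow_index_mem N g
      have h3 : (m' (g ^ N.index) : ℂ) = (m (g ^ N.index) : ℂ) := by
        have h4 := hμ'N ⟨_, hmem⟩
        have h5 := hmN ⟨_, hmem⟩
        exact h4.trans h5.symm
      rw [map_pow, map_pow] at h3
      simp only [Units.val_pow_eq_pow_val] at h3
      rw [mul_pow, inv_pow, h3, mul_inv_cancel₀]
      exact pow_ne_zero _ (m g).ne_zero
    have h3 := Cfsg.Agent.Lib.Char.eq_one_of_pow_of_coprime h2 h1 (Nat.Coprime.mul_right hcop' hcop)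
    have h4 := (m g).ne_zero
    field_simp at h3
    exact h3

end Cfsg.Agent.S0865
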