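import Cfsg.Statements.S0866
import Cfsg.Agent.Lib.Char.DetExt

set_option autoImplicit false
open Cfsg

namespace Cfsg.Agent.S0866

/-- Let N be a normal subgroup of the finite group G and ϑ an irreducible character of N, invariant under conjugation by G, of degree d coprime to the index of N. Then ϑ is the restriction of an irreducible character of G if and only if the determinantal character of ϑ is the restriction of a character of G of degree 1. -/
theorem result {G : Type*} [Group G] [Finite G] (N : Subgroup G) [hN : N.Normal] (ϑ : N → ℂ) (hϑ : Cfsg.IsIrrCharacter N ϑ) (hinv : ∀ (g : G) (n : N), ϑ ⟨g * n * g⁻¹, hN.conj_mem (n : G) n.2 g⟩ = ϑ n) (d : ℕ) (hd : ϑ 1 = d) (hcop : Nat.Coprime N.index d) : (∃ χ : G → ℂ, Cfsg.IsIrrCharacter G χ ∧ (∀ n : N, χ n = ϑ n)) ↔ ∃ μ : G → ℂ, Cfsg.IsCharacter G μ ∧ μ 1 = 1 ∧ ∀ n : N, μ n = Cfsg.detChar ϑ n := by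
  constructor
  · rintro ⟨χ, hχ, hext⟩
    have hχc := Cfsg.Agent.Lib.Char.IsIrrCharacter.isCharacter hχ
    obtain ⟨h1, h2⟩ := Cfsg.Agent.Lib.Char.detChar_isCharacter hχc
    refine ⟨Cfsg.detChar χ, h1, h2, fun n => ?_⟩
    obtain ⟨c, ρ, -, rfl⟩ := hχ
    have h3 : ϑ = Representation.character (MonoidHom.comp ρ N.subtype) :=
      funext fun n => (hext n).symm
    rw [h3, Cfsg.Agent.Lib.Char.detChar_character, Cfsg.Agent.Lib.Char.detChar_character]
    rfl
  · rintro ⟨μ, hμ, hμ1, hμN⟩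
    obtain ⟨d', X, hX, rfl⟩ := hϑ
    obtain rfl := Cfsg.Agent.Lib.Char.dim_eq_of_char_one X hd
    obtain ⟨m, rfl⟩ := Cfsg.Agent.Lib.Char.exists_hom_of_character_one hμ hμ1
    obtain ⟨σ, hσ⟩ := Cfsg.Agent.Lib.Char.exists_irr_ext_of_det X hX hinv hcop m (fun n =>
      (hμN n).trans (Cfsg.Agent.Lib.Char.detChar_character X n))
    exact Cfsg.Agent.Lib.Char.irr_extends_of_rep N X hX σ hσ

end Cfsg.Agent.S0866
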