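import Cfsg.Statements.S0868
import Cfsg.Agent.Lib.Char.Gallagher

set_option autoImplicit false
open scoped ComplexConjugate
open Cfsg

namespace Cfsg.Agent.S0868

/-- Let N be a normal subgroup of the finite group G, χ an irreducible character of G whose restriction ϑ to N is irreducible, and ψ an irreducible character of G. Define η on G by η g = (1 / order of N) * Σ over n in N of ψ (n * g) * conj (χ (n * g)). Then: if the restriction of ψ to N has nonzero inner product with ϑ, η is an irreducible character of G; if that inner product is zero, η vanishes identically; and if ψ = χ then η is identically 1. -/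
theorem result {G : Type*} [Group G] [Fintype G] (N : Subgroup G) [N.Normal] [Fintype N] (χ : G → ℂ) (hχ : Cfsg.IsIrrCharacter G χ) (hχN : Cfsg.IsIrrCharacter N (fun n : N => χ n)) (ψ : G → ℂ) (hψ : Cfsg.IsIrrCharacter G ψ) (η : G → ℂ) (hη : η = fun g => (Nat.card N : ℂ)⁻¹ * ∑ n : N, ψ ((n : G) * g) * conj (χ ((n : G) * g))) : (Cfsg.classInner (fun n : N => ψ n) (fun n : N => χ n) ≠ 0 → Cfsg.IsIrrCharacter G η) ∧ (Cfsg.classInner (fun n : N => ψ n) (fun n : N => χ n) = 0 → η = 0) ∧ (ψ = χ → η = fun _ => 1) := by
  classical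
  open Cfsg.Agent.Lib.Char Cfsg.Agent.Lib.Degree in
  have hηavg : η = avg N (ψ * fun g => conj (χ g)) := by
    rw [hη]
    funext g
    simp only [avg, Pi.mul_apply]
  open Cfsg.Agent.Lib.Char Cfsg.Agent.Lib.Degree in
  have hmain : ∀ ψ : G → ℂ, IsCharacter G ψ → IsCharacter G (avg N (ψ * fun g => conj (χ g))) := by
    intro ψ hψ
    exact avg_isCharacter N (IsCharacter.mul hψ (IsCharacter.conj_char (IsIrrCharacter.isCharacter hχ)))
  open Cfsg.Agent.Lib.Char Cfsg.Agent.Lib.Degree in
  have hone : ∀ ψ : G → ℂ, avg N (ψ * fun g => conj (χ g)) 1 =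
      classInner (fun n : N => ψ n) (fun n : N => χ n) := by
    intro ψ
    simp only [avg, Pi.mul_apply, mul_one, classInner_def]
  open Cfsg.Agent.Lib.Char Cfsg.Agent.Lib.Degree in
  have hself : avg N (χ * fun g => conj (χ g)) = fun _ => 1 := by
    have hc := hmain χ (IsIrrCharacter.isCharacter hχ)
    have h1 : avg N (χ * fun g => conj (χ g)) 1 = 1 := by
      rw [hone, classInner_irr_self hχN]
    obtain ⟨lam, hlam⟩ := exists_hom_of_character_one hc h1
    -- the sum over `G`
    have hsum : ∑ x : G, avg N (χ * fun g => conj (χ g)) x = (Nat.card G : ℂ) := by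
      simp only [avg, Pi.mul_apply]
      rw [← Finset.mul_sum, Finset.sum_comm]
      have h2 : ∀ n : N, ∑ x : G, χ ((n : G) * x) * conj (χ ((n : G) * x)) =
          ∑ x : G, χ x * conj (χ x) := fun n =>
        Equiv.sum_comp (Equiv.mulLeft (n : G)) (fun x => χ x * conj (χ x))
      simp only [h2, Finset.sum_const, Finset.card_univ, nsmul_eq_mul]
      have h3 := classInner_irr_self hχ
      rw [classInner_def] at h3
      have hcG : (Nat.card G : ℂ) ≠ 0 := card_ne_zero_complex G
      have hcN : (Nat.card N : ℂ) ≠ 0 := card_ne_zero_complex N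
      have h4 : ∑ x : G, χ x * conj (χ x) = (Nat.card G : ℂ) := by
        field_simp at h3
        exact h3
      rw [h4, ← Nat.card_eq_fintype_card]
      field_simp
    have hlam1 : ∀ x, ‖(lam x : ℂ)‖ = 1 := fun x => norm_hom_eq_one lam x
    -- all values must be `1`
    have hlamtriv : lam = 1 := by
      have hsum' : ∑ x : G, (lam x : ℂ) = (Nat.card G : ℂ) := by
        rw [← hsum]
        refine Finset.sum_congr rfl fun x _ => ?_
        rw [hlam]
      by_contra hne
      obtain ⟨a, ha⟩ : ∃ a, lam a ≠ 1 := by
        by_contra hcon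
        push Not at hcon
        exact hne (MonoidHom.ext hcon)
      have h5 : (lam a : ℂ) * ∑ x : G, (lam x : ℂ) = ∑ x : G, (lam x : ℂ) := by
        rw [Finset.mul_sum]
        refine (Finset.sum_congr rfl fun x _ => ?_).trans
          (Equiv.sum_comp (Equiv.mulLeft a) (fun x => (lam x : ℂ)))
        simp
      rw [hsum'] at h5
      have hcG : (Nat.card G : ℂ) ≠ 0 := card_ne_zero_complex G
      have h6 : (lam a : ℂ) = 1 := mul_right_cancel₀ hcG (by rw [h5, one_mul])
      exact ha (Units.ext h6)
    rw [hlam, hlamtriv]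
    simp
  open Cfsg.Agent.Lib.Char Cfsg.Agent.Lib.Degree in
  have hinvχ : ∀ g, conjFn (‹N.Normal›) g (fun _ : N => (1 : ℂ)) = fun _ => 1 := fun g => rfl
  open Cfsg.Agent.Lib.Char Cfsg.Agent.Lib.Degree in
  refine ⟨fun hne => ?_, fun h0 => ?_, fun h => ?_⟩
  · -- `ψ` lies over `χ_N`
    have hprod : IsIrrCharacter N ((fun _ => (1 : ℂ)) * fun n : N => χ n) := by
      convert hχN using 1
      funext n
      simp
    have hbij := gallagher_bijOn N (φ := fun _ => (1 : ℂ)) (ϑ := fun n : N => χ n)
      isIrrCharacter_one hχN hinvχ hprod hχ (fun _ => rfl)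
    have hmem : ψ ∈ {ψ : G → ℂ | IsIrrCharacter G ψ ∧
        classInner (indFun N ((fun _ => (1 : ℂ)) * fun n : N => χ n)) ψ ≠ 0} := by
      refine ⟨hψ, ?_⟩
      rw [frobenius_reciprocity N _ _ (IsCharacter.isClassFunction (IsIrrCharacter.isCharacter hψ))]
      have h1 : ((fun _ => (1 : ℂ)) * fun n : N => χ n) = fun n : N => χ n := by
        funext n
        simp
      rw [h1, ← conj_classInner]
      exact (map_ne_zero _).mpr hne
    obtain ⟨β, ⟨hβ, hβ0⟩, rfl⟩ := hbij.surjOn hmem
    -- `N` is in the kernel of `β`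
    rw [frobenius_reciprocity N _ _ (IsCharacter.isClassFunction (IsIrrCharacter.isCharacter hβ))] at hβ0
    have hβ0' : classInner (fun n : N => β n) (fun _ => (1 : ℂ)) ≠ 0 := by
      rw [← conj_classInner]; exact (map_ne_zero _).mpr hβ0
    have hcl := clifford_invariant ‹N.Normal› hβ isIrrCharacter_one hinvχ hβ0'
    have hker : KerContains N β := by
      intro n hn
      have h1 := congrFun hcl ⟨n, hn⟩
      have h2 := congrFun hcl 1
      simp only [Pi.smul_apply, smul_eq_mul, Subgroup.coe_one] at h1 h2
      rw [h1, h2]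
    have hmul : ∀ (n : N) (x : G), β (n * x) = β x := fun n x =>
      character_mul_of_kerContains N (IsIrrCharacter.isCharacter hβ) hker n.2 x
    have hfinal : η = β := by
      funext g
      have h2 := congrFun hself g
      simp only [avg, Pi.mul_apply] at h2
      rw [hη]
      simp only [Pi.mul_apply, hmul]
      calc (Nat.card N : ℂ)⁻¹ * ∑ n : N, β g * χ ((n : G) * g) * conj (χ ((n : G) * g))
          = β g * ((Nat.card N : ℂ)⁻¹ * ∑ n : N, χ ((n : G) * g) * conj (χ ((n : G) * g))) := by
            simp only [Finset.mul_sum]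
            refine Finset.sum_congr rfl fun x _ => ?_
            ring
        _ = β g := by rw [h2, mul_one]
    rw [hfinal]
    exact hβ
  · -- the degree is zero
    have hc := hmain ψ (IsIrrCharacter.isCharacter hψ)
    have h1 : avg N (ψ * fun g => conj (χ g)) 1 = 0 := by rw [hone, h0]
    rw [hηavg]
    obtain ⟨n, ρ, hρ⟩ := hc
    have h2 : ∀ x, avg N (ψ * fun g => conj (χ g)) x = 0 := by
      intro x
      rw [← hρ] at h1 ⊢
      have hm : n = 0 := by
        simp only [Representation.character, map_one, LinearMap.trace_one] at h1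
        simpa using h1
      subst hm
      simp only [Representation.character]
      rw [Subsingleton.elim (ρ x) 0, map_zero]
    funext x
    simpa using h2 x
  · subst h
    rw [hηavg, hself]

end Cfsg.Agent.S0868
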