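import Cfsg.Statements.S0876
import Cfsg.Agent.Lib.Char.Section
import Cfsg.Agent.Lib.Block.DefectInd

set_option autoImplicit false
open Cfsg

namespace Cfsg.Agent.S0876

/-- Let G be a finite group, p a prime and M a maximal ideal of the ring of algebraic integers containing p. Let x, y be elements with p-parts a and b (so a⁻¹ * x and b⁻¹ * y are their p-regular parts). Then a⁻¹ * x and b⁻¹ * y are conjugate in G if and only if, for every irreducible character χ, the difference χ x - χ y lies in the local ideal at M. -/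
theorem result {G : Type*} [Group G] [Finite G] (p : ℕ) (M : Ideal Cfsg.AlgInt) (hM : Cfsg.IsPModular p M) (x y a b : G) (ha : Cfsg.IsPPart p x a) (hb : Cfsg.IsPPart p y b) : IsConj (a⁻¹ * x) (b⁻¹ * y) ↔ ∀ χ : Cfsg.IrrCharacter G, Cfsg.MemLocalIdeal M ((χ : G → ℂ) x - (χ : G → ℂ) y) := by
  classical
  haveI : Fintype G := Fintype.ofFinite G
  haveI hpf : Fact p.Prime := ⟨hM.1⟩
  haveI hMp : M.IsPrime := Cfsg.Agent.Lib.Block.isPModular_isPrime hM
  obtain ⟨y₁, hax, hac, hak, hy₁⟩ := ha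
  obtain ⟨y₂, hby, hbc, hbk, hy₂⟩ := hb
  have e1 : a⁻¹ * x = y₁ := by rw [← hax]; group
  have e2 : b⁻¹ * y = y₂ := by rw [← hby]; group
  rw [e1, e2]
  constructor
  · intro hconj χ
    have hc := Cfsg.Agent.Lib.Char.IsIrrCharacter.isCharacter χ.2
    have h1 := Cfsg.Agent.Lib.Block.memLocalIdeal_char_mul_sub hM hc hac hak
    have h2 := Cfsg.Agent.Lib.Block.memLocalIdeal_char_mul_sub hM hc hbc hbk
    rw [hax] at h1
    rw [hby] at h2
    have h3 : (χ : G → ℂ) y₁ = (χ : G → ℂ) y₂ := by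
      obtain ⟨t, ht⟩ := isConj_iff.mp hconj
      rw [← ht]
      exact (Cfsg.Agent.Lib.Char.IsCharacter.isClassFunction hc y₁ t).symm
    rw [h3] at h1
    have := Cfsg.Agent.Lib.Block.memLocalIdeal_sub h1 h2
    simpa using this
  · intro hall
    by_contra hne
    set N := Nat.card G with hN
    have hN0 : N ≠ 0 := Nat.card_pos.ne'
    set m := p ^ N.factorization p with hm
    set n := N / m with hn
    have hmn : N = m * n := (Nat.ordProj_mul_ordCompl_eq_self N p).symm
    have hpn : ¬ p ∣ n := Nat.not_dvd_ordCompl hM.1 hN0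
    have hcop : Nat.Coprime m n := Nat.Coprime.pow_left _ ((Nat.Prime.coprime_iff_not_dvd hM.1).mpr hpn)
    have hsec : ∀ z : G, Nat.Coprime (orderOf z) m ↔ ¬ p ∣ orderOf z := by
      intro z
      rcases Nat.eq_zero_or_pos (N.factorization p) with h0 | h0
      · have h1 : ¬ p ∣ N := by
          intro hd
          have := hM.1.factorization_pos_of_dvd hN0 hd
          omega
        rw [hm, h0, pow_zero]
        simp only [Nat.coprime_one_right_eq_true, true_iff]
        exact fun hd => h1 (dvd_trans hd (orderOf_dvd_natCard z))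
      · rw [hm, Nat.coprime_pow_right_iff h0, Nat.coprime_comm, Nat.Prime.coprime_iff_not_dvd hM.1]
    have hsec' : ∀ z : G, (∃ k, orderOf z = p ^ k) → Nat.Coprime (orderOf z) n := by
      rintro z ⟨k, hk⟩
      rw [hk]
      exact Nat.Coprime.pow_left _ ((Nat.Prime.coprime_iff_not_dvd hM.1).mpr hpn)
    let ϑ : G → ℂ := fun w => if (∃ v : G, IsConj v y₁ ∧ (∃ u : G, w = u * v ∧ Commute u v ∧
      Nat.Coprime (orderOf u) n ∧ Nat.Coprime (orderOf v) m)) then (n : ℂ) else 0
    obtain ⟨c, hc, hexp⟩ := Cfsg.Agent.Lib.Char.section_expansion m n hmn hcop y₁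
      ((hsec y₁).mpr hy₁) ϑ (fun w hw => if_pos hw) (fun w hw => if_neg hw)
    have hx : ϑ x = n := if_pos ⟨y₁, IsConj.refl _, a, hax.symm, hac, hsec' a hak, (hsec y₁).mpr hy₁⟩
    have hy : ϑ y = 0 := by
      refine if_neg ?_
      rintro ⟨v, hv, u, huv, hcuv, hu, hvm⟩
      apply hne
      have hord : ∀ z : G, orderOf z ∣ m * n := fun z => by
        rw [← hmn]; exact orderOf_dvd_natCard z
      have h1 : v = y₂ := by
        refine Cfsg.Agent.Lib.Char.commuting_factor_unique hcop (a := u) (a' := b)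
          (huv.symm.trans hby.symm) hcuv hbc ?_ ?_ ?_ ?_
        · exact orderOf_dvd_iff_pow_eq_one.mp (hu.dvd_of_dvd_mul_right (hord u))
        · exact orderOf_dvd_iff_pow_eq_one.mp ((hsec' b hbk).dvd_of_dvd_mul_right (hord b))
        · exact orderOf_dvd_iff_pow_eq_one.mp (hvm.dvd_of_dvd_mul_left (hord v))
        · exact orderOf_dvd_iff_pow_eq_one.mp (((hsec y₂).mpr hy₂).dvd_of_dvd_mul_left (hord y₂))
      rw [← h1]
      exact hv.symm
    have hdiff : ((n : ℂ)) = ∑ χ : Cfsg.IrrCharacter G, c χ * ((χ : G → ℂ) x - (χ : G → ℂ) y) := by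
      have h1 : ϑ x - ϑ y = (n : ℂ) := by rw [hx, hy, sub_zero]
      rw [← h1, hexp]
      simp only [Finset.sum_apply, Pi.smul_apply, smul_eq_mul, ← Finset.sum_sub_distrib, mul_sub]
    have hloc : Cfsg.MemLocalIdeal M (n : ℂ) := by
      rw [hdiff]
      refine Cfsg.Agent.Lib.Block.memLocalIdeal_sum _ _ fun χ _ => ?_
      refine Cfsg.Agent.Lib.Block.memLocalIdeal_mul_left ?_ (hall χ)
      exact ⟨⟨c χ, hc χ⟩, 1, by
        intro h
        exact hMp.ne_top ((Ideal.eq_top_iff_one M).mpr h), by simp⟩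
    have hnM : (n : Cfsg.AlgInt) ∈ M := by
      have := (Cfsg.Agent.Lib.Block.memLocalIdeal_algInt_iff (M := M) ((n : Cfsg.AlgInt))).mp (by simpa using hloc)
      exact this
    have hcoprime : Nat.Coprime p n := (Nat.Prime.coprime_iff_not_dvd hM.1).mpr hpn
    have hg := Nat.gcd_eq_gcd_ab p n
    rw [hcoprime.gcd_eq_one] at hg
    have hone : (1 : Cfsg.AlgInt) ∈ M := by
      have h2 : (1 : Cfsg.AlgInt) = (p : Cfsg.AlgInt) * ((Nat.gcdA p n : ℤ) : Cfsg.AlgInt) +
          (n : Cfsg.AlgInt) * ((Nat.gcdB p n : ℤ) : Cfsg.AlgInt) := by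
        have := congrArg (Int.cast : ℤ → Cfsg.AlgInt) hg
        push_cast at this
        exact this
      rw [h2]
      exact M.add_mem (M.mul_mem_right _ hM.2.2) (M.mul_mem_right _ hnM)
    exact hMp.ne_top ((Ideal.eq_top_iff_one M).mpr hone)

end Cfsg.Agent.S0876
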