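import Cfsg.Statements.S0878
import Cfsg.Agent.Lib.Char.Zass

set_option autoImplicit false
open Cfsg

namespace Cfsg.Agent.S0878

/-- Let G be a Zassenhaus group on the finite set Ω, a a point, and let H be the subgroup of the stabilizer of a consisting of the identity and the elements fixing no point other than a (given here as a subgroup of the stabilizer of order one less than the number of points whose non-identity elements fix only a; it is the Frobenius kernel of the stabilizer). Then an element outside the stabilizer of a conjugates no non-identity element of H into H, and the normalizer of H is exactly the stabilizer of a. -/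
theorem result {G Ω : Type*} [Group G] [Finite G] [MulAction G Ω] [Fintype Ω] (hZ : Cfsg.IsZassenhausGroup G Ω) (a : Ω) (H : Subgroup G) (hHa : H ≤ MulAction.stabilizer G a) (hHcard : Nat.card H + 1 = Fintype.card Ω) (hHfix : ∀ u ∈ H, u ≠ 1 → ∀ c : Ω, u • c = c → c = a) : (∀ g : G, g ∉ MulAction.stabilizer G a → ∀ u ∈ H, g * u * g⁻¹ ∈ H → u = 1) ∧ Subgroup.normalizer (H : Set G) = MulAction.stabilizer G a := by
  classical
  have hfaith := hZ.1
  -- there is a second point
  obtain ⟨g0, hg0, a0, b0, hab0, h01, h02⟩ := hZ.2.2.2.1
  obtain ⟨b, hab⟩ : ∃ b : Ω, a ≠ b := by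
    by_cases h : a0 = a
    · exact ⟨b0, by rw [← h]; exact hab0⟩
    · exact ⟨a0, fun h' => h h'.symm⟩
  constructor
  · intro g hg u hu hgu
    by_contra hu1
    have hv1 : g * u * g⁻¹ ≠ 1 := by
      intro h0
      apply hu1
      have : u = g⁻¹ * (g * u * g⁻¹) * g := by group
      rw [this, h0]
      group
    have h1 := hHfix _ hgu hv1 (g • a) (by
      have hua : u • a = a := hHa hu
      simp [mul_smul, hua])
    exact hg h1
  · apply le_antisymm
    · intro x hx
      -- a non-identity element of `H`
      have hne : ∃ u ∈ H, u ≠ 1 := by
        by_contra hcon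
        push Not at hcon
        have hbot : H = ⊥ := (Subgroup.eq_bot_iff_forall H).mpr hcon
        have h1 : Nat.card H = 1 := by rw [hbot]; simp
        have h2 : Fintype.card Ω = 2 := by omega
        apply hg0
        apply hfaith.eq_of_smul_eq_smul
        intro c
        rw [one_smul]
        by_cases hc1 : c = a0
        · rw [hc1, h01]
        by_cases hc2 : c = b0
        · rw [hc2, h02]
        exfalso
        have h3 : 3 ≤ Fintype.card Ω := by
          have : ({a0, b0, c} : Finset Ω).card = 3 := by
            rw [Finset.card_insert_of_notMem, Finset.card_pair (Ne.symm hc2)]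
            simp [hab0, Ne.symm hc1]
          rw [← this]
          exact Finset.card_le_univ _
        omega
      obtain ⟨u, hu, hu1⟩ := hne
      have hm := (Subgroup.mem_normalizer_iff.mp hx u).mp hu
      have hv1 : x * u * x⁻¹ ≠ 1 := by
        intro h0
        apply hu1
        have : u = x⁻¹ * (x * u * x⁻¹) * x := by group
        rw [this, h0]
        group
      have hua : u • a = a := hHa hu
      exact hHfix _ hm hv1 (x • a) (by simp [mul_smul, hua])
    · intro s hs
      rw [Subgroup.mem_normalizer_iff]
      intro u
      have hs' : s • a = a := hs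
      constructor
      · intro hu
        exact Cfsg.Agent.Lib.Char.zass_kernel_conj_mem hZ hab H hHa hHcard hHfix hs' hu
      · intro hu
        have hsi : s⁻¹ • a = a := by rw [inv_smul_eq_iff, hs']
        have := Cfsg.Agent.Lib.Char.zass_kernel_conj_mem hZ hab H hHa hHcard hHfix hsi hu
        simpa [mul_assoc] using this

end Cfsg.Agent.S0878
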