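import Cfsg.Statements.S0879
import Cfsg.Agent.Lib.Char.Zass

set_option autoImplicit false
open Cfsg

namespace Cfsg.Agent.S0879

/-- Let G be a Zassenhaus group on the finite set Ω and E the stabilizer of two distinct points a, b. Then an element outside the normalizer of E conjugates no non-identity element of E into E, and E has index 2 in its normalizer. -/
theorem result {G Ω : Type*} [Group G] [Finite G] [MulAction G Ω] [Fintype Ω] (hZ : Cfsg.IsZassenhausGroup G Ω) {a b : Ω} (hab : a ≠ b) : (∀ g : G, g ∉ Subgroup.normalizer ((MulAction.stabilizer G a ⊓ MulAction.stabilizer G b : Subgroup G) : Set G) → ∀ x ∈ (MulAction.stabilizer G a ⊓ MulAction.stabilizer G b : Subgroup G), g * x * g⁻¹ ∈ (MulAction.stabilizer G a ⊓ MulAction.stabilizer G b : Subgroup G) → x = 1) ∧ ((MulAction.stabilizer G a ⊓ MulAction.stabilizer G b : Subgroup G).subgroupOf (Subgroup.normalizer ((MulAction.stabilizer G a ⊓ MulAction.stabilizer G b : Subgroup G) : Set G))).index = 2 := by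
  classical
  set E : Subgroup G := MulAction.stabilizer G a ⊓ MulAction.stabilizer G b with hE
  have hmemE : ∀ x : G, x ∈ E ↔ x • a = a ∧ x • b = b := fun x => Iff.rfl
  -- an element with a nonidentity conjugate in `E` preserves the pair
  have hkey : ∀ g x : G, x ∈ E → x ≠ 1 → g * x * g⁻¹ ∈ E →
      (g • a = a ∧ g • b = b) ∨ (g • a = b ∧ g • b = a) := by
    intro g x hx hx1 hgx
    obtain ⟨hxa, hxb⟩ := (hmemE x).mp hx
    obtain ⟨hva, hvb⟩ := (hmemE _).mp hgx
    have hv1 : g * x * g⁻¹ ≠ 1 := by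
      intro h0
      apply hx1
      have : x = g⁻¹ * (g * x * g⁻¹) * g := by group
      rw [this, h0]
      group
    have hfixa : (g * x * g⁻¹) • (g • a) = g • a := by simp [mul_smul, hxa]
    have hfixb : (g * x * g⁻¹) • (g • b) = g • b := by simp [mul_smul, hxb]
    have hgab : g • a ≠ g • b := fun h => hab (smul_left_cancel g h)
    have hcases : ∀ c, (g * x * g⁻¹) • c = c → c = a ∨ c = b := by
      intro c hc
      by_contra hne
      push Not at hne
      exact hv1 (Cfsg.Agent.Lib.Char.zass_eq_one hZ hab (Ne.symm hne.2) (Ne.symm hne.1) hva hvb hc)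
    rcases hcases _ hfixa with h1 | h1 <;> rcases hcases _ hfixb with h2 | h2
    · exact absurd (h1.trans h2.symm) hgab
    · exact Or.inl ⟨h1, h2⟩
    · exact Or.inr ⟨h1, h2⟩
    · exact absurd (h1.trans h2.symm) hgab
  have hnorm : ∀ g : G, ((g • a = a ∧ g • b = b) ∨ (g • a = b ∧ g • b = a)) →
      g ∈ Subgroup.normalizer (E : Set G) := by
    intro g hg
    have hinvg : (g⁻¹ • a = a ∧ g⁻¹ • b = b) ∨ (g⁻¹ • a = b ∧ g⁻¹ • b = a) := by
      rcases hg with ⟨h1, h2⟩ | ⟨h1, h2⟩
      · left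
        rw [inv_smul_eq_iff, inv_smul_eq_iff]
        exact ⟨h1.symm, h2.symm⟩
      · right
        rw [inv_smul_eq_iff, inv_smul_eq_iff]
        exact ⟨h2.symm, h1.symm⟩
    rw [Subgroup.mem_normalizer_iff]
    intro y
    constructor
    · intro hy
      obtain ⟨hya, hyb⟩ := (hmemE y).mp hy
      rw [hmemE]
      rcases hinvg with ⟨h1, h2⟩ | ⟨h1, h2⟩
      · simp [mul_smul, h1, h2, hya, hyb]
        rcases hg with ⟨h3, h4⟩ | ⟨h3, h4⟩
        · exact ⟨h3, h4⟩
        · exact absurd (h1.symm.trans (by rw [inv_smul_eq_iff, h4] : g⁻¹ • a = b)) hab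
      · have h5 : g • b = a := by rw [← h1, smul_inv_smul]
        have h6 : g • a = b := by rw [← h2, smul_inv_smul]
        simp [mul_smul, h1, h2, hya, hyb, h5, h6]
    · intro hy
      rw [hmemE] at hy
      obtain ⟨hya, hyb⟩ := hy
      rw [hmemE]
      rcases hg with ⟨h1, h2⟩ | ⟨h1, h2⟩
      · have h3 : g⁻¹ • a = a := by rw [inv_smul_eq_iff, h1]
        have h4 : g⁻¹ • b = b := by rw [inv_smul_eq_iff, h2]
        simp only [mul_smul, h3, h4, h1, h2] at hya hyb
        constructor
        · apply smul_left_cancel g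
          rw [hya, h1]
        · apply smul_left_cancel g
          rw [hyb, h2]
      · have h3 : g⁻¹ • b = a := by rw [inv_smul_eq_iff, h1]
        have h4 : g⁻¹ • a = b := by rw [inv_smul_eq_iff, h2]
        simp only [mul_smul, h3, h4, h1, h2] at hya hyb
        constructor
        · apply smul_left_cancel g
          rw [hyb, h1]
        · apply smul_left_cancel g
          rw [hya, h2]
  constructor
  · intro g hg x hx hgx
    by_contra hx1
    exact hg (hnorm g (hkey g x hx hx1 hgx))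
  · -- index two
    obtain ⟨x₀, hx₀1, hx₀a, hx₀b⟩ := Cfsg.Agent.Lib.Char.zass_two_stabilizer_ne_bot hZ hab
    have hx₀E : x₀ ∈ E := (hmemE x₀).mpr ⟨hx₀a, hx₀b⟩
    obtain ⟨t, hta, htb⟩ := Cfsg.Agent.Lib.Char.zass_two_trans hZ a b b a hab (Ne.symm hab)
    have htN : t ∈ Subgroup.normalizer (E : Set G) := hnorm t (Or.inr ⟨hta, htb⟩)
    rw [Subgroup.index_eq_two_iff]
    refine ⟨⟨t, htN⟩, ?_⟩
    rintro ⟨y, hy⟩
    have hyconj : y * x₀ * y⁻¹ ∈ E := (Subgroup.mem_normalizer_iff.mp hy x₀).mp hx₀E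
    rcases hkey y x₀ hx₀E hx₀1 hyconj with ⟨h1, h2⟩ | ⟨h1, h2⟩
    · have hyE : (⟨y, hy⟩ : Subgroup.normalizer (E : Set G)) ∈ E.subgroupOf (Subgroup.normalizer (E : Set G)) := by
        rw [Subgroup.mem_subgroupOf]
        exact (hmemE y).mpr ⟨h1, h2⟩
      have hyt : ¬ ((⟨y, hy⟩ : Subgroup.normalizer (E : Set G)) * ⟨t, htN⟩ ∈ E.subgroupOf (Subgroup.normalizer (E : Set G))) := by
        rw [Subgroup.mem_subgroupOf]
        intro hm
        have := ((hmemE _).mp hm).1
        simp only [Subgroup.coe_mul, mul_smul, hta, h2] at this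
        exact hab this.symm
      exact Or.inr ⟨hyE, hyt⟩
    · have hyE : ¬ ((⟨y, hy⟩ : Subgroup.normalizer (E : Set G)) ∈ E.subgroupOf (Subgroup.normalizer (E : Set G))) := by
        rw [Subgroup.mem_subgroupOf]
        intro hm
        have := ((hmemE _).mp hm).1
        exact hab (this.symm.trans h1)
      have hyt : (⟨y, hy⟩ : Subgroup.normalizer (E : Set G)) * ⟨t, htN⟩ ∈ E.subgroupOf (Subgroup.normalizer (E : Set G)) := by
        rw [Subgroup.mem_subgroupOf]
        refine (hmemE _).mpr ⟨?_, ?_⟩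
        · simp only [Subgroup.coe_mul, mul_smul, hta, h2]
        · simp only [Subgroup.coe_mul, mul_smul, htb, h1]
      exact Or.inl ⟨hyt, hyE⟩

end Cfsg.Agent.S0879
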