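import Cfsg.Statements.S0880
import Cfsg.Agent.Lib.Char.ZassCount

set_option autoImplicit false
open Cfsg

namespace Cfsg.Agent.S0880

/-- Let G be a finite simple Zassenhaus group on Ω with n points whose two-point stabilizer E has odd order less than n - 2. Then there are two elements of G, each fixing no point of Ω, that are not conjugate. -/
theorem result {G Ω : Type*} [Group G] [Finite G] [MulAction G Ω] [Fintype Ω] (hZ : Cfsg.IsZassenhausGroup G Ω) {a b : Ω} (hab : a ≠ b) [IsSimpleGroup G] (hodd : Odd (Nat.card ↥(MulAction.stabilizer G a ⊓ MulAction.stabilizer G b : Subgroup G))) (hlt : Nat.card ↥(MulAction.stabilizer G a ⊓ MulAction.stabilizer G b : Subgroup G) < Fintype.card Ω - 2) : ∃ x y : G, (∀ c : Ω, x • c ≠ c) ∧ (∀ c : Ω, y • c ≠ c) ∧ ¬ IsConj x y := by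
  classical
  haveI : Fintype G := Fintype.ofFinite G
  open Cfsg.Agent.Lib.Char in
  have hcard := zass_card hZ hab
  open Cfsg.Agent.Lib.Char in
  have hfpf := two_card_fpf hZ hab
  set n := Fintype.card Ω with hn
  set e := Nat.card ↥(MulAction.stabilizer G a ⊓ MulAction.stabilizer G b : Subgroup G) with he
  open Cfsg.Agent.Lib.Char in
  have he3 : 3 ≤ e := by
    obtain ⟨g, hg, h1, h2⟩ := zass_two_stabilizer_ne_bot hZ hab
    have hne1 : e ≠ 1 := by
      intro h0
      have hsub : Subsingleton ↥(MulAction.stabilizer G a ⊓ MulAction.stabilizer G b : Subgroup G) :=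
        (Nat.card_eq_one_iff_unique.mp h0).1
      have := Subsingleton.elim (⟨g, ⟨h1, h2⟩⟩ : ↥(MulAction.stabilizer G a ⊓ MulAction.stabilizer G b : Subgroup G)) 1
      exact hg (congrArg Subtype.val this)
    obtain ⟨k, hk⟩ := hodd
    omega
  have hn6 : 5 < n := by omega
  set F := Finset.univ.filter fun g : G => ∀ c : Ω, g • c ≠ c with hF
  have hFpos : 0 < F.card := by
    by_contra h0
    have h1 : F.card = 0 := by omega
    rw [h1] at hfpf
    rw [← hcard] at hfpf
    obtain ⟨m, hm⟩ : ∃ m, n = m + 2 := ⟨n - 2, by omega⟩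
    rw [hm] at hfpf
    simp only [Nat.add_sub_cancel, Nat.add_succ_sub_one] at hfpf
    nlinarith [mul_pos (show 0 < m + 1 by omega) (show 0 < m + 1 by omega)]
  obtain ⟨x, hx⟩ := Finset.card_pos.mp hFpos
  have hxf : ∀ c : Ω, x • c ≠ c := (Finset.mem_filter.mp hx).2
  by_contra hcon
  push Not at hcon
  have hFconj : F = Finset.univ.filter fun y : G => IsConj x y := by
    ext y
    simp only [hF, Finset.mem_filter, Finset.mem_univ, true_and]
    constructor
    · intro hy
      exact hcon x y hxf hy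
    · intro hxy c hc
      obtain ⟨t, ht⟩ := isConj_iff.mp hxy
      apply hxf (t⁻¹ • c)
      rw [← ht] at hc
      simp only [mul_smul] at hc
      rw [← inv_smul_smul t (x • t⁻¹ • c)] 
      rw [hc]
  open Cfsg.Agent.Lib.Char in
  have hidx := index_mul_card_centralizer x
  open Cfsg.Agent.Lib.Char in
  have hFidx : F.card = (Subgroup.centralizer ({x} : Set G)).index := by
    rw [hFconj]
    exact card_filter_isConj x
  rw [← hFidx] at hidx
  set c := Nat.card (Subgroup.centralizer ({x} : Set G)) with hc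
  have hx1 : x ≠ 1 := by
    rintro rfl
    obtain ⟨d⟩ : Nonempty Ω := ⟨a⟩
    exact hxf d (one_smul _ _)
  have hc2 : 2 ≤ c := by
    have h1 : 1 < c := by
      haveI : Nontrivial (Subgroup.centralizer ({x} : Set G)) := by
        refine ⟨⟨⟨x, ?_⟩, 1, fun h => hx1 (congrArg Subtype.val h)⟩⟩
        rw [Subgroup.mem_centralizer_singleton_iff]
      exact Finite.one_lt_card
    omega
  -- arithmetic
  obtain ⟨m, hm⟩ : ∃ m, n = m + 2 := ⟨n - 2, by omega⟩
  rw [hm] at hcard hfpf
  simp only [Nat.add_sub_cancel, Nat.add_succ_sub_one] at hcard hfpf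
  have h1 : 2 * Nat.card G = c * (2 * F.card) := by rw [← hidx]; ring
  have h2 : 2 * F.card + (m + 1) * m = e * (m + 2) * (m + 1) := by rw [hfpf, hcard]
  have hm3 : 3 < m := by omega
  have h3 : 2 * F.card = (m + 1) * (e * (m + 2) - m) := by
    have h4 : m ≤ e * (m + 2) := by nlinarith
    obtain ⟨A, hA⟩ := Nat.exists_eq_add_of_le h4
    rw [hA, Nat.add_sub_cancel_left]
    nlinarith
  obtain ⟨A, hA⟩ : ∃ A, e * (m + 2) = m + A := Nat.exists_eq_add_of_le (by nlinarith)
  rw [hA, Nat.add_sub_cancel_left] at h3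
  rw [← hcard, h3] at h1
  have h5 : 2 * (e * (m + 2)) = c * A := by
    have h6 : (m + 1) * (2 * (e * (m + 2))) = (m + 1) * (c * A) := by
      calc (m + 1) * (2 * (e * (m + 2))) = 2 * (e * (m + 2) * (m + 1)) := by ring
        _ = c * ((m + 1) * A) := h1
        _ = _ := by ring
    exact Nat.eq_of_mul_eq_mul_left (by omega) h6
  rw [hA] at h5
  have hA2 : 2 * m + 6 ≤ A + m := by nlinarith
  rcases Nat.lt_or_ge c 3 with h7 | h7
  · have h8 : c = 2 := by omega
    rw [h8] at h5
    omega
  · have h9 : 3 * A ≤ c * A := Nat.mul_le_mul_right A h7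
    nlinarith

end Cfsg.Agent.S0880
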