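import Cfsg.Statements.S0888
import Cfsg.Agent.Lib.Char.ProjExt

set_option autoImplicit false
open Cfsg

namespace Cfsg.Agent.S0888

/-- Let N be a normal subgroup of the finite group G and ϑ an irreducible character of N invariant under conjugation by G. Suppose that for every prime p there are a subgroup P containing N, of index prime to p and with the index of N in P a power of p, and an irreducible character of P restricting to ϑ. Then ϑ is the restriction of an irreducible character of G. -/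
theorem result {G : Type*} [Group G] [Finite G] (N : Subgroup G) [hN : N.Normal] (ϑ : N → ℂ) (hϑ : Cfsg.IsIrrCharacter N ϑ) (hinv : ∀ (g : G) (n : N), ϑ ⟨g * n * g⁻¹, hN.conj_mem (n : G) n.2 g⟩ = ϑ n) (hsyl : ∀ p : ℕ, p.Prime → ∃ (P : Subgroup G) (hNP : N ≤ P) (η : P → ℂ), Nat.Coprime P.index p ∧ (∃ k : ℕ, N.relIndex P = p ^ k) ∧ Cfsg.IsIrrCharacter P η ∧ ∀ n : N, η ⟨(n : G), hNP n.2⟩ = ϑ n) : ∃ χ : G → ℂ, Cfsg.IsIrrCharacter G χ ∧ ∀ n : N, χ n = ϑ n := by
  classical
  obtain ⟨d, X, hX, rfl⟩ := hϑ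
  have hU := Cfsg.Agent.Lib.Char.nontrivial_of_irr hX
  obtain ⟨E⟩ := Cfsg.Agent.Lib.Char.exists_projExt N X hX hinv
  have hone : E.IsCobExp 1 := by
    refine Cfsg.Agent.Lib.Char.ProjExt.isCobExp_one_of_primes (m := N.index) (Nat.pos_of_ne_zero Subgroup.index_ne_zero_of_finite)
      E.isCobExp_index fun p hp => ?_
    obtain ⟨P, hNP, η, hcop, -, hη, hext⟩ := hsyl p hp
    refine ⟨(P.index : ℤ), E.isCobExp_index_of_extends hX hinv P hNP η
      (Cfsg.Agent.Lib.Char.IsIrrCharacter.isCharacter hη) hext, ?_⟩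
    intro hdvd
    have h1 : p ∣ P.index := by exact_mod_cast hdvd
    exact hp.one_lt.ne' (Nat.eq_one_of_dvd_coprimes hcop h1 dvd_rfl)
  obtain ⟨σ, hσ⟩ := hone.exists_rep
  exact Cfsg.Agent.Lib.Char.irr_extends_of_rep N X hX σ hσ

end Cfsg.Agent.S0888
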