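import Cfsg.Statements.S0892
import Mathlib
import Cfsg.Agent.Lib.SchurAlt.Main

set_option autoImplicit false
open Cfsg

namespace Cfsg.Agent.S0892

open Cfsg.Agent.Lib.SchurAlt in
/-- auxiliary -/
theorem aux_main (n : ℕ) (hn : 4 ≤ n) (h6 : n ≠ 6) (h7 : n ≠ 7) {Γ : Type*} [Group Γ] [Finite Γ] (Z : Subgroup Γ) [Z.Normal] (hZc : Z ≤ Subgroup.center Γ) (hZd : Z ≤ commutator Γ) (e : Γ ⧸ Z ≃* alternatingGroup (Fin n)) : Nat.card Z ≤ 2 := by
  set f : Γ →* Equiv.Perm (Fin n) :=
    (alternatingGroup (Fin n)).subtype.comp (e.toMonoidHom.comp (QuotientGroup.mk' Z)) with hf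
  have hk : f.ker = Z := by
    ext x
    rw [MonoidHom.mem_ker, hf]
    simp only [MonoidHom.comp_apply, Subgroup.subtype_apply]
    constructor
    · intro h
      have h1 : e (QuotientGroup.mk' Z x) = 1 := Subtype.ext h
      have h2 : (QuotientGroup.mk' Z x) = 1 := by simpa using h1
      exact (QuotientGroup.eq_one_iff x).mp h2
    · intro h
      have h2 : (QuotientGroup.mk' Z x) = 1 := (QuotientGroup.eq_one_iff x).mpr h
      simp [h2]
  have hr : f.range = alternatingGroup (Fin n) := by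
    apply le_antisymm
    · rintro _ ⟨x, rfl⟩
      exact (e (QuotientGroup.mk' Z x)).2
    · intro σ hσ
      obtain ⟨x, hx⟩ := QuotientGroup.mk'_surjective Z (e.symm ⟨σ, hσ⟩)
      refine ⟨x, ?_⟩
      rw [hf]
      simp only [MonoidHom.comp_apply, Subgroup.subtype_apply]
      show ((e (QuotientGroup.mk' Z x)) : Equiv.Perm (Fin n)) = σ
      rw [hx]
      simp
  have hc : f.ker ≤ Subgroup.center Γ := by rw [hk]; exact hZc
  have hd : f.ker ≤ commutator Γ := by rw [hk]; exact hZd
  have h := (by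
    have hcases : n = 4 ∨ n = 5 ∨ 8 ≤ n := by omega
    rcases hcases with rfl | rfl | h8
    · refine card_ker_le_two f hc hd ?_
      rw [hr, nat_card_alternatingGroup]
      simp
      decide
    · refine card_ker_le_two f hc hd ?_
      rw [hr, nat_card_alternatingGroup]
      simp
      decide
    · exact card_ker_le_two_of_ge_eight h8 f hr hc hd : Nat.card f.ker ≤ 2)
  rwa [hk] at h


/-- Let n ≥ 4 with n ≠ 6 and n ≠ 7, and let Γ be a finite group with a subgroup Z contained in both the centre and the commutator subgroup of Γ such that Γ / Z is isomorphic to the alternating group on n letters. Then Z has order at most 2. -/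
theorem result (n : ℕ) (hn : 4 ≤ n) (h6 : n ≠ 6) (h7 : n ≠ 7) {Γ : Type*} [Group Γ] [Finite Γ] (Z : Subgroup Γ) [Z.Normal] (hZc : Z ≤ Subgroup.center Γ) (hZd : Z ≤ commutator Γ) (e : Γ ⧸ Z ≃* alternatingGroup (Fin n)) : Nat.card Z ≤ 2 := by
  exact aux_main n hn h6 h7 Z hZc hZd e

end Cfsg.Agent.S0892
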