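import Cfsg.Statements.S0893
import Cfsg.Agent.Lib.Char.Extraspecial

set_option autoImplicit false
open Cfsg

namespace Cfsg.Agent.S0893

/-- Let P be an extraspecial p-group of order p ^ (2 * n + 1), A an abelian subgroup of order p ^ (n + 1), and λ a character of A of degree 1 that is not identically 1 on the elements of A lying in the centre of P. Then the function induced from λ to P is an irreducible character of P and vanishes at every element outside the centre. -/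
theorem result {P : Type*} [Group P] [Fintype P] (p n : ℕ) [Fact p.Prime] (hP : Cfsg.IsExtraspecial p P) (hcard : Nat.card P = p ^ (2 * n + 1)) (A : Subgroup P) (hab : ∀ a ∈ A, ∀ b ∈ A, a * b = b * a) (hA : Nat.card A = p ^ (n + 1)) (lam : A → ℂ) (hlam : Cfsg.IsCharacter A lam ∧ lam 1 = 1) (hZ : ∃ a : A, (a : P) ∈ Subgroup.center P ∧ lam a ≠ 1) : Cfsg.IsIrrCharacter P (Cfsg.indFun A lam) ∧ ∀ x : P, x ∉ Subgroup.center P → Cfsg.indFun A lam x = 0 := by
  classical
  obtain ⟨hlamc, hlam1⟩ := hlam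
  obtain ⟨l, rfl⟩ := Cfsg.Agent.Lib.Char.exists_hom_of_character_one hlamc hlam1
  obtain ⟨a, haZ, hla⟩ := hZ
  have hc := hP.1.2.2
  have hZc := hP.2
  have hpp : p.Prime := Fact.out
  have ha1 : (a : P) ≠ 1 := by
    intro h
    have : a = 1 := Subtype.ext h
    rw [this] at hla
    simp at hla
  -- the centre lies in `A`
  have hZA : ∀ z : P, z ∈ Subgroup.center P → z ∈ A := by
    intro z hz
    obtain ⟨k, hk⟩ := Cfsg.Agent.Lib.Char.exists_zpow_central hZc haZ ha1 hz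
    rw [hk]
    exact A.zpow_mem a.2 k
  have hlne : ∀ (c : P) (hcZ : c ∈ Subgroup.center P), c ≠ 1 → ((l ⟨c, hZA c hcZ⟩ : ℂˣ) : ℂ) ≠ 1 := by
    intro c hcZ hc1 h0
    obtain ⟨k, hk⟩ := Cfsg.Agent.Lib.Char.exists_zpow_central hZc hcZ hc1 haZ
    apply hla
    have h1 : a = (⟨c, hZA c hcZ⟩ : A) ^ k := by
      ext
      simpa using hk
    rw [h1]
    show ((l ((⟨c, hZA c hcZ⟩ : A) ^ k) : ℂˣ) : ℂ) = 1
    have h2 : l ⟨c, hZA c hcZ⟩ = 1 := Units.ext h0
    rw [map_zpow, h2]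
    simp
  set ψ : P → ℂ := Cfsg.indFun A (fun x => ((l x : ℂˣ) : ℂ)) with hψ
  have hψclass : Cfsg.IsClassFunction P ψ := Cfsg.Agent.Lib.Char.indFun_isClassFunction A _
  have hcentral : ∀ (x c : P) (hcZ : c ∈ Subgroup.center P), ψ (x * c) =
      ((l ⟨c, hZA c hcZ⟩ : ℂˣ) : ℂ) * ψ x := by
    intro x c hcZ
    simp only [hψ, Cfsg.Agent.Lib.Char.indFun_apply]
    rw [mul_left_comm]
    congr 1
    rw [Finset.mul_sum]
    refine Finset.sum_congr rfl fun t _ => ?_
    have h1 : t⁻¹ * (x * c) * t = (t⁻¹ * x * t) * c := by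
      have h2 := Subgroup.mem_center_iff.mp hcZ t
      calc t⁻¹ * (x * c) * t = t⁻¹ * x * (c * t) := by group
        _ = t⁻¹ * x * (t * c) := by rw [h2]
        _ = _ := by group
    rw [h1]
    by_cases hm : t⁻¹ * x * t ∈ A
    · have hm2 : (t⁻¹ * x * t) * c ∈ A := A.mul_mem hm (hZA c hcZ)
      rw [Cfsg.Agent.Lib.Char.extendByZero_of_mem A _ hm2, Cfsg.Agent.Lib.Char.extendByZero_of_mem A _ hm]
      have h3 : (⟨(t⁻¹ * x * t) * c, hm2⟩ : A) = ⟨t⁻¹ * x * t, hm⟩ * ⟨c, hZA c hcZ⟩ := rfl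
      rw [h3, map_mul, Units.val_mul, mul_comm]
    · have hm2 : (t⁻¹ * x * t) * c ∉ A := fun h => hm (by
        have := A.mul_mem h (A.inv_mem (hZA c hcZ))
        simpa using this)
      rw [Cfsg.Agent.Lib.Char.extendByZero_of_not_mem A _ hm2,
        Cfsg.Agent.Lib.Char.extendByZero_of_not_mem A _ hm, mul_zero]
  have hvan : ∀ x : P, x ∉ Subgroup.center P → ψ x = 0 := by
    intro x hx
    obtain ⟨y, c, hcZ, hc1, hyx⟩ := Cfsg.Agent.Lib.Char.exists_conj_eq_mul_central hc hx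
    have h1 := hψclass x y
    rw [hyx, hcentral x c hcZ] at h1
    have h2 := hlne c hcZ hc1
    have h3 : (((l ⟨c, hZA c hcZ⟩ : ℂˣ) : ℂ) - 1) * ψ x = 0 := by
      rw [sub_mul, h1, one_mul, sub_self]
    rcases mul_eq_zero.mp h3 with h4 | h4
    · exact absurd (sub_eq_zero.mp h4) h2
    · exact h4
  refine ⟨Cfsg.Agent.Lib.Char.isIrr_of_character_norm_one
    (Cfsg.Agent.Lib.Char.indFun_isCharacter A hlamc) ?_, hvan⟩
  -- the norm
  have hidx : A.index = p ^ n := by
    have h1 := Subgroup.card_mul_index A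
    rw [hcard, hA] at h1
    have h2 : p ^ (n + 1) * p ^ n = p ^ (n + 1) * A.index := by
      rw [h1, ← pow_add]
      congr 1
      ring
    exact (Nat.eq_of_mul_eq_mul_left (pow_pos hpp.pos _) h2).symm
  have hψ1 : ψ 1 = (p : ℂ) ^ n := by
    simp only [hψ, Cfsg.Agent.Lib.Char.indFun_one, hidx]
    simp
  have hval : ∀ z : Subgroup.center P, ψ z * (starRingEnd ℂ) (ψ z) = ((p : ℂ) ^ n) ^ 2 := by
    intro z
    have h1 := hcentral 1 z z.2
    rw [one_mul, hψ1] at h1
    have h2 := Cfsg.Agent.Lib.Char.norm_hom_eq_one l ⟨z, hZA z z.2⟩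
    rw [h1, Complex.mul_conj, Complex.normSq_eq_norm_sq, norm_mul, h2, one_mul]
    simp
  rw [Cfsg.Agent.Lib.Char.classInner_def]
  have hsum : ∑ x : P, ψ x * (starRingEnd ℂ) (ψ x) =
      ∑ z : Subgroup.center P, ψ z * (starRingEnd ℂ) (ψ z) := by
    rw [Finset.sum_subtype (Finset.univ.filter (· ∈ Subgroup.center P)) (by simp)
      (fun x => ψ x * (starRingEnd ℂ) (ψ x))|>.symm]
    refine (Finset.sum_filter_of_ne fun x _ hx => ?_).symm
    by_contra hxZ
    apply hx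
    rw [hvan x hxZ, zero_mul]
  rw [hsum, Finset.sum_congr rfl (fun z _ => hval z), Finset.sum_const, Finset.card_univ,
    nsmul_eq_mul, ← Nat.card_eq_fintype_card, hZc, hcard]
  have hp0 : (p : ℂ) ≠ 0 := by exact_mod_cast hpp.ne_zero
  push_cast
  field_simp
  ring

end Cfsg.Agent.S0893
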