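import Cfsg.Statements.S0895
import Cfsg.Agent.Lib.Char.FrobSchur

set_option autoImplicit false
open Cfsg

namespace Cfsg.Agent.S0895

/-- Let χ be a real-valued irreducible character of a finite group G whose degree is an odd natural number. Then the average over s in G of χ (s * s) equals 1. -/
theorem result {G : Type*} [Group G] [Fintype G] (χ : G → ℂ) (hχ : Cfsg.IsIrrCharacter G χ) (hreal : ∀ g : G, (χ g).im = 0) (d : ℕ) (hd : χ 1 = d) (hodd : Odd d) : (Nat.card G : ℂ)⁻¹ * ∑ s : G, χ (s * s) = 1 := by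
  classical
  obtain ⟨n, ρ, hρ, rfl⟩ := hχ
  obtain ⟨-, h2⟩ := Cfsg.Agent.Lib.Char.frobenius_schur ρ hρ
  obtain ⟨c, hc1, hν, B, hB0, hinv, htr⟩ := h2 hreal
  rw [hν]
  rcases hc1 with rfl | rfl
  · rfl
  exfalso
  have hnd : n = d := by
    have h1 : ρ.character 1 = (n : ℂ) := by
      rw [Representation.char_one]
      simp
    rw [h1] at hd
    exact_mod_cast hd
  subst hnd
  -- the range of `B` is invariant
  have hU := ((Cfsg.Agent.Lib.Char.isIrreducible_iff ρ).mp hρ).2
    (LinearMap.range (Matrix.toLin' B)) (by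
      rintro g _ ⟨w, rfl⟩
      refine ⟨((Cfsg.Agent.Lib.Char.repMat ρ g⁻¹).transpose).mulVec w, ?_⟩
      have h3 : Cfsg.Agent.Lib.Char.repMat ρ g * B =
          B * (Cfsg.Agent.Lib.Char.repMat ρ g⁻¹).transpose := by
        have h4 := hinv g
        have h5 : (Cfsg.Agent.Lib.Char.repMat ρ g).transpose *
            (Cfsg.Agent.Lib.Char.repMat ρ g⁻¹).transpose = 1 := by
          rw [← Matrix.transpose_mul, ← Cfsg.Agent.Lib.Char.repMat_mul, inv_mul_cancel,
            Cfsg.Agent.Lib.Char.repMat_one, Matrix.transpose_one]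
        calc Cfsg.Agent.Lib.Char.repMat ρ g * B
            = Cfsg.Agent.Lib.Char.repMat ρ g * B * ((Cfsg.Agent.Lib.Char.repMat ρ g).transpose *
              (Cfsg.Agent.Lib.Char.repMat ρ g⁻¹).transpose) := by rw [h5, Matrix.mul_one]
          _ = (Cfsg.Agent.Lib.Char.repMat ρ g * B * (Cfsg.Agent.Lib.Char.repMat ρ g).transpose) *
              (Cfsg.Agent.Lib.Char.repMat ρ g⁻¹).transpose := by simp only [Matrix.mul_assoc]
          _ = _ := by rw [h4]
      simp only [Matrix.toLin'_apply]
      rw [Matrix.mulVec_mulVec, ← h3, ← Matrix.mulVec_mulVec, Cfsg.Agent.Lib.Char.mulVec_repMat])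
  rcases hU with hU | hU
  · apply hB0
    have : Matrix.toLin' B = 0 := LinearMap.range_eq_bot.mp hU
    simpa using this
  · have hsurj : Function.Surjective B.mulVec := by
      intro v
      have : v ∈ LinearMap.range (Matrix.toLin' B) := by rw [hU]; trivial
      obtain ⟨w, hw⟩ := this
      exact ⟨w, by simpa using hw⟩
    have hunit : IsUnit B := Matrix.mulVec_surjective_iff_isUnit.mp hsurj
    have hdet : IsUnit B.det := (Matrix.isUnit_iff_isUnit_det B).mp hunit
    have h6 : B.transpose.det = B.det := Matrix.det_transpose B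
    rw [htr, show ((-1 : ℂ) • B) = -B by simp, Matrix.det_neg] at h6
    rw [Fintype.card_fin, hodd.neg_one_pow] at h6
    have h7 : B.det = 0 := by
      have : (2 : ℂ) * B.det = 0 := by
        linear_combination -h6
      simpa using this
    rw [h7] at hdet
    exact not_isUnit_zero hdet

end Cfsg.Agent.S0895
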