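import Cfsg.Statements.S0898
import Mathlib
import Cfsg.Agent.Lib.FTBound

set_option autoImplicit false
open Cfsg

namespace Cfsg.Agent.S0898

/-- Let H be an abelian subgroup of the finite group G meeting the centre of G trivially, such that for every non-central g the centralizer of g has nontrivial intersection with at most one conjugate of H. Let χ be an irreducible character of G with χ h ≠ χ 1 for some h in H, and let c be the inner product of the restriction of χ to H with the principal character. Then χ(1)² > (order of H)·c²; and if in addition χ 1 ≠ 1 and no proper normal subgroup of G contains H, then (1 + χ 1)² > order of H (both sides read as real numbers). -/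
theorem result {G : Type*} [Group G] [Fintype G] (H : Subgroup G) [Fintype H] (hab : ∀ a ∈ H, ∀ b ∈ H, a * b = b * a) (hZ : H ⊓ Subgroup.center G = ⊥) (hone : ∀ g : G, g ∉ Subgroup.center G → ∀ a b : G, Subgroup.centralizer ({g} : Set G) ⊓ H.map (MulAut.conj a).toMonoidHom ≠ ⊥ → Subgroup.centralizer ({g} : Set G) ⊓ H.map (MulAut.conj b).toMonoidHom ≠ ⊥ → H.map (MulAut.conj a).toMonoidHom = H.map (MulAut.conj b).toMonoidHom) (χ : G → ℂ) (hχ : Cfsg.IsIrrCharacter G χ) (hker : ∃ h ∈ H, χ h ≠ χ 1) : (χ 1).re ^ 2 > (Nat.card H : ℝ) * (Cfsg.classInner (fun h : H => χ h) (fun _ => 1)).re ^ 2 ∧ (χ 1 ≠ 1 → (∀ M : Subgroup G, M.Normal → H ≤ M → M = ⊤) → (1 + (χ 1).re) ^ 2 > (Nat.card H : ℝ)) := by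
  have h1 := Cfsg.Agent.Lib.FTBound.part_one H hab hZ hone χ hχ hker
  refine ⟨?_, ?_⟩
  · have h2 : (Cfsg.classInner (fun h : H => χ h) (fun _ => 1)).re ^ 2 ≤
        Complex.normSq (Cfsg.classInner (fun h : H => χ h) (fun _ => 1)) := by
      rw [Complex.normSq_apply]
      nlinarith [mul_self_nonneg (Cfsg.classInner (fun h : H => χ h) (fun _ => 1)).im]
    have h3 : (0 : ℝ) ≤ Nat.card H := by positivity
    have h4 := mul_le_mul_of_nonneg_left h2 h3
    exact lt_of_le_of_lt h4 h1
  · intro hne hnorm
    exact Cfsg.Agent.Lib.FTBound.part_two H hab hZ hone χ hχ hne hnorm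

end Cfsg.Agent.S0898
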