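import Cfsg.Statements.S0900
import Cfsg.Agent.Lib.Char.Clifford2
import Cfsg.Agent.Lib.Char.Constituent

set_option autoImplicit false
open Cfsg

namespace Cfsg.Agent.S0900

open Classical in
theorem sum_split_normSq {G : Type*} [Group G] [Fintype G] (N : Subgroup G) [Fintype N] (f : G → ℂ) :
    ∑ g : G, f g = ∑ n : N, f n + ∑ g : G, if g ∈ N then 0 else f g := by
  classical
  have h1 : ∑ n : N, f n = ∑ g : G, if g ∈ N then f g else 0 := by
    rw [← Finset.sum_filter]
    symm
    refine Finset.sum_subtype _ (fun x => by simp) _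
  rw [h1, ← Finset.sum_add_distrib]
  refine Finset.sum_congr rfl fun x _ => ?_
  split_ifs <;> simp

/-- Let N be a normal subgroup of the finite group G, χ an irreducible character of G and ϑ an irreducible character of N having nonzero inner product with the restriction of χ. Consider: (a) the restriction of χ to N is e • ϑ for a natural number e with e ^ 2 equal to the index of N; (b) χ vanishes outside N and ϑ is invariant under conjugation by G; (c) ϑ is invariant and every irreducible character of G having nonzero inner product with the function induced from ϑ equals χ. Then (a) ↔ (b) and (a) ↔ (c). -/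
theorem result {G : Type*} [Group G] [Fintype G] (N : Subgroup G) [hN : N.Normal] [Fintype N] (χ : G → ℂ) (hχ : Cfsg.IsIrrCharacter G χ) (ϑ : N → ℂ) (hϑ : Cfsg.IsIrrCharacter N ϑ) (hcon : Cfsg.classInner (fun n : N => χ n) ϑ ≠ 0) : ((∃ e : ℕ, (fun n : N => χ n) = (e : ℂ) • ϑ ∧ e ^ 2 = N.index) ↔ ((∀ g : G, g ∉ N → χ g = 0) ∧ ∀ (g : G) (n : N), ϑ ⟨g * n * g⁻¹, hN.conj_mem (n : G) n.2 g⟩ = ϑ n)) ∧ ((∃ e : ℕ, (fun n : N => χ n) = (e : ℂ) • ϑ ∧ e ^ 2 = N.index) ↔ (∀ (g : G) (n : N), ϑ ⟨g * n * g⁻¹, hN.conj_mem (n : G) n.2 g⟩ = ϑ n ∧ ∀ ψ : G → ℂ, Cfsg.IsIrrCharacter G ψ → Cfsg.classInner (Cfsg.indFun N ϑ) ψ ≠ 0 → ψ = χ)) := by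

  classical
  have hχc := Cfsg.Agent.Lib.Char.IsIrrCharacter.isCharacter hχ
  have hϑc := Cfsg.Agent.Lib.Char.IsIrrCharacter.isCharacter hϑ
  have hcl := Cfsg.Agent.Lib.Char.IsCharacter.isClassFunction hχc
  have hclϑ := Cfsg.Agent.Lib.Char.IsCharacter.isClassFunction hϑc
  have hχ1 := Cfsg.Agent.Lib.Char.map_one_ne_zero_of_irr hχ
  have hϑ1 := Cfsg.Agent.Lib.Char.map_one_ne_zero_of_irr hϑ
  have hG : (Nat.card G : ℂ) ≠ 0 := by exact_mod_cast Nat.card_pos.ne'
  have hNne : (Nat.card N : ℂ) ≠ 0 := by exact_mod_cast Nat.card_pos.ne'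
  have hidx : (N.index : ℂ) * (Nat.card N : ℂ) = Nat.card G := by
    exact_mod_cast Subgroup.index_mul_card N
  -- the natural multiplicity
  obtain ⟨e, he⟩ := Cfsg.Agent.Lib.Char.classInner_isCharacter_nat
    (Cfsg.Agent.Lib.Char.IsCharacter.restrict N hχc) hϑc
  have he0 : e ≠ 0 := by
    rintro rfl
    exact hcon (by simpa using he)
  have hinner : Cfsg.classInner (Cfsg.indFun N ϑ) χ = e := by
    rw [Cfsg.Agent.Lib.Char.frobenius_reciprocity N ϑ χ hcl, ← Cfsg.Agent.Lib.Char.conj_classInner, he]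
    simp
  -- norm sums
  have hnorm : ∑ g : G, χ g * (starRingEnd ℂ) (χ g) = Nat.card G := by
    have h1 := Cfsg.Agent.Lib.Char.classInner_irr_self hχ
    rw [Cfsg.Agent.Lib.Char.classInner_def] at h1
    field_simp at h1
    simpa using h1
  have hnormϑ : ∑ n : N, ϑ n * (starRingEnd ℂ) (ϑ n) = Nat.card N := by
    have h1 := Cfsg.Agent.Lib.Char.classInner_irr_self hϑ
    rw [Cfsg.Agent.Lib.Char.classInner_def] at h1
    field_simp at h1
    simpa using h1
  have hinvconj : (∀ (g : G) (n : N), ϑ ⟨g * n * g⁻¹, hN.conj_mem (n : G) n.2 g⟩ = ϑ n) →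
      ∀ g, Cfsg.Agent.Lib.Char.conjFn hN g ϑ = ϑ := by
    intro h g
    funext n
    exact h g n
  have hF1 : ∀ e' : ℕ, (fun n : N => χ n) = (e' : ℂ) • ϑ →
      ∀ (g : G) (n : N), ϑ ⟨g * n * g⁻¹, hN.conj_mem (n : G) n.2 g⟩ = ϑ n := by
    intro e' h g n
    have he'0 : (e' : ℂ) ≠ 0 := by
      rintro h0
      have h2 := congrFun h 1
      simp only [h0, zero_smul, Pi.zero_apply] at h2
      exact hχ1 (by simpa using h2)
    have h2 := congrFun h ⟨g * n * g⁻¹, hN.conj_mem (n : G) n.2 g⟩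
    have h3 := congrFun h n
    simp only [Pi.smul_apply, smul_eq_mul] at h2 h3
    rw [hcl n g] at h2
    exact mul_left_cancel₀ he'0 (h2.symm.trans h3)
  have hA1 : ∀ e' : ℕ, (fun n : N => χ n) = (e' : ℂ) • ϑ → (e' : ℂ) = e := by
    intro e' h
    rw [← he, h, Cfsg.Agent.Lib.Char.classInner_smul_left, Cfsg.Agent.Lib.Char.classInner_irr_self hϑ,
      mul_one]
  have hsumN : ∀ e' : ℕ, (fun n : N => χ n) = (e' : ℂ) • ϑ →
      ∑ n : N, χ n * (starRingEnd ℂ) (χ n) = (e' : ℂ) ^ 2 * Nat.card N := by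
    intro e' h
    rw [← hnormϑ, Finset.mul_sum]
    refine Finset.sum_congr rfl fun n _ => ?_
    have h2 := congrFun h n
    simp only [Pi.smul_apply, smul_eq_mul] at h2
    rw [h2, map_mul, Complex.conj_natCast]
    ring
  have hdeg : ∀ e' : ℕ, (fun n : N => χ n) = (e' : ℂ) • ϑ → χ 1 = (e' : ℂ) * ϑ 1 := by
    intro e' h
    have h2 := congrFun h 1
    simpa using h2
  -- uniqueness of the constituent from the degree
  have hAuniq : ∀ e' : ℕ, (fun n : N => χ n) = (e' : ℂ) • ϑ → e' ^ 2 = N.index →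
      ∀ ψ : G → ℂ, Cfsg.IsIrrCharacter G ψ → Cfsg.classInner (Cfsg.indFun N ϑ) ψ ≠ 0 → ψ = χ := by
    intro e' h he2 ψ hψ hne
    by_contra hψχ
    have hind := Cfsg.Agent.Lib.Char.indFun_isCharacter N hϑc
    have hee := hA1 e' h
    have he1 : e' = e := by exact_mod_cast hee
    subst he1
    -- the sum of degrees
    have hs := Cfsg.Agent.Lib.Char.classFunction_eq_sum _
      (Cfsg.Agent.Lib.Char.IsCharacter.isClassFunction hind)
    have hs1 := congrFun hs 1
    simp only [Finset.sum_apply, Pi.smul_apply, smul_eq_mul] at hs1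
    rw [Cfsg.Agent.Lib.Char.indFun_one] at hs1
    choose c hc using fun φ : Cfsg.IrrCharacter G => Cfsg.Agent.Lib.Char.classInner_isCharacter_nat hind
      (Cfsg.Agent.Lib.Char.IsIrrCharacter.isCharacter φ.2)
    have hdeg' : ∀ φ : Cfsg.IrrCharacter G, (φ : G → ℂ) 1 = (Cfsg.charDegree (φ : G → ℂ) : ℂ) :=
      fun φ => Cfsg.Agent.Lib.Char.map_one_eq_charDegree (Cfsg.Agent.Lib.Char.IsIrrCharacter.isCharacter φ.2)
    have hϑd := Cfsg.Agent.Lib.Char.map_one_eq_charDegree hϑc
    have hχd := Cfsg.Agent.Lib.Char.map_one_eq_charDegree hχc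
    simp only [hc, hdeg'] at hs1
    rw [hϑd] at hs1
    have hs2 : N.index * Cfsg.charDegree ϑ = ∑ φ : Cfsg.IrrCharacter G, c φ * Cfsg.charDegree (φ : G → ℂ) := by
      exact_mod_cast hs1
    have hcχ : c ⟨χ, hχ⟩ = e' := by
      have := hc ⟨χ, hχ⟩
      rw [hinner] at this
      exact_mod_cast this.symm
    have hcψ : c ⟨ψ, hψ⟩ ≠ 0 := by
      intro h0
      apply hne
      rw [hc ⟨ψ, hψ⟩, h0]
      simp
    have hdψ := Cfsg.Agent.Lib.Char.charDegree_pos_of_irr hψ
    have hχde : Cfsg.charDegree χ = e' * Cfsg.charDegree ϑ := by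
      have h4 := hdeg e' h
      rw [hχd, hϑd] at h4
      exact_mod_cast h4
    have hsub : ({(⟨χ, hχ⟩ : Cfsg.IrrCharacter G), (⟨ψ, hψ⟩ : Cfsg.IrrCharacter G)} : Finset (Cfsg.IrrCharacter G)) ⊆ Finset.univ := Finset.subset_univ _
    have hle := Finset.sum_le_sum_of_subset_of_nonneg (f := fun φ : Cfsg.IrrCharacter G => c φ * Cfsg.charDegree (φ : G → ℂ)) hsub (fun _ _ _ => Nat.zero_le _)
    rw [Finset.sum_pair (fun h => hψχ (congrArg Subtype.val h).symm), ← hs2, hcχ, ← he2] at hle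
    simp only at hle
    rw [hχde] at hle
    have hpos : 0 < c ⟨ψ, hψ⟩ * Cfsg.charDegree ψ := Nat.mul_pos (Nat.pos_of_ne_zero hcψ) hdψ
    nlinarith
  -- from the unique constituent to the multiplicity
  have hBtoA : (∀ g, Cfsg.Agent.Lib.Char.conjFn hN g ϑ = ϑ) →
      (∀ ψ : G → ℂ, Cfsg.IsIrrCharacter G ψ → Cfsg.classInner (Cfsg.indFun N ϑ) ψ ≠ 0 → ψ = χ) →
      ∃ e : ℕ, (fun n : N => χ n) = (e : ℂ) • ϑ ∧ e ^ 2 = N.index := by
    intro hinv huniq
    have hcl' := Cfsg.Agent.Lib.Char.clifford_invariant hN hχ hϑ hinv hcon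
    rw [he] at hcl'
    refine ⟨e, hcl', ?_⟩
    have hind := Cfsg.Agent.Lib.Char.indFun_isCharacter N hϑc
    have hs := Cfsg.Agent.Lib.Char.classFunction_eq_sum _
      (Cfsg.Agent.Lib.Char.IsCharacter.isClassFunction hind)
    have hs1 := congrFun hs 1
    simp only [Finset.sum_apply, Pi.smul_apply, smul_eq_mul] at hs1
    rw [Finset.sum_eq_single (⟨χ, hχ⟩ : Cfsg.IrrCharacter G), hinner,
      Cfsg.Agent.Lib.Char.indFun_one] at hs1
    · simp only at hs1
      rw [hdeg e hcl'] at hs1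
      have h5 : (N.index : ℂ) = (e : ℂ) * e := by
        apply mul_right_cancel₀ hϑ1
        rw [hs1]
        ring
      have h6 : N.index = e * e := by exact_mod_cast h5
      rw [h6, sq]
    · intro φ _ hφ
      have h0 : Cfsg.classInner (Cfsg.indFun N ϑ) (φ : G → ℂ) = 0 := by
        by_contra hne
        exact hφ (Subtype.ext (huniq φ φ.2 hne))
      rw [h0, zero_mul]
    · intro h
      exact absurd (Finset.mem_univ _) h
  constructor
  · constructor
    · rintro ⟨e', h, he2⟩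
      refine ⟨?_, hF1 e' h⟩
      intro g hg
      have hsplit := sum_split_normSq N (fun g => χ g * (starRingEnd ℂ) (χ g))
      rw [hnorm, hsumN e' h] at hsplit
      have he2' : ((e' : ℂ)) ^ 2 = N.index := by exact_mod_cast he2
      rw [he2', hidx] at hsplit
      have h0 : ∑ g : G, (if g ∈ N then (0 : ℂ) else χ g * (starRingEnd ℂ) (χ g)) = 0 := by
        simpa using hsplit.symm
      have h1 : ∑ g : G, (if g ∈ N then (0 : ℝ) else Complex.normSq (χ g)) = 0 := by
        have h2 : ((∑ g : G, (if g ∈ N then (0 : ℝ) else Complex.normSq (χ g)) : ℝ) : ℂ) = 0 := by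
          rw [← h0]
          push_cast
          refine Finset.sum_congr rfl fun x _ => ?_
          split_ifs
          · simp
          · rw [Complex.mul_conj]
        exact_mod_cast h2
      have h3 := (Finset.sum_eq_zero_iff_of_nonneg (fun x _ => by
        split_ifs
        · exact le_rfl
        · exact Complex.normSq_nonneg _)).mp h1 g (Finset.mem_univ _)
      rw [if_neg hg] at h3
      exact Complex.normSq_eq_zero.mp h3
    · rintro ⟨hvan, hinv⟩
      have hcl' := Cfsg.Agent.Lib.Char.clifford_invariant hN hχ hϑ (hinvconj hinv) hcon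
      rw [he] at hcl'
      refine ⟨e, hcl', ?_⟩
      have hsplit := sum_split_normSq N (fun g => χ g * (starRingEnd ℂ) (χ g))
      rw [hnorm, hsumN e hcl'] at hsplit
      have h0 : ∑ g : G, (if g ∈ N then (0 : ℂ) else χ g * (starRingEnd ℂ) (χ g)) = 0 := by
        refine Finset.sum_eq_zero fun g _ => ?_
        split_ifs with hg
        · rfl
        · rw [hvan g hg]
          simp
      rw [h0, add_zero, ← hidx] at hsplit
      have h5 := mul_right_cancel₀ hNne hsplit
      have h6 : N.index = e ^ 2 := by exact_mod_cast h5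
      exact h6.symm
  · constructor
    · rintro ⟨e', h, he2⟩
      intro g n
      exact ⟨hF1 e' h g n, hAuniq e' h he2⟩
    · intro h
      refine hBtoA (hinvconj fun g n => (h g n).1) (h 1 1).2

end Cfsg.Agent.S0900
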