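import Cfsg.Statements.S0901
import Cfsg.Agent.Lib.Block.Local
import Mathlib

set_option autoImplicit false
open Cfsg

namespace Cfsg.Agent.S0901

/-- Let M be a maximal ideal of the ring of algebraic integers containing the prime p, and let U be the set of complex roots of unity of order prime to p. Then reduction modulo M is injective on U, and every algebraic integer not in M is congruent modulo M to an element of U (so U maps bijectively onto the nonzero residues). -/
theorem result (p : ℕ) [Fact p.Prime] (M : Ideal Cfsg.AlgInt) (hM : Cfsg.IsPModular p M) : (∀ ε₁ ε₂ : Cfsg.AlgInt, (∃ m : ℕ, ¬ p ∣ m ∧ (ε₁ : ℂ) ^ m = 1) → (∃ m : ℕ, ¬ p ∣ m ∧ (ε₂ : ℂ) ^ m = 1) → ε₁ - ε₂ ∈ M → ε₁ = ε₂) ∧ (∀ a : Cfsg.AlgInt, a ∉ M → ∃ ε : Cfsg.AlgInt, (∃ m : ℕ, ¬ p ∣ m ∧ (ε : ℂ) ^ m = 1) ∧ a - ε ∈ M) := by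
  classical
  have hMp := Cfsg.Agent.Lib.Block.isPModular_isPrime hM
  have hp := Cfsg.Agent.Lib.Block.isPModular_prime hM
  constructor
  · rintro ε₁ ε₂ ⟨m₁, hm₁, h₁⟩ ⟨m₂, hm₂, h₂⟩ hsub
    have h₁' : ε₁ ^ (m₁ * m₂) = 1 := by
      apply Subtype.ext
      push_cast
      rw [pow_mul, h₁, one_pow]
    have h₂' : ε₂ ^ (m₁ * m₂) = 1 := by
      apply Subtype.ext
      push_cast
      rw [mul_comm, pow_mul, h₂, one_pow]
    have hm : ¬ p ∣ m₁ * m₂ := fun h => (hp.dvd_mul.1 h).elim hm₁ hm₂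
    have hm0 : 0 < m₁ * m₂ := Nat.pos_of_ne_zero (fun h => hm (by rw [h]; exact dvd_zero p))
    set m := m₁ * m₂ with hmdef
    set ζ : Cfsg.AlgInt := ε₁ * ε₂ ^ (m - 1) with hζ
    have hε₂ : ε₂ * ε₂ ^ (m - 1) = 1 := by
      rw [← pow_succ', Nat.sub_add_cancel hm0, h₂']
    have hζm : ζ ^ m = 1 := by
      rw [hζ, mul_pow, h₁', one_mul, ← pow_mul, mul_comm, pow_mul, h₂', one_pow]
    have hζ1 : ζ - 1 ∈ M := by
      have : ζ - 1 = (ε₁ - ε₂) * ε₂ ^ (m - 1) := by
        rw [hζ, sub_mul, hε₂]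
      rw [this]
      exact M.mul_mem_right _ hsub
    by_contra hne
    have hζne : ζ ≠ 1 := by
      intro h
      apply hne
      have : ε₁ = ε₁ * (ε₂ * ε₂ ^ (m - 1)) := by rw [hε₂, mul_one]
      calc ε₁ = ε₁ * (ε₂ * ε₂ ^ (m - 1)) := this
        _ = ζ * ε₂ := by rw [hζ]; ring
        _ = ε₂ := by rw [h, one_mul]
    have hsum : ∑ j ∈ Finset.range m, ζ ^ j = 0 := by
      have h1 := geom_sum_mul ζ m
      rw [hζm, sub_self] at h1
      exact (mul_eq_zero.1 h1).resolve_right (sub_ne_zero.2 hζne)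
    have hmem : ((m : ℕ) : Cfsg.AlgInt) ∈ M := by
      rw [← Ideal.Quotient.eq_zero_iff_mem]
      have h1 : Ideal.Quotient.mk M ζ = 1 := by
        rw [← map_one (Ideal.Quotient.mk M)]
        exact Ideal.Quotient.eq.2 hζ1
      have h2 := congrArg (Ideal.Quotient.mk M) hsum
      rw [map_sum, map_zero] at h2
      simp only [map_pow, h1, one_pow, Finset.sum_const, Finset.card_range, nsmul_eq_mul, mul_one] at h2
      simpa using h2
    exact hm ((Cfsg.Agent.Lib.Block.isPModular_natCast_mem_iff hM m).1 hmem)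
  · intro a ha
    haveI : M.IsMaximal := hM.2.1
    letI : Field (Cfsg.AlgInt ⧸ M) := Ideal.Quotient.field M
    haveI : Fact p.Prime := ⟨hp⟩
    have hpF : ((p : ℕ) : Cfsg.AlgInt ⧸ M) = 0 := by
      have := Ideal.Quotient.eq_zero_iff_mem.2 hM.2.2
      simpa using this
    haveI : CharP (Cfsg.AlgInt ⧸ M) p := (CharP.charP_iff_prime_eq_zero hp).2 hpF
    letI : Algebra (ZMod p) (Cfsg.AlgInt ⧸ M) := ZMod.algebra _ p
    set x : Cfsg.AlgInt ⧸ M := Ideal.Quotient.mk M a with hx
    have hx0 : x ≠ 0 := fun h => ha (Ideal.Quotient.eq_zero_iff_mem.1 h)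
    have hint : IsIntegral (ZMod p) x := by
      have h1 : IsIntegral ℤ a := by
        have h2 : IsIntegral ℤ (a : ℂ) := a.2
        exact (isIntegral_algHom_iff (Cfsg.AlgInt.val) Subtype.val_injective).1 h2
      exact h1.map_of_comp_eq (Int.castRingHom (ZMod p)) (Ideal.Quotient.mk M) (RingHom.ext_int _ _)
    haveI : FiniteDimensional (ZMod p) (IntermediateField.adjoin (ZMod p) {x}) :=
      IntermediateField.adjoin.finiteDimensional hint
    haveI : Finite (IntermediateField.adjoin (ZMod p) {x}) := Module.finite_of_finite (ZMod p)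
    haveI : Fintype (IntermediateField.adjoin (ZMod p) {x}) := Fintype.ofFinite _
    obtain ⟨n, -, hq⟩ := FiniteField.card (IntermediateField.adjoin (ZMod p) {x}) p
    set y : IntermediateField.adjoin (ZMod p) {x} := ⟨x, IntermediateField.mem_adjoin_simple_self _ _⟩ with hy
    have hy0 : y ≠ 0 := fun h => hx0 (congrArg Subtype.val h)
    have hy1 := FiniteField.pow_card_sub_one_eq_one y hy0
    set m := Fintype.card (IntermediateField.adjoin (ZMod p) {x}) - 1 with hm
    have hx1 : x ^ m = 1 := congrArg Subtype.val hy1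
    have hqpos : 0 < p ^ (n : ℕ) := pow_pos hp.pos _
    have hnm : ¬ p ∣ m := by
      intro hd
      have h1 : p ∣ p ^ (n : ℕ) := dvd_pow_self p n.pos.ne'
      have h2 : p ^ (n : ℕ) = m + 1 := by
        rw [hm, hq, Nat.sub_add_cancel hqpos]
      rw [h2] at h1
      have h3 := (Nat.dvd_add_right hd).1 h1
      exact hp.one_lt.ne' (Nat.dvd_one.1 h3)
    have hmpos : 0 < m := Nat.pos_of_ne_zero (fun h => hnm (by rw [h]; exact dvd_zero p))
    have hmem : a ^ m - 1 ∈ M := by
      rw [← Ideal.Quotient.eq_zero_iff_mem, map_sub, map_pow, map_one, ← hx, hx1, sub_self]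
    have hprim := Complex.isPrimitiveRoot_exp m hmpos.ne'
    set ζ : ℂ := Complex.exp (2 * Real.pi * Complex.I / m) with hζ
    have hζint : IsIntegral ℤ ζ := hprim.isIntegral hmpos
    let ζ' : Cfsg.AlgInt := ⟨ζ, hζint⟩
    have hinj : Function.Injective (Cfsg.AlgInt.val.toRingHom) := Subtype.val_injective
    have hprim' : IsPrimitiveRoot ζ' m := IsPrimitiveRoot.of_map_of_injective hprim (hf := hinj) 
    have hfac := Polynomial.X_pow_sub_one_eq_prod hmpos hprim'
    have hev := congrArg (Polynomial.eval a) hfac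
    simp only [Polynomial.eval_sub, Polynomial.eval_pow, Polynomial.eval_X, Polynomial.eval_one,
      Polynomial.eval_prod, Polynomial.eval_C] at hev
    rw [hev] at hmem
    obtain ⟨ξ, hξ, hξM⟩ := (hMp.prod_mem_iff).1 hmem
    refine ⟨ξ, ⟨m, hnm, ?_⟩, hξM⟩
    have h1 := (Polynomial.mem_nthRootsFinset hmpos 1).1 hξ
    have h2 := congrArg Subtype.val h1
    simpa using h2

end Cfsg.Agent.S0901
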