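import Cfsg.Statements.S0903
import Mathlib

set_option autoImplicit false
open Cfsg

namespace Cfsg.Agent.S0903

/-- Let P be a p-subgroup of the finite group G, let c centralize P and let g, h ∈ G. The number of pairs (x, y) with x conjugate to g, y conjugate to h and x * y = c is congruent modulo p to the number of such pairs in which x and y both centralize P. (This is why the Brauer map on class sums is multiplicative.) -/
theorem result {G : Type*} [Group G] [Finite G] (p : ℕ) [Fact p.Prime] (P : Subgroup G) (hP : IsPGroup p P) (c : G) (hc : c ∈ Subgroup.centralizer (P : Set G)) (g h : G) : Nat.card {xy : G × G // IsConj g xy.1 ∧ IsConj h xy.2 ∧ xy.1 * xy.2 = c} ≡ Nat.card {xy : G × G // IsConj g xy.1 ∧ IsConj h xy.2 ∧ xy.1 * xy.2 = c ∧ xy.1 ∈ Subgroup.centralizer (P : Set G) ∧ xy.2 ∈ Subgroup.centralizer (P : Set G)} [MOD p] := by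
  classical
  have hcc : ∀ u : P, (u : G) * c * (u : G)⁻¹ = c := by
    intro u
    have := (Subgroup.mem_centralizer_iff.mp hc) u u.2
    rw [this, mul_inv_cancel_right]
  -- The action of `P` by simultaneous conjugation.
  let X := {xy : G × G // IsConj g xy.1 ∧ IsConj h xy.2 ∧ xy.1 * xy.2 = c}
  let act : MulAction P X :=
    { smul := fun u xy => ⟨((u : G) * xy.1.1 * (u : G)⁻¹, (u : G) * xy.1.2 * (u : G)⁻¹), by
        refine ⟨xy.2.1.trans (isConj_iff.mpr ⟨u, rfl⟩), xy.2.2.1.trans (isConj_iff.mpr ⟨u, rfl⟩), ?_⟩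
        have := xy.2.2.2
        calc (u : G) * xy.1.1 * (u : G)⁻¹ * ((u : G) * xy.1.2 * (u : G)⁻¹)
            = (u : G) * (xy.1.1 * xy.1.2) * (u : G)⁻¹ := by group
          _ = c := by rw [this, hcc]⟩
      one_smul := fun xy => by
        apply Subtype.ext
        apply Prod.ext
        · show ((1 : P) : G) * xy.1.1 * ((1 : P) : G)⁻¹ = xy.1.1
          simp
        · show ((1 : P) : G) * xy.1.2 * ((1 : P) : G)⁻¹ = xy.1.2
          simp
      mul_smul := fun u v xy => by
        apply Subtype.ext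
        apply Prod.ext
        · show ((u * v : P) : G) * xy.1.1 * ((u * v : P) : G)⁻¹
            = (u : G) * ((v : G) * xy.1.1 * (v : G)⁻¹) * (u : G)⁻¹
          push_cast
          group
        · show ((u * v : P) : G) * xy.1.2 * ((u * v : P) : G)⁻¹
            = (u : G) * ((v : G) * xy.1.2 * (v : G)⁻¹) * (u : G)⁻¹
          push_cast
          group }
  have key := hP.card_modEq_card_fixedPoints X
  have hbij : Nat.card (MulAction.fixedPoints P X) = Nat.card {xy : G × G // IsConj g xy.1 ∧ IsConj h xy.2 ∧ xy.1 * xy.2 = c ∧ xy.1 ∈ Subgroup.centralizer (P : Set G) ∧ xy.2 ∈ Subgroup.centralizer (P : Set G)} := by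
    apply Nat.card_congr
    refine ⟨fun a => ⟨a.1.1, a.1.2.1, a.1.2.2.1, a.1.2.2.2, ?_, ?_⟩,
      fun a => ⟨⟨a.1, a.2.1, a.2.2.1, a.2.2.2.1⟩, ?_⟩, fun _ => rfl, fun _ => rfl⟩
    · rw [Subgroup.mem_centralizer_iff]
      intro u hu
      have := a.2 ⟨u, hu⟩
      have h1 := congrArg (fun z : X => z.1.1) this
      have h2 : (u : G) * a.1.1.1 * (u : G)⁻¹ = a.1.1.1 := h1
      rw [mul_inv_eq_iff_eq_mul] at h2
      exact h2
    · rw [Subgroup.mem_centralizer_iff]
      intro u hu
      have := a.2 ⟨u, hu⟩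
      have h1 := congrArg (fun z : X => z.1.2) this
      have h2 : (u : G) * a.1.1.2 * (u : G)⁻¹ = a.1.1.2 := h1
      rw [mul_inv_eq_iff_eq_mul] at h2
      exact h2
    · intro u
      apply Subtype.ext
      apply Prod.ext
      · show (u : G) * a.1.1 * (u : G)⁻¹ = a.1.1
        rw [(Subgroup.mem_centralizer_iff.mp a.2.2.2.2.1) u u.2, mul_inv_cancel_right]
      · show (u : G) * a.1.2 * (u : G)⁻¹ = a.1.2
        rw [(Subgroup.mem_centralizer_iff.mp a.2.2.2.2.2) u u.2, mul_inv_cancel_right]
  rw [← hbij]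
  exact key

end Cfsg.Agent.S0903
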