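import Cfsg.Statements.S0910
import Cfsg.Agent.Lib.Block.SubAlg
import Cfsg.Agent.Lib.Char.Burnside
import Mathlib

set_option autoImplicit false
open Cfsg

namespace Cfsg.Agent.S0910

open Cfsg.Agent.Lib.Block Cfsg.Agent.Lib.Char in
/-- A representation of a simple nonabelian group in which a nontrivial element acts by a scalar
has trivial character. -/
theorem scalar_aux {G : Type*} [Group G] [Finite G] [IsSimpleGroup G] (hna : ∃ a b : G, a * b ≠ b * a)
    {n : ℕ} (ρ : Representation ℂ G (Fin n → ℂ)) (hρ : ρ.IsIrreducible) {g : G} (hg : g ≠ 1) {ω : ℂ}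
    (hω : ρ g = ω • (LinearMap.id : (Fin n → ℂ) →ₗ[ℂ] (Fin n → ℂ))) : ρ.character = fun _ => 1 := by
  have hnormal : (MonoidHom.ker ρ).Normal := MonoidHom.normal_ker ρ
  rcases IsSimpleGroup.eq_bot_or_eq_top_of_normal _ hnormal with h | h
  · exfalso
    have hinj : Function.Injective ρ := (MonoidHom.ker_eq_bot_iff ρ).mp h
    have hcen : g ∈ Subgroup.center G := by
      rw [Subgroup.mem_center_iff]
      intro x
      apply hinj
      rw [map_mul, map_mul, hω]
      ext v i
      simp
    have hZ := IsSimpleGroup.eq_bot_or_eq_top_of_normal (Subgroup.center G) inferInstance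
    rcases hZ with hZ | hZ
    · rw [hZ, Subgroup.mem_bot] at hcen
      exact hg hcen
    · obtain ⟨a, b, hab⟩ := hna
      have : b ∈ Subgroup.center G := by rw [hZ]; trivial
      exact hab (Subgroup.mem_center_iff.mp this a)
  · apply irr_trivial_of_ker_top ρ hρ
    intro x
    have : x ∈ MonoidHom.ker ρ := by rw [h]; trivial
    exact this

/-- Let G be a non-abelian finite simple group and p a prime. If an irreducible character χ lies in the principal block (relative to a maximal ideal of the algebraic integers containing p) and χ 1 is a power of p, then χ is the principal character. -/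
theorem result {G : Type*} [Group G] [Finite G] (p : ℕ) [Fact p.Prime] (M : Ideal Cfsg.AlgInt) (hM : Cfsg.IsPModular p M) [IsSimpleGroup G] (hna : ∃ a b : G, a * b ≠ b * a) (χ : Cfsg.IrrCharacter G) (hχ : χ ∈ Cfsg.principalBlock M G) (k : ℕ) (hdeg : (χ : G → ℂ) 1 = (p : ℂ) ^ k) : (χ : G → ℂ) = fun _ => 1 := by
  classical
  open Cfsg.Agent.Lib.Block Cfsg.Agent.Lib.Char in
  obtain ⟨n, ρ, hρ, hχρ⟩ := χ.2
  have hchar : (χ : G → ℂ) = ρ.character := hχρ.symm
  have hχ' : Cfsg.SameBlock M (fun _ => (1 : ℂ)) ρ.character := by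
    rw [← hchar]
    exact hχ
  rw [hchar] at hdeg ⊢
  have hfin : (Module.finrank ℂ (Fin n → ℂ) : ℂ) = ((p ^ k : ℕ) : ℂ) := by
    rw [← Representation.char_one ρ, hdeg]
    push_cast
    rfl
  have hfin' : Module.finrank ℂ (Fin n → ℂ) = p ^ k := by exact_mod_cast hfin
  rcases Nat.eq_zero_or_pos k with hk | hk
  · -- degree one
    obtain ⟨g, hg⟩ := exists_ne (1 : G)
    have h1 : Module.finrank ℂ (Fin n → ℂ) = 1 := by rw [hfin', hk, pow_zero]
    have h2 := Cfsg.Agent.Lib.Char.end_eq_trace_smul_of_finrank_one h1 (ρ g)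
    exact scalar_aux hna ρ hρ hg (ω := ρ.character g) h2
  · -- a central element of a Sylow subgroup
    have hpG : p ∣ Nat.card G := by
      have h1 : p ^ k ∣ Nat.card G := by
        rw [← hfin']
        exact Cfsg.Agent.Lib.Char.finrank_dvd_card ρ hρ
      exact (dvd_pow_self p hk.ne').trans h1
    obtain ⟨P⟩ : Nonempty (Sylow p G) := inferInstance
    have hPnt : Nontrivial (P : Subgroup G) := by
      have h1 := P.card_eq_multiplicity
      rw [← Finite.one_lt_card_iff_nontrivial, h1]
      have h2 : 0 < (Nat.card G).factorization p :=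
        (Fact.out : p.Prime).factorization_pos_of_dvd Nat.card_pos.ne' hpG
      exact Nat.one_lt_pow h2.ne' (Fact.out : p.Prime).one_lt
    have hcen := P.isPGroup'.center_nontrivial
    obtain ⟨z, hz⟩ := exists_ne (1 : Subgroup.center (P : Subgroup G))
    set g : G := ((z : (P : Subgroup G)) : G) with hg
    have hg1 : g ≠ 1 := by
      intro h
      apply hz
      apply Subtype.ext
      apply Subtype.ext
      exact h
    have hPC : (P : Subgroup G) ≤ Subgroup.centralizer ({g} : Set G) := by
      intro u hu
      rw [Subgroup.mem_centralizer_singleton_iff]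
      have := Subgroup.mem_center_iff.mp z.2 ⟨u, hu⟩
      exact congrArg Subtype.val this
    have hidx : ¬ p ∣ (Subgroup.centralizer ({g} : Set G)).index := fun hd =>
      P.not_dvd_index (hd.trans (Subgroup.index_dvd_of_le hPC))
    have hcop : Nat.Coprime (Module.finrank ℂ (Fin n → ℂ)) (Subgroup.centralizer ({g} : Set G)).index := by
      rw [hfin']
      exact Nat.Coprime.pow_left _ ((Nat.Prime.coprime_iff_not_dvd Fact.out).mpr hidx)
    rcases Cfsg.Agent.Lib.Char.character_eq_zero_or_norm_of_coprime ρ hρ g hcop with h0 | h0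
    · -- contradiction with the congruence
      exfalso
      have h1 := hχ' g
      have hone := Cfsg.Agent.Lib.Block.isPModular_isPrime hM
      unfold Cfsg.centralChar at h1
      rw [h0] at h1
      simp only [mul_one, div_one, mul_zero, zero_div, sub_zero] at h1
      exact Cfsg.Agent.Lib.Block.not_memLocalIdeal_natCast hM hidx h1
    · obtain ⟨ω, hω⟩ := (Cfsg.Agent.Lib.Char.norm_character_eq_iff ρ g (isOfFinOrder_of_finite g)).mp h0
      exact scalar_aux hna ρ hρ hg1 hω

end Cfsg.Agent.S0910
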