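import Cfsg.Statements.S0904
import Mathlib
import Cfsg.Agent.S0907
import Cfsg.Agent.S0910
import Cfsg.Agent.Lib.SmallSimple.QCommon
import Cfsg.Agent.Lib.SmallSimple.BlockApply
import Cfsg.Agent.Lib.Char.Integral

set_option autoImplicit false
open Cfsg

namespace Cfsg.Agent.S0904


open Subgroup Cfsg.Agent.Lib.Block in
/-- In a simple nonabelian group of order `p ^ a * q ^ b * r`, no element has order divisible by both `p` and `r`. -/
theorem no_mixed {G : Type*} [Group G] [Finite G] [IsSimpleGroup G] (hna : ∃ a b : G, a * b ≠ b * a)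
    {p q r a b : ℕ} (hp : p.Prime) (hq : q.Prime) (hr : r.Prime) (hpq : p ≠ q) (hpr : p ≠ r) (hqr : q ≠ r)
    (hcard : Nat.card G = p ^ a * q ^ b * r) (g : G) (h1 : p ∣ orderOf g) (h2 : r ∣ orderOf g) : False := by
  classical
  haveI : Fintype G := Fintype.ofFinite G
  haveI : Fact p.Prime := ⟨hp⟩
  obtain ⟨M, hM⟩ := Cfsg.Agent.Lib.Char.exists_isPModular p hp
  have key := Cfsg.Agent.S0907.result p M hM (principalBlock M G) ⟨oneIrr G, rfl⟩ 1 g
    (by simpa using hp.one_lt.ne') h1
  rw [finsum_mem_irr] at key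
  haveI hMp := isPModular_isPrime hM
  set T : IrrCharacter G → ℂ := fun χ => if χ ∈ principalBlock M G then (χ : G → ℂ) 1 * (starRingEnd ℂ) ((χ : G → ℂ) g) else 0 with hT
  have hT1 : T (oneIrr G) = 1 := by
    have hmem : oneIrr G ∈ principalBlock M G := mem_blockOf_self (oneIrr G)
    simp [hT, hmem, oneIrr_coe]
  have hdiv : ∀ χ : IrrCharacter G, χ ≠ oneIrr G → ∃ c : ℂ, IsIntegral ℤ c ∧ T χ = (q : ℂ) * c := by
    intro χ hχ
    by_cases hmem : χ ∈ principalBlock M G
    · obtain ⟨d, hd, hd0, hdd⟩ := Cfsg.Agent.Lib.Char.IsIrrCharacter_degree_dvd χ.2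
      have hTχ : T χ = (d : ℂ) * (starRingEnd ℂ) ((χ : G → ℂ) g) := by
        simp only [hT, if_pos hmem, hd]
      by_cases hrd : r ∣ d
      · have hvan : (χ : G → ℂ) g = 0 := by
          refine Lib.SmallSimple.QC.vanish_of_dvd χ hd hr (b := 1) (m := p ^ a * q ^ b) ?_ ?_ ?_ h2
          · rw [hcard]; ring
          · intro h
            rcases (Nat.Prime.dvd_mul hr).mp h with h3 | h3
            · exact hpr ((Nat.prime_dvd_prime_iff_eq hr hp).mp (hr.dvd_of_dvd_pow h3)).symm
            · exact hqr ((Nat.prime_dvd_prime_iff_eq hr hq).mp (hr.dvd_of_dvd_pow h3)).symm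
          · simpa using hrd
        exact ⟨0, isIntegral_zero, by rw [hTχ, hvan]; simp⟩
      · by_cases hqd : q ∣ d
        · obtain ⟨e, he⟩ := hqd
          refine ⟨(e : ℂ) * (starRingEnd ℂ) ((χ : G → ℂ) g), ?_, ?_⟩
          · refine IsIntegral.mul (isIntegral_natCast _) ?_
            have h3 : (starRingEnd ℂ) ((χ : G → ℂ) g) = (χ : G → ℂ) g⁻¹ := by
              obtain ⟨n, ρ, hρ, hχρ⟩ := χ.2
              rw [← hχρ]
              exact (Cfsg.Agent.Lib.Char.character_inv ρ g (isOfFinOrder_of_finite _)).symm ▸ rfl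
            rw [h3]
            exact Cfsg.Agent.Lib.Char.IsCharacter.isIntegral' (Cfsg.Agent.Lib.Char.IsIrrCharacter.isCharacter χ.2) _
          · rw [hTχ, he]
            push_cast
            ring
        · exfalso
          -- the degree is a power of `p`
          apply hχ
          have h3 : d ∣ p ^ a := by
            rw [hcard] at hdd
            have hc1 : Nat.Coprime d r := by
              apply Nat.Coprime.symm
              exact (Nat.Prime.coprime_iff_not_dvd hr).mpr hrd
            have hc2 : Nat.Coprime d (q ^ b) := by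
              apply Nat.Coprime.pow_right
              apply Nat.Coprime.symm
              exact (Nat.Prime.coprime_iff_not_dvd hq).mpr hqd
            exact hc2.dvd_of_dvd_mul_right (hc1.dvd_of_dvd_mul_right hdd)
          obtain ⟨k, _, hk⟩ := (Nat.dvd_prime_pow hp).mp h3
          have h5 : (χ : G → ℂ) 1 = (p : ℂ) ^ k := by
            rw [hd, hk]
            push_cast
            rfl
          have h6 := Cfsg.Agent.S0910.result p M hM hna χ hmem k h5
          exact Subtype.ext h6
    · exact ⟨0, isIntegral_zero, by simp [hT, if_neg hmem]⟩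
  choose! c hc1 hc2 using hdiv
  have hsum : ∑ χ : IrrCharacter G, T χ = 0 := key
  rw [← Finset.add_sum_erase Finset.univ T (Finset.mem_univ (oneIrr G)), hT1] at hsum
  have hsum2 : ∑ χ ∈ Finset.univ.erase (oneIrr G), T χ = (q : ℂ) * ∑ χ ∈ Finset.univ.erase (oneIrr G), c χ := by
    rw [Finset.mul_sum]
    refine Finset.sum_congr rfl fun χ hχ => hc2 χ (Finset.ne_of_mem_erase hχ)
  rw [hsum2] at hsum
  have hint : IsIntegral ℤ (∑ χ ∈ Finset.univ.erase (oneIrr G), c χ) :=
    IsIntegral.sum _ fun χ hχ => hc1 χ (Finset.ne_of_mem_erase hχ)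
  have hq0 : (q : ℂ) ≠ 0 := by exact_mod_cast hq.ne_zero
  have heq : ∑ χ ∈ Finset.univ.erase (oneIrr G), c χ = (((-1 : ℚ) / (q : ℚ) : ℚ) : ℂ) := by
    push_cast
    field_simp
    linear_combination hsum
  rw [heq, Cfsg.Agent.Lib.Char.isIntegral_ratCast_iff] at hint
  obtain ⟨n, hn⟩ := hint
  have hq0' : (q : ℚ) ≠ 0 := by exact_mod_cast hq.ne_zero
  have h7 : (-1 : ℚ) = (n : ℚ) * (q : ℚ) := by
    rw [← hn]
    field_simp
  have h8 : (-1 : ℤ) = n * (q : ℤ) := by exact_mod_cast h7
  have h9 : (q : ℤ) ∣ 1 := ⟨-n, by linarith⟩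
  have h10 : q ∣ 1 := by exact_mod_cast h9
  exact hq.one_lt.ne' (Nat.dvd_one.mp h10)

/-- Let G be a finite simple group of order p ^ a * q ^ b * r with p, q, r distinct primes. Then every Sylow r-subgroup S of G satisfies C_G(S) = S. -/
theorem result {G : Type*} [Group G] [Finite G] [IsSimpleGroup G] (p q r a b : ℕ) (hp : p.Prime) (hq : q.Prime) [Fact r.Prime] (hpq : p ≠ q) (hpr : p ≠ r) (hqr : q ≠ r) (hcard : Nat.card G = p ^ a * q ^ b * r) (S : Sylow r G) : Subgroup.centralizer (S : Set G) = (S : Subgroup G) := by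
  classical
  haveI hfr : Fact r.Prime := ‹_›
  have hr := hfr.out
  haveI : Fintype G := Fintype.ofFinite G
  -- the order of the Sylow subgroup
  have hnr : ¬ r ∣ p ^ a * q ^ b := by
    intro h
    rcases (Nat.Prime.dvd_mul hr).mp h with h3 | h3
    · exact hpr ((Nat.prime_dvd_prime_iff_eq hr hp).mp (hr.dvd_of_dvd_pow h3)).symm
    · exact hqr ((Nat.prime_dvd_prime_iff_eq hr hq).mp (hr.dvd_of_dvd_pow h3)).symm
  have hS : Nat.card (S : Subgroup G) = r := by
    obtain ⟨k, hk⟩ := (IsPGroup.iff_card.mp S.isPGroup')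
    have h1 := (S : Subgroup G).card_mul_index
    have h2 : ¬ r ∣ (S : Subgroup G).index := S.not_dvd_index
    rw [hk, hcard] at h1
    rcases k with _ | k
    · exfalso
      apply h2
      have h3 : (S : Subgroup G).index = p ^ a * q ^ b * r := by simpa using h1
      rw [h3]
      exact Dvd.intro_left _ rfl
    · rcases k with _ | k
      · simpa using hk
      · exfalso
        apply hnr
        have h3 : r * r ∣ p ^ a * q ^ b * r := by
          exact ⟨r ^ k * (S : Subgroup G).index, by rw [← h1]; ring⟩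
        exact Nat.dvd_of_mul_dvd_mul_right hr.pos h3
  obtain ⟨z, hz, hzS⟩ := Lib.SmallSimple.BA.exists_gen S hS
  have hle : (S : Subgroup G) ≤ Subgroup.centralizer (S : Set G) := by
    intro x hx
    rw [Subgroup.mem_centralizer_iff]
    intro y hy
    rw [← hzS] at hx
    have hy' : y ∈ Subgroup.zpowers z := by rw [hzS]; exact hy
    obtain ⟨i, rfl⟩ := Subgroup.mem_zpowers_iff.mp hx
    obtain ⟨j, rfl⟩ := Subgroup.mem_zpowers_iff.mp hy'
    exact (Commute.refl z).zpow_zpow _ _
  by_cases hna : ∃ a b : G, a * b ≠ b * a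
  · apply le_antisymm _ hle
    intro x hx
    by_contra hxS
    -- the centralizer contains a nontrivial `r`-regular element
    have hzx : Commute z x := by
      have h1 : z ∈ (S : Set G) := by
        change z ∈ (S : Subgroup G)
        rw [← hzS]
        exact Subgroup.mem_zpowers z
      exact Subgroup.mem_centralizer_iff.mp hx z h1
    have hCcard : ∃ m, Nat.card (Subgroup.centralizer (S : Set G)) = r * m := by
      have h1 := Subgroup.card_dvd_of_le hle
      rw [hS] at h1
      exact h1
    obtain ⟨m, hm⟩ := hCcard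
    have hm1 : m ≠ 1 := by
      rintro rfl
      apply hxS
      have h1 : (S : Subgroup G) = Subgroup.centralizer (S : Set G) := by
        apply Subgroup.eq_of_le_of_card_ge hle
        rw [hm, hS, mul_one]
      rw [h1]
      exact hx
    obtain ⟨l, hl, hlm⟩ := Nat.exists_prime_and_dvd hm1
    have hlC : l ∣ Nat.card (Subgroup.centralizer (S : Set G)) := by
      rw [hm]
      exact Dvd.dvd.mul_left hlm _
    obtain ⟨y, hy⟩ := @exists_prime_orderOf_dvd_card' _ _ _ l ⟨hl⟩ hlC
    have hlG : l ∣ p ^ a * q ^ b * r := by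
      rw [← hcard]
      exact dvd_trans hlC (Subgroup.card_subgroup_dvd_card _)
    have hlr : l ≠ r := by
      rintro rfl
      have h3 : l * l ∣ l * (p ^ a * q ^ b) := by
        rw [mul_comm l (p ^ a * q ^ b), ← hcard]
        have h4 : l * l ∣ Nat.card (Subgroup.centralizer (S : Set G)) := by
          rw [hm]
          exact mul_dvd_mul_left l hlm
        exact dvd_trans h4 (Subgroup.card_subgroup_dvd_card _)
      exact hnr (Nat.dvd_of_mul_dvd_mul_left hl.pos h3)
    have hzy : Commute z (y : G) := by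
      have h1 : z ∈ (S : Set G) := by
        change z ∈ (S : Subgroup G)
        rw [← hzS]
        exact Subgroup.mem_zpowers z
      exact Subgroup.mem_centralizer_iff.mp y.2 z h1
    have hyo : orderOf (y : G) = l := by
      rw [Subgroup.orderOf_coe]
      exact hy
    have hcop : Nat.Coprime (orderOf z) (orderOf (y : G)) := by
      rw [hz, hyo]
      exact (Nat.coprime_primes hr hl).mpr hlr.symm
    have hord : orderOf (z * (y : G)) = r * l := by
      rw [hzy.orderOf_mul_eq_mul_orderOf_of_coprime hcop, hz, hyo]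
    have hrg : r ∣ orderOf (z * (y : G)) := by rw [hord]; exact Dvd.intro _ rfl
    have hlg : l ∣ orderOf (z * (y : G)) := by rw [hord]; exact Dvd.intro_left _ rfl
    have hlpq : l = p ∨ l = q := by
      rcases (Nat.Prime.dvd_mul hl).mp hlG with h3 | h3
      · rcases (Nat.Prime.dvd_mul hl).mp h3 with h4 | h4
        · exact Or.inl ((Nat.prime_dvd_prime_iff_eq hl hp).mp (hl.dvd_of_dvd_pow h4))
        · exact Or.inr ((Nat.prime_dvd_prime_iff_eq hl hq).mp (hl.dvd_of_dvd_pow h4))
      · exact absurd ((Nat.prime_dvd_prime_iff_eq hl hr).mp h3) hlr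
    rcases hlpq with rfl | rfl
    · exact no_mixed hna hp hq hr hpq hpr hqr hcard _ hlg hrg
    · refine no_mixed hna hq hp hr hpq.symm hqr hpr (a := b) (b := a) ?_ _ hlg hrg
      rw [hcard]
      ring
  · -- the abelian case
    push Not at hna
    haveI hcomm : IsMulCommutative G := ⟨⟨fun a b => hna a b⟩⟩
    letI inst2 : CommGroup G := { (inferInstance : Group G) with mul_comm := fun a b => hna a b }
    have hprime : (Nat.card G).Prime := @IsSimpleGroup.prime_card G inst2 ‹_›
    have hdvd : r ∣ Nat.card G := by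
      rw [← hS]
      exact Subgroup.card_subgroup_dvd_card _
    have heq : r = Nat.card G := (Nat.prime_dvd_prime_iff_eq hr hprime).mp hdvd
    have htop : (S : Subgroup G) = ⊤ := by
      apply Subgroup.eq_top_of_card_eq
      rw [hS, heq]
    rw [htop]
    ext x
    simp [Subgroup.mem_centralizer_iff, hna]

end Cfsg.Agent.S0904
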