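import Cfsg.Statements.S0905
import Cfsg.Agent.Lib.Block.NilCentral
import Cfsg.Agent.Lib.Core.Basic
import Mathlib

set_option autoImplicit false
open Cfsg

namespace Cfsg.Agent.S0905

/-- Let F be a field of characteristic p and let g be an element of the finite group G no conjugate of which centralizes O_p(G). Then the class sum of g is a nilpotent element of the group algebra F[G]. -/
theorem result {G : Type*} [Group G] [Finite G] (p : ℕ) [Fact p.Prime] (F : Type*) [Field F] [CharP F p] (g : G) (hg : ∀ x : G, IsConj g x → x ∉ Subgroup.centralizer (Cfsg.pCore p G : Set G)) : IsNilpotent (∑ᶠ x ∈ ConjClasses.carrier (ConjClasses.mk g), MonoidAlgebra.single x (1 : F) : MonoidAlgebra F G) := by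
  classical
  have := Fintype.ofFinite G
  have hQn := Cfsg.Agent.Lib.Core.pCore_normal p G
  have hQ := Cfsg.Agent.Lib.Core.pCore_isPGroup p G
  have h1 := Cfsg.Agent.Lib.Block.isNilpotent_classSumMod (Cfsg.pCore p G) hQ hg
  have h2 := h1.map (MonoidAlgebra.mapRingHom G (ZMod.castHom (dvd_refl p) F))
  convert h2 using 1
  rw [finsum_mem_def, finsum_eq_sum_of_fintype, Cfsg.Agent.Lib.Block.classSumMod,
    Cfsg.Agent.Lib.Block.ofFun, map_sum]
  refine Finset.sum_congr rfl fun u _ => ?_
  rw [MonoidAlgebra.mapRingHom_single]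
  by_cases hu : IsConj g u
  · rw [if_pos hu, Set.indicator_of_mem, map_one]
    rw [ConjClasses.mem_carrier_iff_mk_eq, ConjClasses.mk_eq_mk_iff_isConj]
    exact hu.symm
  · rw [if_neg hu, Set.indicator_of_notMem, map_zero, MonoidAlgebra.single_zero]
    rw [ConjClasses.mem_carrier_iff_mk_eq, ConjClasses.mk_eq_mk_iff_isConj]
    exact fun h => hu h.symm

end Cfsg.Agent.S0905
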