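import Cfsg.Statements.S0912
import Cfsg.Agent.Lib.Block.NilCentral
import Cfsg.Agent.Lib.Core.Basic
import Mathlib

set_option autoImplicit false
open Cfsg

namespace Cfsg.Agent.S0912

/-- Let B be a block of the finite group G relative to a maximal ideal M of the algebraic integers containing the prime p. Every defect group of B contains the largest normal p-subgroup O_p(G). -/
theorem result {G : Type*} [Group G] [Finite G] (p : ℕ) [Fact p.Prime] (M : Ideal Cfsg.AlgInt) (hM : Cfsg.IsPModular p M) (B : Set (Cfsg.IrrCharacter G)) (hB : Cfsg.IsPBlock M B) (D : Subgroup G) (hD : Cfsg.IsDefectGroup p M B D) : Cfsg.pCore p G ≤ D := by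
  classical
  have := Fintype.ofFinite G
  have := Cfsg.Agent.Lib.Block.isPModular_isPrime hM
  have hQn := Cfsg.Agent.Lib.Core.pCore_normal p G
  have hQ := Cfsg.Agent.Lib.Core.pCore_isPGroup p G
  obtain ⟨g, hg, P, rfl⟩ := hD
  obtain ⟨χ, hχ⟩ := Cfsg.Agent.Lib.Block.IsPBlock_nonempty hB
  have h1 := Cfsg.Agent.Lib.Block.mem_centralizer_of_not_memLocalIdeal hM (Cfsg.pCore p G) hQ χ.2 (hg.2.2 χ hχ)
  have h2 : Cfsg.pCore p G ≤ Subgroup.centralizer ({g} : Set G) := by
    intro q hq
    rw [Subgroup.mem_centralizer_singleton_iff]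
    exact Subgroup.mem_centralizer_iff.mp h1 q hq
  have h3 : IsPGroup p ((Cfsg.pCore p G).subgroupOf (Subgroup.centralizer ({g} : Set G))) :=
    hQ.comap_of_injective _ (Subgroup.subtype_injective _)
  have hn : ((Cfsg.pCore p G).subgroupOf (Subgroup.centralizer ({g} : Set G))).Normal := inferInstance
  have h4 := h3.le_sylow_of_normal P
  intro q hq
  exact ⟨⟨q, h2 hq⟩, h4 (Subgroup.mem_subgroupOf.mpr hq), rfl⟩

end Cfsg.Agent.S0912
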