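import Cfsg.Statements.S0915
import Cfsg.Agent.Lib.Block.NilCentral
import Cfsg.Agent.Lib.Core.Basic
import Cfsg.Agent.Lib.PSolv.Basic
import Mathlib

set_option autoImplicit false
open Cfsg

namespace Cfsg.Agent.S0915

/-- Let G be a finite p-solvable group with trivial largest normal subgroup of order prime to p. Then any two irreducible characters of G lie in the same block relative to every maximal ideal M of the algebraic integers containing p: G has a single p-block. -/
theorem result {G : Type*} [Group G] [Finite G] (p : ℕ) [Fact p.Prime] (M : Ideal Cfsg.AlgInt) (hM : Cfsg.IsPModular p M) (hsolv : Cfsg.IsPSolvable p G) (hcore : Cfsg.pPrimeCore p G = ⊥) (χ ψ : Cfsg.IrrCharacter G) : Cfsg.SameBlock M (χ : G → ℂ) (ψ : G → ℂ) := by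
  classical
  have := Fintype.ofFinite G
  have := Cfsg.Agent.Lib.Block.isPModular_isPrime hM
  have hQn := Cfsg.Agent.Lib.Core.pCore_normal p G
  have hQ := Cfsg.Agent.Lib.Core.pCore_isPGroup p G
  have hHH := Cfsg.Agent.Lib.PSolv.centralizer_pCore_le
    (Cfsg.Agent.Lib.PSolv.pStep_of_isPSolvable (Fact.out : p.Prime) hsolv) hcore
  intro g
  by_cases hg : ∃ x : G, IsConj g x ∧ x ∈ Subgroup.centralizer (Cfsg.pCore p G : Set G)
  · obtain ⟨x, hx, hxC⟩ := hg
    have hgQ : g ∈ Cfsg.pCore p G := hHH (Cfsg.Agent.Lib.Block.mem_centralizer_of_isConj _ hx hxC)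
    have h1 := Cfsg.Agent.Lib.Block.memLocalIdeal_centralChar_sub_of_mem hM (Cfsg.pCore p G) hQ hgQ χ.2
    have h2 := Cfsg.Agent.Lib.Block.memLocalIdeal_centralChar_sub_of_mem hM (Cfsg.pCore p G) hQ hgQ ψ.2
    exact Cfsg.Agent.Lib.Block.memLocalIdeal_sub_trans h1
      (Cfsg.Agent.Lib.Block.memLocalIdeal_sub_comm.mp h2)
  · push Not at hg
    have h1 := Cfsg.Agent.Lib.Block.memLocalIdeal_centralChar_of_no_centralize hM (Cfsg.pCore p G) hQ hg χ.2
    have h2 := Cfsg.Agent.Lib.Block.memLocalIdeal_centralChar_of_no_centralize hM (Cfsg.pCore p G) hQ hg ψ.2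
    exact Cfsg.Agent.Lib.Block.memLocalIdeal_sub h1 h2

end Cfsg.Agent.S0915
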