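import Cfsg.Statements.S0916
import Cfsg.Agent.Lib.Block.Group
import Mathlib

set_option autoImplicit false
open Cfsg

namespace Cfsg.Agent.S0916

open Cfsg.Agent.Lib.Block

theorem aux {G : Type*} [Group G] [Finite G] (p : ℕ) [Fact p.Prime] (P : Subgroup G) (hP : IsPGroup p P)
    (L C : Subgroup G) (hLC : L ≤ C)
    (hLN : ∀ x, x ∈ C → x ∈ Subgroup.normalizer (P : Set G) → x ∈ L)
    (S : Sylow p L) (hS : (S : Subgroup L).map L.subtype = P) :
    ∃ T : Sylow p C, (T : Subgroup C).map C.subtype = P := by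
  classical
  have hPL : P ≤ L := by
    rw [← hS]
    exact Subgroup.map_subtype_le _
  have hPC : P ≤ C := hPL.trans hLC
  let P' : Subgroup C := P.subgroupOf C
  have hP' : IsPGroup p P' := hP.comap_subtype
  obtain ⟨T, hT⟩ := hP'.exists_le_sylow
  have hTp : IsPGroup p (T : Subgroup C) := T.isPGroup'
  have hTnil : Group.IsNilpotent (T : Subgroup C) := hTp.isNilpotent
  have hnc := normalizerCondition_of_isNilpotent (G := (T : Subgroup C))
  let R : Subgroup (T : Subgroup C) := P'.subgroupOf (T : Subgroup C)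
  have hmemR : ∀ t : (T : Subgroup C), t ∈ R ↔ ((t : C) : G) ∈ P := by
    intro t
    simp [R, P', Subgroup.mem_subgroupOf]
  -- the image of the normalizer of `R` in `G`
  let QT : Subgroup (T : Subgroup C) := Subgroup.normalizer (R : Set (T : Subgroup C))
  let QG : Subgroup G := (QT.map (T : Subgroup C).subtype).map C.subtype
  have hQGp : IsPGroup p QG := ((hTp.to_subgroup QT).map _).map _
  have hmemQ : ∀ t : (T : Subgroup C), t ∈ QT → ∀ x : G, x ∈ P → (t : G) * x * (t : G)⁻¹ ∈ P := by
    intro t ht x hx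
    have hxT : (⟨x, hPC hx⟩ : C) ∈ (T : Subgroup C) := hT (by simpa [P', Subgroup.mem_subgroupOf] using hx)
    have hxR : (⟨⟨x, hPC hx⟩, hxT⟩ : (T : Subgroup C)) ∈ R := (hmemR _).mpr hx
    have h1 := ((Subgroup.mem_normalizer_iff.mp ht) _).mp hxR
    simpa using (hmemR _).mp h1
  have hQGL : QG ≤ L := by
    rintro _ ⟨_, ⟨t, ht, rfl⟩, rfl⟩
    apply hLN _ (t : C).2
    rw [Subgroup.mem_normalizer_iff]
    intro x
    constructor
    · exact hmemQ t ht x
    · intro hx
      have ht' : t⁻¹ ∈ QT := QT.inv_mem ht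
      have h1 := hmemQ t⁻¹ ht' _ hx
      have h2 : ((t⁻¹ : (T : Subgroup C)) : G) * ((t : G) * x * (t : G)⁻¹) * ((t⁻¹ : (T : Subgroup C)) : G)⁻¹ = x := by
        push_cast
        group
      rw [h2] at h1
      exact h1
  have hPQ : P ≤ QG := by
    intro x hx
    have hxT : (⟨x, hPC hx⟩ : C) ∈ (T : Subgroup C) := hT (by simpa [P', Subgroup.mem_subgroupOf] using hx)
    have hxR : (⟨⟨x, hPC hx⟩, hxT⟩ : (T : Subgroup C)) ∈ R := (hmemR _).mpr hx
    exact ⟨_, ⟨_, Subgroup.le_normalizer hxR, rfl⟩, rfl⟩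
  -- maximality of `S` in `L`
  have hSle : (S : Subgroup L) ≤ QG.subgroupOf L := by
    intro x hx
    rw [Subgroup.mem_subgroupOf]
    apply hPQ
    rw [← hS]
    exact ⟨x, hx, rfl⟩
  have hSeq := S.is_maximal' (hQGp.comap_subtype (K := L)) hSle
  have hQP : QG ≤ P := by
    intro x hx
    have hxL := hQGL hx
    have h1 : (⟨x, hxL⟩ : L) ∈ QG.subgroupOf L := by
      rw [Subgroup.mem_subgroupOf]; exact hx
    have h2 : (⟨x, hxL⟩ : L) ∈ (S : Subgroup L) := by
      rw [← hSeq]; exact h1
    rw [← hS]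
    exact ⟨_, h2, rfl⟩
  have hQTR : QT = R := by
    apply le_antisymm
    · intro t ht
      rw [hmemR]
      exact hQP ⟨_, ⟨t, ht, rfl⟩, rfl⟩
    · exact Subgroup.le_normalizer
  have hRtop : R = ⊤ := normalizerCondition_iff_only_full_group_self_normalizing.mp hnc R hQTR
  refine ⟨T, ?_⟩
  apply le_antisymm
  · rintro _ ⟨t, ht, rfl⟩
    have : (⟨t, ht⟩ : (T : Subgroup C)) ∈ R := by rw [hRtop]; trivial
    exact (hmemR _).mp this
  · intro x hx
    have hxT : (⟨x, hPC hx⟩ : C) ∈ (T : Subgroup C) := hT (by simpa [P', Subgroup.mem_subgroupOf] using hx)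
    exact ⟨_, hxT, rfl⟩

/-- Let P be a p-subgroup of the finite group G, C its centralizer and N its normalizer. Say that a conjugacy class (of G, or of N) has defect group P when P is a Sylow p-subgroup of the centralizer (in G, respectively in N) of some element of the class. Then: (i) if the class of g in G has defect group P, the elements of that class lying in C form a single N-class, again with defect group P; (ii) every N-class with defect group P arises this way from exactly one G-class with defect group P. -/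
theorem result {G : Type*} [Group G] [Finite G] (p : ℕ) [Fact p.Prime] (P : Subgroup G) (hP : IsPGroup p P) : (∀ g : G, (∃ S : Sylow p (Subgroup.centralizer ({g} : Set G)), (S : Subgroup (Subgroup.centralizer ({g} : Set G))).map (Subgroup.centralizer ({g} : Set G)).subtype = P) → (∃ c : G, IsConj g c ∧ c ∈ Subgroup.centralizer (P : Set G)) ∧ (∀ c₁ c₂ : G, IsConj g c₁ → IsConj g c₂ → c₁ ∈ Subgroup.centralizer (P : Set G) → c₂ ∈ Subgroup.centralizer (P : Set G) → ∃ n ∈ Subgroup.normalizer (P : Set G), n * c₁ * n⁻¹ = c₂)) ∧ (∀ c : G, c ∈ Subgroup.centralizer (P : Set G) → (∃ S : Sylow p (Subgroup.centralizer ({c} : Set G) ⊓ Subgroup.normalizer (P : Set G) : Subgroup G), (S : Subgroup ↥(Subgroup.centralizer ({c} : Set G) ⊓ Subgroup.normalizer (P : Set G))).map (Subgroup.centralizer ({c} : Set G) ⊓ Subgroup.normalizer (P : Set G)).subtype = P) → ∃ S : Sylow p (Subgroup.centralizer ({c} : Set G)), (S : Subgroup (Subgroup.centralizer ({c} : Set G))).map (Subgroup.centralizer ({c} : Set G)).subtype = P) :=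 by
  classical
  refine ⟨fun g ⟨S, hS⟩ => ?_, fun c hc ⟨S, hS⟩ => ?_⟩
  · have hPC : P ≤ Subgroup.centralizer ({g} : Set G) := by
      rw [← hS]
      exact Subgroup.map_subtype_le _
    have hcard : Nat.card P = p ^ (Nat.card (Subgroup.centralizer ({g} : Set G))).factorization p := by
      rw [← hS, Subgroup.card_map_of_injective (Subgroup.subtype_injective _)]
      exact S.card_eq_multiplicity
    have hgP : g ∈ Subgroup.centralizer (P : Set G) := by
      rw [Subgroup.mem_centralizer_iff]
      intro u hu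
      exact (mem_centralizer_singleton.mp (hPC hu))
    refine ⟨⟨g, IsConj.refl g, hgP⟩, fun c₁ c₂ h₁ h₂ hc₁ hc₂ => ?_⟩
    -- conjugator from c₁ to c₂
    obtain ⟨n₀, hn₀⟩ := isConj_iff.mp (h₁.symm.trans h₂)
    have hPC₂ : P ≤ Subgroup.centralizer ({c₂} : Set G) := by
      intro u hu
      rw [mem_centralizer_singleton]
      exact ((Subgroup.mem_centralizer_iff.mp hc₂) u hu)
    have hPC₁ : P ≤ Subgroup.centralizer ({c₁} : Set G) := by
      intro u hu
      rw [mem_centralizer_singleton]
      exact ((Subgroup.mem_centralizer_iff.mp hc₁) u hu)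
    have hcardC₂ : Nat.card (Subgroup.centralizer ({c₂} : Set G)) =
        Nat.card (Subgroup.centralizer ({g} : Set G)) := (card_centralizer_of_isConj h₂).symm
    let Q : Subgroup G := P.map (MulAut.conj n₀).toMonoidHom
    have hQC : Q ≤ Subgroup.centralizer ({c₂} : Set G) := by
      rw [← hn₀, centralizer_conj]
      exact Subgroup.map_mono hPC₁
    have hQcard : Nat.card Q = Nat.card P :=
      Subgroup.card_map_of_injective (MulAut.conj n₀).injective
    obtain ⟨y, hy, hyQ⟩ := exists_conj_of_card_eq_sylow p (Subgroup.centralizer ({c₂} : Set G)) Q P hQC hPC₂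
      (by rw [hQcard, hcardC₂]; exact hcard) (by rw [hcardC₂]; exact hcard)
    refine ⟨y * n₀, ?_, ?_⟩
    · rw [Subgroup.mem_normalizer_iff]
      intro x
      constructor
      · intro hx
        have : y * (n₀ * x * n₀⁻¹) * y⁻¹ ∈ P := by
          have h1 : (MulAut.conj y).toMonoidHom ((MulAut.conj n₀).toMonoidHom x) ∈ Q.map (MulAut.conj y).toMonoidHom :=
            Subgroup.mem_map_of_mem _ (Subgroup.mem_map_of_mem _ hx)
          rw [hyQ] at h1
          simpa using h1
        have h2 : y * n₀ * x * (y * n₀)⁻¹ = y * (n₀ * x * n₀⁻¹) * y⁻¹ := by group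
        rw [h2]
        exact this
      · intro hx
        have h3 : y * n₀ * x * (y * n₀)⁻¹ ∈ Q.map (MulAut.conj y).toMonoidHom := by
          rw [hyQ]; exact hx
        obtain ⟨q, hq, hq2⟩ := h3
        obtain ⟨a, ha, rfl⟩ := hq
        simp only [MulEquiv.coe_toMonoidHom, MulAut.conj_apply] at hq2
        have h4 : a = x := by
          have : (y * n₀) * a * (y * n₀)⁻¹ = (y * n₀) * x * (y * n₀)⁻¹ := by
            rw [← hq2]; group
          simpa using this
        rw [← h4]
        exact ha
    · have hcy : y * c₂ * y⁻¹ = c₂ := by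
        have := mem_centralizer_singleton.mp hy
        rw [this, mul_inv_cancel_right]
      calc y * n₀ * c₁ * (y * n₀)⁻¹ = y * (n₀ * c₁ * n₀⁻¹) * y⁻¹ := by group
        _ = c₂ := by rw [hn₀, hcy]
  · exact aux p P hP _ _ inf_le_left (fun x h1 h2 => ⟨h1, h2⟩) S hS

end Cfsg.Agent.S0916
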