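import Cfsg.Statements.S0923
import Cfsg.Agent.Lib.Block.Section

set_option autoImplicit false
open Cfsg

namespace Cfsg.Agent.S0923

/-- Brauer's Second Main Theorem, in terms of ordinary characters. Let x be a p-element of the finite group G with centralizer C, let χ lie in the block B of G and let b be a block of C that does not induce B (relative to a maximal ideal M of the algebraic integers containing p). Form the class function ϑ(c) = χ(x c) on C and its b-part (the sum over ψ ∈ b of the inner product of ϑ with ψ, times ψ). Then the b-part of ϑ vanishes at every p-regular element of C. (Equivalently, the generalized decomposition numbers of χ with respect to b are zero.) -/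
theorem result {G : Type*} [Group G] [Finite G] (p : ℕ) [Fact p.Prime] (M : Ideal Cfsg.AlgInt) (hM : Cfsg.IsPModular p M) (x : G) (hx : ∃ k : ℕ, orderOf x = p ^ k) (B : Set (Cfsg.IrrCharacter G)) (hB : Cfsg.IsPBlock M B) (χ : Cfsg.IrrCharacter G) (hχ : χ ∈ B) (b : Set (Cfsg.IrrCharacter (Subgroup.centralizer ({x} : Set G)))) (hb : Cfsg.IsPBlock M b) (hnot : ¬ Cfsg.IsInducedBlock M (Subgroup.centralizer ({x} : Set G)) b B) (y : Subgroup.centralizer ({x} : Set G)) (hy : ¬ p ∣ orderOf y) : Cfsg.blockPart b (fun c : Subgroup.centralizer ({x} : Set G) => (χ : G → ℂ) (x * (c : G))) y = 0 := by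
  
  classical
  have := Fintype.ofFinite G
  have := Fintype.ofFinite (Subgroup.centralizer ({x} : Set G))
  have := Cfsg.Agent.Lib.Block.isPModular_isPrime hM
  have hPg := Cfsg.Agent.Lib.Block.isPGroup_zpowers_of_orderOf (p := p) hx
  obtain ⟨B', hB'⟩ := Cfsg.Agent.Lib.Block.inducedBlockDefined_of_normalizer (M := M) hM hPg
    (Cfsg.Agent.Lib.Block.zpowers_le_centralizer x) (Cfsg.Agent.Lib.Block.centralizer_zpowers_eq x).le
    (Cfsg.Agent.Lib.Block.centralizer_le_normalizer_zpowers x) hb
  have hχ' : χ ∉ B' := by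
    intro hmem
    apply hnot
    have h1 : B = B' := by
      rw [Cfsg.Agent.Lib.Block.blockOf_eq_of_mem hB hχ, ← Cfsg.Agent.Lib.Block.blockOf_eq_of_mem hB'.2.1 hmem]
    rw [h1]
    exact hB'
  have hxC : x ∈ Subgroup.centralizer ({x} : Set G) := Cfsg.Agent.Lib.Block.mem_centralizer_self x
  let h : Subgroup.centralizer ({x} : Set G) := ⟨x, hxC⟩ * y
  have hh : (h : G) = x * y := rfl
  have hCz : ∀ z : G, Cfsg.IsPPart p (h : G) z → Subgroup.centralizer ({z} : Set G) ≤ Subgroup.centralizer ({x} : Set G) := by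
    intro z hz
    have := Cfsg.Agent.Lib.Block.IsPPart_eq hz (Cfsg.Agent.Lib.Block.isPPart_mul hx y hy)
    rw [this]
  have h0 := Cfsg.Agent.Lib.Block.second_main hM _ b B' hB' h hCz χ hχ'
  have hcf : Cfsg.IsClassFunction G (χ : G → ℂ) := Cfsg.Agent.Lib.Char.IsCharacter.isClassFunction
      (Cfsg.Agent.Lib.Char.IsIrrCharacter.isCharacter χ.2)
  rw [Cfsg.Agent.Lib.Block.blockPart_eq_tr b _ (Cfsg.Agent.Lib.Block.isClassFunction_section (χ : G → ℂ) hcf),
    Cfsg.Agent.Lib.Block.tr_mul_single]
  refine Eq.trans ?_ h0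
  unfold Cfsg.Agent.Lib.Block.tr
  refine Finset.sum_congr rfl fun k _ => ?_
  rw [Cfsg.Agent.Lib.Block.coeff_blockElt]
  congr 2
  rw [hh]
  push_cast
  rw [← mul_assoc, ← mul_assoc, Cfsg.Agent.Lib.Block.commute_of_mem_centralizer k]

end Cfsg.Agent.S0923
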