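import Cfsg.Statements.S0926
import Cfsg.Agent.Lib.Block.Height

set_option autoImplicit false
open Cfsg

namespace Cfsg.Agent.S0926

/-- Let B be a block of the finite group G with defect group D (relative to a maximal ideal M of the algebraic integers containing p), let χ ∈ B have height zero, and let x be a p-element. Then some conjugate of x lies in D if and only if χ does not vanish on the whole p-section of x (the elements whose p-part is conjugate to x). -/
theorem result {G : Type*} [Group G] [Finite G] (p : ℕ) [Fact p.Prime] (M : Ideal Cfsg.AlgInt) (hM : Cfsg.IsPModular p M) (B : Set (Cfsg.IrrCharacter G)) (hB : Cfsg.IsPBlock M B) (D : Subgroup G) (hD : Cfsg.IsDefectGroup p M B D) (χ : Cfsg.IrrCharacter G) (hχ : χ ∈ B) (h0 : Cfsg.blockHeight p B (χ : G → ℂ) = 0) (x : G) (hx : ∃ k : ℕ, orderOf x = p ^ k) : (∃ g : G, g * x * g⁻¹ ∈ D) ↔ ∃ u : G, (∃ z : G, Cfsg.IsPPart p u z ∧ IsConj x z) ∧ (χ : G → ℂ) u ≠ 0 := by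
  
  classical
  have := Fintype.ofFinite G
  have := Cfsg.Agent.Lib.Block.isPModular_isPrime hM
  obtain ⟨y, hy, P, rfl⟩ := hD
  constructor
  · rintro ⟨g, hg⟩
    obtain ⟨x₀, hx₀, hxe⟩ := hg
    have hxe' : (x₀ : G) = g * x * g⁻¹ := hxe
    have hxp : ∃ k, orderOf (x₀ : G) = p ^ k := by
      obtain ⟨k, hk⟩ := hx
      refine ⟨k, ?_⟩
      rw [hxe', Cfsg.Agent.Lib.Block.orderOf_conj, hk]
    have hcomm : Commute (x₀ : G) y := Cfsg.Agent.Lib.Block.mem_centralizer_singleton.mp x₀.2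
    have h1 := Cfsg.Agent.Lib.Block.not_memLocalIdeal_char_mul hM hB hy hχ
      (Cfsg.Agent.Lib.Block.factorization_eq_minExp_of_height hχ h0) hcomm hxp
    refine ⟨(x₀ : G) * y, ⟨(x₀ : G), ⟨y, rfl, hcomm, hxp,
      Cfsg.Agent.Lib.Block.regular_of_isDefectClass hM hB hy⟩, ?_⟩, ?_⟩
    · rw [hxe']
      exact isConj_iff.mpr ⟨g, rfl⟩
    · intro h2
      apply h1
      rw [h2]
      exact Cfsg.Agent.Lib.Block.memLocalIdeal_zero
  · rintro ⟨u, ⟨z, hz, hxz⟩, hu⟩
    by_contra hcon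
    apply hu
    apply Cfsg.Agent.Lib.Block.eq_zero_of_pPart_notMem_defect hM χ hz
    intro D' hD' hzD'
    rw [← Cfsg.Agent.Lib.Block.blockOf_eq_of_mem hB hχ] at hD'
    obtain ⟨y', hy', Q', rfl⟩ := hD'
    have hE := (Q'.isPGroup').map (Subgroup.centralizer ({y'} : Set G)).subtype
    have hEd : (Q' : Subgroup (Subgroup.centralizer ({y'} : Set G))).map (Subgroup.centralizer ({y'} : Set G)).subtype
        ≤ Subgroup.centralizer ({y'} : Set G) := by
      rintro _ ⟨a, _, rfl⟩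
      exact a.2
    obtain ⟨a, ha⟩ := Cfsg.Agent.Lib.Block.minmax_le hM hB hχ (hy.2.2 χ hχ) hy'.2.1 hE hEd P
    obtain ⟨w, hw, hwe⟩ := ha hzD'
    obtain ⟨c, rfl⟩ := isConj_iff.mp hxz
    apply hcon
    refine ⟨a⁻¹ * c, ?_⟩
    have hwe' : a * w * a⁻¹ = c * x * c⁻¹ := hwe
    have h3 : a⁻¹ * c * x * (a⁻¹ * c)⁻¹ = w := by
      calc a⁻¹ * c * x * (a⁻¹ * c)⁻¹ = a⁻¹ * (c * x * c⁻¹) * a := by group
        _ = a⁻¹ * (a * w * a⁻¹) * a := by rw [hwe']
        _ = w := by group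
    rw [h3]
    exact hw

end Cfsg.Agent.S0926
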