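import Cfsg.Statements.S0931
import Cfsg.Agent.Lib.Block.Centre

set_option autoImplicit false
open Cfsg

namespace Cfsg.Agent.S0931

open Cfsg.Agent.Lib.Block

/-- Let H be a subgroup of the finite group G and fix a maximal ideal M of the algebraic integers containing the prime p. If the block b of H induces the block B of G, then b has defect 0 if and only if B has defect 0. -/
theorem result {G : Type*} [Group G] [Finite G] (p : ℕ) [Fact p.Prime] (M : Ideal Cfsg.AlgInt) (hM : Cfsg.IsPModular p M) (H : Subgroup G) (b : Set (Cfsg.IrrCharacter H)) (B : Set (Cfsg.IrrCharacter G)) (hind : Cfsg.IsInducedBlock M H b B) : Cfsg.blockDefect p b = 0 ↔ Cfsg.blockDefect p B = 0 := by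
  
  classical
  have := Fintype.ofFinite G
  have := Fintype.ofFinite H
  have := isPModular_isPrime hM
  have hb := hind.1
  have hB := hind.2.1
  obtain ⟨D, hD⟩ := exists_isDefectGroup (p := p) hM hb
  obtain ⟨P, hP⟩ := exists_isDefectGroup (p := p) hM hB
  have hcD := card_defect_group hM hb hD
  have hcP := card_defect_group hM hB hP
  have hp1 : 1 < p := (Fact.out : p.Prime).one_lt
  constructor
  · intro h0
    rw [h0, pow_zero] at hcD
    have hDbot : D = ⊥ := Subgroup.eq_bot_of_card_eq _ hcD
    have hPbot : P = ⊥ := by
      by_contra hne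
      have hPp : IsPGroup p P := by
        obtain ⟨y, _, Q, rfl⟩ := hP
        exact (Q.isPGroup').map _
      haveI : Nontrivial P := (Subgroup.bot_or_nontrivial P).resolve_left hne
      haveI := hPp.center_nontrivial
      obtain ⟨z, hz⟩ := exists_ne (1 : Subgroup.center P)
      have hzc : ∀ w ∈ P, (z : G) * w = w * z := by
        intro w hw
        have := (Subgroup.mem_center_iff.mp z.2) ⟨w, hw⟩
        exact (congrArg Subtype.val this).symm
      obtain ⟨g, hg, _⟩ := exists_conj_centre_of_induced hM hind hD hP (x := ((z : P) : G)) (z : P).2 hzc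
      rw [hDbot] at hg
      have h1 : g * ((z : P) : G) * g⁻¹ = 1 := by
        simpa using hg
      have h2 : ((z : P) : G) = 1 := by
        have := congrArg (fun t => g⁻¹ * t * g) h1
        simpa [mul_assoc] using this
      apply hz
      apply Subtype.ext
      apply Subtype.ext
      exact h2
    rw [hPbot] at hcP
    have h3 : 1 = p ^ blockDefect p B := by
      simpa using hcP
    by_contra hne
    have h4 : 1 < p ^ blockDefect p B := Nat.one_lt_pow hne hp1
    omega
  · intro h0
    rw [h0, pow_zero] at hcP
    have hPbot : P = ⊥ := Subgroup.eq_bot_of_card_eq _ hcP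
    obtain ⟨E, hE, hDE⟩ := defect_le_of_induced hM H hind hD
    have hcE := card_defect_group hM hB hE
    rw [h0, pow_zero] at hcE
    have hEbot : E = ⊥ := Subgroup.eq_bot_of_card_eq _ hcE
    rw [hEbot] at hDE
    have h5 : D = ⊥ := by
      rw [eq_bot_iff]
      intro t ht
      have h6 : (t : G) ∈ (⊥ : Subgroup G) := hDE ⟨t, ht, rfl⟩
      have h7 : (t : G) = 1 := by simpa using h6
      have h8 : t = 1 := Subtype.ext h7
      simp [h8]
    rw [h5] at hcD
    have h9 : 1 = p ^ blockDefect p b := by
      simpa using hcD
    by_contra hne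
    have h4 : 1 < p ^ blockDefect p b := Nat.one_lt_pow hne hp1
    omega

end Cfsg.Agent.S0931
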