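import Cfsg.Statements.S0932
import Cfsg.Agent.Lib.Block.Group
import Mathlib

set_option autoImplicit false
open Cfsg

namespace Cfsg.Agent.S0932

open Cfsg.Agent.Lib.Block

/-- Let H be a subgroup of the finite group G and ξ a character of H. For every g ∈ G, the sum of ξ h / ξ 1 over the elements h ∈ H that are conjugate in G to g equals the central character at g of the character of G induced from ξ (class size times value divided by degree). -/
theorem result {G : Type*} [Group G] [Fintype G] (H : Subgroup G) (ξ : H → ℂ) (hξ : Cfsg.IsCharacter H ξ) (g : G) : Cfsg.inducedCentralChar H ξ g = Cfsg.centralChar (Cfsg.indFun H ξ) g := by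
  classical
  have hext : ∀ h : H, Cfsg.extendByZero H ξ (h : G) = ξ h := by
    intro h
    exact Subtype.val_injective.extend_apply ξ 0 h
  have hext0 : ∀ x : G, x ∉ H → Cfsg.extendByZero H ξ x = 0 := by
    intro x hx
    unfold Cfsg.extendByZero
    rw [Function.extend_apply']
    · rfl
    · rintro ⟨h, rfl⟩
      exact hx h.2
  have hone : Cfsg.indFun H ξ 1 = (Nat.card H : ℂ)⁻¹ * ((Nat.card G : ℂ) * ξ 1) := by
    unfold Cfsg.indFun
    congr 1
    have : ∀ x : G, Cfsg.extendByZero H ξ (x⁻¹ * 1 * x) = ξ 1 := by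
      intro x
      have h1 : x⁻¹ * 1 * x = ((1 : H) : G) := by simp
      rw [h1, hext]
    simp only [this, Finset.sum_const, Finset.card_univ, nsmul_eq_mul, Nat.card_eq_fintype_card]
  have hsum : ∑ x : G, Cfsg.extendByZero H ξ (x⁻¹ * g * x) =
      (Nat.card (Subgroup.centralizer ({g} : Set G)) : ℂ) *
        ∑ h ∈ (Set.toFinite {h : H | IsConj g (h : G)}).toFinset, ξ h := by
    rw [sum_conj_eq (Cfsg.extendByZero H ξ) g, nsmul_eq_mul]
    congr 1
    set S := (Set.toFinite {h : H | IsConj g (h : G)}).toFinset with hS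
    have hmem : ∀ h : H, h ∈ S ↔ IsConj g (h : G) := by
      intro h
      simp [hS]
    have h1 : ∑ h ∈ S, ξ h = ∑ u ∈ S.map ⟨Subtype.val, Subtype.val_injective⟩, Cfsg.extendByZero H ξ u := by
      rw [Finset.sum_map]
      exact Finset.sum_congr rfl fun h _ => (hext h).symm
    rw [h1]
    symm
    apply Finset.sum_subset
    · intro u hu
      obtain ⟨h, hh, rfl⟩ := Finset.mem_map.mp hu
      simpa using (hmem h).mp hh
    · intro u hu hu2
      apply hext0
      intro huH
      apply hu2
      refine Finset.mem_map.mpr ⟨⟨u, huH⟩, (hmem _).mpr ?_, rfl⟩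
      simpa using hu
  have hHne : (Nat.card H : ℂ) ≠ 0 := by exact_mod_cast (Nat.card_pos (α := H)).ne'
  have hGne : (Nat.card G : ℂ) ≠ 0 := by exact_mod_cast (Nat.card_pos (α := G)).ne'
  have hidx : ((Subgroup.centralizer ({g} : Set G)).index : ℂ) * (Nat.card (Subgroup.centralizer ({g} : Set G)) : ℂ) = Nat.card G := by
    have := (Subgroup.centralizer ({g} : Set G)).index_mul_card
    exact_mod_cast this
  unfold Cfsg.inducedCentralChar Cfsg.centralChar
  rw [finsum_mem_eq_finite_toFinset_sum _ (Set.toFinite {h : H | IsConj g (h : G)}), ← Finset.sum_div, hone]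
  set X := ∑ h ∈ (Set.toFinite {h : H | IsConj g (h : G)}).toFinset, ξ h with hX
  have hval : Cfsg.indFun H ξ g = (Nat.card H : ℂ)⁻¹ * ((Nat.card (Subgroup.centralizer ({g} : Set G)) : ℂ) * X) := by
    unfold Cfsg.indFun
    rw [hsum]
  rw [hval]
  have h2 : ((Subgroup.centralizer ({g} : Set G)).index : ℂ) * ((Nat.card H : ℂ)⁻¹ * ((Nat.card (Subgroup.centralizer ({g} : Set G)) : ℂ) * X)) = ((Nat.card H : ℂ)⁻¹ * (Nat.card G : ℂ)) * X := by
    rw [← hidx]; ring
  rw [h2]
  have h3 : (Nat.card H : ℂ)⁻¹ * ((Nat.card G : ℂ) * ξ 1) = ((Nat.card H : ℂ)⁻¹ * (Nat.card G : ℂ)) * ξ 1 := by ring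
  rw [h3, mul_div_mul_left _ _ (mul_ne_zero (inv_ne_zero hHne) hGne)]

end Cfsg.Agent.S0932
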