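import Cfsg.Statements.S0933
import Cfsg.Agent.Lib.Block.Height
import Cfsg.Agent.S0932

set_option autoImplicit false
open Cfsg

namespace Cfsg.Agent.S0933

/-- Let H be a subgroup of the finite group G and ξ an irreducible character of H such that the induced function ξ^G is an irreducible character of G. Then, relative to any maximal ideal M of the algebraic integers containing the prime p, the block of ξ induces the block of ξ^G. -/
theorem result {G : Type*} [Group G] [Fintype G] (p : ℕ) [Fact p.Prime] (M : Ideal Cfsg.AlgInt) (hM : Cfsg.IsPModular p M) (H : Subgroup G) (ξ : Cfsg.IrrCharacter H) (hind : Cfsg.IsIrrCharacter G (Cfsg.indFun H (ξ : H → ℂ))) : Cfsg.IsInducedBlock M H (Cfsg.blockOf M (ξ : H → ℂ)) (Cfsg.blockOf M (Cfsg.indFun H (ξ : H → ℂ))) := by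
  
  classical
  have := Fintype.ofFinite H
  have := Cfsg.Agent.Lib.Block.isPModular_isPrime hM
  refine ⟨Cfsg.Agent.Lib.Block.isPBlock_blockOf ξ, Cfsg.Agent.Lib.Block.isPBlock_blockOf ⟨_, hind⟩, ?_⟩
  intro ξ' hξ' χ' hχ' g
  have h1 := Cfsg.Agent.Lib.Block.memLocalIdeal_induced_sub_of_sameBlock ξ'.2 ξ.2
    (Cfsg.Agent.Lib.Block.sameBlock_symm hξ') g
  have h2 := Cfsg.Agent.S0932.result H (ξ : H → ℂ) (Cfsg.Agent.Lib.Char.IsIrrCharacter.isCharacter ξ.2) g
  have h3 := hχ' g
  refine Cfsg.Agent.Lib.Block.memLocalIdeal_sub_trans h1 ?_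
  rw [h2]
  exact h3

end Cfsg.Agent.S0933
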