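import Cfsg.Statements.S0934
import Cfsg.Agent.Lib.Block.Height

set_option autoImplicit false
open Cfsg

namespace Cfsg.Agent.S0934

open scoped ComplexConjugate
open Cfsg.Agent.Lib.Block

/-- Let H be a subgroup of the finite group G and fix a maximal ideal M of the algebraic integers containing the prime p. If the block b of H induces the block B of G and ξ ∈ b, then there is χ ∈ B whose restriction to H has nonzero inner product with ξ. -/
theorem result {G : Type*} [Group G] [Fintype G] (p : ℕ) [Fact p.Prime] (M : Ideal Cfsg.AlgInt) (hM : Cfsg.IsPModular p M) (H : Subgroup G) [Fintype H] (b : Set (Cfsg.IrrCharacter H)) (B : Set (Cfsg.IrrCharacter G)) (hind : Cfsg.IsInducedBlock M H b B) (ξ : Cfsg.IrrCharacter H) (hξ : ξ ∈ b) : ∃ χ ∈ B, Cfsg.classInner (fun h : H => (χ : G → ℂ) h) (ξ : H → ℂ) ≠ 0 := by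
  
  classical
  have := isPModular_isPrime hM
  obtain ⟨hb, hB, hcong⟩ := hind
  by_contra hcon
  push Not at hcon
  obtain ⟨χ, hχ⟩ := IsPBlock_nonempty hB
  have hcfχ := Cfsg.Agent.Lib.Char.IsCharacter.isClassFunction
    (Cfsg.Agent.Lib.Char.IsIrrCharacter.isCharacter χ.2)
  have h1 := memLocalIdeal_om_resAlg_sub H hcfχ (hcong ξ hξ χ hχ) (isCentralElt_blockElt B)
    (localCoeff_blockElt (isBlockUnion_of_isPBlock hB))
  rw [om_blockElt_of_mem hχ] at h1
  have h2 : tr (ξ : H → ℂ) (resAlg H (blockElt B)) = 0 := by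
    unfold tr
    simp only [coeff_resAlg, coeff_blockElt, blockCoeff_eq_sum, Finset.sum_mul, Finset.mul_sum]
    rw [Finset.sum_comm]
    refine Finset.sum_eq_zero fun ψ _ => ?_
    have h3 : ∀ k : H, (Nat.card G : ℂ)⁻¹ * (if ψ ∈ B then (ψ : G → ℂ) 1 * conj ((ψ : G → ℂ) k) else 0) * (ξ : H → ℂ) k =
        (Nat.card G : ℂ)⁻¹ * (if ψ ∈ B then (ψ : G → ℂ) 1 else 0) * (conj ((ψ : G → ℂ) k) * (ξ : H → ℂ) k) := by
      intro k
      split_ifs <;> ring
    simp only [h3]
    rw [← Finset.mul_sum]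
    by_cases hψ : ψ ∈ B
    · have h4 := hcon ψ hψ
      unfold classInner at h4
      have hcard : (Nat.card H : ℂ)⁻¹ ≠ 0 := inv_ne_zero (by exact_mod_cast Nat.card_pos.ne')
      have h5 := (mul_eq_zero.mp h4).resolve_left hcard
      have h6 := congrArg (starRingEnd ℂ) h5
      rw [map_sum, map_zero] at h6
      have h7 : ∑ k : H, conj ((ψ : G → ℂ) k) * (ξ : H → ℂ) k = 0 := by
        refine Eq.trans ?_ h6
        refine Finset.sum_congr rfl fun k _ => ?_
        rw [map_mul, Complex.conj_conj]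
      rw [h7, mul_zero]
    · rw [if_neg hψ, mul_zero, zero_mul]
  have h8 : om (ξ : H → ℂ) (resAlg H (blockElt B)) = 0 := by
    unfold om
    rw [h2, zero_div]
  rw [h8, zero_sub] at h1
  apply not_memLocalIdeal_one (M := M)
  simpa using memLocalIdeal_neg h1

end Cfsg.Agent.S0934
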