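import Cfsg.Statements.S0938
import Cfsg.Agent.Lib.Block.Principal

set_option autoImplicit false
open Cfsg Cfsg.Agent.Lib.Block

namespace Cfsg.Agent.S0938

/-- Let B be a block of the finite group G relative to a maximal ideal M of the algebraic integers containing the prime p, and let χ ∈ B. Then the kernel of B (the set of g with ψ g = ψ 1 for all ψ ∈ B) is a normal subgroup of order prime to p contained in the kernel of χ, and it contains every normal subgroup of order prime to p on which χ takes the value χ(1); that is, it is O_p' of the kernel of χ. -/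
theorem result {G : Type*} [Group G] [Finite G] (p : ℕ) [Fact p.Prime] (M : Ideal Cfsg.AlgInt) (hM : Cfsg.IsPModular p M) (B : Set (Cfsg.IrrCharacter G)) (hB : Cfsg.IsPBlock M B) (χ : Cfsg.IrrCharacter G) (hχ : χ ∈ B) : ∃ K : Subgroup G, K.Normal ∧ (K : Set G) = Cfsg.blockKer B ∧ ¬ p ∣ Nat.card K ∧ (∀ g ∈ K, (χ : G → ℂ) g = (χ : G → ℂ) 1) ∧ ∀ N : Subgroup G, N.Normal → ¬ p ∣ Nat.card N → (∀ g ∈ N, (χ : G → ℂ) g = (χ : G → ℂ) 1) → N ≤ K := by
  have := Fintype.ofFinite G
  have := isPModular_isPrime hM
  refine ⟨blockKerSubgroup B, blockKerSubgroup_normal B, rfl, not_dvd_card_blockKer hM hB, fun g hg => hg χ hχ, ?_⟩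
  intro N hN hN' hker g hg ψ hψ
  have : Fintype N := Fintype.ofFinite _
  exact ker_of_sameBlock N hM hN' (sameBlock_of_mem hB hχ hψ) hker g hg

end Cfsg.Agent.S0938
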