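import Cfsg.Statements.S0943
import Cfsg.Agent.Lib.Block.Misc
import Mathlib

set_option autoImplicit false
open Cfsg

namespace Cfsg.Agent.S0943

/-- Let χ be an irreducible character of the finite group G and u, v ∈ G. If χ (x * y) = χ (u * v) whenever x is conjugate to u and y is conjugate to v, then χ u * χ v = χ 1 * χ (u * v). (Multiply the class sums of u and v and apply the central character of χ.) -/
theorem result {G : Type*} [Group G] [Finite G] (χ : Cfsg.IrrCharacter G) (u v : G) (hc : ∀ x y : G, IsConj u x → IsConj v y → (χ : G → ℂ) (x * y) = (χ : G → ℂ) (u * v)) : (χ : G → ℂ) u * (χ : G → ℂ) v = (χ : G → ℂ) 1 * (χ : G → ℂ) (u * v) := by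
  classical
  have := Fintype.ofFinite G
  open Cfsg.Agent.Lib.Block in
  have hcf := Cfsg.Agent.Lib.Char.IsCharacter.isClassFunction
    (Cfsg.Agent.Lib.Char.IsIrrCharacter.isCharacter χ.2)
  open Cfsg.Agent.Lib.Block in
  have h1 := tr_mul_central χ.2 (isCentralElt_classSum u) (classSum v)
  open Cfsg.Agent.Lib.Block in
  rw [om_classSum hcf, tr_classSum hcf, tr_mul_eq_sum] at h1
  open Cfsg.Agent.Lib.Block in
  have h2 : ∑ h, ∑ k, (classSum u).coeff h * (classSum v).coeff k * (χ : G → ℂ) (h * k) =
      ∑ h, ∑ k, (classSum u).coeff h * (classSum v).coeff k * (χ : G → ℂ) (u * v) := by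
    refine Finset.sum_congr rfl fun h _ => Finset.sum_congr rfl fun k _ => ?_
    rw [coeff_classSum, coeff_classSum]
    by_cases hh : IsConj u h
    · by_cases hk : IsConj v k
      · rw [hc h k hh hk]
      · rw [if_neg hk, mul_zero, zero_mul, zero_mul]
    · rw [if_neg hh, zero_mul, zero_mul, zero_mul]
  open Cfsg.Agent.Lib.Block in
  have h3 : ∑ h, ∑ k, (classSum u).coeff h * (classSum v).coeff k * (χ : G → ℂ) (u * v) =
      ((Subgroup.centralizer ({u} : Set G)).index : ℂ) *
        ((Subgroup.centralizer ({v} : Set G)).index : ℂ) * (χ : G → ℂ) (u * v) := by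
    simp only [← Finset.mul_sum, ← Finset.sum_mul, sum_coeff_classSum]
  rw [h2, h3] at h1
  open Cfsg.Agent.Lib.Block in
  have hu := index_centralizer_ne_zero u
  open Cfsg.Agent.Lib.Block in
  have hv := index_centralizer_ne_zero v
  open Cfsg.Agent.Lib.Block in
  have h1' := isIrr_one_ne_zero χ.2
  unfold Cfsg.centralChar at h1
  field_simp at h1
  linear_combination -h1

end Cfsg.Agent.S0943
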