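import Cfsg.Statements.S0944
import Cfsg.Agent.Lib.Block.Misc
import Mathlib

set_option autoImplicit false
open Cfsg

namespace Cfsg.Agent.S0944

theorem sum_sign_aux {ι : Type*} (s : Finset ι) (ζ : ι → ℂ) (h : ∀ i, ζ i ^ 2 = 1) :
    ∃ n : ℤ, ∑ i ∈ s, ζ i = (n : ℂ) ∧ (2 : ℤ) ∣ (s.card : ℤ) - n := by
  classical
  induction s using Finset.induction_on with
  | empty => exact ⟨0, by simp, by simp⟩
  | insert a s ha ih =>
    obtain ⟨n, hn, hd⟩ := ih
    rw [Finset.sum_insert ha, Finset.card_insert_of_notMem ha, hn]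
    have h1 : (ζ a - 1) * (ζ a + 1) = 0 := by
      have := h a
      linear_combination this
    rcases mul_eq_zero.mp h1 with h2 | h2
    · have h3 : ζ a = 1 := by linear_combination h2
      refine ⟨n + 1, by rw [h3]; push_cast; ring, ?_⟩
      push_cast
      have : ((s.card : ℤ) + 1 - (n + 1)) = (s.card : ℤ) - n := by ring
      rwa [this]
    · have h3 : ζ a = -1 := by linear_combination h2
      refine ⟨n - 1, by rw [h3]; push_cast; ring, ?_⟩
      push_cast
      have : ((s.card : ℤ) + 1 - (n - 1)) = (s.card : ℤ) - n + 2 := by ring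
      rw [this]
      exact dvd_add hd (dvd_refl 2)

/-- Let χ be an irreducible character of the finite group G and u an involution. Then χ u is a rational integer n with n ≡ χ 1 (mod 2). -/
theorem result {G : Type*} [Group G] [Finite G] (χ : Cfsg.IrrCharacter G) (u : G) (hu : orderOf u = 2) : ∃ n : ℤ, (χ : G → ℂ) u = (n : ℂ) ∧ (2 : ℤ) ∣ (Cfsg.charDegree (χ : G → ℂ) : ℤ) - n := by
  obtain ⟨d, ρ, hρ, hχ⟩ := χ.2
  have hfin : IsOfFinOrder u := by
    rw [← orderOf_pos_iff, hu]
    norm_num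
  obtain ⟨ζ, hζ, hval⟩ := Cfsg.Agent.Lib.Char.character_eq_sum_roots ρ u hfin
  rw [hu] at hζ
  obtain ⟨n, hn, hdvd⟩ := sum_sign_aux Finset.univ ζ hζ
  refine ⟨n, ?_, ?_⟩
  · have := hval 1
    rw [zpow_one, hχ] at this
    rw [this, ← hn]
    simp
  · have h1 : Cfsg.charDegree (χ : G → ℂ) = Module.finrank ℂ (Fin d → ℂ) := by
      apply Cfsg.Agent.Lib.Char.charDegree_natCast
      rw [← hχ, Representation.char_one]
    rw [h1]
    simpa using hdvd

end Cfsg.Agent.S0944
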