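import Cfsg.Statements.S0946
import Mathlib
import Cfsg.Agent.Lib.Invol.Klein
import Cfsg.Agent.Lib.PGroup.KClasses

set_option autoImplicit false
open Cfsg

open Cfsg.Agent.Lib

namespace Cfsg.Agent.S0946
theorem zmod_two_tors {m : ℕ} (a : ZMod (2 ^ (m + 1))) (h : a + a = 0) :
    a = 0 ∨ a = ((2 ^ m : ℕ) : ZMod (2 ^ (m + 1))) := by
  haveI : NeZero (2 ^ (m + 1)) := ⟨by positivity⟩
  have h1 : ((a.val + a.val : ℕ) : ZMod (2 ^ (m + 1))) = 0 := by
    push_cast
    rw [ZMod.natCast_zmod_val, h]
  rw [ZMod.natCast_eq_zero_iff] at h1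
  have hlt := ZMod.val_lt a
  obtain ⟨c, hc⟩ := h1
  have hc' : a.val + a.val = 2 * (2 ^ m * c) := by rw [hc]; ring
  have hlt' : a.val < 2 * 2 ^ m := by
    calc a.val < 2 ^ (m + 1) := hlt
      _ = 2 * 2 ^ m := by ring
  have hc2 : a.val = 2 ^ m * c := by omega
  have hc3 : c < 2 := by
    by_contra hcon
    push_neg at hcon
    have : 2 ^ m * 2 ≤ 2 ^ m * c := Nat.mul_le_mul_left _ hcon
    omega
  interval_cases c
  · left
    rw [← ZMod.natCast_zmod_val a, hc2]; simp
  · right
    rw [← ZMod.natCast_zmod_val a, hc2]; simp

/-- Let P be a Sylow 2-subgroup of the finite group G isomorphic to Z/2^m × Z/2^m with m ≥ 1. Then either P has a normal complement in G, or all involutions of G are conjugate. -/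
theorem result {G : Type*} [Group G] [Finite G] (P : Sylow 2 G) (m : ℕ) (hm : 1 ≤ m) (e : (P : Subgroup G) ≃* Multiplicative (ZMod (2 ^ m) × ZMod (2 ^ m))) : (∃ N : Subgroup G, N.Normal ∧ Subgroup.IsComplement' N (P : Subgroup G)) ∨ ∀ s t : G, orderOf s = 2 → orderOf t = 2 → IsConj s t := by
  classical
  have hpc : ∀ x ∈ (P : Subgroup G), ∀ y ∈ (P : Subgroup G), x * y = y * x := by
    intro x hx y hy
    have h := mul_comm (e ⟨x, hx⟩) (e ⟨y, hy⟩)
    rw [← map_mul, ← map_mul] at h
    exact congrArg Subtype.val (e.injective h)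
  by_cases hN : Subgroup.normalizer ((P : Subgroup G) : Set G) ≤ Subgroup.centralizer ((P : Subgroup G) : Set G)
  · left
    exact ⟨(MonoidHom.transferSylow P hN).ker, inferInstance, MonoidHom.ker_transferSylow_isComplement' P hN⟩
  · right
    obtain ⟨h, hhN, hhC⟩ := Set.not_subset.1 hN
    -- odd part
    have hordpos : orderOf h ≠ 0 := (orderOf_pos h).ne'
    obtain ⟨a, r, hr, har⟩ := Nat.exists_eq_two_pow_mul_odd hordpos
    have hy : h ^ r ∈ (P : Subgroup G) := by
      apply Invol.mem_sylow_of_normalizes P (Subgroup.pow_mem _ hhN r)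
      refine ⟨a, ?_⟩
      rw [orderOf_pow' h hr.pos.ne', har]
      rw [Nat.gcd_eq_right (Dvd.intro_left _ rfl)]
      exact Nat.mul_div_cancel _ hr.pos
    -- the map α
    set α : G → G := fun x => h * x * h⁻¹ with hα
    have hαP : ∀ x ∈ (P : Subgroup G), α x ∈ (P : Subgroup G) := fun x hx =>
      (Subgroup.mem_normalizer_iff.1 hhN x).1 hx
    have hαpow : ∀ j : ℕ, ∀ x, α^[j] x = h ^ j * x * (h ^ j)⁻¹ := by
      intro j
      induction j with
      | zero => simp
      | succ j ih =>
        intro x
        rw [Function.iterate_succ_apply', ih, hα]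
        simp only [pow_succ']
        group
    have hαr : ∀ x ∈ (P : Subgroup G), α^[r] x = x := by
      intro x hx
      rw [hαpow, hpc _ hy x hx]
      group
    have hαmul : ∀ x y, α (x * y) = α x * α y := by
      intro x y
      simp only [hα]; group
    have hαone : α 1 = 1 := by simp [hα]
    -- Step A
    have hA : (∀ x ∈ (P : Subgroup G), x * x = 1 → α x = x) → ∀ n : ℕ, ∀ x ∈ (P : Subgroup G), x ^ (2 ^ n) = 1 → α x = x := by
      intro hV n
      induction n with
      | zero =>
        intro x _ hx
        simp only [pow_zero, pow_one] at hx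
        rw [hx, hαone]
      | succ n ih =>
        intro x hx hxn
        have hx2 : α (x * x) = x * x := by
          apply ih _ (Subgroup.mul_mem _ hx hx)
          rw [← pow_two, ← pow_mul, ← pow_succ']
          exact hxn
        set w := α x * x⁻¹ with hw
        have hwP : w ∈ (P : Subgroup G) := Subgroup.mul_mem _ (hαP x hx) (Subgroup.inv_mem _ hx)
        have hw2 : w * w = 1 := by
          rw [hαmul] at hx2
          have h1 : α x * x⁻¹ * (α x * x⁻¹) = α x * α x * x⁻¹ * x⁻¹ := by
            rw [mul_assoc (α x) x⁻¹, ← mul_assoc x⁻¹ (α x), hpc _ (Subgroup.inv_mem _ hx) _ (hαP x hx)]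
            group
          rw [hw, h1, hx2]; group
        have hwα : α w = w := hV w hwP hw2
        have hxw : α x = w * x := by rw [hw]; group
        have hiter : ∀ j : ℕ, α^[j] x = w ^ j * x := by
          intro j
          induction j with
          | zero => simp
          | succ j ih2 =>
            rw [Function.iterate_succ_apply', ih2, hαmul, hxw]
            have : α (w ^ j) = w ^ j := by
              clear ih2
              induction j with
              | zero => simp [hαone]
              | succ j ih3 => rw [pow_succ, hαmul, ih3, hwα]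
            rw [this, pow_succ]
            group
        have h3 := hiter r
        rw [hαr x hx] at h3
        have hwr : w ^ r = 1 := by
          have := mul_right_cancel (a := w ^ r) (b := x) (c := 1) (by rw [← h3]; simp)
          exact this
        have hw1 : w = 1 := by
          obtain ⟨j, hj⟩ := hr
          rw [hj, pow_succ, pow_mul, pow_two, hw2] at hwr
          simpa using hwr
        rw [hxw, hw1, one_mul]
    -- exists a moved involution
    have hmoved : ∃ u ∈ (P : Subgroup G), u * u = 1 ∧ α u ≠ u := by
      by_contra hcon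
      push_neg at hcon
      have hall := hA hcon
      apply hhC
      show h ∈ Subgroup.centralizer _
      rw [Subgroup.mem_centralizer_iff]
      intro x hx
      obtain ⟨k, hk⟩ := (IsPGroup.iff_orderOf.1 P.isPGroup') ⟨x, hx⟩
      have hk' : x ^ (2 ^ k) = 1 := by
        have : orderOf x = 2 ^ k := by
          rw [← hk]; exact (Subgroup.orderOf_mk x hx).symm
        rw [← this]; exact pow_orderOf_eq_one x
      have := hall k x hx hk'
      simp only [hα] at this
      exact (mul_inv_eq_iff_eq_mul.1 this).symm
    obtain ⟨u, huP, hu2, hαu⟩ := hmoved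
    have hαinv : ∀ x, x * x = 1 → α x * α x = 1 := by
      intro x hx
      rw [← hαmul, hx, hαone]
    have hαinj : Function.Injective α := by
      intro x y hxy
      simpa [hα] using hxy
    set v := α u with hv
    set w := α v with hw
    have hvP : v ∈ (P : Subgroup G) := hαP u huP
    have hwP : w ∈ (P : Subgroup G) := hαP v hvP
    have hv2 : v * v = 1 := hαinv u hu2
    have hw2 : w * w = 1 := hαinv v hv2
    have hu1 : u ≠ 1 := by
      rintro rfl
      exact hαu hαone
    have hv1 : v ≠ 1 := fun h => hu1 (hαinj (by rw [← hv, h, hαone]))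
    have hw1 : w ≠ 1 := fun h => hv1 (hαinj (by rw [← hw, h, hαone]))
    have hwv : w ≠ v := fun h => hαu (hαinj h)
    have hwu : w ≠ u := by
      intro h
      obtain ⟨j, hj⟩ := hr
      have h2 : ∀ i : ℕ, α^[2 * i] u = u := by
        intro i
        induction i with
        | zero => simp
        | succ i ih =>
          have e1 : 2 * (i + 1) = 2 * i + 2 := by ring
          have h2' : α^[2] u = u := h
          rw [e1, Function.iterate_add_apply, h2', ih]
      have h3 := hαr u huP
      rw [hj, add_comm, Function.iterate_add_apply] at h3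
      simp only [Function.iterate_one] at h3
      rw [h2 j] at h3
      exact hαu h3
    -- all involutions in P are u, v, w
    have hthree : ∀ x ∈ (P : Subgroup G), x * x = 1 → x ≠ 1 → x = u ∨ x = v ∨ x = w := by
      intro x hx hx2 hx1
      by_contra hcon
      push_neg at hcon
      obtain ⟨hxu, hxv, hxw⟩ := hcon
      obtain ⟨m', rfl⟩ : ∃ m', m = m' + 1 := ⟨m - 1, by omega⟩
      set c : ZMod (2 ^ (m' + 1)) := ((2 ^ m' : ℕ) : ZMod (2 ^ (m' + 1))) with hc
      let f : G → ZMod (2 ^ (m' + 1)) × ZMod (2 ^ (m' + 1)) := fun y =>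
        if hy : y ∈ (P : Subgroup G) then Multiplicative.toAdd (e ⟨y, hy⟩) else 0
      let S : Finset G := {1, u, v, w, x}
      let T : Finset (ZMod (2 ^ (m' + 1)) × ZMod (2 ^ (m' + 1))) := ({0, c} : Finset _) ×ˢ ({0, c} : Finset _)
      have hScard : S.card = 5 := by
        simp only [S]
        rw [Finset.card_insert_of_notMem, Finset.card_insert_of_notMem, Finset.card_insert_of_notMem,
          Finset.card_pair (Ne.symm hxw)]
        · simp only [Finset.mem_insert, Finset.mem_singleton, not_or]
          exact ⟨Ne.symm hwv, Ne.symm hxv⟩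
        · simp only [Finset.mem_insert, Finset.mem_singleton, not_or]
          exact ⟨Ne.symm hαu ∘ (fun h => h), Ne.symm hwu, Ne.symm hxu⟩
        · simp only [Finset.mem_insert, Finset.mem_singleton, not_or]
          exact ⟨Ne.symm hu1, Ne.symm hv1, Ne.symm hw1, Ne.symm hx1⟩
      have hTcard : T.card ≤ 4 := by
        simp only [T]
        rw [Finset.card_product]
        have : ({0, c} : Finset (ZMod (2 ^ (m' + 1)))).card ≤ 2 := Finset.card_le_two
        nlinarith
      have hmaps : ∀ y ∈ S, f y ∈ T := by
        intro y hy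
        have hyP : y ∈ (P : Subgroup G) ∧ y * y = 1 := by
          simp only [S, Finset.mem_insert, Finset.mem_singleton] at hy
          rcases hy with rfl | rfl | rfl | rfl | rfl
          · exact ⟨Subgroup.one_mem _, one_mul 1⟩
          · exact ⟨huP, hu2⟩
          · exact ⟨hvP, hv2⟩
          · exact ⟨hwP, hw2⟩
          · exact ⟨hx, hx2⟩
        obtain ⟨hyP, hy2⟩ := hyP
        simp only [f, dif_pos hyP, T, Finset.mem_product, Finset.mem_insert, Finset.mem_singleton]
        have he : e ⟨y, hyP⟩ * e ⟨y, hyP⟩ = 1 := by
          rw [← map_mul]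
          have : (⟨y, hyP⟩ : (P : Subgroup G)) * ⟨y, hyP⟩ = 1 := Subtype.ext hy2
          rw [this, map_one]
        have he' : Multiplicative.toAdd (e ⟨y, hyP⟩) + Multiplicative.toAdd (e ⟨y, hyP⟩) = 0 := by
          rw [← toAdd_mul, he]; rfl
        have h1 := congrArg Prod.fst he'
        have h2 := congrArg Prod.snd he'
        exact ⟨zmod_two_tors _ h1, zmod_two_tors _ h2⟩
      have hinj : Set.InjOn f S := by
        intro y hy z hz hyz
        have hmemP : ∀ y ∈ S, y ∈ (P : Subgroup G) := by
          intro y hy
          simp only [S, Finset.mem_insert, Finset.mem_singleton] at hy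
          rcases hy with rfl | rfl | rfl | rfl | rfl
          · exact Subgroup.one_mem _
          · exact huP
          · exact hvP
          · exact hwP
          · exact hx
        have hyP := hmemP y hy
        have hzP := hmemP z hz
        simp only [f, dif_pos hyP, dif_pos hzP] at hyz
        have := e.injective (Multiplicative.toAdd.injective hyz)
        exact congrArg Subtype.val this
      have := Finset.card_le_card_of_injOn f hmaps hinj
      omega
    -- conclusion
    have hconj : ∀ s : G, orderOf s = 2 → IsConj s u := by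
      intro s hs
      obtain ⟨g, hg⟩ := Cfsg.Agent.Lib.PGroup.KClasses.exists_conj_mem_sylow P (x := s) ⟨1, by simpa using hs⟩
      have hgs2 : (g * s * g⁻¹) * (g * s * g⁻¹) = 1 := by
        have : s * s = 1 := by rw [← pow_two, ← hs]; exact pow_orderOf_eq_one s
        calc (g * s * g⁻¹) * (g * s * g⁻¹) = g * (s * s) * g⁻¹ := by group
          _ = 1 := by rw [this]; group
      have hgs1 : g * s * g⁻¹ ≠ 1 := by
        intro h
        have : s = 1 := by
          have h2 : s = g⁻¹ * (g * s * g⁻¹) * g := by group
          rw [h2, h]; group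
        rw [this] at hs
        simp at hs
      have h1 : IsConj s (g * s * g⁻¹) := isConj_iff.2 ⟨g, rfl⟩
      have hαc : ∀ x, IsConj x (α x) := fun x => isConj_iff.2 ⟨h, rfl⟩
      rcases hthree _ hg hgs2 hgs1 with h2 | h2 | h2
      · rw [h2] at h1; exact h1
      · rw [h2] at h1; exact h1.trans (hαc u).symm
      · rw [h2] at h1; exact h1.trans ((hαc u).trans (hαc v)).symm
    intro s t hs ht
    exact (hconj s hs).trans (hconj t ht).symm

end Cfsg.Agent.S0946
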