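import Cfsg.Statements.S0947
import Cfsg.Agent.Lib.Block.Principal

set_option autoImplicit false
open Cfsg Cfsg.Agent.Lib.Block

namespace Cfsg.Agent.S0947

/-- Let z ≠ 1 be a p-element of the finite group G with centralizer H, and fix a maximal ideal M of the algebraic integers containing p. (i) For every y ∈ H of order prime to p, the sum over ζ in the principal block of G of |ζ (z * y)|² equals the sum over χ in the principal block of H of |χ y|². (ii) If moreover H has a normal p-complement (its largest normal subgroup of order prime to p has p-power index), that common value is the largest power of p dividing the order of H. -/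
theorem result {G : Type*} [Group G] [Finite G] (p : ℕ) [Fact p.Prime] (M : Ideal Cfsg.AlgInt) (hM : Cfsg.IsPModular p M) (z : G) (hz : ∃ k : ℕ, orderOf z = p ^ k) (hz1 : z ≠ 1) (y : Subgroup.centralizer ({z} : Set G)) (hy : ¬ p ∣ orderOf y) : (∑ᶠ ζ ∈ Cfsg.principalBlock M G, ‖(ζ : G → ℂ) (z * (y : G))‖ ^ 2 = ∑ᶠ χ ∈ Cfsg.principalBlock M (Subgroup.centralizer ({z} : Set G)), ‖(χ : Subgroup.centralizer ({z} : Set G) → ℂ) y‖ ^ 2) ∧ ((∃ k : ℕ, (Cfsg.pPrimeCore p (Subgroup.centralizer ({z} : Set G))).index = p ^ k) → ∑ᶠ ζ ∈ Cfsg.principalBlock M G, ‖(ζ : G → ℂ) (z * (y : G))‖ ^ 2 = ((p ^ (Nat.card (Subgroup.centralizer ({z} : Set G))).factorization p : ℕ) : ℝ)) := by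
  classical
  have := Fintype.ofFinite G
  have : Fintype (Subgroup.centralizer ({z} : Set G)) := Fintype.ofFinite _
  have key := sum_principal_section hM hz y hy
  have e1 := finsum_normSq_cast (principalBlock M G) (z * (y : G))
  have e2 := finsum_normSq_cast (principalBlock M (Subgroup.centralizer ({z} : Set G))) y
  have h1 : ∑ᶠ ζ ∈ principalBlock M G, ‖(ζ : G → ℂ) (z * (y : G))‖ ^ 2 =
      ∑ᶠ χ ∈ principalBlock M (Subgroup.centralizer ({z} : Set G)),
        ‖(χ : Subgroup.centralizer ({z} : Set G) → ℂ) y‖ ^ 2 := by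
    apply Complex.ofReal_injective
    rw [e1, e2]
    convert key
  refine ⟨h1, ?_⟩
  intro hidx
  have := isPModular_isPrime hM
  have : Fintype (pPrimeCore p (Subgroup.centralizer ({z} : Set G))) := Fintype.ofFinite _
  have h2 := sum_principal_pNilpotent (G := Subgroup.centralizer ({z} : Set G)) hM
    (pPrimeCore p (Subgroup.centralizer ({z} : Set G))) Cfsg.Agent.Lib.Core.not_dvd_card_pPrimeCore hidx y hy
  apply Complex.ofReal_injective
  rw [h1, e2]
  push_cast
  convert h2 using 1
  push_cast
  rfl

end Cfsg.Agent.S0947
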