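import Cfsg.Statements.S0952
import Cfsg.Agent.Lib.Block.Ortho
import Mathlib

set_option autoImplicit false
open scoped ComplexConjugate
open Cfsg

namespace Cfsg.Agent.S0952

/-- Let χ and ψ be irreducible characters of the finite group G lying in different blocks relative to a maximal ideal M of the algebraic integers containing the prime p. Then the sum of χ x * conj (ψ x) over the elements x of order prime to p is zero. -/
theorem result {G : Type*} [Group G] [Finite G] (p : ℕ) [Fact p.Prime] (M : Ideal Cfsg.AlgInt) (hM : Cfsg.IsPModular p M) (χ ψ : Cfsg.IrrCharacter G) (h : ¬ Cfsg.SameBlock M (χ : G → ℂ) (ψ : G → ℂ)) : ∑ᶠ x ∈ {x : G | ¬ p ∣ orderOf x}, (χ : G → ℂ) x * conj ((ψ : G → ℂ) x) = 0 := by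
  classical
  have := Fintype.ofFinite G
  have := Cfsg.Agent.Lib.Block.isPModular_isPrime hM
  have hB := Cfsg.Agent.Lib.Block.isPBlock_blockOf (M := M) ψ
  have hU := Cfsg.Agent.Lib.Block.isBlockUnion_of_isPBlock hB
  have hχ : χ ∉ Cfsg.blockOf M (ψ : G → ℂ) := fun hh =>
    h (Cfsg.Agent.Lib.Block.sameBlock_symm hh)
  have h1 := Cfsg.Agent.Lib.Block.sum_regular_eq_zero hM hU hχ
    (Cfsg.Agent.Lib.Block.mem_blockOf_self ψ)
  rw [finsum_mem_eq_sum_of_inter_support_eq _ (s := _) (t := (Finset.univ.filter (fun x : G => ¬ p ∣ orderOf x) : Finset G)) ?_]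
  · exact h1
  · ext x
    simp

end Cfsg.Agent.S0952
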