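import Cfsg.Statements.S0953
import Cfsg.Agent.Lib.Block.NormalSylowCount

set_option autoImplicit false
open Cfsg

namespace Cfsg.Agent.S0953

/-- Let P be a Sylow p-subgroup of the finite group G with normalizer N, and fix a maximal ideal M of the algebraic integers containing p. The number of blocks of G having P as a defect group equals the number of conjugacy classes of N consisting of elements of order prime to p that centralize P. -/
theorem result {G : Type*} [Group G] [Finite G] (p : ℕ) [Fact p.Prime] (M : Ideal Cfsg.AlgInt) (hM : Cfsg.IsPModular p M) (P : Sylow p G) : Nat.card {B : Set (Cfsg.IrrCharacter G) // Cfsg.IsPBlock M B ∧ Cfsg.IsDefectGroup p M B (P : Subgroup G)} = Nat.card {C : ConjClasses (Subgroup.normalizer ((P : Subgroup G) : Set G)) // ∀ n : Subgroup.normalizer ((P : Subgroup G) : Set G), ConjClasses.mk n = C → ¬ p ∣ orderOf n ∧ (n : G) ∈ Subgroup.centralizer ((P : Subgroup G) : Set G)} := by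
  classical
  have := Fintype.ofFinite G
  have := Fintype.ofFinite (Subgroup.normalizer ((P : Subgroup G) : Set G))
  rw [Lib.Block.card_blocks_defect_eq_normalizer hM P.isPGroup']
  have hPN : (P : Subgroup G) ≤ Subgroup.normalizer ((P : Subgroup G) : Set G) := Lib.Block.le_normalizer_self _
  haveI hDn : ((P : Subgroup G).subgroupOf (Subgroup.normalizer ((P : Subgroup G) : Set G))).Normal :=
    Lib.Block.normal_subgroupOf_normalizer _
  rw [Lib.Block.card_blocks_normal_sylow M hM ((P : Subgroup G).subgroupOf (Subgroup.normalizer ((P : Subgroup G) : Set G))) (P.subtype hPN) (Sylow.coe_subtype _ _)]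
  refine Nat.card_congr (Equiv.subtypeEquivRight fun C => ?_)
  refine forall_congr' fun n => imp_congr_right fun _ => and_congr_right fun _ => ?_
  constructor
  · intro h
    refine Subgroup.mem_centralizer_iff.mpr fun q hq => ?_
    have := Subgroup.mem_centralizer_iff.mp h ⟨q, hPN hq⟩ (Subgroup.mem_subgroupOf.mpr hq)
    exact congrArg Subtype.val this
  · intro h
    refine Subgroup.mem_centralizer_iff.mpr fun q hq => ?_
    apply Subtype.ext
    exact Subgroup.mem_centralizer_iff.mp h q (Subgroup.mem_subgroupOf.mp hq)

end Cfsg.Agent.S0953
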