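import Cfsg.Statements.S0955
import Cfsg.Agent.Lib.Block.FirstMain2
import Cfsg.Agent.Lib.Core.Basic

set_option autoImplicit false
open Cfsg

namespace Cfsg.Agent.S0955

open Cfsg.Agent.Lib.Block

/-- Let D be a defect group of a block of the finite group G relative to a maximal ideal M of the algebraic integers containing the prime p. Then D is the largest normal p-subgroup of its own normalizer: O_p(N_G(D)) = D. -/
theorem result {G : Type*} [Group G] [Finite G] (p : ℕ) [Fact p.Prime] (M : Ideal Cfsg.AlgInt) (hM : Cfsg.IsPModular p M) (B : Set (Cfsg.IrrCharacter G)) (hB : Cfsg.IsPBlock M B) (D : Subgroup G) (hD : Cfsg.IsDefectGroup p M B D) : (Cfsg.pCore p (Subgroup.normalizer (D : Set G))).map (Subgroup.normalizer (D : Set G)).subtype = D := by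
  
  classical
  have := Fintype.ofFinite G
  have := Fintype.ofFinite (Subgroup.normalizer (D : Set G))
  have := isPModular_isPrime hM
  have hDp : IsPGroup p D := by
    obtain ⟨y, _, Q, rfl⟩ := hD
    exact (Q.isPGroup').map _
  obtain ⟨b, hb, hDb⟩ := exists_block_normalizer hM hB hD
  haveI hcn := Cfsg.Agent.Lib.Core.pCore_normal p (Subgroup.normalizer (D : Set G))
  have h1 := normal_le_defect hM (Cfsg.Agent.Lib.Core.pCore_isPGroup p _) hb.1 hDb
  haveI hQn := normal_subgroupOf_normalizer D
  have hQ : IsPGroup p (D.subgroupOf (Subgroup.normalizer (D : Set G))) :=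
    hDp.comap_of_injective _ (Subgroup.subtype_injective _)
  have h2 : D.subgroupOf (Subgroup.normalizer (D : Set G)) ≤ Cfsg.pCore p (Subgroup.normalizer (D : Set G)) :=
    Cfsg.Agent.Lib.Core.le_pCore hQn hQ
  have h3 : Cfsg.pCore p (Subgroup.normalizer (D : Set G)) = D.subgroupOf (Subgroup.normalizer (D : Set G)) :=
    le_antisymm h1 h2
  rw [h3]
  exact map_subgroupOf_normalizer D

end Cfsg.Agent.S0955
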