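import Cfsg.Statements.S0957
import Cfsg.Agent.Lib.Block.Group
import Mathlib

set_option autoImplicit false
open Cfsg

namespace Cfsg.Agent.S0957

open Cfsg.Agent.Lib.Block

/-- Let P be a Sylow p-subgroup of the finite group G, let g, h ∈ G and let p ^ d be the order of a Sylow p-subgroup of the centralizer of g. Then the number of pairs (y, z) with y conjugate to g, z conjugate to h and z * y⁻¹ ∈ P is divisible by the order of P divided by p ^ d. -/
theorem result {G : Type*} [Group G] [Finite G] (p : ℕ) [Fact p.Prime] (P : Sylow p G) (g h : G) (S : Sylow p (Subgroup.centralizer ({g} : Set G))) : Nat.card P / Nat.card S ∣ Nat.card {yz : G × G // IsConj g yz.1 ∧ IsConj h yz.2 ∧ yz.2 * yz.1⁻¹ ∈ (P : Subgroup G)} := by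
  classical
  let X := {yz : G × G // IsConj g yz.1 ∧ IsConj h yz.2 ∧ yz.2 * yz.1⁻¹ ∈ (P : Subgroup G)}
  let act : MulAction (P : Subgroup G) X :=
    { smul := fun u xy => ⟨((u : G) * xy.1.1 * (u : G)⁻¹, (u : G) * xy.1.2 * (u : G)⁻¹), by
        refine ⟨xy.2.1.trans (isConj_iff.mpr ⟨u, rfl⟩), xy.2.2.1.trans (isConj_iff.mpr ⟨u, rfl⟩), ?_⟩
        have h1 := xy.2.2.2
        have h2 : (u : G) * xy.1.2 * (u : G)⁻¹ * ((u : G) * xy.1.1 * (u : G)⁻¹)⁻¹
            = (u : G) * (xy.1.2 * xy.1.1⁻¹) * (u : G)⁻¹ := by group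
        show (u : G) * xy.1.2 * (u : G)⁻¹ * ((u : G) * xy.1.1 * (u : G)⁻¹)⁻¹ ∈ (P : Subgroup G)
        rw [h2]
        exact (P : Subgroup G).mul_mem ((P : Subgroup G).mul_mem u.2 h1) ((P : Subgroup G).inv_mem u.2)⟩
      one_smul := fun xy => by
        apply Subtype.ext
        apply Prod.ext
        · show (((1 : (P : Subgroup G)) : G)) * xy.1.1 * ((1 : (P : Subgroup G)) : G)⁻¹ = xy.1.1
          simp
        · show (((1 : (P : Subgroup G)) : G)) * xy.1.2 * ((1 : (P : Subgroup G)) : G)⁻¹ = xy.1.2
          simp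
      mul_smul := fun u v xy => by
        apply Subtype.ext
        apply Prod.ext
        · show ((u * v : (P : Subgroup G)) : G) * xy.1.1 * ((u * v : (P : Subgroup G)) : G)⁻¹
            = (u : G) * ((v : G) * xy.1.1 * (v : G)⁻¹) * (u : G)⁻¹
          push_cast
          group
        · show ((u * v : (P : Subgroup G)) : G) * xy.1.2 * ((u * v : (P : Subgroup G)) : G)⁻¹
            = (u : G) * ((v : G) * xy.1.2 * (v : G)⁻¹) * (u : G)⁻¹
          push_cast
          group }
  refine dvd_card_of_forall_orbit (Γ := (P : Subgroup G)) (X := X) _ fun x => ?_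
  -- orbit size = |P| / |Stab|
  have hPp : IsPGroup p (P : Subgroup G) := P.isPGroup'
  set St := MulAction.stabilizer (P : Subgroup G) x with hSt
  have hidx : Nat.card (MulAction.orbit (P : Subgroup G) x) = St.index := by
    rw [hSt, MulAction.index_stabilizer]
    rfl
  rw [hidx]
  have hcard : Nat.card St * St.index = Nat.card (P : Subgroup G) := St.card_mul_index
  obtain ⟨k, hk⟩ := IsPGroup.iff_card.mp (hPp.to_subgroup St)
  -- image of the stabilizer in `G`
  let St' : Subgroup G := St.map (P : Subgroup G).subtype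
  have hSt'card : Nat.card St' = Nat.card St :=
    Subgroup.card_map_of_injective (P : Subgroup G).subtype_injective
  have hle : St' ≤ Subgroup.centralizer ({x.1.1} : Set G) := by
    rintro _ ⟨u, hu, rfl⟩
    rw [mem_centralizer_singleton]
    have h1 : u • x = x := hu
    have h2 : (u : G) * x.1.1 * (u : G)⁻¹ = x.1.1 := congrArg (fun z : X => z.1.1) h1
    show (u : G) * x.1.1 = x.1.1 * (u : G)
    rw [mul_inv_eq_iff_eq_mul] at h2
    exact h2
  have hCcard : Nat.card (Subgroup.centralizer ({x.1.1} : Set G)) =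
      Nat.card (Subgroup.centralizer ({g} : Set G)) :=
    (card_centralizer_of_isConj x.2.1).symm
  have hSc : Nat.card S = p ^ (Nat.card (Subgroup.centralizer ({g} : Set G))).factorization p :=
    S.card_eq_multiplicity
  have hPc : Nat.card P = p ^ (Nat.card G).factorization p := P.card_eq_multiplicity
  have hdvd1 : Nat.card St ∣ Nat.card S := by
    have h1 : p ^ k ∣ Nat.card (Subgroup.centralizer ({g} : Set G)) := by
      rw [← hk, ← hSt'card, ← hCcard]
      exact Subgroup.card_dvd_of_le hle
    have hp := (Fact.out : p.Prime)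
    have h0 : Nat.card (Subgroup.centralizer ({g} : Set G)) ≠ 0 := Nat.card_pos.ne'
    have h2 := (hp.pow_dvd_iff_le_factorization h0).mp h1
    rw [hk, hSc]
    exact pow_dvd_pow p h2
  have hdvd2 : Nat.card S ∣ Nat.card (P : Subgroup G) := by
    rw [hSc]
    show _ ∣ Nat.card P
    rw [hPc]
    have hp := (Fact.out : p.Prime)
    apply pow_dvd_pow
    apply (hp.pow_dvd_iff_le_factorization Nat.card_pos.ne').mp
    have h3 : p ^ (Nat.card (Subgroup.centralizer ({g} : Set G))).factorization p ∣
        Nat.card (Subgroup.centralizer ({g} : Set G)) := Nat.ordProj_dvd _ _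
    exact h3.trans (Subgroup.card_subgroup_dvd_card _)
  obtain ⟨m, hm⟩ := hdvd1
  have hStpos : 0 < Nat.card St := Nat.card_pos
  have h5 : Nat.card (P : Subgroup G) / Nat.card S ∣ St.index := by
    rw [← hcard, hm] at hdvd2 ⊢
    rw [Nat.mul_div_mul_left _ _ hStpos]
    exact Nat.div_dvd_of_dvd ((Nat.mul_dvd_mul_iff_left hStpos).mp hdvd2)
  exact h5

end Cfsg.Agent.S0957
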