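import Cfsg.Statements.S0958
import Cfsg.Agent.Lib.Block.FirstMain2

set_option autoImplicit false
open Cfsg

namespace Cfsg.Agent.S0958

open Cfsg.Agent.Lib.Block

/-- Let P be a p-subgroup of the finite group G and H a subgroup with P ⊔ C_G(P) ≤ H ≤ N_G(P); fix a maximal ideal M of the algebraic integers containing p. Then a block B of G is induced by some block of H if and only if some conjugate of P is contained in a defect group of B. -/
theorem result {G : Type*} [Group G] [Finite G] (p : ℕ) [Fact p.Prime] (M : Ideal Cfsg.AlgInt) (hM : Cfsg.IsPModular p M) (P H : Subgroup G) (hP : IsPGroup p P) (hPH : P ⊔ Subgroup.centralizer (P : Set G) ≤ H) (hHN : H ≤ Subgroup.normalizer (P : Set G)) (B : Set (Cfsg.IrrCharacter G)) (hB : Cfsg.IsPBlock M B) : (∃ b : Set (Cfsg.IrrCharacter H), Cfsg.IsInducedBlock M H b B) ↔ ∃ D : Subgroup G, Cfsg.IsDefectGroup p M B D ∧ ∃ x : G, P.map (MulAut.conj x).toMonoidHom ≤ D := by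
  
  classical
  have := Fintype.ofFinite G
  have := Fintype.ofFinite H
  have := isPModular_isPrime hM
  have hPH' : P ≤ H := le_sup_left.trans hPH
  have hCH : Subgroup.centralizer (P : Set G) ≤ H := le_sup_right.trans hPH
  constructor
  · rintro ⟨b, hb⟩
    obtain ⟨D', hD'⟩ := exists_isDefectGroup hM hb.1
    haveI hQn : (P.subgroupOf H).Normal := (Subgroup.normal_subgroupOf_iff_le_normalizer hPH').mpr hHN
    have hQ : IsPGroup p (P.subgroupOf H) := hP.comap_of_injective _ (Subgroup.subtype_injective _)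
    have h1 : P.subgroupOf H ≤ D' := normal_le_defect hM hQ hb.1 hD'
    obtain ⟨E, hE, hDE⟩ := defect_le_of_induced hM H hb hD'
    refine ⟨E, hE, 1, ?_⟩
    intro q hq
    obtain ⟨u, hu, rfl⟩ := hq
    apply hDE
    refine ⟨⟨u, hPH' hu⟩, h1 (Subgroup.mem_subgroupOf.mpr hu), ?_⟩
    simp
  · rintro ⟨D, hD, x, hx⟩
    obtain ⟨y, hy, Q, rfl⟩ := hD
    -- `x⁻¹ y x` centralizes `P`
    have hyC : x⁻¹ * y * x ∈ Subgroup.centralizer (P : Set G) := by
      refine Subgroup.mem_centralizer_iff.mpr fun q hq => ?_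
      have h1 : x * q * x⁻¹ ∈ Subgroup.map (Subgroup.centralizer ({y} : Set G)).subtype (Q : Subgroup (Subgroup.centralizer ({y} : Set G))) :=
        hx ⟨q, hq, rfl⟩
      obtain ⟨a, _, ha⟩ := h1
      have h2 : (a : G) * y = y * a := mem_centralizer_singleton.mp a.2
      have h3 : (a : G) = x * q * x⁻¹ := ha
      rw [h3] at h2
      calc q * (x⁻¹ * y * x) = x⁻¹ * ((x * q * x⁻¹) * y) * x := by group
        _ = x⁻¹ * (y * (x * q * x⁻¹)) * x := by rw [h2]
        _ = x⁻¹ * y * x * q := by group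
    have hy2 : ¬ Cfsg.MemLocalIdeal M (Cfsg.blockCoeff B (x⁻¹ * y * x)) := by
      have := blockCoeff_conj B x⁻¹ y
      rw [inv_inv] at this
      rw [this]
      exact hy.2.1
    exact exists_block_inducing hM hP hPH' hCH hHN hB hy2 hyC

end Cfsg.Agent.S0958
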