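import Cfsg.Statements.S0959
import Cfsg.Agent.Lib.Block.FirstMain2

set_option autoImplicit false
open Cfsg

namespace Cfsg.Agent.S0959

open Cfsg.Agent.Lib.Block

/-- Let B be a block of the finite group G with defect group D (relative to a maximal ideal M of the algebraic integers containing the prime p), and let P be a p-subgroup. Then there is an element g whose idempotent coefficient for B is a local integer outside the local ideal at M and which has a conjugate centralizing P, if and only if some conjugate of P is contained in D. -/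
theorem result {G : Type*} [Group G] [Finite G] (p : ℕ) [Fact p.Prime] (M : Ideal Cfsg.AlgInt) (hM : Cfsg.IsPModular p M) (B : Set (Cfsg.IrrCharacter G)) (hB : Cfsg.IsPBlock M B) (D : Subgroup G) (hD : Cfsg.IsDefectGroup p M B D) (P : Subgroup G) (hP : IsPGroup p P) : (∃ g : G, Cfsg.MemLocalRing M (Cfsg.blockCoeff B g) ∧ ¬ Cfsg.MemLocalIdeal M (Cfsg.blockCoeff B g) ∧ ∃ c : G, IsConj g c ∧ c ∈ Subgroup.centralizer (P : Set G)) ↔ ∃ x : G, P.map (MulAut.conj x).toMonoidHom ≤ D := by
  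
  classical
  have := Fintype.ofFinite G
  have := isPModular_isPrime hM
  obtain ⟨y, hy, Q, rfl⟩ := hD
  obtain ⟨χ, hχ⟩ := IsPBlock_nonempty hB
  constructor
  · rintro ⟨g, _, hg, c, hgc, hc⟩
    have hc2 : ¬ Cfsg.MemLocalIdeal M (Cfsg.blockCoeff B c) := by
      rwa [blockCoeff_of_isConj B hgc]
    obtain ⟨x, hx⟩ := minmax_le hM hB hχ (hy.2.2 χ hχ) hc2 hP (mem_centralizer_symm hc) Q
    refine ⟨x⁻¹, ?_⟩
    rintro _ ⟨q, hq, rfl⟩
    obtain ⟨t, ht, hte⟩ := hx hq
    have hte' : x * t * x⁻¹ = q := hte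
    show x⁻¹ * q * x⁻¹⁻¹ ∈ _
    rw [← hte']
    have h4 : x⁻¹ * (x * t * x⁻¹) * x⁻¹⁻¹ = t := by group
    rw [h4]
    exact ht
  · rintro ⟨x, hx⟩
    refine ⟨y, hy.1, hy.2.1, x⁻¹ * y * x, ?_, ?_⟩
    · exact isConj_iff.mpr ⟨x⁻¹, by group⟩
    · refine Subgroup.mem_centralizer_iff.mpr fun q hq => ?_
      have h1 : x * q * x⁻¹ ∈ Subgroup.map (Subgroup.centralizer ({y} : Set G)).subtype (Q : Subgroup (Subgroup.centralizer ({y} : Set G))) :=
        hx ⟨q, hq, rfl⟩
      obtain ⟨a, _, ha⟩ := h1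
      have h2 : (a : G) * y = y * a := mem_centralizer_singleton.mp a.2
      have h3 : (a : G) = x * q * x⁻¹ := ha
      rw [h3] at h2
      calc q * (x⁻¹ * y * x) = x⁻¹ * ((x * q * x⁻¹) * y) * x := by group
        _ = x⁻¹ * (y * (x * q * x⁻¹)) * x := by rw [h2]
        _ = x⁻¹ * y * x * q := by group

end Cfsg.Agent.S0959
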