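import Cfsg.Statements.S4441
import Mathlib
import Cfsg.Agent.Lib.FF.DefOneFinal

set_option autoImplicit false
open Cfsg

namespace Cfsg.Agent.S4441

/-- Let p be an odd prime and G a finite group whose Sylow p-subgroup P has order p; let C = C_G(P), N = N_G(P), e the index of C in N and t = (p − 1)/e; fix a maximal ideal M of the algebraic integers containing p and let B₀ be the principal block. Then B₀ is the disjoint union of a set X of e characters and a set Y of t characters such that: each χ ∈ X has a sign ε_χ with χ(1) ≡ ε_χ (mod p) and χ(x y) = ε_χ for every non-identity x ∈ P and every p-regular y ∈ C; all members of Y agree on the p-regular elements of G; there is one sign ε with θ(1) ≡ ε e (mod p) for every θ ∈ Y; and for every θ ∈ Y and every p-regular g, ε θ(g) = Σ_{χ ∈ X} ε_χ χ(g). -/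
theorem result {G : Type*} [Group G] [Fintype G] (p : ℕ) [Fact p.Prime] (M : Ideal Cfsg.AlgInt) (hM : Cfsg.IsPModular p M) (hodd : p ≠ 2) (P : Sylow p G) (hP : Nat.card P = p) (e : ℕ) (he : (Subgroup.centralizer ((P : Subgroup G) : Set G)).relIndex (Subgroup.normalizer ((P : Subgroup G) : Set G)) = e) : ∃ X Y : Set (Cfsg.IrrCharacter G), Cfsg.principalBlock M G = X ∪ Y ∧ Disjoint X Y ∧ Nat.card X = e ∧ Nat.card Y = (p - 1) / e ∧ ∃ (εX : Cfsg.IrrCharacter G → ℤ) (ε : ℤ), (∀ χ ∈ X, (εX χ = 1 ∨ εX χ = -1) ∧ (Cfsg.charDegree (χ : G → ℂ) : ℤ) ≡ εX χ [ZMOD p] ∧ ∀ x : G, x ∈ (P : Subgroup G) → x ≠ 1 → ∀ y : G, y ∈ Subgroup.centralizer ((P : Subgroup G) : Set G) → ¬ p ∣ orderOf y → (χ : G → ℂ) (x * y) = (εX χ : ℂ)) ∧ (ε = 1 ∨ ε = -1) ∧ (∀ θ ∈ Y, (Cfsg.charDegree (θ : G → ℂ) : ℤ) ≡ ε * (e : ℤ) [ZMOD p]) ∧ (∀ θ ∈ Y, ∀ θ' ∈ Y, ∀ g : G, ¬ p ∣ orderOf g → (θ : G → ℂ) g = (θ' : G → ℂ) g) ∧ ∀ θ ∈ Y, ∀ g : G, ¬ p ∣ orderOf g → (ε : ℂ) * (θ : G → ℂ) g = ∑ᶠ χ ∈ X,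 (εX χ : ℂ) * (χ : G → ℂ) g := by
  classical
  have hpr := Fact.out (p := p.Prime)
  have hcyc : IsCyclic P := isCyclic_of_prime_card hP
  obtain ⟨g, hg⟩ := IsCyclic.exists_generator (α := P)
  set x : G := (g : G) with hxdef
  have hordg : orderOf g = p := (orderOf_eq_card_of_forall_mem_zpowers hg).trans hP
  have hx : orderOf x = p := by
    rw [hxdef, Subgroup.orderOf_coe, hordg]
  have hPx : (P : Subgroup G) = Subgroup.zpowers x := by
    apply le_antisymm
    · intro y hy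
      obtain ⟨k, hk⟩ := Subgroup.mem_zpowers_iff.mp (hg ⟨y, hy⟩)
      refine Subgroup.mem_zpowers_iff.mpr ⟨k, ?_⟩
      have := congrArg Subtype.val hk
      simpa using this
    · rw [Subgroup.zpowers_le]
      exact g.2
  have hsyl : ¬ p ^ 2 ∣ Nat.card G := by
    intro hd
    have h1 := Sylow.pow_dvd_card_of_pow_dvd_card P hd
    rw [hP] at h1
    have h2 := Nat.le_of_dvd hpr.pos h1
    have h3 := hpr.two_le
    nlinarith
  have hCx : Subgroup.centralizer ((P : Subgroup G) : Set G) = Subgroup.centralizer ({x} : Set G) := by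
    ext y
    rw [Subgroup.mem_centralizer_iff, Subgroup.mem_centralizer_iff, hPx]
    constructor
    · intro h z hz
      rw [Set.mem_singleton_iff.mp hz]
      exact h x (Subgroup.mem_zpowers x)
    · intro h z hz
      obtain ⟨k, rfl⟩ := Subgroup.mem_zpowers_iff.mp hz
      have h2 : Commute y x := (h x rfl).symm
      exact (h2.zpow_right k).symm
  have hle : Subgroup.centralizer ((P : Subgroup G) : Set G) ≤ Subgroup.normalizer ((P : Subgroup G) : Set G) :=
    Subgroup.centralizer_le_normalizer _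
  have hN : Nat.card (Subgroup.normalizer ((Subgroup.zpowers x : Subgroup G) : Set G)) =
      e * Nat.card (Subgroup.centralizer ({x} : Set G)) := by
    have h1 : e * Nat.card (Subgroup.centralizer ((P : Subgroup G) : Set G)) =
        Nat.card (Subgroup.normalizer ((P : Subgroup G) : Set G)) := by
      rw [← he, ← Subgroup.relIndex_bot_left, ← Subgroup.relIndex_bot_left,
        mul_comm, Subgroup.relIndex_mul_relIndex _ _ _ bot_le hle]
    rw [hCx] at h1
    rw [← hPx, h1]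
  obtain ⟨X, Y, h1, h2, h3, h4, εX, ε, h5, h6, h7, h8, h9⟩ :=
    Cfsg.Agent.Lib.FF.block_main (M := M) hM hx hsyl e hN
  refine ⟨X, Y, h1, h2, h3, h4, εX, ε, ?_, h6, h7, h8, h9⟩
  intro χ hχ
  obtain ⟨h10, h11, h12⟩ := h5 χ hχ
  refine ⟨h10, h11, ?_⟩
  intro x' hx' hx1 y hy hyo
  rw [hPx] at hx'
  refine h12 x' hx' hx1 y ?_ hyo
  rw [hCx, Subgroup.mem_centralizer_singleton_iff] at hy
  exact hy

end Cfsg.Agent.S4441
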