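import Cfsg.Statements.S0965
import Cfsg.Agent.Lib.Block.Cover

set_option autoImplicit false
open Cfsg Cfsg.Agent.Lib.Block

namespace Cfsg.Agent.S0965

/-- Let N be a normal subgroup of the finite group G and let B, b be blocks of G and of N relative to a maximal ideal M of the algebraic integers containing the prime p. Then some χ ∈ B has a constituent in b on restriction to N if and only if, for all χ ∈ B, θ ∈ b and n ∈ N, the central character of χ at n is congruent modulo the local ideal at M to the sum of θ m / θ 1 over the elements m ∈ N conjugate in G to n. -/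
theorem result {G : Type*} [Group G] [Fintype G] (p : ℕ) [Fact p.Prime] (M : Ideal Cfsg.AlgInt) (hM : Cfsg.IsPModular p M) (N : Subgroup G) [N.Normal] [Fintype N] (B : Set (Cfsg.IrrCharacter G)) (hB : Cfsg.IsPBlock M B) (b : Set (Cfsg.IrrCharacter N)) (hb : Cfsg.IsPBlock M b) : (∃ χ ∈ B, ∃ θ ∈ b, Cfsg.classInner (fun n : N => (χ : G → ℂ) n) (θ : N → ℂ) ≠ 0) ↔ ∀ χ ∈ B, ∀ θ ∈ b, ∀ n : N, Cfsg.MemLocalIdeal M (Cfsg.centralChar (χ : G → ℂ) (n : G) - Cfsg.inducedCentralChar N (θ : N → ℂ) (n : G)) := by
  have := isPModular_isPrime hM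
  constructor
  · rintro ⟨χ₀, hχ₀, θ₀, hθ₀, hc⟩ χ hχ θ hθ n
    have h1 := (constituent_iff_centralChar N χ₀ θ₀).1 hc n
    have h2 := sameBlock_of_mem hB hχ hχ₀ (n : G)
    have h3 := memLocalIdeal_induced_sub_of_sameBlock θ₀.2 θ.2 (sameBlock_of_mem hb hθ₀ hθ) (n : G)
    rw [h1] at h2
    exact memLocalIdeal_sub_trans h2 h3
  · intro h
    obtain ⟨χ, hχ⟩ := IsPBlock_nonempty hB
    obtain ⟨θ, hθ⟩ := IsPBlock_nonempty hb
    refine ⟨χ, hχ, ?_⟩
    have hst := isStable_sat N b
    have hun := isBlockUnion_sat N (isBlockUnion_of_isPBlock hb)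
    have hcen := isCentralElt_incl_blockElt N hst
    have hmem : χ ∈ overSet N (sat N b) := by
      by_contra hcon
      have h0 := om_over_of_notMem N hst hcon
      have h1 : MemLocalIdeal M (om (χ : G → ℂ) (incl N (blockElt (sat N b))) -
          om (θ : N → ℂ) (resAlg N (incl N (blockElt (sat N b))))) := by
        classical
        have : Fintype (ConjClasses G) := Fintype.ofFinite _
        rw [om_resAlg_eq_sum N hcen, om_eq_sum_conjClasses hcen
          (Cfsg.Agent.Lib.Char.IsCharacter.isClassFunction (Cfsg.Agent.Lib.Char.IsIrrCharacter.isCharacter χ.2)),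
          ← Finset.sum_sub_distrib]
        apply memLocalIdeal_sum
        intro c _
        rw [← mul_sub]
        by_cases hc : c.out ∈ N
        · exact memLocalIdeal_mul_left (localCoeff_incl N (localCoeff_blockElt hun) _) (h χ hχ θ hθ ⟨c.out, hc⟩)
        · rw [coeff_incl_of_notMem N _ hc, zero_mul]
          exact memLocalIdeal_zero
      rw [h0, resAlg_incl, om_blockElt_of_mem (subset_sat N b hθ), zero_sub] at h1
      have h2 := memLocalIdeal_neg h1
      rw [neg_neg] at h2
      exact not_memLocalIdeal_one h2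
    rw [over_sat_iff] at hmem
    exact hmem

end Cfsg.Agent.S0965
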