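import Cfsg.Statements.S0971
import Cfsg.Agent.Lib.Block.Cover

set_option autoImplicit false
open Cfsg Cfsg.Agent.Lib.Block

namespace Cfsg.Agent.S0971

/-- Let Q be a normal p-subgroup of the finite group G, let N = Q ⊔ C_G(Q) (a normal subgroup) and let b be a block of N relative to a maximal ideal M of the algebraic integers containing p. Then b induces some block of G, and every block B of G containing a character whose restriction to N has a constituent in b is induced by b. -/
theorem result {G : Type*} [Group G] [Fintype G] (p : ℕ) [Fact p.Prime] (M : Ideal Cfsg.AlgInt) (hM : Cfsg.IsPModular p M) (Q : Subgroup G) [Q.Normal] (hQ : IsPGroup p Q) [Fintype ↥(Q ⊔ Subgroup.centralizer (Q : Set G))] (b : Set (Cfsg.IrrCharacter ↥(Q ⊔ Subgroup.centralizer (Q : Set G)))) (hb : Cfsg.IsPBlock M b) : Cfsg.InducedBlockDefined M (Q ⊔ Subgroup.centralizer (Q : Set G)) b ∧ ∀ B : Set (Cfsg.IrrCharacter G), Cfsg.IsPBlock M B → (∃ χ ∈ B, ∃ θ ∈ b, Cfsg.classInner (fun n : ↥(Q ⊔ Subgroup.centralizer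 (Q : Set G)) => (χ : G → ℂ) n) (θ : ↥(Q ⊔ Subgroup.centralizer (Q : Set G)) → ℂ) ≠ 0) → Cfsg.IsInducedBlock M (Q ⊔ Subgroup.centralizer (Q : Set G)) b B := by
  have := isPModular_isPrime hM
  have hNn : (Q ⊔ Subgroup.centralizer (Q : Set G)).Normal := inferInstance
  refine ⟨inducedBlockDefined_of_normalizer hM hQ le_sup_left le_sup_right
    (by rw [Subgroup.normalizer_eq_top]; exact le_top) hb, ?_⟩
  rintro B hB ⟨χ₀, hχ₀, θ₀, hθ₀, hc⟩
  refine ⟨hb, hB, ?_⟩
  intro ξ hξ χ hχ g
  have h1 := memLocalIdeal_induced_sub_of_sameBlock ξ.2 θ₀.2 (sameBlock_of_mem hb hξ hθ₀) g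
  have h2 := sameBlock_of_mem hB hχ₀ hχ g
  refine memLocalIdeal_sub_trans h1 (memLocalIdeal_sub_trans ?_ h2)
  by_cases hg : g ∈ Q ⊔ Subgroup.centralizer (Q : Set G)
  · have := (constituent_iff_centralChar _ χ₀ θ₀).1 hc ⟨g, hg⟩
    simp only at this
    rw [this, sub_self]
    exact memLocalIdeal_zero
  · have h3 : inducedCentralChar (Q ⊔ Subgroup.centralizer (Q : Set G)) (θ₀ : ↥(Q ⊔ Subgroup.centralizer (Q : Set G)) → ℂ) g = 0 := by
      unfold inducedCentralChar
      apply finsum_mem_eq_zero_of_forall_eq_zero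
      intro h hh
      exfalso
      apply hg
      obtain ⟨c, hc⟩ := isConj_iff.1 (IsConj.symm hh)
      rw [← hc]
      exact hNn.conj_mem _ h.2 c
    rw [h3, zero_sub]
    apply memLocalIdeal_neg
    apply memLocalIdeal_centralChar_of_no_centralize hM Q hQ _ χ₀.2
    intro x hx hxC
    apply hg
    apply Subgroup.mem_sup_right
    exact mem_centralizer_of_isConj Q hx hxC

end Cfsg.Agent.S0971
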