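import Cfsg.Statements.S0985
import Cfsg.Agent.Lib.Perm.Basic
import Mathlib

set_option autoImplicit false
open Cfsg

namespace Cfsg.Agent.S0985

/-- If the number of Sylow p-subgroups of a finite group is not congruent to 1 modulo p^k, then there are two distinct Sylow p-subgroups P and R such that the index of P ∩ R in P is at most p^(k-1). -/
theorem result {G : Type*} [Group G] [Finite G] (p k : ℕ) [Fact p.Prime] (h : ¬ Nat.card (Sylow p G) ≡ 1 [MOD p ^ k]) : ∃ P R : Sylow p G, P ≠ R ∧ ((R : Subgroup G).subgroupOf (P : Subgroup G)).index ≤ p ^ (k - 1) := by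
  classical
  by_contra hcon
  push Not at hcon
  obtain ⟨P⟩ : Nonempty (Sylow p G) := inferInstance
  have hk : k ≠ 0 := by
    rintro rfl
    apply h
    simp [Nat.ModEq, Nat.mod_one]
  let A : Set (Sylow p G) := {R | R ≠ P}
  have hPfix : ∀ g ∈ (P : Subgroup G), g • P = P := by
    intro g hg
    rw [Sylow.smul_eq_iff_mem_normalizer]
    exact Subgroup.le_normalizer hg
  have hd : p ^ k ∣ A.ncard := by
    apply Cfsg.Agent.Lib.Perm.dvd_ncard_of_orbits (P : Subgroup G) A
    · intro g hg R hR hR2
      apply hR
      have : g⁻¹ • (g • R) = g⁻¹ • P := by rw [hR2]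
      rw [inv_smul_smul, hPfix g⁻¹ ((P : Subgroup G).inv_mem hg)] at this
      exact this
    · intro R hR
      -- orbit size is the index
      have h1 : (MulAction.orbit (P : Subgroup G) R).ncard =
          (MulAction.stabilizer (P : Subgroup G) R).index := by
        rw [MulAction.index_stabilizer]
      have h2 : MulAction.stabilizer (P : Subgroup G) R = (R : Subgroup G).subgroupOf (P : Subgroup G) := by
        ext u
        rw [MulAction.mem_stabilizer_iff, Subgroup.mem_subgroupOf]
        have h5 : (P : Subgroup G) ⊓ Subgroup.normalizer ((R : Subgroup G) : Set G) =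
            (P : Subgroup G) ⊓ (R : Subgroup G) := IsPGroup.inf_normalizer_sylow P.isPGroup' R
        have h3 : (u : G) ∈ (P : Subgroup G) ⊓ Subgroup.normalizer ((R : Subgroup G) : Set G) ↔
            (u : G) ∈ (P : Subgroup G) ⊓ (R : Subgroup G) := by
          rw [h5]
        constructor
        · intro hu
          have h4 : (u : G) ∈ Subgroup.normalizer ((R : Subgroup G) : Set G) :=
            Sylow.smul_eq_iff_mem_normalizer.mp hu
          exact (h3.mp ⟨u.2, h4⟩).2
        · intro hu
          have h4 := (h3.mpr ⟨u.2, hu⟩).2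
          exact Sylow.smul_eq_iff_mem_normalizer.mpr h4
      rw [h1, h2]
      have hlt := hcon P R (Ne.symm hR)
      -- the index is a power of `p`
      have hdvd : ((R : Subgroup G).subgroupOf (P : Subgroup G)).index ∣ Nat.card (P : Subgroup G) :=
        Subgroup.index_dvd_card _
      obtain ⟨m, hm⟩ := IsPGroup.iff_card.mp P.isPGroup'
      rw [hm] at hdvd
      obtain ⟨j, hj, hj2⟩ := (Nat.dvd_prime_pow (Fact.out : p.Prime)).mp hdvd
      rw [hj2] at hlt ⊢
      have hpp : 1 < p := (Fact.out : p.Prime).one_lt
      have : k - 1 < j := (Nat.pow_lt_pow_iff_right hpp).mp hlt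
      exact pow_dvd_pow p (by omega)
  have hA : A.ncard + 1 = Nat.card (Sylow p G) := by
    have h1 : A = {P}ᶜ := by
      ext R
      simp [A]
    rw [h1, ← Set.ncard_singleton P, add_comm, Set.ncard_add_ncard_compl]
  apply h
  have h1 : 1 ≤ Nat.card (Sylow p G) := by omega
  exact ((Nat.modEq_iff_dvd' h1).mpr (by
    have : Nat.card (Sylow p G) - 1 = A.ncard := by omega
    rw [this]; exact hd)).symm

end Cfsg.Agent.S0985
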