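import Cfsg.Statements.S0986
import Cfsg.Agent.Lib.PGroup.Sylow
import Mathlib

set_option autoImplicit false
open Cfsg

namespace Cfsg.Agent.S0986

open Cfsg.Agent.Lib.PGroup

private lemma mem_smul_sylow {Γ : Type*} [Group Γ] {p : ℕ} (g : Γ) (Q : Sylow p Γ) (x : Γ) :
    x ∈ ((g • Q : Sylow p Γ) : Subgroup Γ) ↔ g⁻¹ * x * g ∈ (Q : Subgroup Γ) := by
  rw [Sylow.coe_subgroup_smul, Subgroup.mem_pointwise_smul_iff_inv_smul_mem]
  simp [MulAut.smul_def, MulAut.conj_inv_apply]

/-- Let P and Q be distinct Sylow p-subgroups of a finite group G chosen so that the order of P ∩ Q is as large as possible among intersections of two distinct Sylow p-subgroups, and let N be the normalizer of P ∩ Q. Then N has more than one Sylow p-subgroup, any two distinct Sylow p-subgroups of N intersect exactly in P ∩ Q, and each Sylow p-subgroup of N lies in exactly one Sylow p-subgroup of G. -/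
theorem result {G : Type*} [Group G] [Finite G] (p : ℕ) [Fact p.Prime] (P Q : Sylow p G) (hPQ : P ≠ Q) (hmax : ∀ P' Q' : Sylow p G, P' ≠ Q' → Nat.card ↥((P' : Subgroup G) ⊓ (Q' : Subgroup G)) ≤ Nat.card ↥((P : Subgroup G) ⊓ (Q : Subgroup G))) : 1 < Nat.card (Sylow p ↥(Subgroup.normalizer (((P : Subgroup G) ⊓ (Q : Subgroup G) : Subgroup G) : Set G))) ∧ (∀ S T : Sylow p ↥(Subgroup.normalizer (((P : Subgroup G) ⊓ (Q : Subgroup G) : Subgroup G) : Set G)), S ≠ T → (S : Subgroup _) ⊓ (T : Subgroup _) = ((P : Subgroup G) ⊓ (Q : Subgroup G)).subgroupOf (Subgroup.normalizer (((P : Subgroup G) ⊓ (Q : Subgroup G) : Subgroup G) : Set G))) ∧ ∀ S : Sylow p ↥(Subgroup.normalizer (((P : Subgroup G) ⊓ (Q : Subgroup G) : Subgroup G) : Set G)), ∃! T : Sylow p G, (S : Subgroup _).map (Subgroup.normalizer (((P : Subgroup G) ⊓ (Q : Subgroup G) : Subgroup G) : Set G)).subtype ≤ (T : Subgroup G) := by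
  classical
  set D : Subgroup G := (P : Subgroup G) ⊓ (Q : Subgroup G) with hD
  set N := Subgroup.normalizer ((D : Subgroup G) : Set G) with hN
  -- large intersections
  have hkey : ∀ T₁ T₂ : Sylow p G, T₁ ≠ T₂ → D ≤ (T₁ : Subgroup G) → D ≤ (T₂ : Subgroup G) →
      (T₁ : Subgroup G) ⊓ (T₂ : Subgroup G) = D := by
    intro T₁ T₂ h12 h1 h2
    symm
    exact Subgroup.eq_of_le_of_card_ge (le_inf h1 h2) (hmax T₁ T₂ h12)
  have hDP : D < (P : Subgroup G) := by
    refine lt_of_le_of_ne inf_le_left ?_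
    intro h
    apply hPQ
    apply sylow_eq_of_le
    rw [← h]
    exact inf_le_right
  have hDQ : D < (Q : Subgroup G) := by
    refine lt_of_le_of_ne inf_le_right ?_
    intro h
    apply hPQ.symm
    apply sylow_eq_of_le
    rw [← h]
    exact inf_le_left
  obtain ⟨x, hxP, hxD, hxN⟩ := exists_mem_normalizer_of_lt P.isPGroup' hDP
  obtain ⟨y, hyQ, hyD, hyN⟩ := exists_mem_normalizer_of_lt Q.isPGroup' hDQ
  -- `D` lies in every Sylow subgroup of `N`
  have hD' : (D.subgroupOf N).Normal := Subgroup.normal_in_normalizer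
  have hDp : IsPGroup p (D.subgroupOf N) :=
    (P.isPGroup'.to_le (inf_le_left : D ≤ (P : Subgroup G))).comap_of_injective N.subtype
      Subtype.val_injective
  have hDS : ∀ S : Sylow p N, D.subgroupOf N ≤ (S : Subgroup N) := by
    intro S
    exact IsPGroup.le_sylow_of_normal hDp S
  -- Sylow subgroups of `N` above Sylow intersections
  have hexS : ∀ R : Sylow p G, ∃ S : Sylow p N, (R : Subgroup G).subgroupOf N ≤ (S : Subgroup N) := by
    intro R
    have h1 : IsPGroup p ((R : Subgroup G).subgroupOf N) :=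
      R.isPGroup'.comap_of_injective N.subtype Subtype.val_injective
    exact h1.exists_le_sylow
  obtain ⟨S₁, hS₁⟩ := hexS P
  obtain ⟨S₂, hS₂⟩ := hexS Q
  have hxS₁ : (⟨x, hxN⟩ : N) ∈ (S₁ : Subgroup N) := hS₁ (Subgroup.mem_subgroupOf.mpr hxP)
  have hyS₂ : (⟨y, hyN⟩ : N) ∈ (S₂ : Subgroup N) := hS₂ (Subgroup.mem_subgroupOf.mpr hyQ)
  have hlift : ∀ S : Sylow p N, ∃ T : Sylow p G, (S : Subgroup N).map N.subtype ≤ (T : Subgroup G) := by
    intro S
    exact (S.isPGroup'.map N.subtype).exists_le_sylow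
  have hDmap : ∀ S : Sylow p N, D ≤ (S : Subgroup N).map N.subtype := by
    intro S d hd
    have hdN : d ∈ N := Subgroup.le_normalizer hd
    exact ⟨⟨d, hdN⟩, hDS S (Subgroup.mem_subgroupOf.mpr hd), rfl⟩
  have hout : ∀ S : Sylow p N, ∃ z ∈ (S : Subgroup N), (z : G) ∉ D := by
    intro S
    obtain ⟨n, hn⟩ := MulAction.exists_smul_eq N S₁ S
    refine ⟨n * ⟨x, hxN⟩ * n⁻¹, ?_, ?_⟩
    · rw [← hn, mem_smul_sylow]
      simpa [mul_assoc] using hxS₁
    · intro h
      apply hxD
      have h1 := (Subgroup.mem_normalizer_iff.mp n.2 x).mpr (by simpa using h)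
      exact h1
  refine ⟨?_, ?_, ?_⟩
  · -- more than one Sylow subgroup
    rw [Finite.one_lt_card_iff_nontrivial]
    refine ⟨S₁, S₂, ?_⟩
    intro hS
    obtain ⟨T, hT⟩ := hlift S₁
    have hxT : x ∈ (T : Subgroup G) := hT ⟨⟨x, hxN⟩, hxS₁, rfl⟩
    have hyT : y ∈ (T : Subgroup G) := hT ⟨⟨y, hyN⟩, hS ▸ hyS₂, rfl⟩
    have hDT := (hDmap S₁).trans hT
    have hTP : T = P := by
      by_contra hne
      have := hkey T P hne hDT inf_le_left
      exact hxD (this ▸ ⟨hxT, hxP⟩)
    have hTQ : T = Q := by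
      by_contra hne
      have := hkey T Q hne hDT inf_le_right
      exact hyD (this ▸ ⟨hyT, hyQ⟩)
    exact hPQ (hTP.symm.trans hTQ)
  · -- distinct Sylow subgroups of `N` meet exactly in `D`
    intro S S' hSS
    apply le_antisymm
    · rintro z ⟨hzS, hzS'⟩
      rw [Subgroup.mem_subgroupOf]
      obtain ⟨T, hT⟩ := hlift S
      obtain ⟨T', hT'⟩ := hlift S'
      have hne : T ≠ T' := by
        rintro rfl
        have h1 : IsPGroup p ((T : Subgroup G).subgroupOf N) :=
          T.isPGroup'.comap_of_injective N.subtype Subtype.val_injective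
        have h2 : (S : Subgroup N) ≤ (T : Subgroup G).subgroupOf N := by
          intro w hw
          exact Subgroup.mem_subgroupOf.mpr (hT ⟨w, hw, rfl⟩)
        have h3 : (S' : Subgroup N) ≤ (T : Subgroup G).subgroupOf N := by
          intro w hw
          exact Subgroup.mem_subgroupOf.mpr (hT' ⟨w, hw, rfl⟩)
        have h4 := S.is_maximal' h1 h2
        have h5 := S'.is_maximal' h1 h3
        exact hSS (Sylow.ext (h4.symm.trans h5))
      have h6 := hkey T T' hne ((hDmap S).trans hT) ((hDmap S').trans hT')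
      rw [← h6]
      exact ⟨hT ⟨z, hzS, rfl⟩, hT' ⟨z, hzS', rfl⟩⟩
    · exact le_inf (hDS S) (hDS S')
  · -- unique Sylow subgroup of `G` above
    intro S
    obtain ⟨T, hT⟩ := hlift S
    refine ⟨T, hT, ?_⟩
    intro T' hT'
    by_contra hne
    obtain ⟨z, hz, hzD⟩ := hout S
    have h6 := hkey T' T hne ((hDmap S).trans hT') ((hDmap S).trans hT)
    apply hzD
    rw [← h6]
    exact ⟨hT' ⟨z, hz, rfl⟩, hT ⟨z, hz, rfl⟩⟩

end Cfsg.Agent.S0986
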