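import Cfsg.Statements.S0987
import Cfsg.Agent.Lib.SmallSimple.Basic
import Mathlib

set_option autoImplicit false
open Cfsg

namespace Cfsg.Agent.S0987

open Cfsg.Agent.Lib.SmallSimple

/-- If a finite group has order pqr for primes p < q < r, then its Sylow r-subgroups are normal. -/
theorem result {G : Type*} [Group G] [Finite G] (p q r : ℕ) (hp : p.Prime) (hq : q.Prime) [Fact r.Prime] (hpq : p < q) (hqr : q < r) (hG : Nat.card G = p * q * r) (R : Sylow r G) : (R : Subgroup G).Normal := by
  classical
  haveI : Fact p.Prime := ⟨hp⟩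
  haveI : Fact q.Prime := ⟨hq⟩
  have hr : r.Prime := Fact.out
  have hpr : p < r := hpq.trans hqr
  have hrnd : ¬ r ∣ p * q := by
    intro h
    rcases (Nat.Prime.dvd_mul hr).mp h with h' | h'
    · exact absurd (Nat.le_of_dvd hp.pos h') (by omega)
    · exact absurd (Nat.le_of_dvd hq.pos h') (by omega)
  have hqnd : ¬ q ∣ p * r := by
    intro h
    rcases (Nat.Prime.dvd_mul hq).mp h with h' | h'
    · exact absurd (Nat.le_of_dvd hp.pos h') (by omega)
    · have h9 := (Nat.prime_dvd_prime_iff_eq hq hr).mp h'
      omega
  have hRcard : Nat.card (R : Subgroup G) = r :=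
    card_sylow_of_exact (p * q) hrnd (by rw [hG]; ring) R
  have hidx : (R : Subgroup G).index = p * q := by
    have h1 := (R : Subgroup G).index_mul_card
    rw [hRcard, hG] at h1
    exact Nat.eq_of_mul_eq_mul_right hr.pos h1
  have hdvd : Nat.card (Sylow r G) ∣ p * q := hidx ▸ Sylow.card_dvd_index R
  have hmod : Nat.card (Sylow r G) % r = 1 % r := card_sylow_modEq_one r G
  have h1r : 1 % r = 1 := Nat.mod_eq_of_lt hr.one_lt
  rcases eq_of_dvd_mul_primes hp hq hdvd with h | h | h | h
  · have hs : Subsingleton (Sylow r G) := (Nat.card_eq_one_iff_unique.mp h).1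
    exact Sylow.normal_of_subsingleton R
  · exfalso
    rw [h, h1r, Nat.mod_eq_of_lt hpr] at hmod
    exact hp.one_lt.ne' hmod
  · exfalso
    rw [h, h1r, Nat.mod_eq_of_lt hqr] at hmod
    exact hq.one_lt.ne' hmod
  · -- the remaining case: count
    exfalso
    obtain ⟨Q⟩ : Nonempty (Sylow q G) := inferInstance
    have hQcard : Nat.card (Q : Subgroup G) = q :=
      card_sylow_of_exact (p * r) hqnd (by rw [hG]; ring) Q
    have hidxQ : (Q : Subgroup G).index = p * r := by
      have h1 := (Q : Subgroup G).index_mul_card
      rw [hQcard, hG] at h1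
      exact Nat.eq_of_mul_eq_mul_right hq.pos (by rw [h1]; ring)
    have hdvdQ : Nat.card (Sylow q G) ∣ p * r := hidxQ ▸ Sylow.card_dvd_index Q
    have hmodQ : Nat.card (Sylow q G) % q = 1 % q := card_sylow_modEq_one q G
    have h1q : 1 % q = 1 := Nat.mod_eq_of_lt hq.one_lt
    have hcases : Nat.card (Sylow q G) = 1 ∨ r ≤ Nat.card (Sylow q G) := by
      rcases eq_of_dvd_mul_primes hp hr hdvdQ with h' | h' | h' | h'
      · exact Or.inl h'
      · exfalso
        rw [h', h1q, Nat.mod_eq_of_lt hpq] at hmodQ
        exact hp.one_lt.ne' hmodQ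
      · exact Or.inr h'.ge
      · right
        rw [h']
        exact Nat.le_mul_of_pos_left r hp.pos
    rcases hcases with hq1 | hqbig
    · -- `Q` is normal
      have hs : Subsingleton (Sylow q G) := (Nat.card_eq_one_iff_unique.mp hq1).1
      haveI hQn : (Q : Subgroup G).Normal := Sylow.normal_of_subsingleton Q
      haveI : IsCyclic (Q : Subgroup G) := isCyclic_of_prime_card hQcard
      have hcard_aut : Nat.card (MulAut (Q : Subgroup G)) = q - 1 := by
        rw [IsCyclic.card_mulAut, hQcard, Nat.totient_prime hq]
      have hcentral : ∀ z ∈ (R : Subgroup G), ∀ y ∈ (Q : Subgroup G), z * y * z⁻¹ = y := by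
        intro z hz y hy
        have h1 : (MulAut.conjNormal z : MulAut (Q : Subgroup G)) ^ r = 1 := by
          rw [← map_pow]
          have h2 : z ^ r = 1 := by
            have := pow_card_eq_one' (x := (⟨z, hz⟩ : (R : Subgroup G)))
            rw [hRcard] at this
            simpa using congrArg Subtype.val this
          rw [h2, map_one]
        have h2 : (MulAut.conjNormal z : MulAut (Q : Subgroup G)) ^ (q - 1) = 1 := by
          rw [← hcard_aut]
          exact pow_card_eq_one'
        have hgcd : Nat.gcd r (q - 1) = 1 := by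
          apply (Nat.Prime.coprime_iff_not_dvd hr).mpr
          intro h5
          have := Nat.le_of_dvd (by have := hq.two_le; omega) h5
          omega
        have h3 := pow_gcd_eq_one.mpr ⟨h1, h2⟩
        rw [hgcd, pow_one] at h3
        have h4 := congrArg (fun φ : MulAut (Q : Subgroup G) => ((φ ⟨y, hy⟩ : (Q : Subgroup G)) : G)) h3
        simpa [MulAut.conjNormal_apply] using h4
      have hQN : (Q : Subgroup G) ≤ Subgroup.normalizer ((R : Subgroup G) : Set G) := by
        intro y hy
        rw [Subgroup.mem_normalizer_iff]
        intro z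
        have hcomm : ∀ w ∈ (R : Subgroup G), y * w * y⁻¹ = w := by
          intro w hw
          have := hcentral w hw y hy
          calc y * w * y⁻¹ = y * (w * y⁻¹ * w⁻¹) * w := by group
            _ = y * (w * y * w⁻¹)⁻¹ * w := by group
            _ = w := by rw [this]; group
        constructor
        · intro hz
          rw [hcomm z hz]; exact hz
        · intro hz
          have h5 : z = y⁻¹ * (y * z * y⁻¹) * y := by group
          have h6 : y⁻¹ * (y * z * y⁻¹) * y = y * z * y⁻¹ := by
            have h7 := hcomm _ hz
            calc y⁻¹ * (y * z * y⁻¹) * y = y⁻¹ * (y * (y * z * y⁻¹) * y⁻¹) * y := by rw [h7]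
              _ = y * z * y⁻¹ := by group
          rw [h5, h6]
          exact hz
      have hnorm_card : Nat.card (Subgroup.normalizer ((R : Subgroup G) : Set G)) = r := by
        have h1 := (Subgroup.normalizer ((R : Subgroup G) : Set G)).index_mul_card
        have h2 : (Subgroup.normalizer ((R : Subgroup G) : Set G)).index = p * q := by
          rw [← h]
          exact (Sylow.card_eq_index_normalizer R).symm
        rw [h2, hG] at h1
        exact Nat.eq_of_mul_eq_mul_left (Nat.mul_pos hp.pos hq.pos) h1
      have h8 : q ∣ r := by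
        rw [← hnorm_card, ← hQcard]
        exact Subgroup.card_dvd_of_le hQN
      have h9 := (Nat.prime_dvd_prime_iff_eq hq hr).mp h8
      omega
    · -- counting elements
      have h1 := card_orderOf_eq_prime R hRcard
      have h2 := card_orderOf_eq_prime Q hQcard
      have h3 := sum_card_orders_le (G := G) {1, r, q}
      rw [Finset.sum_insert (by
          simp only [Finset.mem_insert, Finset.mem_singleton, not_or]
          exact ⟨hr.one_lt.ne, hq.one_lt.ne⟩),
        Finset.sum_insert (by
          simp only [Finset.mem_singleton]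
          omega), Finset.sum_singleton, h1, h2, h, hG] at h3
      have h4 : Nat.card {g : G // orderOf g = 1} = 1 := by
        have : Nat.card {g : G // orderOf g = 1} = Nat.card {g : G // g = 1} :=
          Nat.card_congr (Equiv.subtypeEquivRight (fun g => orderOf_eq_one_iff))
        rw [this]; simp
      rw [h4] at h3
      obtain ⟨r', rfl⟩ : ∃ r', r = r' + 1 := ⟨r - 1, by have := hr.pos; omega⟩
      obtain ⟨q', rfl⟩ : ∃ q', q = q' + 1 := ⟨q - 1, by have := hq.pos; omega⟩
      simp only [Nat.add_sub_cancel] at h3
      have h5 : (r' + 1) * q' ≤ Nat.card (Sylow (q' + 1) G) * q' := Nat.mul_le_mul_right _ hqbig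
      have h6 : q' + 1 < r' + 1 := hqr
      nlinarith

end Cfsg.Agent.S0987
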