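import Cfsg.Statements.S0988
import Mathlib
import Cfsg.Agent.Lib.Char.Burnside
import Cfsg.Agent.Lib.SmallSimple.Basic
import Cfsg.Agent.Lib.SmallSimple.Tools

set_option autoImplicit false
open Cfsg

namespace Cfsg.Agent.S0988

open Lib.SmallSimple in
/-- The smallest prime dividing a non-abelian simple group, with Sylow subgroup of order `s` or
`s^2`, must be `2`, with Sylow subgroup of order `4`, and `3` divides the group order. -/
theorem smallest_prime_key {G : Type*} [Group G] [Finite G] [IsSimpleGroup G]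
    (hnc : ¬ IsMulCommutative G) (s : ℕ) [hs : Fact s.Prime] (hsd : s ∣ Nat.card G)
    (hmin : ∀ t : ℕ, t.Prime → t ∣ Nat.card G → s ≤ t)
    (P : Sylow s G) (hP : Nat.card (P : Subgroup G) = s ∨ Nat.card (P : Subgroup G) = s ^ 2) :
    Nat.card (P : Subgroup G) = s ^ 2 ∧ s = 2 ∧ 3 ∣ Nat.card G := by
  classical
  have hspr := hs.out
  have hcomm : IsMulCommutative (P : Subgroup G) := by
    rcases hP with h | h
    · haveI : Fact (Nat.card (P : Subgroup G)).Prime := ⟨by rw [h]; exact hspr⟩
      obtain ⟨g, hg⟩ := isCyclic_of_prime_card (α := (P : Subgroup G)) rfl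
      refine ⟨⟨fun a b => ?_⟩⟩
      obtain ⟨i, rfl⟩ := hg a
      obtain ⟨j, rfl⟩ := hg b
      exact zpow_mul_comm g i j
    · exact IsPGroup.isMulCommutative_of_card_eq_prime_sq h
  have hnot : ¬ (Subgroup.normalizer ((P : Subgroup G) : Set G) ≤
      Subgroup.centralizer ((P : Subgroup G) : Set G)) :=
    fun h => false_of_normalizer_le_centralizer hnc hsd P h
  obtain ⟨g, hgN, hgC⟩ := Set.not_subset.mp hnot
  let f := Subgroup.normalizerMonoidHom (P : Subgroup G)
  have hker : f.ker = (Subgroup.centralizer ((P : Subgroup G) : Set G)).subgroupOf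
      (Subgroup.normalizer ((P : Subgroup G) : Set G)) := Subgroup.normalizerMonoidHom_ker _
  have hφ : f ⟨g, hgN⟩ ≠ 1 := by
    intro h
    have : (⟨g, hgN⟩ : Subgroup.normalizer ((P : Subgroup G) : Set G)) ∈ f.ker := h
    rw [hker, Subgroup.mem_subgroupOf] at this
    exact hgC this
  have hord1 : orderOf (f ⟨g, hgN⟩) ≠ 1 := by
    intro h
    exact hφ (orderOf_eq_one_iff.mp h)
  obtain ⟨t, htp, htd⟩ := Nat.exists_prime_and_dvd hord1
  have hord0 : orderOf (f ⟨g, hgN⟩) ≠ 0 := (orderOf_pos _).ne'
  set ψ := (f ⟨g, hgN⟩) ^ (orderOf (f ⟨g, hgN⟩) / t) with hψ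
  have hψord : orderOf ψ = t := orderOf_pow_orderOf_div hord0 htd
  -- `t` divides the index of `P`
  have htidx : t ∣ (P : Subgroup G).index := by
    have h1 : t ∣ Nat.card f.range := by
      refine htd.trans ?_
      have := orderOf_dvd_natCard (⟨f ⟨g, hgN⟩, ⟨_, rfl⟩⟩ : f.range)
      rwa [← Subgroup.orderOf_coe] at this
    have h2 : Nat.card (P : Subgroup G) ∣ Nat.card f.ker := by
      rw [hker]
      have hle : (P : Subgroup G) ≤ Subgroup.normalizer ((P : Subgroup G) : Set G) :=
        Subgroup.le_normalizer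
      have h3 : Nat.card (P : Subgroup G) =
          Nat.card ((P : Subgroup G).subgroupOf (Subgroup.normalizer ((P : Subgroup G) : Set G))) := by
        exact (Nat.card_congr (Subgroup.subgroupOfEquivOfLe hle).toEquiv).symm
      rw [h3]
      apply Subgroup.card_dvd_of_le
      intro x hx
      rw [Subgroup.mem_subgroupOf] at hx ⊢
      rw [Subgroup.mem_centralizer_iff]
      intro y hy
      have := hcomm.is_comm.comm (⟨y, hy⟩ : (P : Subgroup G)) ⟨_, hx⟩
      exact congrArg Subtype.val this
    have h3 : Nat.card (Subgroup.normalizer ((P : Subgroup G) : Set G)) =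
        Nat.card f.ker * Nat.card f.range := by
      rw [Subgroup.card_eq_card_quotient_mul_card_subgroup f.ker, mul_comm,
        Nat.card_congr (QuotientGroup.quotientKerEquivRange f).toEquiv]
    have h4 : Nat.card (P : Subgroup G) * t ∣ Nat.card G := by
      refine dvd_trans ?_ (Subgroup.card_subgroup_dvd_card
        (Subgroup.normalizer ((P : Subgroup G) : Set G)))
      rw [h3]
      exact Nat.mul_dvd_mul h2 h1
    rw [← (P : Subgroup G).card_mul_index] at h4
    exact Nat.dvd_of_mul_dvd_mul_left Nat.card_pos h4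
  have hts : t ≠ s := by
    rintro rfl
    exact P.not_dvd_index htidx
  have htG : t ∣ Nat.card G := htidx.trans (P : Subgroup G).index_dvd_card
  have hlt : s < t := lt_of_le_of_ne (hmin t htp htG) (Ne.symm hts)
  -- fixed points of `ψ`
  haveI : Fact t.Prime := ⟨htp⟩
  have hψ1 : ψ ≠ 1 := by
    intro h
    rw [h, orderOf_one] at hψord
    exact htp.one_lt.ne hψord
  let F : Subgroup (P : Subgroup G) := (ψ.toMonoidHom).eqLocus (MonoidHom.id _)
  have hFne : Nat.card F ≠ Nat.card (P : Subgroup G) := by
    intro h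
    have hFtop : F = ⊤ := Subgroup.eq_top_of_card_eq F h
    apply hψ1
    ext x
    have : x ∈ F := by rw [hFtop]; trivial
    exact congrArg Subtype.val this
  have hFd : Nat.card F ∣ Nat.card (P : Subgroup G) := Subgroup.card_subgroup_dvd_card F
  have hmod : Nat.card (P : Subgroup G) ≡ Nat.card F [MOD t] := by
    have := Fintype.ofFinite (P : Subgroup G)
    let e : Function.End ↥(P : Subgroup G) := fun x => ψ x
    have he : e ^ t ^ 1 = 1 := by
      have hh : ∀ (n : ℕ) (x : ↥(P : Subgroup G)), (e ^ n) x = (ψ ^ n) x := by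
        intro n
        induction n with
        | zero => intro x; rfl
        | succ n ih =>
          intro x
          rw [pow_succ, pow_succ]
          exact ih (ψ x)
      funext x
      rw [pow_one, hh, ← hψord, pow_orderOf_eq_one]
      rfl
    have h := Equiv.Perm.card_fixedPoints_modEq (f := e) he
    have h1 : Nat.card (Function.fixedPoints e) = Nat.card F :=
      Nat.card_congr (Equiv.subtypeEquivRight (fun x => Iff.rfl))
    simp only [← Nat.card_eq_fintype_card] at h
    rw [h1] at h
    exact h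
  have hFP : ∀ n : ℕ, Nat.card (P : Subgroup G) = s ^ n → ∀ k, Nat.card F = s ^ k → k < n →
      t ∣ s ^ n - s ^ k := by
    intro n hn k hk hkn
    rw [← hn, ← hk]
    exact (Nat.modEq_iff_dvd' (by rw [hn, hk]; exact Nat.pow_le_pow_right hspr.pos hkn.le)).mp hmod.symm
  have hsm1 : ¬ t ∣ s - 1 := by
    intro h
    have := Nat.le_of_dvd (by have := hspr.two_le; omega) h
    omega
  have hs' : ¬ t ∣ s := by
    intro h
    have := Nat.le_of_dvd hspr.pos h
    omega
  rcases hP with hP | hP
  · exfalso
    have hF1 : Nat.card F = 1 := by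
      rw [hP] at hFd hFne
      rcases (Nat.dvd_prime hspr).mp hFd with h | h
      · exact h
      · exact absurd h hFne
    have := hFP 1 (by rw [hP, pow_one]) 0 (by rw [hF1, pow_zero]) (by norm_num)
    simp only [pow_one, pow_zero] at this
    exact hsm1 this
  · refine ⟨hP, ?_⟩
    rw [hP] at hFd hFne
    obtain ⟨k, hk, hFk⟩ := (Nat.dvd_prime_pow hspr).mp hFd
    have hk' : k = 0 ∨ k = 1 := by
      have : k ≠ 2 := by
        rintro rfl
        exact hFne hFk
      omega
    rcases hk' with rfl | rfl
    · -- no fixed points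
      have h1 := hFP 2 hP 0 hFk (by norm_num)
      have h2 : s ^ 2 - s ^ 0 = (s - 1) * (s + 1) := by
        obtain ⟨m, rfl⟩ : ∃ m, s = m + 1 := ⟨s - 1, by have := hspr.pos; omega⟩
        simp only [Nat.add_sub_cancel, pow_zero]
        have : (m + 1) ^ 2 = m * (m + 1 + 1) + 1 := by ring
        omega
      rw [h2] at h1
      rcases (Nat.Prime.dvd_mul htp).mp h1 with h3 | h3
      · exact absurd h3 hsm1
      · have h4 := Nat.le_of_dvd (by omega) h3
        have h5 : t = s + 1 := by omega
        have h6 : s = 2 := by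
          rcases hspr.eq_two_or_odd' with h | h
          · exact h
          · exfalso
            have : 2 ∣ t := by
              rw [h5]
              exact h.add_one.two_dvd
            rw [Nat.prime_dvd_prime_iff_eq Nat.prime_two htp] at this
            have := hspr.two_le
            omega
        refine ⟨h6, ?_⟩
        have h7 : t = 3 := by omega
        rw [← h7]
        exact htG
    · exfalso
      have h1 := hFP 2 hP 1 hFk (by norm_num)
      have h2 : s ^ 2 - s ^ 1 = s * (s - 1) := by
        obtain ⟨m, rfl⟩ : ∃ m, s = m + 1 := ⟨s - 1, by have := hspr.pos; omega⟩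
        simp only [Nat.add_sub_cancel, pow_one]
        have : (m + 1) ^ 2 = (m + 1) * m + (m + 1) := by ring
        omega
      rw [h2] at h1
      rcases (Nat.Prime.dvd_mul htp).mp h1 with h3 | h3
      · exact hs' h3
      · exact hsm1 h3

open Lib.SmallSimple in
/-- A simple group of order `12 u`, with `u ≥ 5` prime, has order `60`. -/
theorem twelve_mul {G : Type*} [Group G] [Finite G] [IsSimpleGroup G]
    (hnc : ¬ IsMulCommutative G) (u : ℕ) (hu : u.Prime) (hu5 : 5 ≤ u) (hG : Nat.card G = 12 * u) :
    u = 5 := by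
  haveI : Fact u.Prime := ⟨hu⟩
  have hu12 : ¬ u ∣ 12 := by
    intro h
    have h1 : u ≤ 12 := Nat.le_of_dvd (by norm_num) h
    interval_cases u <;> revert h hu <;> norm_num
  obtain ⟨h1, h2, h3, h4, h5⟩ := sylow_facts (G := G) hnc u 1 12 (by rw [hG, pow_one, mul_comm]) hu12
    (by norm_num)
  have hn := (Nat.mem_divisors.mpr ⟨h1, by norm_num⟩ : Nat.card (Sylow u G) ∈ Nat.divisors 12)
  have hdiv : Nat.divisors 12 = {1, 2, 3, 4, 6, 12} := by decide
  rw [hdiv] at hn
  simp only [Finset.mem_insert, Finset.mem_singleton] at hn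
  have h11 : u = 5 ∨ u = 11 := by
    rcases hn with h | h | h | h | h | h <;> rw [h] at h2
    · exact absurd h h3
    · rw [Nat.mod_eq_of_lt (by omega)] at h2; omega
    · rw [Nat.mod_eq_of_lt (by omega)] at h2; omega
    · rw [Nat.mod_eq_of_lt (by omega)] at h2; omega
    · left
      have h7 : u ∣ 5 := (Nat.modEq_iff_dvd' (by norm_num)).mp
        (show 1 ≡ 6 [MOD u] by
          have := Nat.mod_eq_of_lt (show 1 < u by omega)
          exact this.trans h2.symm)
      exact (Nat.prime_dvd_prime_iff_eq hu (by norm_num)).mp h7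
    · right
      have h7 : u ∣ 11 := (Nat.modEq_iff_dvd' (by norm_num)).mp
        (show 1 ≡ 12 [MOD u] by
          have := Nat.mod_eq_of_lt (show 1 < u by omega)
          exact this.trans h2.symm)
      exact (Nat.prime_dvd_prime_iff_eq hu (by norm_num)).mp h7
  rcases h11 with h | h
  · exact h
  · exfalso
    subst h
    rw [hG] at h4
    have hn12 : Nat.card (Sylow 11 G) = 12 := by
      have : ∀ n, n ≤ 12 → n ∣ 12 → n % 11 = 1 → n ≠ 1 → n = 12 := by decide
      exact this _ (Nat.le_of_dvd (by norm_num) h1) h1 h2 h3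
    haveI : Fact (Nat.Prime 3) := ⟨by norm_num⟩
    obtain ⟨a1, a2, a3, a4, a5⟩ := sylow_facts (G := G) hnc 3 1 44 (by rw [hG]; norm_num) (by norm_num) (by norm_num)
    rw [hG] at a4
    have hn3 : Nat.card (Sylow 3 G) = 22 := by
      have h6 : Nat.card (Sylow 3 G) ≠ 4 := by
        intro h7
        rw [h7] at a4
        revert a4
        decide
      have : ∀ n, n ≤ 44 → n ∣ 44 → n % 3 = 1 → n ≠ 1 → n ≠ 4 → n = 22 := by decide
      exact this _ (Nat.le_of_dvd (by norm_num) a1) a1 a2 a3 h6
    obtain ⟨P⟩ : Nonempty (Sylow 11 G) := inferInstance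
    obtain ⟨Q⟩ : Nonempty (Sylow 3 G) := inferInstance
    have hc1 := card_orderOf_eq_prime P (by simpa using (h5 P).1)
    have hc2 := card_orderOf_eq_prime Q (by simpa using (a5 Q).1)
    have := sum_card_orders_le (G := G) {11, 3}
    rw [Finset.sum_pair (by norm_num), hc1, hc2, hn12, hn3, hG] at this
    omega

/-- If a finite simple group has order p^2 * q * r with p, q and r prime, then its order is 60. -/
theorem result {G : Type*} [Group G] [Finite G] [IsSimpleGroup G] (p q r : ℕ) (hp : p.Prime) (hq : q.Prime) (hr : r.Prime) (hG : Nat.card G = p ^ 2 * q * r) : Nat.card G = 60 := by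
  classical
  have hG0 : Nat.card G ≠ 0 := Nat.card_pos.ne'
  have hnp : ¬ (Nat.card G).Prime := by
    rw [hG]
    intro h
    have h1 : p ^ 2 * q * r = p * (p * q * r) := by ring
    rw [h1] at h
    have h2 := Nat.prime_mul_iff.mp h
    rcases h2 with ⟨h2, h3⟩ | ⟨h2, h3⟩
    · have h4 : p * q * r = p * (q * r) := by ring
      rw [h4] at h3
      have := hp.two_le
      have := Nat.mul_le_mul_right (q * r) this
      have h5 := Nat.mul_pos hq.pos hr.pos
      omega
    · have := hp.two_le
      omega
  have hnc : ¬ IsMulCommutative G := Lib.SmallSimple.not_comm_of_not_prime hnp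
  have hnsol : ¬ Group.IsSolvable G := by
    intro hs
    apply hnc
    have := (IsSimpleGroup.comm_iff_isSolvable (G := G)).mpr hs
    exact ⟨⟨this⟩⟩
  -- the primes are distinct
  have hpq : p ≠ q := by
    rintro rfl
    apply hnsol
    apply Lib.Char.isSolvable_of_card p r 3 1 hp hr
    rw [hG]; ring
  have hpr : p ≠ r := by
    rintro rfl
    apply hnsol
    apply Lib.Char.isSolvable_of_card p q 3 1 hp hq
    rw [hG]; ring
  have hqr : q ≠ r := by
    rintro rfl
    apply hnsol
    apply Lib.Char.isSolvable_of_card p q 2 2 hp hq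
    rw [hG]; ring
  have hprimes : ∀ t : ℕ, t.Prime → t ∣ Nat.card G → t = p ∨ t = q ∨ t = r := by
    intro t ht hd
    rw [hG] at hd
    rcases (Nat.Prime.dvd_mul ht).mp hd with h | h
    · rcases (Nat.Prime.dvd_mul ht).mp h with h | h
      · left
        exact (Nat.prime_dvd_prime_iff_eq ht hp).mp (ht.dvd_of_dvd_pow h)
      · right; left
        exact (Nat.prime_dvd_prime_iff_eq ht hq).mp h
    · right; right
      exact (Nat.prime_dvd_prime_iff_eq ht hr).mp h
  have hpd : p ∣ Nat.card G := by rw [hG]; exact ⟨p * q * r, by ring⟩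
  have hqd : q ∣ Nat.card G := by rw [hG]; exact ⟨p ^ 2 * r, by ring⟩
  have hrd : r ∣ Nat.card G := by rw [hG]; exact ⟨p ^ 2 * q, by ring⟩
  have hp_not : ¬ p ∣ q * r := by
    intro h
    rcases (Nat.Prime.dvd_mul hp).mp h with h | h
    · exact hpq ((Nat.prime_dvd_prime_iff_eq hp hq).mp h)
    · exact hpr ((Nat.prime_dvd_prime_iff_eq hp hr).mp h)
  have hq_not : ¬ q ∣ p ^ 2 * r := by
    intro h
    rcases (Nat.Prime.dvd_mul hq).mp h with h | h
    · exact hpq ((Nat.prime_dvd_prime_iff_eq hq hp).mp (hq.dvd_of_dvd_pow h)).symm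
    · exact hqr ((Nat.prime_dvd_prime_iff_eq hq hr).mp h)
  have hr_not : ¬ r ∣ p ^ 2 * q := by
    intro h
    rcases (Nat.Prime.dvd_mul hr).mp h with h | h
    · exact hpr ((Nat.prime_dvd_prime_iff_eq hr hp).mp (hr.dvd_of_dvd_pow h)).symm
    · exact hqr ((Nat.prime_dvd_prime_iff_eq hr hq).mp h).symm
  haveI : Fact p.Prime := ⟨hp⟩
  haveI : Fact q.Prime := ⟨hq⟩
  haveI : Fact r.Prime := ⟨hr⟩
  -- the smallest prime
  have hsmall_q : ¬ (q < p ∧ q < r) := by
    rintro ⟨h1, h2⟩
    obtain ⟨Q⟩ : Nonempty (Sylow q G) := inferInstance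
    have hQ : Nat.card (Q : Subgroup G) = q :=
      Lib.SmallSimple.card_sylow_of_exact (p ^ 2 * r) hq_not (by rw [hG]; ring) Q
    have := smallest_prime_key hnc q hqd (by
      intro t ht hd
      rcases hprimes t ht hd with rfl | rfl | rfl <;> omega) Q (Or.inl hQ)
    have h3 := this.1
    rw [hQ] at h3
    have h4 : q * 1 = q * q := by rw [mul_one, ← pow_two]; exact h3
    have h5 := Nat.eq_of_mul_eq_mul_left hq.pos h4
    have := hq.two_le
    omega
  have hsmall_r : ¬ (r < p ∧ r < q) := by
    rintro ⟨h1, h2⟩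
    obtain ⟨Q⟩ : Nonempty (Sylow r G) := inferInstance
    have hQ : Nat.card (Q : Subgroup G) = r :=
      Lib.SmallSimple.card_sylow_of_exact (p ^ 2 * q) hr_not (by rw [hG]; ring) Q
    have := smallest_prime_key hnc r hrd (by
      intro t ht hd
      rcases hprimes t ht hd with rfl | rfl | rfl <;> omega) Q (Or.inl hQ)
    have h3 := this.1
    rw [hQ] at h3
    have h4 : r * 1 = r * r := by rw [mul_one, ← pow_two]; exact h3
    have h5 := Nat.eq_of_mul_eq_mul_left hr.pos h4
    have := hr.two_le
    omega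
  have hsmall_p : p < q ∧ p < r := by
    by_contra hcon
    have h1 : q < r ∨ r < q := by omega
    rcases h1 with h1 | h1
    · apply hsmall_q
      constructor <;> omega
    · apply hsmall_r
      constructor <;> omega
  obtain ⟨P⟩ : Nonempty (Sylow p G) := inferInstance
  obtain ⟨a1, a2, a3, a4, a5⟩ := Lib.SmallSimple.sylow_facts (G := G) hnc p 2 (q * r)
    (by rw [hG]; ring) hp_not (by norm_num)
  obtain ⟨-, rfl, h3⟩ := smallest_prime_key hnc p hpd (by
      intro t ht hd
      rcases hprimes t ht hd with rfl | rfl | rfl <;> omega) P (Or.inr (a5 P).1)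
  have h3' := hprimes 3 (by norm_num) h3
  rcases h3' with h | rfl | rfl
  · omega
  · -- `q = 3`
    have hr5 : 5 ≤ r := by
      have h6 : r ≠ 4 := by
        rintro rfl
        revert hr
        norm_num
      omega
    have := twelve_mul hnc r hr hr5 (by rw [hG]; ring)
    rw [hG, this]; norm_num
  · have hq5 : 5 ≤ q := by
      have h6 : q ≠ 4 := by
        rintro rfl
        revert hq
        norm_num
      omega
    have := twelve_mul hnc q hq hq5 (by rw [hG]; ring)
    rw [hG, this]; norm_num

end Cfsg.Agent.S0988
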