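import Cfsg.Statements.S0989
import Mathlib
import Cfsg.Agent.Lib.SmallSimple.Basic

set_option autoImplicit false
open Cfsg

namespace Cfsg.Agent.S0989

/-- In the symmetric group on p or p + 1 letters, p a prime, the normalizer of a Sylow p-subgroup has order p * (p - 1). -/
theorem result {α : Type*} [Fintype α] [DecidableEq α] (p : ℕ) [Fact p.Prime] (hα : Fintype.card α = p ∨ Fintype.card α = p + 1) (P : Sylow p (Equiv.Perm α)) : Nat.card ↥(Subgroup.normalizer ((P : Subgroup (Equiv.Perm α)) : Set (Equiv.Perm α))) = p * (p - 1) := by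
  classical
  have hp : p.Prime := Fact.out
  have hp2 := hp.two_le
  have hcardperm : Nat.card (Equiv.Perm α) = (Fintype.card α).factorial := by
    rw [Nat.card_eq_fintype_card, Fintype.card_perm]
  have hfact : ∃ m, ¬ p ∣ m ∧ Nat.card (Equiv.Perm α) = p * m := by
    rw [hcardperm]
    rcases hα with h | h
    · refine ⟨(p - 1).factorial, ?_, ?_⟩
      · rw [hp.dvd_factorial]
        omega
      · rw [h, Nat.mul_factorial_pred hp.ne_zero]
    · refine ⟨(p + 1) * (p - 1).factorial, ?_, ?_⟩
      · rw [hp.dvd_mul, hp.dvd_factorial]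
        rintro (h1 | h1)
        · have h2 : p ∣ 1 := (Nat.dvd_add_right (dvd_refl p)).mp h1
          exact hp.one_lt.ne' (Nat.dvd_one.mp h2)
        · omega
      · rw [h, Nat.factorial_succ, ← Nat.mul_factorial_pred hp.ne_zero]
        ring
  obtain ⟨m, hm, hcm⟩ := hfact
  have hP : Nat.card (P : Subgroup (Equiv.Perm α)) = p := Lib.SmallSimple.card_sylow_of_exact m hm hcm P
  have h1 := Lib.SmallSimple.card_orderOf_eq_prime P hP
  have hiff : ∀ g : Equiv.Perm α, orderOf g = p ↔ g.cycleType = {p} := by
    intro g
    constructor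
    · intro hg
      obtain ⟨k, hk⟩ := Equiv.Perm.cycleType_prime_order (σ := g) (by rw [hg]; exact hp)
      rw [hg] at hk
      have hsum := Equiv.Perm.sum_cycleType g
      rw [hk, Multiset.sum_replicate, smul_eq_mul] at hsum
      have hle := g.support.card_le_univ
      have hk0 : k = 0 := by
        by_contra h0
        have h3 : 2 * p ≤ (k + 1) * p := Nat.mul_le_mul_right p (by omega)
        rcases hα with h | h <;> omega
      rw [hk, hk0]
      rfl
    · intro hg
      have := Equiv.Perm.lcm_cycleType g
      rw [hg] at this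
      simpa using this.symm
  have h2 : Nat.card {g : Equiv.Perm α // orderOf g = p} =
      (Finset.univ.filter (fun g : Equiv.Perm α => g.cycleType = {p})).card := by
    rw [Nat.card_eq_fintype_card, Fintype.card_subtype]
    congr 1
    ext g
    simp [hiff]
  have h3 := Equiv.Perm.card_of_cycleType_mul_eq α ({p} : Multiset ℕ)
  have hcond : (({p} : Multiset ℕ).sum ≤ Fintype.card α ∧ ∀ a ∈ ({p} : Multiset ℕ), 2 ≤ a) := by
    constructor
    · simp only [Multiset.sum_singleton]
      rcases hα with h | h <;> omega
    · intro a ha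
      rw [Multiset.mem_singleton] at ha
      omega
  rw [if_pos hcond] at h3
  have h4 : (Fintype.card α - ({p} : Multiset ℕ).sum).factorial = 1 := by
    simp only [Multiset.sum_singleton]
    rcases hα with h | h
    · rw [h]; simp
    · rw [h]; simp
  have h5 : ∏ n ∈ ({p} : Multiset ℕ).toFinset, (({p} : Multiset ℕ).count n).factorial = 1 := by
    simp
  rw [h4, h5, Multiset.prod_singleton, ← h2, h1] at h3
  have h6 : Nat.card (Sylow p (Equiv.Perm α)) *
      Nat.card (Subgroup.normalizer ((P : Subgroup (Equiv.Perm α)) : Set (Equiv.Perm α))) =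
      (Fintype.card α).factorial := by
    rw [P.card_eq_index_normalizer, ← hcardperm]
    exact Subgroup.index_mul_card _
  have hpos : 0 < Nat.card (Sylow p (Equiv.Perm α)) := Nat.card_pos
  apply Nat.eq_of_mul_eq_mul_left hpos
  rw [h6, ← h3]
  ring

end Cfsg.Agent.S0989
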