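import Cfsg.Statements.S0990
import Mathlib

set_option autoImplicit false
open Cfsg

namespace Cfsg.Agent.S0990

/-- Let p be an odd prime and P a Sylow p-subgroup of the symmetric group on a finite set with at least two elements. Then P is contained in the alternating group, and twice the order of the normalizer of P inside the alternating group equals the order of the normalizer of P in the symmetric group. -/
theorem result {α : Type*} [Fintype α] [DecidableEq α] (hα : 2 ≤ Fintype.card α) (p : ℕ) [Fact p.Prime] (hp : p ≠ 2) (P : Sylow p (Equiv.Perm α)) : (P : Subgroup (Equiv.Perm α)) ≤ alternatingGroup α ∧ 2 * Nat.card ↥(Subgroup.normalizer ((((P : Subgroup (Equiv.Perm α)).subgroupOf (alternatingGroup α) : Subgroup ↥(alternatingGroup α)) : Set ↥(alternatingGroup α)))) = Nat.card ↥(Subgroup.normalizer ((P : Subgroup (Equiv.Perm α)) : Set (Equiv.Perm α))) := by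
  classical
  have hpodd : Odd p := (Fact.out : p.Prime).odd_of_ne_two hp
  have hle : (P : Subgroup (Equiv.Perm α)) ≤ alternatingGroup α := by
    intro x hx
    rw [Equiv.Perm.mem_alternatingGroup]
    obtain ⟨k, hk⟩ := P.isPGroup' ⟨x, hx⟩
    have h1 : x ^ (p ^ k) = 1 := by simpa using congrArg Subtype.val hk
    have h2 : Equiv.Perm.sign x ^ (p ^ k) = 1 := by
      rw [← map_pow, h1, map_one]
    have h3 : Odd (p ^ k) := hpodd.pow
    rcases Int.units_eq_one_or (Equiv.Perm.sign x) with h4 | h4
    · exact h4
    · rw [h4, h3.neg_one_pow] at h2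
      exact absurd h2 (by decide)
  refine ⟨hle, ?_⟩
  set NS := Subgroup.normalizer ((P : Subgroup (Equiv.Perm α)) : Set (Equiv.Perm α)) with hNS
  set A := alternatingGroup α with hA
  set P' : Subgroup A := (P : Subgroup (Equiv.Perm α)).subgroupOf A with hP'
  set NA := Subgroup.normalizer ((P' : Subgroup A) : Set A) with hNA
  -- Frattini: the normaliser meets the odd permutations
  haveI hAn : A.Normal := by
    rw [hA]; infer_instance
  have hFr : NS ⊔ A = ⊤ := Sylow.normalizer_sup_eq_top' P hle
  haveI : Nontrivial α := (Fintype.one_lt_card_iff_nontrivial).mp (by omega)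
  -- `NA` is `NS ∩ A`
  have hNAcard : Nat.card NA = Nat.card (NS ⊓ A : Subgroup (Equiv.Perm α)) := by
    let e : NA ≃ (NS ⊓ A : Subgroup (Equiv.Perm α)) :=
      { toFun := fun x => ⟨x.1.1, by
          refine ⟨?_, x.1.2⟩
          show x.1.1 ∈ Subgroup.normalizer ((P : Subgroup (Equiv.Perm α)) : Set (Equiv.Perm α))
          rw [Subgroup.mem_normalizer_iff]
          intro y
          have h1 := Subgroup.mem_normalizer_iff.mp x.2
          by_cases hy : y ∈ A
          · have h2 := h1 ⟨y, hy⟩
            exact h2
          · have h3 : y ∉ (P : Subgroup (Equiv.Perm α)) := fun h => hy (hle h)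
            have h4 : x.1.1 * y * x.1.1⁻¹ ∉ (P : Subgroup (Equiv.Perm α)) := by
              intro h5
              apply hy
              have h6 := hle h5
              have h7 : y = x.1.1⁻¹ * (x.1.1 * y * x.1.1⁻¹) * x.1.1 := by group
              rw [h7]
              exact A.mul_mem (A.mul_mem (A.inv_mem x.1.2) h6) x.1.2
            exact iff_of_false h3 h4⟩
        invFun := fun x => ⟨⟨x.1, x.2.2⟩, by
          rw [hNA, Subgroup.mem_normalizer_iff]
          intro y
          have h1 := Subgroup.mem_normalizer_iff.mp x.2.1 (y : Equiv.Perm α)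
          exact h1⟩
        left_inv := fun x => by
          apply Subtype.ext; apply Subtype.ext; rfl
        right_inv := fun x => by
          apply Subtype.ext; rfl }
    exact Nat.card_congr e
  -- index two
  have hindex : (NS ⊓ A : Subgroup (Equiv.Perm α)).relIndex NS = 2 := by
    have h1 : (NS ⊓ A : Subgroup (Equiv.Perm α)).relIndex NS = A.relIndex NS := by
      rw [inf_comm]; exact Subgroup.inf_relIndex_right _ _
    rw [h1, ← Subgroup.relIndex_sup_right, hFr, Subgroup.relIndex_top_right]
    exact alternatingGroup.index_eq_two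
  have h2 := ((NS ⊓ A : Subgroup (Equiv.Perm α)).subgroupOf NS).index_mul_card
  have h3 : Nat.card ((NS ⊓ A : Subgroup (Equiv.Perm α)).subgroupOf NS) =
      Nat.card (NS ⊓ A : Subgroup (Equiv.Perm α)) :=
    Nat.card_congr (Subgroup.subgroupOfEquivOfLe inf_le_left).toEquiv
  have h4 : ((NS ⊓ A : Subgroup (Equiv.Perm α)).subgroupOf NS).index = 2 := hindex
  rw [h3, h4] at h2
  rw [hNAcard, h2]

end Cfsg.Agent.S0990
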