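import Cfsg.Statements.S0991
import Mathlib

set_option autoImplicit false
open Cfsg

namespace Cfsg.Agent.S0991

/-- Embedding Theorem: if a non-abelian finite simple group has a proper subgroup of index n, then it is isomorphic to a subgroup of the alternating group of degree n. -/
theorem result {G : Type*} [Group G] [Finite G] [IsSimpleGroup G] (hG : ¬ IsMulCommutative G) (H : Subgroup G) (hH : H ≠ ⊤) : ∃ f : G →* ↥(alternatingGroup (Fin H.index)), Function.Injective f := by
  classical
  have := Fintype.ofFinite (G ⧸ H)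
  let φ := MulAction.toPermHom G (G ⧸ H)
  have hker : φ.ker = ⊥ := by
    rcases IsSimpleGroup.eq_bot_or_eq_top_of_normal φ.ker inferInstance with h | h
    · exact h
    · exfalso
      apply hH
      rw [eq_top_iff]
      intro g _
      have h1 : g ∈ φ.ker := by rw [h]; trivial
      have h1' : φ g = 1 := h1
      have h2 : g • (QuotientGroup.mk 1 : G ⧸ H) = QuotientGroup.mk 1 :=
        congrArg (fun σ : Equiv.Perm (G ⧸ H) => σ (QuotientGroup.mk 1)) h1'
      have h3 : (QuotientGroup.mk (g * 1) : G ⧸ H) = QuotientGroup.mk 1 := h2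
      rw [QuotientGroup.eq] at h3
      simpa using H.inv_mem h3
  have hinj : Function.Injective φ := (MonoidHom.ker_eq_bot_iff φ).mp hker
  have hsign : ∀ g, Equiv.Perm.sign (φ g) = 1 := by
    let ψ : G →* ℤˣ := Equiv.Perm.sign.comp φ
    rcases IsSimpleGroup.eq_bot_or_eq_top_of_normal ψ.ker inferInstance with h | h
    · exfalso
      have hψ : Function.Injective ψ := (MonoidHom.ker_eq_bot_iff ψ).mp h
      apply hG
      exact ⟨⟨fun a b => hψ (by rw [map_mul, map_mul, mul_comm])⟩⟩
    · intro g
      have : g ∈ ψ.ker := by rw [h]; trivial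
      exact this
  let e : (G ⧸ H) ≃ Fin H.index := Finite.equivFinOfCardEq rfl
  let F : G →* Equiv.Perm (Fin H.index) := (e.permCongrHom.toMonoidHom).comp φ
  have hF : ∀ g, F g ∈ alternatingGroup (Fin H.index) := by
    intro g
    rw [Equiv.Perm.mem_alternatingGroup]
    show Equiv.Perm.sign (e.permCongr (φ g)) = 1
    rw [Equiv.Perm.sign_permCongr, hsign]
  refine ⟨F.codRestrict _ hF, ?_⟩
  intro a b hab
  apply hinj
  have h1 : F a = F b := congrArg Subtype.val hab
  exact e.permCongrHom.injective h1

end Cfsg.Agent.S0991
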