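import Cfsg.Statements.S0992
import Mathlib
import Cfsg.Agent.Lib.InvolChar.Cyclic
import Cfsg.Agent.Lib.SmallSimple.Tools

set_option autoImplicit false
open Cfsg

namespace Cfsg.Agent.S0992

/-- Let G be a non-abelian finite simple group of even order not divisible by 8, and T a Sylow 2-subgroup. Then T is a Klein four-group and the centralizer of T has index 3 in the normalizer of T. -/
theorem result {G : Type*} [Group G] [Finite G] [IsSimpleGroup G] (hG : ¬ IsMulCommutative G) (h2 : Even (Nat.card G)) (h8 : ¬ 8 ∣ Nat.card G) (T : Sylow 2 G) : IsKleinFour ↥(T : Subgroup G) ∧ (Subgroup.centralizer ((T : Subgroup G) : Set G)).relIndex (Subgroup.normalizer ((T : Subgroup G) : Set G)) = 3 := by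
  classical
  haveI : Fact (Nat.Prime 2) := ⟨Nat.prime_two⟩
  have h4 : 4 ∣ Nat.card G := Lib.Cl.four_dvd_card_of_simple hG h2
  have hT : Nat.card (T : Subgroup G) = 4 := by
    rw [T.card_eq_multiplicity]
    have hf : (Nat.card G).factorization 2 = 2 := by
      have h1 : 2 ≤ (Nat.card G).factorization 2 :=
        (Nat.Prime.pow_dvd_iff_le_factorization Nat.prime_two Nat.card_pos.ne').mp (by simpa using h4)
      have h3 : ¬ 3 ≤ (Nat.card G).factorization 2 := by
        intro h3
        apply h8
        have := (Nat.Prime.pow_dvd_iff_le_factorization Nat.prime_two Nat.card_pos.ne').mpr h3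
        simpa using this
      omega
    rw [hf]
    norm_num
  have hnotcyc : ¬ IsCyclic (T : Subgroup G) := fun hc =>
    Lib.SmallSimple.false_of_normalizer_le_centralizer hG h2.two_dvd T
      (Lib.InvolChar.normalizer_le_centralizer_of_cyclic_two T hc)
  have hsq : ∀ u : (T : Subgroup G), u ^ 2 = 1 := by
    intro u
    have h1 : orderOf u ∣ 4 := (orderOf_dvd_natCard u).trans (dvd_of_eq hT)
    have h3 : orderOf u ≠ 4 := by
      intro h5
      exact hnotcyc (isCyclic_of_orderOf_eq_card u (by rw [h5, hT]))
    have h5 : orderOf u ∣ 2 := by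
      have h6 := Nat.le_of_dvd (by norm_num) h1
      generalize orderOf u = k at *
      interval_cases k <;> first | omega | decide
    exact orderOf_dvd_iff_pow_eq_one.mp h5
  have hK : IsKleinFour (T : Subgroup G) := by
    refine ⟨hT, ?_⟩
    have h1 : Monoid.exponent (T : Subgroup G) ∣ 2 := Monoid.exponent_dvd_of_forall_pow_eq_one hsq
    rcases (Nat.dvd_prime Nat.prime_two).mp h1 with h3 | h3
    · exfalso
      have hsub : Subsingleton (T : Subgroup G) := by
        refine ⟨fun a b => ?_⟩
        have ha := Monoid.pow_exponent_eq_one a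
        have hb := Monoid.pow_exponent_eq_one b
        rw [h3, pow_one] at ha hb
        rw [ha, hb]
      have := Nat.card_unique (α := (T : Subgroup G))
      omega
    · exact h3
  refine ⟨hK, ?_⟩
  -- the action on the three involutions
  set N := Subgroup.normalizer ((T : Subgroup G) : Set G) with hN
  set C := Subgroup.centralizer ((T : Subgroup G) : Set G) with hC
  let X := {u : (T : Subgroup G) // u ≠ 1}
  have hX : Nat.card X = 3 := by
    have hF : Fintype (T : Subgroup G) := Fintype.ofFinite _
    rw [Nat.card_eq_fintype_card, Fintype.card_subtype_compl, Fintype.card_subtype_eq,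
      ← Nat.card_eq_fintype_card, hT]
  let ρ : MulAut (T : Subgroup G) →* Equiv.Perm X :=
    { toFun := fun a =>
        { toFun := fun u => ⟨a u.1, fun h => u.2 (by simpa using h)⟩
          invFun := fun u => ⟨a.symm u.1, fun h => u.2 (by simpa using h)⟩
          left_inv := fun u => Subtype.ext (by simp)
          right_inv := fun u => Subtype.ext (by simp) }
      map_one' := by
        ext u
        rfl
      map_mul' := fun a b => by
        ext u
        rfl }
  have hρ : Function.Injective ρ := by
    intro a b hab
    ext u
    by_cases hu : u = 1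
    · subst hu
      simp
    · have := congrArg (fun f : Equiv.Perm X => ((f ⟨u, hu⟩ : X).1 : G)) hab
      exact this
  have hker := Subgroup.normalizerMonoidHom_ker (T : Subgroup G)
  let τ := ρ.comp (Subgroup.normalizerMonoidHom (T : Subgroup G))
  have hτker : τ.ker = C.subgroupOf N := by
    rw [← hker]
    ext g
    simp only [MonoidHom.mem_ker, τ, MonoidHom.comp_apply]
    rw [map_eq_one_iff _ hρ]
  have hr : C.relIndex N ∣ 6 := by
    have key := Subgroup.card_dvd_of_injective _ (QuotientGroup.kerLift_injective τ)
    have h6 : Nat.card (Equiv.Perm X) = 6 := by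
      rw [Nat.card_perm, hX]
      rfl
    rw [hτker, h6, ← Subgroup.index] at key
    exact key
  have hTC : (T : Subgroup G) ≤ C := by
    intro x hx
    rw [hC, Subgroup.mem_centralizer_iff]
    intro y hy
    have hcomm := (IsKleinFour.isMulCommutative (G := (T : Subgroup G))).is_comm.comm ⟨x, hx⟩ ⟨y, hy⟩
    have := congrArg Subtype.val hcomm
    exact this.symm
  have hTN : (T : Subgroup G) ≤ N := Subgroup.le_normalizer
  have hCNcard : 4 ∣ Nat.card (C.subgroupOf N) := by
    have h1 : (T : Subgroup G).subgroupOf N ≤ C.subgroupOf N := by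
      intro x hx
      exact hTC hx
    have h2' := Subgroup.card_dvd_of_le h1
    have h3 : Nat.card ((T : Subgroup G).subgroupOf N) = 4 := by
      rw [← hT]
      exact Nat.card_congr (Subgroup.subgroupOfEquivOfLe hTN).toEquiv
    rwa [h3] at h2'
  have hodd : ¬ 2 ∣ C.relIndex N := by
    intro h5
    apply h8
    have h6 := (C.subgroupOf N).card_mul_index
    have h7 : 8 ∣ Nat.card N := by
      rw [← h6]
      have h9 : (4 * 2 : ℕ) ∣ Nat.card (C.subgroupOf N) * (C.subgroupOf N).index :=
        Nat.mul_dvd_mul hCNcard h5
      simpa using h9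
    exact h7.trans (Subgroup.card_subgroup_dvd_card N)
  have hne1 : C.relIndex N ≠ 1 := by
    intro h1
    exact Lib.SmallSimple.false_of_normalizer_le_centralizer hG h2.two_dvd T (Subgroup.relIndex_eq_one.mp h1)
  have h6le := Nat.le_of_dvd (by norm_num) hr
  generalize C.relIndex N = r at *
  interval_cases r <;> first | rfl | omega | (exfalso; revert hr hodd hne1; decide)

end Cfsg.Agent.S0992
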