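import Cfsg.Statements.S0995
import Mathlib
import Cfsg.Agent.Lib.SelfCentral.Basic

set_option autoImplicit false
open Cfsg

namespace Cfsg.Agent.S0995

/-- Let G be a finite perfect group containing an element z of prime order p whose centralizer is the cyclic group it generates. Let t be the number of conjugacy classes of elements of order p. Then t divides p - 1, the number of Sylow p-subgroups has the form 1 + n * p, and |G| * t = (p - 1) * p * (1 + n * p). -/
theorem result {G : Type*} [Group G] [Finite G] (hperf : commutator G = ⊤) (p : ℕ) [Fact p.Prime] (z : G) (hz : orderOf z = p) (hC : Subgroup.centralizer ({z} : Set G) = Subgroup.zpowers z) : ∃ n t : ℕ, t = Nat.card {c : ConjClasses G // ∃ g : G, ConjClasses.mk g = c ∧ orderOf g = p} ∧ t ∣ p - 1 ∧ Nat.card (Sylow p G) = 1 + n * p ∧ Nat.card G * t = (p - 1) * p * (1 + n * p) := by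
  classical
  have hs : Lib.SelfCentral.Setup p z := ⟨Fact.out, hz, hC⟩
  have hp' : p.Prime := Fact.out
  obtain ⟨m, hm, hm0⟩ := hs.exists_card_normalizer
  have ht' : Nat.card {C : ConjClasses G // ∃ g ∈ C.carrier, orderOf g = p} =
      Nat.card {c : ConjClasses G // ∃ g : G, ConjClasses.mk g = c ∧ orderOf g = p} := by
    apply Nat.card_congr
    apply Equiv.subtypeEquivRight
    intro c
    constructor
    · rintro ⟨g, hg, ho⟩
      exact ⟨g, (ConjClasses.mem_carrier_iff_mk_eq).1 hg, ho⟩
    · rintro ⟨g, hg, ho⟩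
      exact ⟨g, (ConjClasses.mem_carrier_iff_mk_eq).2 hg, ho⟩
  have hclasses := hs.classes_mul _ m ht' hm
  obtain ⟨S, hS⟩ := hs.exists_sylow
  have hS' : ((S : Subgroup G) : Set G) = ((Subgroup.zpowers z : Subgroup G) : Set G) := by
    rw [← hS]
  have hcard : Nat.card (Sylow p G) =
      (Subgroup.normalizer ((Subgroup.zpowers z : Subgroup G) : Set G)).index := by
    rw [S.card_eq_index_normalizer]
    exact congrArg (fun X : Set G => (Subgroup.normalizer X).index) hS'
  have hmod : Nat.card (Sylow p G) ≡ 1 [MOD p] := card_sylow_modEq_one p G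
  have hpos : 1 ≤ Nat.card (Sylow p G) := Nat.card_pos
  obtain ⟨n, hn⟩ : ∃ n, Nat.card (Sylow p G) = 1 + n * p := by
    have h1 : p ∣ Nat.card (Sylow p G) - 1 := (Nat.modEq_iff_dvd' hpos).mp hmod.symm
    obtain ⟨n, hn⟩ := h1
    refine ⟨n, ?_⟩
    rw [mul_comm]
    omega
  refine ⟨n, _, rfl, ⟨m, hclasses.symm⟩, hn, ?_⟩
  have hG : Nat.card G = (Subgroup.normalizer ((Subgroup.zpowers z : Subgroup G) : Set G)).index * (p * m) := by
    rw [← hm, mul_comm, Subgroup.card_mul_index]
  rw [← hn, hcard, hG, ← hclasses]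
  ring

end Cfsg.Agent.S0995
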