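import Cfsg.Statements.S1001
import Mathlib
import Cfsg.Agent.S0904
import Cfsg.Agent.Lib.BR.Tens3
import Cfsg.Agent.Lib.Char.Burnside

set_option autoImplicit false
open Cfsg

namespace Cfsg.Agent.S1001

/-- In a finite simple group whose order has the form p * 3^a * 2^b with p prime, the centralizer of any element of order p is the cyclic group it generates. -/
theorem result {G : Type*} [Group G] [Finite G] [IsSimpleGroup G] (p a b : ℕ) (hp : p.Prime) (hG : Nat.card G = p * 3 ^ a * 2 ^ b) (x : G) (hx : orderOf x = p) : Subgroup.centralizer ({x} : Set G) = Subgroup.zpowers x := by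
  classical
  haveI hfp : Fact p.Prime := ⟨hp⟩
  by_cases hp3 : p = 3 ∨ p = 2
  · -- a group whose order has two prime divisors
    have hsolv : Group.IsSolvable G := by
      rcases hp3 with rfl | rfl
      · refine Cfsg.Agent.Lib.Char.isSolvable_of_card 3 2 (a + 1) b Nat.prime_three Nat.prime_two ?_
        rw [hG]
        ring
      · refine Cfsg.Agent.Lib.Char.isSolvable_of_card 3 2 a (b + 1) Nat.prime_three Nat.prime_two ?_
        rw [hG]
        ring
    have hcomm := (IsSimpleGroup.comm_iff_isSolvable (G := G)).mpr hsolv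
    letI inst2 : CommGroup G := { (inferInstance : Group G) with mul_comm := hcomm }
    have hprime : (Nat.card G).Prime := @IsSimpleGroup.prime_card G inst2 ‹_›
    have hdvd : p ∣ Nat.card G := by
      rw [hG, mul_assoc]
      exact Dvd.intro _ rfl
    have heq : p = Nat.card G := (Nat.prime_dvd_prime_iff_eq hp hprime).mp hdvd
    have htop : Subgroup.zpowers x = ⊤ := by
      apply Subgroup.eq_top_of_card_eq
      rw [Nat.card_zpowers, hx, heq]
    rw [htop]
    ext y
    simp [Subgroup.mem_centralizer_iff, hcomm]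
  · push Not at hp3
    have hcard : Nat.card G = 3 ^ a * 2 ^ b * p := by
      rw [hG]
      ring
    have hnd : ¬ p ∣ 3 ^ a * 2 ^ b := by
      intro h
      rcases (Nat.Prime.dvd_mul hp).mp h with h3 | h3
      · exact hp3.1 ((Nat.prime_dvd_prime_iff_eq hp Nat.prime_three).mp (hp.dvd_of_dvd_pow h3))
      · exact hp3.2 ((Nat.prime_dvd_prime_iff_eq hp Nat.prime_two).mp (hp.dvd_of_dvd_pow h3))
    have hsq : ¬ p ^ 2 ∣ Nat.card G := by
      intro h
      rw [hcard, pow_two, mul_comm (3 ^ a * 2 ^ b) p] at h
      exact hnd (Nat.dvd_of_mul_dvd_mul_left hp.pos h)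
    obtain ⟨Q, hQ, hQc⟩ := Lib.BR.exists_sylow_of_sq hx hsq
    have h := Cfsg.Agent.S0904.result 3 2 p a b Nat.prime_three Nat.prime_two (by norm_num) (Ne.symm hp3.1) (Ne.symm hp3.2) hcard Q
    rw [← Lib.SmallSimple.BA.centralizer_zpowers', ← hQ]
    exact h

end Cfsg.Agent.S1001
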