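import Cfsg.Statements.S1002
import Mathlib
import Cfsg.Agent.Lib.SmallSimple.BrauerLemma

set_option autoImplicit false
open Cfsg

namespace Cfsg.Agent.S1002

/-- No finite simple group has order 1004913 = 3^3 * 7 * 13 * 409. -/
theorem result {G : Type*} [Group G] [Finite G] [IsSimpleGroup G] : Nat.card G ≠ 1004913 := by
  intro h
  classical
  haveI : Fintype G := Fintype.ofFinite G
  have hnc : ¬ IsMulCommutative G := Lib.SmallSimple.not_comm_of_not_prime (by rw [h]; norm_num)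
  haveI : Fact (Nat.Prime 409) := ⟨by norm_num⟩
  obtain ⟨h1, h2, h3, h4, h5⟩ := Lib.SmallSimple.sylow_facts (G := G) hnc 409 1 2457
    (by rw [h]; norm_num) (by norm_num) (by norm_num)
  have hn : Nat.card (Sylow 409 G) = 819 := by
    have : ∀ n, n ≤ 2457 → n ∣ 2457 → n % 409 = 1 → n ≠ 1 → n = 819 := by decide +kernel
    exact this _ (Nat.le_of_dvd (by norm_num) h1) h1 h2 h3
  obtain ⟨P⟩ : Nonempty (Sylow 409 G) := inferInstance
  obtain ⟨hP, hN⟩ := h5 P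
  rw [hn, h] at hN
  have hN' : Nat.card (Subgroup.normalizer ((P : Subgroup G) : Set G)) = 3 * 409 := by omega
  obtain ⟨y, hs, hNy⟩ := Lib.SmallSimple.BL.exists_setup hnc P (by simpa using hP) Nat.prime_three hN'
  have hG : Nat.card G = 409 * 2457 := by rw [h]

  obtain ⟨d₁, d₂, d₀, δ₁, δ₂, ε, hδ₁, hδ₂, hε, hd₁, hd₂, hd₀, hd1, hd2, hc1, hc2, hc0, hrel⟩ :=
    Lib.SmallSimple.BL.brauer_three hnc hs hNy (by norm_num)
  have hnd₁ : ¬ 409 ∣ d₁ := Lib.SmallSimple.BL.not_dvd_of_modEq hc1 (by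
    rcases hδ₁ with rfl | rfl <;> norm_num)
  have hnd₂ : ¬ 409 ∣ d₂ := Lib.SmallSimple.BL.not_dvd_of_modEq hc2 (by
    rcases hδ₂ with rfl | rfl <;> norm_num)
  have hnd₀ : ¬ 409 ∣ d₀ := Lib.SmallSimple.BL.not_dvd_of_modEq hc0 (by
    rcases hε with rfl | rfl <;> norm_num)
  have hd₁' : d₁ ∣ 2457 := Lib.SmallSimple.BL.dvd_cofactor (by norm_num) (hG ▸ hd₁) hnd₁
  have hd₂' : d₂ ∣ 2457 := Lib.SmallSimple.BL.dvd_cofactor (by norm_num) (hG ▸ hd₂) hnd₂
  have hd₀' : d₀ ∣ 2457 := Lib.SmallSimple.BL.dvd_cofactor (by norm_num) (hG ▸ hd₀) hnd₀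
  have hc1' : (d₁ : ℤ) % 409 = δ₁ % 409 := by exact_mod_cast hc1
  have hc2' : (d₂ : ℤ) % 409 = δ₂ % 409 := by exact_mod_cast hc2

  have key : ∀ d, d ≤ 2457 → d ∣ 2457 → 1 < d → (d % 409 = 1 ∨ d % 409 = 408) → d = 819 := by
    decide +kernel
  have hdv1 := key d₁ (Nat.le_of_dvd (by norm_num) hd₁') hd₁' hd1 (by
    rcases hδ₁ with rfl | rfl <;> omega)
  have hdv2 := key d₂ (Nat.le_of_dvd (by norm_num) hd₂') hd₂' hd2 (by
    rcases hδ₂ with rfl | rfl <;> omega)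
  subst hdv1
  subst hdv2
  have hfin : d₀ = 1639 := by
    rcases hδ₁ with rfl | rfl <;> rcases hδ₂ with rfl | rfl <;>
      rcases hε with rfl | rfl <;> omega
  subst hfin
  revert hd₀'
  decide +kernel

end Cfsg.Agent.S1002
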