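import Cfsg.Statements.S1003
import Mathlib
import Cfsg.Agent.Lib.SmallSimple.Code168Facts

set_option autoImplicit false
open Cfsg

namespace Cfsg.Agent.S1003

/-- A simple group of order 168 has exactly 21 Sylow 2-subgroups, 28 Sylow 3-subgroups and 8 Sylow 7-subgroups. -/
theorem result {G : Type*} [Group G] [Finite G] [IsSimpleGroup G] (h : Nat.card G = 168) : Nat.card (Sylow 2 G) = 21 ∧ Nat.card (Sylow 3 G) = 28 ∧ Nat.card (Sylow 7 G) = 8 := by
  classical
  obtain ⟨C⟩ := Lib.SmallSimple.C168.exists_code h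
  haveI h2 : Fact (Nat.Prime 2) := ⟨Nat.prime_two⟩
  haveI h3 : Fact (Nat.Prime 3) := ⟨by norm_num⟩
  haveI h7 : Fact (Nat.Prime 7) := ⟨by norm_num⟩
  refine ⟨?_, ?_, ?_⟩
  · -- Sylow 2
    obtain ⟨P⟩ : Nonempty (Sylow 2 G) := inferInstance
    obtain ⟨C', hC'⟩ := C.exists_code_sylow h P
    have h1 : Nat.card (Sylow 2 G) = (Subgroup.normalizer ((P : Subgroup G) : Set G)).index :=
      P.card_eq_index_normalizer
    have h4 := (Subgroup.normalizer ((P : Subgroup G) : Set G)).card_mul_index
    have h5 : Nat.card (Subgroup.normalizer ((P : Subgroup G) : Set G)) = 8 := by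
      rw [hC']
      exact C'.card_normalizer_tt
    rw [← h1, h5, h] at h4
    omega
  · obtain ⟨P⟩ : Nonempty (Sylow 3 G) := inferInstance
    have hP : Nat.card (P : Subgroup G) = 3 := Lib.SmallSimple.card_sylow_of_exact 56 (by norm_num) (by rw [h]) P
    have h1 := Lib.SmallSimple.card_orderOf_eq_prime P hP
    have h4 := C.card_subtype' (fun g => orderOf g = 3) (fun c => c ≠ Lib.SmallSimple.C168.idc ∧ Lib.SmallSimple.C168.p3 c = Lib.SmallSimple.C168.idc)
      (fun g => C.orderOf_three_iff)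
    rw [h4, Lib.SmallSimple.C168.count3] at h1
    omega
  · obtain ⟨P⟩ : Nonempty (Sylow 7 G) := inferInstance
    have hP : Nat.card (P : Subgroup G) = 7 := Lib.SmallSimple.card_sylow_of_exact 24 (by norm_num) (by rw [h]) P
    have h1 := Lib.SmallSimple.card_orderOf_eq_prime P hP
    have h4 := C.card_subtype' (fun g => orderOf g = 7) (fun c => c ≠ Lib.SmallSimple.C168.idc ∧ Lib.SmallSimple.C168.p7 c = Lib.SmallSimple.C168.idc)
      (fun g => C.orderOf_seven_iff)
    rw [h4, Lib.SmallSimple.C168.count7] at h1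
    omega

end Cfsg.Agent.S1003
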