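import Cfsg.Statements.S1004
import Mathlib
import Cfsg.Agent.Lib.SmallSimple.Code168Facts

set_option autoImplicit false
open Cfsg

namespace Cfsg.Agent.S1004

open Lib.SmallSimple.C168

/-- Let G be a simple group of order 168 and T a Sylow 2-subgroup. Then T is dihedral of order 8, T is its own normalizer, and T is the centralizer of any non-identity element of T that commutes with every element of T. -/
theorem result {G : Type*} [Group G] [Finite G] [IsSimpleGroup G] (h : Nat.card G = 168) (T : Sylow 2 G) : Nonempty (↥(T : Subgroup G) ≃* DihedralGroup 4) ∧ Subgroup.normalizer ((T : Subgroup G) : Set G) = T ∧ ∀ z : G, z ∈ (T : Subgroup G) → z ≠ 1 → (∀ t ∈ (T : Subgroup G), t * z = z * t) → Subgroup.centralizer ({z} : Set G) = T := by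
  classical
  obtain ⟨C⟩ := Lib.SmallSimple.C168.exists_code h
  obtain ⟨C', hC'⟩ := C.exists_code_sylow h T
  obtain ⟨ρ, hρ⟩ := C'.surj _ (T0_L _ r0_T0)
  obtain ⟨σ, hσ⟩ := C'.surj _ (T0_L _ s0_T0)
  have hρT : ρ ∈ C'.tt := by
    show C'.cd ρ ∈ T0
    rw [hρ]; exact r0_T0
  have hσT : σ ∈ C'.tt := by
    show C'.cd σ ∈ T0
    rw [hσ]; exact s0_T0
  have hTeq : ∀ x, x ∈ (T : Subgroup G) ↔ C'.cd x ∈ T0 := fun x => by rw [hC']; exact Iff.rfl
  refine ⟨?_, ?_, ?_⟩
  · have hoρ : orderOf ρ = 4 := by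
      rw [C'.orderOf_four_iff, hρ]
      exact r0_order
    have hρ4 : ρ ^ 4 = 1 := by rw [← hoρ]; exact pow_orderOf_eq_one ρ
    let r : (T : Subgroup G) := ⟨ρ, by rw [hC']; exact hρT⟩
    let s : (T : Subgroup G) := ⟨σ, by rw [hC']; exact hσT⟩
    have hσσ : σ * σ = 1 := by
      rw [C'.eq_one_iff, C'.mul, hσ]
      exact s0_mul
    have hinv : σ * ρ * σ = ρ⁻¹ := by
      have h1 : σ * ρ * σ = ρ ^ 3 := by
        apply C'.inj
        rw [C'.cd_pow3, mul_assoc, C'.mul, C'.mul, hρ, hσ]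
        exact s0_r0
      rw [h1, eq_inv_iff_mul_eq_one, ← pow_succ]
      exact hρ4
    have hne : ∀ k : ℕ, σ ≠ ρ ^ k := by
      intro k hk
      have h2 : ρ ^ k = ρ ^ (k % 4) := by
        conv_lhs => rw [← Nat.div_add_mod k 4, pow_add, pow_mul, hρ4, one_pow, one_mul]
      rw [h2] at hk
      have h3 : k % 4 < 4 := Nat.mod_lt _ (by norm_num)
      have h4 := s0_ne
      have hk' := congrArg C'.cd hk
      rw [hσ] at hk'
      interval_cases (k % 4)
      · rw [pow_zero, C'.cd_one] at hk'; exact h4.1 hk'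
      · rw [pow_one, hρ] at hk'; exact h4.2.1 hk'
      · rw [C'.cd_pow2, hρ] at hk'; exact h4.2.2.1 hk'
      · rw [C'.cd_pow3, hρ] at hk'; exact h4.2.2.2 hk'
    have hcov : ∀ g : (T : Subgroup G), ∃ k : ℕ, g = r ^ k ∨ g = s * r ^ k := by
      rintro ⟨g, hg⟩
      have hg' := T0_cover _ ((hTeq g).mp hg)
      have e0 : g = 1 ↔ C'.cd g = idc := C'.eq_one_iff
      have key : ∀ (a : ℕ) (k : ℕ), C'.cd (ρ ^ k) = a → C'.cd g = a → g = ρ ^ k := fun a k h1 h2 =>
        C'.inj (h2.trans h1.symm)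
      rcases hg' with h1 | h1 | h1 | h1 | h1 | h1 | h1 | h1
      · exact ⟨0, Or.inl (Subtype.ext (by simpa using e0.mpr h1))⟩
      · exact ⟨1, Or.inl (Subtype.ext (by
          show g = ρ ^ 1
          exact key _ 1 (by rw [pow_one, hρ]) h1))⟩
      · exact ⟨2, Or.inl (Subtype.ext (by
          show g = ρ ^ 2
          exact key _ 2 (by rw [C'.cd_pow2, hρ]) h1))⟩
      · exact ⟨3, Or.inl (Subtype.ext (by
          show g = ρ ^ 3
          exact key _ 3 (by rw [C'.cd_pow3, hρ]) h1))⟩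
      · refine ⟨0, Or.inr (Subtype.ext ?_)⟩
        show g = σ * ρ ^ 0
        rw [pow_zero, mul_one]
        exact C'.inj (h1.trans hσ.symm)
      · refine ⟨1, Or.inr (Subtype.ext ?_)⟩
        show g = σ * ρ ^ 1
        apply C'.inj
        rw [pow_one, C'.mul, hρ, hσ, h1]
      · refine ⟨2, Or.inr (Subtype.ext ?_)⟩
        show g = σ * ρ ^ 2
        apply C'.inj
        rw [C'.mul, C'.cd_pow2, hρ, hσ, h1]
      · refine ⟨3, Or.inr (Subtype.ext ?_)⟩
        show g = σ * ρ ^ 3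
        apply C'.inj
        rw [C'.mul, C'.cd_pow3, hρ, hσ, h1]
    obtain ⟨e⟩ := Lib.Classical.Bin.dihedral_recog (n := 4) r s
      (by rw [Subgroup.orderOf_mk]; exact hoρ)
      (Subtype.ext hσσ) (Subtype.ext hinv)
      (fun k hk => hne k (congrArg Subtype.val hk)) hcov
    exact ⟨e.symm⟩
  · rw [hC']
    exact C'.normalizer_tt
  · intro z hz hz1 hcent
    have hzc : C'.cd z = z0 := by
      apply T0_center _ ((hTeq z).mp hz)
      · intro t ht
        obtain ⟨τ, rfl⟩ := C'.surj t (T0_L _ ht)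
        rw [← C'.mul, ← C'.mul, hcent τ ((hTeq τ).mpr ht)]
      · intro h0
        exact hz1 (C'.eq_one_iff.mpr h0)
    ext x
    rw [Subgroup.mem_centralizer_singleton_iff, hTeq, ← cent_z0 _ (C'.mem x), ← hzc, ← C'.mul, ← C'.mul]
    exact ⟨fun h => by rw [h], fun h => C'.inj h⟩

end Cfsg.Agent.S1004
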