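import Cfsg.Statements.S1006
import Mathlib
import Cfsg.Agent.Lib.SmallSimple.Code168Facts

set_option autoImplicit false
open Cfsg

namespace Cfsg.Agent.S1006

/-- In a simple group of order 168 there are 56 elements of order 3, all conjugate; 42 elements of order 4, all conjugate; and 48 elements of order 7 falling into two conjugacy classes of size 24, an element of order 7 not being conjugate to its inverse. -/
theorem result {G : Type*} [Group G] [Finite G] [IsSimpleGroup G] (h : Nat.card G = 168) : Nat.card {g : G // orderOf g = 3} = 56 ∧ (∀ s t : G, orderOf s = 3 → orderOf t = 3 → IsConj s t) ∧ Nat.card {g : G // orderOf g = 4} = 42 ∧ (∀ s t : G, orderOf s = 4 → orderOf t = 4 → IsConj s t) ∧ Nat.card {g : G // orderOf g = 7} = 48 ∧ ∀ x : G, orderOf x = 7 → Nat.card {g : G // IsConj x g} = 24 ∧ ¬ IsConj x x⁻¹ := by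
  classical
  obtain ⟨C⟩ := Lib.SmallSimple.C168.exists_code h
  refine ⟨?_, ?_, ?_, ?_, ?_, ?_⟩
  · rw [C.card_subtype' (fun g => orderOf g = 3) (fun c => c ≠ Lib.SmallSimple.C168.idc ∧ Lib.SmallSimple.C168.p3 c = Lib.SmallSimple.C168.idc)
      (fun g => C.orderOf_three_iff), Lib.SmallSimple.C168.count3]
  · intro s t hs ht
    exact C.isConj_of_rep _ Lib.SmallSimple.C168.w3 Lib.SmallSimple.C168.w3_L Lib.SmallSimple.C168.conj3
      (C.orderOf_three_iff.mp hs) (C.orderOf_three_iff.mp ht)
  · rw [C.card_subtype' (fun g => orderOf g = 4) (fun c => Lib.SmallSimple.C168.p2 c ≠ Lib.SmallSimple.C168.idc ∧ Lib.SmallSimple.C168.p4 c = Lib.SmallSimple.C168.idc)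
      (fun g => C.orderOf_four_iff), Lib.SmallSimple.C168.count4]
  · intro s t hs ht
    exact C.isConj_of_rep _ Lib.SmallSimple.C168.w4 Lib.SmallSimple.C168.w4_L Lib.SmallSimple.C168.conj4
      (C.orderOf_four_iff.mp hs) (C.orderOf_four_iff.mp ht)
  · rw [C.card_subtype' (fun g => orderOf g = 7) (fun c => c ≠ Lib.SmallSimple.C168.idc ∧ Lib.SmallSimple.C168.p7 c = Lib.SmallSimple.C168.idc)
      (fun g => C.orderOf_seven_iff), Lib.SmallSimple.C168.count7]
  · intro x hx
    have hx' := C.orderOf_seven_iff.mp hx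
    constructor
    · rw [Lib.ClassSizes.card_isConj_eq_index]
      have h1 := (Subgroup.centralizer ({x} : Set G)).card_mul_index
      have h2 : Nat.card (Subgroup.centralizer ({x} : Set G)) = 7 := by
        rw [← Lib.SmallSimple.C168.cent7 _ (C.mem x) hx']
        rw [← C.card_subtype (fun d => Lib.SmallSimple.C168.cmul d (C.cd x) = Lib.SmallSimple.C168.cmul (C.cd x) d)]
        apply Nat.card_congr
        apply Equiv.subtypeEquivRight
        intro g
        rw [Subgroup.mem_centralizer_singleton_iff, ← C.mul, ← C.mul]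
        exact ⟨fun h => by rw [h], fun h => C.inj h⟩
      rw [h2, h] at h1
      omega
    · intro hc
      obtain ⟨g, hg⟩ := isConj_iff.mp hc
      apply Lib.SmallSimple.C168.notconj7 _ (C.mem x) hx' _ (C.mem g)
      rw [← C.mul, ← C.mul]
      congr 1
      have h1 : g * x = x⁻¹ * g := by
        rw [← hg]
        group
      calc x * (g * x) = x * (x⁻¹ * g) := by rw [h1]
        _ = g := by group

end Cfsg.Agent.S1006
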