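import Cfsg.Statements.S1007
import Mathlib
import Cfsg.Agent.Lib.SmallSimple.Code168Max

set_option autoImplicit false
open Cfsg

namespace Cfsg.Agent.S1007

open Lib.SmallSimple.C168

/-- Let G be a simple group of order 168 and T a Sylow 2-subgroup. Then T contains exactly two subgroups that are Klein four-groups; they are not conjugate in G; and the normalizer of every Klein four-subgroup of G is isomorphic to the symmetric group of degree 4. -/
theorem result {G : Type*} [Group G] [Finite G] [IsSimpleGroup G] (h : Nat.card G = 168) (T : Sylow 2 G) : Nat.card {U : Subgroup G // U ≤ (T : Subgroup G) ∧ IsKleinFour ↥U} = 2 ∧ (∀ U W : Subgroup G, U ≤ (T : Subgroup G) → W ≤ (T : Subgroup G) → IsKleinFour ↥U → IsKleinFour ↥W → U ≠ W → ∀ g : G, U.map (MulAut.conj g).toMonoidHom ≠ W) ∧ ∀ U : Subgroup G, IsKleinFour ↥U → Nonempty (↥(Subgroup.normalizer (U : Set G)) ≃* Equiv.Perm (Fin 4)) := by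
  classical
  obtain ⟨C⟩ := Lib.SmallSimple.C168.exists_code h
  obtain ⟨C', hC'⟩ := C.exists_code_sylow h T
  have hcases : ∀ U : Subgroup G, U ≤ (T : Subgroup G) → IsKleinFour U → U = C'.uu1 ∨ U = C'.uu2 := by
    intro U hU hK
    rw [hC'] at hU
    exact C'.klein_cases hU
  refine ⟨?_, ?_, ?_⟩
  · have hset : {U : Subgroup G | U ≤ (T : Subgroup G) ∧ IsKleinFour U} = {C'.uu1, C'.uu2} := by
      ext U
      simp only [Set.mem_setOf_eq, Set.mem_insert_iff, Set.mem_singleton_iff]
      constructor
      · rintro ⟨h1, h2⟩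
        exact hcases U h1 h2
      · rintro (rfl | rfl)
        · exact ⟨by rw [hC']; exact C'.uu1_le, C'.isKlein_uu1⟩
        · exact ⟨by rw [hC']; exact C'.uu2_le, C'.isKlein_uu2⟩
    have h1 : Nat.card {U : Subgroup G // U ≤ (T : Subgroup G) ∧ IsKleinFour U} =
        Set.ncard {U : Subgroup G | U ≤ (T : Subgroup G) ∧ IsKleinFour U} :=
      Nat.card_coe_set_eq _
    rw [h1, hset, Set.ncard_pair C'.uu1_ne_uu2]
  · intro U W hU hW hKU hKW hne g
    rcases hcases U hU hKU with rfl | rfl <;> rcases hcases W hW hKW with rfl | rfl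
    · exact absurd rfl hne
    · exact C'.nonconj_uu12 g
    · exact C'.nonconj_uu21 g
    · exact absurd rfl hne
  · intro U hK
    have h2 : IsPGroup 2 U := by
      apply IsPGroup.of_card (n := 2)
      rw [IsKleinFour.card_four]
      norm_num
    haveI : Fact (Nat.Prime 2) := ⟨Nat.prime_two⟩
    obtain ⟨T', hT'⟩ : ∃ T' : Sylow 2 G, U ≤ T' := h2.exists_le_sylow
    obtain ⟨C'', hC''⟩ := C.exists_code_sylow h T'
    rw [hC''] at hT'
    rcases C''.klein_cases hT' with rfl | rfl
    · exact C''.iso_nU1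
    · exact C''.iso_nU2

end Cfsg.Agent.S1007
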