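import Cfsg.Statements.S1008
import Mathlib
import Cfsg.Agent.Lib.SmallSimple.Code168Max

set_option autoImplicit false
open Cfsg

namespace Cfsg.Agent.S1008

open Lib.SmallSimple.C168

/-- In a simple group of order 168 every maximal subgroup is either isomorphic to the symmetric group of degree 4 or non-abelian of order 21; the maximal subgroups of order 21 form one conjugacy class and those isomorphic to the symmetric group of degree 4 form exactly two conjugacy classes. -/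
theorem result {G : Type*} [Group G] [Finite G] [IsSimpleGroup G] (h : Nat.card G = 168) : (∀ M : Subgroup G, IsCoatom M → Nonempty (↥M ≃* Equiv.Perm (Fin 4)) ∨ (Nat.card ↥M = 21 ∧ ¬ IsMulCommutative ↥M)) ∧ (∀ M M' : Subgroup G, IsCoatom M → IsCoatom M' → Nat.card ↥M = 21 → Nat.card ↥M' = 21 → ∃ g : G, M' = M.map (MulAut.conj g).toMonoidHom) ∧ ∃ M₁ M₂ : Subgroup G, IsCoatom M₁ ∧ IsCoatom M₂ ∧ Nonempty (↥M₁ ≃* Equiv.Perm (Fin 4)) ∧ Nonempty (↥M₂ ≃* Equiv.Perm (Fin 4)) ∧ (∀ g : G, M₂ ≠ M₁.map (MulAut.conj g).toMonoidHom) ∧ ∀ M : Subgroup G, IsCoatom M → Nonempty (↥M ≃* Equiv.Perm (Fin 4)) → ∃ g : G, M = M₁.map (MulAut.conj g).toMonoidHom ∨ M = M₂.map (MulAut.conj g).toMonoidHom := by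
  classical
  obtain ⟨C⟩ := Lib.SmallSimple.C168.exists_code h
  refine ⟨?_, ?_, C.nU1, C.nU2, Code.coatom_of_index_seven h C.card_nU1, Code.coatom_of_index_seven h C.card_nU2, C.iso_nU1, C.iso_nU2, C.nonconj_nU, ?_⟩
  · intro M hM
    obtain ⟨g, rfl | rfl | rfl⟩ := C.coatom_cases h hM
    · exact Or.inl (C.conj g).iso_nU1
    · exact Or.inl (C.conj g).iso_nU2
    · exact Or.inr ⟨(C.conj g).card_nP7, (C.conj g).not_comm_nP7⟩
  · intro M M' hM hM' hc hc'
    have key : ∀ N : Subgroup G, IsCoatom N → Nat.card N = 21 → ∃ g : G, N = C.nP7.map (MulAut.conj g).toMonoidHom := by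
      intro N hN hcN
      obtain ⟨g, h1 | h1 | h1⟩ := C.coatom_cases h hN
      · rw [h1, (C.conj g).card_nU1] at hcN
        norm_num at hcN
      · rw [h1, (C.conj g).card_nU2] at hcN
        norm_num at hcN
      · exact ⟨g, h1.trans (C.conj_nn P7_L g)⟩
    obtain ⟨g₁, rfl⟩ := key M hM hc
    obtain ⟨g₂, rfl⟩ := key M' hM' hc'
    refine ⟨g₂ * g₁⁻¹, ?_⟩
    rw [Subgroup.map_map]
    congr 1
    ext x
    simp only [MonoidHom.comp_apply, MulEquiv.coe_toMonoidHom, MulAut.conj_apply]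
    group
  · intro M hM hiso
    obtain ⟨e⟩ := hiso
    have hcM : Nat.card M = 24 := by
      rw [Nat.card_congr e.toEquiv, Nat.card_perm]
      simp [Nat.factorial]
    obtain ⟨g, h1 | h1 | h1⟩ := C.coatom_cases h hM
    · exact ⟨g, Or.inl (h1.trans (C.conj_nn U1_L g))⟩
    · exact ⟨g, Or.inr (h1.trans (C.conj_nn U2_L g))⟩
    · rw [h1, (C.conj g).card_nP7] at hcM
      norm_num at hcM

end Cfsg.Agent.S1008
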