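import Cfsg.Statements.S1009
import Mathlib

set_option autoImplicit false
open Cfsg

namespace Cfsg.Agent.S1009

private lemma mem_smul_sylow {Γ : Type*} [Group Γ] {p : ℕ} (g : Γ) (Q : Sylow p Γ) (x : Γ) :
    x ∈ ((g • Q : Sylow p Γ) : Subgroup Γ) ↔ g⁻¹ * x * g ∈ (Q : Subgroup Γ) := by
  rw [Sylow.coe_subgroup_smul, Subgroup.mem_pointwise_smul_iff_inv_smul_mem]
  simp [MulAut.smul_def, MulAut.conj_inv_apply]

/-- Brodkey's Theorem: if a finite group has abelian Sylow p-subgroups, then there are two Sylow p-subgroups whose intersection equals the intersection of all Sylow p-subgroups. -/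
theorem result {G : Type*} [Group G] [Finite G] (p : ℕ) [Fact p.Prime] (hab : ∀ P : Sylow p G, IsMulCommutative ↥(P : Subgroup G)) : ∃ P Q : Sylow p G, (P : Subgroup G) ⊓ (Q : Subgroup G) = ⨅ R : Sylow p G, (R : Subgroup G) := by
  classical
  -- a pair with intersection of least order
  obtain ⟨P₀⟩ : Nonempty (Sylow p G) := inferInstance
  have hP : ∃ n, ∃ P Q : Sylow p G, Nat.card ↥((P : Subgroup G) ⊓ (Q : Subgroup G)) = n :=
    ⟨_, P₀, P₀, rfl⟩
  obtain ⟨P, Q, hPQ⟩ := Nat.find_spec hP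
  have hmin : ∀ P' Q' : Sylow p G, Nat.card ↥((P : Subgroup G) ⊓ (Q : Subgroup G)) ≤
      Nat.card ↥((P' : Subgroup G) ⊓ (Q' : Subgroup G)) := by
    intro P' Q'
    rw [hPQ]
    exact Nat.find_min' hP ⟨P', Q', rfl⟩
  refine ⟨P, Q, le_antisymm ?_ ?_⟩
  swap
  · exact le_inf (iInf_le _ P) (iInf_le _ Q)
  -- the main point
  set D := (P : Subgroup G) ⊓ (Q : Subgroup G) with hD
  rw [le_iInf_iff]
  intro T
  by_contra hDT
  let N := Subgroup.normalizer (D : Set G)
  have hcomm : ∀ R : Sylow p G, D ≤ (R : Subgroup G) → (R : Subgroup G) ≤ N := by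
    intro R hR x hx
    rw [Subgroup.mem_normalizer_iff]
    intro y
    have hab := hab R
    have hcommute : ∀ a ∈ (R : Subgroup G), ∀ b ∈ (R : Subgroup G), a * b = b * a := by
      intro a ha b hb
      have := hab.is_comm.comm ⟨a, ha⟩ ⟨b, hb⟩
      exact congrArg Subtype.val this
    constructor
    · intro hy
      have : x * y * x⁻¹ = y := by
        rw [hcommute x hx y (hR hy)]; group
      rwa [this]
    · intro hy
      have h1 := hR hy
      have h2 : y = x⁻¹ * (x * y * x⁻¹) * x := by group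
      have h3 : x⁻¹ * (x * y * x⁻¹) * x = x * y * x⁻¹ := by
        rw [hcommute x⁻¹ ((R : Subgroup G).inv_mem hx) _ h1]
        group
      rw [h2, h3]
      exact hy
  have hPN : (P : Subgroup G) ≤ N := hcomm P inf_le_left
  have hQN : (Q : Subgroup G) ≤ N := hcomm Q inf_le_right
  -- a Sylow subgroup of `N` containing `T ∩ N`
  let P' : Sylow p N := P.subtype hPN
  have hE : IsPGroup p ((T : Subgroup G).subgroupOf N) :=
    T.isPGroup'.comap_of_injective N.subtype Subtype.val_injective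
  obtain ⟨S, hS⟩ := hE.exists_le_sylow
  obtain ⟨n, hn⟩ := MulAction.exists_smul_eq N P' S
  have hEP : ∀ e ∈ (T : Subgroup G), ∀ he : e ∈ N, (n : G)⁻¹ * e * n ∈ (P : Subgroup G) := by
    intro e he heN
    have h1 : (⟨e, heN⟩ : N) ∈ (S : Subgroup N) := hS (Subgroup.mem_subgroupOf.mpr he)
    rw [← hn, mem_smul_sylow] at h1
    have h2 : ((n⁻¹ * ⟨e, heN⟩ * n : N) : G) ∈ (P : Subgroup G) := by
      have := h1
      rw [show (P' : Subgroup N) = (P : Subgroup G).subgroupOf N from rfl,
        Subgroup.mem_subgroupOf] at this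
      exact this
    simpa using h2
  have hnD : ∀ x : G, (n : G)⁻¹ * x * n ∈ D ↔ x ∈ D := by
    intro x
    have h1 := (Subgroup.mem_normalizer_iff.mp (N.inv_mem n.2 : (n : G)⁻¹ ∈ N)) x
    simpa using h1.symm
  let U : Sylow p G := (n : G) • Q
  have hUN : (U : Subgroup G) ≤ N := by
    intro x hx
    rw [mem_smul_sylow] at hx
    have h1 := hQN hx
    have h2 : x = (n : G) * ((n : G)⁻¹ * x * n) * (n : G)⁻¹ := by group
    rw [h2]
    exact N.mul_mem (N.mul_mem n.2 h1) (N.inv_mem n.2)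
  have hle : (T : Subgroup G) ⊓ (U : Subgroup G) ≤ D := by
    rintro x ⟨hxT, hxU⟩
    have h1 := hUN hxU
    have h2 := hEP x hxT h1
    have h3 : (n : G)⁻¹ * x * n ∈ (Q : Subgroup G) := (mem_smul_sylow _ _ _).mp hxU
    exact (hnD x).mp ⟨h2, h3⟩
  have hDU : D ≤ (U : Subgroup G) := by
    intro x hx
    rw [mem_smul_sylow]
    exact ((hnD x).mpr hx).2
  have heq : (T : Subgroup G) ⊓ (U : Subgroup G) = (T : Subgroup G) ⊓ D := by
    apply le_antisymm
    · exact le_inf inf_le_left hle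
    · exact inf_le_inf_left _ hDU
  have hlt : Nat.card ((T : Subgroup G) ⊓ D : Subgroup G) < Nat.card D := by
    by_contra hcon2
    push Not at hcon2
    have h5 := Subgroup.eq_of_le_of_card_ge (inf_le_right : (T : Subgroup G) ⊓ D ≤ D) hcon2
    apply hDT
    rw [← h5]
    exact inf_le_left
  have h4 := hmin T U
  rw [heq] at h4
  omega

end Cfsg.Agent.S1009
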