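import Mathlib
import Cfsg.Agent.Lib.SmallSimple.Syl21D

set_option autoImplicit false

namespace Cfsg.Agent.S1010

open Subgroup MulAction Cfsg.Agent.Lib.SmallSimple Cfsg.Agent.Lib.SmallSimple.Syl21

universe u

/-- A normal subgroup containing a Sylow subgroup has as many Sylow subgroups as the group. -/
theorem card_sylow_of_le_normal {G : Type*} [Group G] [Finite G] {p : ℕ} [Fact p.Prime]
    (M : Subgroup G) [hM : M.Normal] (Q₀ : Sylow p G) (hQ₀ : (Q₀ : Subgroup G) ≤ M) :
    Nat.card (Sylow p M) = Nat.card (Sylow p G) := by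
  have hall : ∀ Q : Sylow p G, (Q : Subgroup G) ≤ M := by
    intro Q
    obtain ⟨g, rfl⟩ := MulAction.exists_smul_eq G Q₀ Q
    intro x hx
    have h1 := (mem_smul_sylow g x Q₀).mp hx
    have h2 := hQ₀ h1
    have h3 := hM.conj_mem _ h2 g
    have h4 : g * (g⁻¹ * x * g) * g⁻¹ = x := by group
    rwa [h4] at h3
  refine (Nat.card_congr (Equiv.ofBijective (fun Q : Sylow p G => Q.subtype (hall Q)) ⟨?_, ?_⟩)).symm
  · intro Q Q' h
    exact Sylow.subtype_injective h
  · intro S
    have hp : IsPGroup p ((S : Subgroup M).map M.subtype) := S.isPGroup'.map _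
    obtain ⟨Q, hQ⟩ := hp.exists_le_sylow
    refine ⟨Q, ?_⟩
    apply Sylow.ext
    have hle : (S : Subgroup M) ≤ (Q.subtype (hall Q) : Subgroup M) := by
      intro x hx
      rw [Sylow.coe_subtype, mem_subgroupOf]
      exact hQ (mem_map_of_mem _ hx)
    exact S.is_maximal' (Q.subtype (hall Q)).isPGroup' hle

/-- A quotient by a normal subgroup normalizing all Sylow subgroups has as many Sylow subgroups. -/
theorem card_sylow_quotient {G : Type*} [Group G] [Finite G] {p : ℕ} [Fact p.Prime]
    (K : Subgroup G) [K.Normal] (hK : ∀ Q : Sylow p G, K ≤ normalizer ((Q : Subgroup G) : Set G)) :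
    Nat.card (Sylow p (G ⧸ K)) = Nat.card (Sylow p G) := by
  have hf : Function.Surjective (QuotientGroup.mk' K) := QuotientGroup.mk'_surjective K
  refine (Nat.card_congr (Equiv.ofBijective (Sylow.mapSurjective hf)
    ⟨?_, Sylow.mapSurjective_surjective hf p⟩)).symm
  intro Q₁ Q₂ h
  have h1 : (Q₁ : Subgroup G).map (QuotientGroup.mk' K) = (Q₂ : Subgroup G).map (QuotientGroup.mk' K) :=
    congrArg (fun S : Sylow p (G ⧸ K) => (S : Subgroup (G ⧸ K))) h
  have h2 : (Q₂ : Subgroup G) ≤ (Q₁ : Subgroup G) ⊔ K := by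
    have h3 := Subgroup.comap_map_eq (QuotientGroup.mk' K) (Q₁ : Subgroup G)
    rw [QuotientGroup.ker_mk'] at h3
    rw [← h3]
    intro x hx
    rw [mem_comap, h1]
    exact mem_map_of_mem _ hx
  have h3 : (Q₁ : Subgroup G) ⊔ K ≤ normalizer ((Q₁ : Subgroup G) : Set G) :=
    sup_le Subgroup.le_normalizer (hK Q₁)
  have h4 : (Q₂ : Subgroup G) ≤ (Q₁ : Subgroup G) := by
    have h5 := IsPGroup.inf_normalizer_sylow Q₂.isPGroup' Q₁
    have h6 : (Q₂ : Subgroup G) ≤ (Q₂ : Subgroup G) ⊓ normalizer ((Q₁ : Subgroup G) : Set G) :=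
      le_inf le_rfl (h2.trans h3)
    exact (le_trans h6 h5.le).trans inf_le_right
  exact Sylow.ext (Q₂.is_maximal' Q₁.isPGroup' h4)

/-- A normal subgroup not containing Sylow 5-subgroups does not exist. -/
theorem false_of_normal {G : Type*} [Group G] [Finite G] (hc : Ctx G) (M : Subgroup G) [hM : M.Normal]
    (hbot : M ≠ ⊥) (hno : ∀ Q : Sylow 5 G, ¬ (Q : Subgroup G) ≤ M) : False := by
  obtain ⟨P⟩ := (inferInstance : Nonempty (Sylow 5 G))
  haveI := hc.cyc P
  have h5M : ¬ 5 ∣ Nat.card M := by
    intro h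
    obtain ⟨x, hx⟩ := exists_prime_orderOf_dvd_card' (G := M) 5 h
    have hx' : orderOf (x : G) = 5 := by rw [Subgroup.orderOf_coe]; exact hx
    have hpz : IsPGroup 5 (zpowers (x : G)) := IsPGroup.of_card (by
      rw [Nat.card_zpowers, hx', pow_one])
    obtain ⟨Q, hQ⟩ := hpz.exists_le_sylow
    have hQeq : zpowers (x : G) = (Q : Subgroup G) := by
      apply Subgroup.eq_of_le_of_card_ge hQ
      rw [hc.h5 Q, Nat.card_zpowers, hx']
    apply hno Q
    rw [← hQeq, zpowers_le]
    exact x.2
  have hblock : IsBlock G (orbit M P) := IsBlock.orbit_of_normal P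
  have hdvd := hblock.ncard_dvd_card ⟨P, MulAction.mem_orbit_self P⟩
  rw [hc.h21] at hdvd
  -- the orbit is `P`-invariant
  let A : Set (Sylow 5 G) := orbit M P \ {P}
  have hA : ∀ g ∈ (P : Subgroup G), ∀ Q ∈ A, g • Q ∈ A := by
    rintro g hg Q ⟨⟨m, rfl⟩, h2⟩
    refine ⟨⟨⟨g * m * g⁻¹, hM.conj_mem _ m.2 g⟩, ?_⟩, ?_⟩
    · show (g * m * g⁻¹ : G) • P = g • ((m : G) • P)
      rw [← smul_smul, ← smul_smul, smul_left_cancel_iff]
      have h3 : g⁻¹ • P = P := smul_self_of_mem P (P.1.inv_mem hg)
      rw [h3]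
    · exact smul_ne_of_ne h2 hg
  obtain ⟨k, hk⟩ := Lib.Perm.dvd_ncard_of_orbits (P : Subgroup G) A hA 5 (by
    rintro Q ⟨-, h1⟩
    rw [orbit_ncard_eq, relIndex_eq_five hc.h21 P Q h1])
  have hPmem : P ∈ orbit M P := MulAction.mem_orbit_self P
  have hcard : (orbit M P).ncard = A.ncard + 1 := by
    have h1 : orbit M P = insert P A := by
      ext Q
      rw [Set.mem_insert_iff]
      constructor
      · intro h2
        by_cases h3 : Q = P
        · exact Or.inl h3
        · exact Or.inr ⟨h2, h3⟩
      · rintro (rfl | h2)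
        · exact hPmem
        · exact h2.1
    rw [h1, Set.ncard_insert_of_notMem (by
      rintro ⟨-, h2⟩
      exact h2 rfl) (Set.toFinite _)]
  have hle := Nat.le_of_dvd (by norm_num) hdvd
  have hcases : (orbit M P).ncard = 1 ∨ (orbit M P).ncard = 21 := by
    rw [hcard, hk] at hdvd ⊢
    have hk4 : k ≤ 4 := by
      rw [hcard, hk] at hle
      omega
    interval_cases k <;> omega
  rcases hcases with h1 | h21'
  · -- `M` fixes `P`, hence everything
    apply hbot
    rw [eq_bot_iff]
    intro m hm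
    rw [Subgroup.mem_bot]
    apply hc.faith
    intro Q
    obtain ⟨g, rfl⟩ := MulAction.exists_smul_eq G P Q
    have h2 : orbit M P = {P} := by
      rw [Set.ncard_eq_one] at h1
      obtain ⟨a, ha⟩ := h1
      rw [ha] at hPmem ⊢
      rw [Set.mem_singleton_iff.mp hPmem]
    have h3 : (g⁻¹ * m * g) • P ∈ orbit M P := by
      refine ⟨⟨g⁻¹ * m * g, ?_⟩, rfl⟩
      have := hM.conj_mem m hm g⁻¹
      rwa [inv_inv] at this
    rw [h2, Set.mem_singleton_iff] at h3
    rw [smul_smul, show m * g = g * (g⁻¹ * m * g) by group, ← smul_smul, h3]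
  · have h7M : 7 ∣ Nat.card M := by
      have h1 := MulAction.index_stabilizer M P
      have h2 : (stabilizer M P).index ∣ Nat.card M := Subgroup.index_dvd_card _
      rw [h1, h21'] at h2
      exact (by norm_num : 7 ∣ 21).trans h2
    obtain ⟨x, hx⟩ := exists_prime_orderOf_dvd_card' (G := M) 7 h7M
    have hx' : orderOf (x : G) = 7 := by rw [Subgroup.orderOf_coe]; exact hx
    have hpz : IsPGroup 7 (zpowers (x : G)) := IsPGroup.of_card (by
      rw [Nat.card_zpowers, hx', pow_one])
    obtain ⟨R, hR⟩ := hpz.exists_le_sylow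
    have hReq : zpowers (x : G) = (R : Subgroup G) := by
      apply Subgroup.eq_of_le_of_card_ge hR
      rw [hc.card_seven R, Nat.card_zpowers, hx']
    have hRM : (R : Subgroup G) ≤ M := by
      rw [← hReq, zpowers_le]
      exact x.2
    have hn := card_sylow_of_le_normal M R hRM
    have hn7 : ¬ 5 ∣ Nat.card (Sylow 7 G) := by
      rw [← hn]
      intro h
      obtain ⟨T⟩ := (inferInstance : Nonempty (Sylow 7 M))
      rw [T.card_eq_index_normalizer] at h
      exact h5M (h.trans (Subgroup.index_dvd_card _))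
    have hmod := P.isPGroup'.card_modEq_card_fixedPoints (Sylow 7 G)
    have hne : Nonempty (fixedPoints (P : Subgroup G) (Sylow 7 G)) := by
      by_contra hcon
      rw [not_nonempty_iff] at hcon
      have h0 : Nat.card (fixedPoints (P : Subgroup G) (Sylow 7 G)) = 0 := Nat.card_of_isEmpty
      rw [h0] at hmod
      exact hn7 ((Nat.modEq_zero_iff_dvd).mp hmod)
    obtain ⟨⟨R₁, hR₁⟩⟩ := hne
    haveI : Fact (Nat.Prime (Nat.card (R₁ : Subgroup G))) := ⟨by rw [hc.card_seven R₁]; norm_num⟩
    haveI : IsCyclic (R₁ : Subgroup G) := isCyclic_of_prime_card rfl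
    apply hc.sylow_seven_not_le R₁ P
    intro r hr
    apply Subgroup.centralizer_le_normalizer
    rw [mem_centralizer_iff]
    intro y hy
    have hyN : y ∈ normalizer ((R₁ : Subgroup G) : Set G) :=
      Sylow.smul_eq_iff_mem_normalizer.mp (hR₁ ⟨y, hy⟩)
    have hy5 : y ^ 5 = 1 := by
      have h1 : orderOf (⟨y, hy⟩ : (P : Subgroup G)) ∣ Nat.card (P : Subgroup G) := orderOf_dvd_natCard _
      rw [hc.h5 P] at h1
      have h2 := orderOf_dvd_iff_pow_eq_one.mp h1
      have h3 := congrArg Subtype.val h2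
      simpa using h3
    have hyC := mem_centralizer_of_pow (R₁ : Subgroup G) hyN hy5 (by
      rw [hc.card_seven R₁, show Nat.totient 7 = 6 by decide]
      norm_num)
    exact ((mem_centralizer_iff.mp hyC) r hr).symm

theorem main : ∀ (n : ℕ) (G : Type u) [Group G] [Finite G], Nat.card G = n → Nat.card (Sylow 5 G) ≠ 21 := by
  intro n
  induction n using Nat.strong_induction_on with
  | _ n ih =>
    intro G _ _ hn h21
    let K : Subgroup G := (MulAction.toPermHom G (Sylow 5 G)).ker
    have hKmem : ∀ g : G, g ∈ K ↔ ∀ Q : Sylow 5 G, g • Q = Q := by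
      intro g
      show (MulAction.toPermHom G (Sylow 5 G)) g = 1 ↔ _
      rw [Equiv.ext_iff]
      rfl
    by_cases hK : K = ⊥
    · have hc : Ctx G := ⟨h21, fun g hg => by
        have h1 : g ∈ K := (hKmem g).mpr hg
        rw [hK] at h1
        exact h1⟩
      have hnt : Nontrivial G := by
        obtain ⟨P⟩ := (inferInstance : Nonempty (Sylow 5 G))
        have h1 := hc.h5 P
        rw [← Finite.one_lt_card_iff_nontrivial]
        have h2 : Nat.card (P : Subgroup G) ≤ Nat.card G := Subgroup.card_le_card_group _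
        omega
      have hs : IsSimpleGroup G := by
        refine ⟨fun M hM => ?_⟩
        by_contra hcon
        push Not at hcon
        obtain ⟨hbot, htop⟩ := hcon
        by_cases hno : ∀ Q : Sylow 5 G, ¬ (Q : Subgroup G) ≤ M
        · exact false_of_normal hc M hbot hno
        · push Not at hno
          obtain ⟨Q, hQ⟩ := hno
          have h1 := card_sylow_of_le_normal M Q hQ
          have hlt : Nat.card M < n := by
            rw [← hn]
            have h2 := Subgroup.card_mul_index M
            have h3 : M.index ≠ 1 := fun h4 => htop (Subgroup.index_eq_one.mp h4)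
            have h4 : M.index ≠ 0 := Subgroup.index_ne_zero_of_finite
            have h5 : 0 < Nat.card M := Nat.card_pos
            have h6 : 2 ≤ M.index := by omega
            rw [← h2]
            nlinarith
          exact ih _ hlt M rfl (h1.trans h21)
      exact hc.false_of_simple
    · have hKn : K.Normal := MonoidHom.normal_ker _
      have h1 : Nat.card (Sylow 5 (G ⧸ K)) = Nat.card (Sylow 5 G) :=
        card_sylow_quotient K (fun Q x hx => Sylow.smul_eq_iff_mem_normalizer.mp ((hKmem x).mp hx Q))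
      have hlt : Nat.card (G ⧸ K) < n := by
        rw [← hn]
        have h2 := Subgroup.card_eq_card_quotient_mul_card_subgroup K
        have h3 : Nat.card K ≠ 1 := by
          intro h4
          exact hK ((Subgroup.card_eq_one).mp h4)
        have h4 : Nat.card K ≠ 0 := Nat.card_pos.ne'
        have h5 : 0 < Nat.card (G ⧸ K) := Nat.card_pos
        rw [h2]
        have h6 : 2 ≤ Nat.card K := by omega
        nlinarith
      exact ih _ hlt (G ⧸ K) rfl (h1.trans h21)

/-- No finite group has exactly twenty-one Sylow 5-subgroups. -/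
theorem result {G : Type*} [Group G] [Finite G] : Nat.card (Sylow 5 G) ≠ 21 :=
  main _ G rfl

end Cfsg.Agent.S1010
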