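import Cfsg.Statements.S1014
import Mathlib
import Cfsg.Agent.Lib.SmallSimple.Recognize

set_option autoImplicit false
open Cfsg

namespace Cfsg.Agent.S1014

open OnePoint

theorem hroots : ∀ a : ZMod 23, a ^ 2 = 1 → a ≠ 1 → a = -1 := by decide

theorem hhalf : ∀ b : ZMod 23, ∃ c : ZMod 23, ∀ i : ZMod 23, -1 * i + b = i ↔ i = c := by decide

/-- No finite simple group has order 1104 = 2^4 * 3 * 23. -/
theorem result {G : Type*} [Group G] [Finite G] [IsSimpleGroup G] : Nat.card G ≠ 1104 := by
  intro h
  classical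
  have hnc : ¬ IsMulCommutative G := Lib.SmallSimple.not_comm_of_not_prime (by rw [h]; norm_num)
  haveI : Fact (Nat.Prime 23) := ⟨by norm_num⟩
  obtain ⟨h1, h2, h3, -, h5⟩ := Lib.SmallSimple.sylow_facts (G := G) hnc 23 1 48 (by rw [h]; norm_num) (by norm_num) one_ne_zero
  have hP : ∀ P : Sylow 23 G, Nat.card (P : Subgroup G) = 23 := fun P => by
    have := (h5 P).1
    rwa [pow_one] at this
  have hnp : Nat.card (Sylow 23 G) = 23 + 1 := by
    have : ∀ n, n ≤ 48 → n ∣ 48 → n % 23 = 1 → n ≠ 1 → n = 23 + 1 := by decide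
    exact this _ (Nat.le_of_dvd (by norm_num) h1) h1 h2 h3
  obtain ⟨L⟩ := Lib.SmallSimple.exists_lineAction_of_simple hP hnp
  have hG : Nat.card G = (23 + 1) * 23 * 2 := by rw [h]
  have hr := L.card_range_coefHom hG
  -- a multiplier different from one
  obtain ⟨g, hg⟩ : ∃ g : L.stab, L.coefHom g ≠ 1 := by
    by_contra hcon
    push Not at hcon
    have : L.coefHom.range = ⊥ := by
      rw [eq_bot_iff]
      rintro _ ⟨g, rfl⟩
      exact hcon g
    rw [this, Subgroup.card_bot] at hr
    omega
  have ha := L.coef_pow hG g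
  rw [L.coefHom_apply] at hg
  obtain ⟨b, hb⟩ := L.coef_spec g
  set a : ZMod 23 := ((L.coef g : (ZMod 23)ˣ) : ZMod 23) with haa
  have ha1 : a ≠ 1 := fun h0 => hg (Units.ext h0)
  have ham : a = -1 := hroots a ha ha1
  rw [ham] at hb
  have hginf : L.ρ g ∞ = ∞ := g.2
  have hsq : ((g : G)) ^ 2 = 1 := by
    apply L.eq_of_agree
    · rw [map_pow, pow_two, Equiv.Perm.mul_apply, hginf, hginf, map_one, Equiv.Perm.one_apply]
    · intro i
      rw [map_pow, pow_two, Equiv.Perm.mul_apply, hb, hb, map_one, Equiv.Perm.one_apply, OnePoint.coe_eq_coe]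
      ring
  have heven := Lib.SmallSimple.even_moved_of_involution hnc L.ρ g hsq
  have hcardO : Nat.card (OnePoint (ZMod 23)) = 24 := by
    rw [Nat.card_eq_fintype_card]
    show Fintype.card (Option (ZMod 23)) = 24
    rw [Fintype.card_option, ZMod.card]
  obtain ⟨c, hc⟩ := hhalf b
  have hfix : Function.fixedPoints (L.ρ g) = {(∞ : OnePoint (ZMod 23)), ((c : ZMod 23) : OnePoint (ZMod 23))} := by
    ext u
    rw [Function.mem_fixedPoints, Set.mem_insert_iff, Set.mem_singleton_iff]
    cases u with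
    | infty =>
      simp only [Function.IsFixedPt, true_or, iff_true]
      exact hginf
    | coe i =>
      simp only [Function.IsFixedPt]
      rw [hb, OnePoint.coe_eq_coe, hc]
      constructor
      · intro h0
        right
        rw [OnePoint.coe_eq_coe]
        exact h0
      · rintro (h0 | h0)
        · exact absurd h0 (OnePoint.coe_ne_infty _)
        · rwa [OnePoint.coe_eq_coe] at h0
  have hcard2 : Nat.card (Function.fixedPoints (L.ρ g)) = 2 := by
    rw [hfix, Nat.card_coe_set_eq, Set.ncard_pair (OnePoint.infty_ne_coe _)]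
  rw [hcardO, hcard2] at heven
  revert heven
  decide

end Cfsg.Agent.S1014
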