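import Cfsg.Statements.S1015
import Mathlib
import Cfsg.Agent.Lib.SmallSimple.Tools

set_option autoImplicit false
open Cfsg

namespace Cfsg.Agent.S1015

/-- No finite simple group has order 1200 = 2^4 * 3 * 5^2. -/
theorem result {G : Type*} [Group G] [Finite G] [IsSimpleGroup G] : Nat.card G ≠ 1200 := by
  intro h
  have hnc : ¬ IsMulCommutative G := Lib.SmallSimple.not_comm_of_not_prime (by rw [h]; norm_num)
  haveI : Fact (Nat.Prime 5) := ⟨by norm_num⟩
  obtain ⟨h1, h2, h3, h4, h5⟩ := Lib.SmallSimple.sylow_facts (G := G) hnc 5 2 48 (by rw [h]; norm_num) (by norm_num) (by norm_num)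
  rw [h] at h4
  have h16 : Nat.card (Sylow 5 G) = 16 := by
    have h6 : Nat.card (Sylow 5 G) ≠ 6 := by
      intro h7
      rw [h7] at h4
      revert h4
      decide
    have : ∀ n, n ≤ 48 → n ∣ 48 → n % 5 = 1 → n ≠ 1 → n ≠ 6 → n = 16 := by decide
    exact this _ (Nat.le_of_dvd (by norm_num) h1) h1 h2 h3 h6
  obtain ⟨P⟩ : Nonempty (Sylow 5 G) := inferInstance
  have hP := fun Q => (h5 Q).1
  -- a second Sylow subgroup meeting `P` nontrivially
  obtain ⟨Q, hQP, hd⟩ := Lib.SmallSimple.exists_sylow_of_not_modEq P 25 (by rw [h16]; decide)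
  have hD : ∃ z : G, z ≠ 1 ∧ z ∈ (P : Subgroup G) ∧ z ∈ (Q : Subgroup G) := by
    by_contra hcon
    push Not at hcon
    apply hd
    have hbot : ((P : Subgroup G) ⊓ (Q : Subgroup G)) = ⊥ := by
      rw [eq_bot_iff]
      rintro z ⟨hz1, hz2⟩
      by_contra hz
      exact hcon z hz hz1 hz2
    rw [hbot, Subgroup.relIndex_bot_left, hP]
    norm_num
  obtain ⟨z, hz1, hzP, hzQ⟩ := hD
  have hcomm : ∀ R : Sylow 5 G, z ∈ (R : Subgroup G) → (R : Subgroup G) ≤ Subgroup.centralizer ({z} : Set G) := by
    intro R hzR y hy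
    rw [Subgroup.mem_centralizer_singleton_iff]
    have hRc : IsMulCommutative (R : Subgroup G) := by
      have hc := hP R
      exact IsPGroup.isMulCommutative_of_card_eq_prime_sq hc
    have := hRc.is_comm.comm (⟨y, hy⟩ : (R : Subgroup G)) ⟨z, hzR⟩
    exact congrArg Subtype.val this
  have hC := Lib.SmallSimple.card_ge_of_two_sylow (Subgroup.centralizer ({z} : Set G)) P Q hQP.symm
    (hcomm P hzP) (hcomm Q hzQ)
  rw [hP P] at hC
  have hne := Lib.SmallSimple.centralizer_ne_top hnc hz1
  have hidx := Lib.Cl.two_mul_card_dvd_factorial_index (Lib.SmallSimple.two_lt_card hnc) _ hne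
  rw [h] at hidx
  have hmul := (Subgroup.centralizer ({z} : Set G)).card_mul_index
  rw [h] at hmul
  have hi : (Subgroup.centralizer ({z} : Set G)).index ≤ 8 := by
    by_contra hi
    have : 9 * 150 ≤ Nat.card (Subgroup.centralizer ({z} : Set G)) * (Subgroup.centralizer ({z} : Set G)).index :=
      by rw [mul_comm]; exact Nat.mul_le_mul (by omega) (by omega)
    omega
  generalize (Subgroup.centralizer ({z} : Set G)).index = i at *
  clear hmul
  interval_cases i <;> revert hidx <;> decide

end Cfsg.Agent.S1015
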