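import Cfsg.Statements.S1016
import Mathlib
import Cfsg.Agent.Lib.SmallSimple.BlockApply

set_option autoImplicit false
open Cfsg

namespace Cfsg.Agent.S1016

/-- No finite simple group has order 1440 = 2^5 * 3^2 * 5. -/
theorem result {G : Type*} [Group G] [Finite G] [IsSimpleGroup G] : Nat.card G ≠ 1440 := by
  intro h
  have hnc : ¬ IsMulCommutative G := Lib.SmallSimple.not_comm_of_not_prime (by rw [h]; norm_num)
  haveI : Fact (Nat.Prime 5) := ⟨by norm_num⟩
  haveI : Fact (Nat.Prime 3) := ⟨by norm_num⟩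
  obtain ⟨h1, h2, h3, h4, h5⟩ := Lib.SmallSimple.sylow_facts (G := G) hnc 5 1 288
    (by rw [h]; norm_num) (by norm_num) (by norm_num)
  have hsyl : ¬ 5 ^ 2 ∣ Nat.card G := by rw [h]; norm_num
  have hn : Nat.card (Sylow 5 G) = 6 ∨ Nat.card (Sylow 5 G) = 16 ∨ Nat.card (Sylow 5 G) = 36 ∨
      Nat.card (Sylow 5 G) = 96 := by
    have : ∀ n, n ≤ 288 → n ∣ 288 → n % 5 = 1 → n ≠ 1 → n ∈ ({6, 16, 36, 96} : Finset ℕ) := by
      decide +kernel
    simpa using this _ (Nat.le_of_dvd (by norm_num) h1) h1 h2 h3
  obtain ⟨P⟩ : Nonempty (Sylow 5 G) := inferInstance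
  obtain ⟨hP, hN⟩ := h5 P
  rw [pow_one] at hP
  obtain ⟨x, hx, hz⟩ := Lib.SmallSimple.BA.exists_gen P hP
  obtain ⟨e, he, he1, hNe⟩ := Lib.SmallSimple.BA.norm_data hnc P hP hx hz
  rw [← hz, h] at hN
  have hxC : x ∈ Subgroup.centralizer ({x} : Set G) := by
    rw [Subgroup.mem_centralizer_singleton_iff]
  have hpd : 5 ∣ Nat.card (Subgroup.centralizer ({x} : Set G)) := by
    have := orderOf_dvd_natCard (⟨x, hxC⟩ : Subgroup.centralizer ({x} : Set G))
    rwa [Subgroup.orderOf_mk, hx] at this
  have he4 : e ∣ 4 := he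
  have hee : e = 2 ∨ e = 4 := by
    have : ∀ e, e ≤ 4 → e ∣ 4 → e ≠ 1 → e = 2 ∨ e = 4 := by decide
    exact this e (Nat.le_of_dvd (by norm_num) he4) he4 he1
  rw [hNe] at hN
  obtain ⟨k, hk⟩ := hpd
  rcases hn with hn | hn | hn | hn
  · rw [hn, h] at h4
    revert h4
    decide
  · -- 16 Sylow subgroups
    rw [hn, hk] at hN
    have hC : e = 2 ∧ k = 9 := by
      rcases hee with rfl | rfl <;> omega
    obtain ⟨rfl, rfl⟩ := hC
    obtain ⟨K, hK⟩ := Sylow.exists_subgroup_card_pow_prime (G := Subgroup.centralizer ({x} : Set G)) 3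
      (n := 2) (by rw [hk]; norm_num)
    let Y : Subgroup G := K.map (Subgroup.centralizer ({x} : Set G)).subtype
    have hY : Nat.card Y = 9 := by
      rw [Subgroup.card_map_of_injective (Subgroup.subtype_injective _), hK]
      norm_num
    have hYc : Y ≤ Subgroup.centralizer ({x} : Set G) := Subgroup.map_subtype_le K
    have hYq : IsPGroup 3 Y := IsPGroup.of_card (n := 2) (by rw [hY]; norm_num)
    have hdvd := Lib.SmallSimple.BA.card_dvd_of_free P hz Y hYq hYc (by
      intro y hy hyo Q hQ
      have e1 := Lib.SmallSimple.BA.fix_modEq_sylow (p := 5) hyo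
      have e2 := Lib.SmallSimple.BA.fix_modEq_one P hx hz (hYc hy)
      have e3 := Lib.SmallSimple.BA.card_fix_le (p := 5) (y := y)
      rw [hn] at e1 e3
      have e4 : y • P = P := by
        rw [Sylow.smul_eq_iff_mem_normalizer]
        have h' := Lib.SmallSimple.BB.centralizer_le_normalizer (hYc hy)
        rw [hz] at h'
        exact h'
      have e5 : Nat.card {Q : Sylow 5 G // y • Q = Q} = 1 ∨ Nat.card {Q : Sylow 5 G // y • Q = Q} = 16 := by
        have e6 : Nat.card {Q : Sylow 5 G // y • Q = Q} % 3 = 1 := e1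
        have e7 : Nat.card {Q : Sylow 5 G // y • Q = Q} % 5 = 1 := e2
        omega
      rcases e5 with e5 | e5
      · haveI := (Nat.card_eq_one_iff_unique.mp e5).1
        have e6 : (⟨Q, hQ⟩ : {Q : Sylow 5 G // y • Q = Q}) = ⟨P, e4⟩ := Subsingleton.elim _ _
        exact congrArg Subtype.val e6
      · exfalso
        have e6 := Lib.SmallSimple.BA.forall_fix_of_card (p := 5) (y := y) (e5.trans hn.symm)
        have e7 := Lib.SmallSimple.BA.eq_one_of_fix_all (p := 5) (by rw [hn]; norm_num) e6
        rw [e7, orderOf_one] at hyo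
        omega)
    rw [hY, hn] at hdvd
    revert hdvd
    decide
  · -- 36 Sylow subgroups
    rw [hn, hk] at hN
    rcases hee with rfl | rfl
    · have hk4 : k = 4 := by omega
      subst hk4
      obtain ⟨d, d₀, σ, hσ, hd, hd₀, hd1, hd₀1, hc1, hc2, hrel⟩ :=
        Lib.SmallSimple.BA.two_wrapper hnc hx hsyl hNe (by norm_num) (by rw [hk]; norm_num)
      rw [h] at hd hd₀
      have hc1' : (d : ℤ) % 5 = σ % 5 := by exact_mod_cast hc1
      have key : ∀ d, d ≤ 1440 → d ∣ 1440 → 10 ≤ d →
          (d % 5 = 1 → ¬ (d + 1) ∣ 1440) ∧ (d % 5 = 4 → ¬ (d - 1) ∣ 1440) := by decide +kernel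
      have hk := key d (Nat.le_of_dvd (by norm_num) hd) hd (by omega)
      rcases hσ with rfl | rfl
      · have h6 : d₀ = d + 1 := by omega
        subst h6
        exact hk.1 (by omega) hd₀
      · have h6 : d₀ = d - 1 := by omega
        subst h6
        exact hk.2 (by omega) hd₀
    · have hk2 : k = 2 := by omega
      subst hk2
      obtain ⟨ι, _, w, d, hw0, hd, hd1, hc, hsum, hnorm⟩ :=
        Lib.SmallSimple.BA.single_wrapper hnc hx hsyl (by simpa using hNe) (by norm_num)
          (by rw [hk]; norm_num)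
      have heven : ∀ i, 2 ∣ d i := by
        intro i
        have hdi := hd i
        rw [h] at hdi
        have hnot5 : d i % 5 ≠ 0 := by
          intro h0
          have hw : (5 : ℤ) ∣ w i := by
            have h6 : (d i : ℤ) % 5 = (- w i) % 5 := by exact_mod_cast hc i
            omega
          have h7 : w i * w i ≤ 4 := by
            have h8 := Finset.single_le_sum (f := fun i => w i * w i) (fun _ _ => mul_self_nonneg _)
              (Finset.mem_univ i)
            rw [hnorm] at h8
            norm_num at h8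
            exact h8
          obtain ⟨m, hm⟩ := hw
          have hm0 : m ≠ 0 := by
            rintro rfl
            exact hw0 i (by simpa using hm)
          have : 1 ≤ m * m := by
            have := mul_self_pos.mpr hm0
            omega
          rw [hm] at h7
          nlinarith
        have key : ∀ d, d ≤ 1440 → d ∣ 1440 → 10 ≤ d → d % 5 ≠ 0 → 2 ∣ d := by decide +kernel
        exact key _ (Nat.le_of_dvd (by norm_num) hdi) hdi (by have := hd1 i; omega) hnot5
      have h2s : (2 : ℤ) ∣ ∑ i, w i * d i := by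
        refine Finset.dvd_sum fun i _ => ?_
        exact Dvd.dvd.mul_left (by exact_mod_cast heven i) _
      rw [hsum] at h2s
      norm_num at h2s
  · -- 96 Sylow subgroups
    rw [hn, hk] at hN
    rcases hee with rfl | rfl <;> omega

end Cfsg.Agent.S1016
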