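import Cfsg.Statements.S1017
import Mathlib
import Cfsg.Agent.Lib.SmallSimple.BlockApply

set_option autoImplicit false
open Cfsg

namespace Cfsg.Agent.S1017

/-- No finite simple group has order 2016 = 2^5 * 3^2 * 7. -/
theorem result {G : Type*} [Group G] [Finite G] [IsSimpleGroup G] : Nat.card G ≠ 2016 := by
  intro h
  have hnc : ¬ IsMulCommutative G := Lib.SmallSimple.not_comm_of_not_prime (by rw [h]; norm_num)
  haveI : Fact (Nat.Prime 7) := ⟨by norm_num⟩
  obtain ⟨h1, h2, h3, h4, h5⟩ := Lib.SmallSimple.sylow_facts (G := G) hnc 7 1 288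
    (by rw [h]; norm_num) (by norm_num) (by norm_num)
  have hsyl : ¬ 7 ^ 2 ∣ Nat.card G := by rw [h]; norm_num
  have hn : Nat.card (Sylow 7 G) = 8 ∨ Nat.card (Sylow 7 G) = 36 ∨ Nat.card (Sylow 7 G) = 288 := by
    have : ∀ n, n ≤ 288 → n ∣ 288 → n % 7 = 1 → n ≠ 1 → n = 8 ∨ n = 36 ∨ n = 288 := by decide +kernel
    exact this _ (Nat.le_of_dvd (by norm_num) h1) h1 h2 h3
  obtain ⟨P⟩ : Nonempty (Sylow 7 G) := inferInstance
  obtain ⟨hP, hN⟩ := h5 P
  rw [pow_one] at hP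
  obtain ⟨x, hx, hz⟩ := Lib.SmallSimple.BA.exists_gen P hP
  obtain ⟨e, he, he1, hNe⟩ := Lib.SmallSimple.BA.norm_data hnc P hP hx hz
  rw [← hz, h] at hN
  have hxC : x ∈ Subgroup.centralizer ({x} : Set G) := by
    rw [Subgroup.mem_centralizer_singleton_iff]
  have hpd : 7 ∣ Nat.card (Subgroup.centralizer ({x} : Set G)) := by
    have := orderOf_dvd_natCard (⟨x, hxC⟩ : Subgroup.centralizer ({x} : Set G))
    rwa [Subgroup.orderOf_mk, hx] at this
  have he6 : e ∣ 6 := he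
  have hee : e = 2 ∨ e = 3 ∨ e = 6 := by
    have : ∀ e, e ≤ 6 → e ∣ 6 → e ≠ 1 → e = 2 ∨ e = 3 ∨ e = 6 := by decide
    exact this e (Nat.le_of_dvd (by norm_num) he6) he6 he1
  rcases hn with hn | hn | hn
  · -- 8 Sylow subgroups
    have hC := Lib.SmallSimple.BA.card_centralizer_of_succ (p := 7) (by rw [hn]) P hx hz hsyl
    rw [hn, hNe, hC] at hN
    rcases hee with rfl | rfl | rfl <;> omega
  · -- 36 Sylow subgroups
    rw [hn] at hN
    have hC : e = 2 ∧ Nat.card (Subgroup.centralizer ({x} : Set G)) = 28 := by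
      rw [hNe] at hN
      rcases hee with rfl | rfl | rfl <;> omega
    obtain ⟨rfl, hC⟩ := hC
    obtain ⟨d, d₀, σ, hσ, hd, hd₀, hd1, hd₀1, hc1, hc2, hrel⟩ :=
      Lib.SmallSimple.BA.two_wrapper hnc hx hsyl hNe (by norm_num) (by rw [hC]; norm_num)
    rw [h] at hd hd₀
    have hc1' : (d : ℤ) % 7 = σ % 7 := by exact_mod_cast hc1
    have key : ∀ d, d ≤ 2016 → d ∣ 2016 → 14 ≤ d →
        (d % 7 = 1 → ¬ (d + 1) ∣ 2016) ∧ (d % 7 = 6 → ¬ (d - 1) ∣ 2016) := by decide +kernel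
    have hk := key d (Nat.le_of_dvd (by norm_num) hd) hd (by omega)
    rcases hσ with rfl | rfl
    · have h6 : d₀ = d + 1 := by omega
      subst h6
      exact hk.1 (by omega) hd₀
    · have h6 : d₀ = d - 1 := by omega
      subst h6
      exact hk.2 (by omega) hd₀
  · -- 288 Sylow subgroups
    rw [hn, hNe] at hN
    obtain ⟨k, hk⟩ := hpd
    rw [hk] at hN
    rcases hee with rfl | rfl | rfl <;> omega

end Cfsg.Agent.S1017
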