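import Cfsg.Statements.S1018
import Mathlib

set_option autoImplicit false
open Cfsg

namespace Cfsg.Agent.S1018

/-- Let P be a Sylow p-subgroup of order p of a finite group G, and consider the action of G on the left cosets of the normalizer N of P. Then every element of order p fixes exactly one coset, and an element of N that does not centralize P fixes at most as many cosets as there are orbits of P. -/
theorem result {G : Type*} [Group G] [Finite G] (p : ℕ) [Fact p.Prime] (P : Sylow p G) (hP : Nat.card ↥(P : Subgroup G) = p) : (∀ y : G, orderOf y = p → Nat.card (MulAction.fixedBy (G ⧸ Subgroup.normalizer ((P : Subgroup G) : Set G)) y) = 1) ∧ ∀ x : G, x ∈ Subgroup.normalizer ((P : Subgroup G) : Set G) → x ∉ Subgroup.centralizer ((P : Subgroup G) : Set G) → Nat.card (MulAction.fixedBy (G ⧸ Subgroup.normalizer ((P : Subgroup G) : Set G)) x) ≤ Nat.card (MulAction.orbitRel.Quotient ↥(P : Subgroup G) (G ⧸ Subgroup.normalizer ((P : Subgroup G) : Set G))) := by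
  classical
  have hp' : p.Prime := Fact.out
  set N := Subgroup.normalizer ((P : Subgroup G) : Set G) with hN
  -- generators of `P`
  have hgen : ∀ (w : G), w ∈ (P : Subgroup G) → w ≠ 1 → ∀ u ∈ (P : Subgroup G), ∃ k : ℤ, w ^ k = u := by
    intro w hw hw1 u hu
    have hwo : orderOf (⟨w, hw⟩ : (P : Subgroup G)) = p := by
      have h3 : orderOf (⟨w, hw⟩ : (P : Subgroup G)) ∣ p :=
        (orderOf_dvd_natCard _).trans (dvd_of_eq hP)
      rcases (Nat.dvd_prime hp').mp h3 with h4 | h4
      · exfalso
        apply hw1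
        have := orderOf_eq_one_iff.mp h4
        simpa using congrArg Subtype.val this
      · exact h4
    have htop : Subgroup.zpowers (⟨w, hw⟩ : (P : Subgroup G)) = ⊤ := by
      apply Subgroup.eq_top_of_card_eq
      rw [Nat.card_zpowers, hwo, hP]
    have hm : (⟨u, hu⟩ : (P : Subgroup G)) ∈ Subgroup.zpowers (⟨w, hw⟩ : (P : Subgroup G)) := by
      rw [htop]; trivial
    obtain ⟨k, hk⟩ := Subgroup.mem_zpowers_iff.mp hm
    exact ⟨k, by simpa using congrArg Subtype.val hk⟩
  have hnorm : ∀ (g : G) (S : Sylow p G), g • S = S ↔ g ∈ Subgroup.normalizer ((S : Subgroup G) : Set G) :=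
    fun g S => Sylow.smul_eq_iff_mem_normalizer
  -- coset action
  have hfix : ∀ (y g : G), (y • (QuotientGroup.mk g : G ⧸ N) = QuotientGroup.mk g) ↔
      y • (g • P : Sylow p G) = g • P := by
    intro y g
    have h1 : y • (QuotientGroup.mk g : G ⧸ N) = QuotientGroup.mk (y * g) := rfl
    rw [h1, QuotientGroup.eq, ← mul_smul, ← inv_smul_eq_iff, ← mul_smul, hnorm, hN]
    constructor
    · intro h
      have := Subgroup.inv_mem _ h
      simpa [mul_assoc] using this
    · intro h
      have := Subgroup.inv_mem _ h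
      simpa [mul_assoc] using this
  have hel : ∀ (y : G), orderOf y = p → ∀ S : Sylow p G, y • S = S ↔ y ∈ (S : Subgroup G) := by
    intro y hy S
    have hpg : IsPGroup p (Subgroup.zpowers y) := by
      apply IsPGroup.of_card (n := 1)
      rw [Nat.card_zpowers, pow_one, hy]
    have h5 : Subgroup.zpowers y ⊓ Subgroup.normalizer ((S : Subgroup G) : Set G) =
        Subgroup.zpowers y ⊓ (S : Subgroup G) := IsPGroup.inf_normalizer_sylow hpg S
    rw [hnorm]
    constructor
    · intro h
      have h6 : y ∈ Subgroup.zpowers y ⊓ Subgroup.normalizer ((S : Subgroup G) : Set G) :=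
        ⟨Subgroup.mem_zpowers y, h⟩
      rw [h5] at h6
      exact h6.2
    · intro h
      exact Subgroup.le_normalizer h
  have hcardS : ∀ S : Sylow p G, Nat.card (S : Subgroup G) = p := by
    intro S
    rw [S.card_eq_multiplicity, ← P.card_eq_multiplicity]
    exact hP
  constructor
  · intro y hy
    have hcard : Nat.card (Subgroup.zpowers y) = p := by rw [Nat.card_zpowers, hy]
    have hS : ∀ S : Sylow p G, y ∈ (S : Subgroup G) → (S : Subgroup G) = Subgroup.zpowers y := by
      intro S hyS
      symm
      apply Subgroup.eq_of_le_of_card_ge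
      · rw [Subgroup.zpowers_le]; exact hyS
      · rw [hcard, hcardS]
    let S : Sylow p G := Sylow.ofCard (Subgroup.zpowers y) (by
      rw [hcard]
      have := P.card_eq_multiplicity
      rw [hP] at this
      exact this)
    obtain ⟨g, hg⟩ := MulAction.exists_smul_eq G P S
    have hyS : y ∈ ((g • P : Sylow p G) : Subgroup G) := by
      rw [hg]
      exact Subgroup.mem_zpowers y
    rw [Nat.card_eq_one_iff_unique]
    refine ⟨⟨?_⟩, ⟨⟨QuotientGroup.mk g, ?_⟩⟩⟩
    · rintro ⟨c₁, hc₁⟩ ⟨c₂, hc₂⟩
      apply Subtype.ext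
      obtain ⟨g₁, rfl⟩ := QuotientGroup.mk_surjective c₁
      obtain ⟨g₂, rfl⟩ := QuotientGroup.mk_surjective c₂
      have h1 := (hel y hy _).mp ((hfix y g₁).mp hc₁)
      have h2 := (hel y hy _).mp ((hfix y g₂).mp hc₂)
      have h3 := hS _ h1
      have h4 := hS _ h2
      have h5 : (g₁ • P : Sylow p G) = g₂ • P := Sylow.ext (h3.trans h4.symm)
      show (QuotientGroup.mk g₁ : G ⧸ N) = QuotientGroup.mk g₂
      rw [QuotientGroup.eq, hN, ← hnorm, mul_smul, ← h5, inv_smul_smul]
    · exact (hfix y g).mpr ((hel y hy _).mpr hyS)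
  · intro x hxN hxC
    let π : MulAction.fixedBy (G ⧸ N) x → MulAction.orbitRel.Quotient (P : Subgroup G) (G ⧸ N) :=
      fun c => Quotient.mk _ c.1
    apply Nat.card_le_card_of_injective π
    rintro ⟨c₁, hc₁⟩ ⟨c₂, hc₂⟩ hc
    apply Subtype.ext
    have hc' : c₁ ∈ MulAction.orbit (P : Subgroup G) c₂ := Quotient.exact hc
    obtain ⟨⟨u, hu⟩, rfl⟩ := hc'
    -- now `c₁ = u • c₂`
    show u • c₂ = c₂
    have hc₁' : x • (u • c₂) = u • c₂ := hc₁
    have hc₂' : x • c₂ = c₂ := hc₂
    set w := u⁻¹ * x * u * x⁻¹ with hw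
    have hwP : w ∈ (P : Subgroup G) := by
      have h1 : x * u * x⁻¹ ∈ (P : Subgroup G) := (Subgroup.mem_normalizer_iff.mp hxN u).mp hu
      have h2 : w = u⁻¹ * (x * u * x⁻¹) := by rw [hw]; group
      rw [h2]
      exact (P : Subgroup G).mul_mem ((P : Subgroup G).inv_mem hu) h1
    have hwfix : w • c₂ = c₂ := by
      have h1 : x⁻¹ • c₂ = c₂ := by rw [inv_smul_eq_iff, hc₂']
      have h2 : w = u⁻¹ * x * u * x⁻¹ := hw
      rw [h2, mul_smul, h1, mul_smul, mul_smul, hc₁', inv_smul_smul]
    by_cases hw1 : w = 1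
    · -- `u` centralises `x`
      have hux : u⁻¹ * x * u = x := by
        have := hw1
        rw [hw, mul_inv_eq_one] at this
        exact this
      by_cases hu1 : u = 1
      · rw [hu1, one_smul]
      · exfalso
        apply hxC
        rw [Subgroup.mem_centralizer_iff]
        intro v hv
        obtain ⟨k, rfl⟩ := hgen u hu hu1 v hv
        have hc : Commute u x := by
          have h3 : x * u = u * x := by
            calc x * u = u * (u⁻¹ * x * u) := by group
              _ = u * x := by rw [hux]
          exact h3.symm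
        exact (hc.zpow_left k).eq
    · obtain ⟨k, hk⟩ := hgen w hwP hw1 u hu
      rw [← hk]
      have hz : ∀ n : ℤ, w ^ n • c₂ = c₂ := by
        intro n
        have : w ∈ MulAction.stabilizer G c₂ := hwfix
        have h2 := Subgroup.zpow_mem _ this n
        exact h2
      exact hz k

end Cfsg.Agent.S1018
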