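import Cfsg.Statements.S1019
import Cfsg.Agent.Lib.SmallSimple.Basic
import Cfsg.Agent.Lib.ClassSizes.Basic
import Mathlib

set_option autoImplicit false
open Cfsg

namespace Cfsg.Agent.S1019

open Cfsg.Agent.Lib.SmallSimple

/-- Let H be a subgroup of a finite group G and x an element of H. In the action of G on the left cosets of H, the number of cosets fixed by x, multiplied by the size of the conjugacy class of x, equals the index of H multiplied by the number of conjugates of x that lie in H. -/
theorem result {G : Type*} [Group G] [Finite G] (H : Subgroup G) (x : G) (hx : x ∈ H) : Nat.card (MulAction.fixedBy (G ⧸ H) x) * Nat.card {g : G // IsConj x g} = H.index * Nat.card {g : G // IsConj x g ∧ g ∈ H} := by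
  classical
  set f := Nat.card (MulAction.fixedBy (G ⧸ H) x) with hf
  set c := Nat.card {g : G // IsConj x g} with hc
  set a := Nat.card {g : G // IsConj x g ∧ g ∈ H} with ha
  set k := Nat.card (Subgroup.centralizer ({x} : Set G)) with hk
  have hk0 : 0 < k := Nat.card_pos
  have hH0 : 0 < Nat.card H := Nat.card_pos
  -- the set of conjugators
  let A := {g : G // g⁻¹ * x * g ∈ H}
  have hfix : ∀ g : G, ((QuotientGroup.mk g : G ⧸ H) ∈ MulAction.fixedBy (G ⧸ H) x) ↔
      g⁻¹ * x * g ∈ H := by
    intro g
    rw [MulAction.mem_fixedBy]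
    have h1 : x • (QuotientGroup.mk g : G ⧸ H) = QuotientGroup.mk (x * g) := rfl
    rw [h1, QuotientGroup.eq]
    constructor
    · intro h
      have := H.inv_mem h
      simpa [mul_assoc] using this
    · intro h
      have := H.inv_mem h
      simpa [mul_assoc] using this
  -- first fibration
  have h1 : Nat.card A = f * Nat.card H := by
    let φ : A → MulAction.fixedBy (G ⧸ H) x := fun g =>
      ⟨QuotientGroup.mk g.1, (hfix g.1).mpr g.2⟩
    apply card_eq_of_fibers φ
    rintro ⟨b, hb⟩
    obtain ⟨g₀, rfl⟩ := QuotientGroup.mk_surjective b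
    have hg₀ := (hfix g₀).mp hb
    let e : {a : A // φ a = ⟨QuotientGroup.mk g₀, hb⟩} ≃ H :=
      { toFun := fun a => ⟨g₀⁻¹ * a.1.1, by
          have h2 : (QuotientGroup.mk a.1.1 : G ⧸ H) = QuotientGroup.mk g₀ :=
            congrArg Subtype.val a.2
          exact (QuotientGroup.eq.mp h2.symm)⟩
        invFun := fun h => ⟨⟨g₀ * h.1, by
            have : (g₀ * h.1)⁻¹ * x * (g₀ * h.1) = h.1⁻¹ * (g₀⁻¹ * x * g₀) * h.1 := by group
            rw [this]
            exact H.mul_mem (H.mul_mem (H.inv_mem h.2) hg₀) h.2⟩, by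
            apply Subtype.ext
            show (QuotientGroup.mk (g₀ * h.1) : G ⧸ H) = QuotientGroup.mk g₀
            rw [QuotientGroup.eq]
            simpa using H.inv_mem h.2⟩
        left_inv := fun a => by
          apply Subtype.ext; apply Subtype.ext
          simp
        right_inv := fun h => by
          apply Subtype.ext
          simp }
    exact Nat.card_congr e
  -- second fibration
  have h2 : Nat.card A = a * k := by
    let φ : A → {g : G // IsConj x g ∧ g ∈ H} := fun g =>
      ⟨g.1⁻¹ * x * g.1, ⟨isConj_iff.mpr ⟨g.1⁻¹, by simp⟩, g.2⟩⟩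
    apply card_eq_of_fibers φ
    rintro ⟨y, hy, hyH⟩
    obtain ⟨t, ht⟩ := isConj_iff.mp hy
    -- `t * x * t⁻¹ = y`
    let e : {a : A // φ a = ⟨y, hy, hyH⟩} ≃ Subgroup.centralizer ({x} : Set G) :=
      { toFun := fun a => ⟨a.1.1 * t, by
          have h3 : a.1.1⁻¹ * x * a.1.1 = y := congrArg Subtype.val a.2
          rw [Subgroup.mem_centralizer_singleton_iff]
          have hty : t * x * t⁻¹ = a.1.1⁻¹ * x * a.1.1 := ht.trans h3.symm
          calc a.1.1 * t * x = a.1.1 * (t * x * t⁻¹) * t := by group
            _ = a.1.1 * (a.1.1⁻¹ * x * a.1.1) * t := by rw [hty]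
            _ = x * (a.1.1 * t) := by group⟩
        invFun := fun c => ⟨⟨c.1 * t⁻¹, by
            have h5 := Subgroup.mem_centralizer_singleton_iff.mp c.2
            have : (c.1 * t⁻¹)⁻¹ * x * (c.1 * t⁻¹) = y := by
              rw [← ht]
              calc (c.1 * t⁻¹)⁻¹ * x * (c.1 * t⁻¹) = t * (c.1⁻¹ * (x * c.1)) * t⁻¹ := by group
                _ = t * (c.1⁻¹ * (c.1 * x)) * t⁻¹ := by rw [h5]
                _ = t * x * t⁻¹ := by group
            rw [this]
            exact hyH⟩, by
            apply Subtype.ext
            have h5 := Subgroup.mem_centralizer_singleton_iff.mp c.2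
            show (c.1 * t⁻¹)⁻¹ * x * (c.1 * t⁻¹) = y
            rw [← ht]
            calc (c.1 * t⁻¹)⁻¹ * x * (c.1 * t⁻¹) = t * (c.1⁻¹ * (x * c.1)) * t⁻¹ := by group
              _ = t * (c.1⁻¹ * (c.1 * x)) * t⁻¹ := by rw [h5]
              _ = t * x * t⁻¹ := by group⟩
        left_inv := fun a => by
          apply Subtype.ext; apply Subtype.ext
          simp
        right_inv := fun c => by
          apply Subtype.ext
          simp }
    exact Nat.card_congr e
  -- class sizes
  have h3 : c * k = Nat.card G := by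
    rw [hc, hk, Cfsg.Agent.Lib.ClassSizes.card_isConj_eq_index]
    exact Subgroup.index_mul_card _
  have h4 : H.index * Nat.card H = Nat.card G := Subgroup.index_mul_card H
  have h5 : (f * c) * (Nat.card H * k) = (H.index * a) * (Nat.card H * k) := by
    calc (f * c) * (Nat.card H * k) = (f * Nat.card H) * (c * k) := by ring
      _ = (a * k) * (H.index * Nat.card H) := by rw [← h1, h2, h3, h4]
      _ = (H.index * a) * (Nat.card H * k) := by ring
  exact Nat.eq_of_mul_eq_mul_right (Nat.mul_pos hH0 hk0) h5

end Cfsg.Agent.S1019
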