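import Cfsg.Statements.S1022
import Mathlib
import Cfsg.Agent.Lib.SmallSimple.InvVal
import Cfsg.Agent.Lib.SmallSimple.BlockApply
import Cfsg.Agent.Lib.BR.BlockExt

set_option autoImplicit false
open Cfsg

namespace Cfsg.Agent.S1022

open Subgroup
open Cfsg.Agent.Lib.Block (oneIrr)
open scoped ComplexConjugate

theorem key_arith : ∀ a ∈ Finset.range 6, ∀ b ∈ Finset.range 6, ∀ c ∈ Finset.range 6,
    (a + b + c = 1 ∨ a + b + c = 2 ∨ a + b + c = 5) →
    (1 + 96 * (a : ℤ) - 56 * (b : ℤ) - 189 * (c : ℤ)).natAbs ∣ 459648 → a = 2 ∧ b = 2 ∧ c = 1 := by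
  decide +kernel

theorem count_sum {ι : Type*} [DecidableEq ι] (δ : ι → ℤ) (deg : ι → ℕ) (X : Finset ι)
    (hX : ∀ χ ∈ X, (deg χ = 56 ∧ δ χ = -1) ∨ (deg χ = 96 ∧ δ χ = 1) ∨ (deg χ = 189 ∧ δ χ = -1)) :
    ∃ a b c : ℕ, a + b + c = X.card ∧
      ∑ χ ∈ X, δ χ * (deg χ : ℤ) = 96 * (a : ℤ) - 56 * (b : ℤ) - 189 * (c : ℤ) ∧
      (b ≠ 0 → ∃ χ ∈ X, deg χ = 56) := by
  induction X using Finset.induction_on with
  | empty => exact ⟨0, 0, 0, by simp⟩
  | insert χ₀ s hχ ih =>
    obtain ⟨a, b, c, h1, h2, h3⟩ := ih (fun χ hc => hX χ (Finset.mem_insert_of_mem hc))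
    rw [Finset.sum_insert hχ, Finset.card_insert_of_notMem hχ, h2]
    rcases hX χ₀ (Finset.mem_insert_self _ _) with ⟨e1, e2⟩ | ⟨e1, e2⟩ | ⟨e1, e2⟩
    · refine ⟨a, b + 1, c, by omega, ?_, fun _ => ⟨χ₀, Finset.mem_insert_self _ _, e1⟩⟩
      rw [e1, e2]
      push_cast
      ring
    · refine ⟨a + 1, b, c, by omega, ?_, fun hb => ?_⟩
      · rw [e1, e2]
        push_cast
        ring
      · obtain ⟨χ, hc, hd⟩ := h3 hb
        exact ⟨χ, Finset.mem_insert_of_mem hc, hd⟩
    · refine ⟨a, b, c + 1, by omega, ?_, fun hb => ?_⟩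
      · rw [e1, e2]
        push_cast
        ring
      · obtain ⟨χ, hc, hd⟩ := h3 hb
        exact ⟨χ, Finset.mem_insert_of_mem hc, hd⟩

/-- No finite simple group has order 459648 = 2^7 * 3^3 * 7 * 19. -/
theorem result {G : Type*} [Group G] [Finite G] [IsSimpleGroup G] : Nat.card G ≠ 459648 := by
  intro h
  classical
  haveI : Fintype G := Fintype.ofFinite G
  have hnc : ¬ IsMulCommutative G := Lib.SmallSimple.not_comm_of_not_prime (by rw [h]; norm_num)
  haveI hf19 : Fact (Nat.Prime 19) := ⟨by norm_num⟩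
  haveI hf2 : Fact (Nat.Prime 2) := ⟨by norm_num⟩
  have hp19 : Nat.Prime 19 := hf19.out
  obtain ⟨h1, h2, h3, h4, h5⟩ := Lib.SmallSimple.sylow_facts (G := G) hnc 19 1 24192
    (by rw [h]; norm_num) (by norm_num) (by norm_num)
  have hsyl : ¬ 19 ^ 2 ∣ Nat.card G := by rw [h]; norm_num
  have hn : Nat.card (Sylow 19 G) = 96 ∨ Nat.card (Sylow 19 G) = 1008 := by
    have key1 : ∀ n, n ≤ 156 → n ∣ 24192 → n % 19 = 1 → n ≠ 1 → n = 96 := by decide +kernel
    have key2 : ∀ m, m ≤ 156 → m ∣ 24192 → (24192 / m) % 19 = 1 → 24192 / m ≠ 1 →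
        24192 / m = 96 ∨ 24192 / m = 1008 := by decide +kernel
    by_cases hle : Nat.card (Sylow 19 G) ≤ 156
    · exact Or.inl (key1 _ hle h1 h2 h3)
    · obtain ⟨m, hm⟩ := h1
      push Not at hle
      have hm0 : 0 < m := by
        rcases Nat.eq_zero_or_pos m with h0 | h0
        · rw [h0] at hm
          omega
        · exact h0
      have hm1 : m ≤ 156 := by
        by_contra hlt
        push Not at hlt
        have : 157 * 157 ≤ Nat.card (Sylow 19 G) * m := Nat.mul_le_mul hle hlt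
        omega
      have hdm : m ∣ 24192 := ⟨_, by rw [hm]; ring⟩
      have hq : 24192 / m = Nat.card (Sylow 19 G) := by
        rw [hm]
        exact Nat.mul_div_cancel _ hm0
      rw [← hq] at h2 h3 ⊢
      exact key2 m hm1 hdm h2 h3
  obtain ⟨P⟩ : Nonempty (Sylow 19 G) := inferInstance
  obtain ⟨hP, hN⟩ := h5 P
  rw [pow_one] at hP
  obtain ⟨x, hx, hz⟩ := Lib.SmallSimple.BA.exists_gen P hP
  obtain ⟨e, he, he1, hNe⟩ := Lib.SmallSimple.BA.norm_data hnc P hP hx hz
  rw [← hz, h] at hN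
  have hxC : x ∈ centralizer ({x} : Set G) := by
    rw [mem_centralizer_singleton_iff]
  have hpd : 19 ∣ Nat.card (centralizer ({x} : Set G)) := by
    have := orderOf_dvd_natCard (⟨x, hxC⟩ : centralizer ({x} : Set G))
    rwa [Subgroup.orderOf_mk, hx] at this
  obtain ⟨k, hk⟩ := hpd
  have he18 : e ∣ 18 := he
  have hee : e = 2 ∨ e = 3 ∨ e = 6 ∨ e = 9 ∨ e = 18 := by
    have : ∀ e, e ≤ 18 → e ∣ 18 → e ≠ 1 → e = 2 ∨ e = 3 ∨ e = 6 ∨ e = 9 ∨ e = 18 := by decide
    exact this e (Nat.le_of_dvd (by norm_num) he18) he18 he1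
  have hN' := hN
  rw [hNe, hk] at hN'
  have hI : (centralizer ({x} : Set G)).index * (19 * k) = 459648 := by
    rw [← h, ← hk]
    exact index_mul_card _
  have hk2 : 2 ∣ k := by
    rcases hn with hn | hn <;> rw [hn] at hN' <;> rcases hee with rfl | rfl | rfl | rfl | rfl <;> omega
  have hinv : 2 ∣ Nat.card (centralizer ({x} : Set G)) := by
    rw [hk]
    exact Dvd.dvd.mul_left hk2 _
  obtain ⟨t₀, ht₀⟩ := exists_prime_orderOf_dvd_card' (G := centralizer ({x} : Set G)) 2 hinv
  have ht' : orderOf (t₀ : G) = 2 := by rw [Subgroup.orderOf_coe]; exact ht₀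
  obtain ⟨M, hM⟩ := Lib.Char.exists_isPModular 19 hp19
  obtain ⟨X, Y, δ, ε, deg, hdeg, hB, hdisj, hXc, hYc, he0, hX, hε, hYd, hYY, hYrel, -⟩ :=
    Lib.BR.block_ext hM hx hsyl e hNe
  have hper := Lib.SmallSimple.BA.perfect_of_simple hnc (G := G)
  haveI hMp : M.IsPrime := hM.2.1.isPrime
  have hone : oneIrr G ∈ principalBlock M G := Lib.Block.mem_blockOf_self (oneIrr G)
  have hone1 : deg (oneIrr G) = 1 := by
    have h0 := (hdeg (oneIrr G)).1
    have h6 : (((oneIrr G : IrrCharacter G) : G → ℂ) 1) = 1 := rfl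
    rw [h6] at h0
    exact_mod_cast h0.symm
  have hdegsq : ∀ χ : IrrCharacter G, deg χ ≤ 677 := by
    intro χ
    have h6 := Lib.Char.sum_degree_sq (G := G)
    have h7 : ∀ χ : IrrCharacter G, (χ : G → ℂ) 1 ^ 2 = ((deg χ ^ 2 : ℕ) : ℂ) := by
      intro χ
      rw [(hdeg χ).1]
      push_cast
      rfl
    simp only [h7] at h6
    have h8 : ∑ χ : IrrCharacter G, (deg χ) ^ 2 = Nat.card G := by exact_mod_cast h6
    have h9 := Finset.single_le_sum (f := fun χ : IrrCharacter G => (deg χ) ^ 2)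
      (fun χ _ => Nat.zero_le _) (Finset.mem_univ χ)
    rw [h8, h] at h9
    by_contra hlt
    push Not at hlt
    have h10 : 678 ^ 2 ≤ deg χ ^ 2 := Nat.pow_le_pow_left hlt 2
    norm_num at h10
    omega
  -- the non-exceptional characters
  have hXd : ∀ χ ∈ X, χ ≠ oneIrr G → 38 ≤ deg χ ∧ deg χ ≤ 677 ∧
      deg χ ∣ (centralizer ({x} : Set G)).index ∧ (δ χ = 1 ∨ δ χ = -1) ∧ ((deg χ : ℤ) % 19 = δ χ % 19) := by
    intro χ hχ hχ1
    obtain ⟨h6, h7, h8⟩ := hX χ hχ
    refine ⟨?_, hdegsq χ, ?_, h6, h7⟩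
    · exact Lib.SmallSimple.BB.two_p_le_deg hper hM hx hsyl (by norm_num) ht' t₀.2 χ
        ((hB χ).mpr (Or.inl hχ)) hχ1 (hdeg χ).1
    · have h9 := h8 x (mem_zpowers x) (by
        rintro rfl
        rw [orderOf_one] at hx
        omega)
      have h10 := Lib.SmallSimple.BB.deg_dvd_of_value χ (hdeg χ).1 (hdeg χ).2.1 x (v := 1) (by
        rcases h6 with h6 | h6
        · left
          rw [h9, h6]
          simp
        · right
          rw [h9, h6]
          simp)
      simpa using h10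
  -- a member of `Y`
  have hYc' : Y.card * e = 18 := hYc
  have hYne : Y.Nonempty := by
    rw [Finset.nonempty_iff_ne_empty]
    rintro rfl
    simp at hYc'
  obtain ⟨θ₀, hθ₀⟩ := hYne
  have hrel : ∀ θ ∈ Y, ε * (deg θ : ℤ) = ∑ χ ∈ X, δ χ * (deg χ : ℤ) := by
    intro θ hθ
    have h6 := hYrel θ hθ 1 (by
      rw [orderOf_one]
      norm_num)
    rw [(hdeg θ).1] at h6
    have h7 : ∀ χ ∈ X, (δ χ : ℂ) * (χ : G → ℂ) 1 = ((δ χ * (deg χ : ℤ) : ℤ) : ℂ) := by
      intro χ _
      rw [(hdeg χ).1]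
      push_cast
      rfl
    rw [Finset.sum_congr rfl h7] at h6
    exact_mod_cast h6
  have hδ1 : oneIrr G ∈ X → δ (oneIrr G) = 1 := by
    intro h1X
    have h6 := (hX _ h1X).2.2 x (mem_zpowers x) (by
      rintro rfl
      rw [orderOf_one] at hx
      omega)
    have h7 : (((oneIrr G : IrrCharacter G) : G → ℂ) x) = 1 := rfl
    rw [h7] at h6
    exact_mod_cast h6.symm
  have hmod : ∀ χ ∈ X, χ ≠ oneIrr G → deg χ % 19 = 1 ∨ deg χ % 19 = 18 := by
    intro χ hχ hχ1
    obtain ⟨-, -, -, h9, h10⟩ := hXd χ hχ hχ1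
    rcases h9 with h9 | h9 <;> rw [h9] at h10 <;> omega
  have hsign : ∀ χ ∈ X, χ ≠ oneIrr G → (deg χ % 19 = 1 → δ χ = 1) ∧ (deg χ % 19 = 18 → δ χ = -1) := by
    intro χ hχ hχ1
    obtain ⟨-, -, -, h9, h10⟩ := hXd χ hχ hχ1
    constructor
    · intro h6
      rcases h9 with h9 | h9
      · exact h9
      · rw [h9] at h10
        omega
    · intro h6
      rcases h9 with h9 | h9
      · rw [h9] at h10
        omega
      · exact h9
  have hdvdG : ∀ θ : IrrCharacter G, deg θ ∣ 459648 := fun θ => h ▸ (hdeg θ).2.2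
  rcases hn with hn | hn
  · -- 96 Sylow subgroups
    rw [hn] at hN'
    have hI1728 : (centralizer ({x} : Set G)).index ∣ 1728 := by
      rcases hee with rfl | rfl | rfl | rfl | rfl
      · have hk' : k = 126 := by omega
        subst hk'
        have h6 : (centralizer ({x} : Set G)).index = 192 := by omega
        rw [h6]
        norm_num
      · have hk' : k = 84 := by omega
        subst hk'
        have h6 : (centralizer ({x} : Set G)).index = 288 := by omega
        rw [h6]
        norm_num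
      · have hk' : k = 42 := by omega
        subst hk'
        have h6 : (centralizer ({x} : Set G)).index = 576 := by omega
        rw [h6]
        norm_num
      · have hk' : k = 28 := by omega
        subst hk'
        have h6 : (centralizer ({x} : Set G)).index = 864 := by omega
        rw [h6]
        norm_num
      · have hk' : k = 14 := by omega
        subst hk'
        have h6 : (centralizer ({x} : Set G)).index = 1728 := by omega
        rw [h6]
    have hall : ∀ χ ∈ X, χ ≠ oneIrr G → deg χ = 96 ∧ δ χ = 1 := by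
      intro χ hχ hχ1
      obtain ⟨h6, h7, h8, -, -⟩ := hXd χ hχ hχ1
      have key : ∀ d, d ≤ 677 → 38 ≤ d → d ∣ 1728 → (d % 19 = 1 ∨ d % 19 = 18) → d = 96 := by
        decide +kernel
      have h12 := key _ h7 h6 (h8.trans hI1728) (hmod χ hχ hχ1)
      exact ⟨h12, (hsign χ hχ hχ1).1 (by rw [h12])⟩
    by_cases h1X : oneIrr G ∈ X
    · have h6 := hrel θ₀ hθ₀
      rw [← Finset.add_sum_erase X _ h1X, hδ1 h1X, hone1] at h6
      have h7 : ∑ χ ∈ X.erase (oneIrr G), δ χ * (deg χ : ℤ) = 96 * (e - 1 : ℕ) := by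
        rw [Finset.sum_congr rfl (g := fun _ => (96 : ℤ))]
        · rw [Finset.sum_const, Finset.card_erase_of_mem h1X, hXc]
          simp [mul_comm]
        · intro χ hχ
          obtain ⟨h8, h9⟩ := Finset.mem_erase.mp hχ
          obtain ⟨h10, h11⟩ := hall χ h9 h8
          rw [h10, h11]
          norm_num
      rw [h7] at h6
      have h8 := hdvdG θ₀
      have h9 := (hdeg θ₀).2.1
      rcases hε with rfl | rfl <;> rcases hee with rfl | rfl | rfl | rfl | rfl <;>
        norm_num at h6 <;> first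
          | omega
          | (have h10 : deg θ₀ = 97 := by omega
             rw [h10] at h8; revert h8; decide)
          | (have h10 : deg θ₀ = 193 := by omega
             rw [h10] at h8; revert h8; decide)
          | (have h10 : deg θ₀ = 481 := by omega
             rw [h10] at h8; revert h8; decide)
          | (have h10 : deg θ₀ = 769 := by omega
             rw [h10] at h8; revert h8; decide)
          | (have h10 : deg θ₀ = 1633 := by omega
             rw [h10] at h8; revert h8; decide)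
    · have h1Y : oneIrr G ∈ Y := by
        rcases (hB _).mp hone with h6 | h6
        · exact absurd h6 h1X
        · exact h6
      have h6 := hrel _ h1Y
      rw [hone1] at h6
      have h7 : ∑ χ ∈ X, δ χ * (deg χ : ℤ) = 96 * (e : ℕ) := by
        rw [Finset.sum_congr rfl (g := fun _ => (96 : ℤ))]
        · rw [Finset.sum_const, hXc]
          simp [mul_comm]
        · intro χ hχ
          have h8 : χ ≠ oneIrr G := fun h9 => h1X (h9 ▸ hχ)
          obtain ⟨h10, h11⟩ := hall χ hχ h8
          rw [h10, h11]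
          norm_num
      rw [h7] at h6
      rcases hε with rfl | rfl <;> rcases hee with rfl | rfl | rfl | rfl | rfl <;> omega
  · -- 1008 Sylow subgroups
    rw [hn] at hN'
    have hI6048 : (centralizer ({x} : Set G)).index ∣ 6048 := by
      rcases hee with rfl | rfl | rfl | rfl | rfl
      · have hk' : k = 12 := by omega
        subst hk'
        have h6 : (centralizer ({x} : Set G)).index = 2016 := by omega
        rw [h6]
        norm_num
      · have hk' : k = 8 := by omega
        subst hk'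
        have h6 : (centralizer ({x} : Set G)).index = 3024 := by omega
        rw [h6]
        norm_num
      · have hk' : k = 4 := by omega
        subst hk'
        have h6 : (centralizer ({x} : Set G)).index = 6048 := by omega
        rw [h6]
      · omega
      · omega
    have hee' : e = 2 ∨ e = 3 ∨ e = 6 := by
      rcases hee with rfl | rfl | rfl | rfl | rfl <;> omega
    have hall : ∀ χ ∈ X, χ ≠ oneIrr G →
        (deg χ = 56 ∧ δ χ = -1) ∨ (deg χ = 96 ∧ δ χ = 1) ∨ (deg χ = 189 ∧ δ χ = -1) := by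
      intro χ hχ hχ1
      obtain ⟨h6, h7, h8, -, -⟩ := hXd χ hχ hχ1
      have key : ∀ d, d ≤ 677 → 38 ≤ d → d ∣ 6048 → (d % 19 = 1 ∨ d % 19 = 18) →
          d = 56 ∨ d = 96 ∨ d = 189 := by
        decide +kernel
      rcases key _ h7 h6 (h8.trans hI6048) (hmod χ hχ hχ1) with h12 | h12 | h12
      · exact Or.inl ⟨h12, (hsign χ hχ hχ1).2 (by rw [h12])⟩
      · exact Or.inr (Or.inl ⟨h12, (hsign χ hχ hχ1).1 (by rw [h12])⟩)
      · exact Or.inr (Or.inr ⟨h12, (hsign χ hχ hχ1).2 (by rw [h12])⟩)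
    have h1X : oneIrr G ∈ X := by
      rcases (hB _).mp hone with h6 | h6
      · exact h6
      · exfalso
        have h7 := hYd _ h6
        rw [hone1] at h7
        have h8 : ((1 : ℕ) : ℤ) % 19 = (ε * (e : ℤ)) % 19 := h7
        rcases hε with rfl | rfl <;> rcases hee' with rfl | rfl | rfl <;> omega
    obtain ⟨a, b, c, habc, hsum, hb⟩ := count_sum δ deg (X.erase (oneIrr G)) (fun χ hχ => by
      obtain ⟨h8, h9⟩ := Finset.mem_erase.mp hχ
      exact hall χ h9 h8)
    rw [Finset.card_erase_of_mem h1X, hXc] at habc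
    have hrel' : ∀ θ ∈ Y, ε * (deg θ : ℤ) = 1 + 96 * (a : ℤ) - 56 * (b : ℤ) - 189 * (c : ℤ) := by
      intro θ hθ
      have h6 := hrel θ hθ
      rw [← Finset.add_sum_erase X _ h1X, hδ1 h1X, hone1, hsum] at h6
      rw [h6]
      push_cast
      ring
    have hna : (1 + 96 * (a : ℤ) - 56 * (b : ℤ) - 189 * (c : ℤ)).natAbs = deg θ₀ := by
      rw [← hrel' θ₀ hθ₀, Int.natAbs_mul]
      rcases hε with rfl | rfl <;> simp
    obtain ⟨rfl, rfl, rfl⟩ := key_arith a (Finset.mem_range.mpr (by rcases hee' with rfl | rfl | rfl <;> omega))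
      b (Finset.mem_range.mpr (by rcases hee' with rfl | rfl | rfl <;> omega))
      c (Finset.mem_range.mpr (by rcases hee' with rfl | rfl | rfl <;> omega))
      (by rcases hee' with rfl | rfl | rfl <;> omega) (by rw [hna]; exact hdvdG θ₀)
    have he6 : e = 6 := by omega
    subst he6
    have hYdeg : ∀ θ ∈ Y, deg θ = 108 := by
      intro θ hθ
      have h6 := hrel' θ hθ
      have h7 := (hdeg θ).2.1
      norm_num at h6
      rcases hε with rfl | rfl <;> omega
    have hY3 : Y.card = 3 := by omega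
    obtain ⟨χ₅₆, hχ₅₆, hχd⟩ := hb (by norm_num)
    obtain ⟨hχ₁, hχX⟩ := Finset.mem_erase.mp hχ₅₆
    set t : G := (t₀ : G) with ht
    -- the values at the involution
    obtain ⟨a₁, ha₁, h38₁, ha₁0, ha₁le⟩ := Lib.SmallSimple.BB.invol_value hper hM hx hsyl (by norm_num) ht'
      t₀.2 χ₅₆ ((hB χ₅₆).mpr (Or.inl hχX)) hχ₁ (hdeg χ₅₆).1
    rw [hχd] at ha₁le
    have ha₁38 : a₁ = 38 := by
      obtain ⟨q, rfl⟩ := h38₁
      have hq : q = 1 := by omega
      rw [hq]
    have hv₁ : (χ₅₆ : G → ℂ) t = -((20 : ℕ) : ℂ) := by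
      rw [(hdeg χ₅₆).1, hχd, ha₁38] at ha₁
      push_cast at ha₁ ⊢
      linear_combination -ha₁
    have hd₁ := Lib.SmallSimple.BB.deg_dvd_of_value χ₅₆ (hdeg χ₅₆).1 (hdeg χ₅₆).2.1 t (v := 20) (Or.inr hv₁)
    rw [hχd] at hd₁
    have h7m : 7 ∣ (centralizer ({t} : Set G)).index :=
      Nat.Coprime.dvd_of_dvd_mul_right (by norm_num : Nat.Coprime 7 20) (dvd_trans (by norm_num) hd₁)
    have hYval : ∀ θ ∈ Y, 27 ∣ (centralizer ({t} : Set G)).index ∧ 1024 ≤ Complex.normSq ((θ : G → ℂ) t) := by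
      intro θ hθ
      have hθ1 : θ ≠ oneIrr G := by
        rintro rfl
        have := hYdeg _ hθ
        omega
      obtain ⟨a₂, ha₂, h38₂, ha₂0, ha₂le⟩ := Lib.SmallSimple.BB.invol_value hper hM hx hsyl (by norm_num) ht'
        t₀.2 θ ((hB θ).mpr (Or.inr hθ)) hθ1 (hdeg θ).1
      rw [hYdeg θ hθ] at ha₂le
      have hd := (hdeg θ).1
      rw [hYdeg θ hθ] at hd
      rw [hd] at ha₂
      obtain ⟨q, rfl⟩ := h38₂
      have hq : q = 1 ∨ q = 2 := by
        have : q ≠ 0 := by
          rintro rfl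
          simp at ha₂0
        omega
      rcases hq with rfl | rfl
      · have hv : (θ : G → ℂ) t = ((32 : ℕ) : ℂ) := by
          push_cast at ha₂ ⊢
          linear_combination -ha₂
        have hd₂ := Lib.SmallSimple.BB.deg_dvd_of_value θ (hdeg θ).1 (hdeg θ).2.1 t (v := 32) (Or.inl hv)
        rw [hYdeg θ hθ] at hd₂
        refine ⟨Nat.Coprime.dvd_of_dvd_mul_right (by norm_num : Nat.Coprime 27 32) (dvd_trans (by norm_num) hd₂), ?_⟩
        have h6 : (θ : G → ℂ) t = ((32 : ℝ) : ℂ) := by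
          rw [hv]
          norm_num
        rw [h6, Complex.normSq_ofReal]
        norm_num
      · have hv : (θ : G → ℂ) t = -((44 : ℕ) : ℂ) := by
          push_cast at ha₂ ⊢
          linear_combination -ha₂
        have hd₂ := Lib.SmallSimple.BB.deg_dvd_of_value θ (hdeg θ).1 (hdeg θ).2.1 t (v := 44) (Or.inr hv)
        rw [hYdeg θ hθ] at hd₂
        refine ⟨Nat.Coprime.dvd_of_dvd_mul_right (by norm_num : Nat.Coprime 27 44) (dvd_trans (by norm_num) hd₂), ?_⟩
        have h6 : (θ : G → ℂ) t = ((-44 : ℝ) : ℂ) := by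
          rw [hv]
          norm_num
        rw [h6, Complex.normSq_ofReal]
        norm_num
    have h27m := (hYval θ₀ hθ₀).1
    have h189 : 189 ∣ (centralizer ({t} : Set G)).index :=
      Nat.Coprime.mul_dvd_of_dvd_of_dvd (m := 7) (n := 27) (by norm_num) h7m h27m
    have hmC : (centralizer ({t} : Set G)).index * Nat.card (centralizer ({t} : Set G)) = 459648 := by
      rw [← h]
      exact index_mul_card _
    have horth := Lib.Char.second_orthogonality' (t : G) t
    rw [if_pos (IsConj.refl _)] at horth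
    simp only [Complex.mul_conj] at horth
    have hreal : ∑ χ : IrrCharacter G, Complex.normSq ((χ : G → ℂ) t) =
        (Nat.card (centralizer ({t} : Set G)) : ℝ) := by
      have h6 : ((∑ χ : IrrCharacter G, Complex.normSq ((χ : G → ℂ) t) : ℝ) : ℂ) =
          ((Nat.card (centralizer ({t} : Set G)) : ℝ) : ℂ) := by
        push_cast
        exact horth
      exact Complex.ofReal_inj.mp h6
    have hlow : (Y.card : ℝ) * 1024 ≤ ∑ χ : IrrCharacter G, Complex.normSq ((χ : G → ℂ) t) := by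
      calc (Y.card : ℝ) * 1024 = ∑ _θ ∈ Y, (1024 : ℝ) := by
            rw [Finset.sum_const, nsmul_eq_mul]
        _ ≤ ∑ θ ∈ Y, Complex.normSq ((θ : G → ℂ) t) :=
            Finset.sum_le_sum fun θ hθ => (hYval θ hθ).2
        _ ≤ _ := Finset.sum_le_sum_of_subset_of_nonneg (Finset.subset_univ Y)
            (fun _ _ _ => Complex.normSq_nonneg _)
    rw [hreal, hY3] at hlow
    have hC3072 : 3072 ≤ Nat.card (centralizer ({t} : Set G)) := by
      have h6 : ((3 : ℕ) : ℝ) * 1024 ≤ (Nat.card (centralizer ({t} : Set G)) : ℝ) := hlow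
      have h7 : ((3072 : ℕ) : ℝ) ≤ (Nat.card (centralizer ({t} : Set G)) : ℝ) := by
        push_cast at h6 ⊢
        linarith
      exact_mod_cast h7
    have hm189 : 189 ≤ (centralizer ({t} : Set G)).index := Nat.le_of_dvd (by
      rcases Nat.eq_zero_or_pos (centralizer ({t} : Set G)).index with h0 | h0
      · rw [h0] at hmC
        omega
      · exact h0) h189
    have := Nat.mul_le_mul hm189 hC3072
    omega

end Cfsg.Agent.S1022
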