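import Cfsg.Statements.S1052
import Mathlib
import Cfsg.Agent.Lib.Chev.Simple
import Cfsg.Agent.Lib.Chev.All3

set_option autoImplicit false
open Cfsg

namespace Cfsg.Agent.S1052

/-- `G = G'` for every type G₂, B₂, D₄, F₄, E₆, E₇, E₈ over every field, except G₂ and B₂ over the field with two elements. -/
theorem result {F : Type*} [Field F] (D : Cfsg.Lie.ChevalleyDatum) (hD : D ∈ [Cfsg.Lie.chevG2, Cfsg.Lie.chevB2, Cfsg.Lie.chevD4, Cfsg.Lie.chevF4, Cfsg.Lie.chevE6, Cfsg.Lie.chevE7, Cfsg.Lie.chevE8]) (h2 : D = Cfsg.Lie.chevG2 ∨ D = Cfsg.Lie.chevB2 → ∃ a : F, a ≠ 0 ∧ a ≠ 1) :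
    commutator ↥(D.group F) = ⊤ := by
  have hD' := hD
  simp only [List.mem_cons, List.not_mem_nil, or_false] at hD'
  rcases hD' with rfl | rfl | rfl | rfl | rfl | rfl | rfl
  · obtain ⟨a, ha, ha1⟩ := h2 (Or.inl rfl)
    exact Cfsg.Agent.Lib.Chev.good2G2.perfect_of_H Cfsg.Agent.Lib.Chev.digG2_perfH ha ha1
  · obtain ⟨a, ha, ha1⟩ := h2 (Or.inr rfl)
    exact Cfsg.Agent.Lib.Chev.good2B2.perfect_of_two rfl Cfsg.Agent.Lib.Chev.digB2_perfH0 Cfsg.Agent.Lib.Chev.digB2_perfTwo ha ha1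
  · exact Cfsg.Agent.Lib.Chev.good2D4.perfect_of_A Cfsg.Agent.Lib.Chev.digD4_perfA
  · exact Cfsg.Agent.Lib.Chev.good2F4.perfect_of_A Cfsg.Agent.Lib.Chev.digF4_perfA
  · exact Cfsg.Agent.Lib.Chev.good2E6.perfect_of_A Cfsg.Agent.Lib.Chev.digE6_perfA
  · exact Cfsg.Agent.Lib.Chev.good2E7.perfect_of_A Cfsg.Agent.Lib.Chev.digE7_perfA
  · exact Cfsg.Agent.Lib.Chev.good2E8.perfect_of_A Cfsg.Agent.Lib.Chev.digE8_perfA

end Cfsg.Agent.S1052
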