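import Cfsg.Statements.S1057
import Cfsg.Agent.Lib.ChevSmall.G2U3

set_option autoImplicit false
open Cfsg

namespace Cfsg.Agent.S1057

open Cfsg.Agent.Lib.ChevSmall Cfsg.Agent.Lib.ChevSmall.G2U3

/-- G₂(2)′ ≅ PSU₃(3). -/
theorem result {F K : Type*} [Field F] [Fintype F] [Field K] [Fintype K] (hF : Fintype.card F = 2) (hK : Fintype.card K = 9) :
    Nonempty (↥(commutator ↥(Cfsg.Lie.chevG2.group F)) ≃* Cfsg.PSU 3 K 3) := by
  have e : F ≃+* ZMod 2 := FiniteField.ringEquivOfCardEq (hF.trans (ZMod.card 2).symm)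
  obtain ⟨e'⟩ := exists_equiv_F9 hK
  obtain ⟨m⟩ := main
  exact ⟨(commEquiv (groupEquiv Cfsg.Lie.chevG2 e)).trans
    (m.trans (Cfsg.Agent.Lib.Classical.RC.psuCongr e' 3 3).symm)⟩

end Cfsg.Agent.S1057
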