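import Cfsg.Statements.S1058
import Mathlib
import Cfsg.Agent.Lib.Piwek.Graph
import Cfsg.Prelude.Def_ChevB2

set_option autoImplicit false
open Cfsg

namespace Cfsg.Agent.S1058

set_option maxRecDepth 1000000

open Cfsg.Lie Matrix Cfsg.Agent.Lib.Piwek in
abbrev R := ZMod 2

def vv : List ℕ := [1, 2, 10, 18, 130, 258, 26, 138, 11, 19, 274, 131, 386, 259, 27, 410, 139, 3, 275, 387, 411, 4, 44, 84, 519, 32, 126, 1021, 687, 64, 855, 512, 98, 672, 994, 832, 8, 24, 265, 136, 16, 153, 281, 408, 256, 393, 128, 145, 272, 401, 384]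
def ps : List (ℕ × ℕ) := [(5436088512, 89047043553004901587378670550014113888484061091528551423077928798992685791871945768702844992), (33833157, 93056510960511973627343356913125440496363431829152353318652075586839703267652802897828647040), (2147766468, 101430431952817195166201604795562459930809908612850461972543636607002961524763325969731969216), (67903557, 90988096973819864524306004217300347775436461959155511396456197240330543321340208124597379136), (5369503812, 95223861634903099413409309814553137971146286441466036898380923504366414399266638096784711744), (17314053, 103404261136450311865529972716263897978093830041808579791989312957785663134948722386292470016), (1074278724, 103435646883689779279890332585518419068929358307672927996837403120910974028723929387132027200), (5436354624, 103368026462990224687732082261167666494533342114332638776293018933006504891504196611444600896), (5436612672, 103435646895073567115696011655145486789032182964438933788915394709267974207383176220049678400)]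

open Cfsg.Lie in
def Sn (i : ℕ) (idx : chevB2.Idx) : R :=
  ((Nat.mod (Nat.div (vv.getD i 0) (Nat.pow 2 (Sum.elim (fun a : Fin 2 => a.val) (fun b : Fin 8 => Nat.add 2 b.val) idx))) 2 : ℕ) : R)

open Cfsg.Lie in
def S : Fin 51 → chevB2.Idx → R := fun i idx => Sn i.val idx

def codeOf (r : Fin 8) (t : R) : ℕ :=
  if t = 0 then (ps.getD 8 (0, 0)).2 else (ps.getD r.val (0, 0)).2

theorem hS : ∀ i j : Fin 51, S i = S j → i = j := by decide +kernel

open Cfsg.Lie in
theorem hb : ∀ j : chevB2.Idx, ∃ i : Fin 51, S i = Pi.single j 1 := by decide +kernel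

open Cfsg.Lie in
theorem hinv : ∀ (r : Fin 8) (t : R), chevB2.xMat R r t * chevB2.xMat R r (-t) = 1 := by decide +kernel

open Cfsg.Lie Matrix Cfsg.Agent.Lib.Piwek in
theorem hact0 : ∀ (r : Fin 8) (t : R) (i : Fin 51), chevB2.xMat R r t *ᵥ S i = Sn (dig (codeOf r t) i.val) := by decide +kernel

open Cfsg.Agent.Lib.Piwek in
theorem hgraph : checkGraph 6 51 ps 720 = true := by decide +kernel

open Cfsg.Agent.Lib.Piwek in
theorem hvalid : ∀ (r : Fin 8) (t : R), validB 51 (codeOf r t) = true := by decide +kernel

theorem hmem : ∀ (r : Fin 8) (t : R), codeOf r t ∈ ps.map Prod.snd := by decide +kernel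

theorem hsurj : ∀ c ∈ ps.map Prod.snd, ∃ (r : Fin 8) (t : R), codeOf r t = c := by decide +kernel

/-- B₂(2) ≅ S₆. -/
theorem result {F : Type*} [Field F] [Fintype F] (hF : Fintype.card F = 2) :
    Nonempty (↥(Cfsg.Lie.chevB2.group F) ≃* Equiv.Perm (Fin 6)) := by
  open Cfsg.Lie Matrix Cfsg.Agent.Lib.Piwek in
  have hact : ∀ (r : Fin 8) (t : R) (i : Fin 51),
      chevB2.xMat R r t *ᵥ S i = S (permOf 51 (codeOf r t) i) := by
    intro r t i
    rw [hact0]
    show _ = Sn ((permOf 51 (codeOf r t) i : Fin 51) : ℕ)
    rw [dig_permOf (hvalid r t) (by norm_num)]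
  obtain ⟨⟨e⟩, hc⟩ := Cfsg.Agent.Lib.Piwek.graph_iso hgraph
  obtain ⟨e1⟩ := Cfsg.Agent.Lib.Piwek.chev_equiv_grp Cfsg.Lie.chevB2 (m := 51) (by norm_num) _ S hS hb codeOf hmem hact hinv hsurj
  obtain ⟨e2⟩ := Cfsg.Agent.Lib.Piwek.group_equiv_ring Cfsg.Lie.chevB2 (ZMod.ringEquivOfPrime F Nat.prime_two hF)
  have top : Cfsg.Agent.Lib.Piwek.grp 6 (ps.map Prod.fst) = ⊤ := by
    apply Subgroup.eq_top_of_card_eq
    rw [hc, Nat.card_eq_fintype_card, Fintype.card_perm, Fintype.card_fin]
    decide
  exact ⟨e2.symm.trans (e1.trans (e.symm.trans ((MulEquiv.subgroupCongr top).trans Subgroup.topEquiv)))⟩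

end Cfsg.Agent.S1058
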