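import Cfsg.Statements.S1070
import Mathlib
import Cfsg.Agent.Lib.Tw.E6c

set_option autoImplicit false
open Cfsg

namespace Cfsg.Agent.S1070

/-- ²E₆(q) is simple for every `q`. -/
theorem result {K : Type*} [Field K] [Fintype K] {q : ℕ} (hq : IsPrimePow q) (hK : Fintype.card K = q ^ 2) :
    IsSimpleGroup ↥(Cfsg.Lie.twistedE6 K q) ∧ ¬ IsMulCommutative ↥(Cfsg.Lie.twistedE6 K q) := by
  obtain ⟨φ, hq', hφ, heq, hc⟩ := Cfsg.Agent.Lib.Chev.setupE6 (K := K) hK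
  rw [heq]
  exact Cfsg.Agent.Lib.Chev.simpleE6 φ hφ hc

end Cfsg.Agent.S1070
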