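import Cfsg.Statements.S1075
import Mathlib
import Cfsg.Agent.Lib.Piwek1075.MU
import Cfsg.Agent.Lib.Piwek1075.MV
import Cfsg.Agent.Lib.Piwek1075.LA
import Cfsg.Agent.Lib.Piwek1075.LB
import Cfsg.Agent.Lib.PiwekK.Fields
import Cfsg.Agent.Lib.PiwekK.SL2
import Cfsg.Agent.Lib.InvCent.SL2
import Cfsg.Agent.Lib.Classical.RingCongr
import Cfsg.Agent.Lib.KS2.SL2Unip

set_option autoImplicit false
open Cfsg

namespace Cfsg.Agent.S1075

set_option maxRecDepth 1000000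

open Cfsg.Agent.Lib.Piwek1075

open Cfsg.Agent.Lib.PiwekK Matrix in
theorem hL : ∀ k : Fin 54, ∀ i : Fin 56, lm (ml.getD k.val 0) *ᵥ S i = Sn (dig (wc.getD k.val 0) i.val) := by
  intro k i
  by_cases h : k.val < 27
  · exact hLA ⟨k.val, h⟩ i
  · have h2 : Nat.add 27 (k.val - 27) = k.val := by show 27 + (k.val - 27) = k.val; omega
    have := hLB ⟨k.val - 27, by omega⟩ i
    rw [show Nat.add 27 (k.val - 27) = k.val from h2] at this
    exact this

theorem hS : ∀ i j : Fin 56, S i = S j → i = j := by decide +kernel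

open Cfsg.Lie in
theorem hb : ∀ j : chevG2.Idx, ∑ i, cc j i • S i = Pi.single j 1 := by decide +kernel

open Cfsg.Lie in
theorem hinv : ∀ (r : Fin 12) (t : R), chevG2.xMat R r t * chevG2.xMat R r (-t) = 1 := by decide +kernel

open Cfsg.Agent.Lib.PiwekK in
theorem hvalid : ∀ k : Fin 54, validB 56 (wc.getD k.val 0) = true := by decide +kernel

theorem hmemwc : ∀ k : Fin 54, wc.getD k.val 0 ∈ wc := by decide +kernel

theorem hwc : ∀ c ∈ wc, ∃ k : Fin 54, c = wc.getD k.val 0 := by decide +kernel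

theorem hk3 : ∀ k : Fin 54, ∃ t u v : R, k.val = idx3 t u v ∨ k.val = Nat.add 27 (idx3 t u v) := by decide +kernel

theorem hidx : ∀ t u v : R, idx3 t u v < 27 := by decide +kernel

open Matrix in
/-- The matrix group as a permutation group. -/
theorem hGrp : Nonempty (↥(Cfsg.Lie.twistedG2 R 1) ≃* Cfsg.Agent.Lib.PiwekK.grp 56 wc) := by
  have hact : ∀ (k : Fin 54) (i : Fin 56), lm (ml.getD k.val 0) *ᵥ S i = S (Cfsg.Agent.Lib.PiwekK.permOf 56 (wc.getD k.val 0) i) := by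
    intro k i
    rw [hL]
    show _ = Sn ((Cfsg.Agent.Lib.PiwekK.permOf 56 (wc.getD k.val 0) i : Fin 56) : ℕ)
    rw [Cfsg.Agent.Lib.PiwekK.dig_permOf (hvalid k) (by norm_num)]
  have hU : ∀ (t u v : R), ∃ k : Fin 54, Cfsg.Lie.chevG2.wordMat R (Cfsg.Lie.reeWordU 1 t u v) = lm (ml.getD k.val 0) :=
    fun t u v => ⟨⟨idx3 t u v, by have := hidx t u v; omega⟩, hMU t u v⟩
  have hV : ∀ (t u v : R), ∃ k : Fin 54, Cfsg.Lie.chevG2.wordMat R (Cfsg.Lie.reeWordV 1 t u v) = lm (ml.getD k.val 0) :=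
    fun t u v => ⟨⟨Nat.add 27 (idx3 t u v), by have := hidx t u v; show 27 + idx3 t u v < 54; omega⟩, hMV t u v⟩
  refine Cfsg.Agent.Lib.PiwekK.closure_equiv_grp (by norm_num) _ wc S hS ?_ ?_ ?_
  · exact fun j => ⟨cc j, hb j⟩
  · rintro g ⟨w, ⟨t, u, v, rfl | rfl⟩, hg⟩
    · obtain ⟨k, hk⟩ := hU t u v
      exact ⟨_, hmemwc k, fun i => by rw [hg, hk]; exact hact k i⟩
    · obtain ⟨k, hk⟩ := hV t u v
      exact ⟨_, hmemwc k, fun i => by rw [hg, hk]; exact hact k i⟩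
  · intro c hc
    obtain ⟨k, rfl⟩ := hwc c hc
    obtain ⟨t, u, v, h | h⟩ := hk3 k
    · have e1 := hMU t u v
      rw [← h] at e1
      obtain ⟨g, hg⟩ := Cfsg.Agent.Lib.PiwekK.wordMat_isUnit Cfsg.Lie.chevG2 hinv (Cfsg.Lie.reeWordU 1 t u v)
      refine ⟨g, ⟨_, ⟨t, u, v, Or.inl rfl⟩, hg⟩, fun i => ?_⟩
      have e2 : (g : Matrix _ _ R) = lm (ml.getD k.val 0) := hg.trans e1
      rw [e2]
      exact hact k i
    · have e1 := hMV t u v
      rw [← h] at e1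
      obtain ⟨g, hg⟩ := Cfsg.Agent.Lib.PiwekK.wordMat_isUnit Cfsg.Lie.chevG2 hinv (Cfsg.Lie.reeWordV 1 t u v)
      refine ⟨g, ⟨_, ⟨t, u, v, Or.inr rfl⟩, hg⟩, fun i => ?_⟩
      have e2 : (g : Matrix _ _ R) = lm (ml.getD k.val 0) := hg.trans e1
      rw [e2]
      exact hact k i

open Cfsg.Agent.Lib.PiwekK in
theorem hvalidA : ∀ g ∈ gA, validB 56 g = true := by decide +kernel

theorem hsubA : ∀ g ∈ gA, g ∈ wc := by decide +kernel

open Cfsg.Agent.Lib.PiwekK in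
theorem hmemA : ∀ g ∈ wc, memT g (elemsT 56 gA) = true := by decide +kernel

open Cfsg.Agent.Lib.PiwekK in
theorem hvalidW : ∀ g ∈ wc, validB 56 g = true := by decide +kernel

open Cfsg.Agent.Lib.PiwekK in
theorem hcomm : checkComm 56 125 gA (ps.map Prod.fst) = true := by decide +kernel

open Cfsg.Agent.Lib.PiwekK in
theorem hgraph : checkGraph 56 63 ps 504 = true := by decide +kernel

open Cfsg.Agent.Lib.PiwekK Matrix in
def MX : Matrix (Fin 2) (Fin 2) F8 := !![F8.mk 0, F8.mk 1; F8.mk 1, F8.mk 3]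
open Cfsg.Agent.Lib.PiwekK Matrix in
def MX' : Matrix (Fin 2) (Fin 2) F8 := !![F8.mk 3, F8.mk 1; F8.mk 1, F8.mk 0]
open Cfsg.Agent.Lib.PiwekK Matrix in
def MY : Matrix (Fin 2) (Fin 2) F8 := !![F8.mk 0, F8.mk 4; F8.mk 7, F8.mk 2]
open Cfsg.Agent.Lib.PiwekK Matrix in
def MY' : Matrix (Fin 2) (Fin 2) F8 := !![F8.mk 2, F8.mk 4; F8.mk 7, F8.mk 0]

open Cfsg.Agent.Lib.PiwekK Matrix in
def gX : GL (Fin 2) F8 := ⟨MX, MX', by decide +kernel, by decide +kernel⟩
open Cfsg.Agent.Lib.PiwekK Matrix in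
def gY : GL (Fin 2) F8 := ⟨MY, MY', by decide +kernel, by decide +kernel⟩

open Cfsg.Agent.Lib.PiwekK in
/-- the vectors of the plane -/
def V8 (i : ℕ) : Fin 2 → F8 := ![F8.mk (Nat.div (Nat.add i 1) 8), F8.mk (Nat.mod (Nat.add i 1) 8)]

open Cfsg.Agent.Lib.PiwekK in
def S8 : Fin 63 → Fin 2 → F8 := fun i => V8 i.val

open Cfsg.Agent.Lib.PiwekK Matrix in
theorem hXa : ∀ i : Fin 63, MX *ᵥ S8 i = V8 (dig (ps.getD 0 (0, 0)).2 i.val) := by decide +kernel
open Cfsg.Agent.Lib.PiwekK Matrix in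
theorem hYa : ∀ i : Fin 63, MY *ᵥ S8 i = V8 (dig (ps.getD 1 (0, 0)).2 i.val) := by decide +kernel
open Cfsg.Agent.Lib.PiwekK in
theorem hS8 : ∀ i j : Fin 63, S8 i = S8 j → i = j := by decide +kernel
open Cfsg.Agent.Lib.PiwekK in
theorem hb8 : ∀ j : Fin 2, ∃ i : Fin 63, S8 i = Pi.single j 1 := by decide +kernel
open Cfsg.Agent.Lib.PiwekK in
theorem hvX : validB 63 (ps.getD 0 (0, 0)).2 = true := by decide +kernel
open Cfsg.Agent.Lib.PiwekK in
theorem hvY : validB 63 (ps.getD 1 (0, 0)).2 = true := by decide +kernel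
open Cfsg.Agent.Lib.PiwekK in
theorem hdX : MX.det = 1 := by decide +kernel
open Cfsg.Agent.Lib.PiwekK in
theorem hdY : MY.det = 1 := by decide +kernel

open Cfsg.Agent.Lib.PiwekK Matrix in
theorem hSL8 : Nonempty (Matrix.SpecialLinearGroup (Fin 2) F8 ≃* grp 63 (ps.map Prod.snd)) := by
  have hactX : ∀ i : Fin 63, MX *ᵥ S8 i = S8 (permOf 63 (ps.getD 0 (0, 0)).2 i) := by
    intro i
    rw [hXa]
    show _ = V8 ((permOf 63 (ps.getD 0 (0, 0)).2 i : Fin 63) : ℕ)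
    rw [dig_permOf hvX (by norm_num)]
  have hactY : ∀ i : Fin 63, MY *ᵥ S8 i = S8 (permOf 63 (ps.getD 1 (0, 0)).2 i) := by
    intro i
    rw [hYa]
    show _ = V8 ((permOf 63 (ps.getD 1 (0, 0)).2 i : Fin 63) : ℕ)
    rw [dig_permOf hvY (by norm_num)]
  obtain ⟨e⟩ := closure_equiv_grp (ι := Fin 2) (R := F8) (m := 63) (by norm_num) ({gX, gY} : Set (GL (Fin 2) F8)) (ps.map Prod.snd) S8 hS8
    (span_of_basis hb8) (by
      rintro g (rfl | rfl)
      · exact ⟨_, by decide +kernel, hactX⟩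
      · exact ⟨_, by decide +kernel, hactY⟩) (by
      intro c hc
      have hc' : c = (ps.getD 0 (0, 0)).2 ∨ c = (ps.getD 1 (0, 0)).2 := by
        revert c
        decide +kernel
      rcases hc' with rfl | rfl
      · exact ⟨gX, Or.inl rfl, hactX⟩
      · exact ⟨gY, Or.inr rfl, hactY⟩)
  have hdet : ∀ g ∈ Subgroup.closure ({gX, gY} : Set (GL (Fin 2) F8)), (g : Matrix (Fin 2) (Fin 2) F8).det = 1 := by
    intro g hg
    have hle : Subgroup.closure ({gX, gY} : Set (GL (Fin 2) F8)) ≤ (Matrix.GeneralLinearGroup.det (n := Fin 2) (R := F8)).ker := by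
      refine (Subgroup.closure_le _).2 ?_
      rintro g (rfl | rfl)
      · apply Units.ext
        exact hdX
      · apply Units.ext
        exact hdY
    have := hle hg
    rw [MonoidHom.mem_ker] at this
    exact congrArg Units.val this
  have hcard : Nat.card (Matrix.SpecialLinearGroup (Fin 2) F8) ≤ Nat.card (Subgroup.closure ({gX, gY} : Set (GL (Fin 2) F8))) := by
    rw [Nat.card_congr e.toEquiv, ← Nat.card_congr (graph_iso hgraph).1.some.toEquiv, (graph_iso hgraph).2,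
      Cfsg.Agent.Lib.KS2.SL2.card_SL2 (F := F8), F8.card]
    norm_num
  obtain ⟨e2⟩ := sl_equiv_of_card _ hdet hcard
  exact ⟨e2.trans e⟩

/-- The derived subgroup of ²G₂(3) (θ = identity over the field with three elements) has order 504 = 1512/3 and is isomorphic to PSL₂ over the field with eight elements. -/
theorem result {L : Type*} [Field L] [Fintype L] (hL : Fintype.card L = 8) :
    Nat.card ↥(commutator ↥(Cfsg.Lie.twistedG2 (ZMod 3) 1)) = 504 ∧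
      Nonempty (↥(commutator ↥(Cfsg.Lie.twistedG2 (ZMod 3) 1)) ≃* Matrix.ProjectiveSpecialLinearGroup (Fin 2) L) := by
  obtain ⟨e0⟩ := hGrp
  have h1 : Cfsg.Agent.Lib.PiwekK.grp 56 wc = Cfsg.Agent.Lib.PiwekK.grp 56 gA :=
    Cfsg.Agent.Lib.PiwekK.grp_eq_of_mem (by norm_num) hvalidA hvalidW hsubA hmemA
  obtain ⟨e2⟩ := Cfsg.Agent.Lib.PiwekK.commutator_equiv_of (e0.trans (MulEquiv.subgroupCongr h1))
    (Cfsg.Agent.Lib.PiwekK.checkComm_sound hcomm)
  obtain ⟨⟨e3⟩, hc⟩ := Cfsg.Agent.Lib.PiwekK.graph_iso hgraph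
  refine ⟨by rw [Nat.card_congr e2.toEquiv, hc], ?_⟩
  obtain ⟨e4⟩ := hSL8
  have hc2 : CharP Cfsg.Agent.Lib.PiwekK.F8 2 :=
    CharTwo.of_one_ne_zero_of_two_eq_zero (by decide +kernel) (by decide +kernel)
  have e5 := Cfsg.Agent.Lib.InvCent.equivPSL (F := Cfsg.Agent.Lib.PiwekK.F8)
  have e6 := Cfsg.Agent.Lib.Classical.RC.pslCongr (n := Fin 2) (FiniteField.ringEquivOfCardEq (K := Cfsg.Agent.Lib.PiwekK.F8) (K' := L) (by rw [hL, Cfsg.Agent.Lib.PiwekK.F8.card]))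
  exact ⟨e2.trans (e3.trans (e4.symm.trans (e5.trans e6)))⟩

end Cfsg.Agent.S1075
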