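import Cfsg.Statements.S1078
import Mathlib
import Cfsg.Agent.Lib.St.TAll
import Cfsg.Agent.Lib.St.R3
import Cfsg.Agent.Lib.Chev.SmithAll

set_option autoImplicit false
open Cfsg

namespace Cfsg.Agent.S1078

open Cfsg.Agent.Lib.St Cfsg.Agent.Lib.Chev

/-- For G₂, F₄, E₈ the presented group has trivial centre (the universal and adjoint groups coincide). -/
theorem result {K : Type*} [Field K] (D : Cfsg.Lie.ChevalleyDatum) (hD : D ∈ [Cfsg.Lie.chevG2, Cfsg.Lie.chevF4, Cfsg.Lie.chevE8]) :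
    Subgroup.center (D.SteinbergGroup K) = ⊥ := by
  have hex : ∃ (T : Tbl) (wit : ℕ → ℕ × ℕ) (P P' Q Q' : ℕ → ℕ → ℤ), T.Good3 D ∧ StHyp T wit ∧
      T.chkSmith P P' Q Q' (fun _ => 1) = true := by
    simp only [List.mem_cons, List.not_mem_nil, or_false] at hD
    rcases hD with rfl | rfl | rfl
    · exact ⟨_, _, _, _, _, _, good3G2, stHypG2, smithG2⟩
    · exact ⟨_, _, _, _, _, _, good3F4, stHypF4, smithF4⟩
    · exact ⟨_, _, _, _, _, _, good3E8, stHypE8, smithE8⟩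
  obtain ⟨T, wit, P, P', Q, Q', hG, hW, hs⟩ := hex
  have hAB : D.steinbergRelsAB K ⊆ D.steinbergRels K := Set.subset_union_left
  rw [eq_bot_iff]
  intro z hz
  obtain ⟨c, rfl, hc⟩ := Sys.ker_eq_torus (canSys_R3 hG hAB) hW (Sys.center_le_ker _ hz)
  rw [Tbl.actZ_eq_one hG hs hc, map_one]
  exact Subgroup.one_mem _

end Cfsg.Agent.S1078
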