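import Cfsg.Statements.S1081
import Mathlib
import Cfsg.Agent.Lib.Chev.Gen
import Cfsg.Agent.Lib.Chev.GrD4
import Cfsg.Agent.Lib.Chev.GrE6

set_option autoImplicit false
open Cfsg

namespace Cfsg.Agent.S1081

/-- Graph automorphisms: for E₆ with ρ = (p₁ p₆)(p₃ p₅) and for D₄ with ρ the 3-cycle on the outer nodes there is a group automorphism sending `x_p(t) ↦ x_{ρ(p)}(t)` and `x_{-p}(t) ↦ x_{-ρ(p)}(t)` for every fundamental root `p`. -/
theorem result {F : Type*} [Field F] (p : Cfsg.Lie.ChevalleyDatum × List ℕ)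
    (hp : p ∈ [(Cfsg.Lie.chevE6, [5, 1, 4, 3, 2, 0]), (Cfsg.Lie.chevD4, [2, 1, 3, 0]), (Cfsg.Lie.chevD4, [3, 1, 0, 2])]) :
    ∃ α : ↥(p.1.group F) ≃* ↥(p.1.group F), ∀ (g : ↥(p.1.group F)) (i : ℕ) (t : F), i < p.1.rank →
      (((g : GL p.1.Idx F) : Matrix p.1.Idx p.1.Idx F) = p.1.x F (p.1.simple i) t →
        ((α g : GL p.1.Idx F) : Matrix p.1.Idx p.1.Idx F) = p.1.x F (p.1.simple (p.2.getD i 0)) t) ∧
      (((g : GL p.1.Idx F) : Matrix p.1.Idx p.1.Idx F) = p.1.x F (p.1.neg (p.1.simple i)) t →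
        ((α g : GL p.1.Idx F) : Matrix p.1.Idx p.1.Idx F) = p.1.x F (p.1.neg (p.1.simple (p.2.getD i 0))) t) := by
  have key : ∀ {T : Cfsg.Agent.Lib.Chev.Tbl} {D : Cfsg.Lie.ChevalleyDatum} (hG : T.Good2 D) (G : Cfsg.Agent.Lib.Chev.GraphD D) (L : List ℕ),
      (∀ i, i < D.rank → G.bar (D.simple i) = D.simple (L.getD i 0) ∧ G.e (D.simple i) = 1 ∧
        G.bar (D.neg (D.simple i)) = D.neg (D.simple (L.getD i 0)) ∧ G.e (D.neg (D.simple i)) = 1) →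
      ∃ α : ↥(D.group F) ≃* ↥(D.group F), ∀ (g : ↥(D.group F)) (i : ℕ) (t : F), i < D.rank →
      (((g : GL D.Idx F) : Matrix D.Idx D.Idx F) = D.x F (D.simple i) t →
        ((α g : GL D.Idx F) : Matrix D.Idx D.Idx F) = D.x F (D.simple (L.getD i 0)) t) ∧
      (((g : GL D.Idx F) : Matrix D.Idx D.Idx F) = D.x F (D.neg (D.simple i)) t →
        ((α g : GL D.Idx F) : Matrix D.Idx D.Idx F) = D.x F (D.neg (D.simple (L.getD i 0))) t) := by
    intro T D hG G L hL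
    obtain ⟨α, hα⟩ := G.exists_aut (F := F) hG.sane
    refine ⟨α, fun g i t hi => ⟨fun hg => ?_, fun hg => ?_⟩⟩
    · obtain ⟨h1, h2, -, -⟩ := hL i hi
      have := hα g _ t (hG.simple_lt hi) hg
      rwa [h1, h2, Int.cast_one, one_mul] at this
    · obtain ⟨-, -, h1, h2⟩ := hL i hi
      have := hα g _ t (hG.neg_lt (hG.simple_lt hi)) hg
      rwa [h1, h2, Int.cast_one, one_mul] at this
  simp only [List.mem_cons, List.not_mem_nil, or_false] at hp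
  rcases hp with rfl | rfl | rfl
  · exact key Cfsg.Agent.Lib.Chev.good3E6.toGood2 Cfsg.Agent.Lib.Chev.grE6 _ Cfsg.Agent.Lib.Chev.grE6_simple
  · exact key Cfsg.Agent.Lib.Chev.good3D4.toGood2 Cfsg.Agent.Lib.Chev.grD4a _ Cfsg.Agent.Lib.Chev.grD4a_simple
  · exact key Cfsg.Agent.Lib.Chev.good3D4.toGood2 Cfsg.Agent.Lib.Chev.grD4b _ Cfsg.Agent.Lib.Chev.grD4b_simple

end Cfsg.Agent.S1081
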