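import Cfsg.Statements.S1095
import Mathlib
import Cfsg.Agent.Lib.Chev.Basic2
import Cfsg.Agent.Lib.Chev.All

set_option autoImplicit false
open Cfsg

namespace Cfsg.Agent.S1095

/-- `n_p` (p = p_{i+1} fundamental) is the signed monomial matrix `h_{p_j} ↦ h_{p_j} - A_{p_j,p} h_p`, `e_s ↦ η_s e_{w_p(s)}`, with `η_s = ±1`, `η_p = η_{-p} = -1`, `η_s η_{w_p(s)} = (-1)^{A_{p,s}}`, `η_s η_{-s} = 1`. -/
theorem result {F : Type*} [Field F] (D : Cfsg.Lie.ChevalleyDatum) (hD : D ∈ [Cfsg.Lie.chevG2, Cfsg.Lie.chevB2, Cfsg.Lie.chevD4, Cfsg.Lie.chevF4, Cfsg.Lie.chevE6, Cfsg.Lie.chevE7, Cfsg.Lie.chevE8]) (i : ℕ) (hi : i < D.rank) :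
    ∃ η : ℕ → ℤ, (∀ s < D.nroots, η s = 1 ∨ η s = -1) ∧ η (D.simple i) = -1 ∧ η (D.neg (D.simple i)) = -1 ∧
      (∀ s < D.nroots, η s * η (D.reflectRoot i s) = (-1) ^ (D.cartan i s).natAbs ∧ η s * η (D.neg s) = 1) ∧
      D.nMat F (D.simple i) 1 = Matrix.of (fun (row col : D.Idx) =>
        Sum.elim
          (fun j' : Fin D.rank => Sum.elim
            (fun j : Fin D.rank => (if j' = j then (1 : F) else 0) - (if (j' : ℕ) = i then ((D.cartan j (D.simple i) : ℤ) : F) else 0))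
            (fun _ => (0 : F)) col)
          (fun s' : Fin D.nroots => Sum.elim
            (fun _ => (0 : F))
            (fun s : Fin D.nroots => if (s' : ℕ) = D.reflectRoot i s then ((η s : ℤ) : F) else 0) col)
          row) := by
  obtain ⟨T, hT⟩ := Cfsg.Agent.Lib.Chev.exists_good2 hD
  have hF := hT.facts
  have hC := hT.correct
  have hi' := hT.lt_l hi
  have hsi : D.simple i < D.nroots := by
    rw [← hC.simple_eq i hi]
    exact hT.n_lt (hF.simple_lt i hi')
  have hE := Cfsg.Agent.Lib.Chev.allBelow_spec hT.eps i hi'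
  rw [Bool.and_eq_true] at hE
  have hp : T.eps i (D.simple i) = -1 := by
    rw [← hC.simple_eq i hi]
    exact Cfsg.Agent.Lib.Chev.intEq_spec hE.1
  refine ⟨T.eps i, fun s hs => hF.eps_sq i s hi' (hT.lt_n hs), hp, ?_, ?_, ?_⟩
  · rw [← hC.neg_eq _ hsi, hF.eps_neg i _ hi' (hT.lt_n hsi), hp]
  · intro s hs
    constructor
    · have h2 := Cfsg.Agent.Lib.Chev.intEq_spec (Cfsg.Agent.Lib.Chev.allBelow_spec hE.2 s (hT.lt_n hs))
      rw [← hC.refl_eq i s hi hs, h2, Cfsg.Agent.Lib.Chev.powF_eq, hC.cart_eq i s hi hs]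
    · rw [← hC.neg_eq _ hs, hF.eps_neg i _ hi' (hT.lt_n hs)]
      rcases hF.eps_sq i s hi' (hT.lt_n hs) with h | h <;> rw [h] <;> rfl
  · ext row col
    rcases col with j | k
    · rw [hT.nMat_apply_coroot hi]
      rcases row with j' | v
      · simp only [Cfsg.Agent.Lib.Chev.code, Matrix.of_apply, Sum.elim_inl]
        have e1 : (D.nroots + (j' : ℕ) = D.nroots + j) ↔ j' = j := by
          rw [Nat.add_left_cancel_iff, Fin.ext_iff]
        have e2 : (D.nroots + (j' : ℕ) = D.nroots + i) ↔ (j' : ℕ) = i := Nat.add_left_cancel_iff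
        simp only [e1, e2]
      · have h1 : (v : ℕ) ≠ D.nroots + j := by have := v.2; omega
        have h2 : (v : ℕ) ≠ D.nroots + i := by have := v.2; omega
        simp [Cfsg.Agent.Lib.Chev.code, h1, h2]
    · rw [hT.nMat_apply_root hi]
      rcases row with j' | v
      · have h1 : D.nroots + (j' : ℕ) ≠ T.refl i k := by
          have := hT.refl_lt' hi k.2
          omega
        simp [Cfsg.Agent.Lib.Chev.code, h1]
      · simp only [Cfsg.Agent.Lib.Chev.code, Matrix.of_apply, Sum.elim_inr]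
        rw [hC.refl_eq i k hi k.2]
        rfl

end Cfsg.Agent.S1095
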