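import Cfsg.Statements.S1097
import Mathlib
import Cfsg.Agent.Lib.St.TAll
import Cfsg.Agent.Lib.St.Pres

set_option autoImplicit false
open Cfsg

namespace Cfsg.Agent.S1097

open Cfsg.Agent.Lib.St Cfsg.Agent.Lib.Chev

/-- Any homomorphism from the presented group to the Chevalley group with `x̄_r(t) ↦ x_r(t)` has kernel contained in `H̄ = ⟨h̄_p(t) : p fundamental, t ≠ 0⟩`. -/
theorem result {K : Type*} [Field K] (D : Cfsg.Lie.ChevalleyDatum) (hD : D ∈ [Cfsg.Lie.chevG2, Cfsg.Lie.chevB2, Cfsg.Lie.chevD4, Cfsg.Lie.chevF4, Cfsg.Lie.chevE6, Cfsg.Lie.chevE7, Cfsg.Lie.chevE8]) (θ : D.SteinbergGroup K →* ↥(D.group K))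
    (hθ : ∀ (r : ℕ) (t : K), r < D.nroots → ((θ (D.stGen K r t) : GL D.Idx K) : Matrix D.Idx D.Idx K) = D.x K r t) :
    θ.ker ≤ Subgroup.closure {h | ∃ (i : ℕ) (t : K), i < D.rank ∧ t ≠ 0 ∧ h = PresentedGroup.mk (D.steinbergRels K) (D.stH (D.simple i) t)} := by
  obtain ⟨T, wit, hG, hW⟩ := exists_good hD
  have hAB : D.steinbergRelsAB K ⊆ D.steinbergRels K := Set.subset_union_left
  let S := presSys hG (D.steinbergRels K) hAB ((D.group K).subtype.comp θ) (fun {r} hr t => by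
    apply Units.ext
    exact hθ r t hr)
  intro γ hγ
  have h1 : γ ∈ S.θ.ker := by
    rw [MonoidHom.mem_ker]
    show ((θ γ : ↥(D.group K)) : GL D.Idx K) = 1
    rw [MonoidHom.mem_ker.1 hγ]
    rfl
  have h2 := S.ker_le_Hb hW h1
  refine Subgroup.closure_mono ?_ h2
  rintro _ ⟨i, t, hi, ht, rfl⟩
  exact ⟨i, t, hi, ht, presSys_hb hG _ hAB _ _ _ _⟩

end Cfsg.Agent.S1097
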