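import Cfsg.Statements.S1098
import Mathlib
import Cfsg.Agent.Lib.ChevAut.ExcT

set_option autoImplicit false
open Cfsg

namespace Cfsg.Agent.S1098

/-- Graph automorphisms in characteristic 2 (K perfect): for B₂ (a short, b long) `x_a(t) ↦ x_b(t²)`, `x_b(t) ↦ x_a(t)`, and for F₄ (p₁, p₂ short, p₃, p₄ long) `x_{p₁}(t) ↦ x_{p₄}(t²)`, `x_{p₂}(t) ↦ x_{p₃}(t²)`, `x_{p₃}(t) ↦ x_{p₂}(t)`, `x_{p₄}(t) ↦ x_{p₁}(t)`, likewise on the negatives, extend to an automorphism of the group. -/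
theorem result {K : Type*} [Field K] [CharP K 2] (hperf : ∀ x : K, ∃ y : K, y ^ 2 = x)
    (p : Cfsg.Lie.ChevalleyDatum × List (ℕ × ℕ))
    (hp : p ∈ [(Cfsg.Lie.chevB2, [(1, 2), (0, 1)]), (Cfsg.Lie.chevF4, [(3, 2), (2, 2), (1, 1), (0, 1)])]) :
    ∃ α : ↥(p.1.group K) ≃* ↥(p.1.group K), ∀ (g : ↥(p.1.group K)) (i : ℕ) (t : K), i < p.1.rank →
      (((g : GL p.1.Idx K) : Matrix p.1.Idx p.1.Idx K) = p.1.x K (p.1.simple i) t →
        ((α g : GL p.1.Idx K) : Matrix p.1.Idx p.1.Idx K) = p.1.x K (p.1.simple (p.2.getD i (0, 1)).1) (t ^ (p.2.getD i (0, 1)).2)) ∧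
      (((g : GL p.1.Idx K) : Matrix p.1.Idx p.1.Idx K) = p.1.x K (p.1.neg (p.1.simple i)) t →
        ((α g : GL p.1.Idx K) : Matrix p.1.Idx p.1.Idx K) = p.1.x K (p.1.neg (p.1.simple (p.2.getD i (0, 1)).1)) (t ^ (p.2.getD i (0, 1)).2)) := by
  have key : ∀ (D : Cfsg.Lie.ChevalleyDatum) (T : Cfsg.Agent.Lib.Chev.Tbl) (hG : T.Good2 D)
      (E : Cfsg.Agent.Lib.Chev.ExcD D T) (L : List (ℕ × ℕ)) (hp : Fact E.p.Prime) (hc : CharP K E.p)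
      (hperf : ∀ x : K, ∃ y : K, y ^ E.p = x) (hgen : E.Gen)
      (hval : ∀ i, i < D.rank →
        E.tau (D.simple i) = D.simple (L.getD i (0, 1)).1 ∧
        E.exp (D.simple i) = (L.getD i (0, 1)).2 ∧
        E.tau (D.neg (D.simple i)) = D.neg (D.simple (L.getD i (0, 1)).1) ∧
        E.exp (D.neg (D.simple i)) = (L.getD i (0, 1)).2),
      ∃ α : ↥(D.group K) ≃* ↥(D.group K), ∀ (g : ↥(D.group K)) (i : ℕ) (t : K), i < D.rank →
      (((g : GL D.Idx K) : Matrix D.Idx D.Idx K) = D.x K (D.simple i) t →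
        ((α g : GL D.Idx K) : Matrix D.Idx D.Idx K) = D.x K (D.simple (L.getD i (0, 1)).1) (t ^ (L.getD i (0, 1)).2)) ∧
      (((g : GL D.Idx K) : Matrix D.Idx D.Idx K) = D.x K (D.neg (D.simple i)) t →
        ((α g : GL D.Idx K) : Matrix D.Idx D.Idx K) = D.x K (D.neg (D.simple (L.getD i (0, 1)).1)) (t ^ (L.getD i (0, 1)).2)) := by
    intro D T hG E L hp hc hperf hgen hval
    obtain ⟨α, hα⟩ := E.exists_aut hG hgen hperf
    refine ⟨α, fun g i t hi => ?_⟩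
    obtain ⟨h1, h2, h3, h4⟩ := hval i hi
    refine ⟨fun e => ?_, fun e => ?_⟩
    · rw [hG.eq_xT e, hα _ (hG.simple_lt hi), h1, h2, hG.xT_coe]
    · rw [hG.eq_xT e, hα _ (hG.neg_lt (hG.simple_lt hi)), h3, h4, hG.xT_coe]
  simp only [List.mem_cons, List.not_mem_nil, or_false] at hp
  rcases hp with rfl | rfl
  · haveI hp2 : Fact (Nat.Prime 2) := ⟨Nat.prime_two⟩
    exact key _ _ Cfsg.Agent.Lib.Chev.good2B2 Cfsg.Agent.Lib.Chev.excB2 _ hp2 ‹_› hperf Cfsg.Agent.Lib.Chev.excB2_gen Cfsg.Agent.Lib.Chev.excB2_val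
  · haveI hp2 : Fact (Nat.Prime 2) := ⟨Nat.prime_two⟩
    exact key _ _ Cfsg.Agent.Lib.Chev.good2F4 Cfsg.Agent.Lib.Chev.excF4 _ hp2 ‹_› hperf Cfsg.Agent.Lib.Chev.excF4_gen Cfsg.Agent.Lib.Chev.excF4_val

end Cfsg.Agent.S1098
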