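import Cfsg.Statements.S1102
import Mathlib
import Cfsg.Agent.Lib.Tw.E6c

set_option autoImplicit false
open Cfsg

namespace Cfsg.Agent.S1102

/-- `|H¹| = |G¹ ∩ H|`: `Nat.gcd 3 (q + 1) * |H¹| = (q - 1) ^ 4 * (q + 1) ^ 2` for ²E₆(q). -/
theorem result {K : Type*} [Field K] [Fintype K] {q : ℕ} (hq : IsPrimePow q) (hK : Fintype.card K = q ^ 2) :
    Nat.gcd 3 (q + 1) * Nat.card ↥(Cfsg.Lie.chevE6.diagonalSubgroup K ⊓ Cfsg.Lie.twistedE6 K q) = (q - 1) ^ 4 * (q + 1) ^ 2 := by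
  obtain ⟨φ, hq', hφ, heq, hc⟩ := Cfsg.Agent.Lib.Chev.setupE6 (K := K) hK
  have h := Cfsg.Agent.Lib.Chev.cardHE6 φ hq' hφ hK
  rw [heq, mul_comm, h]
  obtain ⟨s, rfl⟩ : ∃ s, q = s + 1 := ⟨q - 1, by have := hq.one_lt; omega⟩
  have e : (s + 1) ^ 2 - 1 = s * (s + 1 + 1) := by
    apply Nat.sub_eq_of_eq_add
    ring
  rw [e, Nat.add_sub_cancel]
  ring

end Cfsg.Agent.S1102
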