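import Cfsg.Statements.S1103
import Mathlib
import Cfsg.Agent.Lib.Tw.E6c
import Cfsg.Agent.Lib.Tw.WeyE6

set_option autoImplicit false
open Cfsg

namespace Cfsg.Agent.S1103

/-- `N¹/H¹ ≅ W¹`: a surjective homomorphism from `N¹ = G¹ ∩ N` onto the Coxeter group of type F₄ with kernel `H¹`. -/
theorem result {K : Type*} [Field K] [Fintype K] {q : ℕ} (hq : IsPrimePow q) (hK : Fintype.card K = q ^ 2) :
    ∃ φ : ↥(Cfsg.Lie.chevE6.monomialSubgroup K ⊓ Cfsg.Lie.twistedE6 K q) →* (CoxeterMatrix.F₄).Group, Function.Surjective φ ∧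
      φ.ker = (Cfsg.Lie.chevE6.diagonalSubgroup K ⊓ Cfsg.Lie.twistedE6 K q).subgroupOf (Cfsg.Lie.chevE6.monomialSubgroup K ⊓ Cfsg.Lie.twistedE6 K q) := by
  obtain ⟨φ, h1, h2, h3, _⟩ := Cfsg.Agent.Lib.Chev.setupE6 hK
  rw [h3]
  exact Cfsg.Agent.Lib.Chev.nQuotE6 φ

end Cfsg.Agent.S1103
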