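import Cfsg.Statements.S1118
import Mathlib
import Cfsg.Agent.Lib.Cl.RankOne

set_option autoImplicit false
open Cfsg

namespace Cfsg.Agent.S1118

/-- In the rank-one set-up (`G` finite and doubly transitive on `Ω`, `t` an involution moving `a`, `Q` normal in `G_a` with `G_a = Q D`, `Q ⊓ D = 1` for the two-point stabiliser `D = G_a ⊓ G_{t • a}`, `|Q|` even, `|D|` odd), the normaliser of a subset of `Q` containing a non-identity element lies in `G_a`; consequently `N_G(Q) = N_G(G_a) = G_a`. -/
theorem result {G Ω : Type*} [Group G] [Finite G] [MulAction G Ω] {a : Ω} {t : G} {Q : Subgroup G}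
    (hS : Cfsg.IsRankOneSetup G Ω a t Q) :
    (∀ X : Set G, X ⊆ (Q : Set G) → (∃ x ∈ X, x ≠ 1) → Subgroup.normalizer X ≤ MulAction.stabilizer G a) ∧
      Subgroup.normalizer (Q : Set G) = MulAction.stabilizer G a ∧
      Subgroup.normalizer (MulAction.stabilizer G a : Set G) = MulAction.stabilizer G a := by
  open Cfsg.Agent.Lib.Cl.RankOne MulAction in
  have hfix : ∀ X : Set G, X ⊆ (Q : Set G) → (∃ x ∈ X, x ≠ 1) → Subgroup.normalizer X ≤ stabilizer G a := by
    intro X hX ⟨x, hx, hx1⟩ g hg
    rw [Subgroup.mem_set_normalizer_iff] at hg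
    -- g⁻¹ x g ∈ X fixes a, so x fixes g a
    have h1 : g⁻¹ * x * g ∈ X := by
      have := (hg (g⁻¹ * x * g)).mpr (by
        have e : g * (g⁻¹ * x * g) * g⁻¹ = x := by group
        rw [e]; exact hx)
      exact this
    have h2 : (g⁻¹ * x * g) • a = a := Q_fix_a hS (hX h1)
    have h3 : x • (g • a) = g • a := by
      have e : x = g * (g⁻¹ * x * g) * g⁻¹ := by group
      conv_lhs => rw [e]
      simp only [mul_smul, inv_smul_smul]
      congr 1
      simpa [mul_smul] using h2
    exact Q_fix_only hS (hX hx) hx1 h3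
  obtain ⟨x₀, hx₀, hx₀1⟩ := exists_ne_one hS
  refine ⟨hfix, ?_, ?_⟩
  · apply le_antisymm
    · exact hfix _ (fun _ h => h) ⟨x₀, hx₀, hx₀1⟩
    · intro g hg
      rw [Subgroup.mem_set_normalizer_iff]
      intro h
      constructor
      · exact fun hh => hS.conj_mem g hg h hh
      · intro hh
        have := hS.conj_mem g⁻¹ (Subgroup.inv_mem _ hg) _ hh
        have e : g⁻¹ * (g * h * g⁻¹) * g⁻¹⁻¹ = h := by group
        rwa [e] at this
  · apply le_antisymm
    · -- g normalises the stabiliser: then x₀ conjugated lies in the stabiliser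
      intro g hg
      rw [Subgroup.mem_set_normalizer_iff] at hg
      have h1 : g⁻¹ * x₀ * g ∈ stabilizer G a := by
        have := (hg (g⁻¹ * x₀ * g)).mpr (by
          have e : g * (g⁻¹ * x₀ * g) * g⁻¹ = x₀ := by group
          rw [e]; exact hS.le hx₀)
        exact this
      have h2 : (g⁻¹ * x₀ * g) • a = a := h1
      have h3 : x₀ • (g • a) = g • a := by
        have e : x₀ = g * (g⁻¹ * x₀ * g) * g⁻¹ := by group
        conv_lhs => rw [e]
        simp only [mul_smul, inv_smul_smul]
        congr 1
        simpa [mul_smul] using h2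
      exact Q_fix_only hS hx₀ hx₀1 h3
    · intro g hg
      rw [Subgroup.mem_set_normalizer_iff]
      intro h
      constructor
      · exact fun hh => Subgroup.mul_mem _ (Subgroup.mul_mem _ hg hh) (Subgroup.inv_mem _ hg)
      · intro hh
        have := Subgroup.mul_mem _ (Subgroup.mul_mem _ (Subgroup.inv_mem _ hg) hh) hg
        have e : g⁻¹ * (g * h * g⁻¹) * g = h := by group
        rwa [e] at this


end Cfsg.Agent.S1118
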