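import Cfsg.Statements.S1120
import Mathlib
import Cfsg.Agent.Lib.Cl.RankOne4
import Cfsg.Agent.S0058

set_option autoImplicit false
open Cfsg

namespace Cfsg.Agent.S1120

/-- In the rank-one set-up (`G` finite and doubly transitive on `Ω`, `t` an involution moving `a`, `Q` normal in `G_a` with `G_a = Q D`, `Q ⊓ D = 1` for the two-point stabiliser `D = G_a ⊓ G_{t • a}`, `|Q|` even, `|D|` odd), if `G` has 2-rank at least 2 then `O_{2'}(G)` equals the normal core of `G_a`. -/
theorem result {G Ω : Type*} [Group G] [Finite G] [MulAction G Ω] {a : Ω} {t : G} {Q : Subgroup G}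
    (hS : Cfsg.IsRankOneSetup G Ω a t Q)
    (h2 : ∃ x y : G, x ≠ 1 ∧ y ≠ 1 ∧ x ≠ y ∧ x * x = 1 ∧ y * y = 1 ∧ x * y = y * x) :
    Cfsg.pPrimeCore 2 G = (MulAction.stabilizer G a).normalCore := by
  open Cfsg.Agent.Lib.Cl.RankOne MulAction in
  classical
  apply le_antisymm
  · -- the odd core lies in `G_a`
    rw [Subgroup.normal_le_normalCore]
    obtain ⟨s, s', hs, hs1, hs2, hs', hs1', hs2', hne⟩ := two_inv hS h2
    have hcm : ∀ {x y : G}, x ∈ stabilizer G a → x * x = 1 → y ∈ stabilizer G a → y * y = 1 → x * y = y * x := by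
      intro x y hx hx2 hy hy2
      by_cases hx1 : x = 1
      · rw [hx1, one_mul, mul_one]
      · exact inv_comm hS h2 hx hx1 hx2 hy hy2
    let A : Subgroup G :=
      { carrier := {x | x ∈ stabilizer G a ∧ x * x = 1}
        mul_mem' := by
          rintro x y ⟨hx, hx2⟩ ⟨hy, hy2⟩
          refine ⟨Subgroup.mul_mem _ hx hy, ?_⟩
          calc x * y * (x * y) = x * (y * x) * y := by group
            _ = x * (x * y) * y := by rw [hcm hx hx2 hy hy2]
            _ = (x * x) * (y * y) := by group
            _ = 1 := by rw [hx2, hy2, one_mul]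
        one_mem' := ⟨Subgroup.one_mem _, one_mul 1⟩
        inv_mem' := by
          rintro x ⟨hx, hx2⟩
          refine ⟨Subgroup.inv_mem _ hx, ?_⟩
          rw [inv_eq_of_mul_eq_one_left hx2]
          exact hx2 }
    have hAmem : ∀ {x : G}, x ∈ A ↔ x ∈ stabilizer G a ∧ x * x = 1 := Iff.rfl
    haveI : IsMulCommutative A := ⟨⟨fun x y => Subtype.ext (hcm x.2.1 x.2.2 y.2.1 y.2.2)⟩⟩
    have hcyc : ¬ IsCyclic A := by
      intro hc
      haveI := Fintype.ofFinite A
      have h1 := IsCyclic.card_pow_eq_one_le (α := A) (n := 2) (by norm_num)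
      have h2' : ({1, ⟨s, hs, hs2⟩, ⟨s', hs', hs2'⟩} : Finset A) ⊆ Finset.univ.filter (fun x : A => x ^ 2 = 1) := by
        intro x hx
        simp only [Finset.mem_insert, Finset.mem_singleton] at hx
        simp only [Finset.mem_filter, Finset.mem_univ, true_and]
        rw [pow_two]
        rcases hx with rfl | rfl | rfl
        · simp
        · exact Subtype.ext hs2
        · exact Subtype.ext hs2'
      have h3 := Finset.card_le_card h2'
      have h4 : ({1, ⟨s, hs, hs2⟩, ⟨s', hs', hs2'⟩} : Finset A).card = 3 := by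
        apply Finset.card_eq_three.mpr
        refine ⟨1, ⟨s, hs, hs2⟩, ⟨s', hs', hs2'⟩, ?_, ?_, ?_, rfl⟩
        · intro h; exact hs1 (congrArg Subtype.val h).symm
        · intro h; exact hs1' (congrArg Subtype.val h).symm
        · intro h; exact hne (congrArg Subtype.val h)
      omega
    set O := Cfsg.pPrimeCore 2 G with hO
    have hOc : (Nat.card O).Coprime 2 := Cfsg.Agent.Lib.Core.pPrimeCore_coprime 2 G
    have hcop : (Nat.card A).Coprime (Nat.card O) := by
      apply Nat.Coprime.symm
      apply Nat.coprime_of_dvd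
      intro r hr hrO hrA
      obtain ⟨⟨x, hx⟩, hxo⟩ := @exists_prime_orderOf_dvd_card' A _ _ r ⟨hr⟩ hrA
      have h2x : (⟨x, hx⟩ : A) ^ 2 = 1 := by
        rw [pow_two]
        exact Subtype.ext hx.2
      have hd : orderOf (⟨x, hx⟩ : A) ∣ 2 := orderOf_dvd_of_pow_eq_one h2x
      rw [hxo] at hd
      have hr2 : r = 2 := (Nat.prime_dvd_prime_iff_eq hr Nat.prime_two).mp hd
      subst hr2
      have := Nat.Coprime.eq_one_of_dvd hOc.symm hrO
      omega
    have hAK : A ≤ Subgroup.normalizer (O : Set G) := by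
      intro g _
      rw [Subgroup.mem_set_normalizer_iff]
      intro h
      constructor
      · intro hh
        exact (inferInstance : O.Normal).conj_mem h hh g
      · intro hh
        have := (inferInstance : O.Normal).conj_mem _ hh g⁻¹
        simpa [mul_assoc] using this
    have hgen := Cfsg.Agent.S0058.result A O hcyc hAK hcop
    rw [← hgen]
    apply iSup₂_le
    rintro b ⟨hbA, hb1⟩ x ⟨hxO, hxC⟩
    have hb2 := (hAmem.mp hbA).2
    have hb := (hAmem.mp hbA).1
    have hc : x * b = b * x := Subgroup.mem_centralizer_singleton_iff.mp hxC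
    show x • a = a
    apply inv_fix_a hS hb hb1 hb2
    rw [← mul_smul, ← hc, mul_smul]
    have : b • a = a := hb
    rw [this]
  · -- the core has odd order
    apply Cfsg.Agent.Lib.Core.le_pPrimeCore (Subgroup.normalCore_normal _)
    apply Nat.Coprime.symm
    rw [Nat.coprime_two_left]
    by_contra hne
    rw [Nat.not_odd_iff_even, even_iff_two_dvd] at hne
    obtain ⟨⟨x, hx⟩, hxo⟩ := @exists_prime_orderOf_dvd_card' _ _ _ 2 ⟨Nat.prime_two⟩ hne
    have hx2 : x * x = 1 := by
      have := pow_orderOf_eq_one (⟨x, hx⟩ : ↥(stabilizer G a).normalCore)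
      rw [hxo, pow_two] at this
      exact congrArg Subtype.val this
    have hx1 : x ≠ 1 := by
      rintro rfl
      have : (⟨1, hx⟩ : ↥(stabilizer G a).normalCore) = 1 := rfl
      rw [this, orderOf_one] at hxo
      omega
    have hxa : x ∈ stabilizer G a := Subgroup.normalCore_le _ hx
    have h5 : t⁻¹ * x * t ∈ stabilizer G a := by
      have := (Subgroup.normalCore_normal (stabilizer G a)).conj_mem x hx t⁻¹
      rw [inv_inv] at this
      exact Subgroup.normalCore_le _ this
    have h6 : x • (t • a) = t • a := by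
      have h7 : (t⁻¹ * x * t) • a = a := h5
      simp only [mul_smul] at h7
      rwa [inv_smul_eq_iff] at h7
    exact b_ne hS (inv_fix_a hS hxa hx1 hx2 h6)


end Cfsg.Agent.S1120
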