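import Cfsg.Statements.S1121
import Mathlib
import Cfsg.Agent.Lib.Cl.RankOne

set_option autoImplicit false
open Cfsg

namespace Cfsg.Agent.S1121

/-- In the rank-one set-up (`G` finite and doubly transitive on `Ω`, `t` an involution moving `a`, `Q` normal in `G_a` with `G_a = Q D`, `Q ⊓ D = 1` for the two-point stabiliser `D = G_a ⊓ G_{t • a}`, `|Q|` even, `|D|` odd): if `s` is an involution of `G_a` and `u` an involution outside `G_a`, then `s u` has odd order; and any two involutions of `G` are conjugate. -/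
theorem result {G Ω : Type*} [Group G] [Finite G] [MulAction G Ω] {a : Ω} {t : G} {Q : Subgroup G}
    (hS : Cfsg.IsRankOneSetup G Ω a t Q) :
    (∀ s u : G, s ∈ MulAction.stabilizer G a → s ≠ 1 → s * s = 1 → u ∉ MulAction.stabilizer G a → u ≠ 1 → u * u = 1 → Odd (orderOf (s * u))) ∧
      ∀ u v : G, u ≠ 1 → u * u = 1 → v ≠ 1 → v * v = 1 → ∃ g : G, g * u * g⁻¹ = v := by
  open Cfsg.Agent.Lib.Cl.RankOne MulAction in
  classical
  haveI : Fact (Nat.Prime 2) := ⟨Nat.prime_two⟩
  have hodd : ∀ s u : G, s ∈ stabilizer G a → s ≠ 1 → s * s = 1 → u ∉ stabilizer G a → u ≠ 1 → u * u = 1 →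
      Odd (orderOf (s * u)) := by
    intro s u hs hs1 hs2 hu hu1 hu2
    by_contra hne
    rw [Nat.not_odd_iff_even] at hne
    obtain ⟨m, hm⟩ := hne
    set r := s * u with hr
    have hord : 0 < orderOf r := orderOf_pos r
    have hmpos : 0 < m := by omega
    set w := r ^ m with hw
    have hw2 : w * w = 1 := by
      rw [hw, ← pow_add, ← hm, pow_orderOf_eq_one]
    have hw1 : w ≠ 1 := by
      rw [hw]
      intro h
      have := orderOf_dvd_of_pow_eq_one h
      have h2 := Nat.le_of_dvd hmpos this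
      omega
    have hsinv : s⁻¹ = s := inv_eq_of_mul_eq_one_left hs2
    have huinv : u⁻¹ = u := inv_eq_of_mul_eq_one_left hu2
    have hrinv : r⁻¹ = u * s := by
      rw [hr, mul_inv_rev, hsinv, huinv]
    have hwinv : w⁻¹ = w := inv_eq_of_mul_eq_one_left hw2
    have hsr : s * r * s⁻¹ = r⁻¹ := by
      rw [hrinv, hr, hsinv, ← mul_assoc, hs2, one_mul]
    have hur : u * r * u⁻¹ = r⁻¹ := by
      rw [hrinv, hr, huinv]
      have : u * (s * u) * u = u * s * (u * u) := by group
      rw [this, hu2, mul_one]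
    have hsw : s * w * s⁻¹ = w := by
      rw [hw, ← conj_pow, hsr, inv_pow, ← hw, hwinv]
    have huw : u * w * u⁻¹ = w := by
      rw [hw, ← conj_pow, hur, inv_pow, ← hw, hwinv]
    have hsQ : s ∈ Q := inv_of_sq_mem hS hs hs2
    -- w fixes a
    have hwa : w • a = a := by
      apply Q_fix_only hS hsQ hs1
      have e : s * w = w * s := by
        have := hsw
        rw [mul_inv_eq_iff_eq_mul] at this
        exact this
      rw [← mul_smul, e, mul_smul]
      congr 1
    have hwQ : w ∈ Q := inv_of_sq_mem hS hwa hw2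
    apply hu
    show u • a = a
    apply Q_fix_only hS hwQ hw1
    have e : w * u = u * w := by
      have := huw
      rw [mul_inv_eq_iff_eq_mul] at this
      exact this.symm
    rw [← mul_smul, e, mul_smul]
    congr 1
  refine ⟨hodd, ?_⟩
  -- odd product implies conjugate
  have hconj : ∀ s u : G, s * s = 1 → u * u = 1 → Odd (orderOf (s * u)) → ∃ g : G, g * s * g⁻¹ = u := by
    intro s u hs2 hu2 ⟨k, hk⟩
    set r := s * u with hr
    have hsinv : s⁻¹ = s := inv_eq_of_mul_eq_one_left hs2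
    have huinv : u⁻¹ = u := inv_eq_of_mul_eq_one_left hu2
    have hsr : ∀ n : ℕ, s * r ^ n * s⁻¹ = (r⁻¹) ^ n := by
      intro n
      rw [← conj_pow]
      congr 1
      rw [hr, mul_inv_rev, hsinv, huinv, ← mul_assoc, hs2, one_mul]
    refine ⟨r ^ k, ?_⟩
    have h1 : r ^ (2 * k + 1) = 1 := by
      rw [← hk, pow_orderOf_eq_one]
    have h2 : s * (r ^ k)⁻¹ = r ^ k * s := by
      have e := hsr k
      rw [inv_pow] at e
      have e5 : s * (r ^ k)⁻¹ * s⁻¹ = r ^ k := by
        calc s * (r ^ k)⁻¹ * s⁻¹ = (s * r ^ k * s⁻¹)⁻¹ := by group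
          _ = r ^ k := by rw [e, inv_inv]
      exact mul_inv_eq_iff_eq_mul.mp e5
    have h3 : r ^ k * s * (r ^ k)⁻¹ = r ^ k * r ^ k * s := by
      rw [mul_assoc, h2, mul_assoc]
    rw [h3, ← pow_add, ← two_mul]
    have h4 : r ^ (2 * k) = r⁻¹ := by
      rw [pow_succ] at h1
      exact eq_inv_of_mul_eq_one_left h1
    rw [h4, hr, mul_inv_rev, hsinv, huinv, mul_assoc, hs2, mul_one]
  -- every involution is conjugate to t
  have ht1 : t ≠ 1 := hS.ne_one
  have ht2 : t * t = 1 := hS.mul_self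
  have hall : ∀ u : G, u ≠ 1 → u * u = 1 → ∃ g : G, g * u * g⁻¹ = t := by
    intro u hu1 hu2
    obtain ⟨P, hP⟩ := exists_sylow_le hS
    -- u lies in a conjugate of P
    have hu2' : IsPGroup 2 (Subgroup.zpowers u) := by
      rw [IsPGroup.iff_card]
      refine ⟨1, ?_⟩
      rw [Nat.card_zpowers, pow_one]
      exact orderOf_eq_prime (by rw [pow_two]; exact hu2) hu1
    obtain ⟨P', hP'⟩ := hu2'.exists_le_sylow
    obtain ⟨g, hg⟩ := MulAction.exists_smul_eq G P' P
    have hmem : g * u * g⁻¹ ∈ (P : Subgroup G) := by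
      rw [← hg, Sylow.coe_subgroup_smul, Subgroup.mem_pointwise_smul_iff_inv_smul_mem]
      have : (MulAut.conj g)⁻¹ • (g * u * g⁻¹) = u := by
        simp [MulAut.smul_def, MulAut.inv_def, MulAut.conj_symm_apply]
        group
      rw [this]
      exact hP' (Subgroup.mem_zpowers u)
    set s := g * u * g⁻¹ with hs
    have hsQ : s ∈ Q := hP hmem
    have hs1 : s ≠ 1 := by
      rw [hs]
      intro h
      apply hu1
      have : u = g⁻¹ * (g * u * g⁻¹) * g := by group
      rw [this, h]; group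
    have hs2 : s * s = 1 := by
      have e : s * s = g * (u * u) * g⁻¹ := by rw [hs]; group
      rw [e, hu2]; group
    have hst := hodd s t (hS.le hsQ) hs1 hs2 hS.not_mem ht1 ht2
    obtain ⟨h, hh⟩ := hconj s t hs2 ht2 hst
    refine ⟨h * g, ?_⟩
    rw [← hh, hs]
    group
  intro u v hu1 hu2 hv1 hv2
  obtain ⟨g, hg⟩ := hall u hu1 hu2
  obtain ⟨h, hh⟩ := hall v hv1 hv2
  refine ⟨h⁻¹ * g, ?_⟩
  have : h⁻¹ * g * u * (h⁻¹ * g)⁻¹ = h⁻¹ * (g * u * g⁻¹) * h := by group
  rw [this, hg, ← hh]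
  group


end Cfsg.Agent.S1121
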