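import Cfsg.Statements.S1122
import Mathlib
import Cfsg.Agent.Lib.Cl.RankOne3

set_option autoImplicit false
open Cfsg

namespace Cfsg.Agent.S1122

/-- In the rank-one set-up (`G` finite and doubly transitive on `Ω`, `t` an involution moving `a`, `Q` normal in `G_a` with `G_a = Q D`, `Q ⊓ D = 1` for the two-point stabiliser `D = G_a ⊓ G_{t • a}`, `|Q|` even, `|D|` odd), with `K` the set of elements of `D` inverted by `t`: `|K|` is the number of involutions of `G_a`, and for each involution `s` of `G_a` the `K`-conjugates of `s` are all the involutions of `G_a`. -/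
theorem result {G Ω : Type*} [Group G] [Finite G] [MulAction G Ω] {a : Ω} {t : G} {Q : Subgroup G}
    (hS : Cfsg.IsRankOneSetup G Ω a t Q) :
    Nat.card (Cfsg.invertedBy (MulAction.stabilizer G a ⊓ MulAction.stabilizer G (t • a)) t) = Nat.card (Cfsg.involutionsIn (MulAction.stabilizer G a : Set G)) ∧
      ∀ s ∈ Cfsg.involutionsIn (MulAction.stabilizer G a : Set G), ∀ s' ∈ Cfsg.involutionsIn (MulAction.stabilizer G a : Set G),
        ∃ k ∈ Cfsg.invertedBy (MulAction.stabilizer G a ⊓ MulAction.stabilizer G (t • a)) t, k⁻¹ * s * k = s' := by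
  open Cfsg.Agent.Lib.Cl.RankOne MulAction in
  obtain ⟨s₀, r₀, hs, hs1, hs2, hr, he⟩ := pair_exists hS
  refine ⟨?_, ?_⟩
  · let f : Cfsg.invertedBy (stabilizer G a ⊓ stabilizer G (t • a)) t → Cfsg.involutionsIn (stabilizer G a : Set G) :=
      fun k => ⟨(k : G)⁻¹ * s₀ * k, conj_inv_mem hS hs hs1 hs2 k.2.1⟩
    have hbij : Function.Bijective f := by
      constructor
      · rintro ⟨k, hk⟩ ⟨k', hk'⟩ h
        have h' : k⁻¹ * s₀ * k = k'⁻¹ * s₀ * k' := congrArg Subtype.val h
        exact Subtype.ext (K_param_inj hS hr he hk hk' h')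
      · rintro ⟨s', hs', hs1', hs2'⟩
        obtain ⟨k, hk, e⟩ := K_transitive hS hs hs1 hs2 hs' hs1' hs2'
        exact ⟨⟨k, hk⟩, Subtype.ext e⟩
    exact Nat.card_congr (Equiv.ofBijective f hbij)
  · rintro s ⟨h1, h2, h3⟩ s' ⟨h1', h2', h3'⟩
    exact K_transitive hS h1 h2 h3 h1' h2' h3'


end Cfsg.Agent.S1122
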