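import Cfsg.Statements.S1125
import Mathlib
import Cfsg.Agent.Lib.Cl.RankOne3

set_option autoImplicit false
open Cfsg

namespace Cfsg.Agent.S1125

/-- In the rank-one set-up (`G` finite and doubly transitive on `Ω`, `t` an involution moving `a`, `Q` normal in `G_a` with `G_a = Q D`, `Q ⊓ D = 1` for the two-point stabiliser `D = G_a ⊓ G_{t • a}`, `|Q|` even, `|D|` odd), let `X ⊆ D` fix at least three points of `Ω`. Then `C_G(X)` is doubly transitive on the fixed-point set of `X`, `|C_Q(X)|` is even, and `C_{G_a}(X) = C_Q(X) C_D(X)`. -/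
theorem result {G Ω : Type*} [Group G] [Finite G] [MulAction G Ω] {a : Ω} {t : G} {Q : Subgroup G}
    (hS : Cfsg.IsRankOneSetup G Ω a t Q)
    (X : Set G) (hX : X ⊆ ((MulAction.stabilizer G a ⊓ MulAction.stabilizer G (t • a)) : Set G))
    (h3 : ∃ b c d : Ω, b ≠ c ∧ b ≠ d ∧ c ≠ d ∧ ∀ x ∈ X, x • b = b ∧ x • c = c ∧ x • d = d) :
    (∀ b₁ b₂ c₁ c₂ : Ω, (∀ x ∈ X, x • b₁ = b₁ ∧ x • b₂ = b₂ ∧ x • c₁ = c₁ ∧ x • c₂ = c₂) →
        b₁ ≠ b₂ → c₁ ≠ c₂ → ∃ g ∈ Subgroup.centralizer X, g • b₁ = c₁ ∧ g • b₂ = c₂) ∧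
      Even (Nat.card ↥(Subgroup.centralizer X ⊓ Q)) ∧
      (Subgroup.centralizer X ⊓ Q) ⊔ (Subgroup.centralizer X ⊓ (MulAction.stabilizer G a ⊓ MulAction.stabilizer G (t • a))) = Subgroup.centralizer X ⊓ MulAction.stabilizer G a := by
  open Cfsg.Agent.Lib.Cl.RankOne MulAction in
  classical
  obtain ⟨b, c, d, hbc, hbd, hcd, hall⟩ := h3
  obtain ⟨e, he, hea, heb⟩ := third_point hS (P := fun p => ∀ z ∈ X, z • p = p) hbc hbd hcd
    (fun z hz => (hall z hz).1) (fun z hz => (hall z hz).2.1) (fun z hz => (hall z hz).2.2)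
  refine ⟨?_, ?_, ?_⟩
  · intro b₁ b₂ c₁ c₂ hfix hb hc
    exact C_two_trans hS hX he hea heb (fun z hz => (hfix z hz).1) (fun z hz => (hfix z hz).2.1)
      (fun z hz => (hfix z hz).2.2.1) (fun z hz => (hfix z hz).2.2.2) hb hc
  · -- an involution of C_Q(X)
    obtain ⟨u, huC, hu2, hua⟩ := C_swap hS hX he hea heb
    have hu1 : u ≠ 1 := by
      rintro rfl
      rw [one_smul] at hua
      exact b_ne hS hua.symm
    obtain ⟨c₀, hc₀, hc₀u⟩ := inv_fix hS hu1 hu2
    have hF : ∀ z ∈ X, z • c₀ = c₀ := by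
      intro z hz
      apply hc₀u
      have hc1 := Subgroup.mem_centralizer_iff.mp huC z hz
      rw [← mul_smul, ← hc1, mul_smul, hc₀]
    have hc₀b : c₀ ≠ t • a := by
      rintro rfl
      have h1 : u • (t • a) = a := by
        rw [← hua, ← mul_smul, hu2, one_smul]
      rw [h1] at hc₀
      exact b_ne hS hc₀.symm
    obtain ⟨y, hy, hyC, -⟩ := C_Q'_trans hS hX hF hc₀b
    -- w = y⁻¹ u y fixes a
    have hw : (y⁻¹ * u * y) • a = a := by
      simp only [mul_smul]
      rw [hy, hc₀, inv_smul_eq_iff, hy]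
    have hw2 : (y⁻¹ * u * y) * (y⁻¹ * u * y) = 1 := by
      have : (y⁻¹ * u * y) * (y⁻¹ * u * y) = y⁻¹ * (u * u) * y := by group
      rw [this, hu2]; group
    have hw1 : y⁻¹ * u * y ≠ 1 := by
      intro h
      apply hu1
      have : u = y * (y⁻¹ * u * y) * y⁻¹ := by group
      rw [this, h]; group
    have hwQ : y⁻¹ * u * y ∈ Q := inv_of_sq_mem hS hw hw2
    have hwC : y⁻¹ * u * y ∈ Subgroup.centralizer X :=
      Subgroup.mul_mem _ (Subgroup.mul_mem _ (Subgroup.inv_mem _ hyC) huC) hyC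
    let w : ↥(Subgroup.centralizer X ⊓ Q) := ⟨y⁻¹ * u * y, hwC, hwQ⟩
    have hord : orderOf w = 2 := by
      apply orderOf_eq_prime
      · rw [pow_two]
        exact Subtype.ext hw2
      · intro h
        exact hw1 (congrArg Subtype.val h)
    have := orderOf_dvd_natCard w
    rw [hord] at this
    exact even_iff_two_dvd.mpr this
  · apply le_antisymm
    · apply sup_le
      · exact fun g hg => ⟨hg.1, hS.le hg.2⟩
      · exact fun g hg => ⟨hg.1, hg.2.1⟩
    · rintro g ⟨hgC, hga⟩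
      have hF : ∀ z ∈ X, z • (g • t • a) = g • t • a := by
        intro z hz
        have hc1 := Subgroup.mem_centralizer_iff.mp hgC z hz
        rw [← mul_smul, hc1, mul_smul]
        have : z • (t • a) = t • a := (hX hz).2
        rw [this]
      have hne : g • t • a ≠ a := by
        intro h
        apply b_ne hS
        have h1 := congrArg (fun c => g⁻¹ • c) h
        simp only [inv_smul_smul] at h1
        rw [h1]
        exact Subgroup.inv_mem _ hga
      obtain ⟨x, hx, ex, hxC⟩ := C_Q_trans hS hX hF hne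
      have hd : x⁻¹ * g ∈ Subgroup.centralizer X ⊓ (stabilizer G a ⊓ stabilizer G (t • a)) := by
        refine ⟨Subgroup.mul_mem _ (Subgroup.inv_mem _ hxC) hgC,
          Subgroup.mul_mem _ (Subgroup.inv_mem _ (hS.le hx)) hga, ?_⟩
        show (x⁻¹ * g) • (t • a) = t • a
        rw [mul_smul, ← ex, inv_smul_smul]
      have : g = x * (x⁻¹ * g) := by group
      rw [this]
      exact Subgroup.mul_mem _ (Subgroup.mem_sup_left ⟨hxC, hx⟩) (Subgroup.mem_sup_right hd)


end Cfsg.Agent.S1125
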