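import Cfsg.Statements.S1126
import Mathlib
import Cfsg.Agent.Lib.Cl.RankOne3

set_option autoImplicit false
open Cfsg

namespace Cfsg.Agent.S1126

/-- In the rank-one set-up (`G` finite and doubly transitive on `Ω`, `t` an involution moving `a`, `Q` normal in `G_a` with `G_a = Q D`, `Q ⊓ D = 1` for the two-point stabiliser `D = G_a ⊓ G_{t • a}`, `|Q|` even, `|D|` odd), a subset `X ⊆ D` fixing at least three points of `Ω` is conjugate by an element of `D` into `V = C_D(t)`. -/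
theorem result {G Ω : Type*} [Group G] [Finite G] [MulAction G Ω] {a : Ω} {t : G} {Q : Subgroup G}
    (hS : Cfsg.IsRankOneSetup G Ω a t Q)
    (X : Set G) (hX : X ⊆ ((MulAction.stabilizer G a ⊓ MulAction.stabilizer G (t • a)) : Set G))
    (h3 : ∃ b c d : Ω, b ≠ c ∧ b ≠ d ∧ c ≠ d ∧ ∀ x ∈ X, x • b = b ∧ x • c = c ∧ x • d = d) :
    ∃ k ∈ (MulAction.stabilizer G a ⊓ MulAction.stabilizer G (t • a)), ∀ x ∈ X, (k * x * k⁻¹) * t = t * (k * x * k⁻¹) := by
  open Cfsg.Agent.Lib.Cl.RankOne MulAction in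
  obtain ⟨b, c, d, hbc, hbd, hcd, hall⟩ := h3
  obtain ⟨e, he, hea, heb⟩ := third_point hS (P := fun p => ∀ z ∈ X, z • p = p) hbc hbd hcd
    (fun z hz => (hall z hz).1) (fun z hz => (hall z hz).2.1) (fun z hz => (hall z hz).2.2)
  obtain ⟨u, huC, hu2, hua⟩ := C_swap hS hX he hea heb
  obtain ⟨m, hm, hme⟩ := conj_D_of_swap hS hu2 hua
  refine ⟨m, hm, fun x hx => ?_⟩
  have hc : x * u = u * x := Subgroup.mem_centralizer_iff.mp huC x hx
  rw [← hme]
  calc m * x * m⁻¹ * (m * u * m⁻¹) = m * (x * u) * m⁻¹ := by group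
    _ = m * (u * x) * m⁻¹ := by rw [hc]
    _ = _ := by group


end Cfsg.Agent.S1126
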