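import Cfsg.Statements.S1127
import Mathlib
import Cfsg.Agent.Lib.Cl.RankOne3

set_option autoImplicit false
open Cfsg

namespace Cfsg.Agent.S1127

/-- In the rank-one set-up (`G` finite and doubly transitive on `Ω`, `t` an involution moving `a`, `Q` normal in `G_a` with `G_a = Q D`, `Q ⊓ D = 1` for the two-point stabiliser `D = G_a ⊓ G_{t • a}`, `|Q|` even, `|D|` odd): if `s` is an involution of `G_a` and `r ∈ Q` satisfy `t s t = r⁻¹ t r`, then `C_D(t) = C_D(s)`; moreover `C_D(t) ⊓ C_D(K) = C_D(I ∩ G_a)`, where `K` is the set of elements of `D` inverted by `t` and `I ∩ G_a` the set of involutions of `G_a`. -/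
theorem result {G Ω : Type*} [Group G] [Finite G] [MulAction G Ω] {a : Ω} {t : G} {Q : Subgroup G}
    (hS : Cfsg.IsRankOneSetup G Ω a t Q) :
    (∀ s r : G, s ∈ Cfsg.involutionsIn (MulAction.stabilizer G a : Set G) → r ∈ Q → t * s * t = r⁻¹ * t * r →
        (MulAction.stabilizer G a ⊓ MulAction.stabilizer G (t • a)) ⊓ Subgroup.centralizer {t} = (MulAction.stabilizer G a ⊓ MulAction.stabilizer G (t • a)) ⊓ Subgroup.centralizer {s}) ∧
      (MulAction.stabilizer G a ⊓ MulAction.stabilizer G (t • a)) ⊓ Subgroup.centralizer {t} ⊓ Subgroup.centralizer (Cfsg.invertedBy (MulAction.stabilizer G a ⊓ MulAction.stabilizer G (t • a)) t) =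
        (MulAction.stabilizer G a ⊓ MulAction.stabilizer G (t • a)) ⊓ Subgroup.centralizer (Cfsg.involutionsIn (MulAction.stabilizer G a : Set G)) := by
  open Cfsg.Agent.Lib.Cl.RankOne MulAction in
  have htt := hS.mul_self
  have hti := t_inv hS
  have hpart1 : ∀ s r : G, s ∈ Cfsg.involutionsIn (stabilizer G a : Set G) → r ∈ Q → t * s * t = r⁻¹ * t * r →
      (stabilizer G a ⊓ stabilizer G (t • a)) ⊓ Subgroup.centralizer {t} =
      (stabilizer G a ⊓ stabilizer G (t • a)) ⊓ Subgroup.centralizer {s} := by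
    rintro s r ⟨hs, hs1, hs2⟩ hr he
    apply le_antisymm
    · rintro d ⟨hd, hdt⟩
      refine ⟨hd, ?_⟩
      have hdt' : d * t = t * d := Subgroup.mem_centralizer_singleton_iff.mp hdt
      have hdti : d⁻¹ * t = t * d⁻¹ := by
        calc d⁻¹ * t = d⁻¹ * (t * d) * d⁻¹ := by group
          _ = d⁻¹ * (d * t) * d⁻¹ := by rw [hdt']
          _ = t * d⁻¹ := by group
      -- conjugating the pair by d
      have e : t * (d * s * d⁻¹) * t = (d * r * d⁻¹)⁻¹ * t * (d * r * d⁻¹) := by
        calc t * (d * s * d⁻¹) * t = d * (t * s * t) * d⁻¹ := by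
              rw [← mul_assoc t, ← mul_assoc t, ← hdt', mul_assoc (d * t * s), hdti]
              group
          _ = d * (r⁻¹ * t * r) * d⁻¹ := by rw [he]
          _ = d * r⁻¹ * (t * d⁻¹) * (d * r * d⁻¹) := by group
          _ = d * r⁻¹ * (d⁻¹ * t) * (d * r * d⁻¹) := by rw [hdti]
          _ = _ := by group
      obtain ⟨a1, a2, a3⟩ := conj_inv_mem hS hs hs1 hs2 (Subgroup.inv_mem _ hd)
      rw [inv_inv] at a1 a2 a3
      have hr' : d * r * d⁻¹ ∈ Q := hS.conj_mem d hd.1 r hr
      have h1 := (pair_unique hS a1 a2 a3 hr' e hs hs1 hs2 hr he).1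
      apply Subgroup.mem_centralizer_singleton_iff.mpr
      exact mul_inv_eq_iff_eq_mul.mp h1
    · rintro d ⟨hd, hds⟩
      refine ⟨hd, ?_⟩
      have hds' : d * s = s * d := Subgroup.mem_centralizer_singleton_iff.mp hds
      have hdsi : d * s * d⁻¹ = s := by rw [hds']; group
      set k := t * d * t * d⁻¹ with hk
      have hkD : k ∈ stabilizer G a ⊓ stabilizer G (t • a) :=
        Subgroup.mul_mem _ (tct_mem hS hd) (Subgroup.inv_mem _ hd)
      have hkK : k ∈ Cfsg.invertedBy (stabilizer G a ⊓ stabilizer G (t • a)) t := by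
        refine ⟨hkD, ?_⟩
        rw [hti, hk]
        have : (t * d * t * d⁻¹)⁻¹ = d * (t * d⁻¹ * t) := by
          rw [mul_inv_rev, mul_inv_rev, mul_inv_rev, hti]; group
        rw [this]
        calc t * (t * d * t * d⁻¹) * t = (t * t) * d * t * d⁻¹ * t := by group
          _ = d * (t * d⁻¹ * t) := by rw [htt]; group
      have hdtd : d * t * d⁻¹ = t * k := by
        rw [hk]
        calc d * t * d⁻¹ = (t * t) * d * t * d⁻¹ := by rw [htt, one_mul]
          _ = _ := by group
      -- `k s k⁻¹` has value `k`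
      have hkt : t * k * t = k⁻¹ := by
        have := hkK.2
        rwa [hti] at this
      have hkt2 : t * k = k⁻¹ * t := by
        rw [← hkt]
        calc t * k = t * k * (t * t) := by rw [htt, mul_one]
          _ = _ := by group
      have v1 : Cfsg.Agent.Lib.Cl.RankOne.Val t Q (k * s * k⁻¹) k := by
        refine ⟨d * r * d⁻¹, hS.conj_mem d hd.1 r hr, ?_⟩
        have e0 : (t * k) * s * (t * k) = (d * r * d⁻¹)⁻¹ * (t * k) * (d * r * d⁻¹) := by
          rw [← hdtd]
          calc d * t * d⁻¹ * s * (d * t * d⁻¹) = d * t * (d⁻¹ * s * d) * t * d⁻¹ := by group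
            _ = d * t * s * t * d⁻¹ := by
                have : d⁻¹ * s * d = s := by
                  have h0 : d⁻¹ * (d * s * d⁻¹) * d = s := by group
                  rw [hdsi] at h0
                  exact h0
                rw [this]
            _ = d * (t * s * t) * d⁻¹ := by group
            _ = d * (r⁻¹ * t * r) * d⁻¹ := by rw [he]
            _ = _ := by group
        rw [← e0]
        -- (t k) s (t k) = t (k s k⁻¹) t
        calc t * (k * s * k⁻¹) * t = t * k * s * (k⁻¹ * t) := by group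
          _ = t * k * s * (t * k) := by rw [hkt2]
      have v0 : Cfsg.Agent.Lib.Cl.RankOne.Val t Q s 1 := val_of_pair hS hr he
      have v2 := val_conj hS (K_inv hS hkK) v0
      rw [inv_inv] at v2
      have e2 : k * 1 * k = k ^ 2 := by rw [mul_one, pow_two]
      rw [e2] at v2
      have e3 := val_unique' hS hkK (K_pow hS hkK 2) v1 v2
      have hk1 : k = 1 := by
        rw [pow_two] at e3
        have : k * 1 = k * k := by rw [mul_one]; exact e3
        exact (mul_left_cancel this).symm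
      rw [hk1, mul_one] at hdtd
      apply Subgroup.mem_centralizer_singleton_iff.mpr
      exact mul_inv_eq_iff_eq_mul.mp hdtd
  refine ⟨hpart1, ?_⟩
  obtain ⟨s₀, r₀, hs, hs1, hs2, hr, he⟩ := pair_exists hS
  have hmem : s₀ ∈ Cfsg.involutionsIn (stabilizer G a : Set G) := ⟨hs, hs1, hs2⟩
  have hp := hpart1 s₀ r₀ hmem hr he
  apply le_antisymm
  · rintro d ⟨⟨hd, hdt⟩, hdK⟩
    refine ⟨hd, ?_⟩
    have hds : d ∈ Subgroup.centralizer {s₀} := by
      have : d ∈ (stabilizer G a ⊓ stabilizer G (t • a)) ⊓ Subgroup.centralizer {t} := ⟨hd, hdt⟩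
      rw [hp] at this
      exact this.2
    apply Subgroup.mem_centralizer_iff.mpr
    rintro s ⟨h1, h2, h3⟩
    obtain ⟨k, hk, rfl⟩ := K_transitive hS hs hs1 hs2 h1 h2 h3
    have hc1 : k * d = d * k := Subgroup.mem_centralizer_iff.mp hdK k hk
    have hc2 : s₀ * d = d * s₀ := (Subgroup.mem_centralizer_singleton_iff.mp hds).symm
    have hc3 : k⁻¹ * d = d * k⁻¹ := by
      calc k⁻¹ * d = k⁻¹ * (d * k) * k⁻¹ := by group
        _ = k⁻¹ * (k * d) * k⁻¹ := by rw [hc1]
        _ = d * k⁻¹ := by group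
    calc k⁻¹ * s₀ * k * d = k⁻¹ * s₀ * (k * d) := by group
      _ = k⁻¹ * s₀ * (d * k) := by rw [hc1]
      _ = k⁻¹ * (s₀ * d) * k := by group
      _ = k⁻¹ * (d * s₀) * k := by rw [hc2]
      _ = (k⁻¹ * d) * s₀ * k := by group
      _ = (d * k⁻¹) * s₀ * k := by rw [hc3]
      _ = d * (k⁻¹ * s₀ * k) := by group
  · rintro d ⟨hd, hdI⟩
    have hds : s₀ * d = d * s₀ := Subgroup.mem_centralizer_iff.mp hdI s₀ hmem
    have hdC : d ∈ (stabilizer G a ⊓ stabilizer G (t • a)) ⊓ Subgroup.centralizer {t} := by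
      rw [hp]
      exact ⟨hd, Subgroup.mem_centralizer_singleton_iff.mpr hds.symm⟩
    refine ⟨hdC, ?_⟩
    have hdt : d * t = t * d := Subgroup.mem_centralizer_singleton_iff.mp hdC.2
    apply Subgroup.mem_centralizer_iff.mpr
    intro k hk
    -- d k d⁻¹ ∈ K
    have hdti : d⁻¹ * t = t * d⁻¹ := by
      calc d⁻¹ * t = d⁻¹ * (t * d) * d⁻¹ := by group
        _ = d⁻¹ * (d * t) * d⁻¹ := by rw [hdt]
        _ = t * d⁻¹ := by group
    have hk' : d * k * d⁻¹ ∈ Cfsg.invertedBy (stabilizer G a ⊓ stabilizer G (t • a)) t := by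
      refine ⟨Subgroup.mul_mem _ (Subgroup.mul_mem _ hd hk.1) (Subgroup.inv_mem _ hd), ?_⟩
      have h0 := hk.2
      rw [hti] at h0 ⊢
      calc t * (d * k * d⁻¹) * t = (t * d) * k * (d⁻¹ * t) := by group
        _ = (d * t) * k * (t * d⁻¹) := by rw [← hdt, hdti]
        _ = d * (t * k * t) * d⁻¹ := by group
        _ = d * k⁻¹ * d⁻¹ := by rw [h0]
        _ = _ := by group
    have hs' := conj_inv_mem hS hs hs1 hs2 hk.1
    have hc := Subgroup.mem_centralizer_iff.mp hdI (k⁻¹ * s₀ * k) hs'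
    have e : (d * k * d⁻¹)⁻¹ * s₀ * (d * k * d⁻¹) = k⁻¹ * s₀ * k := by
      calc (d * k * d⁻¹)⁻¹ * s₀ * (d * k * d⁻¹) = d * k⁻¹ * (d⁻¹ * (s₀ * d)) * k * d⁻¹ := by group
        _ = d * k⁻¹ * (d⁻¹ * (d * s₀)) * k * d⁻¹ := by rw [hds]
        _ = d * (k⁻¹ * s₀ * k) * d⁻¹ := by group
        _ = (k⁻¹ * s₀ * k) * d * d⁻¹ := by rw [← hc]
        _ = _ := by group
    have := K_param_inj hS hr he hk' hk e
    exact (mul_inv_eq_iff_eq_mul.mp this).symm


end Cfsg.Agent.S1127
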