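import Cfsg.Statements.S1134
import Mathlib
import Cfsg.Agent.Lib.Cl.RankOne3
import Cfsg.Agent.S1124

set_option autoImplicit false
open Cfsg

namespace Cfsg.Agent.S1134

/-- In the rank-one set-up (`G` finite and doubly transitive on `Ω`, `t` an involution moving `a`, `Q` normal in `G_a` with `G_a = Q D`, `Q ⊓ D = 1` for the two-point stabiliser `D = G_a ⊓ G_{t • a}`, `|Q|` even, `|D|` odd), with the action faithful and `G` containing two distinct commuting involutions, with `V = C_D(t)`: subsets of `V` conjugate in `G` are conjugate in `V`. -/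
theorem result {G Ω : Type*} [Group G] [Finite G] [MulAction G Ω] [FaithfulSMul G Ω] {a : Ω} {t : G} {Q : Subgroup G}
    (hS : Cfsg.IsRankOneSetup G Ω a t Q)
    (h2 : ∃ x y : G, x ≠ 1 ∧ y ≠ 1 ∧ x ≠ y ∧ x * x = 1 ∧ y * y = 1 ∧ x * y = y * x)
    (X : Set G) (hX : X ⊆ (((MulAction.stabilizer G a ⊓ MulAction.stabilizer G (t • a)) ⊓ Subgroup.centralizer {t} : Subgroup G) : Set G)) (g : G)
    (hY : (fun x => g * x * g⁻¹) '' X ⊆ (((MulAction.stabilizer G a ⊓ MulAction.stabilizer G (t • a)) ⊓ Subgroup.centralizer {t} : Subgroup G) : Set G)) :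
    ∃ v ∈ (MulAction.stabilizer G a ⊓ MulAction.stabilizer G (t • a)) ⊓ Subgroup.centralizer {t}, (fun x => v * x * v⁻¹) '' X = (fun x => g * x * g⁻¹) '' X := by
  open Cfsg.Agent.Lib.Cl.RankOne MulAction in
  have htt := hS.mul_self
  have hti := t_inv hS
  have hord : orderOf t = 2 := orderOf_eq_prime (by rw [pow_two]; exact htt) hS.ne_one
  -- the fixed point of t
  obtain ⟨c₀, hc₀, hc₀u⟩ := inv_fix hS hS.ne_one htt
  have hc₀a : c₀ ≠ a := by
    rintro rfl
    exact b_ne hS hc₀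
  have hc₀b : c₀ ≠ t • a := by
    rintro rfl
    rw [t_t_smul hS] at hc₀
    exact b_ne hS hc₀.symm
  set Y : Set G := (fun x => g * x * g⁻¹) '' X with hYdef
  have hYD : Y ⊆ ((stabilizer G a ⊓ stabilizer G (t • a) : Subgroup G) : Set G) := fun y hy => (hY hy).1
  have hYc : ∀ z ∈ Y, z • c₀ = c₀ := by
    intro z hz
    apply hc₀u
    have : z * t = t * z := Subgroup.mem_centralizer_singleton_iff.mp (hY hz).2
    rw [← mul_smul, ← this, mul_smul, hc₀]
  have hXfix : ∀ {p : Ω}, (∀ z ∈ X, z • p = p) → ∀ z ∈ Y, z • (g • p) = g • p := by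
    rintro p hp _ ⟨x, hx, rfl⟩
    simp only [mul_smul, inv_smul_smul]
    rw [hp x hx]
  have hg1 : ∀ z ∈ Y, z • (g • a) = g • a := hXfix (fun z hz => (hX hz).1.1)
  have hg2 : ∀ z ∈ Y, z • (g • t • a) = g • t • a := hXfix (fun z hz => (hX hz).1.2)
  have hne : g • a ≠ g • t • a := fun h => b_ne hS (smul_left_cancel g h).symm
  obtain ⟨h, hh, e1, e2⟩ := C_pair hS hYD hYc hc₀a hc₀b hg1 hg2 hne
  set d := h * g with hd
  have hdD : d ∈ stabilizer G a ⊓ stabilizer G (t • a) := by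
    refine ⟨?_, ?_⟩
    · show d • a = a
      rw [hd, mul_smul, e1]
    · show d • (t • a) = t • a
      rw [hd, mul_smul, e2]
  -- decomposition of d
  obtain ⟨⟨y, z⟩, ⟨hyC, hzK, hdec⟩, -⟩ := (Cfsg.Agent.S1124.result t hord
    (stabilizer G a ⊓ stabilizer G (t • a)) hS.odd_card (fun x hx => by
      rw [hti]
      exact tct_mem hS hx)).1 d hdD
  simp only at hyC hzK hdec
  have hyt : y * t = t * y := Subgroup.mem_centralizer_singleton_iff.mp hyC.2
  refine ⟨y, ⟨hyC.1, hyC.2⟩, ?_⟩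
  -- d conjugates x as g does, and z centralises x
  have hconj : ∀ x ∈ X, y * x * y⁻¹ = g * x * g⁻¹ := by
    intro x hx
    have hgx : g * x * g⁻¹ ∈ Y := ⟨x, hx, rfl⟩
    have e3 : d * x * d⁻¹ = g * x * g⁻¹ := by
      rw [hd]
      have hc := Subgroup.mem_centralizer_iff.mp hh _ hgx
      calc h * g * x * (h * g)⁻¹ = h * (g * x * g⁻¹) * h⁻¹ := by group
        _ = (g * x * g⁻¹) * h * h⁻¹ := by rw [← hc]
        _ = _ := by group
    -- z x z⁻¹ lies in V
    have hzx : z * x * z⁻¹ = y⁻¹ * (g * x * g⁻¹) * y := by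
      rw [← e3, hdec]; group
    have hzxV : (z * x * z⁻¹) * t = t * (z * x * z⁻¹) := by
      rw [hzx]
      have hgxt : (g * x * g⁻¹) * t = t * (g * x * g⁻¹) :=
        Subgroup.mem_centralizer_singleton_iff.mp (hY hgx).2
      have hyit : y⁻¹ * t = t * y⁻¹ := by
        calc y⁻¹ * t = y⁻¹ * (t * y) * y⁻¹ := by group
          _ = y⁻¹ * (y * t) * y⁻¹ := by rw [hyt]
          _ = t * y⁻¹ := by group
      calc y⁻¹ * (g * x * g⁻¹) * y * t = y⁻¹ * (g * x * g⁻¹) * (t * y) := by rw [mul_assoc _ y t, hyt]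
        _ = y⁻¹ * ((g * x * g⁻¹) * t) * y := by group
        _ = y⁻¹ * (t * (g * x * g⁻¹)) * y := by rw [hgxt]
        _ = (y⁻¹ * t) * (g * x * g⁻¹) * y := by group
        _ = (t * y⁻¹) * (g * x * g⁻¹) * y := by rw [hyit]
        _ = _ := by group
    have hxt : x * t = t * x := Subgroup.mem_centralizer_singleton_iff.mp (hX hx).2
    have hzt : t * z * t = z⁻¹ := by
      have := hzK.2
      rwa [hti] at this
    have hzit : t * z⁻¹ * t = z := by
      have := (K_inv hS hzK).2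
      rwa [hti, inv_inv] at this
    have hsq : z⁻¹ * x * z = z * x * z⁻¹ := by
      have e4 : t * (z * x * z⁻¹) * t = z * x * z⁻¹ := by
        rw [← hzxV, mul_assoc, mul_assoc, mul_assoc, htt]
        group
      rw [← e4]
      have e5 : t * (z * x * z⁻¹) * t = (t * z * t) * (t * x * t) * (t * z⁻¹ * t) := by
        calc t * (z * x * z⁻¹) * t = t * z * (t * t) * x * (t * t) * z⁻¹ * t := by rw [htt]; group
          _ = _ := by group
      rw [e5, hzt, hzit]
      have : t * x * t = x := by rw [← hxt, mul_assoc, htt, mul_one]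
      rw [this]
    have hcomm : (z * z) * x = x * (z * z) := by
      calc (z * z) * x = z * (z * x * z⁻¹) * z := by group
        _ = z * (z⁻¹ * x * z) * z := by rw [hsq]
        _ = _ := by group
    have hz2 : z * x = x * z := D_comm_of_sq hS hzK.1 hcomm
    have hzx' : z * x * z⁻¹ = x := by rw [hz2]; group
    rw [hzx'] at hzx
    calc y * x * y⁻¹ = y * (y⁻¹ * (g * x * g⁻¹) * y) * y⁻¹ := by rw [← hzx]
      _ = g * x * g⁻¹ := by group
  ext w
  simp only [Set.mem_image]
  constructor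
  · rintro ⟨x, hx, rfl⟩
    exact ⟨x, hx, (hconj x hx).symm⟩
  · rintro ⟨x, hx, rfl⟩
    exact ⟨x, hx, hconj x hx⟩


end Cfsg.Agent.S1134
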