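import Cfsg.Statements.S1139
import Mathlib
import Cfsg.Agent.Lib.Suz2.TypeA

set_option autoImplicit false
open Cfsg

namespace Cfsg.Agent.S1139

/-- A Suzuki 2-group `P` with `|P| = |Z(P)|²` is of type A: for some finite field `F` with `|F| = |Z(P)|` and some field automorphism `φ ≠ 1` of odd order, `P` is isomorphic to the group of lower unitriangular matrices with rows `(1,0,0)`, `(x,1,0)`, `(y, φ x, 1)`. -/
theorem result {P : Type*} [Group P] (hP : Cfsg.IsSuzukiTwoGroup P)
    (hcard : Nat.card P = Nat.card (Subgroup.center P) ^ 2) :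
    ∃ (F : Type) (_ : Field F) (_ : Fintype F) (φ : F ≃+* F), Fintype.card F = Nat.card (Subgroup.center P) ∧
      φ ≠ RingEquiv.refl F ∧ Odd (orderOf φ) ∧ Nonempty (P ≃* Cfsg.suzukiTypeA F (φ : F →+* F)) := by
  obtain ⟨hfin, htwo, ⟨a, b, hab⟩, hinv, K, hK, hreg⟩ := hP
  have hS : Cfsg.Agent.Suz2.Sz2 K.subtype :=
    { fin := hfin
      two := htwo
      invs := hinv
      reg := hreg
      comm := by
        intro x y
        haveI : IsCyclic K := hK
        exact (IsCyclic.exists_generator (α := K)).elim fun g hg => by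
          obtain ⟨i, hi⟩ := Subgroup.mem_zpowers_iff.mp (hg x)
          obtain ⟨j, hj⟩ := Subgroup.mem_zpowers_iff.mp (hg y)
          rw [← hi, ← hj]
          exact (Commute.zpow_zpow_self g i j) }
  have hcent : ∀ z ∈ Subgroup.center P, z * z = 1 := by
    intro z hz
    by_contra hne
    exact hab (Cfsg.Agent.Suz2.abelian_of_central (Nat.card P) P K.subtype hS rfl ⟨z, hz, hne⟩ a b)
  have hce : Subgroup.center P = Cfsg.Agent.Suz2.Om hS := by
    apply le_antisymm
    · intro z hz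
      exact hcent z hz
    · exact Cfsg.Agent.Suz2.Om_le_center hS
  rw [hce] at hcard ⊢
  haveI : Fact (Nat.Prime 2) := ⟨Nat.prime_two⟩
  haveI := hS.fin
  obtain ⟨n, hn⟩ := IsPGroup.iff_card.mp (hS.two.to_subgroup (Cfsg.Agent.Suz2.Om hS))
  have hn0 : n ≠ 0 := by
    rintro rfl
    obtain ⟨x, y, hxy, hx1, hx2, hy1, hy2⟩ := hS.invs
    have hgt : 1 < Nat.card (Cfsg.Agent.Suz2.Om hS) :=
      (Finite.one_lt_card_iff_nontrivial).mpr ⟨⟨⟨x, hx2⟩, 1, fun he => hx1 (congrArg Subtype.val he)⟩⟩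
    rw [hn, pow_zero] at hgt
    omega
  letI : Fintype (GaloisField 2 n) := Fintype.ofFinite _
  have hF : Fintype.card (GaloisField 2 n) = Nat.card (Cfsg.Agent.Suz2.Om hS) := by
    rw [hn, ← Nat.card_eq_fintype_card, GaloisField.card 2 n hn0]
  obtain ⟨ψ, h1, h2, h3⟩ := Cfsg.Agent.Suz2.typeA_of_elem hS ⟨a, b, hab⟩ hcard (GaloisField 2 n) hF
  exact ⟨GaloisField 2 n, inferInstance, inferInstance, ψ, hF, h1, h2, h3⟩

end Cfsg.Agent.S1139
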