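import Cfsg.Statements.S1141
import Mathlib
import Cfsg.Agent.Lib.PSU2.Syl

set_option autoImplicit false
open Cfsg

namespace Cfsg.Agent.S1141

/-- Let `q = 2^n ≥ 4` and `|F| = q²`. A Sylow 2-subgroup `S` of `PSU₃(q)` has order `q³`, its centre has order `q`, and `S` is a Suzuki 2-group. -/
theorem result {F : Type*} [Field F] [Fintype F] {n : ℕ} (hn : 2 ≤ n)
    (hF : Fintype.card F = (2 ^ n) ^ 2) (S : Sylow 2 (Cfsg.PSU 3 F (2 ^ n))) :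
    Nat.card S = (2 ^ n) ^ 3 ∧ Nat.card (Subgroup.center ↥(S : Subgroup (Cfsg.PSU 3 F (2 ^ n)))) = 2 ^ n ∧
      Cfsg.IsSuzukiTwoGroup ↥(S : Subgroup (Cfsg.PSU 3 F (2 ^ n))) := by
  obtain ⟨e⟩ := Cfsg.Agent.PSU2.sylow_equiv (by omega) hF S
  have h2 := Cfsg.Agent.PSU2.two_eq_zero_of_card (by omega) hF
  have hq : 4 ≤ 2 ^ n := by
    calc 4 = 2 ^ 2 := by norm_num
      _ ≤ 2 ^ n := Nat.pow_le_pow_right (by norm_num) hn
  refine ⟨?_, ?_, ?_⟩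
  · have h1 : Nat.card S = Nat.card (S : Subgroup (Cfsg.PSU 3 F (2 ^ n))) := rfl
    rw [h1, Nat.card_congr e.toEquiv, Cfsg.Agent.PSU2.card_UU h2]
  · rw [Nat.card_congr (Subgroup.centerCongr e).toEquiv, Cfsg.Agent.PSU2.card_center h2]
  · exact Cfsg.Agent.PSU2.suz_of_equiv e (Cfsg.Agent.PSU2.isSuz h2 hq)

end Cfsg.Agent.S1141
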