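import Cfsg.Statements.S1142
import Mathlib
import Cfsg.Agent.Lib.FH.BNOp

set_option autoImplicit false
open Cfsg

namespace Cfsg.Agent.S1142

open Cfsg.Agent.Lib.FH Cfsg.Agent.Lib.BN Cfsg.Agent.Lib.BNSt in
theorem dg_inv_aux {G : Type*} [Group G] [Fintype G] (P : Cfsg.BNPair G) (w : WG P) : qS P w⁻¹ = qS P w := by
  classical
  unfold qS dg
  congr 2
  apply Finset.card_bij (fun u _ => u⁻¹)
  · intro u hu
    simp only [Finset.mem_filter, Finset.mem_univ, true_and] at hu ⊢
    rw [lbl_inv, hu, inv_inv]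
  · intro a _ b _ h
    exact inv_injective h
  · intro b hb
    refine ⟨b⁻¹, ?_, inv_inv b⟩
    simp only [Finset.mem_filter, Finset.mem_univ, true_and] at hb ⊢
    rw [lbl_inv, hb]

/-- Feit–Higman: if a finite group has a (B,N)-pair of rank 2, its Weyl group `N/(B ⊓ N)` has order 4, 6, 8, 12 or 16. -/
theorem result {G : Type*} [Group G] [Finite G] (P : Cfsg.BNPair G)
    (h2 : P.rank = 2) :
    ((P.B ⊓ P.N).subgroupOf P.N).index ∈ ({4, 6, 8, 12, 16} : Set ℕ) := by
  classical
  haveI := Fintype.ofFinite G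
  open Cfsg.Agent.Lib.FH Cfsg.Agent.Lib.BN Cfsg.Agent.Lib.BNSt in
  have hrank : (P.S).ncard = 2 := by
    rw [← Nat.card_coe_set_eq]
    exact h2
  obtain ⟨s₁, s₂, hne, hSS⟩ := Set.ncard_eq_two.1 hrank
  have hs₁ : s₁ ∈ P.S := by rw [hSS]; simp
  have hs₂ : s₂ ∈ P.S := by rw [hSS]; simp
  set X := coxLen P with hX
  set x := ws P s₁ with hx
  set y := ws P s₂ with hy
  have hS : X.S = {x, y} := by
    rw [hX, coxLen_S, hSS, Set.image_pair]
  have hxy : x ≠ y := by
    intro h
    have h1 := (ws_eq_iff (S_mem_N hs₁) (S_mem_N hs₂)).1 h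
    exact hne (P.inj s₁ hs₁ s₂ hs₂ (T_le_B h1))
  haveI : Finite (WG P) := inferInstance
  set n := orderOf (x * y) with hn
  have hcard : ((P.B ⊓ P.N).subgroupOf P.N).index = 2 * n := card_W hS hxy
  have hxx := X.sq x (hxS hS)
  have hyy := X.sq y (hyS hS)
  have h2n : 2 ≤ n := by
    have h0 : 0 < n := orderOf_pos _
    have h1 : n ≠ 1 := by
      intro h
      have := orderOf_eq_one_iff.1 h
      apply hxy
      have e : x = y⁻¹ := eq_inv_of_mul_eq_one_left this
      rw [e, inv_eq_of_mul_eq_one_left hyy]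
    omega
  have hlen1 : ∀ k, k ≤ n → wlen P (altW x y k).1 = k := fun k hk => len_fst hS hxy hk
  have hlen2 : ∀ k, k ≤ n → wlen P (altW x y k).2 = k := fun k hk => len_snd hS hxy hk
  set E := Tw P (1 : WG P) with hE
  set T₁ := Tw P x with hT₁
  set T₂ := Tw P y with hT₂
  have hHK : HK E T₁ T₂ (qS P x) (qS P y) :=
    ⟨Tw_one_mul 1, Tw_one_mul x, Tw_mul_one x, Tw_one_mul y, Tw_mul_one y, Tw_sq hs₁, Tw_sq hs₂⟩
  have halt : ∀ k, k ≤ n → alt E T₁ T₂ k = (Tw P (altW x y k).1, Tw P (altW x y k).2) := by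
    intro k
    induction k with
    | zero => intro _; rfl
    | succ k ih =>
      intro hk
      have h1 := ih (by omega)
      have e1 : alt E T₁ T₂ (k + 1) = (T₁ * (alt E T₁ T₂ k).2, T₂ * (alt E T₁ T₂ k).1) := rfl
      rw [e1, h1]
      have e2 : wlen P (x * (altW x y k).2) = wlen P (altW x y k).2 + 1 := by
        have e3 := hlen1 (k + 1) hk
        have e4 := hlen2 k (by omega)
        have e5 : (altW x y (k + 1)).1 = x * (altW x y k).2 := rfl
        rw [e5] at e3
        rw [e3, e4]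
      have e3 : wlen P (y * (altW x y k).1) = wlen P (altW x y k).1 + 1 := by
        have e3 := hlen2 (k + 1) hk
        have e4 := hlen1 k (by omega)
        have e5 : (altW x y (k + 1)).2 = y * (altW x y k).1 := rfl
        rw [e5] at e3
        rw [e3, e4]
      show (Tw P x * Tw P (altW x y k).2, Tw P y * Tw P (altW x y k).1) = (Tw P (x * (altW x y k).2), Tw P (y * (altW x y k).1))
      rw [Tw_up hs₁ e2, Tw_up hs₂ e3]
  have hbr : (alt E T₁ T₂ n).1 = (alt E T₁ T₂ n).2 := by
    rw [halt n le_rfl]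
    show Tw P (altW x y n).1 = Tw P (altW x y n).2
    rw [altW_top hxx hyy]
  have hta : ∀ m, 1 ≤ m → m ≤ n → (alt E T₁ T₂ m).1.trace = 0 := by
    intro m h1 h2
    rw [halt m h2]
    apply trace_Tw
    intro h0
    have := hlen1 m h2
    rw [h0] at this
    have h3 : wlen P (1 : WG P) = 0 := X.len_one
    omega
  have htb : ∀ m, 1 ≤ m → m ≤ n → (alt E T₁ T₂ m).2.trace = 0 := by
    intro m h1 h2
    rw [halt m h2]
    apply trace_Tw
    intro h0
    have := hlen2 m h2
    rw [h0] at this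
    have h3 : wlen P (1 : WG P) = 0 := X.len_one
    omega
  have hodd : Odd n → qS P x = qS P y := by
    rintro ⟨m, hm⟩
    have e1 := halt (2 * m) (by omega)
    have e2 : Tw P x * Tw P (altW x y (2 * m)).2 = Tw P y * Tw P (altW x y (2 * m)).1 := by
      have h1 := hbr
      rw [hm] at h1
      have e3 : alt E T₁ T₂ (2 * m + 1) = (T₁ * (alt E T₁ T₂ (2 * m)).2, T₂ * (alt E T₁ T₂ (2 * m)).1) := rfl
      rw [e3, e1] at h1
      exact h1
    have e3 := congrArg (fun M => M.mulVec (fun _ => (1 : ℝ))) e2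
    simp only [← Matrix.mulVec_mulVec, Tw_mulVec] at e3
    have hv : ∀ (w v : WG P), (Tw P w).mulVec (fun _ => qS P v) = fun _ => qS P v * qS P w := by
      intro w v
      have : (fun _ : G => qS P v) = (qS P v) • (fun _ : G => (1 : ℝ)) := by
        ext; simp
      rw [this, Matrix.mulVec_smul, Tw_mulVec]
      ext; simp
    rw [hv, hv] at e3
    have e4 := congrFun e3 1
    have e5 : (altW x y (2 * m)).2 = ((altW x y (2 * m)).1)⁻¹ := by
      rw [(altW_even hxx hyy m).1, (altW_even hxx hyy m).2, inv_pow]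
    rw [e5, dg_inv_aux] at e4
    exact mul_left_cancel₀ (qS_pos _).ne' e4
  have hNK : E.trace ∈ KK := by
    rw [hE, trace_Tw_one]
    unfold cB
    exact mul_mem (nat_mem _) (inv_mem (nat_mem _))
  have hN : E.trace ≠ 0 := by
    rw [hE, trace_Tw_one]
    unfold cB
    have h1 : (Fintype.card G : ℝ) ≠ 0 := by
      exact_mod_cast Fintype.card_ne_zero
    have h2 := card_B_ne (P := P)
    exact mul_ne_zero h1 (inv_ne_zero h2)
  have ht1 : T₁.trace = 0 := trace_Tw (ws_ne_one hs₁)
  have hmain := fh_main hHK (qS_gt_one hs₁) (qS_gt_one hs₂) (qS_mem _) (qS_mem _) hNK hN ht1 n h2n hodd hbr hta htb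
  rw [hcard]
  simp only [Set.mem_insert_iff, Set.mem_singleton_iff] at hmain ⊢
  omega

end Cfsg.Agent.S1142
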