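import Cfsg.Statements.S1166
import Mathlib
import Cfsg.Agent.Lib.Cl.RankOne

set_option autoImplicit false
open Cfsg

namespace Cfsg.Agent.S1166

/-- In the rank-one set-up (`G` finite and doubly transitive on `Ω`, `t` an involution moving `a`, `Q` normal in `G_a` with `G_a = Q D`, `Q ⊓ D = 1` for the two-point stabiliser `D = G_a ⊓ G_{t • a}`, `|Q|` even, `|D|` odd), with `t x t = g_x h_x t f_x` and `t y t = g_y h_y t f_y` (`g, f ∈ Q`, `h ∈ D`) for `x, y ∈ Q ∖ 1` with `x y ≠ 1`: then `z = f_x g_y ≠ 1`, and if `t z t = g_z h_z t f_z` and `t (x y) t = g' h' t f'` then `f' = (t h_y t)⁻¹ f_z (t h_y t) f_y` and `h' = h_x h_z h_y` (H6). -/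
theorem result {G Ω : Type*} [Group G] [Finite G] [MulAction G Ω] {a : Ω} {t : G} {Q : Subgroup G}
    (hS : Cfsg.IsRankOneSetup G Ω a t Q)
    (x y gx hx fx gy hy fy : G) (hxQ : x ∈ Q) (hx1 : x ≠ 1) (hyQ : y ∈ Q) (hy1 : y ≠ 1) (hxy : x * y ≠ 1)
    (hgx : gx ∈ Q) (hhx : hx ∈ (MulAction.stabilizer G a ⊓ MulAction.stabilizer G (t • a))) (hfx : fx ∈ Q) (ex : t * x * t = gx * hx * t * fx)
    (hgy : gy ∈ Q) (hhy : hy ∈ (MulAction.stabilizer G a ⊓ MulAction.stabilizer G (t • a))) (hfy : fy ∈ Q) (ey : t * y * t = gy * hy * t * fy) :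
    fx * gy ≠ 1 ∧
      ∀ gz hz fz g' h' f' : G, gz ∈ Q → hz ∈ (MulAction.stabilizer G a ⊓ MulAction.stabilizer G (t • a)) → fz ∈ Q → t * (fx * gy) * t = gz * hz * t * fz →
        g' ∈ Q → h' ∈ (MulAction.stabilizer G a ⊓ MulAction.stabilizer G (t • a)) → f' ∈ Q → t * (x * y) * t = g' * h' * t * f' →
          f' = (t * hy * t)⁻¹ * fz * (t * hy * t) * fy ∧ h' = hx * hz * hy := by
  open Cfsg.Agent.Lib.Cl.RankOne MulAction in
  have htt := hS.mul_self
  have hti := t_inv hS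
  have htt' : ∀ z : G, t * (t * z) = z := fun z => by rw [← mul_assoc, htt, one_mul]
  have hxyQ : x * y ∈ Q := Q.mul_mem hxQ hyQ
  have hprod : t * (x * y) * t = (gx * hx * t * fx) * (gy * hy * t * fy) := by
    rw [← ex, ← ey]
    simp only [mul_assoc, htt, htt', mul_one]
  refine ⟨?_, ?_⟩
  · intro hz
    apply tQt_not_stab hS hxyQ hxy
    rw [hprod]
    have e : gx * hx * t * fx * (gy * hy * t * fy) = gx * hx * (t * (fx * gy) * hy * t) * fy := by group
    rw [e, hz, mul_one]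
    have hc : t * hy * t ∈ stabilizer G a ⊓ stabilizer G (t • a) := tct_mem hS hhy
    exact Subgroup.mul_mem _ (Subgroup.mul_mem _ (Subgroup.mul_mem _ (hS.le hgx) hhx.1) hc.1) (hS.le hfy)
  · intro gz hz fz g' h' f' hgz hhz hfz ez hg' hh' hf' e'
    have hc : t * hy * t ∈ stabilizer G a ⊓ stabilizer G (t • a) := tct_mem hS hhy
    have hci : (t * hy * t)⁻¹ = t * hy⁻¹ * t := by
      rw [mul_inv_rev, mul_inv_rev, hti]; group
    have e3 : t * (x * y) * t = (gx * (hx * gz * hx⁻¹)) * (hx * hz * hy) * t *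
        ((t * hy * t)⁻¹ * fz * (t * hy * t) * fy) := by
      have e4 : t * (fx * gy) = gz * hz * t * fz * t := by
        rw [← ez]
        simp only [mul_assoc, htt, mul_one]
      calc t * (x * y) * t = gx * hx * (t * (fx * gy)) * hy * t * fy := by
            rw [hprod]; group
        _ = gx * hx * (gz * hz * t * fz * t) * hy * t * fy := by rw [e4]
        _ = _ := by
            rw [hci]
            simp only [mul_assoc, htt, htt', mul_one, one_mul, mul_inv_cancel_left, inv_mul_cancel_left]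
    have hq1 : gx * (hx * gz * hx⁻¹) ∈ Q := Q.mul_mem hgx (hS.conj_mem hx hhx.1 gz hgz)
    have hq2 : (t * hy * t)⁻¹ * fz * (t * hy * t) * fy ∈ Q :=
      Q.mul_mem (conj_Q hS hc.1 hfz) hfy
    have hd : hx * hz * hy ∈ stabilizer G a ⊓ stabilizer G (t • a) :=
      Subgroup.mul_mem _ (Subgroup.mul_mem _ hhx hhz) hhy
    obtain ⟨_, h2, h3⟩ := canon_key hS hq1 hd hq2 hg' hh' hf' (e3.symm.trans e')
    exact ⟨h3.symm, h2.symm⟩


end Cfsg.Agent.S1166
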