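import Cfsg.Statements.S1167
import Mathlib
import Cfsg.Agent.Lib.Perm.ZassAb10

set_option autoImplicit false
open Cfsg

namespace Cfsg.Agent.S1167

/-- Let `G` be a finite simple Zassenhaus group on `Ω`, `U` a normal subgroup of `G_a` regular on `Ω` minus `a` which is an abelian 2-group, and `v` an involution with `v • a ≠ a`. Then there is a unique `u₀ ∈ U`, `u₀ ≠ 1`, with `v u₀ v = u₀ v u₀`. -/
theorem result {G Ω : Type*} [Group G] [Finite G] [MulAction G Ω] [Finite Ω]
    (hZ : Cfsg.IsZassenhausGroup G Ω) [IsSimpleGroup G] {a : Ω}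
    (U : Subgroup G) (hUle : U ≤ MulAction.stabilizer G a)
    (hUn : ∀ h ∈ MulAction.stabilizer G a, ∀ u ∈ U, h * u * h⁻¹ ∈ U)
    (hreg : ∀ c d : Ω, c ≠ a → d ≠ a → ∃! u : U, (u : G) • c = d)
    (hU2 : IsPGroup 2 U) (hUab : ∀ u ∈ U, ∀ u' ∈ U, u * u' = u' * u)
    (v : G) (hv1 : v ≠ 1) (hv2 : v * v = 1) (hva : v • a ≠ a) :
    ∃! u₀ : G, u₀ ∈ U ∧ u₀ ≠ 1 ∧ v * u₀ * v = u₀ * v * u₀ := by
  classical
  haveI := Fintype.ofFinite G
  haveI := Fintype.ofFinite Ω
  haveI := Fintype.ofFinite U
  set b : Ω := v • a with hb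
  have hab : a ≠ b := fun h => hva h.symm
  have hvb : v • b = a := by rw [hb, smul_smul, hv2, one_smul]
  have hUa : ∀ u ∈ U, u • a = a := fun u hu => hUle hu
  have S : Lib.Perm.ZA.Setup G Ω a b U := by
    refine ⟨hZ, hab, hUle, ?_, ?_, ?_⟩
    · have hne : ∀ u : U, (u : G) • b ≠ a := by
        intro u h0
        apply hab
        have h1 : (u : G) • a = a := hUa u u.2
        exact (smul_left_cancel (u : G) (h0.trans h1.symm)).symm
      let f : U → {y : Ω // y ≠ a} := fun u => ⟨(u : G) • b, hne u⟩
      have hf : Function.Bijective f := by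
        constructor
        · intro u w huv
          have h1 : (u : G) • b = (w : G) • b := congrArg Subtype.val huv
          obtain ⟨w', -, hw⟩ := hreg b ((w : G) • b) hab.symm (hne w)
          rw [hw u h1, hw w rfl]
        · rintro ⟨z, hz⟩
          obtain ⟨u, hu, -⟩ := hreg b z hab.symm hz
          exact ⟨u, Subtype.ext hu⟩
      have h1 := Nat.card_congr (Equiv.ofBijective f hf)
      have h2 : Fintype.card {y : Ω // y ≠ a} + 1 = Fintype.card Ω := by
        have := Fintype.card_congr (Equiv.optionSubtypeNe a)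
        rwa [Fintype.card_option] at this
      rw [h1, Nat.card_eq_fintype_card, h2]
    · intro u hu hu1 c hc
      by_contra hcx
      obtain ⟨w, -, hw⟩ := hreg c c hcx hcx
      have h1 : (⟨u, hu⟩ : U) = w := hw _ hc
      have h2 : (1 : U) = w := hw _ (by simp)
      exact hu1 (congrArg Subtype.val (h1.trans h2.symm))
    · exact hUab
  have hcU := S.card_ge_two
  have hUc := S.hFcard
  -- `U` has even order
  have hUeven : 2 ∣ Nat.card U := by
    obtain ⟨n, hn⟩ := IsPGroup.iff_card.mp hU2
    rw [hn]
    apply dvd_pow_self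
    rintro rfl
    rw [pow_zero] at hn
    omega
  have hnum : Nat.card U - 1 = Nat.card ↥(MulAction.stabilizer G a ⊓ MulAction.stabilizer G b : Subgroup G) := by
    rcases S.numeric with h | h
    · exact h
    · exfalso
      obtain ⟨k, hk⟩ := hUeven
      omega
  -- all elements of `U` are involutions
  haveI : Fact (Nat.Prime 2) := ⟨Nat.prime_two⟩
  obtain ⟨t, ht⟩ := exists_prime_orderOf_dvd_card' (G := U) 2 hUeven
  have ht1 : t ≠ 1 := by
    intro h
    rw [h, orderOf_one] at ht
    omega
  have htt : (t : G) * t = 1 := by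
    have h1 : t ^ 2 = 1 := by rw [← ht]; exact pow_orderOf_eq_one t
    have h2 : t * t = 1 := by rw [← pow_two]; exact h1
    exact congrArg Subtype.val h2
  have hinv : ∀ x ∈ U, x * x = 1 := by
    intro x hx
    by_cases hx1 : x = 1
    · rw [hx1, one_mul]
    let f : ↥(MulAction.stabilizer G a ⊓ MulAction.stabilizer G b : Subgroup G) → {y : U // y ≠ 1} := fun h =>
      ⟨⟨(h : G) * t * (h : G)⁻¹, hUn h (Subgroup.mem_inf.mp h.2).1 t t.2⟩, by
        intro h0
        have h1 : (h : G) * t * (h : G)⁻¹ = 1 := congrArg Subtype.val h0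
        have h2 : (t : G) = 1 := by
          have := congrArg (fun z => (h : G)⁻¹ * z * h) h1
          simpa [mul_assoc] using this
        exact ht1 (Subtype.ext h2)⟩
    have hfi : Function.Injective f := by
      intro h h' hh
      have h1 : (h : G) * t * (h : G)⁻¹ = (h' : G) * t * (h' : G)⁻¹ :=
        congrArg (fun z : {y : U // y ≠ 1} => ((z : U) : G)) hh
      set g : G := (h' : G)⁻¹ * h with hg
      have hcomm : g * t = t * g := by
        have h2 : (h' : G)⁻¹ * ((h : G) * t * (h : G)⁻¹) * h = (h' : G)⁻¹ * ((h' : G) * t * (h' : G)⁻¹) * h := by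
          rw [h1]
        simpa [hg, mul_assoc] using h2
      have hha := (Subgroup.mem_inf.mp h.2).1
      have hhb := (Subgroup.mem_inf.mp h.2).2
      have hha' := (Subgroup.mem_inf.mp h'.2).1
      have hhb' := (Subgroup.mem_inf.mp h'.2).2
      have hga : g • a = a := by
        have : g ∈ MulAction.stabilizer G a := Subgroup.mul_mem _ (Subgroup.inv_mem _ hha') hha
        exact this
      have hgb : g • b = b := by
        have : g ∈ MulAction.stabilizer G b := Subgroup.mul_mem _ (Subgroup.inv_mem _ hhb') hhb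
        exact this
      have hgtb : g • ((t : G) • b) = (t : G) • b := by
        rw [smul_smul, hcomm, ← smul_smul, hgb]
      have h3 : (t : G) • b ≠ a := by
        intro h0
        apply hab
        have h1 : (t : G) • a = a := hUa t t.2
        exact (smul_left_cancel (t : G) (h0.trans h1.symm)).symm
      have h4 : b ≠ (t : G) • b := by
        intro h0
        obtain ⟨w, -, hw⟩ := hreg b b hab.symm hab.symm
        have e1 : t = w := hw t h0.symm
        have e2 : (1 : U) = w := hw 1 (by simp)
        exact ht1 (e1.trans e2.symm)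
      have hg1 : g = 1 := hZ.2.2.1 g a b ((t : G) • b) hab h4 (Ne.symm h3) hga hgb hgtb
      apply Subtype.ext
      have : (h' : G)⁻¹ * h = 1 := hg1
      exact (inv_mul_eq_one.mp this).symm
    have hcard : Nat.card {y : U // y ≠ 1} ≤ Nat.card ↥(MulAction.stabilizer G a ⊓ MulAction.stabilizer G b : Subgroup G) := by
      have h2 : Fintype.card {y : U // y ≠ 1} + 1 = Fintype.card U := by
        have := Fintype.card_congr (Equiv.optionSubtypeNe (1 : U))
        rwa [Fintype.card_option] at this
      rw [← hnum, Nat.card_eq_fintype_card (α := {y : U // y ≠ 1}), Nat.card_eq_fintype_card (α := U)]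
      omega
    have hfb := hfi.bijective_of_nat_card_le hcard
    obtain ⟨h, hh⟩ := hfb.2 ⟨⟨x, hx⟩, fun h0 => hx1 (congrArg Subtype.val h0)⟩
    have h1 : (h : G) * t * (h : G)⁻¹ = x :=
      congrArg (fun z : {y : U // y ≠ 1} => ((z : U) : G)) hh
    rw [← h1]
    calc (h : G) * t * (h : G)⁻¹ * ((h : G) * t * (h : G)⁻¹) = (h : G) * ((t : G) * t) * (h : G)⁻¹ := by group
      _ = 1 := by rw [htt]; simp
  -- parity of the fixed points of `v`
  have hvp : (MulAction.toPerm v : Equiv.Perm Ω) ^ 2 = 1 := by
    ext p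
    simp [pow_two, smul_smul, hv2]
  have h2s := Equiv.Perm.two_dvd_card_support hvp
  have hodd : ¬ 2 ∣ Fintype.card Ω := by
    obtain ⟨k, hk⟩ := hUeven
    omega
  obtain ⟨c, hc⟩ : ∃ c : Ω, v • c = c := by
    by_contra hcon
    push_neg at hcon
    have : (MulAction.toPerm v : Equiv.Perm Ω).support = Finset.univ := by
      ext p
      simp [Equiv.Perm.mem_support, hcon p]
    rw [this, Finset.card_univ] at h2s
    exact hodd h2s
  have huniq : ∀ c' : Ω, v • c' = c' → c' = c := by
    intro c' hc'
    by_contra hne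
    have hs : (MulAction.toPerm v : Equiv.Perm Ω).support = Finset.univ \ {c, c'} := by
      ext p
      simp only [Equiv.Perm.mem_support, MulAction.toPerm_apply, Finset.mem_sdiff, Finset.mem_univ, true_and,
        Finset.mem_insert, Finset.mem_singleton, not_or]
      constructor
      · intro hp
        exact ⟨fun h0 => hp (h0 ▸ hc), fun h0 => hp (h0 ▸ hc')⟩
      · rintro ⟨hp1, hp2⟩ hp
        exact hv1 (hZ.2.2.1 v c c' p (Ne.symm hne) (Ne.symm hp2) (Ne.symm hp1) hc hc' hp)
    rw [hs, Finset.card_sdiff_of_subset (Finset.subset_univ _), Finset.card_univ, Finset.card_pair (Ne.symm hne)] at h2s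
    have h5 : 2 ≤ Fintype.card Ω := by omega
    omega
  have hca : c ≠ a := by
    intro h0
    rw [h0] at hc
    exact hva hc
  have hcb : c ≠ b := by
    intro h0
    rw [h0, hvb] at hc
    exact hab hc
  obtain ⟨x, hxb, hxu⟩ := hreg b c hab.symm hca
  have hxx : (x : G) * x = 1 := hinv x x.2
  have hxc : (x : G) • c = b := by
    rw [← hxb, smul_smul, hxx, one_smul]
  have hxa : (x : G) • a = a := hUa x x.2
  have hx1 : (x : G) ≠ 1 := by
    intro h0
    rw [h0, one_smul] at hxb
    exact hcb hxb.symm
  refine ⟨(x : G), ⟨x.2, hx1, ?_⟩, ?_⟩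
  · -- both sides agree on `a, b, c`
    have hgen : ∀ p : Ω, p = a ∨ p = b ∨ p = c → ((x : G) * v * (x : G))⁻¹ • ((v * (x : G) * v) • p) = p := by
      intro p hp
      rw [inv_smul_eq_iff]
      rcases hp with rfl | rfl | rfl
      · simp only [mul_smul]
        rw [hxa, ← hb, hxb, hc]
      · simp only [mul_smul]
        rw [hvb, hxa, ← hb, hxb, hc, hxc]
      · simp only [mul_smul]
        rw [hc, hxc, hvb, hxa]
    have h1 : ((x : G) * v * (x : G))⁻¹ * (v * (x : G) * v) = 1 := by
      apply hZ.2.2.1 _ a b c hab (Ne.symm hcb) (Ne.symm hca)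
      · rw [mul_smul]; exact hgen a (Or.inl rfl)
      · rw [mul_smul]; exact hgen b (Or.inr (Or.inl rfl))
      · rw [mul_smul]; exact hgen c (Or.inr (Or.inr rfl))
    exact (inv_mul_eq_one.mp h1).symm
  · rintro y ⟨hy, hy1, hrel⟩
    have hyy := hinv y hy
    have hya : y • a = a := hUa y hy
    have h1 : y • (v • (y • b)) = b := by
      have h2 : (v * y * v) • b = b := by
        simp only [mul_smul]
        rw [hvb, hya]
      rw [hrel] at h2
      simpa only [mul_smul] using h2
    have h3 : v • (y • b) = y • b := by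
      have h5 : y • (y • (v • (y • b))) = y • b := by rw [h1]
      rwa [smul_smul, hyy, one_smul] at h5
    have h4 : y • b = c := huniq _ h3
    have e1 : (⟨y, hy⟩ : U) = x := hxu _ h4
    exact congrArg Subtype.val e1

end Cfsg.Agent.S1167
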