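import Cfsg.Statements.S1168
import Mathlib
import Cfsg.Agent.Lib.Cl.FieldAut

set_option autoImplicit false
open Cfsg

namespace Cfsg.Agent.S1168

/-- For a finite field `F` of characteristic 2: if `q : F → F` is quadratic over the prime field, i.e. `(x, y) ↦ q (x + y) + q x + q y` is additive in each variable, then `q x = Σ c_{σ,τ} σ(x) τ(x)` for some coefficients indexed by pairs of field automorphisms. -/
theorem result {F : Type*} [Field F] [Fintype F] [CharP F 2]
    (q : F → F)
    (hq : ∀ x y z : F, q (x + y + z) + q (x + y) + q (x + z) + q (y + z) + q x + q y + q z = 0) :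
    ∃ (s : Finset ((F ≃+* F) × (F ≃+* F))) (c : (F ≃+* F) × (F ≃+* F) → F),
      ∀ x : F, q x = ∑ p ∈ s, c p * (p.1 x * p.2 x) := by
  classical
  haveI : Finite (F ≃+* F) := Finite.of_injective (fun σ : F ≃+* F => (σ : F → F)) DFunLike.coe_injective
  letI : Fintype (F ≃+* F) := Fintype.ofFinite _
  obtain ⟨cc, hcc⟩ := Cfsg.Agent.Lib.Cl.exists_aut_coord (F := F)
  have h2 : ∀ a : F, a + a = 0 := fun a => CharTwo.add_self_eq_zero a
  have heq : ∀ a b : F, a + b = 0 → a = b := fun a b h => by
    have : a = a + (b + b) := by rw [h2]; simp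
    rw [this, ← add_assoc, h, zero_add]
  -- q 0 = 0
  have hq0 : q 0 = 0 := by
    have := hq 0 0 0
    simp only [add_zero] at this
    have e : q 0 + q 0 + q 0 + q 0 + q 0 + q 0 + q 0 = q 0 := by
      rw [h2, zero_add, h2, zero_add, h2, zero_add]
    rwa [e] at this
  -- polarisation
  let β : F →+ F →+ F := AddMonoidHom.mk' (fun x => AddMonoidHom.mk' (fun y => q (x + y) + q x + q y)
      (fun y z => by
        have := hq x y z
        apply heq
        have e : q (x + (y + z)) + q x + q (y + z) + (q (x + y) + q x + q y + (q (x + z) + q x + q z)) =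
            (q (x + y + z) + q (x + y) + q (x + z) + q (y + z) + q x + q y + q z) + (q x + q x) := by
          rw [add_assoc x y z]; ring
        rw [e, this, h2, zero_add]))
      (fun x y => by
        ext z
        have := hq x y z
        simp only [AddMonoidHom.mk'_apply, AddMonoidHom.add_apply]
        apply heq
        have e : q (x + y + z) + q (x + y) + q z + (q (x + z) + q x + q z + (q (y + z) + q y + q z)) =
            (q (x + y + z) + q (x + y) + q (x + z) + q (y + z) + q x + q y + q z) + (q z + q z) := by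
          ring
        rw [e, this, h2, zero_add])
  have hβ : ∀ x y, β x y = q (x + y) + q x + q y := fun x y => rfl
  -- coordinates
  let c : (F ≃+* F) → (F ≃+* F) → F := fun σ τ => cc σ ((cc τ).comp β)
  have hc : ∀ x y, β x y = ∑ σ, ∑ τ, c σ τ * (σ x * τ y) := by
    intro x y
    rw [hcc (β x) y, Finset.sum_comm]
    refine Finset.sum_congr rfl fun τ _ => ?_
    have h := hcc ((cc τ).comp β) x
    simp only [AddMonoidHom.comp_apply] at h
    rw [h, Finset.sum_mul]
    refine Finset.sum_congr rfl fun σ _ => ?_
    simp only [c]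
    ring
  -- independence of the product maps
  have hli : LinearIndependent F
      (fun p : (F ≃+* F) × (F ≃+* F) => (fun z : F × F => p.1 z.1 * p.2 z.2)) := by
    have h := linearIndependent_monoidHom (F × F) F
    let ι : (F ≃+* F) × (F ≃+* F) → (F × F →* F) := fun p =>
      { toFun := fun z => p.1 z.1 * p.2 z.2
        map_one' := by simp
        map_mul' := fun a b => by simp; ring }
    have hinj : Function.Injective ι := by
      rintro ⟨σ, τ⟩ ⟨σ', τ'⟩ h
      have h1 : ∀ x, σ x = σ' x := fun x => by
        have := DFunLike.congr_fun h (x, 1)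
        simpa [ι] using this
      have h2 : ∀ x, τ x = τ' x := fun x => by
        have := DFunLike.congr_fun h (1, x)
        simpa [ι] using this
      have e1 : σ = σ' := RingEquiv.ext h1
      have e2 : τ = τ' := RingEquiv.ext h2
      rw [e1, e2]
    exact h.comp ι hinj
  -- symmetry
  have hsymm : ∀ σ τ, c σ τ = c τ σ := by
    intro σ τ
    have h := Fintype.linearIndependent_iff.mp hli (fun p => c p.1 p.2 + c p.2 p.1) (by
      funext z
      rcases z with ⟨x, y⟩
      simp only [Finset.sum_apply, Pi.smul_apply, smul_eq_mul, Pi.zero_apply]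
      rw [Fintype.sum_prod_type]
      simp only [add_mul, Finset.sum_add_distrib]
      have h1 := hc x y
      have h2' : ∑ σ, ∑ τ, c τ σ * (σ x * τ y) = β y x := by
        rw [hc y x, Finset.sum_comm]
        refine Finset.sum_congr rfl fun σ _ => Finset.sum_congr rfl fun τ _ => ?_
        ring
      rw [← h1, h2', hβ, hβ, add_comm y x]
      have : q (x + y) + q x + q y + (q (x + y) + q y + q x) =
          (q (x + y) + q (x + y)) + (q x + q x) + (q y + q y) := by ring
      rw [this, h2 (q (x + y)), h2 (q x), h2 (q y)]; simp) (σ, τ)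
    exact heq _ _ h
  -- a linear order to split
  let e := Fintype.equivFin (F ≃+* F)
  let a : (F ≃+* F) → (F ≃+* F) → F := fun σ τ => if e σ < e τ then c σ τ else 0
  have hsplit : ∀ σ τ, σ ≠ τ → a σ τ + a τ σ = c σ τ := by
    intro σ τ hne
    have hne' : e σ ≠ e τ := fun h => hne (e.injective h)
    rcases lt_or_gt_of_ne hne' with h | h
    · simp [a, h, not_lt.mpr h.le]
    · simp [a, h, not_lt.mpr h.le, hsymm σ τ]
  -- the diagonal vanishes
  have hzero : ∀ x : F, ∑ σ, ∑ τ, (a σ τ + a τ σ) * (σ x * τ x) = 0 := by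
    intro x
    simp only [add_mul, Finset.sum_add_distrib]
    have : ∑ σ, ∑ τ, a τ σ * (σ x * τ x) = ∑ σ, ∑ τ, a σ τ * (σ x * τ x) := by
      rw [Finset.sum_comm]
      refine Finset.sum_congr rfl fun σ _ => Finset.sum_congr rfl fun τ _ => ?_
      ring
    rw [this, h2]
  have hcdiag : ∀ x : F, ∑ σ, c σ σ * σ (x * x) = 0 := by
    intro x
    have h0 : β x x = 0 := by
      rw [hβ, h2 x, hq0, zero_add, h2]
    have h1 : β x x = ∑ σ, ∑ τ, (a σ τ + a τ σ) * (σ x * τ x) + ∑ σ, c σ σ * σ (x * x) := by
      rw [hc x x, ← Finset.sum_add_distrib]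
      refine Finset.sum_congr rfl fun σ _ => ?_
      rw [← Finset.add_sum_erase _ _ (Finset.mem_univ σ),
        ← Finset.add_sum_erase (a := σ) (f := fun τ => (a σ τ + a τ σ) * (σ x * τ x)) _ (Finset.mem_univ σ)]
      have h3 : ∑ τ ∈ Finset.univ.erase σ, c σ τ * (σ x * τ x) =
          ∑ τ ∈ Finset.univ.erase σ, (a σ τ + a τ σ) * (σ x * τ x) := by
        refine Finset.sum_congr rfl fun τ hτ => ?_
        rw [hsplit σ τ (Finset.ne_of_mem_erase hτ).symm]
      rw [h3, map_mul]
      have h4 : a σ σ = 0 := by simp [a]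
      rw [h4]
      ring
    rw [h0, hzero x, zero_add] at h1
    exact h1.symm
  have hcd0 : ∀ σ, c σ σ = 0 := by
    intro σ
    have h := Fintype.linearIndependent_iff.mp (Cfsg.Agent.Lib.Cl.aut_linearIndependent (F := F))
      (fun σ => c σ σ) (by
        funext w
        simp only [Finset.sum_apply, Pi.smul_apply, smul_eq_mul, Pi.zero_apply]
        -- every element is a square
        have hsq : ∃ x : F, x * x = w := by
          have hinj : Function.Injective (fun x : F => x * x) := by
            intro u v huv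
            have : (u + v) * (u + v) = 0 := by
              have e : (u + v) * (u + v) = u * u + v * v + (u * v + u * v) := by ring
              rw [e, h2, add_zero]
              simp only at huv
              rw [huv, h2]
            have h0 := mul_self_eq_zero.mp this
            exact heq _ _ h0
          exact (Finite.surjective_of_injective hinj) w
        obtain ⟨x, rfl⟩ := hsq
        simpa using hcdiag x) σ
    exact h
  have hsplit' : ∀ σ τ, a σ τ + a τ σ = c σ τ := by
    intro σ τ
    by_cases hst : σ = τ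
    · subst hst
      rw [hcd0]
      simp [a]
    · exact hsplit σ τ hst
  -- q₀ and the additive remainder
  let q₀ : F → F := fun x => ∑ σ, ∑ τ, a σ τ * (σ x * τ x)
  have hq₀ : ∀ x y, q₀ (x + y) + q₀ x + q₀ y = β x y := by
    intro x y
    rw [hc x y]
    simp only [q₀]
    have hsw : ∑ σ, ∑ τ, a τ σ * (σ x * τ y) = ∑ σ, ∑ τ, a σ τ * (τ x * σ y) := by
      rw [Finset.sum_comm]
    have e1 : ∑ σ, ∑ τ, c σ τ * (σ x * τ y) =
        ∑ σ, ∑ τ, a σ τ * (σ x * τ y) + ∑ σ, ∑ τ, a τ σ * (σ x * τ y) := by
      rw [← Finset.sum_add_distrib]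
      refine Finset.sum_congr rfl fun σ _ => ?_
      rw [← Finset.sum_add_distrib]
      refine Finset.sum_congr rfl fun τ _ => ?_
      rw [← hsplit' σ τ]; ring
    rw [e1, hsw]
    have e2 : ∀ σ τ : F ≃+* F, a σ τ * (σ (x + y) * τ (x + y)) =
        a σ τ * (σ x * τ x) + a σ τ * (σ y * τ y) + a σ τ * (σ x * τ y) + a σ τ * (τ x * σ y) := by
      intro σ τ
      simp only [map_add]
      ring
    simp only [e2, Finset.sum_add_distrib]
    have h5 : ∀ A B C D : F, A + B + C + D + A + B = C + D := by
      intro A B C D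
      have : A + B + C + D + A + B = (A + A) + (B + B) + C + D := by ring
      rw [this, h2, h2]; simp
    exact h5 _ _ _ _
  -- the remainder is additive
  let r : F →+ F := AddMonoidHom.mk' (fun x => q x + q₀ x) (fun x y => by
    have h1 := hq₀ x y
    rw [hβ] at h1
    apply heq
    have e : q (x + y) + q₀ (x + y) + (q x + q₀ x + (q y + q₀ y)) =
        (q (x + y) + q x + q y) + (q₀ (x + y) + q₀ x + q₀ y) := by ring
    rw [e, ← h1, h2])
  have hr : ∀ x, q x = q₀ x + r x := by
    intro x
    have : r x = q x + q₀ x := rfl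
    rw [this]
    have e : q₀ x + (q x + q₀ x) = q x + (q₀ x + q₀ x) := by ring
    rw [e, h2, add_zero]
  -- square roots of automorphisms
  let φ : F ≃+* F := frobeniusEquiv F 2
  have hφ : ∀ x, φ x = x ^ 2 := fun x => rfl
  have hsq' : ∀ (σ : F ≃+* F) (x : F), σ x = (φ.symm.trans σ) x * (φ.symm.trans σ) x := by
    intro σ x
    have : x = φ.symm x * φ.symm x := by
      have := φ.apply_symm_apply x
      rw [hφ, pow_two] at this
      exact this.symm
    simp only [RingEquiv.trans_apply]
    conv_lhs => rw [this]
    rw [map_mul]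
  let ψ : (F ≃+* F) → (F ≃+* F) := fun σ => φ.symm.trans σ
  have hψinj : Function.Injective ψ := by
    intro σ τ h
    ext x
    have := congrArg (fun e : F ≃+* F => e (φ x)) h
    simpa [ψ] using this
  -- the final coefficient
  let d : (F ≃+* F) → F := fun ρ => ∑ σ, if ψ σ = ρ then cc σ r else 0
  have key : ∀ x, r x = ∑ ρ, d ρ * (ρ x * ρ x) := by
    intro x
    simp only [d, Finset.sum_mul]
    rw [Finset.sum_comm, hcc r x]
    refine Finset.sum_congr rfl fun σ _ => ?_
    simp only [ite_mul, zero_mul]
    rw [Finset.sum_ite_eq]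
    simp only [Finset.mem_univ, if_true]
    rw [hsq' σ x]
  refine ⟨Finset.univ, fun p => a p.1 p.2 + (if p.1 = p.2 then d p.1 else 0), fun x => ?_⟩
  rw [hr x, key x, Fintype.sum_prod_type]
  simp only [q₀]
  rw [← Finset.sum_add_distrib]
  refine Finset.sum_congr rfl fun ρ _ => ?_
  simp only [add_mul, Finset.sum_add_distrib, ite_mul, zero_mul]
  congr 1
  rw [Finset.sum_ite_eq]
  simp

end Cfsg.Agent.S1168
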