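import Cfsg.Statements.S1176
import Mathlib
import Cfsg.Agent.Lib.Invol.Basic

set_option autoImplicit false
open Cfsg

namespace Cfsg.Agent.S1176

/-- Let x₀ be an involution of the finite group G and D its conjugacy class. Assume (a) for each x ∈ D the subgroup W(x) generated by the members of D commuting with x is a 2-group of nilpotency class at most 2, and (b) the product of two distinct commuting members of D again lies in D. Then for all x, y ∈ D, if xy has even order greater than 2, its order is 4. -/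
theorem result {G : Type*} [Group G] [Finite G] (x₀ : G) (hx₀ : orderOf x₀ = 2) (ha : ∀ x : G, IsConj x₀ x → IsPGroup 2 ↥(Subgroup.closure {y : G | IsConj x₀ y ∧ Commute y x}) ∧ ⁅⁅Subgroup.closure {y : G | IsConj x₀ y ∧ Commute y x}, Subgroup.closure {y : G | IsConj x₀ y ∧ Commute y x}⁆, Subgroup.closure {y : G | IsConj x₀ y ∧ Commute y x}⁆ = ⊥) (hb : ∀ x y : G, IsConj x₀ x → IsConj x₀ y → x ≠ y → Commute x y → IsConj x₀ (x * y)) (x y : G) (hx : IsConj x₀ x) (hy : IsConj x₀ y) (heven : Even (orderOf (x * y))) (hgt : 2 < orderOf (x * y)) : orderOf (x * y) = 4 := by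
  open Cfsg.Agent.Lib.Invol commutatorElement in
  have hx0 := mul_self_of_order_two hx₀
  have msq : ∀ u, IsConj x₀ u → u * u = 1 := by
    intro u hu
    obtain ⟨c, rfl⟩ := isConj_iff.1 hu
    calc c * x₀ * c⁻¹ * (c * x₀ * c⁻¹) = c * (x₀ * x₀) * c⁻¹ := by group
      _ = 1 := by rw [hx0]; group
  have hxx := msq x hx
  have hyy := msq y hy
  have hw2 := central_order_two hxx hyy heven
  have hwx := central_commute_left hxx hyy heven
  have hwy := central_commute_right hxx hyy heven
  obtain ⟨d, _, hd⟩ := central_mul_conj hxx hyy heven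
  set z := (x * y) ^ (orderOf (x * y) / 2) with hz
  have hz1 : z ≠ 1 := by
    intro h
    rw [h] at hw2
    simp at hw2
  have hxz : IsConj x₀ (x * z) := by
    rcases hd with hd | hd
    · rw [← hd]; exact hx.trans (isConj_iff.2 ⟨d, rfl⟩)
    · rw [← hd]; exact hy.trans (isConj_iff.2 ⟨d, rfl⟩)
  have hzD : IsConj x₀ z := by
    have hne : x ≠ x * z := fun h => hz1 (by simpa using h)
    have hc : Commute x (x * z) := (Commute.refl x).mul_right hwx.symm
    have := hb x (x * z) hx hxz hne hc
    rwa [← mul_assoc, hxx, one_mul] at this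
  obtain ⟨_, hcl⟩ := ha z hzD
  set W := Subgroup.closure {u : G | IsConj x₀ u ∧ Commute u z} with hW
  have hxW : x ∈ W := Subgroup.subset_closure ⟨hx, hwx.symm⟩
  have hyW : y ∈ W := Subgroup.subset_closure ⟨hy, hwy.symm⟩
  have h1 : ⁅x, y⁆ ∈ ⁅W, W⁆ := Subgroup.commutator_mem_commutator hxW hyW
  have h2 : ⁅⁅x, y⁆, x⁆ ∈ ⁅⁅W, W⁆, W⁆ := Subgroup.commutator_mem_commutator h1 hxW
  rw [hcl, Subgroup.mem_bot] at h2
  have hxi := inv_eq_of_mul_self hxx
  have hyi := inv_eq_of_mul_self hyy
  have e1 : ⁅x, y⁆ = x * y * x * y := by rw [commutatorElement_def, hxi, hyi]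
  have e2 : (x * y * x * y)⁻¹ = y * x * y * x := by simp [mul_assoc, hxi, hyi]
  have h3 : ⁅⁅x, y⁆, x⁆ = (x * y) ^ 4 := by
    rw [commutatorElement_def, e1, e2, hxi]
    have : (x * y * x * y) * x * (y * x * y * x) * x =
        (x * y) * (x * y) * (x * y) * (x * y) * (x * x) := by simp only [mul_assoc]
    rw [this, hxx, mul_one]
    simp only [pow_succ, pow_zero, one_mul]
  rw [h3] at h2
  have h4 : orderOf (x * y) ∣ 4 := orderOf_dvd_of_pow_eq_one h2
  have h5 := Nat.le_of_dvd (by norm_num) h4
  interval_cases h : orderOf (x * y) <;> first | rfl | omega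

end Cfsg.Agent.S1176
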