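import Cfsg.Statements.S1177
import Mathlib
import Cfsg.Agent.Lib.Invol.Isolated
import Cfsg.Agent.Lib.Techniques.SylowIn

set_option autoImplicit false
open Cfsg

namespace Cfsg.Agent.S1177

/-- Let A be a nontrivial elementary abelian 2-subgroup of a finite group G which is a T.I. set (each conjugate of A meets A trivially or equals A) and which does not commute elementwise with any conjugate of A other than A itself. Then for every a ∈ A, a ≠ 1, every conjugate of A contained in C_G(a) is equal to A (A is weakly closed in C_G(a)). -/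
theorem result {G : Type*} [Group G] [Finite G] (A : Subgroup G) (hA : Cfsg.IsElementaryAbelian 2 A) (hA1 : A ≠ ⊥) (hTI : ∀ g : G, A.map (MulAut.conj g).toMonoidHom ⊓ A = ⊥ ∨ A.map (MulAut.conj g).toMonoidHom = A) (hb : ∀ g : G, (∀ a ∈ A, ∀ b ∈ A.map (MulAut.conj g).toMonoidHom, a * b = b * a) → A.map (MulAut.conj g).toMonoidHom = A) (a : G) (ha : a ∈ A) (ha1 : a ≠ 1) (g : G) (hg : A.map (MulAut.conj g).toMonoidHom ≤ Subgroup.centralizer ({a} : Set G)) : A.map (MulAut.conj g).toMonoidHom = A := by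
  open Cfsg.Agent.Lib.Invol Cfsg.Agent.Lib.Techniques in
  by_contra hne
  obtain ⟨hAb, hAs⟩ := hA
  have hinf : conjS g A ⊓ A = ⊥ := (hTI g).resolve_right hne
  have hAc : ∀ x ∈ A, ∀ y ∈ A, x * y = y * x := by
    intro x hx y hy
    have := congrArg Subtype.val (hAb.is_comm.comm ⟨x, hx⟩ ⟨y, hy⟩)
    simpa using this
  have hAs' : ∀ x ∈ A, x * x = 1 := fun x hx => by rw [← pow_two]; exact hAs x hx
  set E := conjS g A with hE
  have hEA : ∀ x ∈ E, g⁻¹ * x * g ∈ A := fun x hx => mem_conjS.1 hx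
  have hEs : ∀ x ∈ E, x * x = 1 := by
    intro x hx
    have h1 := hAs' _ (hEA x hx)
    have h2 : (g⁻¹ * x * g) * (g⁻¹ * x * g) = g⁻¹ * (x * x) * g := by group
    rw [h2] at h1
    have h3 : x * x = g * (g⁻¹ * (x * x) * g) * g⁻¹ := by group
    rw [h3, h1]; group
  have hEc : ∀ x ∈ E, ∀ y ∈ E, x * y = y * x := by
    intro x hx y hy
    have h1 := hAc _ (hEA x hx) _ (hEA y hy)
    have h2 : (g⁻¹ * x * g) * (g⁻¹ * y * g) = g⁻¹ * (x * y) * g := by group
    have h3 : (g⁻¹ * y * g) * (g⁻¹ * x * g) = g⁻¹ * (y * x) * g := by group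
    rw [h2, h3] at h1
    have h4 := mul_left_cancel (mul_right_cancel h1)
    exact h4
  have hinf' : ∀ x, x ∈ E → x ∈ A → x = 1 := by
    intro x hx hxA
    have : x ∈ E ⊓ A := ⟨hx, hxA⟩
    rwa [hinf, Subgroup.mem_bot] at this
  have hTIA : ∀ k x, x ≠ 1 → x ∈ A → k * x * k⁻¹ ∈ A → conjS k A = A := by
    intro k x hx hxA hkx
    rcases hTI k with h | h
    · exfalso
      have h2 : k * x * k⁻¹ ∈ conjS k A ⊓ A := ⟨conj_mem_conjS hxA, hkx⟩
      rw [h, Subgroup.mem_bot] at h2
      apply hx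
      have : x = k⁻¹ * (k * x * k⁻¹) * k := by group
      rw [this, h2]; group
    · exact h
  have hTIE : ∀ k x, x ≠ 1 → x ∈ E → k * x * k⁻¹ ∈ E → conjS k E = E := by
    intro k x hx hxE hkx
    have h1 : g⁻¹ * x * g ≠ 1 := by
      intro h
      apply hx
      have : x = g * (g⁻¹ * x * g) * g⁻¹ := by group
      rw [this, h]; group
    have h2 : (g⁻¹ * k * g) * (g⁻¹ * x * g) * (g⁻¹ * k * g)⁻¹ ∈ A := by
      have e : (g⁻¹ * k * g) * (g⁻¹ * x * g) * (g⁻¹ * k * g)⁻¹ = g⁻¹ * (k * x * k⁻¹) * g := by group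
      rw [e]; exact hEA _ hkx
    have h3 := hTIA _ _ h1 (hEA x hxE) h2
    rw [hE, ← conjS_mul]
    have e : k * g = g * (g⁻¹ * k * g) := by group
    rw [e, conjS_mul, h3]
  have hEN : ∀ y ∈ E, conjS y A = A := by
    intro y hy
    apply hTIA y a ha1 ha
    have h1 := hg hy
    rw [Subgroup.mem_centralizer_singleton_iff] at h1
    have h2 : y * a * y⁻¹ = a := by rw [h1]; group
    rw [h2]; exact ha
  have hEN' : ∀ y ∈ E, ∀ x ∈ A, y * x * y⁻¹ ∈ A := by
    intro y hy x hx
    rw [← hEN y hy]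
    exact conj_mem_conjS hx
  have hcA : ∀ a' ∈ A, ∀ y ∈ E, a' * y * a'⁻¹ * y⁻¹ ∈ A := by
    intro a' ha' y hy
    have e : a' * y * a'⁻¹ * y⁻¹ = a' * (y * a'⁻¹ * y⁻¹) := by group
    rw [e]
    exact A.mul_mem ha' (hEN' y hy _ (A.inv_mem ha'))
  -- key commutation: if `a'` normalizes or not, `a' y a'⁻¹` commutes with `E`
  have key : ∀ a' ∈ A, ∀ y ∈ E, ∀ e ∈ E, (a' * y * a'⁻¹) * e = e * (a' * y * a'⁻¹) := by
    intro a' ha' y hy e he
    set c' := a' * y * a'⁻¹ * y⁻¹ with hc'
    have hcA' : c' ∈ A := hcA a' ha' y hy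
    have ha'i : a'⁻¹ = a' := inv_eq_of_mul_self (hAs' a' ha')
    have hyi : y⁻¹ = y := inv_eq_of_mul_self (hEs y hy)
    have e1 : a' * y * a'⁻¹ = c' * y := by rw [hc']; group
    rw [e1]
    by_cases hc1 : c' = 1
    · rw [hc1, one_mul]; exact hEc y hy e he
    · -- `c'` centralizes `y`
      have hcy : c' * y * c'⁻¹ = y := by
        -- `y c' y⁻¹ = c'`
        have h1 : y * c' * y⁻¹ = c' := by
          rw [hc', ha'i, hyi]
          have h2 := hEN' y hy a' ha'
          rw [hyi] at h2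
          have h3 := hAc _ h2 _ ha'
          calc y * (a' * y * a' * y) * y = (y * a' * y) * a' * (y * y) := by group
            _ = (y * a' * y) * a' := by rw [hEs y hy]; group
            _ = a' * (y * a' * y) := h3
            _ = a' * y * a' * y := by group
        have h2 : y * c' = c' * y := by
          calc y * c' = (y * c' * y⁻¹) * y := by group
            _ = c' * y := by rw [h1]
        rw [← h2]; group
      have hy1 : y ≠ 1 := by
        rintro rfl
        apply hc1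
        rw [hc']; group
      have hcN : conjS c' E = E := hTIE c' y hy1 hy (by rw [hcy]; exact hy)
      -- `c'` centralizes `E`
      have hce : c' * e * c'⁻¹ * e⁻¹ = 1 := by
        apply hinf'
        · have : c' * e * c'⁻¹ ∈ E := by rw [← hcN]; exact conj_mem_conjS he
          exact E.mul_mem this (E.inv_mem he)
        · have e2 : c' * e * c'⁻¹ * e⁻¹ = c' * (e * c'⁻¹ * e⁻¹) := by group
          rw [e2]
          exact A.mul_mem hcA' (hEN' e he _ (A.inv_mem hcA'))
      have hce2 : c' * e = e * c' := by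
        have := mul_eq_one_iff_eq_inv.1 hce
        rw [inv_inv] at this
        calc c' * e = (c' * e * c'⁻¹) * c' := by group
          _ = e * c' := by rw [this]
      rw [mul_assoc, hEc y hy e he, ← mul_assoc, hce2, mul_assoc]
  -- so each `a' ∈ A` normalizes `E`
  have hnorm : ∀ a' ∈ A, conjS a' E = E := by
    intro a' ha'
    have h1 : conjS (g⁻¹ * a' * g) A = A := by
      apply hb
      rintro x hx _ ⟨x', hx', rfl⟩
      -- conjugate by `g`
      have h2 := key a' ha' (g * x' * g⁻¹) (conj_mem_conjS hx') (g * x * g⁻¹) (conj_mem_conjS hx)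
      have h3 : ((g⁻¹ * a' * g) * x' * (g⁻¹ * a' * g)⁻¹) =
          g⁻¹ * (a' * (g * x' * g⁻¹) * a'⁻¹) * g := by group
      show x * ((g⁻¹ * a' * g) * x' * (g⁻¹ * a' * g)⁻¹) = ((g⁻¹ * a' * g) * x' * (g⁻¹ * a' * g)⁻¹) * x
      rw [h3]
      set w := a' * (g * x' * g⁻¹) * a'⁻¹
      calc x * (g⁻¹ * w * g) = g⁻¹ * ((g * x * g⁻¹) * w) * g := by group
        _ = g⁻¹ * (w * (g * x * g⁻¹)) * g := by rw [h2]
        _ = _ := by group
    rw [hE, ← conjS_mul]
    have e : a' * g = g * (g⁻¹ * a' * g) := by group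
    rw [e, conjS_mul, h1]
  apply hne
  apply hb
  intro x hx y hy
  have h1 : x * y * x⁻¹ * y⁻¹ = 1 := by
    apply hinf'
    · have : x * y * x⁻¹ ∈ E := by rw [← hnorm x hx]; exact conj_mem_conjS hy
      exact E.mul_mem this (E.inv_mem hy)
    · exact hcA x hx y hy
  have h2 := mul_eq_one_iff_eq_inv.1 h1
  rw [inv_inv] at h2
  calc x * y = (x * y * x⁻¹) * x := by group
    _ = y * x := by rw [h2]

end Cfsg.Agent.S1177
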