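import Cfsg.Statements.S1178
import Mathlib
import Cfsg.Agent.Lib.Invol.Isolated
import Cfsg.Agent.Lib.Techniques.SylowIn

set_option autoImplicit false
open Cfsg

namespace Cfsg.Agent.S1178

/-- Let A be a subgroup of a Sylow 2-subgroup S of the finite group G which is weakly closed in S. If a conjugate g A g⁻¹ commutes elementwise with A, then g A g⁻¹ = A. -/
theorem result {G : Type*} [Group G] [Finite G] (S : Sylow 2 G) (A : Subgroup G) (hW : Cfsg.IsWeaklyClosed A (S : Subgroup G)) (g : G) (hc : ∀ a ∈ A, ∀ b ∈ A.map (MulAut.conj g).toMonoidHom, a * b = b * a) : A.map (MulAut.conj g).toMonoidHom = A := by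
  open Cfsg.Agent.Lib.Invol Cfsg.Agent.Lib.Techniques in
  obtain ⟨hAS, hw⟩ := hW
  have hA2 : IsPGroup 2 A := S.isPGroup'.to_le hAS
  have hB2 : IsPGroup 2 (conjS g A) := isPGroup_conjS g hA2
  have hsup := isPGroup_sup_of_commute hA2 hB2 hc
  obtain ⟨R, hR⟩ := hsup.exists_le_sylow
  obtain ⟨h, hh⟩ := map_conj_le_of_sylow R S
  have e1 : conjS h (R : Subgroup G) = S := hh
  have h1 : conjS h A = A := hw h (by
    rw [← e1]; exact conjS_mono h (le_trans le_sup_left hR))
  have h2 : conjS h (conjS g A) ≤ S := by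
    rw [← e1]; exact conjS_mono h (le_trans le_sup_right hR)
  rw [← conjS_mul] at h2
  have h3 : conjS (h * g) A = A := hw (h * g) h2
  rw [conjS_mul] at h3
  have h4 : conjS h (conjS g A) = conjS h A := h3.trans h1.symm
  have h5 := congrArg (conjS h⁻¹) h4
  rw [conjS_inv_conjS, conjS_inv_conjS] at h5
  exact h5

end Cfsg.Agent.S1178
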