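import Cfsg.Statements.S1180
import Mathlib
import Cfsg.Agent.Lib.Invol.Isolated

set_option autoImplicit false
open Cfsg

namespace Cfsg.Agent.S1180

/-- Let z be an isolated involution of the finite group G and H a subgroup containing z. Then every conjugate g z g⁻¹ that lies in H is conjugate to z by an element of H. -/
theorem result {G : Type*} [Group G] [Finite G] (z : G) (hz : Cfsg.IsIsolatedInvolution z) (H : Subgroup G) (hzH : z ∈ H) (g : G) (hg : g * z * g⁻¹ ∈ H) : ∃ h ∈ H, h * z * h⁻¹ = g * z * g⁻¹ := by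
  open Cfsg.Agent.Lib.Invol in
  have hzz := mul_self_of_order_two hz.1
  have huu : (g * z * g⁻¹) * (g * z * g⁻¹) = 1 := by
    calc (g * z * g⁻¹) * (g * z * g⁻¹) = g * (z * z) * g⁻¹ := by group
      _ = 1 := by rw [hzz]; group
  obtain ⟨d, hd, he⟩ := exists_conj_of_odd hzz huu (isolated_mul_conj_odd hz g)
  refine ⟨d, ?_, he⟩
  have hle : Subgroup.closure ({z, g * z * g⁻¹} : Set G) ≤ H := by
    rw [Subgroup.closure_le]
    rintro x (rfl | hx)
    · exact hzH
    · rw [Set.mem_singleton_iff] at hx; subst hx; exact hg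
  exact hle hd

end Cfsg.Agent.S1180
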