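import Cfsg.Statements.S1181
import Mathlib
import Cfsg.Agent.Lib.Invol.Isolated

set_option autoImplicit false
open Cfsg

namespace Cfsg.Agent.S1181

/-- Let z be an isolated involution of the finite group G and N a normal subgroup with z ∉ N. Then the centralizer of zN in G/N is the image of C_G(z), and zN is an isolated involution of G/N. -/
theorem result {G : Type*} [Group G] [Finite G] (z : G) (hz : Cfsg.IsIsolatedInvolution z) (N : Subgroup G) [N.Normal] (hzN : z ∉ N) : Subgroup.centralizer ({(QuotientGroup.mk z : G ⧸ N)} : Set (G ⧸ N)) = (Subgroup.centralizer ({z} : Set G)).map (QuotientGroup.mk' N) ∧ Cfsg.IsIsolatedInvolution (QuotientGroup.mk z : G ⧸ N) := by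
  open Cfsg.Agent.Lib.Invol in
  have hzz := mul_self_of_order_two hz.1
  have hzi := inv_eq_of_mul_self hzz
  have hcentr : ∀ g : G, (QuotientGroup.mk g : G ⧸ N) * QuotientGroup.mk z = QuotientGroup.mk z * QuotientGroup.mk g →
      ∃ c, c ∈ Subgroup.centralizer ({z} : Set G) ∧ (QuotientGroup.mk c : G ⧸ N) = QuotientGroup.mk g := by
    intro g hg
    obtain ⟨k, _, hinv, hk, hkm⟩ := exists_midpoint hz g
    have hm : (g * z * g⁻¹) * z ∈ N := by
      rw [← QuotientGroup.eq_one_iff]
      simp only [QuotientGroup.mk_mul, QuotientGroup.mk_inv]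
      rw [hg]
      have h1 : (QuotientGroup.mk z : G ⧸ N) * QuotientGroup.mk z = 1 := by
        rw [← QuotientGroup.mk_mul, hzz]; rfl
      rw [mul_inv_cancel_right, h1]
    have hkN : k ∈ N := (Subgroup.zpowers_le.2 hm) hkm
    refine ⟨k⁻¹ * g, ?_, ?_⟩
    · rw [Subgroup.mem_centralizer_singleton_iff]
      have : g * z = k * z * k⁻¹ * g := by
        rw [hk]; group
      calc k⁻¹ * g * z = k⁻¹ * (k * z * k⁻¹ * g) := by rw [mul_assoc, this]
        _ = z * (k⁻¹ * g) := by group
    · rw [QuotientGroup.mk_mul, QuotientGroup.mk_inv,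
        (QuotientGroup.eq_one_iff k).2 hkN]
      simp
  constructor
  · ext x
    induction x using QuotientGroup.induction_on with
    | H g =>
      rw [Subgroup.mem_centralizer_singleton_iff, Subgroup.mem_map]
      constructor
      · intro hg
        obtain ⟨c, hc, he⟩ := hcentr g hg
        exact ⟨c, hc, he⟩
      · rintro ⟨c, hc, he⟩
        rw [Subgroup.mem_centralizer_singleton_iff] at hc
        have he' : (QuotientGroup.mk c : G ⧸ N) = QuotientGroup.mk g := he
        rw [← he', ← QuotientGroup.mk_mul, ← QuotientGroup.mk_mul, hc]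
  · have hzbar : (QuotientGroup.mk z : G ⧸ N) * QuotientGroup.mk z = 1 := by
      rw [← QuotientGroup.mk_mul, hzz]; rfl
    refine ⟨order_two_of_mul_self hzbar (fun h => hzN ((QuotientGroup.eq_one_iff z).1 h)), ?_⟩
    intro x hc
    induction x using QuotientGroup.induction_on with
    | H g =>
      set zb : G ⧸ N := QuotientGroup.mk z with hzb
      set gb : G ⧸ N := QuotientGroup.mk g with hgb
      have hy : (gb * zb * gb⁻¹) * (gb * zb * gb⁻¹) = 1 := by
        calc (gb * zb * gb⁻¹) * (gb * zb * gb⁻¹) = gb * (zb * zb) * gb⁻¹ := by group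
          _ = 1 := by rw [hzbar]; group
      have himg : zb * (gb * zb * gb⁻¹) = QuotientGroup.mk (z * (g * z * g⁻¹)) := by
        simp only [QuotientGroup.mk_mul, QuotientGroup.mk_inv]; rfl
      have hsq : (zb * (gb * zb * gb⁻¹)) * (zb * (gb * zb * gb⁻¹)) = 1 := by
        have : (zb * (gb * zb * gb⁻¹)) * (zb * (gb * zb * gb⁻¹)) =
            (zb * zb) * ((gb * zb * gb⁻¹) * (gb * zb * gb⁻¹)) := by
          rw [mul_assoc, ← mul_assoc (gb * zb * gb⁻¹), hc.eq.symm]
          simp only [mul_assoc]
        rw [this, hzbar, hy, one_mul]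
      have hodd : Odd (orderOf (zb * (gb * zb * gb⁻¹))) := by
        rw [himg]
        apply Odd.of_dvd_nat (isolated_mul_conj_odd hz g)
        exact orderOf_map_dvd (QuotientGroup.mk' N) _
      have h1 : zb * (gb * zb * gb⁻¹) = 1 := by
        have h2 : orderOf (zb * (gb * zb * gb⁻¹)) ∣ 2 := by
          apply orderOf_dvd_of_pow_eq_one
          rw [pow_two]; exact hsq
        have h3 := (Nat.dvd_prime Nat.prime_two).1 h2
        rcases h3 with h3 | h3
        · exact orderOf_eq_one_iff.1 h3
        · rw [h3] at hodd; exact absurd hodd (by decide)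
      have h4 := eq_inv_of_mul_eq_one_right h1
      rw [h4, inv_eq_of_mul_self hzbar]

end Cfsg.Agent.S1181
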