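import Cfsg.Statements.S1182
import Mathlib
import Cfsg.Agent.Lib.Invol.Isolated

set_option autoImplicit false
open Cfsg

namespace Cfsg.Agent.S1182

/-- Let z be an isolated involution of the finite group G and H a subgroup normalized by z. If x, y ∈ H both commute with z and y = h x h⁻¹ for some h ∈ H, then y = c x c⁻¹ for some c ∈ H commuting with z. -/
theorem result {G : Type*} [Group G] [Finite G] (z : G) (hz : Cfsg.IsIsolatedInvolution z) (H : Subgroup G) (hzH : z ∈ Subgroup.normalizer (H : Set G)) (x y : G) (hx : x ∈ H) (hy : y ∈ H) (hxz : Commute x z) (hyz : Commute y z) (h : G) (hh : h ∈ H) (hconj : h * x * h⁻¹ = y) : ∃ c ∈ H, Commute c z ∧ c * x * c⁻¹ = y := by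
  open Cfsg.Agent.Lib.Invol in
  have hzz := mul_self_of_order_two hz.1
  have hzi := inv_eq_of_mul_self hzz
  obtain ⟨k, _, hinv, hk, hkm⟩ := exists_midpoint hz h
  have hm : (h * z * h⁻¹) * z ∈ H := by
    have h1 : z * h⁻¹ * z⁻¹ ∈ H := (Subgroup.mem_normalizer_iff.1 hzH _).1 (H.inv_mem hh)
    have h2 : (h * z * h⁻¹) * z = h * (z * h⁻¹ * z⁻¹) := by rw [hzi]; simp only [mul_assoc]
    rw [h2]
    exact H.mul_mem hh h1
  have hkH : k ∈ H := (Subgroup.zpowers_le.2 hm) hkm
  refine ⟨k⁻¹ * h, H.mul_mem (H.inv_mem hkH) hh, ?_, ?_⟩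
  · show k⁻¹ * h * z = z * (k⁻¹ * h)
    have : h * z = k * z * k⁻¹ * h := by rw [hk]; group
    calc k⁻¹ * h * z = k⁻¹ * (k * z * k⁻¹ * h) := by rw [mul_assoc, this]
      _ = z * (k⁻¹ * h) := by group
  · have hyu : Commute y (h * z * h⁻¹) := by
      have hxz' : x * z = z * x := hxz.eq
      show y * (h * z * h⁻¹) = (h * z * h⁻¹) * y
      rw [← hconj]
      calc h * x * h⁻¹ * (h * z * h⁻¹) = h * (x * z) * h⁻¹ := by group
        _ = h * (z * x) * h⁻¹ := by rw [hxz']
        _ = h * z * h⁻¹ * (h * x * h⁻¹) := by group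
    have hym : Commute y ((h * z * h⁻¹) * z) := hyu.mul_right hyz
    have hyk : Commute y k := by
      obtain ⟨j, rfl⟩ := hkm
      exact hym.zpow_right j
    calc k⁻¹ * h * x * (k⁻¹ * h)⁻¹ = k⁻¹ * (h * x * h⁻¹) * k := by group
      _ = k⁻¹ * y * k := by rw [hconj]
      _ = y := by rw [mul_assoc, hyk.eq, inv_mul_cancel_left]

end Cfsg.Agent.S1182
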