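import Cfsg.Statements.S1183
import Mathlib
import Cfsg.Agent.Lib.Invol.Isolated
import Cfsg.Agent.Lib.Invol.TwoQuot
import Cfsg.Agent.Lib.Transfer.Package
import Cfsg.Agent.S1182

set_option autoImplicit false
open Cfsg

namespace Cfsg.Agent.S1183

open scoped IsMulCommutative in
theorem aux {G : Type*} [Group G] [Finite G] (z : G) (hz : Cfsg.IsIsolatedInvolution z) (C : Subgroup G) (hCdef : C = Subgroup.centralizer ({z} : Set G)) (D : Subgroup C) (hD : D.index = 2) (hG : Cfsg.pResidual 2 G = ⊤) : False := by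
  open Cfsg.Agent.Lib.Invol Cfsg.Agent.Lib.Transfer in
  haveI hDn : D.Normal := Subgroup.normal_of_index_eq_two hD
  have hcard : Nat.card (C ⧸ D) = 2 := hD
  haveI : IsMulCommutative (C ⧸ D) := by
    haveI : Fact (Nat.Prime (Nat.card (C ⧸ D))) := ⟨by rw [hcard]; exact Nat.prime_two⟩
    haveI := isCyclic_of_prime_card (α := C ⧸ D) rfl
    exact IsCyclic.commutative (α := C ⧸ D)
  have hodd : ¬ 2 ∣ C.index := by
    rw [hCdef]
    exact odd_index_centralizer_of_isolated hz
  have hcop : (Nat.card (C ⧸ D)).Coprime C.index := by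
    rw [hcard]
    exact (Nat.Prime.coprime_iff_not_dvd Nat.prime_two).2 hodd
  have hstable : ∀ (x : C) (g : G) (hg : g⁻¹ * (x : G) * g ∈ C), x⁻¹ * ⟨g⁻¹ * (x : G) * g, hg⟩ ∈ D := by
    intro x g hg
    have hx2 : (x : G) ∈ Subgroup.centralizer ({z} : Set G) := hCdef ▸ x.2
    have hg' : g⁻¹ * (x : G) * g ∈ Subgroup.centralizer ({z} : Set G) := hCdef ▸ hg
    have hx : Commute (x : G) z := (Subgroup.mem_centralizer_singleton_iff.1 hx2 : (x : G) * z = z * x)
    have hy : Commute (g⁻¹ * (x : G) * g) z := (Subgroup.mem_centralizer_singleton_iff.1 hg' : _ * z = z * _)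
    obtain ⟨c, -, hc, hcc⟩ := Cfsg.Agent.S1182.result z hz ⊤ (Subgroup.mem_normalizer_iff.2 (by simp)) (x : G) (g⁻¹ * x * g) (Subgroup.mem_top _) (Subgroup.mem_top _) hx hy g⁻¹ (Subgroup.mem_top _) (by simp)
    have hcC : c ∈ C := by
      rw [hCdef]
      exact (Subgroup.mem_centralizer_singleton_iff.2 hc.eq)
    have heq : (⟨g⁻¹ * (x : G) * g, hg⟩ : C) = ⟨c, hcC⟩ * x * (⟨c, hcC⟩ : C)⁻¹ := by
      apply Subtype.ext
      simp [hcc]
    rw [heq, ← QuotientGroup.eq_one_iff, QuotientGroup.mk_mul, QuotientGroup.mk_inv, QuotientGroup.mk_mul, QuotientGroup.mk_mul, QuotientGroup.mk_inv]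
    rw [mul_comm (QuotientGroup.mk ⟨c, hcC⟩ : C ⧸ D) (QuotientGroup.mk x), mul_inv_cancel_right, inv_mul_cancel]
  obtain ⟨f, -, hsurj, -, -⟩ := transfer_package C D hcop hstable
  have hP : IsPGroup 2 (C ⧸ D) := by
    apply IsPGroup.of_card (n := 1)
    rw [hcard, pow_one]
  have h1 : f.ker = ⊤ := by
    rw [eq_top_iff, ← hG]
    exact pResidual_le_ker hP f
  have h2 : ∀ q : C ⧸ D, q = 1 := by
    intro q
    obtain ⟨g, rfl⟩ := hsurj q
    have : g ∈ f.ker := by rw [h1]; exact Subgroup.mem_top g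
    exact this
  have h3 : Nat.card (C ⧸ D) = 1 := by
    rw [Nat.card_eq_one_iff_unique]
    exact ⟨⟨fun a b => by rw [h2 a, h2 b]⟩, ⟨1⟩⟩
  rw [hcard] at h3
  norm_num at h3


/-- Let z be an isolated involution of the finite group G and C = C_G(z). Then the subgroup of G generated by its elements of odd order is all of G if and only if the subgroup of C generated by its elements of odd order is all of C. -/
theorem result {G : Type*} [Group G] [Finite G] (z : G) (hz : Cfsg.IsIsolatedInvolution z) : Cfsg.pResidual 2 G = ⊤ ↔ Cfsg.pResidual 2 ↥(Subgroup.centralizer ({z} : Set G)) = ⊤ := by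
  open Cfsg.Agent.Lib.Invol Cfsg.Agent.Lib.Transfer in
  constructor
  · intro hG
    by_contra hC
    obtain ⟨C, hCdef⟩ : ∃ C, C = Subgroup.centralizer ({z} : Set G) := ⟨_, rfl⟩
    rw [← hCdef] at hC
    have hQ : IsPGroup 2 (C ⧸ Cfsg.pResidual 2 C) := by
      haveI : Fact (Nat.Prime 2) := ⟨Nat.prime_two⟩
      exact isPGroup_quotient_pResidual
    haveI : Nontrivial (C ⧸ Cfsg.pResidual 2 C) := by
      rw [QuotientGroup.nontrivial_iff]
      exact hC
    obtain ⟨M, hM⟩ := exists_index_two_of_isPGroup hQ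
    let D : Subgroup C := M.comap (QuotientGroup.mk' _)
    have hD : D.index = 2 := by
      rw [Subgroup.index_comap_of_surjective _ (QuotientGroup.mk'_surjective _), hM]
    exact aux z hz C hCdef D hD hG
  · intro hC
    rw [eq_top_iff]
    rintro g -
    obtain ⟨k, hko, -, hk, -⟩ := exists_midpoint hz g
    have hk1 : k ∈ Cfsg.pResidual 2 G := by
      apply mem_pResidual_of_coprime
      exact Nat.coprime_two_right.2 hko
    have hc : k⁻¹ * g ∈ Subgroup.centralizer ({z} : Set G) := by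
      rw [Subgroup.mem_centralizer_singleton_iff]
      have : g * z = k * z * k⁻¹ * g := by rw [hk]; group
      calc k⁻¹ * g * z = k⁻¹ * (k * z * k⁻¹ * g) := by rw [mul_assoc, this]
        _ = z * (k⁻¹ * g) := by group
    have hmap : (Cfsg.pResidual 2 ↥(Subgroup.centralizer ({z} : Set G))).map (Subgroup.subtype _) ≤ Cfsg.pResidual 2 G := by
      rw [Subgroup.map_le_iff_le_comap]
      apply pResidual_le_of_forall
      intro x hx
      rw [Subgroup.mem_comap]
      apply mem_pResidual_of_coprime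
      simpa using hx
    have h2 : k⁻¹ * g ∈ Cfsg.pResidual 2 G := by
      apply hmap
      refine ⟨⟨_, hc⟩, ?_, rfl⟩
      rw [hC]; exact Subgroup.mem_top _
    have h3 : g = k * (k⁻¹ * g) := by group
    rw [h3]
    exact mul_mem hk1 h2

end Cfsg.Agent.S1183
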