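import Cfsg.Statements.S1184
import Mathlib
import Cfsg.Agent.Lib.Invol.Isolated

set_option autoImplicit false
open Cfsg

namespace Cfsg.Agent.S1184

/-- Let z be an isolated involution of the finite group G. If s and t are distinct conjugates of z, then st does not commute with z. -/
theorem result {G : Type*} [Group G] [Finite G] (z : G) (hz : Cfsg.IsIsolatedInvolution z) (g h : G) (hne : g * z * g⁻¹ ≠ h * z * h⁻¹) : ¬ Commute (g * z * g⁻¹ * (h * z * h⁻¹)) z := by
  open Cfsg.Agent.Lib.Invol in
  intro hcomm
  have hzz := mul_self_of_order_two hz.1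
  have hzi := inv_eq_of_mul_self hzz
  set s := g * z * g⁻¹ with hs
  set t := h * z * h⁻¹ with ht
  have hss : s * s = 1 := by
    rw [hs]
    calc (g * z * g⁻¹) * (g * z * g⁻¹) = g * (z * z) * g⁻¹ := by group
      _ = 1 := by rw [hzz]; group
  have htt : t * t = 1 := by
    rw [ht]
    calc (h * z * h⁻¹) * (h * z * h⁻¹) = h * (z * z) * h⁻¹ := by group
      _ = 1 := by rw [hzz]; group
  have h1 : Odd (orderOf (s * z)) := isolated_conj_mul_odd hz g
  have h2 : Odd (orderOf (s * t)) := isolated_conj_conj_odd hz g h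
  have hinv : (s * z) * (s * t) * (s * z)⁻¹ = (s * t)⁻¹ := by
    have e1 : (s * z)⁻¹ = z * s := mul_inv_pair hss hzz
    have e2 : (s * t)⁻¹ = t * s := mul_inv_pair hss htt
    rw [e1, e2]
    have e3 : z * (s * t) * z = s * t := by
      have := hcomm.eq
      calc z * (s * t) * z = (z * (s * t)) * z := rfl
        _ = ((s * t) * z) * z := by rw [this]
        _ = s * t := by rw [mul_assoc, hzz, mul_one]
    calc s * z * (s * t) * (z * s) = s * (z * (s * t) * z) * s := by simp only [mul_assoc]
      _ = s * (s * t) * s := by rw [e3]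
      _ = t * s := by rw [← mul_assoc s s, hss, one_mul]
  have h3 := mul_self_of_odd_inverts h1 hinv
  have h4 : s * t = 1 := by
    have h5 : orderOf (s * t) ∣ 2 := by
      apply orderOf_dvd_of_pow_eq_one
      rw [pow_two]; exact h3
    rcases (Nat.dvd_prime Nat.prime_two).1 h5 with h6 | h6
    · exact orderOf_eq_one_iff.1 h6
    · rw [h6] at h2; exact absurd h2 (by decide)
  apply hne
  have h7 := eq_inv_of_mul_eq_one_right h4
  rw [h7, inv_eq_of_mul_self hss]

end Cfsg.Agent.S1184
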