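import Cfsg.Statements.S1186
import Mathlib
import Cfsg.Agent.Lib.Invol.Midpoint
import Cfsg.Agent.Lib.ClassSizes.Basic

set_option autoImplicit false
open Cfsg

namespace Cfsg.Agent.S1186

/-- Let z be an isolated involution of the finite group G, C = C_G(z), K the set of elements of odd order inverted by z, and s an involution of C. Then |G| = |C| · |C_K(sz)| · |C_K(s)|. -/
theorem result {G : Type*} [Group G] [Finite G] (z : G) (hz : Cfsg.IsIsolatedInvolution z) (s : G) (hs : orderOf s = 2) (hsz : Commute s z) : Nat.card G = Nat.card (Subgroup.centralizer ({z} : Set G)) * Nat.card {k : G // Odd (orderOf k) ∧ z * k * z⁻¹ = k⁻¹ ∧ Commute k (s * z)} * Nat.card {k : G // Odd (orderOf k) ∧ z * k * z⁻¹ = k⁻¹ ∧ Commute k s} := by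
  open Cfsg.Agent.Lib.Invol in
  classical
  have hzs : Commute z s := hsz.symm
  have hss := mul_self_of_order_two hs
  have hsi := inv_eq_of_mul_self hss
  have hzz := mul_self_of_order_two hz.1
  have hzi := inv_eq_of_mul_self hzz
  have hszC : Commute z (s * z) := (hzs.mul_right (Commute.refl z))
  rw [card_inverted_comm hz (s * z) hszC, card_inverted_comm hz s hzs]
  -- the midpoint map
  have hex : ∀ u : {u : G // IsConj z u}, ∃ m : {m : G // IsConj z m ∧ Commute m s},
      m.1 * u.1 * m.1⁻¹ = s * u.1 * s⁻¹ := by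
    rintro ⟨u, hu⟩
    have hsu : IsConj z (s * u * s⁻¹) := hu.trans (isConj_iff.2 ⟨s, rfl⟩)
    obtain ⟨m, hm1, hm2, -⟩ := exists_mid hz hu hsu
    refine ⟨⟨m, hm1, ?_⟩, hm2⟩
    -- `s m s` is also a midpoint
    have hm3 : IsConj z (s * m * s⁻¹) := hm1.trans (isConj_iff.2 ⟨s, rfl⟩)
    have hmm := mul_self_of_isConj hz hm1
    have hmi := inv_eq_of_mul_self hmm
    have h1 : (s * m * s⁻¹) * u * (s * m * s⁻¹)⁻¹ = s * u * s⁻¹ := by
      have h2 : m * (s * u * s⁻¹) * m⁻¹ = u := by
        rw [← hm2]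
        calc m * (m * u * m⁻¹) * m⁻¹ = (m * m) * u * (m * m)⁻¹ := by group
          _ = u := by rw [hmm]; group
      calc (s * m * s⁻¹) * u * (s * m * s⁻¹)⁻¹ = s * (m * (s⁻¹ * u * s) * m⁻¹) * s⁻¹ := by group
        _ = s * (m * (s * u * s⁻¹) * m⁻¹) * s⁻¹ := by rw [hsi]
        _ = s * u * s⁻¹ := by rw [h2]
    have h3 := mid_unique hz hu hm1 hm3 (hm2.trans h1.symm)
    show m * s = s * m
    have h4 : s * m * s = m := by rw [hsi] at h3; exact h3.symm
    calc m * s = (s * m * s) * s := by rw [h4]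
      _ = s * m * (s * s) := by group
      _ = s * m := by rw [hss, mul_one]
  choose f hf using hex
  -- the reformulation for `z`
  have hbase : ∀ v : G, z * v * z⁻¹ = s * v * s⁻¹ ↔ Commute v (s * z) := by
    intro v
    rw [hzi, hsi]
    constructor
    · intro h
      show v * (s * z) = (s * z) * v
      calc v * (s * z) = (s * s) * v * (s * z) := by rw [hss, one_mul]
        _ = s * (s * v * s) * z := by group
        _ = s * (z * v * z) * z := by rw [h]
        _ = s * z * v * (z * z) := by group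
        _ = (s * z) * v := by rw [hzz, mul_one]
    · intro h
      have h' : v * (s * z) = (s * z) * v := h
      calc z * v * z = (s * s) * z * v * z := by rw [hss, one_mul]
        _ = s * ((s * z) * v) * z := by group
        _ = s * (v * (s * z)) * z := by rw [h']
        _ = s * v * s * (z * z) := by group
        _ = s * v * s := by rw [hzz, mul_one]
  have hfib : ∀ m : {m : G // IsConj z m ∧ Commute m s}, Nat.card {u : {u : G // IsConj z u} // f u = m} =
      Nat.card {u : G // IsConj z u ∧ Commute u (s * z)} := by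
    rintro ⟨m, hm1, hm2⟩
    -- an element of the centralizer of `s` moving `z` to `m`
    obtain ⟨c, hc1, hc2⟩ : ∃ c : G, Commute c s ∧ c * z * c⁻¹ = m := by
      obtain ⟨g, rfl⟩ := isConj_iff.1 hm1
      obtain ⟨k, -, -, hk3, hk4⟩ := exists_midpoint hz g
      refine ⟨k, ?_, hk3⟩
      have h1 : Commute ((g * z * g⁻¹) * z) s := hm2.mul_left hzs
      obtain ⟨j, rfl⟩ := hk4
      exact h1.zpow_left j
    have hcs : c * s = s * c := hc1.eq
    have hcs' : c⁻¹ * s = s * c⁻¹ := by
      have := hc1.inv_left.eq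
      exact this
    have hcomm : ∀ v : G, m * (c * v * c⁻¹) * m⁻¹ = s * (c * v * c⁻¹) * s⁻¹ ↔ Commute v (s * z) := by
      intro v
      rw [← hbase v, ← hc2]
      have e1 : (c * z * c⁻¹) * (c * v * c⁻¹) * (c * z * c⁻¹)⁻¹ = c * (z * v * z⁻¹) * c⁻¹ := by group
      have e2 : s * (c * v * c⁻¹) * s⁻¹ = c * (s * v * s⁻¹) * c⁻¹ := by
        have e3 : c⁻¹ * s⁻¹ = s⁻¹ * c⁻¹ := by rw [hsi]; exact hcs'
        calc s * (c * v * c⁻¹) * s⁻¹ = (s * c) * v * (c⁻¹ * s⁻¹) := by group
          _ = (c * s) * v * (s⁻¹ * c⁻¹) := by rw [hcs, e3]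
          _ = _ := by group
      rw [e1, e2]
      constructor
      · intro h; exact mul_left_cancel (mul_right_cancel h)
      · intro h; rw [h]
    refine Nat.card_congr ⟨fun u => ⟨c⁻¹ * u.1.1 * c, ?_, ?_⟩, fun v => ⟨⟨c * v.1 * c⁻¹, ?_⟩, ?_⟩, ?_, ?_⟩
    · refine u.1.2.trans (isConj_iff.2 ⟨c⁻¹, by group⟩)
    · rw [← hcomm]
      have h1 := hf u.1
      rw [u.2] at h1
      have e : c * (c⁻¹ * u.1.1 * c) * c⁻¹ = u.1.1 := by group
      rw [e]
      exact h1
    · exact v.2.1.trans (isConj_iff.2 ⟨c, rfl⟩)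
    · apply Subtype.ext
      have h1 := (hcomm v.1).2 v.2.2
      have hu : IsConj z (c * v.1 * c⁻¹) := v.2.1.trans (isConj_iff.2 ⟨c, rfl⟩)
      have h2 := hf ⟨_, hu⟩
      exact mid_unique hz hu (f ⟨_, hu⟩).2.1 hm1 (h2.trans h1.symm)
    · intro u
      apply Subtype.ext
      apply Subtype.ext
      show c * (c⁻¹ * u.1.1 * c) * c⁻¹ = u.1.1
      group
    · intro v
      apply Subtype.ext
      show c⁻¹ * (c * v.1 * c⁻¹) * c = v.1
      group
  haveI : Fintype {m : G // IsConj z m ∧ Commute m s} := Fintype.ofFinite _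
  have htot : Nat.card {u : G // IsConj z u} = Nat.card {u : G // IsConj z u ∧ Commute u (s * z)} *
      Nat.card {u : G // IsConj z u ∧ Commute u s} := by
    rw [Nat.card_congr (Equiv.sigmaFiberEquiv f).symm, Nat.card_sigma]
    simp_rw [hfib]
    rw [Finset.sum_const, Finset.card_univ, smul_eq_mul, ← Nat.card_eq_fintype_card, mul_comm]
  rw [mul_assoc, ← htot, Cfsg.Agent.Lib.ClassSizes.card_isConj_eq_index]
  exact (Subgroup.card_mul_index _).symm

end Cfsg.Agent.S1186
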