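import Cfsg.Statements.S1229
import Mathlib
import Cfsg.Agent.Lib.Invol.Zassenhaus2

set_option autoImplicit false
open Cfsg

namespace Cfsg.Agent.S1229

/-- Let G be a finite group with a Sylow 2-subgroup T that is neither cyclic nor normal, such that the centralizer of every involution is an elementary abelian 2-group; put H = N_G(T) and X = G/H. Then G is triply transitive on X, an element fixing three distinct points of X is the identity, and T acts regularly on X minus the point H. -/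
theorem result {G : Type*} [Group G] [Finite G] (T : Sylow 2 G) (hnc : ¬ IsCyclic (T : Subgroup G)) (hnn : ¬ (T : Subgroup G).Normal) (hC : ∀ t : G, orderOf t = 2 → IsMulCommutative (Subgroup.centralizer ({t} : Set G)) ∧ ∀ c ∈ Subgroup.centralizer ({t} : Set G), c ^ 2 = 1) : (∀ x₁ x₂ x₃ y₁ y₂ y₃ : G ⧸ Subgroup.normalizer ((T : Subgroup G) : Set G), x₁ ≠ x₂ → x₁ ≠ x₃ → x₂ ≠ x₃ → y₁ ≠ y₂ → y₁ ≠ y₃ → y₂ ≠ y₃ → ∃ g : G, g • x₁ = y₁ ∧ g • x₂ = y₂ ∧ g • x₃ = y₃) ∧ (∀ g : G, ∀ x₁ x₂ x₃ : G ⧸ Subgroup.normalizer ((T : Subgroup G) : Set G), x₁ ≠ x₂ → x₁ ≠ x₃ → x₂ ≠ x₃ → g • x₁ = x₁ → g • x₂ = x₂ → g • x₃ = x₃ → g = 1) ∧ (∀ x y : G ⧸ Subgroup.normalizer ((T : Subgroup G) : Set G), x ≠ QuotientGroup.mk 1 → y ≠ QuotientGroup.mk 1 → ∃! t : G, t ∈ T ∧ t • x = y) := by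
  open Cfsg.Agent.Lib.Invol Cfsg.Agent.Lib.Techniques in
  have Z : ZH T := ⟨by
    intro h
    apply hnc
    rw [h]
    infer_instance, hnn, hC⟩
  obtain ⟨u, hu, huH⟩ := Z.exists_u
  set x : G ⧸ NT T := ((1 : G) : G ⧸ NT T) with hx
  set y : G ⧸ NT T := u • x with hy
  have hyx : y ≠ x := u_ne Z hnc huH
  have hHx : ∀ h ∈ NT T, h • x = x := fun h hh => (mem_iff_fix _ _).1 hh
  have hTx : ∀ t ∈ (T : Subgroup G), t • x = x := fun t ht => hHx t (Z.T_le ht)
  have hmku : ((u : G) : G ⧸ NT T) = y := mk_eq_smul_one _ u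
  have hDy : ∀ d ∈ DD T u, d • y = y := by
    intro d hd
    rw [← hmku]
    exact (mem_conj_iff_fix _ _ _).1 hd.2
  have hDx : ∀ d ∈ DD T u, d • x = x := fun d hd => hHx d hd.1
  have hTr : ∀ z : G ⧸ NT T, z ≠ x → ∃ t ∈ (T : Subgroup G), t • y = z :=
    fun z hz => T_trans Z hnc hu huH hz
  -- two-point transitivity
  have h2 : ∀ a b : G ⧸ NT T, a ≠ b → ∃ k : G, k • a = x ∧ k • b = y := by
    intro a b hab
    obtain ⟨g₀, rfl⟩ := QuotientGroup.mk_surjective a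
    have h1 : g₀⁻¹ • ((g₀ : G) : G ⧸ NT T) = x := by
      rw [mk_eq_smul_one, ← mul_smul]
      simp [hx]
    have h3 : g₀⁻¹ • b ≠ x := by
      intro h
      rw [← h1] at h
      exact hab (smul_left_cancel _ h).symm
    obtain ⟨t, ht, hte⟩ := hTr _ h3
    refine ⟨t⁻¹ * g₀⁻¹, ?_, ?_⟩
    · rw [mul_smul, h1]
      exact hTx _ ((T : Subgroup G).inv_mem ht)
    · rw [mul_smul, ← hte, inv_smul_smul]
  -- the regular action of `T`
  have hreg : ∀ a b : G ⧸ NT T, a ≠ x → b ≠ x → ∃! t : G, t ∈ (T : Subgroup G) ∧ t • a = b := by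
    intro a b ha hb
    obtain ⟨t₁, ht₁, rfl⟩ := hTr a ha
    obtain ⟨t₂, ht₂, rfl⟩ := hTr b hb
    refine ⟨t₂ * t₁⁻¹, ⟨(T : Subgroup G).mul_mem ht₂ ((T : Subgroup G).inv_mem ht₁), ?_⟩, ?_⟩
    · rw [mul_smul, inv_smul_smul]
    · rintro t' ⟨ht', he⟩
      have h1 : (t₂⁻¹ * t' * t₁) • y = y := by
        rw [mul_smul, mul_smul, he, inv_smul_smul]
      have h3 := T_free Z hnc ((T : Subgroup G).mul_mem ((T : Subgroup G).mul_mem
        ((T : Subgroup G).inv_mem ht₂) ht') ht₁) hyx h1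
      calc t' = t₂ * (t₂⁻¹ * t' * t₁) * t₁⁻¹ := by group
        _ = t₂ * t₁⁻¹ := by rw [h3, mul_one]
  obtain ⟨t₀, ht₀, ht₀1⟩ := exists_T_ne Z hu huH
  set w₀ : G ⧸ NT T := t₀ • y with hw₀
  -- three-point normal form
  have h3 : ∀ a b c : G ⧸ NT T, a ≠ b → a ≠ c → b ≠ c → ∃ k : G, k • a = x ∧ k • b = y ∧ k • c = w₀ := by
    intro a b c hab hac hbc
    obtain ⟨k, hka, hkb⟩ := h2 a b hab
    have hc1 : k • c ≠ x := by
      intro h
      rw [← hka] at h
      exact hac (smul_left_cancel _ h).symm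
    have hc2 : k • c ≠ y := by
      intro h
      rw [← hkb] at h
      exact hbc (smul_left_cancel _ h).symm
    obtain ⟨t, ht, hte⟩ := hTr _ hc1
    have ht1 : t ≠ 1 := by
      rintro rfl
      rw [one_smul] at hte
      exact hc2 hte.symm
    obtain ⟨d, hd, hde⟩ := DD_trans Z hu huH ht ht1 ht₀ ht₀1
    refine ⟨d * k, ?_, ?_, ?_⟩
    · rw [mul_smul, hka, hDx d hd]
    · rw [mul_smul, hkb, hDy d hd]
    · rw [mul_smul, ← hte, hw₀, ← hde]
      have hinv : d⁻¹ • y = y := by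
        conv_lhs => rw [← hDy d hd]
        exact inv_smul_smul d y
      simp only [mul_smul, hinv]
  refine ⟨?_, ?_, ?_⟩
  · intro x₁ x₂ x₃ y₁ y₂ y₃ h12 h13 h23 h12' h13' h23'
    obtain ⟨k, hk1, hk2, hk3⟩ := h3 x₁ x₂ x₃ h12 h13 h23
    obtain ⟨k', hk1', hk2', hk3'⟩ := h3 y₁ y₂ y₃ h12' h13' h23'
    refine ⟨k'⁻¹ * k, ?_, ?_, ?_⟩
    · rw [mul_smul, hk1, ← hk1', inv_smul_smul]
    · rw [mul_smul, hk2, ← hk2', inv_smul_smul]
    · rw [mul_smul, hk3, ← hk3', inv_smul_smul]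
  · intro g x₁ x₂ x₃ h12 h13 h23 hg1 hg2 hg3
    obtain ⟨k, hk1, hk2⟩ := h2 x₁ x₂ h12
    set g' := k * g * k⁻¹ with hg'
    have hfix : ∀ z : G ⧸ NT T, g • z = z → g' • (k • z) = k • z := by
      intro z hz
      rw [hg', mul_smul, mul_smul, inv_smul_smul, hz]
    have hg'x : g' • x = x := by rw [← hk1]; exact hfix _ hg1
    have hg'y : g' • y = y := by rw [← hk2]; exact hfix _ hg2
    have hg'w : g' • (k • x₃) = k • x₃ := hfix _ hg3
    have hg'D : g' ∈ DD T u := by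
      rw [mem_DD_iff Z]
      exact ⟨hg'x, by rw [hmku]; exact hg'y⟩
    have hw1 : k • x₃ ≠ x := by
      intro h
      rw [← hk1] at h
      exact h13 (smul_left_cancel _ h).symm
    have hw2 : k • x₃ ≠ y := by
      intro h
      rw [← hk2] at h
      exact h23 (smul_left_cancel _ h).symm
    obtain ⟨t, ht, hte⟩ := hTr _ hw1
    have ht1 : t ≠ 1 := by
      rintro rfl
      rw [one_smul] at hte
      exact hw2 hte.symm
    have hg'H : g' ∈ NT T := hg'D.1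
    have hconjT : g' * t * g'⁻¹ ∈ (T : Subgroup G) := (Subgroup.mem_normalizer_iff.1 hg'H t).1 ht
    have h4 : (t⁻¹ * (g' * t * g'⁻¹)) • y = y := by
      have h5 : g'⁻¹ • y = y := by
        conv_lhs => rw [← hg'y]
        exact inv_smul_smul g' y
      rw [mul_smul, mul_smul, mul_smul, h5, hte, hg'w, ← hte, inv_smul_smul]
    have h6 := T_free Z hnc ((T : Subgroup G).mul_mem ((T : Subgroup G).inv_mem ht) hconjT) hyx h4
    have h7 : g' * t = t * g' := by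
      have h8 : g' * t * g'⁻¹ = t := (inv_mul_eq_one.1 h6).symm
      calc g' * t = (g' * t * g'⁻¹) * g' := by group
        _ = t * g' := by rw [h8]
    have h8 := DD_inf_T Z hu huH hg'D (Z.mem_T_of_comm ht ht1 h7)
    have h9 : g = k⁻¹ * g' * k := by rw [hg']; group
    rw [h9, h8]
    group
  · intro a b ha hb
    exact hreg a b ha hb

end Cfsg.Agent.S1229
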