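import Cfsg.Statements.S1230
import Mathlib
import Cfsg.Agent.Lib.Invol.ZC
import Cfsg.Agent.Lib.Perm.SharpThree

set_option autoImplicit false
open Cfsg

namespace Cfsg.Agent.S1230


open Subgroup Cfsg.Agent.Lib.Invol

variable {G : Type*} [Group G] [Finite G]

/-- The standing hypotheses. -/
structure HH (G : Type*) [Group G] : Prop where
  hC : ∀ t : G, orderOf t = 2 → (∀ a ∈ centralizer ({t} : Set G), ∀ b ∈ centralizer ({t} : Set G), a * b = b * a) ∧
    ∀ c ∈ centralizer ({t} : Set G), c ^ 2 = 1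
  h3 : ∀ S : Sylow 2 G, 3 ≤ Nat.card S

omit [Finite G] in
lemma mem_cent {x t : G} (h : x * t = t * x) : x ∈ centralizer ({t} : Set G) := by
  rw [mem_centralizer_iff]
  rintro _ rfl
  exact h.symm

lemma HH.ne_bot (h : HH G) (S : Sylow 2 G) : (S : Subgroup G) ≠ ⊥ := by
  intro h0
  have := h.h3 S
  have h1 : Nat.card S = 1 := by
    show Nat.card (S : Subgroup G) = 1
    rw [h0, Subgroup.card_bot]
  omega

lemma HH.exists_ne_one (h : HH G) (S : Sylow 2 G) : ∃ t ∈ (S : Subgroup G), t ≠ 1 :=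
  (Subgroup.ne_bot_iff_exists_ne_one.1 (h.ne_bot S)).elim fun x hx =>
    ⟨x, x.2, fun h1 => hx (Subtype.ext h1)⟩

lemma HH.sq (h : HH G) (S : Sylow 2 G) {x : G} (hx : x ∈ (S : Subgroup G)) : x * x = 1 := by
  obtain ⟨z, hz, hz2, hzc⟩ := exists_central_involution (S : Subgroup G) S.isPGroup' (h.ne_bot S)
  have := (h.hC z hz2).2 x (mem_cent (hzc x hx))
  rwa [pow_two] at this

lemma HH.comm (h : HH G) (S : Sylow 2 G) {x y : G} (hx : x ∈ (S : Subgroup G)) (hy : y ∈ (S : Subgroup G)) :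
    x * y = y * x := by
  obtain ⟨z, hz, hz2, hzc⟩ := exists_central_involution (S : Subgroup G) S.isPGroup' (h.ne_bot S)
  exact (h.hC z hz2).1 x (mem_cent (hzc x hx)) y (mem_cent (hzc y hy))

lemma HH.cent (h : HH G) (S : Sylow 2 G) {t : G} (ht : t ∈ (S : Subgroup G)) (ht1 : t ≠ 1) :
    centralizer ({t} : Set G) = (S : Subgroup G) := by
  have h2 : orderOf t = 2 := order_two_of_mul_self (h.sq S ht) ht1
  have hp : IsPGroup 2 (centralizer ({t} : Set G)) := by
    intro c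
    refine ⟨1, ?_⟩
    apply Subtype.ext
    have := (h.hC t h2).2 c c.2
    simpa using this
  exact S.is_maximal' hp (fun x hx => mem_cent (h.comm S hx ht))

lemma HH.inter (h : HH G) {S₁ S₂ : Sylow 2 G} (hne : S₁ ≠ S₂) {x : G} (h1 : x ∈ (S₁ : Subgroup G))
    (h2 : x ∈ (S₂ : Subgroup G)) : x = 1 := by
  by_contra hx
  apply hne
  apply Sylow.ext
  rw [← h.cent S₁ h1 hx, ← h.cent S₂ h2 hx]

lemma smul_eq_iff {S : Sylow 2 G} {w : G} : w • S = S ↔ w ∈ normalizer ((S : Subgroup G) : Set G) :=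
  Sylow.smul_eq_iff_mem_normalizer

lemma mem_of_fix {S : Sylow 2 G} {w : G} (hw : w * w = 1) (hfix : w • S = S) : w ∈ (S : Subgroup G) := by
  have hp : IsPGroup 2 (zpowers w) := by
    intro c
    obtain ⟨c, k, rfl⟩ := c
    refine ⟨1, ?_⟩
    apply Subtype.ext
    show (w ^ k) ^ 2 ^ 1 = 1
    rw [pow_one, ← zpow_natCast, ← zpow_mul, mul_comm, zpow_mul]
    have : w ^ ((2 : ℕ) : ℤ) = 1 := by
      rw [zpow_natCast, pow_two, hw]
    rw [this, one_zpow]
  have h1 := IsPGroup.inf_normalizer_sylow hp S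
  have h2 : w ∈ zpowers w ⊓ normalizer ((S : Subgroup G) : Set G) :=
    ⟨mem_zpowers w, smul_eq_iff.1 hfix⟩
  exact (h1.le h2).2

/-- The two-point stabilizer. -/
def DD (S₁ S₂ : Sylow 2 G) : Subgroup G :=
  normalizer ((S₁ : Subgroup G) : Set G) ⊓ normalizer ((S₂ : Subgroup G) : Set G)

lemma mem_DD {S₁ S₂ : Sylow 2 G} {d : G} : d ∈ DD S₁ S₂ ↔ d • S₁ = S₁ ∧ d • S₂ = S₂ := by
  rw [DD, mem_inf, smul_eq_iff, smul_eq_iff]

lemma conj_mem_of_fix {S : Sylow 2 G} {d t : G} (hd : d • S = S) (ht : t ∈ (S : Subgroup G)) :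
    d * t * d⁻¹ ∈ (S : Subgroup G) :=
  (mem_normalizer_iff.1 (smul_eq_iff.1 hd) t).1 ht

lemma HH.DD_inter (h : HH G) {S₁ S₂ : Sylow 2 G} (hne : S₁ ≠ S₂) {d : G} (hd : d ∈ DD S₁ S₂)
    (hd1 : d ∈ (S₁ : Subgroup G)) : d = 1 :=
  h.inter hne hd1 (mem_of_fix (h.sq S₁ hd1) (mem_DD.1 hd).2)

lemma HH.DD_fix (h : HH G) {S₁ S₂ : Sylow 2 G} (hne : S₁ ≠ S₂) {d t : G} (hd : d ∈ DD S₁ S₂)
    (ht : t ∈ (S₁ : Subgroup G)) (ht1 : t ≠ 1) (hdt : d * t * d⁻¹ = t) : d = 1 := by
  apply h.DD_inter hne hd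
  rw [← h.cent S₁ ht ht1]
  apply mem_cent
  calc d * t = (d * t * d⁻¹) * d := by group
    _ = t * d := by rw [hdt]

/-- The non-identity elements of a Sylow subgroup. -/
abbrev Sh (S : Sylow 2 G) := {x : G // x ∈ (S : Subgroup G) ∧ x ≠ 1}

lemma card_Sh (S : Sylow 2 G) : Nat.card (Sh S) + 1 = Nat.card S := by
  classical
  letI := Fintype.ofFinite ↥(S : Subgroup G)
  letI := Fintype.ofFinite (Sh S)
  let e : Option (Sh S) ≃ ↥(S : Subgroup G) :=
    { toFun := fun o => o.elim 1 (fun x => ⟨x.1, x.2.1⟩)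
      invFun := fun y => if hy : (y : G) = 1 then none else some ⟨y, y.2, hy⟩
      left_inv := by
        rintro (_ | x)
        · simp
        · have := x.2.2
          simp [this]
      right_inv := by
        intro y
        by_cases hy : (y : G) = 1
        · simp only [hy, dite_true, Option.elim]
          exact (Subtype.ext hy).symm
        · simp only [hy, dite_false, Option.elim] }
  have h1 := Nat.card_congr e
  rw [Nat.card_eq_fintype_card, Nat.card_eq_fintype_card, Fintype.card_option] at h1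
  show Nat.card (Sh S) + 1 = Nat.card (S : Subgroup G)
  rw [Nat.card_eq_fintype_card, Nat.card_eq_fintype_card]
  exact h1

lemma card_sylow (S₁ S₂ : Sylow 2 G) : Nat.card S₁ = Nat.card S₂ := by
  rw [Sylow.card_eq_multiplicity, Sylow.card_eq_multiplicity]

lemma HH.card_DD_le (h : HH G) {S₁ S₂ : Sylow 2 G} (hne : S₁ ≠ S₂) :
    Nat.card (DD S₁ S₂) + 1 ≤ Nat.card S₁ := by
  obtain ⟨t, ht, ht1⟩ := h.exists_ne_one S₁
  rw [← card_Sh]
  have hmem : ∀ d : DD S₁ S₂, (d : G) * t * (d : G)⁻¹ ∈ (S₁ : Subgroup G) ∧ (d : G) * t * (d : G)⁻¹ ≠ 1 := by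
    intro d
    refine ⟨conj_mem_of_fix (mem_DD.1 d.2).1 ht, fun h1 => ht1 ?_⟩
    have := congrArg (fun x => (d : G)⁻¹ * x * (d : G)) h1
    simpa [mul_assoc] using this
  let f : DD S₁ S₂ → Sh S₁ := fun d => ⟨(d : G) * t * (d : G)⁻¹, hmem d⟩
  have hf : Function.Injective f := by
    intro a b hab
    have h1 : (a : G) * t * (a : G)⁻¹ = (b : G) * t * (b : G)⁻¹ := congrArg Subtype.val hab
    have h2 : (b : G)⁻¹ * a = 1 := by
      apply h.DD_fix hne (mul_mem (inv_mem b.2) a.2) ht ht1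
      calc (b : G)⁻¹ * a * t * ((b : G)⁻¹ * a)⁻¹ = (b : G)⁻¹ * ((a : G) * t * (a : G)⁻¹) * b := by group
        _ = (b : G)⁻¹ * ((b : G) * t * (b : G)⁻¹) * b := by rw [h1]
        _ = t := by group
    apply Subtype.ext
    exact (inv_mul_eq_one.1 h2).symm
  have := Nat.card_le_card_of_injective f hf
  omega

lemma exists_sylow_of_invol {w : G} (hw : w * w = 1) : ∃ S : Sylow 2 G, w ∈ (S : Subgroup G) := by
  have hp : IsPGroup 2 (zpowers w) := by
    intro c
    obtain ⟨c, k, rfl⟩ := c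
    refine ⟨1, ?_⟩
    apply Subtype.ext
    show (w ^ k) ^ 2 ^ 1 = 1
    rw [pow_one, ← zpow_natCast, ← zpow_mul, mul_comm, zpow_mul]
    have : w ^ ((2 : ℕ) : ℤ) = 1 := by
      rw [zpow_natCast, pow_two, hw]
    rw [this, one_zpow]
  obtain ⟨S, hS⟩ := hp.exists_le_sylow
  exact ⟨S, hS (mem_zpowers w)⟩

lemma smul_smul_of_invol {w : G} (hw : w * w = 1) (S : Sylow 2 G) : w • (w • S) = S := by
  rw [smul_smul, hw, one_smul]

/-- The counting argument. -/
lemma HH.key (h : HH G) {S₁ S₂ : Sylow 2 G} (hne : S₁ ≠ S₂) :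
    Nat.card (DD S₁ S₂) + 1 = Nat.card S₁ ∧ (∃ w : G, w * w = 1 ∧ w • S₁ = S₂) ∧
      ∀ w : G, w * w = 1 → w • S₁ = S₂ → ∀ d ∈ DD S₁ S₂, (w * d) * (w * d) = 1 := by
  classical
  letI := Fintype.ofFinite G
  letI := Fintype.ofFinite (Sylow 2 G)
  set q := Nat.card S₁ with hq
  have hq3 := h.h3 S₁
  set s : Finset G := Finset.univ.filter (fun w : G => w * w = 1 ∧ w ∉ (S₁ : Subgroup G)) with hs
  set t : Finset (Sylow 2 G) := Finset.univ.erase S₁ with ht
  -- first count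
  have hsh : ∀ S : Sylow 2 G, (Finset.univ.filter (fun x : G => x ∈ (S : Subgroup G) ∧ x ≠ 1)).card = q - 1 := by
    intro S
    have h1 := card_Sh S
    rw [card_sylow S S₁] at h1
    have h2 : Nat.card (Sh S) = (Finset.univ.filter (fun x : G => x ∈ (S : Subgroup G) ∧ x ≠ 1)).card := by
      rw [Nat.card_eq_fintype_card, Fintype.card_subtype]
    omega
  have hA : s.card = t.card * (q - 1) := by
    have hbi : s = t.biUnion (fun S => Finset.univ.filter (fun x : G => x ∈ (S : Subgroup G) ∧ x ≠ 1)) := by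
      ext w
      simp only [hs, ht, Finset.mem_filter, Finset.mem_univ, true_and, Finset.mem_biUnion, Finset.mem_erase,
        and_true]
      constructor
      · rintro ⟨hw, hw1⟩
        obtain ⟨S, hS⟩ := exists_sylow_of_invol hw
        refine ⟨S, ?_, hS, ?_⟩
        · rintro rfl
          exact hw1 hS
        · rintro rfl
          exact hw1 (one_mem _)
      · rintro ⟨S, hS1, hS2, hS3⟩
        exact ⟨h.sq S hS2, fun hw1 => hS3 (h.inter hS1 hS2 hw1)⟩
    rw [hbi, Finset.card_biUnion]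
    · rw [Finset.sum_congr rfl (fun S _ => hsh S), Finset.sum_const, smul_eq_mul]
    · intro S _ S' _ hSS
      rw [Function.onFun, Finset.disjoint_left]
      intro x hx hx'
      simp only [Finset.mem_filter, Finset.mem_univ, true_and] at hx hx'
      exact hx.2 (h.inter hSS hx.1 hx'.1)
  -- second count
  have hB : s.card = ∑ S ∈ t, (s.filter (fun w : G => w • S₁ = S)).card := by
    apply Finset.card_eq_sum_card_fiberwise
    intro w hw
    simp only [hs, Finset.coe_filter, Finset.mem_univ, true_and, Set.mem_setOf_eq] at hw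
    simp only [ht, Finset.coe_erase, Finset.coe_univ, Set.mem_diff, Set.mem_univ, Set.mem_singleton_iff, true_and]
    intro h1
    exact hw.2 (mem_of_fix hw.1 h1)
  -- bound
  have hfib : ∀ S ∈ t, (s.filter (fun w : G => w • S₁ = S)).card ≤ q - 1 := by
    intro S hS
    have hSne : S₁ ≠ S := fun h0 => (Finset.mem_erase.1 hS).1 h0.symm
    have hb := h.card_DD_le hSne
    rcases (s.filter (fun w : G => w • S₁ = S)).eq_empty_or_nonempty with he | ⟨w₀, hw₀⟩
    · rw [he, Finset.card_empty]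
      exact Nat.zero_le _
    · simp only [hs, Finset.mem_filter, Finset.mem_univ, true_and] at hw₀
      have hmem : ∀ w : ↥(s.filter (fun w : G => w • S₁ = S)), w₀ * (w : G) ∈ DD S₁ S := by
        intro w
        have hw := w.2
        simp only [hs, Finset.mem_filter, Finset.mem_univ, true_and] at hw
        rw [mem_DD]
        constructor
        · have h0 : w₀ • S = S₁ := by
            calc w₀ • S = w₀ • (w₀ • S₁) := by rw [hw₀.2]
              _ = S₁ := smul_smul_of_invol hw₀.1.1 _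
          rw [mul_smul, hw.2, h0]
        · have h1 : (w : G) • S = S₁ := by
            calc (w : G) • S = (w : G) • ((w : G) • S₁) := by rw [hw.2]
              _ = S₁ := smul_smul_of_invol hw.1.1 _
          rw [mul_smul, h1, hw₀.2]
      let f : ↥(s.filter (fun w : G => w • S₁ = S)) → DD S₁ S := fun w => ⟨w₀ * w, hmem w⟩
      have hf : Function.Injective f := by
        intro a b hab
        have := congrArg Subtype.val hab
        exact Subtype.ext (mul_left_cancel this)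
      have h2 := Nat.card_le_card_of_injective f hf
      rw [Nat.card_eq_fintype_card (α := ↥(s.filter (fun w : G => w • S₁ = S))), Fintype.card_coe] at h2
      omega
  have heq : ∀ S ∈ t, (s.filter (fun w : G => w • S₁ = S)).card = q - 1 := by
    have hsum : ∑ S ∈ t, (s.filter (fun w : G => w • S₁ = S)).card = ∑ _S ∈ t, (q - 1) := by
      rw [← hB, hA, Finset.sum_const, smul_eq_mul]
    exact (Finset.sum_eq_sum_iff_of_le hfib).1 hsum
  have hS₂ : S₂ ∈ t := Finset.mem_erase.2 ⟨fun h0 => hne h0.symm, Finset.mem_univ _⟩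
  have hc := heq S₂ hS₂
  have hb := h.card_DD_le hne
  have hmemF : ∀ w : G, w * w = 1 → w • S₁ = S₂ → w ∈ s.filter (fun w : G => w • S₁ = S₂) := by
    intro w hw hw2
    simp only [hs, Finset.mem_filter, Finset.mem_univ, true_and]
    refine ⟨⟨hw, fun h1 => hne ?_⟩, hw2⟩
    rw [← hw2]
    exact (smul_eq_iff.2 (le_normalizer h1)).symm
  -- a surjectivity statement
  have hsurj : ∀ w₀ : G, w₀ * w₀ = 1 → w₀ • S₁ = S₂ →
      Nat.card (DD S₁ S₂) + 1 = q ∧ ∀ d ∈ DD S₁ S₂, (w₀ * d) * (w₀ * d) = 1 := by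
    intro w₀ hw₀ hw₀2
    have hmem : ∀ w : ↥(s.filter (fun w : G => w • S₁ = S₂)), w₀ * (w : G) ∈ DD S₁ S₂ := by
      intro w
      have hw := w.2
      simp only [hs, Finset.mem_filter, Finset.mem_univ, true_and] at hw
      rw [mem_DD]
      constructor
      · have h0 : w₀ • S₂ = S₁ := by
          calc w₀ • S₂ = w₀ • (w₀ • S₁) := by rw [hw₀2]
            _ = S₁ := smul_smul_of_invol hw₀ _
        rw [mul_smul, hw.2, h0]
      · have h1 : (w : G) • S₂ = S₁ := by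
          calc (w : G) • S₂ = (w : G) • ((w : G) • S₁) := by rw [hw.2]
            _ = S₁ := smul_smul_of_invol hw.1.1 _
        rw [mul_smul, h1, hw₀2]
    let f : ↥(s.filter (fun w : G => w • S₁ = S₂)) → DD S₁ S₂ := fun w => ⟨w₀ * w, hmem w⟩
    have hf : Function.Injective f := by
      intro a b hab
      have := congrArg Subtype.val hab
      exact Subtype.ext (mul_left_cancel this)
    have h2 := Nat.card_le_card_of_injective f hf
    rw [Nat.card_eq_fintype_card (α := ↥(s.filter (fun w : G => w • S₁ = S₂))), Fintype.card_coe] at h2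
    have hcard : Nat.card (DD S₁ S₂) + 1 = q := by omega
    refine ⟨hcard, ?_⟩
    have hbij : Function.Bijective f := by
      apply hf.bijective_of_nat_card_le
      rw [Nat.card_eq_fintype_card (α := ↥(s.filter (fun w : G => w • S₁ = S₂))), Fintype.card_coe]
      omega
    intro d hd
    obtain ⟨w₁, hw₁⟩ := hbij.2 ⟨d, hd⟩
    have h3 : w₀ * (w₁ : G) = d := congrArg Subtype.val hw₁
    have hw₁' := w₁.2
    simp only [hs, Finset.mem_filter, Finset.mem_univ, true_and] at hw₁'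
    have h4 : w₀ * d = w₁ := by
      rw [← h3, ← mul_assoc, hw₀, one_mul]
    rw [h4]
    exact hw₁'.1.1
  -- existence of an element
  have hne_F : (s.filter (fun w : G => w • S₁ = S₂)).Nonempty := by
    rw [← Finset.card_pos, hc]
    omega
  obtain ⟨w₀, hw₀⟩ := hne_F
  simp only [hs, Finset.mem_filter, Finset.mem_univ, true_and] at hw₀
  refine ⟨(hsurj w₀ hw₀.1.1 hw₀.2).1, ⟨w₀, hw₀.1.1, hw₀.2⟩, fun w hw hw2 => (hsurj w hw hw2).2⟩


omit [Finite G] in
lemma inv_of {w d : G} (hw : w * w = 1) (hwd : (w * d) * (w * d) = 1) : w * d * w⁻¹ = d⁻¹ := by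
  have h1 : w⁻¹ = w := inv_eq_of_mul_eq_one_left hw
  rw [h1]
  apply eq_inv_of_mul_eq_one_left
  rw [← hwd]
  group

lemma HH.DD_comm (h : HH G) {S₁ S₂ : Sylow 2 G} (hne : S₁ ≠ S₂) {a b : G} (ha : a ∈ DD S₁ S₂)
    (hb : b ∈ DD S₁ S₂) : a * b = b * a := by
  obtain ⟨-, ⟨w, hw, hw2⟩, hinv⟩ := h.key hne
  have h1 := inv_of hw (hinv w hw hw2 a ha)
  have h2 := inv_of hw (hinv w hw hw2 b hb)
  have h3 := inv_of hw (hinv w hw hw2 (a * b) (mul_mem ha hb))
  have h4 : w * (a * b) * w⁻¹ = (w * a * w⁻¹) * (w * b * w⁻¹) := by group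
  rw [h4, h1, h2, mul_inv_rev] at h3
  have h5 := congrArg (fun x => x⁻¹) h3
  simp only [mul_inv_rev, inv_inv] at h5
  exact h5.symm

lemma HH.DD_trans (h : HH G) {S₁ S₂ : Sylow 2 G} (hne : S₁ ≠ S₂) {t x : G} (ht : t ∈ (S₁ : Subgroup G))
    (ht1 : t ≠ 1) (hx : x ∈ (S₁ : Subgroup G)) (hx1 : x ≠ 1) : ∃ d ∈ DD S₁ S₂, d * t * d⁻¹ = x := by
  have hmem : ∀ d : DD S₁ S₂, (d : G) * t * (d : G)⁻¹ ∈ (S₁ : Subgroup G) ∧ (d : G) * t * (d : G)⁻¹ ≠ 1 := by
    intro d
    refine ⟨conj_mem_of_fix (mem_DD.1 d.2).1 ht, fun h1 => ht1 ?_⟩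
    have := congrArg (fun x => (d : G)⁻¹ * x * (d : G)) h1
    simpa [mul_assoc] using this
  let f : DD S₁ S₂ → Sh S₁ := fun d => ⟨(d : G) * t * (d : G)⁻¹, hmem d⟩
  have hf : Function.Injective f := by
    intro a b hab
    have h1 : (a : G) * t * (a : G)⁻¹ = (b : G) * t * (b : G)⁻¹ := congrArg Subtype.val hab
    have h2 : (b : G)⁻¹ * a = 1 := by
      apply h.DD_fix hne (mul_mem (inv_mem b.2) a.2) ht ht1
      calc (b : G)⁻¹ * a * t * ((b : G)⁻¹ * a)⁻¹ = (b : G)⁻¹ * ((a : G) * t * (a : G)⁻¹) * b := by group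
        _ = (b : G)⁻¹ * ((b : G) * t * (b : G)⁻¹) * b := by rw [h1]
        _ = t := by group
    apply Subtype.ext
    exact (inv_mul_eq_one.1 h2).symm
  have hk := (h.key hne).1
  have hsh := card_Sh S₁
  have hbij : Function.Bijective f := hf.bijective_of_nat_card_le (by omega)
  obtain ⟨d, hd⟩ := hbij.2 ⟨x, hx, hx1⟩
  exact ⟨d, d.2, congrArg Subtype.val hd⟩

lemma HH.decomp (h : HH G) {S₁ S₂ : Sylow 2 G} (hne : S₁ ≠ S₂) {y : G} (hy : y • S₁ = S₁) :
    ∃ d ∈ DD S₁ S₂, ∃ u ∈ (S₁ : Subgroup G), y = d * u := by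
  obtain ⟨t, ht, ht1⟩ := h.exists_ne_one S₁
  have hx1 : y * t * y⁻¹ ≠ 1 := by
    intro h1
    apply ht1
    have := congrArg (fun x => y⁻¹ * x * y) h1
    simpa [mul_assoc] using this
  obtain ⟨d, hd, hdt⟩ := h.DD_trans hne ht ht1 (conj_mem_of_fix hy ht) hx1
  refine ⟨d, hd, d⁻¹ * y, ?_, by group⟩
  rw [← h.cent S₁ ht ht1]
  apply mem_cent
  have : d⁻¹ * y * t * y⁻¹ * d = t := by
    calc d⁻¹ * y * t * y⁻¹ * d = d⁻¹ * (y * t * y⁻¹) * d := by group
      _ = d⁻¹ * (d * t * d⁻¹) * d := by rw [hdt]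
      _ = t := by group
  calc d⁻¹ * y * t = (d⁻¹ * y * t * y⁻¹ * d) * (d⁻¹ * y) := by group
    _ = t * (d⁻¹ * y) := by rw [this]

lemma eq_DD_of_le (h : HH G) {S₁ S₂ S₃ : Sylow 2 G} (h2 : S₁ ≠ S₂) (h3 : S₁ ≠ S₃)
    (hle : DD S₁ S₂ ≤ DD S₁ S₃) : DD S₁ S₂ = DD S₁ S₃ := by
  apply Subgroup.eq_of_le_of_card_ge hle
  have := (h.key h2).1
  have := (h.key h3).1
  omega

lemma HH.one_lt_card_DD (h : HH G) {S₁ S₂ : Sylow 2 G} (hne : S₁ ≠ S₂) : 1 < Nat.card (DD S₁ S₂) := by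
  have := (h.key hne).1
  have := h.h3 S₁
  omega

lemma HH.exists_DD_ne_one (h : HH G) {S₁ S₂ : Sylow 2 G} (hne : S₁ ≠ S₂) :
    ∃ x ∈ DD S₁ S₂, x ≠ 1 := by
  have h1 := h.one_lt_card_DD hne
  haveI : Nontrivial (DD S₁ S₂) := Finite.one_lt_card_iff_nontrivial.1 h1
  have hb : DD S₁ S₂ ≠ ⊥ := Subgroup.nontrivial_iff_ne_bot _ |>.1 inferInstance
  obtain ⟨x, hx⟩ := Subgroup.ne_bot_iff_exists_ne_one.1 hb
  exact ⟨x, x.2, fun h0 => hx (Subtype.ext h0)⟩

/-- The key geometric lemma: a two-point stabilizer fixes no third point. -/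
lemma HH.no_fix (h : HH G) {S₁ S₂ S₃ : Sylow 2 G} (h12 : S₁ ≠ S₂) (h13 : S₁ ≠ S₃) (h23 : S₂ ≠ S₃)
    (hfix : ∀ d ∈ DD S₁ S₂, d • S₃ = S₃) : False := by
  have hle : DD S₁ S₂ ≤ DD S₁ S₃ := fun d hd => mem_DD.2 ⟨(mem_DD.1 hd).1, hfix d hd⟩
  have heq3 := eq_DD_of_le h h12 h13 hle
  obtain ⟨-, ⟨w, hw, hw2⟩, hinv⟩ := h.key h12
  obtain ⟨-, ⟨w', hw', hw'2⟩, hinv'⟩ := h.key h13
  have hI : ∀ d ∈ DD S₁ S₂, w * d * w⁻¹ = d⁻¹ := fun d hd => inv_of hw (hinv w hw hw2 d hd)
  have hI' : ∀ d ∈ DD S₁ S₂, w' * d * w'⁻¹ = d⁻¹ := fun d hd =>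
    inv_of hw' (hinv' w' hw' hw'2 d (heq3 ▸ hd))
  set c := w * w' with hc
  have hcc : ∀ d ∈ DD S₁ S₂, c * d * c⁻¹ = d := by
    intro d hd
    calc c * d * c⁻¹ = w * (w' * d * w'⁻¹) * w⁻¹ := by rw [hc]; group
      _ = w * d⁻¹ * w⁻¹ := by rw [hI' d hd]
      _ = (w * d * w⁻¹)⁻¹ := by group
      _ = (d⁻¹)⁻¹ := by rw [hI d hd]
      _ = d := inv_inv d
  set S₄ := c • S₁ with hS₄
  have h4w : S₄ = w • S₃ := by rw [hS₄, hc, mul_smul, hw'2]
  have h14 : S₁ ≠ S₄ := by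
    intro h0
    apply h23
    rw [← hw2]
    calc w • S₁ = w • S₄ := by rw [← h0]
      _ = w • (w • S₃) := by rw [h4w]
      _ = S₃ := smul_smul_of_invol hw _
  have hle4 : DD S₁ S₂ ≤ DD S₁ S₄ := by
    intro d hd
    have hd1 := (mem_DD.1 hd).1
    refine mem_DD.2 ⟨hd1, ?_⟩
    have hdc : d * c = c * d := by
      have := hcc d hd
      calc d * c = (c * d * c⁻¹) * c := by rw [this]
        _ = c * d := by group
    rw [hS₄, smul_smul, hdc, mul_smul, hd1]
  have heq4 := eq_DD_of_le h h12 h14 hle4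
  obtain ⟨-, ⟨w'', hw'', hw''2⟩, hinv''⟩ := h.key h14
  have hI'' : ∀ d ∈ DD S₁ S₂, w'' * d * w''⁻¹ = d⁻¹ := fun d hd =>
    inv_of hw'' (hinv'' w'' hw'' hw''2 d (heq4 ▸ hd))
  set y := c⁻¹ * w'' with hy
  have hyfix : y • S₁ = S₁ := by
    rw [hy, mul_smul, hw''2, hS₄, inv_smul_smul]
  have hyI : ∀ d ∈ DD S₁ S₂, y * d * y⁻¹ = d⁻¹ := by
    intro d hd
    have hd' : c⁻¹ * d⁻¹ * c = d⁻¹ := by
      have := hcc d hd
      have h1 : c * d = d * c := by
        calc c * d = (c * d * c⁻¹) * c := by group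
          _ = d * c := by rw [this]
      have h2 : c * d⁻¹ = d⁻¹ * c := by
        calc c * d⁻¹ = d⁻¹ * (d * c) * d⁻¹ := by group
          _ = d⁻¹ * (c * d) * d⁻¹ := by rw [h1]
          _ = d⁻¹ * c := by group
      calc c⁻¹ * d⁻¹ * c = c⁻¹ * (d⁻¹ * c) := by group
        _ = c⁻¹ * (c * d⁻¹) := by rw [h2]
        _ = d⁻¹ := by group
    calc y * d * y⁻¹ = c⁻¹ * (w'' * d * w''⁻¹) * c := by rw [hy]; group
      _ = c⁻¹ * d⁻¹ * c := by rw [hI'' d hd]
      _ = d⁻¹ := hd'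
  obtain ⟨d₁, hd₁, u, hu, hyu⟩ := h.decomp h12 hyfix
  have huI : ∀ d ∈ DD S₁ S₂, u * d * u⁻¹ = d⁻¹ := by
    intro d hd
    have hu' : u = d₁⁻¹ * y := by rw [hyu]; group
    have hcomm := h.DD_comm h12 hd₁ (inv_mem hd)
    calc u * d * u⁻¹ = d₁⁻¹ * (y * d * y⁻¹) * d₁ := by rw [hu']; group
      _ = d₁⁻¹ * (d⁻¹ * d₁) := by rw [hyI d hd]; group
      _ = d₁⁻¹ * (d₁ * d⁻¹) := by rw [hcomm]
      _ = d⁻¹ := by group
  have hall : ∀ d ∈ DD S₁ S₂, d = 1 := by
    intro d hd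
    have hd1 := (mem_DD.1 hd).1
    have hm : d⁻¹ * d⁻¹ ∈ (S₁ : Subgroup G) := by
      have h1 : d * u⁻¹ * d⁻¹ ∈ (S₁ : Subgroup G) := conj_mem_of_fix hd1 (inv_mem hu)
      have h2 : u * (d * u⁻¹ * d⁻¹) ∈ (S₁ : Subgroup G) := mul_mem hu h1
      have h3 : u * (d * u⁻¹ * d⁻¹) = d⁻¹ * d⁻¹ := by
        calc u * (d * u⁻¹ * d⁻¹) = (u * d * u⁻¹) * d⁻¹ := by group
          _ = d⁻¹ * d⁻¹ := by rw [huI d hd]
      rwa [h3] at h2
    have h2 : d⁻¹ * d⁻¹ = 1 := h.DD_inter h12 (mul_mem (inv_mem hd) (inv_mem hd)) hm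
    have h3 : d * d = 1 := by
      have := congrArg (fun x => x⁻¹) h2
      simpa using this
    exact h.DD_inter h12 hd (mem_of_fix h3 hd1)
  obtain ⟨x, hx, hx1⟩ := h.exists_DD_ne_one h12
  exact hx1 (hall x hx)

/-- Elements fixing three points are trivial. -/
lemma HH.three_trivial (h : HH G) {T S S' : Sylow 2 G} (h1 : T ≠ S) (h2 : T ≠ S') (h3 : S ≠ S')
    {x : G} (hx : x ∈ DD T S) (hx' : x ∈ DD T S') : x = 1 := by
  by_contra hx1
  have hle : DD T S' ≤ DD T S := by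
    intro y hy
    obtain ⟨d, hd, u, hu, hyu⟩ := h.decomp h1 (mem_DD.1 hy).1
    have hcomm1 : y * x = x * y := h.DD_comm h2 hy hx'
    have hcomm2 : d * x = x * d := h.DD_comm h1 hd hx
    have hu1 : u = 1 := by
      by_contra hu1
      apply hx1
      apply h.DD_inter h1 hx
      rw [← h.cent T hu hu1]
      apply mem_cent
      have hu' : u = d⁻¹ * y := by rw [hyu]; group
      have hdi : d⁻¹ * x = x * d⁻¹ := by
        rw [inv_mul_eq_iff_eq_mul, ← mul_assoc, hcomm2, mul_assoc, mul_inv_cancel, mul_one]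
      rw [hu']
      calc x * (d⁻¹ * y) = (x * d⁻¹) * y := by group
        _ = (d⁻¹ * x) * y := by rw [hdi]
        _ = d⁻¹ * (x * y) := by group
        _ = d⁻¹ * (y * x) := by rw [hcomm1]
        _ = d⁻¹ * y * x := by group
    rw [hyu, hu1, mul_one]
    exact hd
  have heq := eq_DD_of_le h h2 h1 hle
  exact h.no_fix h1 h2 h3 (fun d hd => (mem_DD.1 (heq ▸ hd)).2)

/-- `T` is transitive on the other points. -/
lemma HH.transT (h : HH G) {T S₀ S' : Sylow 2 G} (h0 : T ≠ S₀) (h1 : T ≠ S') :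
    ∃ v ∈ (T : Subgroup G), v • S' = S₀ := by
  by_cases he : S₀ = S'
  · exact ⟨1, one_mem _, by rw [one_smul, he]⟩
  obtain ⟨x, hx, hx1⟩ := h.exists_DD_ne_one h1
  have hxT := (mem_DD.1 hx).1
  obtain ⟨d, hd, u, hu, hxu⟩ := h.decomp h0 hxT
  have hxnT : x ∉ (T : Subgroup G) := fun hm => hx1 (h.DD_inter h1 hx hm)
  have hd1 : d ≠ 1 := by
    rintro rfl
    rw [one_mul] at hxu
    exact hxnT (hxu ▸ hu)
  have hmem : ∀ v : ↥(T : Subgroup G), (v : G) * (x * (v : G)⁻¹ * x⁻¹) ∈ (T : Subgroup G) := fun v =>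
    mul_mem v.2 (conj_mem_of_fix hxT (inv_mem v.2))
  let ψ : ↥(T : Subgroup G) → ↥(T : Subgroup G) := fun v => ⟨(v : G) * (x * (v : G)⁻¹ * x⁻¹), hmem v⟩
  have hψ : Function.Injective ψ := by
    intro a b hab
    have h2 : (a : G) * (x * (a : G)⁻¹ * x⁻¹) = (b : G) * (x * (b : G)⁻¹ * x⁻¹) := congrArg Subtype.val hab
    by_contra hne
    have hc1 : (b : G)⁻¹ * a ≠ 1 := by
      intro h3
      exact hne (Subtype.ext (inv_mul_eq_one.1 h3).symm)
    have hc2 : (b : G)⁻¹ * a ∈ (T : Subgroup G) := mul_mem (inv_mem b.2) a.2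
    apply hxnT
    rw [← h.cent T hc2 hc1]
    apply mem_cent
    have h3 : (a : G) * x * (a : G)⁻¹ = (b : G) * x * (b : G)⁻¹ := by
      have := congrArg (fun z => z * x) h2
      simpa [mul_assoc] using this
    calc x * ((b : G)⁻¹ * a) = (b : G)⁻¹ * ((b : G) * x * (b : G)⁻¹) * a := by group
      _ = (b : G)⁻¹ * ((a : G) * x * (a : G)⁻¹) * a := by rw [h3]
      _ = (b : G)⁻¹ * a * x := by group
  have hsurj : Function.Surjective ψ := Finite.surjective_of_injective hψ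
  have hdx : d * x⁻¹ ∈ (T : Subgroup G) := by
    have h2 : d * x⁻¹ = x * u⁻¹ * x⁻¹ := by rw [hxu]; group
    rw [h2]
    exact conj_mem_of_fix hxT (inv_mem hu)
  obtain ⟨v, hv⟩ := hsurj ⟨_, hdx⟩
  have hv' : (v : G) * (x * (v : G)⁻¹ * x⁻¹) = d * x⁻¹ := congrArg Subtype.val hv
  have hv2 : (v : G) * x * (v : G)⁻¹ = d := by
    have := congrArg (fun z => z * x) hv'
    simpa [mul_assoc] using this
  refine ⟨v, v.2, ?_⟩
  by_contra hne
  have hvT : (v : G) • T = T := smul_eq_iff.2 (le_normalizer v.2)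
  have h3 : T ≠ (v : G) • S' := by
    intro h4
    apply h1
    have : (v : G) • T = (v : G) • S' := by rw [hvT]; exact h4
    exact smul_left_cancel _ this
  apply hd1
  have hfix : d • ((v : G) • S') = (v : G) • S' := by
    rw [← hv2, smul_smul]
    have : (v : G) * x * (v : G)⁻¹ * (v : G) = (v : G) * x := by group
    rw [this, mul_smul, (mem_DD.1 hx).2]
  exact h.three_trivial h0 h3 (fun h4 => hne h4.symm) hd (mem_DD.2 ⟨(mem_DD.1 hd).1, hfix⟩)

/-- The stabilizer of two points is transitive on the rest. -/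
lemma HH.transD (h : HH G) {T S₀ S₁ S' : Sylow 2 G} (h0 : T ≠ S₀) (h1 : T ≠ S₁) (h1' : S₀ ≠ S₁)
    (h2 : T ≠ S') (h2' : S₀ ≠ S') : ∃ d ∈ DD T S₀, d • S' = S₁ := by
  let X := {S : Sylow 2 G // T ≠ S ∧ S₀ ≠ S}
  have hmemX : ∀ v : Sh T, T ≠ (v : G) • S₀ ∧ S₀ ≠ (v : G) • S₀ := by
    intro v
    constructor
    · intro h3
      apply h0
      have hvT : (v : G) • T = T := smul_eq_iff.2 (le_normalizer v.2.1)
      have : (v : G) • T = (v : G) • S₀ := by rw [hvT]; exact h3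
      exact smul_left_cancel _ this
    · intro h3
      have hm := mem_of_fix (h.sq T v.2.1) h3.symm
      exact v.2.2 (h.inter h0 v.2.1 hm)
  let e : Sh T → X := fun v => ⟨(v : G) • S₀, hmemX v⟩
  have he : Function.Bijective e := by
    constructor
    · intro a b hab
      have h3 : (a : G) • S₀ = (b : G) • S₀ := congrArg Subtype.val hab
      apply Subtype.ext
      have hm : (b : G)⁻¹ * a ∈ (T : Subgroup G) := mul_mem (inv_mem b.2.1) a.2.1
      have hfix : ((b : G)⁻¹ * a) • S₀ = S₀ := by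
        rw [mul_smul, h3, inv_smul_smul]
      have := h.inter h0 hm (mem_of_fix (h.sq T hm) hfix)
      exact (inv_mul_eq_one.1 this).symm
    · rintro ⟨S, hS1, hS2⟩
      obtain ⟨v, hv, hvS⟩ := h.transT hS1 h0
      refine ⟨⟨v, hv, ?_⟩, Subtype.ext hvS⟩
      rintro rfl
      rw [one_smul] at hvS
      exact hS2 hvS
  have hcardX : Nat.card (Sh T) = Nat.card X := Nat.card_congr (Equiv.ofBijective e he)
  have hmemY : ∀ d : DD T S₀, T ≠ (d : G) • S' ∧ S₀ ≠ (d : G) • S' := by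
    intro d
    constructor
    · intro h3
      apply h2
      have hd := (mem_DD.1 d.2).1
      have : (d : G) • T = (d : G) • S' := by rw [hd]; exact h3
      exact smul_left_cancel _ this
    · intro h3
      apply h2'
      have hd := (mem_DD.1 d.2).2
      have : (d : G) • S₀ = (d : G) • S' := by rw [hd]; exact h3
      exact smul_left_cancel _ this
  let f : DD T S₀ → X := fun d => ⟨(d : G) • S', hmemY d⟩
  have hf : Function.Injective f := by
    intro a b hab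
    have h3 : (a : G) • S' = (b : G) • S' := congrArg Subtype.val hab
    have hm : (b : G)⁻¹ * a ∈ DD T S₀ := mul_mem (inv_mem b.2) a.2
    have hfix : ((b : G)⁻¹ * a) • S' = S' := by
      rw [mul_smul, h3, inv_smul_smul]
    have h4 : (b : G)⁻¹ * a = 1 :=
      h.three_trivial h0 h2 h2' hm (mem_DD.2 ⟨(mem_DD.1 hm).1, hfix⟩)
    apply Subtype.ext
    exact (inv_mul_eq_one.1 h4).symm
  have hk := (h.key h0).1
  have hsh := card_Sh T
  have hbij : Function.Bijective f := hf.bijective_of_nat_card_le (by omega)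
  obtain ⟨d, hd⟩ := hbij.2 ⟨S₁, h1, h1'⟩
  exact ⟨d, d.2, congrArg Subtype.val hd⟩

/-- Number of Sylow subgroups. -/
lemma HH.card_sylow_eq (h : HH G) {T S₀ : Sylow 2 G} (h0 : T ≠ S₀) :
    Nat.card (Sylow 2 G) = Nat.card T + 1 := by
  classical
  letI := Fintype.ofFinite (Sylow 2 G)
  have hmem : ∀ v : ↥(T : Subgroup G), (v : G) • S₀ ≠ T := by
    intro v h3
    apply h0
    have hvT : (v : G) • T = T := smul_eq_iff.2 (le_normalizer v.2)
    have : (v : G) • T = (v : G) • S₀ := by rw [hvT]; exact h3.symm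
    exact smul_left_cancel _ this
  let e : ↥(T : Subgroup G) → {S : Sylow 2 G // S ≠ T} := fun v => ⟨(v : G) • S₀, hmem v⟩
  have he : Function.Bijective e := by
    constructor
    · intro a b hab
      have h3 : (a : G) • S₀ = (b : G) • S₀ := congrArg Subtype.val hab
      apply Subtype.ext
      have hm : (b : G)⁻¹ * a ∈ (T : Subgroup G) := mul_mem (inv_mem b.2) a.2
      have hfix : ((b : G)⁻¹ * a) • S₀ = S₀ := by
        rw [mul_smul, h3, inv_smul_smul]
      have := h.inter h0 hm (mem_of_fix (h.sq T hm) hfix)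
      exact (inv_mul_eq_one.1 this).symm
    · rintro ⟨S, hS⟩
      obtain ⟨v, hv, hvS⟩ := h.transT (Ne.symm hS) h0
      exact ⟨⟨v, hv⟩, Subtype.ext hvS⟩
  have h1 : Nat.card ↥(T : Subgroup G) = Nat.card {S : Sylow 2 G // S ≠ T} :=
    Nat.card_congr (Equiv.ofBijective e he)
  have h2 : Nat.card {S : Sylow 2 G // S ≠ T} + 1 = Nat.card (Sylow 2 G) := by
    rw [Nat.card_eq_fintype_card, Nat.card_eq_fintype_card]
    have h3 : Fintype.card {S : Sylow 2 G // S ≠ T} = Fintype.card (Sylow 2 G) - 1 := by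
      rw [Fintype.card_subtype_compl, Fintype.card_subtype_eq]
    have h4 : 0 < Fintype.card (Sylow 2 G) := Fintype.card_pos_iff.2 ⟨T⟩
    omega
  show Nat.card (Sylow 2 G) = Nat.card ↥(T : Subgroup G) + 1
  omega

/-- Normal form for triples. -/
lemma HH.to_std (h : HH G) {T S₀ S₁ a b c : Sylow 2 G} (h0 : T ≠ S₀) (h1 : T ≠ S₁) (h1' : S₀ ≠ S₁)
    (hab : a ≠ b) (hac : a ≠ c) (hbc : b ≠ c) : ∃ g : G, g • a = T ∧ g • b = S₀ ∧ g • c = S₁ := by
  obtain ⟨g₁, hg₁⟩ := MulAction.exists_smul_eq G a T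
  have hb1 : T ≠ g₁ • b := by
    rw [← hg₁]
    exact fun h2 => hab (smul_left_cancel _ h2)
  have hc1 : T ≠ g₁ • c := by
    rw [← hg₁]
    exact fun h2 => hac (smul_left_cancel _ h2)
  have hbc1 : g₁ • b ≠ g₁ • c := fun h2 => hbc (smul_left_cancel _ h2)
  obtain ⟨v, hv, hvb⟩ := h.transT h0 hb1
  have hvT : v • T = T := smul_eq_iff.2 (le_normalizer hv)
  have hc2 : T ≠ v • (g₁ • c) := by
    intro h2
    apply hc1
    have : v • T = v • (g₁ • c) := by rw [hvT]; exact h2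
    exact smul_left_cancel _ this
  have hc3 : S₀ ≠ v • (g₁ • c) := by
    rw [← hvb]
    exact fun h2 => hbc1 (smul_left_cancel _ h2)
  obtain ⟨d, hd, hdc⟩ := h.transD h0 h1 h1' hc2 hc3
  obtain ⟨hd1, hd2⟩ := mem_DD.1 hd
  refine ⟨d * (v * g₁), ?_, ?_, ?_⟩
  · rw [mul_smul, mul_smul, hg₁, hvT, hd1]
  · rw [mul_smul, mul_smul, hvb, hd2]
  · rw [mul_smul, mul_smul, hdc]

lemma HH.sharp (h : HH G) {g : G} {a b c : Sylow 2 G} (hab : a ≠ b) (hac : a ≠ c) (hbc : b ≠ c)
    (ha : g • a = a) (hb : g • b = b) (hc : g • c = c) : g = 1 :=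
  h.three_trivial hab hac hbc (mem_DD.2 ⟨ha, hb⟩) (mem_DD.2 ⟨ha, hc⟩)


/-- Let G be a finite group with a Sylow 2-subgroup T that is neither cyclic nor normal, such that the centralizer of every involution is an elementary abelian 2-group. Then G ≅ PSL(2,F) for a finite field F with |F| = |T|. -/
theorem result {G : Type*} [Group G] [Finite G] (T : Sylow 2 G) (hnc : ¬ IsCyclic (T : Subgroup G)) (hnn : ¬ (T : Subgroup G).Normal) (hC : ∀ t : G, orderOf t = 2 → IsMulCommutative (Subgroup.centralizer ({t} : Set G)) ∧ ∀ c ∈ Subgroup.centralizer ({t} : Set G), c ^ 2 = 1) : ∃ (F : Type) (_ : Field F) (_ : Fintype F), Fintype.card F = Nat.card T ∧ Nonempty (G ≃* Matrix.ProjectiveSpecialLinearGroup (Fin 2) F) := by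
  classical
  have hcomm : ∀ t : G, orderOf t = 2 → ∀ a ∈ centralizer ({t} : Set G), ∀ b ∈ centralizer ({t} : Set G),
      a * b = b * a := by
    intro t ht a ha b hb
    haveI := (hC t ht).1
    have := (IsMulCommutative.is_comm (M := ↥(centralizer ({t} : Set G)))).comm ⟨a, ha⟩ ⟨b, hb⟩
    exact congrArg Subtype.val this
  have hq3 : 3 ≤ Nat.card T := by
    by_contra hlt
    apply hnc
    have hpos : 0 < Nat.card ↥(T : Subgroup G) := Nat.card_pos
    have hlt' : Nat.card ↥(T : Subgroup G) < 3 := by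
      show Nat.card T < 3
      omega
    have hcases : Nat.card ↥(T : Subgroup G) = 1 ∨ Nat.card ↥(T : Subgroup G) = 2 := by omega
    rcases hcases with h1 | h2
    · haveI : Subsingleton ↥(T : Subgroup G) := (Nat.card_eq_one_iff_unique.1 h1).1
      exact isCyclic_of_subsingleton
    · haveI : Fact (Nat.Prime 2) := ⟨Nat.prime_two⟩
      exact isCyclic_of_prime_card h2
  have h : HH G :=
    ⟨fun t ht => ⟨hcomm t ht, (hC t ht).2⟩, fun S => by rw [card_sylow S T]; exact hq3⟩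
  obtain ⟨S₀, h0⟩ : ∃ S₀ : Sylow 2 G, T ≠ S₀ := by
    by_contra hall
    push Not at hall
    apply hnn
    refine ⟨fun n hn g => ?_⟩
    have : g • T = T := (hall _).symm
    exact conj_mem_of_fix this hn
  obtain ⟨u, hu, hu1⟩ := h.exists_ne_one T
  have hu2 : u • T = T := smul_eq_iff.2 (le_normalizer hu)
  have h1 : T ≠ u • S₀ := by
    intro h2
    apply h0
    have : u • T = u • S₀ := by rw [hu2]; exact h2
    exact smul_left_cancel _ this
  have h1' : S₀ ≠ u • S₀ := by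
    intro h2
    have hm := mem_of_fix (h.sq T hu) h2.symm
    exact hu1 (h.inter h0 hu hm)
  obtain ⟨f, hf⟩ := (IsPGroup.iff_card.1 T.isPGroup' : ∃ n, Nat.card ↥(T : Subgroup G) = 2 ^ n)
  have hf' : Nat.card T = 2 ^ f := hf
  have hf1 : 1 ≤ f := by
    rcases Nat.eq_zero_or_pos f with rfl | h2
    · rw [pow_zero] at hf'
      omega
    · exact h2
  have hn := h.card_sylow_eq h0
  set n := Nat.card (Sylow 2 G) with hndef
  let e : Sylow 2 G ≃ Fin n := Finite.equivFinOfCardEq rfl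
  let ρ : G →* Equiv.Perm (Fin n) :=
    (e.permCongrHom.toMonoidHom).comp (MulAction.toPermHom G (Sylow 2 G))
  have hρ : ∀ g a, ρ g a = e (g • e.symm a) := fun g a => rfl
  have hne_e : ∀ {a b : Fin n}, a ≠ b → e.symm a ≠ e.symm b := fun hab h2 => hab (e.symm.injective h2)
  have hρinj : Function.Injective ρ := by
    rw [injective_iff_map_eq_one]
    intro g hg
    have hfix : ∀ S : Sylow 2 G, g • S = S := by
      intro S
      have h2 : ρ g (e S) = e S := by rw [hg]; rfl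
      rw [hρ, Equiv.symm_apply_apply] at h2
      exact e.injective h2
    exact h.sharp h0 h1 h1' (hfix _) (hfix _) (hfix _)
  obtain ⟨F, hFi, hFt, hcard, ⟨iso⟩⟩ := Cfsg.Agent.Lib.Perm.ST.main_type (α := Fin n) hf1
    (by rw [Fintype.card_fin, hn, hf']) ρ.range
    (by
      intro a b c a' b' c' hab hac hbc hab' hac' hbc'
      obtain ⟨g₁, hg₁⟩ := h.to_std h0 h1 h1' (hne_e hab) (hne_e hac) (hne_e hbc)
      obtain ⟨g₂, hg₂⟩ := h.to_std h0 h1 h1' (hne_e hab') (hne_e hac') (hne_e hbc')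
      refine ⟨ρ (g₂⁻¹ * g₁), ⟨_, rfl⟩, ?_, ?_, ?_⟩
      · rw [hρ, mul_smul, hg₁.1, ← hg₂.1, inv_smul_smul, Equiv.apply_symm_apply]
      · rw [hρ, mul_smul, hg₁.2.1, ← hg₂.2.1, inv_smul_smul, Equiv.apply_symm_apply]
      · rw [hρ, mul_smul, hg₁.2.2, ← hg₂.2.2, inv_smul_smul, Equiv.apply_symm_apply])
    (by
      rintro _ ⟨g, rfl⟩ a b c hab hac hbc ha hb hc
      have hfix : ∀ x : Fin n, ρ g x = x → g • e.symm x = e.symm x := by
        intro x hx
        rw [hρ] at hx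
        exact e.injective (by rw [hx, Equiv.apply_symm_apply])
      rw [h.sharp (hne_e hab) (hne_e hac) (hne_e hbc) (hfix a ha) (hfix b hb) (hfix c hc), map_one])
  refine ⟨F, hFi, hFt, hcard.trans hf'.symm, ⟨?_⟩⟩
  have htwo : (2 : F) = 0 := by
    have h2 : ((Fintype.card F : ℕ) : F) = 0 := Nat.cast_card_eq_zero F
    rw [hcard] at h2
    push_cast at h2
    exact pow_eq_zero_iff (by omega) |>.1 h2
  have hring : ringChar F = 2 := CharP.ringChar_of_prime_eq_zero Nat.prime_two (by exact_mod_cast htwo)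
  have hsurj : Function.Surjective (Matrix.ProjectiveSpecialLinearGroup.toPGL (n := Fin 2) (R := F)) := by
    apply Matrix.ProjectiveSpecialLinearGroup.toPGL_surj_of_roots
    intro r
    obtain ⟨x, hx⟩ := FiniteField.isSquare_of_char_two hring (r : F)
    have hx0 : x ≠ 0 := by
      rintro rfl
      rw [mul_zero] at hx
      exact r.ne_zero hx
    refine ⟨Units.mk0 x hx0, ?_⟩
    apply Units.ext
    simp only [Fintype.card_fin, Units.val_pow_eq_pow_val, Units.val_mk0]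
    rw [pow_two, ← hx]
  exact (MonoidHom.ofInjective hρinj).trans (iso.trans
    (MulEquiv.ofBijective (Matrix.ProjectiveSpecialLinearGroup.toPGL (n := Fin 2) (R := F))
      ⟨Matrix.ProjectiveSpecialLinearGroup.toPGL_injective, hsurj⟩).symm)

end Cfsg.Agent.S1230
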