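import Cfsg.Statements.S1231
import Mathlib
import Cfsg.Agent.Lib.Invol.Rank
import Cfsg.Agent.Lib.Techniques.Conj

set_option autoImplicit false
open Cfsg

namespace Cfsg.Agent.S1231

/-- Let H be a subgroup of the finite group G, p a prime, k ≥ 1, and P a Sylow p-subgroup of H whose p-rank is at least k. Then N_G(X) ≤ H for every subgroup X of P of p-rank at least k if and only if H ∩ gHg⁻¹ has p-rank less than k for every g ∉ H. -/
theorem result {G : Type*} [Group G] [Finite G] {p : ℕ} [Fact p.Prime] (k : ℕ) (hk : 1 ≤ k) (H : Subgroup G) (P : Sylow p ↥H) (hP : ¬ Cfsg.PRankLE p (k - 1) ↥(P : Subgroup ↥H)) : (∀ X : Subgroup G, X ≤ (P : Subgroup ↥H).map H.subtype → ¬ Cfsg.PRankLE p (k - 1) ↥X → Subgroup.normalizer (X : Set G) ≤ H) ↔ (∀ g : G, g ∉ H → Cfsg.PRankLE p (k - 1) ↥(H ⊓ H.map (MulAut.conj g).toMonoidHom)) := by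
  open Cfsg.Agent.Lib.Invol Cfsg.Agent.Lib.Techniques in
  classical
  set P₀ : Subgroup G := (P : Subgroup H).map H.subtype with hP₀
  have hsyl : SylowIn p P₀ H := sylowIn_of_sylow P
  have hrank : ¬ PRankLE p (k - 1) P₀ := fun h =>
    hP ((prank_iff_of_mulEquiv ((P : Subgroup H).equivMapOfInjective H.subtype H.subtype_injective)).2 h)
  constructor
  · intro hyp g hg
    by_contra hr
    -- move into `P₀`
    obtain ⟨E, hE, hEc, hEe, hEc2⟩ := exists_of_not_prank hr
    have hEp : IsPGroup p E := fun a => ⟨1, by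
      apply Subtype.ext
      simpa using hEe a a.2⟩
    have hEH : E ≤ H := hE.trans inf_le_left
    have hEg : E ≤ conjS g H := hE.trans inf_le_right
    obtain ⟨h₁, hh₁, hle₁⟩ := hsyl.exists_conj_le hEH hEp
    have hE2H : conjS g⁻¹ E ≤ H := by
      rw [conjS_le_iff, inv_inv]; exact hEg
    obtain ⟨h₂, hh₂, hle₂⟩ := hsyl.exists_conj_le hE2H (isPGroup_conjS _ hEp)
    -- the key maximality argument
    have key : ∀ n : ℕ, ∀ g : G, g ∉ H → ¬ PRankLE p (k - 1) (P₀ ⊓ conjS g P₀ : Subgroup G) →
        Nat.card P₀ - Nat.card (P₀ ⊓ conjS g P₀ : Subgroup G) = n → False := by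
      intro n
      induction n using Nat.strong_induction_on with
      | _ n ih =>
        intro g hg hD hn
        set D : Subgroup G := P₀ ⊓ conjS g P₀ with hDdef
        have hDP : D ≤ P₀ := inf_le_left
        have hNH : Subgroup.normalizer (D : Set G) ≤ H := hyp D hDP hD
        have hDg : D ≤ conjS g P₀ := inf_le_right
        have hQp : IsPGroup p (conjS g P₀ : Subgroup G) := isPGroup_conjS g hsyl.2.1
        by_cases hDQ : D = conjS g P₀
        · -- `g` normalizes `P₀`
          have h1 : conjS g P₀ ≤ P₀ := hDQ ▸ hDP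
          have h2 : conjS g P₀ = P₀ := Subgroup.eq_of_le_of_card_ge h1 (by rw [card_conjS])
          have h3 : g ∈ Subgroup.normalizer (P₀ : Set G) := mem_normalizer_iff_conjS.2 h2
          exact hg (hyp P₀ le_rfl hrank h3)
        · have hlt : D < conjS g P₀ := lt_of_le_of_ne hDg hDQ
          have h1 := lt_inf_normalizer hQp hlt
          set T := conjS g P₀ ⊓ Subgroup.normalizer (D : Set G) with hT
          have hTH : T ≤ H := inf_le_right.trans hNH
          have hTp : IsPGroup p T := hQp.to_le inf_le_left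
          obtain ⟨h, hh, hle⟩ := hsyl.exists_conj_le hTH hTp
          have hgg : h * g ∉ H := fun hc => hg (by
            have := H.mul_mem (H.inv_mem hh) hc
            simpa using this)
          have hle2 : conjS h T ≤ P₀ ⊓ conjS (h * g) P₀ := by
            refine le_inf hle ?_
            rw [conjS_mul]
            exact conjS_mono h inf_le_left
          have hr2 : ¬ PRankLE p (k - 1) (P₀ ⊓ conjS (h * g) P₀ : Subgroup G) := by
            intro hc
            have h2 : PRankLE p (k - 1) (conjS h D) :=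
              prank_mono ((conjS_mono h h1.le).trans hle2) hc
            exact hD ((prank_conjS h).1 h2)
          have hcard : Nat.card D < Nat.card (P₀ ⊓ conjS (h * g) P₀ : Subgroup G) := by
            calc Nat.card D < Nat.card T := lt_of_le_of_ne (Subgroup.card_le_of_le h1.le) (fun h => h1.ne (Subgroup.eq_of_le_of_card_ge h1.le h.ge))
              _ = Nat.card (conjS h T) := (card_conjS h T).symm
              _ ≤ _ := Subgroup.card_le_of_le hle2
          have hcard2 : Nat.card (P₀ ⊓ conjS (h * g) P₀ : Subgroup G) ≤ Nat.card P₀ :=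
            Subgroup.card_le_of_le inf_le_left
          exact ih _ (by omega) (h * g) hgg hr2 rfl
    -- apply the key
    have hgg : h₁ * g * h₂⁻¹ ∉ H := fun hc => hg (by
      have := H.mul_mem (H.mul_mem (H.inv_mem hh₁) hc) hh₂
      simpa [mul_assoc] using this)
    refine key _ _ hgg ?_ rfl
    intro hc
    have hle3 : conjS h₁ E ≤ conjS (h₁ * g * h₂⁻¹) P₀ := by
      rw [conjS_mul, conjS_mul]
      refine conjS_mono h₁ ?_
      have h3 : conjS g⁻¹ E ≤ conjS h₂⁻¹ P₀ := by
        have := (conjS_le_iff h₂).1 hle₂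
        exact this
      have h4 := (conjS_le_iff g⁻¹).1 h3
      rwa [inv_inv] at h4
    have h2 : PRankLE p (k - 1) (conjS h₁ E) := prank_mono (le_inf hle₁ hle3) hc
    have h3 := card_le_of_prank le_rfl hEc hEe ((prank_conjS h₁).1 h2)
    exact absurd h3 (not_le.2 hEc2)
  · intro hyp X hXP hX g hg
    by_contra hgH
    apply hX
    refine prank_mono (le_inf (hXP.trans hsyl.1) ?_) (hyp g hgH)
    have h1 : conjS g X = X := mem_normalizer_iff_conjS.1 hg
    rw [← h1]
    exact conjS_mono g (hXP.trans hsyl.1)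

end Cfsg.Agent.S1231
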