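import Cfsg.Statements.S1235
import Mathlib
import Cfsg.Agent.Lib.Cl.SectBridge

set_option autoImplicit false
open Cfsg

namespace Cfsg.Agent.S1235


open Subgroup Cfsg.Agent.Lib.Cl

variable {G : Type*} [Group G]

theorem center_le_two [Finite G] {D C : Subgroup G} {y : G} (hCD : C ≤ D) (hC : IsCyclic C)
    (hidx : C.relIndex D ≤ 2) (hyD : y ∈ D) (hfix : ∀ z ∈ C, y * z * y⁻¹ = z → z * z = 1)
    (hne : ∃ c ∈ C, y * c * y⁻¹ ≠ c) : Nat.card ↥(D ⊓ centralizer (D : Set G)) ≤ 2 := by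
  have hCc : ∀ a ∈ C, ∀ b ∈ C, a * b = b * a := by
    intro a ha b hb
    have := (IsCyclic.commutative (α := ↥C)).is_comm.comm ⟨a, ha⟩ ⟨b, hb⟩
    simpa using congrArg Subtype.val this
  obtain ⟨c, hc, hcy⟩ := hne
  have hyC : y ∉ C := by
    intro h
    apply hcy
    rw [hCc y h c hc]
    group
  have hzC : ∀ z ∈ D ⊓ centralizer (D : Set G), z ∈ C := by
    rintro z ⟨hzD, hzc⟩
    by_contra hz
    have h1 := inv_mul_mem_of_relIndex_le_two hidx hzD hyD hz hyC
    have h2 : z * c = c * z := (mem_centralizer_iff.mp hzc c (hCD hc)).symm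
    apply hcy
    have h3 : y = z * (z⁻¹ * y) := by group
    have h4 : (z⁻¹ * y) * c = c * (z⁻¹ * y) := hCc _ h1 _ hc
    rw [h3]
    calc z * (z⁻¹ * y) * c * (z * (z⁻¹ * y))⁻¹ = z * ((z⁻¹ * y) * c) * (z * (z⁻¹ * y))⁻¹ := by group
      _ = z * (c * (z⁻¹ * y)) * (z * (z⁻¹ * y))⁻¹ := by rw [h4]
      _ = (z * c) * (z⁻¹ * y) * (z * (z⁻¹ * y))⁻¹ := by group
      _ = (c * z) * (z⁻¹ * y) * (z * (z⁻¹ * y))⁻¹ := by rw [h2]
      _ = c := by group
  have h5 : Nat.card ↥(D ⊓ centralizer (D : Set G)) ≤ Nat.card {c : ↥C // c * c = 1} := by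
    refine Nat.card_le_card_of_injective
      (fun z => ⟨⟨z, hzC z z.2⟩, Subtype.ext ?_⟩) ?_
    · have hz := z.2
      have h6 : y * (z : G) = z * y := mem_centralizer_iff.mp hz.2 y hyD
      apply hfix _ (hzC z z.2)
      rw [h6]; group
    · intro u v huv
      have := congrArg (fun w : {c : ↥C // c * c = 1} => ((w.1 : ↥C) : G)) huv
      exact Subtype.ext this
  exact h5.trans (card_pow_two_eq_one_le hC)

theorem center_prod_le [Finite G] {D B : Subgroup G} (hcomm : ∀ a ∈ D, ∀ b ∈ B, a * b = b * a)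
    (hZ : Nat.card ↥(D ⊓ centralizer (D : Set G)) ≤ 2) (hB4 : Nat.card B = 4) :
    Nat.card ↥((D ⊔ B) ⊓ centralizer ((D ⊔ B : Subgroup G) : Set G)) ≤ 8 := by
  have hdec : ∀ z : ↥((D ⊔ B) ⊓ centralizer ((D ⊔ B : Subgroup G) : Set G)),
      ∃ a : ↥(D ⊓ centralizer (D : Set G)), ∃ b : ↥B, (z : G) = a * b := by
    rintro ⟨z, hz1, hz2⟩
    obtain ⟨a, ha, b, hb, e⟩ := exists_mul_of_mem_sup hcomm hz1
    refine ⟨⟨a, ha, mem_centralizer_iff.mpr ?_⟩, ⟨b, hb⟩, e⟩
    intro d hd
    have h1 : d * z = z * d := mem_centralizer_iff.mp hz2 d (mem_sup_left hd)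
    rw [e] at h1
    have h2 := hcomm d hd b hb
    have h3 : d * a * b = a * d * b := by
      calc d * a * b = d * (a * b) := by group
        _ = a * b * d := h1
        _ = a * (b * d) := by group
        _ = a * (d * b) := by rw [h2]
        _ = _ := by group
    exact mul_right_cancel h3
  choose fa fb hf using hdec
  have h3 : Nat.card ↥((D ⊔ B) ⊓ centralizer ((D ⊔ B : Subgroup G) : Set G)) ≤
      Nat.card (↥(D ⊓ centralizer (D : Set G)) × ↥B) := by
    refine Nat.card_le_card_of_injective (fun u => (fa u, fb u)) ?_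
    intro u v huv
    have e1 : fa u = fa v := congrArg Prod.fst huv
    have e2 : fb u = fb v := congrArg Prod.snd huv
    apply Subtype.ext
    rw [hf u, hf v, e1, e2]
  rw [Nat.card_prod, hB4] at h3
  omega

/-- An element outside `T`, normalizing it, with square in `T`. -/
theorem exists_norm_sq [Finite G] {T P : Subgroup G} (hTP : T ≤ P) (hne : T ≠ P) (hP : IsPGroup 2 P) :
    ∃ g ∈ P, g ∉ T ∧ (∀ t ∈ T, g * t * g⁻¹ ∈ T) ∧ g * g ∈ T := by
  classical
  haveI : Fact (Nat.Prime 2) := ⟨Nat.prime_two⟩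
  haveI : Group.IsNilpotent ↥P := IsPGroup.isNilpotent hP
  have hne' : T.subgroupOf P ≠ ⊤ := by
    intro h
    apply hne
    apply le_antisymm hTP
    intro x hx
    have : (⟨x, hx⟩ : ↥P) ∈ T.subgroupOf P := by rw [h]; trivial
    exact this
  have hlt := normalizerCondition_of_isNilpotent (T.subgroupOf P) (lt_top_iff_ne_top.mpr hne')
  obtain ⟨g₀, hg₀, hg₀T⟩ := SetLike.exists_of_lt hlt
  have hg₀N : ∀ t ∈ T, (g₀ : G) * t * (g₀ : G)⁻¹ ∈ T := by
    intro t ht
    have h1 := (mem_normalizer_iff.mp hg₀ ⟨t, hTP ht⟩).mp ht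
    exact h1
  obtain ⟨k, hk⟩ := hP g₀
  have hex : ∃ k, (g₀ : G) ^ (2 ^ k) ∈ T := ⟨k, by
    have : ((g₀ ^ 2 ^ k : ↥P) : G) = 1 := by rw [hk]; rfl
    rw [SubmonoidClass.coe_pow] at this
    rw [this]; exact T.one_mem⟩
  have hk0 : Nat.find hex ≠ 0 := by
    intro h
    have := Nat.find_spec hex
    rw [h] at this
    simp only [pow_zero, pow_one] at this
    exact hg₀T this
  obtain ⟨m, hm⟩ := Nat.exists_eq_succ_of_ne_zero hk0
  have hm1 : (g₀ : G) ^ (2 ^ m) ∉ T := by
    apply Nat.find_min hex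
    omega
  have hm2 : (g₀ : G) ^ (2 ^ (m + 1)) ∈ T := by
    have := Nat.find_spec hex
    rw [hm] at this
    exact this
  refine ⟨(g₀ : G) ^ 2 ^ m, P.pow_mem g₀.2 _, hm1, ?_, ?_⟩
  · intro t ht
    generalize 2 ^ m = e
    induction e with
    | zero => simpa using ht
    | succ e ih =>
      have h3 := hg₀N _ ih
      have h4 : (g₀ : G) ^ (e + 1) * t * ((g₀ : G) ^ (e + 1))⁻¹ =
          (g₀ : G) * ((g₀ : G) ^ e * t * ((g₀ : G) ^ e)⁻¹) * (g₀ : G)⁻¹ := by
        rw [pow_succ']; group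
      rw [h4]
      exact h3
  · rw [← pow_add, ← two_mul, ← pow_succ']
    exact hm2

theorem eq_of_card_center [Finite G] {T B P : Subgroup G} (hTP : T ≤ P) (hP : IsPGroup 2 P)
    (hZ : Nat.card ↥(T ⊓ centralizer (T : Set G)) ≤ 8) (hBT : B ≤ T) (hB4 : Nat.card B = 4)
    (hBexp : ∀ b ∈ B, b * b = 1) (hBc : ∀ b ∈ B, ∀ t ∈ T, t * b = b * t)
    (hC : ∀ b ∈ B, b ≠ 1 → ∀ s ∈ P, s * b = b * s → s ∈ T) : T = P := by
  by_contra hne
  obtain ⟨g, hgP, hgT, hgN, hgg⟩ := exists_norm_sq hTP hne hP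
  have hgNinv : ∀ t ∈ T, g⁻¹ * t * g ∈ T := by
    intro t ht
    have hg' : g ∈ normalizer (T : Set G) := by
      rw [mem_normalizer_iff]
      intro t
      refine ⟨hgN t, fun h => ?_⟩
      -- use finiteness: conjugation by `g` maps `T` injectively into itself
      have hmap : T.map (MulAut.conj g).toMonoidHom ≤ T := by
        rintro _ ⟨u, hu, rfl⟩
        exact hgN u hu
      have heq : T.map (MulAut.conj g).toMonoidHom = T := by
        apply eq_of_le_of_card_ge hmap
        rw [← card_cj]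
        exact le_refl _
      rw [← heq] at h
      obtain ⟨u, hu, e⟩ := h
      have e2 : u = t := by
        have : g * u * g⁻¹ = g * t * g⁻¹ := e
        have h3 : g * u = g * t := mul_right_cancel this
        exact mul_left_cancel h3
      rwa [← e2]
    have := (mem_normalizer_iff.mp (inv_mem hg') t).mp ht
    simpa using this
  have hBZ : B ≤ T ⊓ centralizer (T : Set G) := by
    intro b hb
    refine ⟨hBT hb, mem_centralizer_iff.mpr ?_⟩
    intro t ht
    exact hBc b hb t ht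
  have hB2Z : cj g B ≤ T ⊓ centralizer (T : Set G) := by
    intro x hx
    rw [mem_cj] at hx
    have hxe : x = g * (g⁻¹ * x * g) * g⁻¹ := by group
    rw [hxe]
    refine ⟨hgN _ (hBT hx), mem_centralizer_iff.mpr ?_⟩
    intro t ht
    have h1 := hBc _ hx _ (hgNinv t ht)
    calc t * (g * (g⁻¹ * x * g) * g⁻¹) = g * ((g⁻¹ * t * g) * (g⁻¹ * x * g)) * g⁻¹ := by group
      _ = g * ((g⁻¹ * x * g) * (g⁻¹ * t * g)) * g⁻¹ := by rw [h1]
      _ = _ := by group
  obtain ⟨x, hxB, hxB2, hx1⟩ := exists_ne_one_of_card_lt hBZ hB2Z (by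
    rw [hB4, card_cj, hB4]; omega)
  -- `g²` centralizes `B`
  have hgg2 : ∀ b ∈ B, (g * g) * b = b * (g * g) := fun b hb => hBc b hb _ hgg
  rw [mem_cj] at hxB2
  have hy : g * x * g⁻¹ ∈ B := by
    have h1 := hgg2 _ hxB2
    have h2 : g * x * g⁻¹ = g⁻¹ * x * g := by
      have h3 : g * g * (g⁻¹ * x * g) = g * x * g := by group
      rw [h3] at h1
      have h4 : g * x * g⁻¹ * (g * g) = g * x * g := by group
      have h5 : g⁻¹ * x * g * (g * g) = g * x * g := h1.symm
      exact mul_right_cancel (h4.trans h5.symm)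
    rw [h2]; exact hxB2
  by_cases hcomm : g * x = x * g
  · exact hgT (hC x hxB hx1 g hgP hcomm)
  · set y := g * x * g⁻¹ with hyd
    have hxy : x * y ∈ B := B.mul_mem hxB hy
    have hxy1 : x * y ≠ 1 := by
      intro h
      have h1 : y = x⁻¹ := by
        rw [eq_inv_iff_mul_eq_one]
        have := hBc x hxB y (hBT hy)
        rw [this]; exact h
      have h2 : x⁻¹ = x := inv_eq_of_mul_eq_one_left (hBexp x hxB)
      rw [h2, hyd] at h1
      apply hcomm
      rw [mul_inv_eq_iff_eq_mul] at h1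
      exact h1
    apply hgT
    apply hC _ hxy hxy1 g hgP
    have hgy : g * y * g⁻¹ = x := by
      have h1 := hgg2 x hxB
      rw [hyd]
      calc g * (g * x * g⁻¹) * g⁻¹ = (g * g) * x * (g * g)⁻¹ := by group
        _ = x * (g * g) * (g * g)⁻¹ := by rw [h1]
        _ = x := by group
    have hc1 : g * x = y * g := by rw [hyd]; group
    have hc2 : g * y = x * g := by
      rw [← hgy]; group
    have hc3 : x * y = y * x := hBc x hxB y (hBT hy) |>.symm ▸ rfl
    calc g * (x * y) = (g * x) * y := by group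
      _ = (y * g) * y := by rw [hc1]
      _ = y * (g * y) := by group
      _ = y * (x * g) := by rw [hc2]
      _ = (y * x) * g := by group
      _ = (x * y) * g := by rw [hc3]

/-- Data of a maximal cyclic subgroup with a non-centralizing element, from the dihedral hypothesis. -/
theorem data_of_dihedral [Finite G] {D : Subgroup G} {m : ℕ} (hm : 3 ≤ m) (e : ↥D ≃* DihedralGroup m) :
    ∃ C : Subgroup G, ∃ y : G, C ≤ D ∧ IsCyclic C ∧ C.relIndex D ≤ 2 ∧ y ∈ D ∧
      (∀ z ∈ C, y * z * y⁻¹ = z → z * z = 1) ∧ ∃ c ∈ C, y * c * y⁻¹ ≠ c := by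
  haveI : NeZero m := ⟨by omega⟩
  set c : G := (e.symm (DihedralGroup.r 1) : G) with hc
  set y : G := (e.symm (DihedralGroup.sr 0) : G) with hy
  have hcD : c ∈ D := (e.symm (DihedralGroup.r 1)).2
  have hyD : y ∈ D := (e.symm (DihedralGroup.sr 0)).2
  have hord : orderOf c = m := by
    have h1 : orderOf c = orderOf (e.symm (DihedralGroup.r 1)) := Subgroup.orderOf_coe _
    rw [h1, MulEquiv.orderOf_eq, DihedralGroup.orderOf_r_one]
  have hconj : y * c * y⁻¹ = c⁻¹ := by
    have h1 : (DihedralGroup.sr (0 : ZMod m)) * DihedralGroup.r 1 * (DihedralGroup.sr 0)⁻¹ =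
        (DihedralGroup.r 1)⁻¹ := by
      simp [DihedralGroup.inv_sr]
    show ((e.symm (DihedralGroup.sr 0) : ↥D) : G) * ((e.symm (DihedralGroup.r 1) : ↥D) : G) *
      ((e.symm (DihedralGroup.sr 0) : ↥D) : G)⁻¹ = ((e.symm (DihedralGroup.r 1) : ↥D) : G)⁻¹
    rw [← Subgroup.coe_mul, ← Subgroup.coe_inv, ← Subgroup.coe_mul, ← Subgroup.coe_inv, ← map_mul,
      ← map_inv, ← map_mul, ← map_inv, h1]
  refine ⟨zpowers c, y, ?_, inferInstance, ?_, hyD, ?_, c, mem_zpowers c, ?_⟩
  · rw [zpowers_le]; exact hcD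
  · have h1 := Cfsg.Agent.Lib.Cl.relIndex_card (A := zpowers c) (X := D) (by rw [zpowers_le]; exact hcD)
    have h2 : Nat.card D = 2 * m := by
      rw [Nat.card_congr e.toEquiv, DihedralGroup.nat_card]
    rw [Nat.card_zpowers, hord, h2] at h1
    have hm0 : 0 < m := by omega
    have h3 : m * (zpowers c).relIndex D = m * 2 := by rw [h1]; ring
    exact (Nat.eq_of_mul_eq_mul_left hm0 h3).le
  · rintro z ⟨k, rfl⟩ hz
    have h1 : y * (fun x => c ^ x) k * y⁻¹ = (y * c * y⁻¹) ^ k := by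
      simp [conj_zpow]
    rw [h1, hconj] at hz
    simp only [inv_zpow] at hz
    have h2 : (c ^ k) * (c ^ k) = (c ^ k)⁻¹ * (c ^ k) := by rw [hz]
    simpa using h2
  · intro h
    rw [hconj] at h
    have h2 : c * c = 1 := by
      nth_rewrite 1 [← h]
      group
    have h3 : c ^ 2 = 1 := by rw [pow_two]; exact h2
    have h4 := orderOf_dvd_of_pow_eq_one h3
    rw [hord] at h4
    have := Nat.le_of_dvd (by norm_num) h4
    omega

theorem data_of_quasi [Finite G] {D : Subgroup G} (hq : Cfsg.IsQuasiDihedral ↥D) :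
    ∃ C : Subgroup G, ∃ y : G, C ≤ D ∧ IsCyclic C ∧ C.relIndex D ≤ 2 ∧ y ∈ D ∧
      (∀ z ∈ C, y * z * y⁻¹ = z → z * z = 1) ∧ ∃ c ∈ C, y * c * y⁻¹ ≠ c := by
  obtain ⟨n, hn, hcard, x, y, hx, hy, hrel⟩ := hq
  obtain ⟨n', rfl⟩ : ∃ n', n = n' + 3 := ⟨n - 3, by omega⟩
  set c : G := (x : G) with hc
  have hcD : c ∈ D := x.2
  have hord : orderOf c = 2 ^ (n' + 3) := by
    rw [hc, Subgroup.orderOf_coe, hx]
  have hconj : (y : G) * c * (y : G)⁻¹ = c ^ (2 ^ (n' + 3 - 1) - 1) := by
    have := congrArg Subtype.val hrel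
    simpa using this
  have he : 2 ^ (n' + 3 - 1) - 1 = 2 * (2 ^ (n' + 1) - 1) + 1 := by
    have h1 : n' + 3 - 1 = n' + 2 := by omega
    rw [h1, pow_succ]
    have : 1 ≤ 2 ^ (n' + 1) := Nat.one_le_two_pow
    omega
  rw [he] at hconj
  have hodd : Nat.Coprime (2 ^ (n' + 1) - 1) (2 ^ (n' + 3)) := by
    apply Nat.Coprime.pow_right
    rw [Nat.coprime_two_right]
    have h1 : 2 ^ (n' + 1) = 2 * 2 ^ n' := by rw [pow_succ]; ring
    have : 1 ≤ 2 ^ n' := Nat.one_le_two_pow
    exact ⟨2 ^ n' - 1, by omega⟩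
  refine ⟨zpowers c, (y : G), ?_, inferInstance, ?_, y.2, ?_, c, mem_zpowers c, ?_⟩
  · rw [zpowers_le]; exact hcD
  · have h1 := Cfsg.Agent.Lib.Cl.relIndex_card (A := zpowers c) (X := D) (by rw [zpowers_le]; exact hcD)
    rw [Nat.card_zpowers, hord, hcard] at h1
    have hpos : 0 < 2 ^ (n' + 3) := by positivity
    have h3 : 2 ^ (n' + 3) * (zpowers c).relIndex D = 2 ^ (n' + 3) * 2 := by rw [h1]; ring
    exact (Nat.eq_of_mul_eq_mul_left hpos h3).le
  · rintro z ⟨k, rfl⟩ hz
    have h1 : (y : G) * (fun x => c ^ x) k * (y : G)⁻¹ = ((y : G) * c * (y : G)⁻¹) ^ k := by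
      simp [conj_zpow]
    rw [h1, hconj] at hz
    simp only at hz ⊢
    set z := c ^ k with hzd
    have h2 : (c ^ (2 * (2 ^ (n' + 1) - 1) + 1)) ^ k = z ^ (2 * (2 ^ (n' + 1) - 1) + 1) := by
      rw [hzd, ← zpow_natCast, ← zpow_natCast, ← zpow_mul, ← zpow_mul, mul_comm]
    rw [h2, pow_succ] at hz
    have h3 : z ^ (2 * (2 ^ (n' + 1) - 1)) = 1 := by
      have := mul_eq_right.mp hz
      exact this
    have h4 : (z * z) ^ (2 ^ (n' + 1) - 1) = 1 := by
      rw [← pow_two, ← pow_mul]; exact h3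
    have h5 : (z * z) ^ (2 ^ (n' + 3)) = 1 := by
      have h6 : z ^ (2 ^ (n' + 3)) = 1 := by
        rw [hzd, ← zpow_natCast, ← zpow_mul, mul_comm, zpow_mul, zpow_natCast, ← hord, pow_orderOf_eq_one, one_zpow]
      rw [← pow_two, ← pow_mul, mul_comm, pow_mul, h6, one_pow]
    have h7 := Nat.dvd_gcd (orderOf_dvd_of_pow_eq_one h4) (orderOf_dvd_of_pow_eq_one h5)
    rw [hodd.gcd_eq_one] at h7
    exact orderOf_eq_one_iff.mp (Nat.dvd_one.mp h7)
  · intro h
    rw [hconj, pow_succ] at h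
    have h3 : c ^ (2 * (2 ^ (n' + 1) - 1)) = 1 := mul_eq_right.mp h
    have h4 := orderOf_dvd_of_pow_eq_one h3
    rw [hord] at h4
    have h5 : 1 ≤ 2 ^ (n' + 1) := Nat.one_le_two_pow
    have h6 : 2 ≤ 2 ^ (n' + 1) := by
      calc 2 = 2 ^ 1 := by norm_num
        _ ≤ _ := Nat.pow_le_pow_right (by norm_num) (by omega)
    have h7 := Nat.le_of_dvd (by omega) h4
    have h8 : 2 ^ (n' + 3) = 4 * 2 ^ (n' + 1) := by rw [pow_add, pow_add]; ring
    omega

/-- Let G be a finite group, x an involution and T ≤ G a Sylow 2-subgroup of C_G(x) (T ≤ C_G(x) with |C_G(x) : T| odd) which is the internal direct product of a subgroup D that is dihedral (of order ≥ 4) or quasi-dihedral and a Klein four-subgroup B. Suppose that for every involution b ∈ B, T ≤ C_G(b) with |C_G(b) : T| odd. Then every section of G has 2-rank at most 4. -/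
theorem result {G : Type*} [Group G] [Finite G] (x : G) (hx : orderOf x = 2) (T D B : Subgroup G) (hT : IsPGroup 2 T) (hTx : T ≤ Subgroup.centralizer ({x} : Set G)) (hTxi : Odd (T.relIndex (Subgroup.centralizer ({x} : Set G)))) (hprod : Cfsg.IsInternalDirectProduct D B T) (hD : (∃ m : ℕ, 2 ≤ m ∧ Nonempty (D ≃* DihedralGroup m)) ∨ Cfsg.IsQuasiDihedral D) (hB : IsKleinFour B) (hTb : ∀ b ∈ B, orderOf b = 2 → T ≤ Subgroup.centralizer ({b} : Set G) ∧ Odd (T.relIndex (Subgroup.centralizer ({b} : Set G)))) : Cfsg.SectionalPRankLE 2 4 G := by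
  classical
  obtain ⟨hDT, hBT, hcomm, hinf, hsup⟩ := hprod
  have hB4 : Nat.card B = 4 := hB.card_four
  have hBexp : ∀ b ∈ B, b * b = 1 := fun b hb => by
    have h1 : (⟨b, hb⟩ : ↥B) ^ 2 = 1 := by
      rw [← hB.exponent_two]; exact Monoid.pow_exponent_eq_one _
    have h2 := congrArg Subtype.val h1
    simpa [pow_two] using h2
  haveI : Fact (Nat.Prime 2) := ⟨Nat.prime_two⟩
  obtain ⟨P, hTP⟩ := hT.exists_le_sylow
  have hC : ∀ b ∈ B, b ≠ 1 → ∀ s ∈ (P : Subgroup G), s * b = b * s → s ∈ T := by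
    intro b hb hb1 s hs hsb
    have hord : orderOf b = 2 := by
      apply orderOf_eq_prime _ hb1
      rw [pow_two]; exact hBexp b hb
    obtain ⟨hTc, hodd⟩ := hTb b hb hord
    set A := (P : Subgroup G) ⊓ centralizer ({b} : Set G) with hA
    have hTA : T ≤ A := le_inf hTP hTc
    have hAC : A ≤ centralizer ({b} : Set G) := inf_le_right
    have hd : T.relIndex A * A.relIndex (centralizer ({b} : Set G)) =
        T.relIndex (centralizer ({b} : Set G)) := relIndex_mul_relIndex _ _ _ hTA hAC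
    have hA2 : IsPGroup 2 A := P.isPGroup'.to_le inf_le_left
    obtain ⟨k, hk⟩ := IsPGroup.iff_card.mp hA2
    have hd2 : T.relIndex A ∣ 2 ^ k := by
      rw [← hk]
      exact (T.subgroupOf A).index_dvd_card
    obtain ⟨j, _, hj⟩ := (Nat.dvd_prime_pow Nat.prime_two).mp hd2
    have hj0 : j = 0 := by
      by_contra hne
      have h2 : 2 ∣ T.relIndex (centralizer ({b} : Set G)) := by
        rw [← hd, hj]
        exact Dvd.dvd.mul_right (dvd_pow_self 2 hne) _
      exact (Nat.not_even_iff_odd.mpr hodd) (even_iff_two_dvd.mpr h2)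
    rw [hj0, pow_zero, relIndex_eq_one] at hj
    refine hj ⟨hs, ?_⟩
    exact mem_centralizer_singleton_iff.mpr hsb
  have hBc : ∀ b ∈ B, ∀ t ∈ T, t * b = b * t := by
    intro b hb t ht
    rw [← hsup] at ht
    obtain ⟨d, hd, b', hb', rfl⟩ := exists_mul_of_mem_sup hcomm ht
    have h1 := hcomm d hd b hb
    have h2 : b' * b = b * b' := comm_of_sq_one (hBexp _ hb') (hBexp _ hb) (hBexp _ (B.mul_mem hb' hb))
    calc d * b' * b = d * (b' * b) := by group
      _ = d * (b * b') := by rw [h2]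
      _ = (d * b) * b' := by group
      _ = (b * d) * b' := by rw [h1]
      _ = _ := by group
  -- the nonabelian case
  have main : ∀ C : Subgroup G, ∀ y : G, C ≤ D → IsCyclic C → C.relIndex D ≤ 2 → y ∈ D →
      (∀ z ∈ C, y * z * y⁻¹ = z → z * z = 1) → (∃ c ∈ C, y * c * y⁻¹ ≠ c) →
      Cfsg.SectionalPRankLE 2 4 G := by
    intro C y hCD hcyc hidx hyD hfix hne
    have hZ := center_le_two hCD hcyc hidx hyD hfix hne
    have hZ2 := center_prod_le hcomm hZ hB4
    rw [hsup] at hZ2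
    have heq := eq_of_card_center hTP P.isPGroup' hZ2 hBT hB4 hBexp hBc hC
    apply sectional_of_sec
    apply sec_of_sylow P
    intro H K hHP hp
    refine sec_of_cyclic hcomm hBexp hB4 hCD hcyc hidx ?_ hp
    rw [hsup, heq]
    exact hHP
  -- the elementary case
  have e16 : (∀ d ∈ D, d * d = 1) → Nat.card D = 4 → Cfsg.SectionalPRankLE 2 4 G := by
    intro hDexp hD4
    have hTexp : ∀ t ∈ T, t * t = 1 := by
      intro t ht
      rw [← hsup] at ht
      obtain ⟨d, hd, b, hb, rfl⟩ := exists_mul_of_mem_sup hcomm ht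
      calc d * b * (d * b) = d * (b * d) * b := by group
        _ = d * (d * b) * b := by rw [hcomm d hd b hb]
        _ = (d * d) * (b * b) := by group
        _ = 1 := by rw [hDexp d hd, hBexp b hb, one_mul]
    have hT16 : Nat.card T = 16 := by
      apply le_antisymm
      · have hdec : ∀ t : ↥T, ∃ d : ↥D, ∃ b : ↥B, (t : G) = d * b := by
          rintro ⟨t, ht⟩
          rw [← hsup] at ht
          obtain ⟨d, hd, b, hb, e⟩ := exists_mul_of_mem_sup hcomm ht
          exact ⟨⟨d, hd⟩, ⟨b, hb⟩, e⟩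
        choose fa fb hf using hdec
        have h3 : Nat.card ↥T ≤ Nat.card (↥D × ↥B) := by
          refine Nat.card_le_card_of_injective (fun u => (fa u, fb u)) ?_
          intro u v huv
          have e1 : fa u = fa v := congrArg Prod.fst huv
          have e2 : fb u = fb v := congrArg Prod.snd huv
          apply Subtype.ext
          rw [hf u, hf v, e1, e2]
        rw [Nat.card_prod, hB4, hD4] at h3
        exact h3
      · have := card_mul_card_le_of_inf_eq_bot hDT hBT hinf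
        rw [hD4, hB4] at this
        exact this
    have hcardsub : ∀ X : Subgroup G, X ≤ (P : Subgroup G) →
        Nat.card (X.subgroupOf (P : Subgroup G)) = Nat.card X := fun X hX =>
      Nat.card_congr (subgroupOfEquivOfLe hX).toEquiv
    have hd : E16Data (T.subgroupOf (P : Subgroup G)) (B.subgroupOf (P : Subgroup G)) :=
      { exp := fun t ht => Subtype.ext (hTexp t ht)
        card := by rw [hcardsub T hTP]; exact hT16
        le := fun b hb => hBT hb
        cardB := by rw [hcardsub B (hBT.trans hTP)]; exact hB4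
        cent := fun b hb hb1 s hs => by
          apply hC b hb (fun h => hb1 (Subtype.ext h)) s s.2
          exact congrArg Subtype.val hs }
    apply sectional_of_sec
    apply sec_of_sylow P
    intro H K hHP hp
    have hKP : K ≤ (P : Subgroup G) := hp.le.trans hHP
    have hp₀ : SecPair (K.subgroupOf (P : Subgroup G)) (H.subgroupOf (P : Subgroup G)) :=
      { le := fun k hk => hp.le hk
        nor := fun h hh k hk => hp.nor h hh k hk
        sq := fun h hh => hp.sq h hh }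
    have h1 := sec_e16 (P.isPGroup') hd hp₀
    rw [relIndex_subgroupOf hHP] at h1
    simpa using h1
  rcases hD with ⟨m, hm, ⟨e⟩⟩ | hq
  · by_cases hm2 : m = 2
    · subst hm2
      apply e16
      · intro d hd
        have h1 : ∀ a : DihedralGroup 2, a * a = 1 := by decide
        have h2 := h1 (e ⟨d, hd⟩)
        rw [← map_mul, map_eq_one_iff e e.injective] at h2
        exact congrArg Subtype.val h2
      · rw [Nat.card_congr e.toEquiv, DihedralGroup.nat_card]
    · obtain ⟨C, y, h1, h2, h3, h4, h5, h6⟩ := data_of_dihedral (by omega : 3 ≤ m) e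
      exact main C y h1 h2 h3 h4 h5 h6
  · obtain ⟨C, y, h1, h2, h3, h4, h5, h6⟩ := data_of_quasi hq
    exact main C y h1 h2 h3 h4 h5 h6

end Cfsg.Agent.S1235
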