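import Cfsg.Statements.S1236
import Mathlib
import Cfsg.Agent.Lib.Invol.QD
import Cfsg.Agent.Lib.Invol.DihedralKlein

set_option autoImplicit false
open Cfsg

namespace Cfsg.Agent.S1236

/-- Let R be a finite group, t a central involution of R such that R ⧸ ⟨t⟩ is dihedral (of order ≥ 4) or quasi-dihedral, and A ≤ R an elementary abelian subgroup of order 8 containing t. Then C_R(A) = A. -/
theorem result {R : Type*} [Group R] [Finite R] (t : R) (ht : orderOf t = 2) (htz : t ∈ Subgroup.center R) [(Subgroup.zpowers t).Normal] (hq : (∃ m : ℕ, 2 ≤ m ∧ Nonempty (R ⧸ Subgroup.zpowers t ≃* DihedralGroup m)) ∨ Cfsg.IsQuasiDihedral (R ⧸ Subgroup.zpowers t)) (A : Subgroup R) (hA : Cfsg.IsElementaryAbelian 2 A) (hA8 : Nat.card A = 8) (htA : t ∈ A) : Subgroup.centralizer (A : Set R) = A := by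
  open Cfsg.Agent.Lib.Invol in
  have hAsq : ∀ a ∈ A, a ^ 2 = 1 := hA.2
  have hAc : ∀ a ∈ A, ∀ b ∈ A, a * b = b * a := by
    intro a ha b hb
    have := hA.1.1.1 ⟨a, ha⟩ ⟨b, hb⟩
    have h2 := congrArg Subtype.val this
    exact h2
  let π : R →* R ⧸ Subgroup.zpowers t := QuotientGroup.mk' _
  let Ā : Subgroup (R ⧸ Subgroup.zpowers t) := A.map π
  have hker : π.ker = Subgroup.zpowers t := QuotientGroup.ker_mk' _
  have htle : Subgroup.zpowers t ≤ A := Subgroup.zpowers_le.2 htA
  have hĀ : IsKleinFour Ā := by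
    have hcard : Nat.card Ā = 4 := by
      have h1 : Nat.card Ā * Nat.card ((Subgroup.zpowers t).subgroupOf A) = Nat.card A := by
        let f : A →* R ⧸ Subgroup.zpowers t := π.comp A.subtype
        have hrange : f.range = Ā := by
          rw [MonoidHom.range_comp, Subgroup.range_subtype]
        have hkerf : f.ker = (Subgroup.zpowers t).subgroupOf A := by
          ext a
          rw [MonoidHom.mem_ker, Subgroup.mem_subgroupOf]
          show π (a : R) = 1 ↔ _
          rw [← MonoidHom.mem_ker, hker]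
        have h2 := Subgroup.card_mul_index f.ker
        rw [Subgroup.index_ker, hrange, hkerf] at h2
        rw [mul_comm]
        exact h2
      have h3 : Nat.card ((Subgroup.zpowers t).subgroupOf A) = 2 := by
        rw [Nat.card_congr (Subgroup.subgroupOfEquivOfLe htle).toEquiv, Nat.card_zpowers, ht]
      rw [h3, hA8] at h1
      omega
    refine IsKleinFour.mk hcard ?_
    have hsq : ∀ g : Ā, g ^ 2 = 1 := by
      rintro ⟨_, a, ha, rfl⟩
      apply Subtype.ext
      show (π a) ^ 2 = 1
      rw [← map_pow, hAsq a ha, map_one]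
    have h1 : Monoid.exponent Ā ∣ 2 := Monoid.exponent_dvd_of_forall_pow_eq_one hsq
    rcases (Nat.dvd_prime Nat.prime_two).1 h1 with h2 | h2
    · exfalso
      have h3 : Subsingleton Ā := Monoid.exp_eq_one_iff.1 h2
      have h4 : Nat.card Ā = 1 := Nat.card_of_subsingleton (⟨1, one_mem _⟩ : Ā)
      omega
    · exact h2
  have hC : Subgroup.centralizer (Ā : Set (R ⧸ Subgroup.zpowers t)) = Ā := by
    rcases hq with ⟨m, hm, ⟨e⟩⟩ | hqd
    · haveI : NeZero m := ⟨by omega⟩
      exact klein_centralizer_of_mulEquiv e (fun T hT => dihedral_klein_centralizer T hT) Ā hĀ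
    · obtain ⟨k, x, y, h⟩ := exists_QD hqd
      exact h.klein_centralizer hĀ
  apply le_antisymm
  · intro g hg
    have h1 : π g ∈ Subgroup.centralizer (Ā : Set (R ⧸ Subgroup.zpowers t)) := by
      rw [Subgroup.mem_centralizer_iff]
      rintro _ ⟨a, ha, rfl⟩
      have := (Subgroup.mem_centralizer_iff.1 hg) a ha
      show π a * π g = π g * π a
      rw [← map_mul, ← map_mul, this]
    rw [hC] at h1
    obtain ⟨a, ha, hae⟩ := h1
    have h2 : a⁻¹ * g ∈ π.ker := by
      rw [MonoidHom.mem_ker, map_mul, map_inv, ← hae, inv_mul_cancel]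
    rw [hker] at h2
    have h3 := A.mul_mem ha (htle h2)
    rwa [mul_inv_cancel_left] at h3
  · intro a ha
    rw [Subgroup.mem_centralizer_iff]
    intro b hb
    exact hAc b hb a ha

end Cfsg.Agent.S1236
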