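import Cfsg.Statements.S1241
import Mathlib
import Cfsg.Agent.Lib.Transfer.Basic

set_option autoImplicit false
open Cfsg

namespace Cfsg.Agent.S1241

open scoped IsMulCommutative in
theorem aux {G : Type*} [Group G] [Finite G] {p : ℕ} [Fact p.Prime] (H K : Subgroup G) (hKn : (K.subgroupOf H).Normal) [IsMulCommutative (H ⧸ K.subgroupOf H)] (hidx : Nat.Coprime p H.index) (g : G) (hgH : g ∈ H) (hgK : g ∉ K) (hgp : ∃ k : ℕ, orderOf g = p ^ k) (hctrl : ∀ (m : ℤ) (a : G), a * g ^ m * a⁻¹ ∈ H → (a * g ^ m * a⁻¹) * (g ^ m)⁻¹ ∈ K) (hcomm : g ∈ commutator G) : False := by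
  open Cfsg.Agent.Lib.Transfer in
  haveI := hKn
  let φ : H →* H ⧸ K.subgroupOf H := QuotientGroup.mk' _
  let x : H := ⟨g, hgH⟩
  have hV : MonoidHom.transfer φ (x : G) = φ x ^ H.index := by
    refine transfer_eq_pow_of_stable' φ x fun k a ha => ?_
    have h1 := hctrl (k : ℤ) a⁻¹ (by simpa using ha)
    rw [← map_pow]
    show QuotientGroup.mk _ = QuotientGroup.mk _
    rw [QuotientGroup.eq_iff_div_mem, Subgroup.mem_subgroupOf]
    simpa [div_eq_mul_inv, mul_assoc, x] using h1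
  have hV1 : MonoidHom.transfer φ (x : G) = 1 := Abelianization.commutator_subset_ker _ hcomm
  have h2 : φ x ^ H.index = 1 := by rw [← hV, hV1]
  obtain ⟨k, hk⟩ := hgp
  have h3 : orderOf (φ x) ∣ H.index := orderOf_dvd_of_pow_eq_one h2
  have h4 : orderOf (φ x) ∣ p ^ k := by
    rw [← hk]
    have : orderOf x = orderOf g := Subgroup.orderOf_mk g hgH
    rw [← this]
    exact orderOf_map_dvd φ x
  have h5 : orderOf (φ x) = 1 := Nat.eq_one_of_dvd_coprimes (Nat.Coprime.pow_left k hidx) h4 h3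
  have h6 : φ x = 1 := orderOf_eq_one_iff.1 h5
  have h7 : x ∈ K.subgroupOf H := (QuotientGroup.eq_one_iff _).1 h6
  exact hgK (Subgroup.mem_subgroupOf.1 h7)


/-- Let G be a finite group, p a prime, H a subgroup of index prime to p, K a subgroup of H normal in H with H/K commutative, and g ∈ H ∖ K an element of p-power order such that for all integers m and all a ∈ G with a g^m a⁻¹ ∈ H one has a g^m a⁻¹ ∈ g^m K. Then g ∉ G'. -/
theorem result {G : Type*} [Group G] [Finite G] {p : ℕ} [Fact p.Prime] (H K : Subgroup G) (hHK : K ≤ H) (hKn : (K.subgroupOf H).Normal) (hab : ∀ x ∈ H, ∀ y ∈ H, x * y * x⁻¹ * y⁻¹ ∈ K) (hidx : Nat.Coprime p H.index) (g : G) (hgH : g ∈ H) (hgK : g ∉ K) (hgp : ∃ k : ℕ, orderOf g = p ^ k) (hctrl : ∀ (m : ℤ) (a : G), a * g ^ m * a⁻¹ ∈ H → (a * g ^ m * a⁻¹) * (g ^ m)⁻¹ ∈ K) : g ∉ commutator G := by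
  intro hcomm
  haveI := hKn
  haveI hc : IsMulCommutative (H ⧸ K.subgroupOf H) := by
    refine ⟨⟨fun a b => ?_⟩⟩
    obtain ⟨x, rfl⟩ := QuotientGroup.mk_surjective a
    obtain ⟨y, rfl⟩ := QuotientGroup.mk_surjective b
    rw [← QuotientGroup.mk_mul, ← QuotientGroup.mk_mul, QuotientGroup.eq_iff_div_mem, Subgroup.mem_subgroupOf]
    have := hab x x.2 y y.2
    simpa [div_eq_mul_inv, mul_assoc] using this
  exact aux H K hKn hidx g hgH hgK hgp hctrl hcomm

end Cfsg.Agent.S1241
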