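import Cfsg.Statements.S1242
import Mathlib
import Cfsg.Agent.Lib.Transfer.Basic

set_option autoImplicit false
open Cfsg

namespace Cfsg.Agent.S1242

open scoped IsMulCommutative in
theorem aux {G : Type*} [Group G] [Finite G] {p : ℕ} [hp : Fact p.Prime] (H : Subgroup G) [IsMulCommutative (H ⧸ (Cfsg.pResidual p ↥H ⊔ commutator ↥H))] (hidx : Nat.Coprime p H.index) (hfus : ∀ g ∈ H, (∃ k : ℕ, orderOf g = p ^ k) → ∀ a : G, a * g * a⁻¹ ∈ H → ∃ h ∈ H, h * g * h⁻¹ = a * g * a⁻¹) : (Cfsg.pResidual p G ⊔ commutator G) ⊓ H = (Cfsg.pResidual p ↥H ⊔ commutator ↥H).map H.subtype := by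
  open Cfsg.Agent.Lib.Transfer in
  let R : Subgroup H := Cfsg.pResidual p ↥H ⊔ commutator ↥H
  let φ : H →* H ⧸ R := QuotientGroup.mk' R
  have hPG : IsPGroup p (H ⧸ R) := by
    intro q
    obtain ⟨x, rfl⟩ := QuotientGroup.mk_surjective q
    obtain ⟨a, b, hx, -, ⟨k, hk⟩, hb, -, -⟩ := exists_parts hp.out x
    refine ⟨k, ?_⟩
    have hb1 : φ b = 1 := (QuotientGroup.eq_one_iff _).2 (Subgroup.mem_sup_left (mem_pResidual_of_coprime hb))
    show (φ x) ^ p ^ k = 1
    rw [hx, map_mul, hb1, mul_one, ← map_pow, hk, map_one]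
  let V : G →* H ⧸ R := MonoidHom.transfer φ
  have hVsup : Cfsg.pResidual p G ⊔ commutator G ≤ V.ker :=
    sup_le (pResidual_le_ker hPG V) (Abelianization.commutator_subset_ker V)
  have hVpow : ∀ x : H, V (x : G) = φ x ^ H.index := by
    intro x
    obtain ⟨a, b, hx, -, ⟨k, hk⟩, hb, -, -⟩ := exists_parts hp.out x
    have hb1 : φ b = 1 := (QuotientGroup.eq_one_iff _).2 (Subgroup.mem_sup_left (mem_pResidual_of_coprime hb))
    have hb2 : V (b : G) = 1 := by
      have : (b : G) ∈ Cfsg.pResidual p G := by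
        apply mem_pResidual_of_coprime
        rw [Subgroup.orderOf_coe]
        exact hb
      exact pResidual_le_ker hPG V this
    have ha : V (a : G) = φ a ^ H.index := by
      refine transfer_eq_pow_of_stable' φ a fun j c hc => ?_
      have hak : ∃ m : ℕ, orderOf ((a : G) ^ j) = p ^ m := by
        have h1 : orderOf ((a : G) ^ j) ∣ p ^ k := by
          refine orderOf_dvd_of_pow_eq_one ?_
          rw [← pow_mul, mul_comm, pow_mul]
          have : (a : G) ^ p ^ k = 1 := by
            have := congrArg (Subtype.val) hk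
            simpa using this
          rw [this, one_pow]
        obtain ⟨m, -, hm⟩ := (Nat.dvd_prime_pow hp.out).1 h1
        exact ⟨m, hm⟩
      obtain ⟨h, hh, hconj⟩ := hfus _ (H.pow_mem a.2 j) hak c⁻¹ (by simpa using hc)
      rw [← map_pow]
      have heq : (⟨c⁻¹ * (a : G) ^ j * c, hc⟩ : H) = ⟨h, hh⟩ * (a ^ j) * (⟨h, hh⟩ : H)⁻¹ := by
        apply Subtype.ext
        simp only [Subgroup.coe_mul, Subgroup.coe_pow, Subgroup.coe_inv]
        rw [hconj, inv_inv]
      rw [heq, map_mul, map_mul, map_inv, mul_comm (φ ⟨h, hh⟩), mul_inv_cancel_right]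
    have : (x : G) = a * b := by rw [hx]; rfl
    rw [this, map_mul, hb2, mul_one, ha, hx, map_mul, hb1, mul_one]
  apply le_antisymm
  · rintro y ⟨hy1, hy2⟩
    have hy3 : V y = 1 := hVsup hy1
    have hy4 : φ ⟨y, hy2⟩ ^ H.index = 1 := by
      rw [← hVpow]; exact hy3
    obtain ⟨k, hk⟩ := hPG (φ ⟨y, hy2⟩)
    have h3 : orderOf (φ ⟨y, hy2⟩) ∣ H.index := orderOf_dvd_of_pow_eq_one hy4
    have h4 : orderOf (φ ⟨y, hy2⟩) ∣ p ^ k := orderOf_dvd_of_pow_eq_one hk
    have h5 : orderOf (φ ⟨y, hy2⟩) = 1 := Nat.eq_one_of_dvd_coprimes (Nat.Coprime.pow_left k hidx) h4 h3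
    have h6 : φ ⟨y, hy2⟩ = 1 := orderOf_eq_one_iff.1 h5
    exact ⟨⟨y, hy2⟩, (QuotientGroup.eq_one_iff _).1 h6, rfl⟩
  · refine le_inf ?_ (Subgroup.map_subtype_le _)
    rw [Subgroup.map_sup]
    refine sup_le_sup ?_ ?_
    · rw [Subgroup.map_le_iff_le_comap]
      apply pResidual_le_of_forall
      intro g hg
      rw [Subgroup.mem_comap]
      apply mem_pResidual_of_coprime
      simpa using hg
    · rw [commutator_def, Subgroup.map_commutator, commutator_def]
      exact Subgroup.commutator_mono le_top le_top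


/-- Let G be a finite group, p a prime and H a subgroup of index prime to p such that any two elements of H of p-power order that are conjugate in G are conjugate in H. Then (O^p(G)·G') ∩ H = O^p(H)·H', where O^p denotes the subgroup generated by the elements of order prime to p. -/
theorem result {G : Type*} [Group G] [Finite G] {p : ℕ} [Fact p.Prime] (H : Subgroup G) (hidx : Nat.Coprime p H.index) (hfus : ∀ g ∈ H, (∃ k : ℕ, orderOf g = p ^ k) → ∀ a : G, a * g * a⁻¹ ∈ H → ∃ h ∈ H, h * g * h⁻¹ = a * g * a⁻¹) : (Cfsg.pResidual p G ⊔ commutator G) ⊓ H = (Cfsg.pResidual p ↥H ⊔ commutator ↥H).map H.subtype := by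
  have hsub : (Cfsg.pResidual p ↥H ⊔ commutator ↥H).Normal := inferInstance
  haveI hc : IsMulCommutative (H ⧸ (Cfsg.pResidual p ↥H ⊔ commutator ↥H)) := by
    refine ⟨⟨fun a b => ?_⟩⟩
    obtain ⟨x, rfl⟩ := QuotientGroup.mk_surjective a
    obtain ⟨y, rfl⟩ := QuotientGroup.mk_surjective b
    rw [← QuotientGroup.mk_mul, ← QuotientGroup.mk_mul, QuotientGroup.eq_iff_div_mem]
    apply Subgroup.mem_sup_right
    have : x * y / (y * x) = commutatorElement.bracket x y := by
      simp [div_eq_mul_inv, commutatorElement_def, mul_assoc]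
    rw [this]
    exact Subgroup.commutator_mem_commutator (Subgroup.mem_top x) (Subgroup.mem_top y)
  exact aux H hidx hfus

end Cfsg.Agent.S1242
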