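import Cfsg.Statements.S1243
import Mathlib
import Cfsg.Agent.Lib.Invol.Isolated
import Cfsg.Agent.Lib.Techniques.SylowIn

set_option autoImplicit false
open Cfsg

namespace Cfsg.Agent.S1243

/-- Let T be a Sylow p-subgroup of the finite group G and W ≤ T a subgroup weakly closed in T. If d and g d g⁻¹ both centralize W, then g d g⁻¹ = h d h⁻¹ for some h ∈ N_G(W). -/
theorem result {G : Type*} [Group G] [Finite G] {p : ℕ} [Fact p.Prime] (T : Sylow p G) (W : Subgroup G) (hW : Cfsg.IsWeaklyClosed W (T : Subgroup G)) (d g : G) (hd : d ∈ Subgroup.centralizer (W : Set G)) (hgd : g * d * g⁻¹ ∈ Subgroup.centralizer (W : Set G)) : ∃ h ∈ Subgroup.normalizer (W : Set G), h * d * h⁻¹ = g * d * g⁻¹ := by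
  open Cfsg.Agent.Lib.Invol Cfsg.Agent.Lib.Techniques in
  obtain ⟨hWT, hw⟩ := hW
  have hWp : IsPGroup p W := T.isPGroup'.to_le hWT
  set y := g * d * g⁻¹ with hy
  set C := Subgroup.centralizer ({y} : Set G) with hC
  have hWC : W ≤ C := by
    intro w hw'
    rw [hC, Subgroup.mem_centralizer_singleton_iff]
    exact ((Subgroup.mem_centralizer_iff.1 hgd) w hw')
  have hgWC : conjS g W ≤ C := by
    rintro _ ⟨w, hw', rfl⟩
    rw [hC, Subgroup.mem_centralizer_singleton_iff]
    have h1 : d * w = w * d := ((Subgroup.mem_centralizer_iff.1 hd) w hw').symm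
    show g * w * g⁻¹ * (g * d * g⁻¹) = (g * d * g⁻¹) * (g * w * g⁻¹)
    calc g * w * g⁻¹ * (g * d * g⁻¹) = g * (w * d) * g⁻¹ := by group
      _ = g * (d * w) * g⁻¹ := by rw [h1]
      _ = _ := by group
  obtain ⟨R, hR, hRs⟩ := exists_sylowIn_ge hWC hWp
  obtain ⟨S, hS⟩ := hRs.2.1.exists_le_sylow
  obtain ⟨a, ha⟩ := map_conj_le_of_sylow S T
  have ha' : conjS a (S : Subgroup G) = T := ha
  -- `a` conjugates `R` into `T`
  have haR : conjS a R ≤ T := by rw [← ha']; exact conjS_mono a hS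
  have h1 : conjS a W = W := hw a ((conjS_mono a hR).trans haR)
  obtain ⟨c, hcC, hc⟩ := hRs.exists_conj_le hgWC (isPGroup_conjS g hWp)
  have h2 : conjS a (conjS c (conjS g W)) ≤ T := (conjS_mono a hc).trans haR
  have e3 : conjS (a * (c * g)) W = conjS a (conjS c (conjS g W)) := by rw [conjS_mul, conjS_mul]
  have h3 : conjS (a * (c * g)) W = W := hw _ (e3.le.trans h2)
  rw [conjS_mul a (c * g)] at h3
  have h4 : conjS (c * g) W = W := by
    have := congrArg (conjS a⁻¹) h3
    rw [conjS_inv_conjS] at this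
    rw [this, ← h1, conjS_inv_conjS, h1]
  refine ⟨c * g, mem_normalizer_iff_conjS.2 h4, ?_⟩
  rw [hC, Subgroup.mem_centralizer_singleton_iff] at hcC
  have h5 : c * y * c⁻¹ = y := by rw [hcC]; group
  calc c * g * d * (c * g)⁻¹ = c * y * c⁻¹ := by rw [hy]; group
    _ = y := h5

end Cfsg.Agent.S1243
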