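import Cfsg.Statements.S1244
import Mathlib
import Cfsg.Agent.Lib.Invol.Isolated
import Cfsg.Agent.Lib.Invol.TwoQuot
import Cfsg.Agent.Lib.Transfer.Basic
import Cfsg.Agent.Lib.Techniques.Fusion
import Cfsg.Agent.Lib.ClassSizes.Basic

set_option autoImplicit false
open Cfsg

namespace Cfsg.Agent.S1244

open scoped IsMulCommutative in
theorem aux {G : Type*} [Group G] [Finite G] (hG : ∀ H : Subgroup G, H.index ≠ 2) (S : Sylow 2 G) [IsMulCommutative (S : Subgroup G)] (Ω : Subgroup G) [IsMulCommutative Ω] (hΩ : ∀ x, x ∈ Ω ↔ x ∈ (S : Subgroup G) ∧ x * x = 1) (W : Subgroup Ω) (hW : W.index = 2) (t : G) (htΩ : t ∈ Ω) (hNot : ∀ n ∈ Subgroup.normalizer ((S : Subgroup G) : Set G), ∀ h : n * t * n⁻¹ ∈ Ω, (⟨_, h⟩ : Ω) ∉ W) : False := by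
  classical
  open Cfsg.Agent.Lib.Invol Cfsg.Agent.Lib.Techniques Cfsg.Agent.Lib.Transfer in
  have hp2 : Fact (Nat.Prime 2) := ⟨Nat.prime_two⟩
  set N : Subgroup G := Subgroup.normalizer ((S : Subgroup G) : Set G) with hN
  have hSN : (S : Subgroup G) ≤ N := Subgroup.le_normalizer
  have htS : t ∈ (S : Subgroup G) := ((hΩ t).1 htΩ).1
  let x : N := ⟨t, hSN htS⟩
  have hconj : ∀ y : {y : N // IsConj x y}, ∃ c : N, (y : N) = c * x * c⁻¹ := by
    rintro ⟨y, hy⟩
    obtain ⟨c, hc⟩ := isConj_iff.1 hy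
    exact ⟨c, hc.symm⟩
  have hmemΩ : ∀ n ∈ N, ∀ a ∈ Ω, n * a * n⁻¹ ∈ Ω := by
    intro n hn a ha
    rw [hΩ] at ha ⊢
    refine ⟨(Subgroup.mem_normalizer_iff.1 hn a).1 ha.1, ?_⟩
    calc n * a * n⁻¹ * (n * a * n⁻¹) = n * (a * a) * n⁻¹ := by group
      _ = 1 := by rw [ha.2]; group
  have hyΩ : ∀ y : {y : N // IsConj x y}, ((y : N) : G) ∈ Ω := by
    intro y
    obtain ⟨c, hc⟩ := hconj y
    rw [hc]
    exact hmemΩ c c.2 t htΩ
  let F : {y : N // IsConj x y} → Ω := fun y => ⟨_, hyΩ y⟩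
  have hFW : ∀ y, F y ∉ W := by
    intro y
    obtain ⟨c, hc⟩ := hconj y
    have h1 := hNot c c.2 (hmemΩ c c.2 t htΩ)
    have : F y = ⟨_, hmemΩ c c.2 t htΩ⟩ := by
      apply Subtype.ext
      show ((y : N) : G) = _
      rw [hc]; rfl
    rwa [this]
  haveI : Fintype {y : N // IsConj x y} := Fintype.ofFinite _
  -- the number of conjugates is odd
  have hodd : Odd (Fintype.card {y : N // IsConj x y}) := by
    rw [← Nat.card_eq_fintype_card, Cfsg.Agent.Lib.ClassSizes.card_isConj_eq_index]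
    have h1 : ((S : Subgroup G).subgroupOf N) ≤ Subgroup.centralizer ({x} : Set N) := by
      intro a ha
      rw [Subgroup.mem_centralizer_singleton_iff]
      apply Subtype.ext
      have := IsMulCommutative.is_comm.comm (⟨a, ha⟩ : (S : Subgroup G)) ⟨t, htS⟩
      have h := congrArg Subtype.val this
      exact h
    have h2 := Subgroup.index_dvd_of_le h1
    have h3 : ((S : Subgroup G).subgroupOf N).index ∣ (S : Subgroup G).index := by
      have := Subgroup.relIndex_mul_index hSN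
      exact ⟨_, this.symm⟩
    rw [← Nat.not_even_iff_odd, even_iff_two_dvd]
    intro h4
    exact S.not_dvd_index (h4.trans (h2.trans h3))
  -- parity
  have hpar : ∀ s : Finset {y : N // IsConj x y}, (∏ i ∈ s, F i) ∈ W ↔ Even s.card := by
    intro s
    induction s using Finset.induction_on with
    | empty => simp [one_mem]
    | insert a s ha ih =>
      rw [Finset.prod_insert ha, Subgroup.mul_mem_iff_of_index_two hW, ih, Finset.card_insert_of_notMem ha,
        Nat.even_add_one]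
      have := hFW a
      tauto
  let w : Ω := ∏ i, F i
  have hwW : w ∉ W := by
    intro h
    have := (hpar Finset.univ).1 h
    rw [Finset.card_univ] at this
    exact (Nat.not_even_iff_odd.2 hodd) this
  have hw1 : (w : G) ≠ 1 := by
    intro h
    apply hwW
    have : w = 1 := Subtype.ext h
    rw [this]; exact one_mem _
  -- `w` is fixed by the normalizer
  have hfix : ∀ n ∈ N, n * (w : G) * n⁻¹ = w := by
    intro n hn
    let c : Ω →* Ω := MonoidHom.mk' (fun a => ⟨n * a * n⁻¹, hmemΩ n hn a a.2⟩) (by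
      intro a b
      apply Subtype.ext
      show n * ((a : G) * b) * n⁻¹ = n * a * n⁻¹ * (n * b * n⁻¹)
      group)
    have hcw : c w = ∏ i, c (F i) := map_prod c _ _
    let σ : {y : N // IsConj x y} → {y : N // IsConj x y} := fun y =>
      ⟨⟨n, hn⟩ * (y : N) * (⟨n, hn⟩ : N)⁻¹, y.2.trans (isConj_iff.2 ⟨⟨n, hn⟩, rfl⟩)⟩
    have hσinj : Function.Injective σ := by
      intro a b hab
      have := congrArg (fun y : {y : N // IsConj x y} => (y : N)) hab
      simp only [σ] at this
      exact Subtype.ext (by simpa using this)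
    have hσ : Function.Bijective σ := Finite.injective_iff_bijective.1 hσinj
    have h2 : ∏ i, c (F i) = w := by
      have : ∀ i, c (F i) = F (σ i) := fun i => rfl
      simp_rw [this]
      exact hσ.prod_comp F
    have := congrArg Subtype.val (hcw.trans h2)
    exact this
  have hwS : (w : G) ∈ (S : Subgroup G) := ((hΩ w).1 w.2).1
  have hww : (w : G) * w = 1 := ((hΩ w).1 w.2).2
  have hScomm : ∀ a ∈ (S : Subgroup G), ∀ b ∈ (S : Subgroup G), a * b = b * a := by
    intro a ha b hb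
    have := IsMulCommutative.is_comm.comm (⟨a, ha⟩ : (S : Subgroup G)) ⟨b, hb⟩
    exact congrArg Subtype.val this
  let φ : (S : Subgroup G) →* (S : Subgroup G) := MonoidHom.id _
  let y : (S : Subgroup G) := ⟨w, hwS⟩
  have hV : MonoidHom.transfer φ (y : G) = φ y ^ (S : Subgroup G).index := by
    refine transfer_eq_pow_of_stable' φ y fun k g hg => ?_
    apply Subtype.ext
    show g⁻¹ * (w : G) ^ k * g = (w : G) ^ k
    have hwk : (w : G) ^ k ∈ (S : Subgroup G) := pow_mem hwS k
    obtain ⟨n, hn, hnc⟩ := burnside_fusion (p := 2) (P := (S : Subgroup G)) (x := (w : G) ^ k) (y := g⁻¹ * (w : G) ^ k * g) (g := g⁻¹) (sylowIn_top_of_sylow S)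
      (fun z hz => hScomm _ hz _ hwk) (fun z hz => hScomm _ hz _ hg) (by simp)
    rw [← hnc]
    have h3 : ∀ j : ℕ, n * (w : G) ^ j * n⁻¹ = (w : G) ^ j := by
      intro j
      have := (MulAut.conj n).toMonoidHom.map_pow (w : G) j
      simp only [MulEquiv.toMonoidHom_eq_coe, MonoidHom.coe_coe, MulAut.conj_apply] at this
      rw [this, hfix n hn]
    exact h3 k
  have hidx : Odd (S : Subgroup G).index := by
    rw [← Nat.not_even_iff_odd, even_iff_two_dvd]
    exact S.not_dvd_index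
  have hV2 : MonoidHom.transfer φ (y : G) = y := by
    rw [hV]
    obtain ⟨m, hm⟩ := hidx
    rw [hm, pow_succ, pow_mul]
    have : φ y ^ 2 = 1 := by
      apply Subtype.ext
      show (w : G) ^ 2 = 1
      rw [pow_two, hww]
    rw [this, one_pow, one_mul]
    rfl
  have hne : MonoidHom.transfer φ (y : G) ≠ 1 := by
    rw [hV2]
    intro h
    exact hw1 (congrArg Subtype.val h)
  obtain ⟨H, hH⟩ := exists_index_two_of_hom S.isPGroup' _ hne
  exact hG H hH


/-- Let G be a finite group with no subgroup of index 2 whose Sylow 2-subgroup S is commutative, and let R ≤ S be a subgroup whose 2-rank is exactly one less than the 2-rank r of S. Then every involution of S is conjugate, by an element of N_G(S), to an element of R. -/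
theorem result {G : Type*} [Group G] [Finite G] (hG : ∀ H : Subgroup G, H.index ≠ 2) (S : Sylow 2 G) (hS : IsMulCommutative (S : Subgroup G)) (r : ℕ) (hr1 : 1 ≤ r) (hSr : Cfsg.PRankLE 2 r (S : Subgroup G) ∧ ¬ Cfsg.PRankLE 2 (r - 1) (S : Subgroup G)) (R : Subgroup G) (hRS : R ≤ S) (hRr : Cfsg.PRankLE 2 (r - 1) R ∧ (r = 1 ∨ ¬ Cfsg.PRankLE 2 (r - 2) R)) (t : G) (ht : orderOf t = 2) (htS : t ∈ S) : ∃ n ∈ Subgroup.normalizer ((S : Subgroup G) : Set G), n * t * n⁻¹ ∈ R := by
  open Cfsg.Agent.Lib.Invol in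
  by_contra hcon
  push Not at hcon
  haveI := hS
  have hp2 : Fact (Nat.Prime 2) := ⟨Nat.prime_two⟩
  -- Ω₁(S)
  let Ω : Subgroup G :=
    { carrier := {x | x ∈ (S : Subgroup G) ∧ x * x = 1}
      one_mem' := ⟨one_mem _, by simp⟩
      inv_mem' := by
        rintro x ⟨h1, h2⟩
        refine ⟨inv_mem h1, ?_⟩
        rw [inv_eq_of_mul_self h2]; exact h2
      mul_mem' := by
        rintro x y ⟨h1, h2⟩ ⟨h3, h4⟩
        refine ⟨mul_mem h1 h3, ?_⟩
        have hc : x * y = y * x := by
          have := IsMulCommutative.is_comm.comm (⟨x, h1⟩ : (S : Subgroup G)) ⟨y, h3⟩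
          exact congrArg Subtype.val this
        calc x * y * (x * y) = x * (y * x) * y := by group
          _ = x * (x * y) * y := by rw [hc]
          _ = (x * x) * (y * y) := by group
          _ = 1 := by rw [h2, h4, one_mul] }
  have hΩ : ∀ x, x ∈ Ω ↔ x ∈ (S : Subgroup G) ∧ x * x = 1 := fun x => Iff.rfl
  have hΩS : Ω ≤ (S : Subgroup G) := fun x hx => hx.1
  haveI hΩc : IsMulCommutative Ω := by
    refine ⟨⟨fun a b => ?_⟩⟩
    apply Subtype.ext
    have := IsMulCommutative.is_comm.comm (⟨a, a.2.1⟩ : (S : Subgroup G)) ⟨b, b.2.1⟩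
    have h := congrArg Subtype.val this
    exact h
  -- a general bound: subgroups of exponent two in a subgroup `K ≤ G` commutative lie in Ω
  have hcomm2 : ∀ (K : Subgroup G) (A : Subgroup K), (∀ a ∈ A, a ^ 2 = 1) → (∀ a ∈ A, (a : G) ∈ (S : Subgroup G)) →
      Nat.card A ≤ Nat.card (Ω.subgroupOf K) := by
    intro K A hA hAS
    apply Subgroup.card_le_of_le
    intro a ha
    rw [Subgroup.mem_subgroupOf]
    refine ⟨hAS a ha, ?_⟩
    have := hA a ha
    rw [pow_two] at this
    exact congrArg Subtype.val this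
  have hΩ2 : IsPGroup 2 Ω := S.isPGroup'.to_le hΩS
  obtain ⟨m, hm⟩ := IsPGroup.iff_card.1 hΩ2
  have hcardΩ : Nat.card (Ω.subgroupOf (S : Subgroup G)) = Nat.card Ω :=
    Nat.card_congr (Subgroup.subgroupOfEquivOfLe hΩS).toEquiv
  have hle : Nat.card Ω ≤ 2 ^ r := by
    rw [← hcardΩ]
    refine hSr.1 _ ?_ ?_
    · refine ⟨⟨fun a b => ?_⟩⟩
      apply Subtype.ext
      apply Subtype.ext
      have := IsMulCommutative.is_comm.comm (⟨a.1.1, a.1.2⟩ : (S : Subgroup G)) ⟨b.1.1, b.1.2⟩
      have h := congrArg Subtype.val this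
      exact h
    · intro a ha
      apply Subtype.ext
      have := (Subgroup.mem_subgroupOf.1 ha).2
      show (a : G) ^ 2 = 1
      rw [pow_two]; exact this
  have hm' : m = r := by
    have hlt : 2 ^ (r - 1) < 2 ^ m := by
      have h1 := hSr.2
      unfold Cfsg.PRankLE at h1
      push Not at h1
      obtain ⟨A, -, hA2, hA3⟩ := h1
      have h2 := hcomm2 _ A hA2 (fun a _ => a.2)
      rw [hcardΩ, hm] at h2
      exact lt_of_lt_of_le hA3 h2
    have hlt2 : 2 ^ m ≤ 2 ^ r := hm ▸ hle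
    have h3 := (Nat.pow_lt_pow_iff_right (by norm_num : 1 < 2)).1 hlt
    have h4 := (Nat.pow_le_pow_iff_right (by norm_num : 1 < 2)).1 hlt2
    omega
  subst hm'
  have hcardW : Nat.card (R.subgroupOf Ω) = Nat.card (Ω.subgroupOf R) :=
    Nat.card_congr ⟨fun a => ⟨⟨a.1.1, Subgroup.mem_subgroupOf.1 a.2⟩, Subgroup.mem_subgroupOf.2 a.1.2⟩,
      fun a => ⟨⟨a.1.1, Subgroup.mem_subgroupOf.1 a.2⟩, Subgroup.mem_subgroupOf.2 a.1.2⟩, fun _ => rfl, fun _ => rfl⟩
  have hB2 : IsPGroup 2 (R.subgroupOf Ω) := hΩ2.to_subgroup _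
  obtain ⟨j, hj⟩ := IsPGroup.iff_card.1 hB2
  have hBle : Nat.card (R.subgroupOf Ω) ≤ 2 ^ (m - 1) := by
    rw [hcardW]
    refine hRr.1 _ ?_ ?_
    · refine ⟨⟨fun a b => ?_⟩⟩
      apply Subtype.ext
      apply Subtype.ext
      have ha := Subgroup.mem_subgroupOf.1 a.2
      have hb := Subgroup.mem_subgroupOf.1 b.2
      have := IsMulCommutative.is_comm.comm (⟨a.1.1, ha.1⟩ : (S : Subgroup G)) ⟨b.1.1, hb.1⟩
      have h := congrArg Subtype.val this
      exact h
    · intro a ha
      apply Subtype.ext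
      have := (Subgroup.mem_subgroupOf.1 ha).2
      show (a : G) ^ 2 = 1
      rw [pow_two]; exact this
  have hjm : j = m - 1 := by
    have h1 : j ≤ m - 1 := by
      rw [hj] at hBle
      exact (Nat.pow_le_pow_iff_right (by norm_num : 1 < 2)).1 hBle
    by_cases hr : m = 1
    · subst hr
      omega
    · obtain h2 | h2 := hRr.2
      · exact absurd h2 hr
      · unfold Cfsg.PRankLE at h2
        push Not at h2
        obtain ⟨A, -, hA2, hA3⟩ := h2
        have h4 := hcomm2 _ A hA2 (fun a _ => hRS a.2)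
        rw [← hcardW, hj] at h4
        have h5 := (Nat.pow_lt_pow_iff_right (by norm_num : 1 < 2)).1 (lt_of_lt_of_le hA3 h4)
        omega
  have hW : (R.subgroupOf Ω).index = 2 := by
    have h1 := Subgroup.card_mul_index (R.subgroupOf Ω)
    rw [hj, hm, hjm] at h1
    have h2 : 2 ^ m = 2 ^ (m - 1) * 2 := by
      rw [← pow_succ]; congr 1; omega
    rw [h2] at h1
    exact Nat.eq_of_mul_eq_mul_left (by positivity) h1
  refine aux hG S Ω hΩ _ hW t ⟨htS, mul_self_of_order_two ht⟩ ?_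
  intro n hn h1 h2
  exact hcon n hn (Subgroup.mem_subgroupOf.1 h2)

end Cfsg.Agent.S1244
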