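import Cfsg.Statements.S1246
import Mathlib
import Cfsg.Agent.Lib.Amalgam.ParaChar
import Cfsg.Agent.Lib.Techniques.WeakMain
import Cfsg.Agent.Lib.Techniques.Bender

set_option autoImplicit false
open Cfsg

namespace Cfsg.Agent.S1246


open Subgroup Cfsg.Agent.Lib.Core Cfsg.Agent.Lib.FStar Cfsg.Agent.Lib.Amalgam Cfsg.Agent.Lib.Techniques

variable {G : Type*} [Group G] [Finite G] {p : ℕ} [hp : Fact p.Prime]

lemma normalizer_le_pCoreOf_normalizer (H : Subgroup G) (g : G) (hg : g ∈ normalizer (H : Set G)) :
    g ∈ normalizer ((pCoreOf p H : Subgroup G) : Set G) := by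
  have key : ∀ g ∈ normalizer (H : Set G), ∀ x ∈ pCoreOf p H, g * x * g⁻¹ ∈ pCoreOf p H := by
    intro g hg x hx
    set Q' : Subgroup G := (pCoreOf p H).map (MulAut.conj g).toMonoidHom with hQ'
    have hQ'le : Q' ≤ pCoreOf p H := by
      apply le_pCoreOf_wc
      · rintro _ ⟨y, hy, rfl⟩
        exact (mem_normalizer_iff.1 hg y).1 (pCoreOf_le_wc H hy)
      · intro h hh
        rw [mem_normalizer_iff]
        have hk := le_normalizer_pCoreOf_wc (p := p) H
        have hgi : g⁻¹ ∈ normalizer (H : Set G) := inv_mem hg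
        have hh' : g⁻¹ * h * g ∈ H := by
          have := (mem_normalizer_iff.1 hgi h).1 hh
          simpa using this
        have hn := mem_normalizer_iff.1 (hk hh')
        intro y
        have hQmem : ∀ y, y ∈ Q' ↔ g⁻¹ * y * g ∈ pCoreOf p H := by
          intro y
          rw [hQ', Subgroup.mem_map_equiv]
          simp [MulAut.conj_symm_apply]
        rw [hQmem, hQmem]
        have e : g⁻¹ * (h * y * h⁻¹) * g = (g⁻¹ * h * g) * (g⁻¹ * y * g) * (g⁻¹ * h * g)⁻¹ := by group
        rw [e]
        exact hn _
      · exact (pCoreOf_isPGroup_wc H).map _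
    exact hQ'le ⟨x, hx, rfl⟩
  rw [mem_normalizer_iff]
  intro x
  refine ⟨key g hg x, fun hx => ?_⟩
  have := key g⁻¹ (inv_mem hg) _ hx
  have e : g⁻¹ * (g * x * g⁻¹) * g⁻¹⁻¹ = x := by group
  rwa [e] at this

/-- The main step: `V` is normal in `U`. -/
lemma step {V U : Subgroup G} (hU : IsPGroup p U) (hVU : V ≤ U)
    (hUN : U ≤ normalizer (V : Set G))
    (h : generalizedFittingSubgroup ↥(centralizer (V : Set G)) = pCore p ↥(centralizer (V : Set G))) :
    generalizedFittingSubgroup ↥(centralizer (U : Set G)) = pCore p ↥(centralizer (U : Set G)) := by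
  classical
  set H : Subgroup G := centralizer (V : Set G) with hH
  set X : Subgroup G := centralizer (U : Set G) with hX
  have hXH : X ≤ H := centralizer_le (by exact_mod_cast hVU)
  set Q : Subgroup G := pCoreOf p H with hQ
  have hQH : Q ≤ H := pCoreOf_le_wc H
  have hQp : IsPGroup p Q := pCoreOf_isPGroup_wc H
  have hC : ∀ y ∈ H, (∀ q ∈ Q, q * y = y * q) → y ∈ Q := by
    intro y hy hc
    have h1 := centralizer_le_of_gen_eq (p := p) h
    have h2 : (⟨y, hy⟩ : H) ∈ centralizer (pCore p ↥H : Set ↥H) := by
      rw [mem_centralizer_iff]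
      intro q hq
      exact Subtype.ext (hc q ⟨q, hq, rfl⟩)
    exact ⟨_, h1 h2, rfl⟩
  have hUQ : U ≤ normalizer (Q : Set G) := by
    intro u hu
    apply normalizer_le_pCoreOf_normalizer
    rw [mem_normalizer_iff]
    intro y
    rw [hH, mem_centralizer_iff, mem_centralizer_iff]
    have hu' := mem_normalizer_iff.1 (hUN hu)
    constructor
    · intro hy v hv
      have h1 : u⁻¹ * v * u ∈ V := by
        have := (mem_normalizer_iff.1 (inv_mem (hUN hu)) v).1 hv
        simpa using this
      have h2 := hy _ h1
      calc v * (u * y * u⁻¹) = u * ((u⁻¹ * v * u) * y) * u⁻¹ := by group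
        _ = u * (y * (u⁻¹ * v * u)) * u⁻¹ := by rw [h2]
        _ = u * y * u⁻¹ * v := by group
    · intro hy v hv
      have h1 : u * v * u⁻¹ ∈ V := (hu' v).1 hv
      have h2 := hy _ h1
      have h3 : u * (v * y) * u⁻¹ = u * (y * v) * u⁻¹ := by
        calc u * (v * y) * u⁻¹ = (u * v * u⁻¹) * (u * y * u⁻¹) := by group
          _ = (u * y * u⁻¹) * (u * v * u⁻¹) := h2
          _ = u * (y * v) * u⁻¹ := by group
      have h4 := mul_right_cancel h3
      exact mul_left_cancel h4
  apply gen_eq_of_centralizer_le
  set Y : Subgroup ↥X := centralizer (pCore p ↥X : Set ↥X) with hY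
  haveI hYn : Y.Normal := by
    rw [hY]; infer_instance
  apply le_pCore hYn
  -- all elements of `Y` have order a power of `p`
  haveI : Finite Y := inferInstance
  have hcard : ∀ q : ℕ, q.Prime → q ∣ Nat.card Y → q = p := by
    intro q hq hqd
    by_contra hne
    haveI := Fact.mk hq
    obtain ⟨a, ha⟩ := exists_prime_orderOf_dvd_card' (G := Y) q hqd
    set a' : G := ((a : X) : G) with ha'
    have hoa : orderOf a' = q := by
      rw [ha', Subgroup.orderOf_coe, Subgroup.orderOf_coe, ha]
    have haX : a' ∈ X := (a : X).2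
    have hacop : Nat.Coprime (orderOf a') p := by
      rw [hoa]
      exact (Nat.coprime_primes hq hp.out).mpr hne
    have hcom := axb_element hQp hU hUQ a' hacop
      (fun y hy => (mem_normalizer_iff.1 (le_normalizer_pCoreOf_wc (p := p) H (hXH haX)) y).1 hy)
      (fun b hb => ?_) (fun y hy hy2 => ?_)
    · have h1 := hC a' (hXH haX) (fun q hq => (hcom q hq).symm)
      have h2 := hQp ⟨a', h1⟩
      obtain ⟨n, hn⟩ := h2
      have h3 : a' ^ p ^ n = 1 := by
        have := congrArg Subtype.val hn
        simpa using this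
      have h4 : q ∣ p ^ n := by
        rw [← hoa]; exact orderOf_dvd_of_pow_eq_one h3
      exact hne ((Nat.prime_dvd_prime_iff_eq hq hp.out).mp (hq.dvd_of_dvd_pow h4))
    · exact ((mem_centralizer_iff.1 haX b hb)).symm
    · -- `y ∈ C_Q(U)` lies in `O_p(C(U))`
      have hyX : y ∈ X := mem_centralizer_iff.2 (fun u hu => hy2 u hu)
      have hsub : Q ⊓ X ≤ pCoreOf p X := by
        apply le_pCoreOf_wc inf_le_right
        · intro x hx
          rw [mem_normalizer_iff]
          intro z
          constructor
          · rintro ⟨hz1, hz2⟩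
            exact ⟨(mem_normalizer_iff.1 (le_normalizer_pCoreOf_wc (p := p) H (hXH hx)) z).1 hz1,
              X.mul_mem (X.mul_mem hx hz2) (X.inv_mem hx)⟩
          · rintro ⟨hz1, hz2⟩
            refine ⟨?_, ?_⟩
            · exact (mem_normalizer_iff.1 (le_normalizer_pCoreOf_wc (p := p) H (hXH hx)) z).2 hz1
            · have := X.mul_mem (X.mul_mem (X.inv_mem hx) hz2) hx
              have e : x⁻¹ * (x * z * x⁻¹) * x = z := by group
              rwa [e] at this
        · exact hQp.to_le inf_le_left
      obtain ⟨y', hy', hyy⟩ := hsub ⟨hy, hyX⟩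
      have h1 := mem_centralizer_iff.1 a.2 y' hy'
      have h2 := congrArg Subtype.val h1
      have e : (y' : G) = y := hyy
      rw [← e]
      exact h2.symm
  have hY0 : Nat.card Y ≠ 0 := Nat.card_pos.ne'
  exact IsPGroup.of_card (Nat.eq_prime_pow_of_unique_prime_dvd hY0 (fun {d} hd hdd => hcard d hd hdd))

/-- The tower of normalizers. -/
lemma tower {U : Subgroup G} (hU : IsPGroup p U) :
    ∀ (k : ℕ) (W : Subgroup G), W ≤ U → Nat.card U - Nat.card W = k →
      generalizedFittingSubgroup ↥(centralizer (W : Set G)) = pCore p ↥(centralizer (W : Set G)) →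
      generalizedFittingSubgroup ↥(centralizer (U : Set G)) = pCore p ↥(centralizer (U : Set G)) := by
  classical
  intro k
  induction k using Nat.strong_induction_on with
  | _ k ih =>
    intro W hWU hk hW
    by_cases hEq : W = U
    · rwa [← hEq]
    -- `W < N_U(W)`
    set V : Subgroup G := U ⊓ normalizer (W : Set G) with hV
    have hWV : W ≤ V := le_inf hWU Subgroup.le_normalizer
    have hWlt : W < V := by
      haveI : Group.IsNilpotent U := hU.isNilpotent
      have hH : W.subgroupOf U < ⊤ := by
        rw [lt_top_iff_ne_top]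
        intro h
        apply hEq
        apply le_antisymm hWU
        intro x hx
        have : (⟨x, hx⟩ : U) ∈ W.subgroupOf U := by rw [h]; trivial
        exact Subgroup.mem_subgroupOf.1 this
      have hlt := Group.normalizerCondition_of_isNilpotent (G := U) _ hH
      obtain ⟨x, hxN, hxP⟩ := SetLike.exists_of_lt hlt
      refine lt_of_le_of_ne hWV fun h => hxP ?_
      have hxV : (x : G) ∈ V := by
        refine ⟨x.2, ?_⟩
        show (x : G) ∈ normalizer (W : Set G)
        rw [mem_normalizer_iff]
        intro y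
        constructor
        · intro hy
          have h1 : (⟨y, hWU hy⟩ : U) ∈ W.subgroupOf U := Subgroup.mem_subgroupOf.2 hy
          have h2 := (Subgroup.mem_normalizer_iff.1 hxN _).1 h1
          exact Subgroup.mem_subgroupOf.1 h2
        · intro hy
          have hyU : y ∈ U := by
            have : y = (x : G)⁻¹ * ((x : G) * y * (x : G)⁻¹) * x := by group
            rw [this]
            exact U.mul_mem (U.mul_mem (U.inv_mem x.2) (hWU hy)) x.2
          have h1 : ((⟨y, hyU⟩ : U)) ∈ W.subgroupOf U ↔ _ := Subgroup.mem_normalizer_iff.1 hxN _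
          exact Subgroup.mem_subgroupOf.1 (h1.2 (Subgroup.mem_subgroupOf.2 hy))
      rw [← h] at hxV
      exact Subgroup.mem_subgroupOf.2 hxV
    have hVp : IsPGroup p V := hU.to_le inf_le_left
    have hVN : generalizedFittingSubgroup ↥(centralizer (V : Set G)) = pCore p ↥(centralizer (V : Set G)) :=
      step hVp hWV inf_le_right hW
    have hcardlt : Nat.card W < Nat.card V := by
      by_contra hc
      exact hWlt.ne (Subgroup.eq_of_le_of_card_ge hWlt.le (not_lt.1 hc))
    have hVle : Nat.card V ≤ Nat.card U := Subgroup.card_le_of_le inf_le_left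
    exact ih (Nat.card U - Nat.card V) (by omega) V inf_le_left rfl hVN

lemma gen_eq_of_isPGroup {X : Type*} [Group X] [Finite X]
    (h : IsPGroup p ↥(generalizedFittingSubgroup X)) : generalizedFittingSubgroup X = pCore p X := by
  apply le_antisymm
  · exact le_pCore inferInstance h
  · exact (pCore_le_fittingSubgroup p).trans fitting_le_gen


/-- Let V ≤ U be p-subgroups of the finite group G. If the generalized Fitting subgroup of C_G(V) is a p-group, then so is that of C_G(U). -/
theorem result {G : Type*} [Group G] [Finite G] {p : ℕ} [Fact p.Prime] (U V : Subgroup G) (hVU : V ≤ U) (hU : IsPGroup p U) (hV : IsPGroup p ↥(Cfsg.generalizedFittingSubgroup ↥(Subgroup.centralizer (V : Set G)))) : IsPGroup p ↥(Cfsg.generalizedFittingSubgroup ↥(Subgroup.centralizer (U : Set G))) := by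
  have h1 : generalizedFittingSubgroup ↥(centralizer (V : Set G)) = pCore p ↥(centralizer (V : Set G)) :=
    gen_eq_of_isPGroup hV
  have h2 := tower hU _ V hVU rfl h1
  rw [h2]
  exact pCore_isPGroup p _

end Cfsg.Agent.S1246
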