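import Cfsg.Statements.S1247
import Mathlib
import Cfsg.Agent.Lib.Techniques.Bender2

set_option autoImplicit false
open Cfsg

namespace Cfsg.Agent.S1247


open Subgroup Cfsg.Agent.Lib.Core Cfsg.Agent.Lib.FStar Cfsg.Agent.Lib.Techniques

variable {G : Type*} [Group G] [Finite G]

/-- The hypotheses on `S`, read in `A`. -/
structure Good (A S : Subgroup G) : Prop where
  hSA : S ≤ A
  hsn : (S.subgroupOf A).IsSubnormal
  hle : S.subgroupOf A ≤ generalizedFittingSubgroup ↥A
  hC : ∀ y ∈ generalizedFittingSubgroup ↥A, (∀ s ∈ S.subgroupOf A, y * s = s * y) → y ∈ S.subgroupOf A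

lemma good_of {A S : Subgroup G} (hSF : S ≤ (generalizedFittingSubgroup ↥A).map A.subtype)
    (hSsn : (S.subgroupOf ((generalizedFittingSubgroup ↥A).map A.subtype)).IsSubnormal)
    (hSC : (generalizedFittingSubgroup ↥A).map A.subtype ⊓ centralizer (S : Set G) ≤ S) : Good A S := by
  have hSA : S ≤ A := hSF.trans (map_subtype_le _)
  have hle : S.subgroupOf A ≤ generalizedFittingSubgroup ↥A := by
    intro s hs
    obtain ⟨y, hy, hye⟩ := hSF hs
    have : y = s := Subtype.ext hye
    rwa [← this]
  refine ⟨hSA, ?_, hle, ?_⟩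
  · set Fx := generalizedFittingSubgroup ↥A with hFx
    set F := Fx.map A.subtype with hF
    refine IsSubnormal.trans hle ?_ (gen_normal _).isSubnormal
    let f : ↥Fx →* ↥F := (A.subtype.comp Fx.subtype).codRestrict F (fun x => ⟨x, x.2, rfl⟩)
    have h1 := hSsn.comap f
    exact h1
  · intro y hy hc
    apply hSC
    refine ⟨⟨y, hy, rfl⟩, mem_centralizer_iff.2 ?_⟩
    intro s hs
    have h1 := hc ⟨s, hSA hs⟩ hs
    exact (congrArg Subtype.val h1).symm

variable {A S : Subgroup G}

lemma Good.layer_le (h : Good A S) : layer ↥A ≤ S.subgroupOf A := by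
  refine sSup_le fun L hL => ?_
  rcases component_le_or_commute hL h.hsn with h1 | h1
  · exact h1
  · rw [commutator_eq_bot_iff_le_centralizer] at h1
    intro l hl
    apply h.hC l (layer_le_gen (component_le_layer hL hl))
    intro s hs
    exact (mem_centralizer_iff.1 (h1 hl) s hs).symm

lemma Good.zPart_le (h : Good A S) (q : ℕ) [Fact q.Prime] : zPart q ↥A ≤ S.subgroupOf A := by
  intro z hz
  have hzF := zPart_le_fitting q hz
  apply h.hC z (fitting_le_gen hzF)
  intro s hs
  obtain ⟨e, he, f, hf, rfl⟩ := mem_sup_of_commuting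
    (fun a ha b hb => mul_comm_of_commutator_eq_bot layer_commute_fitting ha hb) (h.hle hs)
  have h1 : e * z = z * e := mul_comm_of_commutator_eq_bot layer_commute_fitting he hzF
  have h2 : f * z = z * f := mem_centralizer_iff.1 (mem_inf.1 hz).2 f hf
  calc z * (e * f) = (z * e) * f := by group
    _ = e * z * f := by rw [h1]
    _ = e * (z * f) := by group
    _ = e * (f * z) := by rw [h2]
    _ = e * f * z := by group

lemma Good.key_layer (h : Good A S) {W : Subgroup G} (hWs : Group.IsSolvable W) (hWA : W ≤ A)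
    (hSW : S ≤ normalizer (W : Set G)) {e : ↥A} (he : e ∈ layer ↥A) {w : G} (hw : w ∈ W) :
    w * e = e * w := by
  have hW' : Group.IsSolvable (W.subgroupOf A) :=
    Group.isSolvable_of_isSolvable_injective (f := (subgroupOfEquivOfLe hWA).toMonoidHom)
      (subgroupOfEquivOfLe hWA).injective
  have h1 := layer_comm_of_normalizes hW'
    (fun e he => mem_normalizer_subgroupOf' e (hSW (h.layer_le he)))
  have h2 : e * ⟨w, hWA hw⟩ = ⟨w, hWA hw⟩ * e := mul_comm_of_commutator_eq_bot h1 he hw
  exact (congrArg Subtype.val h2).symm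

lemma Good.mem_of_comm (h : Good A S) {r : ℕ} [Fact r.Prime] {y : ↥A} (hy : y ∈ pCore r ↥A)
    (hc : ∀ b ∈ S.subgroupOf A ⊓ pCore r ↥A, b * y = y * b) : y ∈ S.subgroupOf A := by
  apply h.hC y (fitting_le_gen (pCore_le_fittingSubgroup r hy))
  intro s hs
  obtain ⟨e, he, f, hf, rfl⟩ := subnormal_gen_decomp _ h.hle h.hsn hs
  have heL : e ∈ layer ↥A := (sSup_le fun L hL => component_le_layer hL.1) he
  obtain ⟨a, ha, u, hu, hfe, ⟨k, hk⟩, huc⟩ := Lib.Cl.exists_decomp_pow f (Fact.out : r.Prime)
  have hle1 : zpowers f ≤ fittingSubgroup ↥A ⊓ S.subgroupOf A := (zpowers_le).2 hf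
  have haF := hle1 ha
  have huF := hle1 hu
  have haO : a ∈ pCore r ↥A := mem_pCore_of_fitting haF.1 hk
  have hya : a * y = y * a := hc a ⟨haF.2, haO⟩
  have hyu : y * u = u * y := comm_of_normalized (pCore_isPGroup r _)
    (fun v _ z hz => (pCore_normal r _).conj_mem z hz v) y hy u huF.1 huc
  have hye : e * y = y * e := mul_comm_of_commutator_eq_bot layer_commute_fitting heL
    (pCore_le_fittingSubgroup r hy)
  rw [hfe]
  calc y * (e * (a * u)) = (y * e) * a * u := by group
    _ = (e * y) * a * u := by rw [hye]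
    _ = e * (y * a) * u := by group
    _ = e * (a * y) * u := by rw [hya]
    _ = e * a * (y * u) := by group
    _ = e * a * (u * y) := by rw [hyu]
    _ = e * (a * u) * y := by group

lemma Good.key_core (h : Good A S) {q r : ℕ} [Fact q.Prime] [Fact r.Prime] (hqr : r ≠ q) {W : Subgroup G}
    (hW : IsPGroup q W) (hWA : W ≤ A) (hSW : S ≤ normalizer (W : Set G)) {x : ↥A} (hx : x ∈ pCore r ↥A)
    {w : G} (hw : w ∈ W) : w * x = x * w := by
  haveI := pCore_normal r ↥A
  set P : Subgroup G := (pCore r ↥A).map A.subtype with hP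
  have hPp : IsPGroup r P := (pCore_isPGroup r ↥A).map _
  have hAP : A ≤ normalizer (P : Set G) := le_normalizer_map_of_normal _
  have hPA : P ≤ A := map_subtype_le _
  have hcop : Nat.Coprime (orderOf w) r := by
    obtain ⟨k, hk⟩ := IsPGroup.iff_orderOf.1 hW ⟨w, hw⟩
    have hk' : orderOf w = q ^ k := by rw [← Subgroup.orderOf_mk w hw]; exact hk
    rw [hk']
    exact Nat.Coprime.pow_left k ((Nat.coprime_primes Fact.out Fact.out).2 hqr.symm)
  have hcard : (Nat.card P).Coprime q := by
    obtain ⟨n, hn⟩ := IsPGroup.iff_card.1 hPp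
    rw [hn]
    exact Nat.Coprime.pow_left n ((Nat.coprime_primes Fact.out Fact.out).2 hqr)
  have hb : ∀ b ∈ S ⊓ P, w * b = b * w := by
    rintro b ⟨hbS, hbP⟩
    have h1 : w * b * w⁻¹ ∈ P := (mem_normalizer_iff.1 (hAP (hWA hw)) b).1 hbP
    have h2 : b * w⁻¹ * b⁻¹ ∈ W := (mem_normalizer_iff.1 (hSW hbS) _).1 (W.inv_mem hw)
    have h3 : w * b * w⁻¹ * b⁻¹ ∈ P := P.mul_mem h1 (P.inv_mem hbP)
    have h4 : w * b * w⁻¹ * b⁻¹ ∈ W := by
      have e : w * b * w⁻¹ * b⁻¹ = w * (b * w⁻¹ * b⁻¹) := by group
      rw [e]; exact W.mul_mem hw h2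
    have h5 := eq_one_of_mem_isPGroup_of_mem_coprime hW hcard h4 h3
    have h6 : w * b * w⁻¹ = b := mul_inv_eq_one.1 h5
    calc w * b = (w * b * w⁻¹) * w := by group
      _ = b * w := by rw [h6]
  have hmain := axb_element hPp (hPp.to_le inf_le_right) (inf_le_right.trans (hPA.trans hAP)) w hcop
    (fun y hy => (mem_normalizer_iff.1 (hAP (hWA hw)) y).1 hy) hb (by
      intro y hy hc
      obtain ⟨y', hy', rfl⟩ := hy
      have h1 := h.mem_of_comm hy' (fun b hb' => by
        have := hc (b : G) ⟨hb'.1, ⟨b, hb'.2, rfl⟩⟩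
        exact Subtype.ext this)
      exact hb _ ⟨h1, ⟨y', hy', rfl⟩⟩) (x : G) ⟨x, hx, rfl⟩
  exact hmain

/-- Part (a). -/
lemma part_a (h : Good A S) {q : ℕ} [Fact q.Prime] (hq : ¬ q ∣ Nat.card (fittingSubgroup ↥A))
    {W : Subgroup G} (hW : IsPGroup q W) (hWA : W ≤ A) (hSW : S ≤ normalizer (W : Set G)) : W = ⊥ := by
  rw [eq_bot_iff]
  intro w hw
  set w' : ↥A := ⟨w, hWA hw⟩ with hw'
  have hsolv : Group.IsSolvable W := by
    haveI := hW.isNilpotent
    infer_instance
  have h1 : ∀ e ∈ layer ↥A, w' * e = e * w' := fun e he => Subtype.ext (h.key_layer hsolv hWA hSW he hw)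
  have h2 : ∀ x ∈ fittingSubgroup ↥A, w' * x = x * w' := by
    intro x hx
    have hle : fittingSubgroup ↥A ≤ centralizer ({w'} : Set ↥A) := by
      rw [fittingSubgroup_eq_iSup_pCore]
      refine iSup_le fun s => ?_
      haveI : Fact (s : ℕ).Prime := ⟨s.2⟩
      intro z hz
      rw [mem_centralizer_iff]
      rintro _ rfl
      by_cases hs : (s : ℕ) = q
      · have h0 : pCore (s : ℕ) ↥A = ⊥ := by
          by_contra hne
          exact hq (hs ▸ dvd_of_pCore_ne_bot hne)
        rw [h0, mem_bot] at hz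
        simp [hz]
      · exact Subtype.ext (h.key_core hs hW hWA hSW hz hw)
    exact mem_centralizer_iff.1 (hle hx) w' rfl
  have hmem : w' ∈ generalizedFittingSubgroup ↥A := by
    apply centralizer_gen_le
    rw [mem_centralizer_iff]
    intro g hg
    obtain ⟨e, he, f, hf, rfl⟩ := mem_sup_of_commuting
      (fun a ha b hb => mul_comm_of_commutator_eq_bot layer_commute_fitting ha hb) hg
    calc e * f * w' = e * (f * w') := by group
      _ = e * (w' * f) := by rw [h2 f hf]
      _ = (e * w') * f := by group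
      _ = (w' * e) * f := by rw [h1 e he]
      _ = w' * (e * f) := by group
  obtain ⟨e, he, f, hf, hef⟩ := mem_sup_of_commuting
    (fun a ha b hb => mul_comm_of_commutator_eq_bot layer_commute_fitting ha hb) hmem
  have he2 : e ∈ map (layer ↥A).subtype (center ↥(layer ↥A)) := by
    rw [mem_center_map_iff]
    refine ⟨he, fun a ha => ?_⟩
    have ha1 := h1 a ha
    have ha2 : a * f = f * a := mul_comm_of_commutator_eq_bot layer_commute_fitting ha hf
    rw [← hef] at ha1
    have h3 : e * (f * a) = a * e * f := by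
      calc e * (f * a) = e * f * a := by group
        _ = a * (e * f) := ha1
        _ = a * e * f := by group
    rw [← ha2] at h3
    have h4 : (e * a) * f = (a * e) * f := by
      calc (e * a) * f = e * (a * f) := by group
        _ = a * e * f := h3
    exact (mul_right_cancel h4).symm
  rw [center_layer_eq_fitting_inf] at he2
  have hwF : w' ∈ fittingSubgroup ↥A := by
    rw [← hef]; exact mul_mem he2.1 hf
  have hord : orderOf (⟨w', hwF⟩ : ↥(fittingSubgroup ↥A)) ∣ Nat.card (fittingSubgroup ↥A) :=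
    orderOf_dvd_natCard _
  obtain ⟨k, hk⟩ := IsPGroup.iff_orderOf.1 hW ⟨w, hw⟩
  have hk' : orderOf (⟨w', hwF⟩ : ↥(fittingSubgroup ↥A)) = q ^ k := by
    rw [Subgroup.orderOf_mk, hw', Subgroup.orderOf_mk, ← hk, Subgroup.orderOf_mk]
  rw [hk'] at hord
  rcases k with _ | k
  · have : orderOf w = 1 := by
      rw [← Subgroup.orderOf_mk w hw, hk, pow_zero]
    rw [mem_bot]
    exact orderOf_eq_one_iff.1 this
  · exact absurd ((dvd_pow_self q (Nat.succ_ne_zero k)).trans hord) hq

lemma mem_normalizer_sup_of {H K : Subgroup G} {g : G} (h1 : g ∈ normalizer (H : Set G))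
    (h2 : g ∈ normalizer (K : Set G)) : g ∈ normalizer ((H ⊔ K : Subgroup G) : Set G) := by
  have key : ∀ g : G, g ∈ normalizer (H : Set G) → g ∈ normalizer (K : Set G) →
      H ⊔ K ≤ (H ⊔ K).comap (MulAut.conj g).toMonoidHom := by
    intro g h1 h2
    refine sup_le (fun x hx => ?_) (fun x hx => ?_)
    · exact mem_sup_left ((mem_normalizer_iff.1 h1 x).1 hx)
    · exact mem_sup_right ((mem_normalizer_iff.1 h2 x).1 hx)
  rw [mem_normalizer_iff]
  intro x
  constructor
  · intro hx
    exact key g h1 h2 hx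
  · intro hx
    have h3 : (MulAut.conj g⁻¹) (g * x * g⁻¹) ∈ H ⊔ K := key g⁻¹ (inv_mem h1) (inv_mem h2) hx
    rw [MulAut.conj_apply] at h3
    have e : g⁻¹ * (g * x * g⁻¹) * g⁻¹⁻¹ = x := by group
    rwa [e] at h3

lemma mem_normalizer_inf_of {H K : Subgroup G} {g : G} (h1 : g ∈ normalizer (H : Set G))
    (h2 : g ∈ normalizer (K : Set G)) : g ∈ normalizer ((H ⊓ K : Subgroup G) : Set G) := by
  rw [mem_normalizer_iff]
  intro x
  have e1 := mem_normalizer_iff.1 h1 x
  have e2 := mem_normalizer_iff.1 h2 x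
  simp only [mem_inf, e1, e2]

/-- A subgroup of `G` all of whose `p`-prime elements are trivial is a `p`-group. -/
lemma isPGroup_of_pprime_trivial {p : ℕ} [hp : Fact p.Prime] (K : Subgroup G)
    (h : ∀ y ∈ K, Nat.Coprime (orderOf y) p → y = 1) : IsPGroup p K := by
  have hY0 : Nat.card K ≠ 0 := Nat.card_pos.ne'
  refine IsPGroup.of_card (Nat.eq_prime_pow_of_unique_prime_dvd hY0 (fun {d} hd hdd => ?_))
  by_contra hne
  haveI := Fact.mk hd
  obtain ⟨a, ha⟩ := exists_prime_orderOf_dvd_card' (G := K) d hdd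
  have h1 : orderOf (a : G) = d := by rw [Subgroup.orderOf_coe, ha]
  have h2 := h a a.2 (by rw [h1]; exact (Nat.coprime_primes hd hp.out).mpr hne)
  rw [h2, orderOf_one] at h1
  exact hd.one_lt.ne h1

/-- Part (b). -/
lemma part_b [IsSimpleGroup G] (hA : IsCoatom A) (h : Good A S) {p : ℕ} [Fact p.Prime]
    (hpd : p ∣ Nat.card (fittingSubgroup ↥A)) {P : Subgroup G} (hPp : IsPGroup p P)
    (hSP : S ≤ normalizer (P : Set G)) {x : G} (hx : x ∈ P)
    {y : ↥(generalizedFittingSubgroup ↥A)} (hy : y ∈ pResidual p ↥(generalizedFittingSubgroup ↥A)) :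
    x * ((y : ↥A) : G) = ((y : ↥A) : G) * x := by
  classical
  by_cases hcase : layer ↥A = ⊥ ∧ ∀ r : ℕ, r.Prime → r ≠ p → pCore r ↥A = ⊥
  · -- `F*(A)` is a `p`-group, so that `y = 1`
    have hle : generalizedFittingSubgroup ↥A ≤ pCore p ↥A := by
      refine sup_le (by rw [hcase.1]; exact bot_le) ?_
      rw [fittingSubgroup_eq_iSup_pCore]
      refine iSup_le fun s => ?_
      by_cases hs : (s : ℕ) = p
      · rw [hs]
      · rw [hcase.2 s s.2 hs]; exact bot_le
    have hgp : IsPGroup p ↥(generalizedFittingSubgroup ↥A) := (pCore_isPGroup p _).to_le hle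
    have hbot : pResidual p ↥(generalizedFittingSubgroup ↥A) = ⊥ := by
      rw [eq_bot_iff]
      refine (closure_le _).2 fun g hg => ?_
      obtain ⟨k, hk⟩ := IsPGroup.iff_orderOf.1 hgp g
      have hg' : Nat.Coprime (orderOf g) p := hg
      rw [hk] at hg'
      rcases k with _ | k
      · have : orderOf g = 1 := by rw [hk, pow_zero]
        simpa using orderOf_eq_one_iff.1 this
      · exfalso
        have := (Nat.coprime_pow_left_iff (Nat.succ_pos k) _ _).1 hg'
        exact (Nat.Prime.one_lt Fact.out).ne' (Nat.coprime_self p |>.1 this)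
    rw [hbot, mem_bot] at hy
    simp [hy]
  haveI := zPart_normal (H := ↥A) p
  set Z₀ : Subgroup G := (zPart p ↥A).map A.subtype with hZ₀
  have hZp : IsPGroup p Z₀ := (zPart_isPGroup p).map _
  have hZ1 : Z₀ ≠ ⊥ := by
    rw [Ne, hZ₀, Subgroup.map_eq_bot_iff_of_injective _ A.subtype_injective]
    exact zPart_ne_bot (pCore_ne_bot_of_dvd hpd)
  have hZA : Z₀ ≤ A := map_subtype_le _
  have hAZ : A ≤ normalizer (Z₀ : Set G) := le_normalizer_map_of_normal _
  have hNZ := normalizer_eq_of_coatom hA hZ1 hZA hAZ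
  have hZS : Z₀ ≤ S := by
    rintro _ ⟨z, hz, rfl⟩
    exact h.zPart_le p hz
  set T : Subgroup G := P ⊔ Z₀ with hT
  have hTp : IsPGroup p T := hPp.to_sup_of_normal_left' hZp (hZS.trans hSP)
  have hST : S ≤ normalizer (T : Set G) := fun s hs =>
    mem_normalizer_sup_of (hSP hs) (hAZ (h.hSA hs))
  set W : Subgroup G := T ⊓ A with hW
  have hWp : IsPGroup p W := hTp.to_le inf_le_left
  have hWA : W ≤ A := inf_le_right
  have hSW : S ≤ normalizer (W : Set G) := fun s hs =>
    mem_normalizer_inf_of (hST hs) (le_normalizer (h.hSA hs))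
  have hZW : Z₀ ≤ W := le_inf le_sup_right hZA
  have hWsolv : Group.IsSolvable W := by
    haveI := hWp.isNilpotent
    infer_instance
  -- the `A × B` argument
  have hcom : ∀ y ∈ S, Nat.Coprime (orderOf y) p → (∀ w ∈ W, y * w = w * y) → ∀ t ∈ T, y * t = t * y := by
    intro y hyS hc hyW
    refine axb_element hTp hWp (fun w hw => le_normalizer hw.1) y hc
      (fun t ht => (mem_normalizer_iff.1 (hST hyS) t).1 ht) hyW ?_
    intro t ht hcomm
    refine hyW t ⟨ht, ?_⟩
    rw [← hNZ]
    exact centralizer_le_normalizer _ (mem_centralizer_iff.2 fun z hz => hcomm z (hZW hz))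
  -- a nontrivial normal subgroup of `A` commuting with `T`
  have hTA : T ≤ A := by
    obtain ⟨Y₁, hY1, hYA, hAY, hYT⟩ : ∃ Y₁ : Subgroup G, Y₁ ≠ ⊥ ∧ Y₁ ≤ A ∧ A ≤ normalizer (Y₁ : Set G) ∧
        ∀ y ∈ Y₁, ∀ t ∈ T, y * t = t * y := by
      by_cases hL : layer ↥A = ⊥
      · have hex : ∃ r : ℕ, r.Prime ∧ r ≠ p ∧ pCore r ↥A ≠ ⊥ := by
          by_contra hne
          push Not at hne
          exact hcase ⟨hL, hne⟩
        obtain ⟨r, hr, hrp, hr1⟩ := hex
        haveI := Fact.mk hr
        haveI := zPart_normal (H := ↥A) r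
        refine ⟨(zPart r ↥A).map A.subtype, ?_, map_subtype_le _, le_normalizer_map_of_normal _, ?_⟩
        · rw [Ne, Subgroup.map_eq_bot_iff_of_injective _ A.subtype_injective]
          exact zPart_ne_bot hr1
        · rintro _ ⟨y, hy, rfl⟩ t ht
          refine hcom _ (h.zPart_le r hy) ?_ ?_ t ht
          · obtain ⟨k, hk⟩ := IsPGroup.iff_orderOf.1 (zPart_isPGroup (H := ↥A) r) ⟨y, hy⟩
            have hk' : orderOf (A.subtype y) = r ^ k := by
              rw [← hk, Subgroup.orderOf_mk]
              exact Subgroup.orderOf_coe y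
            rw [hk']
            exact Nat.Coprime.pow_left k ((Nat.coprime_primes hr Fact.out).2 hrp)
          · intro w hw
            exact (h.key_core hrp hWp hWA hSW (mem_inf.1 hy).1 hw).symm
      · set EG : Subgroup G := (layer ↥A).map A.subtype with hEG
        haveI : (layer ↥A).Normal := layer_normal _
        have hAE : A ≤ normalizer (EG : Set G) := le_normalizer_map_of_normal _
        have hES : EG ≤ S := by
          rintro _ ⟨e, he, rfl⟩
          exact h.layer_le he
        refine ⟨closure {y : G | y ∈ EG ∧ Nat.Coprime (orderOf y) p}, ?_, ?_, ?_, ?_⟩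
        · intro hbot
          have hpg : IsPGroup p EG := by
            apply isPGroup_of_pprime_trivial
            intro y hy hc
            have : y ∈ closure {y : G | y ∈ EG ∧ Nat.Coprime (orderOf y) p} := Subgroup.subset_closure ⟨hy, hc⟩
            rw [hbot, mem_bot] at this
            exact this
          haveI hsol : Group.IsSolvable EG := by
            haveI := hpg.isNilpotent
            infer_instance
          have hsol2 : Group.IsSolvable (layer ↥A) :=
            Group.isSolvable_of_isSolvable_injective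
              (f := ((layer ↥A).equivMapOfInjective A.subtype A.subtype_injective).toMonoidHom)
              (MulEquiv.injective _)
          obtain ⟨L, hL1, hL2⟩ : ∃ L, IsComponent L ∧ L ≠ ⊥ := by
            by_contra hne
            push Not at hne
            apply hL
            rw [eq_bot_iff]
            exact sSup_le fun L hLc => by rw [hne L hLc]
          exact component_not_le_of_solvable hL1 hsol2 (component_le_layer hL1)
        · exact (closure_le _).2 fun y hy => map_subtype_le _ hy.1
        · intro a ha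
          have key : ∀ a ∈ A, ∀ y ∈ closure {y : G | y ∈ EG ∧ Nat.Coprime (orderOf y) p},
              a * y * a⁻¹ ∈ closure {y : G | y ∈ EG ∧ Nat.Coprime (orderOf y) p} := by
            intro a ha y hy
            have hle : closure {y : G | y ∈ EG ∧ Nat.Coprime (orderOf y) p} ≤
                (closure {y : G | y ∈ EG ∧ Nat.Coprime (orderOf y) p}).comap (MulAut.conj a).toMonoidHom := by
              rw [closure_le]
              intro z hz
              apply Subgroup.subset_closure
              refine ⟨(mem_normalizer_iff.1 (hAE ha) z).1 hz.1, ?_⟩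
              show Nat.Coprime (orderOf ((MulAut.conj a) z)) p
              rw [MulEquiv.orderOf_eq]
              exact hz.2
            exact hle hy
          rw [mem_normalizer_iff]
          intro z
          constructor
          · exact key a ha z
          · intro hz
            have := key a⁻¹ (inv_mem ha) _ hz
            have e : a⁻¹ * (a * z * a⁻¹) * a⁻¹⁻¹ = z := by group
            rwa [e] at this
        · intro y hy t ht
          have hle : closure {y : G | y ∈ EG ∧ Nat.Coprime (orderOf y) p} ≤ centralizer (T : Set G) := by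
            rw [closure_le]
            intro z hz
            obtain ⟨⟨e, he, rfl⟩, hc⟩ := hz
            rw [SetLike.mem_coe, mem_centralizer_iff]
            intro t ht
            refine (hcom _ (hES ⟨e, he, rfl⟩) hc (fun w hw => ?_) t ht).symm
            exact (h.key_layer hWsolv hWA hSW he hw).symm
          exact (mem_centralizer_iff.1 (hle hy) t ht).symm
    have hNY := normalizer_eq_of_coatom hA hY1 hYA hAY
    intro t ht
    rw [← hNY]
    exact centralizer_le_normalizer _ (mem_centralizer_iff.2 fun y hy => hYT y hy t ht)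
  have hPA : P ≤ A := le_sup_left.trans hTA
  have hPsolv : Group.IsSolvable P := by
    haveI := hPp.isNilpotent
    infer_instance
  -- the elements commuting with `P` and with `O_p(A)`
  set Cx : Subgroup ↥A := centralizer ((P.subgroupOf A : Subgroup ↥A) : Set ↥A) with hCx
  set D : Subgroup ↥A := centralizer (pCore p ↥A : Set ↥A) ⊓ Cx with hD
  have hmemC : ∀ a : ↥A, (∀ w ∈ P, w * a = a * w) → a ∈ Cx := by
    intro a ha
    rw [hCx, mem_centralizer_iff]
    intro w hw
    exact Subtype.ext (ha w hw)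
  have hLD : layer ↥A ≤ D := by
    intro e he
    refine ⟨mem_centralizer_iff.2 fun w hw => ?_, hmemC e fun w hw => h.key_layer hPsolv hPA hSP he hw⟩
    exact (mul_comm_of_commutator_eq_bot layer_commute_fitting he (pCore_le_fittingSubgroup p hw)).symm
  have hrD : ∀ s : Nat.Primes, (s : ℕ) ≠ p → pCore (s : ℕ) ↥A ≤ D := by
    intro s hs z hz
    haveI : Fact (s : ℕ).Prime := ⟨s.2⟩
    refine ⟨mem_centralizer_iff.2 fun w hw => ?_, hmemC z fun w hw => h.key_core hs hPp hPA hSP hz hw⟩
    refine comm_of_normalized (pCore_isPGroup p _)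
      (fun v _ u hu => (pCore_normal p _).conj_mem u hu v) w hw z (pCore_le_fittingSubgroup _ hz) ?_
    obtain ⟨k, hk⟩ := IsPGroup.iff_orderOf.1 (pCore_isPGroup (s : ℕ) ↥A) ⟨z, hz⟩
    have hk' : orderOf z = (s : ℕ) ^ k := by rw [← Subgroup.orderOf_mk z hz]; exact hk
    rw [hk']
    exact Nat.Coprime.pow_left k ((Nat.coprime_primes s.2 Fact.out).2 hs)
  have hgen : generalizedFittingSubgroup ↥A ≤ D ⊔ pCore p ↥A := by
    refine sup_le (hLD.trans le_sup_left) ?_
    rw [fittingSubgroup_eq_iSup_pCore]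
    refine iSup_le fun s => ?_
    by_cases hs : (s : ℕ) = p
    · rw [hs]; exact le_sup_right
    · exact (hrD s hs).trans le_sup_left
  have hDc : ∀ d ∈ D, ∀ a ∈ pCore p ↥A, d * a = a * d := fun d hd a ha =>
    (mem_centralizer_iff.1 hd.1 a ha).symm
  -- each `p`-prime element of `F*(A)` commutes with `P`
  have hpp : ∀ y : ↥(generalizedFittingSubgroup ↥A), Nat.Coprime (orderOf y) p → (y : ↥A) ∈ Cx := by
    intro y hyc
    obtain ⟨d, hd, a, ha, hda⟩ := mem_sup_of_commuting hDc (hgen y.2)
    set m := orderOf y with hm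
    have hy1 : ((y : ↥A)) ^ m = 1 := by
      have := pow_orderOf_eq_one y
      exact congrArg Subtype.val this
    rw [← hda, (show Commute d a from hDc d hd a ha).mul_pow] at hy1
    have h1 : a ^ m = (d ^ m)⁻¹ := eq_inv_of_mul_eq_one_right hy1
    have h2 : a ^ m ∈ Cx := by
      rw [h1]
      exact inv_mem (pow_mem hd.2 m)
    have hac : m.Coprime (orderOf a) := by
      obtain ⟨k, hk⟩ := IsPGroup.iff_orderOf.1 (pCore_isPGroup p ↥A) ⟨a, ha⟩
      have hk' : orderOf a = p ^ k := by rw [← Subgroup.orderOf_mk a ha]; exact hk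
      rw [hk']
      exact Nat.Coprime.pow_right k hyc
    obtain ⟨n, hn⟩ := exists_pow_eq_self_of_coprime hac
    have h3 : a ∈ Cx := by
      rw [← hn]
      exact pow_mem h2 n
    rw [← hda]
    exact mul_mem hd.2 h3
  have hfin : pResidual p ↥(generalizedFittingSubgroup ↥A) ≤
      Cx.comap (generalizedFittingSubgroup ↥A).subtype := by
    rw [pResidual, closure_le]
    intro g hg
    exact hpp g hg
  have h3 := hfin hy
  have h4 := mem_centralizer_iff.1 h3 ⟨x, hPA hx⟩ hx
  exact congrArg Subtype.val h4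


/-- Let G be a non-abelian finite simple group, A a maximal subgroup, F = F*(A) its generalized Fitting subgroup (viewed in G), and S ≤ F a subgroup subnormal in F with C_F(S) ≤ S. Let B be any subgroup of G containing S. Then (a) for every prime q not dividing |F(A)|, O_q(B) ∩ A = 1; and (b) for every prime p dividing |F(A)|, O_p(B) commutes elementwise with the subgroup of F generated by its elements of order prime to p. -/
theorem result {G : Type*} [Group G] [Finite G] [IsSimpleGroup G] (hna : ¬ IsMulCommutative G) (A : Subgroup G) (hA : IsCoatom A) (S : Subgroup G) (hSF : S ≤ (Cfsg.generalizedFittingSubgroup ↥A).map A.subtype) (hSsn : (S.subgroupOf ((Cfsg.generalizedFittingSubgroup ↥A).map A.subtype)).IsSubnormal) (hSC : (Cfsg.generalizedFittingSubgroup ↥A).map A.subtype ⊓ Subgroup.centralizer (S : Set G) ≤ S) (B : Subgroup G) (hSB : S ≤ B) : (∀ q : ℕ, q.Prime → ¬ q ∣ Nat.card (Cfsg.fittingSubgroup ↥A) → (Cfsg.pCore q ↥B).map B.subtype ⊓ A = ⊥) ∧ (∀ p : ℕ, p.Prime → p ∣ Nat.card (Cfsg.fittingSubgroup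 ↥A) → ∀ x ∈ (Cfsg.pCore p ↥B).map B.subtype, ∀ y ∈ (Cfsg.pResidual p ↥(Cfsg.generalizedFittingSubgroup ↥A)).map ((Cfsg.generalizedFittingSubgroup ↥A).subtype) , x * (A.subtype y) = (A.subtype y) * x) := by
  have hgood := good_of hSF hSsn hSC
  refine ⟨fun q hq hqd => ?_, fun p hp hpd x hx y hy => ?_⟩
  · haveI := Fact.mk hq
    have hN : (Cfsg.pCore q ↥B).map B.subtype ⊓ A ≤ _ := le_rfl
    apply part_a hgood hqd
    · exact ((Cfsg.Agent.Lib.Core.pCore_isPGroup q ↥B).map _).to_le inf_le_left
    · exact inf_le_right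
    · intro s hs
      haveI := Cfsg.Agent.Lib.Core.pCore_normal q ↥B
      exact mem_normalizer_inf_of (Cfsg.Agent.Lib.Techniques.le_normalizer_map_of_normal _ (hSB hs))
        (Subgroup.le_normalizer (hgood.hSA hs))
  · haveI := Fact.mk hp
    obtain ⟨y', hy', rfl⟩ := hy
    haveI := Cfsg.Agent.Lib.Core.pCore_normal p ↥B
    exact part_b hA hgood hpd ((Cfsg.Agent.Lib.Core.pCore_isPGroup p ↥B).map _)
      (fun s hs => Cfsg.Agent.Lib.Techniques.le_normalizer_map_of_normal _ (hSB hs)) hx hy' 

end Cfsg.Agent.S1247
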