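import Cfsg.Statements.S1248
import Mathlib
import Cfsg.Agent.Lib.PSU2.Syl

set_option autoImplicit false
open Cfsg

namespace Cfsg.Agent.S1248

open scoped commutatorElement

lemma klein_pack {G : Type*} [Group G] (hcard : Nat.card G = 64) (hcz : Nat.card (Subgroup.center G) = 4)
    (hsq : ∀ x : G, x * x = 1 ↔ x ∈ Subgroup.center G) (hs2 : ∀ x : G, x * x ∈ Subgroup.center G)
    (hcomm : ∀ z ∈ Subgroup.center G, ∃ x y : G, ⁅x, y⁆ = z) :
    Nat.card G = 64 ∧ IsKleinFour (Subgroup.center G) ∧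
      Subgroup.center G = Subgroup.closure {x : G | orderOf x = 2} ∧
      Subgroup.center G = commutator G ∧ Nat.card (G ⧸ Subgroup.center G) = 16 ∧
      ∀ x : G ⧸ Subgroup.center G, x ^ 2 = 1 := by
  have hQ2 : ∀ x : G ⧸ Subgroup.center G, x ^ 2 = 1 := by
    intro x
    induction x using QuotientGroup.induction_on with
    | H x =>
      rw [pow_two, ← QuotientGroup.mk_mul, QuotientGroup.eq_one_iff]
      exact hs2 x
  have hord : ∀ x : G, orderOf x = 2 ↔ (x * x = 1 ∧ x ≠ 1) := by
    intro x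
    haveI : Fact (Nat.Prime 2) := ⟨Nat.prime_two⟩
    rw [orderOf_eq_prime_iff, pow_two]
  refine ⟨hcard, ⟨hcz, ?_⟩, ?_, ?_, ?_, hQ2⟩
  · -- exponent two
    haveI : Fact (Nat.Prime 2) := ⟨Nat.prime_two⟩
    haveI : Finite G := Nat.finite_of_card_ne_zero (by omega)
    haveI : Nontrivial (Subgroup.center G) := by
      apply (Finite.one_lt_card_iff_nontrivial).mp
      rw [hcz]
      norm_num
    rw [Monoid.exponent_eq_prime_iff Nat.prime_two]
    intro g hg
    rw [orderOf_eq_prime_iff, pow_two]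
    refine ⟨?_, hg⟩
    apply Subtype.ext
    exact (hsq g.1).mpr g.2
  · apply le_antisymm
    · intro z hz
      by_cases hz1 : z = 1
      · rw [hz1]
        exact one_mem _
      · apply Subgroup.subset_closure
        exact (hord z).mpr ⟨(hsq z).mpr hz, hz1⟩
    · apply (Subgroup.closure_le _).mpr
      intro x hx
      exact (hsq x).mp ((hord x).mp hx).1
  · apply le_antisymm
    · intro z hz
      obtain ⟨x, y, rfl⟩ := hcomm z hz
      exact Subgroup.commutator_mem_commutator (Subgroup.mem_top x) (Subgroup.mem_top y)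
    · rw [commutator_def, Subgroup.commutator_le]
      intro x _ y _
      have h3 : (((⁅x, y⁆ : G)) : G ⧸ Subgroup.center G) = 1 := by
        have h5 := hQ2 (x : G ⧸ Subgroup.center G)
        have h6 := hQ2 (y : G ⧸ Subgroup.center G)
        have h4 := hQ2 ((x : G ⧸ Subgroup.center G) * (y : G ⧸ Subgroup.center G))
        rw [pow_two] at h4 h5 h6
        rw [commutatorElement_def, QuotientGroup.mk_mul, QuotientGroup.mk_mul, QuotientGroup.mk_mul,
          QuotientGroup.mk_inv, QuotientGroup.mk_inv, inv_eq_of_mul_eq_one_left h5, inv_eq_of_mul_eq_one_left h6]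
        rw [← mul_assoc] at h4
        exact h4
      exact (QuotientGroup.eq_one_iff _).mp h3
  · have h1 := Subgroup.card_eq_card_quotient_mul_card_subgroup (Subgroup.center G)
    rw [hcard, hcz] at h1
    omega


/-- Let F be a field with 16 elements and S a Sylow 2-subgroup of PSU(3) over F (the unitary group U₃(4)). Then |S| = 64; the centre Z(S) is a Klein four-group and coincides with the subgroup generated by the involutions of S and with the derived subgroup; and every element of S ⧸ Z(S) squares to the identity, S ⧸ Z(S) having order 16. -/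
theorem result {F : Type*} [Field F] [Fintype F] (hF : Fintype.card F = 16) (S : Sylow 2 (Cfsg.PSU 3 F 4)) : Nat.card S = 64 ∧ IsKleinFour (Subgroup.center (S : Subgroup (Cfsg.PSU 3 F 4))) ∧ Subgroup.center (S : Subgroup (Cfsg.PSU 3 F 4)) = Subgroup.closure {x : (S : Subgroup (Cfsg.PSU 3 F 4)) | orderOf x = 2} ∧ Subgroup.center (S : Subgroup (Cfsg.PSU 3 F 4)) = commutator (S : Subgroup (Cfsg.PSU 3 F 4)) ∧ Nat.card ((S : Subgroup (Cfsg.PSU 3 F 4)) ⧸ Subgroup.center (S : Subgroup (Cfsg.PSU 3 F 4))) = 16 ∧ ∀ x : (S : Subgroup (Cfsg.PSU 3 F 4)) ⧸ Subgroup.center (S : Subgroup (Cfsg.PSU 3 F 4)), x ^ 2 = 1 := by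
  have hF' : Fintype.card F = 4 ^ 2 := by
    rw [hF]
    norm_num
  have h2 : (2 : F) = 0 := Cfsg.Agent.PSU2.two_eq_zero_of_card (n := 2) (by norm_num) hF'
  obtain ⟨e⟩ := Cfsg.Agent.PSU2.sylow_equiv' (n := 2) (q := 4) (by norm_num) hF' (by norm_num) S
  have hcard : Nat.card (S : Subgroup (Cfsg.PSU 3 F 4)) = 64 := by
    rw [Nat.card_congr e.toEquiv, Cfsg.Agent.PSU2.card_UU h2]
    norm_num
  have hcz : Nat.card (Subgroup.center (S : Subgroup (Cfsg.PSU 3 F 4))) = 4 := by
    rw [Nat.card_congr (Subgroup.centerCongr e).toEquiv, Cfsg.Agent.PSU2.card_center h2]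
  have hsq : ∀ x : (S : Subgroup (Cfsg.PSU 3 F 4)), x * x = 1 ↔ x ∈ Subgroup.center (S : Subgroup (Cfsg.PSU 3 F 4)) := by
    intro x
    rw [← Cfsg.Agent.PSU2.mem_center_of_equiv e, Cfsg.Agent.PSU2.mem_center_iff h2]
    constructor
    · intro h
      by_contra ha
      have h3 : e x * e x = 1 := by
        rw [← map_mul, h, map_one]
      have h4 := congrArg Cfsg.Agent.PSU2.cb h3
      rw [Cfsg.Agent.PSU2.sq_cb h2, Cfsg.Agent.PSU2.cb_one] at h4
      exact ha (pow_eq_zero_iff (by omega) |>.mp h4)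
    · intro h
      apply e.injective
      rw [map_mul, map_one]
      apply Cfsg.Agent.PSU2.UU_ext
      · exact Cfsg.Agent.PSU2.sq_ca h2 _
      · rw [Cfsg.Agent.PSU2.sq_cb h2, h, Cfsg.Agent.PSU2.cb_one]
        exact zero_pow (by omega)
  have hs2 : ∀ x : (S : Subgroup (Cfsg.PSU 3 F 4)), x * x ∈ Subgroup.center (S : Subgroup (Cfsg.PSU 3 F 4)) := by
    intro x
    rw [← Cfsg.Agent.PSU2.mem_center_of_equiv e, Cfsg.Agent.PSU2.mem_center_iff h2, map_mul]
    exact Cfsg.Agent.PSU2.sq_ca h2 _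
  have hcomm : ∀ z ∈ Subgroup.center (S : Subgroup (Cfsg.PSU 3 F 4)), ∃ x y : (S : Subgroup (Cfsg.PSU 3 F 4)), ⁅x, y⁆ = z := by
    intro z hz
    obtain ⟨x, y, hxy⟩ := Cfsg.Agent.PSU2.central_is_comm h2 ((Cfsg.Agent.PSU2.mem_center_of_equiv e z).mpr hz)
    refine ⟨e.symm x, e.symm y, ?_⟩
    apply e.injective
    rw [commutatorElement_def, map_mul, map_mul, map_mul, map_inv, map_inv, MulEquiv.apply_symm_apply,
      MulEquiv.apply_symm_apply, ← hxy, commutatorElement_def]
  exact klein_pack hcard hcz hsq hs2 hcomm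

end Cfsg.Agent.S1248
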