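import Cfsg.Statements.S1253
import Mathlib
import Cfsg.Agent.Lib.Invol.Midpoint

set_option autoImplicit false
open Cfsg

namespace Cfsg.Agent.S1253

/-- Let z be an isolated involution of the finite group G with centralizer C, p an odd prime and P a Sylow p-subgroup of G normalized by z. Then P ∩ C has p-power-free index in C (it is a Sylow p-subgroup of C), and |P : C_P(z)| equals the number of elements x ∈ P with z x z⁻¹ = x⁻¹. -/
theorem result {G : Type*} [Group G] [Finite G] (z : G) (hz : Cfsg.IsIsolatedInvolution z) {p : ℕ} [Fact p.Prime] (hp : p ≠ 2) (P : Sylow p G) (hzP : z ∈ Subgroup.normalizer ((P : Subgroup G) : Set G)) : ¬ p ∣ ((P : Subgroup G) ⊓ Subgroup.centralizer ({z} : Set G)).relIndex (Subgroup.centralizer ({z} : Set G)) ∧ ((P : Subgroup G) ⊓ Subgroup.centralizer ({z} : Set G)).relIndex (P : Subgroup G) = Nat.card {x : G // x ∈ P ∧ z * x * z⁻¹ = x⁻¹} := by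
  open Cfsg.Agent.Lib.Invol in
  have hzz := mul_self_of_order_two hz.1
  have hzi := inv_eq_of_mul_self hzz
  have hodd : ∀ x ∈ (P : Subgroup G), Odd (orderOf x) := by
    intro x hx
    obtain ⟨k, hk⟩ := (IsPGroup.iff_orderOf.1 P.isPGroup') ⟨x, hx⟩
    rw [Subgroup.orderOf_mk] at hk
    rw [hk]
    have : Odd p := (Fact.out : p.Prime).odd_of_ne_two hp
    exact this.pow
  let C : Subgroup G := Subgroup.centralizer ({z} : Set G)
  let KP := {x : G // x ∈ (P : Subgroup G) ∧ z * x * z⁻¹ = x⁻¹}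
  -- `K_P` surjects onto cosets
  have hb : ((P : Subgroup G) ⊓ C).relIndex (P : Subgroup G) = Nat.card KP := by
    symm
    rw [Subgroup.relIndex]
    show Nat.card KP = Nat.card ((P : Subgroup G) ⧸ ((P : Subgroup G) ⊓ C).subgroupOf (P : Subgroup G))
    refine Nat.card_congr (Equiv.ofBijective (fun a => QuotientGroup.mk ⟨a.1, a.2.1⟩) ⟨?_, ?_⟩)
    · rintro ⟨a, ha, hai⟩ ⟨b, hb, hbi⟩ h
      have h1 := QuotientGroup.eq.1 h
      have h2 : a⁻¹ * b ∈ C := (Subgroup.mem_subgroupOf.1 h1).2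
      have h3 : (a⁻¹ * b) * z = z * (a⁻¹ * b) := Subgroup.mem_centralizer_singleton_iff.1 h2
      have h4 : a * z * a⁻¹ = b * z * b⁻¹ := by
        calc a * z * a⁻¹ = a * (z * (a⁻¹ * b)) * b⁻¹ := by group
          _ = a * ((a⁻¹ * b) * z) * b⁻¹ := by rw [h3]
          _ = b * z * b⁻¹ := by group
      exact Subtype.ext (midpoint_unique hz (hodd a ha) (hodd b hb) hai hbi h4)
    · intro q
      obtain ⟨⟨g, hg⟩, rfl⟩ := QuotientGroup.mk_surjective q
      obtain ⟨k, -, hk2, hk3, hk4⟩ := exists_midpoint hz g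
      have hm : (g * z * g⁻¹) * z ∈ (P : Subgroup G) := by
        have h1 : z * g⁻¹ * z⁻¹ ∈ (P : Subgroup G) := (Subgroup.mem_normalizer_iff.1 hzP _).1 ((P : Subgroup G).inv_mem hg)
        have h2 : (g * z * g⁻¹) * z = g * (z * g⁻¹ * z⁻¹) := by rw [hzi]; simp only [mul_assoc]
        rw [h2]
        exact (P : Subgroup G).mul_mem hg h1
      have hkP : k ∈ (P : Subgroup G) := (Subgroup.zpowers_le.2 hm) hk4
      refine ⟨⟨k, hkP, hk2⟩, ?_⟩
      apply QuotientGroup.eq.2
      rw [Subgroup.mem_subgroupOf]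
      refine ⟨(P : Subgroup G).mul_mem ((P : Subgroup G).inv_mem hkP) hg, ?_⟩
      show k⁻¹ * g ∈ Subgroup.centralizer ({z} : Set G)
      rw [Subgroup.mem_centralizer_singleton_iff]
      have : g * z = k * z * k⁻¹ * g := by rw [hk3]; group
      calc k⁻¹ * g * z = k⁻¹ * (k * z * k⁻¹ * g) := by rw [mul_assoc, this]
        _ = z * (k⁻¹ * g) := by group
  -- bound on the stabilizers
  have hbound : ∀ g : G, Nat.card ((P : Subgroup G) ⊓ Subgroup.centralizer ({g * z * g⁻¹} : Set G) : Subgroup G) ≤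
      Nat.card ((P : Subgroup G) ⊓ C : Subgroup G) := by
    intro g
    set u := g * z * g⁻¹ with hu
    have huC : IsConj z u := isConj_iff.2 ⟨g, rfl⟩
    let Cu : Subgroup G := Subgroup.centralizer ({u} : Set G)
    have h1 : Nat.card KP ≤ ((P : Subgroup G) ⊓ Cu).relIndex (P : Subgroup G) := by
      rw [Subgroup.relIndex]
      show Nat.card KP ≤ Nat.card ((P : Subgroup G) ⧸ ((P : Subgroup G) ⊓ Cu).subgroupOf (P : Subgroup G))
      refine Nat.card_le_card_of_injective (fun a => QuotientGroup.mk ⟨a.1, a.2.1⟩) ?_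
      rintro ⟨a, ha, hai⟩ ⟨b, hb', hbi⟩ h
      have h1 := QuotientGroup.eq.1 h
      have h2 : a⁻¹ * b ∈ Cu := (Subgroup.mem_subgroupOf.1 h1).2
      have h3 : (a⁻¹ * b) * u = u * (a⁻¹ * b) := Subgroup.mem_centralizer_singleton_iff.1 h2
      have h4 : a * u * a⁻¹ = b * u * b⁻¹ := by
        calc a * u * a⁻¹ = a * (u * (a⁻¹ * b)) * b⁻¹ := by group
          _ = a * ((a⁻¹ * b) * u) * b⁻¹ := by rw [h3]
          _ = b * u * b⁻¹ := by group
      -- pass to the midpoints
      have hconj : ∀ {x : G}, Odd (orderOf x) → z * x * z⁻¹ = x⁻¹ → IsConj z (x * z) := by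
        intro x hx hxi
        obtain ⟨c, hc, hcc⟩ := exists_sqrt_of_odd hz hx
        have hci : z * c * z⁻¹ = c⁻¹ := by
          obtain ⟨j, rfl⟩ := hc
          rw [hzi] at hxi ⊢
          show z * x ^ j * z = (x ^ j)⁻¹
          rw [conj_zpow_of_inverts hzz hxi j, zpow_neg]
        refine isConj_iff.2 ⟨c, ?_⟩
        rw [conj_by_inverted hz hci, hcc]
      have hA := hconj (hodd a ha) hai
      have hB := hconj (hodd b hb') hbi
      have hzu : IsConj z (z * u * z⁻¹) := huC.trans (isConj_iff.2 ⟨z, rfl⟩)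
      have h5 : (a * z) * (z * u * z⁻¹) * (a * z)⁻¹ = a * u * a⁻¹ := by
        rw [hzi, mul_inv_rev, hzi]
        calc a * z * (z * u * z) * (z * a⁻¹) = a * (z * z) * u * (z * z) * a⁻¹ := by group
          _ = a * u * a⁻¹ := by rw [hzz]; group
      have h6 : (b * z) * (z * u * z⁻¹) * (b * z)⁻¹ = b * u * b⁻¹ := by
        rw [hzi, mul_inv_rev, hzi]
        calc b * z * (z * u * z) * (z * b⁻¹) = b * (z * z) * u * (z * z) * b⁻¹ := by group
          _ = b * u * b⁻¹ := by rw [hzz]; group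
      have h7 := mid_unique hz hzu hA hB (h5.trans (h4.trans h6.symm))
      exact Subtype.ext (mul_right_cancel h7)
    have h2 := Subgroup.card_mul_index (((P : Subgroup G) ⊓ Cu).subgroupOf (P : Subgroup G))
    have h3 := Subgroup.card_mul_index (((P : Subgroup G) ⊓ C).subgroupOf (P : Subgroup G))
    have e1 : Nat.card (((P : Subgroup G) ⊓ Cu).subgroupOf (P : Subgroup G)) = Nat.card ((P : Subgroup G) ⊓ Cu : Subgroup G) :=
      Nat.card_congr (Subgroup.subgroupOfEquivOfLe inf_le_left).toEquiv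
    have e2 : Nat.card (((P : Subgroup G) ⊓ C).subgroupOf (P : Subgroup G)) = Nat.card ((P : Subgroup G) ⊓ C : Subgroup G) :=
      Nat.card_congr (Subgroup.subgroupOfEquivOfLe inf_le_left).toEquiv
    rw [e1] at h2
    rw [e2] at h3
    have h4 : ((P : Subgroup G) ⊓ C).relIndex (P : Subgroup G) ≤ ((P : Subgroup G) ⊓ Cu).relIndex (P : Subgroup G) := by
      rw [hb]; exact h1
    have h5 : 0 < Nat.card (P : Subgroup G) := Nat.card_pos
    by_contra hcon
    push Not at hcon
    have h6 : 0 < ((P : Subgroup G) ⊓ C).relIndex (P : Subgroup G) := by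
      rcases Nat.eq_zero_or_pos (((P : Subgroup G) ⊓ C).relIndex (P : Subgroup G)) with h0 | h0
      · rw [Subgroup.relIndex] at h0
        rw [h0, mul_zero] at h3
        omega
      · exact h0
    have h7 : Nat.card ((P : Subgroup G) ⊓ C : Subgroup G) * ((P : Subgroup G) ⊓ C).relIndex (P : Subgroup G) <
        Nat.card ((P : Subgroup G) ⊓ Cu : Subgroup G) * ((P : Subgroup G) ⊓ Cu).relIndex (P : Subgroup G) :=
      calc _ < Nat.card ((P : Subgroup G) ⊓ Cu : Subgroup G) * ((P : Subgroup G) ⊓ C).relIndex (P : Subgroup G) :=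
            Nat.mul_lt_mul_of_pos_right hcon h6
        _ ≤ _ := Nat.mul_le_mul_left _ h4
    rw [Subgroup.relIndex, Subgroup.relIndex] at h7
    omega
  refine ⟨?_, hb⟩
  -- Sylow subgroup of `C`
  let Q : Subgroup C := ((P : Subgroup G) ⊓ C).subgroupOf C
  have hQ : IsPGroup p Q := by
    have : IsPGroup p (((P : Subgroup G) ⊓ C : Subgroup G)) := P.isPGroup'.to_le inf_le_left
    exact IsPGroup.of_injective (p := p) this (MonoidHom.mk' (fun x : Q => (⟨x.1.1, Subgroup.mem_subgroupOf.1 x.2⟩ : ((P : Subgroup G) ⊓ C : Subgroup G))) (fun _ _ => rfl)) (fun a b h => by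
      apply Subtype.ext; apply Subtype.ext
      exact congrArg (fun y : ((P : Subgroup G) ⊓ C : Subgroup G) => (y : G)) h)
  obtain ⟨S, hS⟩ := hQ.exists_le_sylow
  have hcardQ : Nat.card Q = Nat.card ((P : Subgroup G) ⊓ C : Subgroup G) :=
    Nat.card_congr (Subgroup.subgroupOfEquivOfLe inf_le_right).toEquiv
  let D : Subgroup G := (S : Subgroup C).map C.subtype
  have hcardD : Nat.card D = Nat.card S := Nat.card_congr (Subgroup.equivMapOfInjective _ _ C.subtype_injective).symm.toEquiv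
  have hDp : IsPGroup p D := by
    have : IsPGroup p S := S.isPGroup'
    exact this.map C.subtype
  obtain ⟨P', hP'⟩ := hDp.exists_le_sylow
  obtain ⟨g, hg⟩ := map_conj_le_of_sylow P' P
  have hle : Nat.card D ≤ Nat.card ((P : Subgroup G) ⊓ Subgroup.centralizer ({g * z * g⁻¹} : Set G) : Subgroup G) := by
    have hx : ∀ x : D, g * x.1 * g⁻¹ ∈ (P : Subgroup G) ⊓ Subgroup.centralizer ({g * z * g⁻¹} : Set G) := by
      intro x
      refine ⟨?_, ?_⟩
      · rw [← hg]
        exact ⟨x.1, hP' x.2, rfl⟩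
      · show g * x.1 * g⁻¹ ∈ Subgroup.centralizer ({g * z * g⁻¹} : Set G)
        rw [Subgroup.mem_centralizer_singleton_iff]
        obtain ⟨y, -, hy⟩ := x.2
        have hy2 : y.1 * z = z * y.1 := Subgroup.mem_centralizer_singleton_iff.1 y.2
        have hy3 : x.1 = y.1 := hy.symm
        rw [hy3]
        calc g * y.1 * g⁻¹ * (g * z * g⁻¹) = g * (y.1 * z) * g⁻¹ := by group
          _ = g * (z * y.1) * g⁻¹ := by rw [hy2]
          _ = _ := by group
    refine Nat.card_le_card_of_injective (fun x => ⟨g * x.1 * g⁻¹, hx x⟩) ?_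
    intro a b h
    have h1 : g * a.1 * g⁻¹ = g * b.1 * g⁻¹ := congrArg Subtype.val h
    exact Subtype.ext (mul_left_cancel (mul_right_cancel h1))
  have hle2 : Nat.card S ≤ Nat.card Q := by
    rw [hcardQ, ← hcardD]
    exact hle.trans (hbound g)
  have hQS : Q = S := Subgroup.eq_of_le_of_card_ge hS hle2
  have : ((P : Subgroup G) ⊓ C).relIndex C = (S : Subgroup C).index := by
    rw [Subgroup.relIndex]
    show Q.index = _
    rw [hQS]
  show ¬ p ∣ ((P : Subgroup G) ⊓ C).relIndex C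
  rw [this]
  exact S.not_dvd_index

end Cfsg.Agent.S1253
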