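import Cfsg.Statements.S1254
import Mathlib
import Cfsg.Agent.Lib.Invol.Dih

set_option autoImplicit false
open Cfsg

namespace Cfsg.Agent.S1254


open Cfsg.Agent.Lib.Invol Cfsg.Agent.Lib.Techniques

lemma forward {X : Type*} [Group X] [Finite X] (S : Sylow 2 X) (h : Cfsg.HasNormalPComplement 2 X) (U : Subgroup X) (hUS : U ≤ S) :
    Subgroup.normalizer (U : Set X) ≤ Subgroup.centralizer (U : Set X) ⊔ ((S : Subgroup X) ⊓ Subgroup.normalizer (U : Set X)) := by
  obtain ⟨P', N, hN, hc⟩ := h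
  haveI := hN
  have hS : N.IsComplement' (S : Subgroup X) := by
    apply Subgroup.isComplement'_of_coprime
    · rw [← hc.card_mul]
      congr 1
      exact Nat.card_congr (Sylow.equiv S P').toEquiv
    · have h1 := Cfsg.Agent.Lib.Transfer.complement_card_coprime hc
      rw [Nat.card_congr (Sylow.equiv S P').toEquiv]
      obtain ⟨k, hk⟩ := IsPGroup.iff_card.1 P'.isPGroup'
      rw [hk]
      exact Nat.Coprime.pow_right k h1
  intro g hg
  have hg' : g ∈ N ⊔ (S : Subgroup X) := by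
    rw [hS.sup_eq_top]
    trivial
  obtain ⟨n, hn, s, hs, rfl⟩ := Subgroup.mem_sup_of_normal_left.1 hg'
  have hconj : ∀ u ∈ U, s * u * s⁻¹ = (n * s) * u * (n * s)⁻¹ := by
    intro u hu
    have h1 : (n * s) * u * (n * s)⁻¹ ∈ U := (Subgroup.mem_normalizer_iff.1 hg u).1 hu
    have h2 : s * u * s⁻¹ ∈ (S : Subgroup X) := (S : Subgroup X).mul_mem ((S : Subgroup X).mul_mem hs (hUS hu)) ((S : Subgroup X).inv_mem hs)
    set u' := s * u * s⁻¹ with hu'
    have e : (n * s) * u * (n * s)⁻¹ = n * u' * n⁻¹ := by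
      rw [hu']; group
    rw [e] at h1 ⊢
    have h3 : (n * u' * n⁻¹) * u'⁻¹ ∈ (S : Subgroup X) := (S : Subgroup X).mul_mem (hUS h1) ((S : Subgroup X).inv_mem h2)
    have h4 : (n * u' * n⁻¹) * u'⁻¹ ∈ N := by
      have e2 : (n * u' * n⁻¹) * u'⁻¹ = n * (u' * n⁻¹ * u'⁻¹) := by group
      rw [e2]
      exact N.mul_mem hn (hN.conj_mem _ (N.inv_mem hn) u')
    have h5 := Subgroup.disjoint_def.1 hS.disjoint h4 h3
    exact (mul_inv_eq_one.1 h5).symm
  have hsU : conjS s U = U := by
    apply Subgroup.eq_of_le_of_card_ge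
    · rintro _ ⟨u, hu, rfl⟩
      show s * u * s⁻¹ ∈ U
      rw [hconj u hu]
      exact (Subgroup.mem_normalizer_iff.1 hg u).1 hu
    · rw [← Nat.card_congr (U.equivMapOfInjective _ (MulAut.conj s).injective).toEquiv]
  have hsN : s ∈ Subgroup.normalizer (U : Set X) := mem_normalizer_iff_conjS.2 hsU
  have hnC : n ∈ Subgroup.centralizer (U : Set X) := by
    rw [Subgroup.mem_centralizer_iff]
    intro v hv
    have hv' : s⁻¹ * v * s ∈ U := by
      rw [← hsU] at hv
      exact mem_conjS.1 hv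
    have h1 := hconj _ hv'
    have e1 : s * (s⁻¹ * v * s) * s⁻¹ = v := by group
    have e2 : (n * s) * (s⁻¹ * v * s) * (n * s)⁻¹ = n * v * n⁻¹ := by group
    rw [e1, e2] at h1
    calc v * n = n * v * n⁻¹ * n := by rw [← h1]
      _ = n * v := by group
  exact Subgroup.mul_mem_sup hnC ⟨hs, hsN⟩

lemma backward {X : Type*} [Group X] [Finite X] (S : Sylow 2 X) (U : Subgroup X)
    (hU : Subgroup.normalizer (U : Set X) = Subgroup.centralizer (U : Set X) ⊔ ((S : Subgroup X) ⊓ Subgroup.normalizer (U : Set X)))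
    {g : X} (hg : g ∈ Subgroup.normalizer (U : Set X)) (hcop : Nat.Coprime (orderOf g) 2) : g ∈ Subgroup.centralizer (U : Set X) := by
  set N := Subgroup.normalizer (U : Set X) with hNdef
  let φ := U.normalizerMonoidHom
  let R : Subgroup N := ((S : Subgroup X) ⊓ N).subgroupOf N
  have hL : R ⊔ φ.ker = ⊤ := by
    apply Subgroup.map_injective N.subtype_injective
    rw [Subgroup.map_sup, Subgroup.normalizerMonoidHom_ker, Subgroup.subgroupOf_map_subtype, Subgroup.subgroupOf_map_subtype,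
      inf_assoc, inf_idem, inf_eq_left.2 (Subgroup.centralizer_le_normalizer _), sup_comm, ← hU, ← MonoidHom.range_eq_map, Subgroup.range_subtype]
  have h6 : (⟨g, hg⟩ : N) ∈ R ⊔ φ.ker := by rw [hL]; trivial
  obtain ⟨r, hr, c, hc, hrc⟩ := Subgroup.mem_sup_of_normal_right.1 h6
  have hφ : φ ⟨g, hg⟩ = φ r := by
    rw [← hrc, map_mul, (MonoidHom.mem_ker.1 hc), mul_one]
  obtain ⟨j, hj⟩ := two_element_of_mem (P := S) (g := (r : X)) (hr : (r : X) ∈ (S : Subgroup X) ⊓ N).1
  have h1 : orderOf (φ ⟨g, hg⟩) ∣ orderOf g := by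
    rw [← Subgroup.orderOf_mk g hg]
    exact orderOf_map_dvd φ _
  have h2 : orderOf (φ ⟨g, hg⟩) ∣ 2 ^ j := by
    rw [hφ, ← hj, Subgroup.orderOf_coe r]
    exact orderOf_map_dvd φ _
  have h3 : Nat.Coprime (orderOf g) (2 ^ j) := Nat.Coprime.pow_right j hcop
  have h4 := Nat.eq_one_of_dvd_coprimes h3 h1 h2
  have h5 : (⟨g, hg⟩ : N) ∈ φ.ker := orderOf_eq_one_iff.1 h4
  rw [Subgroup.normalizerMonoidHom_ker] at h5
  exact h5


/-- Let X be a finite group whose Sylow 2-subgroup S is dihedral (of order at least 4). Then X has a normal 2-complement if and only if, for every Klein four-subgroup U ≤ S, the normalizer N_X(U) is generated by C_X(U) and N_S(U). -/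
theorem result {X : Type*} [Group X] [Finite X] (S : Sylow 2 X) (m : ℕ) (hm : 2 ≤ m) (eS : (S : Subgroup X) ≃* DihedralGroup m) : Cfsg.HasNormalPComplement 2 X ↔ ∀ U : Subgroup X, U ≤ S → IsKleinFour U → Subgroup.normalizer (U : Set X) = Subgroup.centralizer (U : Set X) ⊔ ((S : Subgroup X) ⊓ Subgroup.normalizer (U : Set X)) := by
  constructor
  · intro h U hUS _
    apply le_antisymm (forward S h U hUS)
    exact sup_le (Subgroup.centralizer_le_normalizer _) inf_le_right
  · intro hK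
    obtain ⟨k, x, y, h, hmk⟩ := exists_DH S.isPGroup' hm eS
    have hF := h.frob_of rfl (fun U hU hUS g hg hcop => backward S U (hK U hUS hU) hg hcop)
    obtain ⟨N, hN, hc⟩ := Cfsg.Agent.Lib.Transfer.frobenius S hF
    exact ⟨S, N, hN, hc⟩

end Cfsg.Agent.S1254
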