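import Cfsg.Statements.S1256
import Mathlib
import Cfsg.Agent.Lib.Invol.Dih

set_option autoImplicit false
open Cfsg

namespace Cfsg.Agent.S1256

/-- Let X be a finite group whose Sylow 2-subgroup S is dihedral of order 2m ≥ 4. If |S| = 4, any two Klein four-subgroups of X are conjugate; if |S| > 4, there are Klein four-subgroups U₁, U₂ of X that are not conjugate, and every Klein four-subgroup of X is conjugate to U₁ or to U₂. -/
theorem result {X : Type*} [Group X] [Finite X] (S : Sylow 2 X) (m : ℕ) (hm : 2 ≤ m) (eS : (S : Subgroup X) ≃* DihedralGroup m) : (Nat.card S = 4 → ∀ U V : Subgroup X, IsKleinFour U → IsKleinFour V → (∃ x : X, U.map (MulAut.conj x).toMonoidHom = V)) ∧ (4 < Nat.card S → ∃ U₁ U₂ : Subgroup X, IsKleinFour U₁ ∧ IsKleinFour U₂ ∧ ¬ (∃ x : X, U₁.map (MulAut.conj x).toMonoidHom = U₂) ∧ ∀ V : Subgroup X, IsKleinFour V → (∃ x : X, V.map (MulAut.conj x).toMonoidHom = U₁) ∨ (∃ x : X, V.map (MulAut.conj x).toMonoidHom = U₂)) := by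
  open Cfsg.Agent.Lib.Invol Cfsg.Agent.Lib.Techniques in
  obtain ⟨k, x, y, h, hmk⟩ := exists_DH S.isPGroup' hm eS
  have hcS := h.hc
  constructor
  · intro h4 U V hU hV
    obtain ⟨g, hg⟩ := exists_conj_le S (isPGroup_of_klein hU)
    obtain ⟨g', hg'⟩ := exists_conj_le S (isPGroup_of_klein hV)
    have e1 : conjS g U = S := Subgroup.eq_of_le_of_card_ge hg (by rw [(isKleinFour_map_conj hU g).card_four]; exact h4.le)
    have e2 : conjS g' V = S := Subgroup.eq_of_le_of_card_ge hg' (by rw [(isKleinFour_map_conj hV g').card_four]; exact h4.le)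
    refine ⟨g'⁻¹ * g, ?_⟩
    show conjS _ U = V
    rw [conjS_mul, e1, ← e2, conjS_inv_conjS]
  · intro h4
    have hk : 1 ≤ k := by
      by_contra h0
      have hk0 : k = 0 := by omega
      rw [hk0] at hcS
      omega
    have ha : (2 : ℤ) ∣ ((2 ^ k : ℕ) : ℤ) := by
      obtain ⟨j, rfl⟩ : ∃ j, k = j + 1 := ⟨k - 1, by omega⟩
      exact ⟨2 ^ j, by push_cast; ring⟩
    obtain ⟨U₁, hU₁, hU₁P, hU₁M⟩ := h.exists_klein_M ha 0
    obtain ⟨U₂, hU₂, hU₂P, hU₂M⟩ := h.exists_klein_M ha 1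
    refine ⟨U₁, U₂, hU₁, hU₂, ?_, ?_⟩
    · rintro ⟨g, hg⟩
      have hg' : conjS g U₁ = U₂ := hg
      have h1 := h.klein_fusion rfl 0 hU₁ hU₁P (g := g) (by rw [hg']; exact hU₂P)
      have h2 : conjS g U₁ ≤ h.M' 0 := h1.1 hU₁M
      rw [hg'] at h2
      exact h.not_both hU₂ hU₂P h2 hU₂M
    · intro V hV
      obtain ⟨g, hg⟩ := exists_conj_le S (isPGroup_of_klein hV)
      have hV' := isKleinFour_map_conj hV g
      rcases h.klein_cases ha hV' hg with h0 | h1
      · left
        obtain ⟨s, -, hs⟩ := h.klein_conjP hV' hg hU₁ hU₁P h0 hU₁M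
        exact ⟨s * g, by
          show conjS _ V = U₁
          rw [conjS_mul]
          exact hs⟩
      · right
        obtain ⟨s, -, hs⟩ := h.klein_conjP hV' hg hU₂ hU₂P h1 hU₂M
        exact ⟨s * g, by
          show conjS _ V = U₂
          rw [conjS_mul]
          exact hs⟩

end Cfsg.Agent.S1256
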