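import Cfsg.Statements.S1286
import Mathlib

set_option autoImplicit false
open Cfsg

namespace Cfsg.Agent.S1286

local notation "X5" => Equiv.Perm (Fin 5)

def s1 : X5 := Equiv.swap 0 1
def s2 : X5 := Equiv.swap 2 3
def c1 : X5 := Equiv.swap 2 3 * Equiv.swap 3 4
def c2 : X5 := Equiv.swap 0 1 * Equiv.swap 1 4

def A4 : Subgroup X5 where
  carrier := {x | x = 1 ∨ x = s1 ∨ x = s2 ∨ x = s1 * s2}
  one_mem' := Or.inl rfl
  mul_mem' := by
    rintro a b (rfl | rfl | rfl | rfl) (rfl | rfl | rfl | rfl) <;> show _ ∨ _ <;> decide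
  inv_mem' := by
    rintro a (rfl | rfl | rfl | rfl) <;> show _ ∨ _ <;> decide

theorem mem_A4 {x : X5} : x ∈ A4 ↔ x = 1 ∨ x = s1 ∨ x = s2 ∨ x = s1 * s2 := Iff.rfl

noncomputable def th (a : X5) : Subgroup X5 :=
  if a = s1 then Subgroup.zpowers c1 else if a = s2 then Subgroup.zpowers c2 else ⊥

theorem th_s1 : th s1 = Subgroup.zpowers c1 := if_pos rfl
theorem th_s2 : th s2 = Subgroup.zpowers c2 := by
  unfold th
  rw [if_neg (by decide), if_pos rfl]
theorem th_s12 : th (s1 * s2) = ⊥ := by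
  unfold th
  rw [if_neg (by decide), if_neg (by decide)]

theorem mem_z {c x : X5} (hc : c ^ 3 = 1) (hx : x ∈ Subgroup.zpowers c) : x = 1 ∨ x = c ∨ x = c * c := by
  obtain ⟨k, rfl⟩ := hx
  have h1 : (k % 3 = 0) ∨ (k % 3 = 1) ∨ (k % 3 = 2) := by omega
  have h2 : c ^ k = c ^ (k % 3) := by
    conv_lhs => rw [← Int.mul_ediv_add_emod k 3, zpow_add, zpow_mul]
    have : c ^ (3 : ℤ) = 1 := by exact_mod_cast hc
    rw [this, one_zpow, one_mul]
  show c ^ k = 1 ∨ c ^ k = c ∨ c ^ k = c * c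
  rw [h2]
  rcases h1 with h | h | h <;> rw [h]
  · left; simp
  · right; left; simp
  · right; right
    rw [show (2 : ℤ) = ((2 : ℕ) : ℤ) from rfl, zpow_natCast, pow_two]

theorem card_z {c : X5} (hc : c ^ 3 = 1) (hc1 : c ≠ 1) : Nat.card (Subgroup.zpowers c) = 3 := by
  rw [Nat.card_zpowers]
  haveI : Fact (Nat.Prime 3) := ⟨Nat.prime_three⟩
  exact orderOf_eq_prime hc hc1

theorem c13 : c1 ^ 3 = 1 := by decide
theorem c23 : c2 ^ 3 = 1 := by decide
theorem c11 : c1 ≠ 1 := by decide
theorem c21 : c2 ≠ 1 := by decide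

theorem inv_of (c b : X5) (h : b * c * b⁻¹ = c ∨ b * c * b⁻¹ = c * c) (hc : c ^ 3 = 1) (x : X5) (hx : x ∈ Subgroup.zpowers c) :
    b * x * b⁻¹ ∈ Subgroup.zpowers c := by
  have h1 : Subgroup.zpowers c ≤ (Subgroup.zpowers c).comap (MulAut.conj b).toMonoidHom := by
    rw [Subgroup.zpowers_le]
    show b * c * b⁻¹ ∈ Subgroup.zpowers c
    rcases h with h | h <;> rw [h]
    · exact Subgroup.mem_zpowers c
    · exact mul_mem (Subgroup.mem_zpowers c) (Subgroup.mem_zpowers c)
  exact h1 hx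

theorem functor : Cfsg.IsSignalizerFunctor 2 A4 th := by
  refine ⟨?_, ?_, ?_, ?_⟩
  · rintro a (rfl | rfl | rfl | rfl) ha
    · exact absurd rfl ha
    · rw [th_s1, Subgroup.zpowers_le, Subgroup.mem_centralizer_iff]
      rintro _ rfl
      decide
    · rw [th_s2, Subgroup.zpowers_le, Subgroup.mem_centralizer_iff]
      rintro _ rfl
      decide
    · rw [th_s12]; exact bot_le
  · rintro a (rfl | rfl | rfl | rfl) ha
    · exact absurd rfl ha
    · rw [th_s1, card_z c13 c11]; decide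
    · rw [th_s2, card_z c23 c21]; decide
    · rw [th_s12]; simp
  · rintro a (rfl | rfl | rfl | rfl) ha b hb x hx
    · exact absurd rfl ha
    · rw [th_s1] at hx ⊢
      refine inv_of c1 b ?_ c13 x hx
      rcases hb with rfl | rfl | rfl | rfl <;> decide
    · rw [th_s2] at hx ⊢
      refine inv_of c2 b ?_ c23 x hx
      rcases hb with rfl | rfl | rfl | rfl <;> decide
    · rw [th_s12] at hx ⊢
      rw [Subgroup.mem_bot] at hx ⊢
      rw [hx]; simp
  · rintro a (rfl | rfl | rfl | rfl) ha b (rfl | rfl | rfl | rfl) hb x ⟨hx1, hx2⟩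
    · exact absurd rfl ha
    · exact absurd rfl ha
    · exact absurd rfl ha
    · exact absurd rfl ha
    · exact absurd rfl hb
    · rw [th_s1] at hx1 ⊢; exact hx1
    · rw [th_s1] at hx1
      have h2 := Subgroup.mem_centralizer_iff.mp hx2 s2 rfl
      rcases mem_z c13 hx1 with rfl | rfl | rfl
      · exact one_mem _
      · exact absurd h2 (by decide)
      · exact absurd h2 (by decide)
    · rw [th_s1] at hx1
      have h2 := Subgroup.mem_centralizer_iff.mp hx2 (s1 * s2) rfl
      rcases mem_z c13 hx1 with rfl | rfl | rfl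
      · exact one_mem _
      · exact absurd h2 (by decide)
      · exact absurd h2 (by decide)
    · exact absurd rfl hb
    · rw [th_s2] at hx1
      have h2 := Subgroup.mem_centralizer_iff.mp hx2 s1 rfl
      rcases mem_z c23 hx1 with rfl | rfl | rfl
      · exact one_mem _
      · exact absurd h2 (by decide)
      · exact absurd h2 (by decide)
    · rw [th_s2] at hx1 ⊢; exact hx1
    · rw [th_s2] at hx1
      have h2 := Subgroup.mem_centralizer_iff.mp hx2 (s1 * s2) rfl
      rcases mem_z c23 hx1 with rfl | rfl | rfl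
      · exact one_mem _
      · exact absurd h2 (by decide)
      · exact absurd h2 (by decide)
    · exact absurd rfl hb
    · rw [th_s12] at hx1
      have hx1' : x = 1 := Subgroup.mem_bot.mp hx1
      rw [hx1']; exact one_mem _
    · rw [th_s12] at hx1
      have hx1' : x = 1 := Subgroup.mem_bot.mp hx1
      rw [hx1']; exact one_mem _
    · rw [th_s12] at hx1
      have hx1' : x = 1 := Subgroup.mem_bot.mp hx1
      rw [hx1']; exact one_mem _

theorem s1_A : s1 ∈ A4 := Or.inr (Or.inl rfl)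
theorem s2_A : s2 ∈ A4 := Or.inr (Or.inr (Or.inl rfl))

theorem word_two : (c1 * c2 * c1 * c2⁻¹) ^ 2 = 1 ∧ c1 * c2 * c1 * c2⁻¹ ≠ 1 := by decide

theorem not_complete : ¬ Cfsg.IsCompleteSignalizerFunctor 2 A4 th := by
  rintro ⟨_, Y, _, hodd, hY⟩
  have h1 : c1 ∈ Y := by
    have h := hY s1 s1_A (by decide)
    rw [th_s1] at h
    have : c1 ∈ Y ⊓ Subgroup.centralizer {s1} := by rw [h]; exact Subgroup.mem_zpowers c1
    exact this.1
  have h2 : c2 ∈ Y := by
    have h := hY s2 s2_A (by decide)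
    rw [th_s2] at h
    have : c2 ∈ Y ⊓ Subgroup.centralizer {s2} := by rw [h]; exact Subgroup.mem_zpowers c2
    exact this.1
  have h3 : c1 * c2 * c1 * c2⁻¹ ∈ Y := Y.mul_mem (Y.mul_mem (Y.mul_mem h1 h2) h1) (Y.inv_mem h2)
  apply hodd
  haveI : Fact (Nat.Prime 2) := ⟨Nat.prime_two⟩
  have h4 : orderOf (⟨_, h3⟩ : Y) = 2 := by
    rw [Subgroup.orderOf_mk]
    exact orderOf_eq_prime word_two.1 word_two.2
  rw [← h4]
  exact orderOf_dvd_natCard _

theorem solv : ∀ a ∈ A4, a ≠ 1 → Group.IsSolvable (th a) := by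
  rintro a (rfl | rfl | rfl | rfl) ha
  · exact absurd rfl ha
  · rw [th_s1]; infer_instance
  · rw [th_s2]; infer_instance
  · rw [th_s12]; infer_instance

theorem card_A4 : Nat.card A4 = 4 := by
  have h := Nat.subtype_card (p := fun x : X5 => x ∈ A4) ({1, s1, s2, s1 * s2} : Finset X5) (by
    intro x
    simp only [Finset.mem_insert, Finset.mem_singleton]
    exact Iff.rfl)
  refine h.trans ?_
  decide

theorem ea_A4 : Cfsg.IsElementaryAbelian 2 A4 := by
  refine ⟨⟨⟨?_⟩⟩, ?_⟩
  · rintro ⟨a, ha⟩ ⟨b, hb⟩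
    apply Subtype.ext
    show a * b = b * a
    rcases ha with rfl | rfl | rfl | rfl <;> rcases hb with rfl | rfl | rfl | rfl <;> decide
  · rintro a (rfl | rfl | rfl | rfl) <;> decide

/-- There exist a finite group X, an elementary abelian subgroup A of order 4 and a solvable A-signalizer functor θ on X for the prime 2 which is not complete. -/
theorem result : ∃ (X : Type) (_ : Group X) (_ : Finite X) (A : Subgroup X) (θ : X → Subgroup X), Cfsg.IsElementaryAbelian 2 A ∧ Nat.card ↥A = 4 ∧ Cfsg.IsSolvableSignalizerFunctor 2 A θ ∧ ¬ Cfsg.IsCompleteSignalizerFunctor 2 A θ := by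
  refine ⟨X5, inferInstance, inferInstance, A4, th, ea_A4, card_A4, ⟨functor, solv⟩, not_complete⟩

end Cfsg.Agent.S1286
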