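import Cfsg.Statements.S1303
import Mathlib
import Cfsg.Agent.Lib.Char.Burnside
import Cfsg.Agent.Lib.FStar.Signalizer
import Cfsg.Agent.Lib.FStar.PConstrained
import Cfsg.Agent.Lib.Core.Basic

set_option autoImplicit false
open Cfsg

namespace Cfsg.Agent.S1303

local notation "SLG" => Matrix.SpecialLinearGroup (Fin 2) (ZMod 3)

instance fact2 : Fact (Nat.Prime 2) := ⟨Nat.prime_two⟩

set_option maxRecDepth 100000 in
theorem card_slg : Nat.card SLG = 24 := by
  rw [Nat.card_eq_fintype_card]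
  decide

set_option maxRecDepth 100000 in
theorem key1 : ∀ x : SLG, x ^ 3 = 1 → (∀ g : SLG, (x * g * x⁻¹ * g⁻¹) ^ 3 = 1) → x = 1 := by
  decide

set_option maxRecDepth 100000 in
theorem key2 : ∀ t : SLG, t * t = 1 → t = 1 ∨ t = -1 := by
  decide

set_option maxRecDepth 100000 in
theorem key3 : ∀ g : SLG, g * (-1) = (-1) * g := by
  decide

def u : SLG := ⟨!![1, 1; 0, 1], by decide⟩

set_option maxRecDepth 100000 in
theorem u3 : u ^ 3 = 1 := by decide

theorem u1 : u ≠ 1 := by decide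

theorem pow_three_of_odd {x : SLG} (h : (orderOf x).Coprime 2) : x ^ 3 = 1 := by
  have h1 : orderOf x ∣ 2 ^ 3 * 3 := by
    have := orderOf_dvd_natCard x
    rwa [card_slg] at this
  have h2 : orderOf x ∣ 3 := (Nat.Coprime.pow_right 3 h).dvd_of_dvd_mul_left h1
  exact orderOf_dvd_iff_pow_eq_one.mp h2

theorem core_bot : Cfsg.pPrimeCore 2 SLG = ⊥ := by
  rw [eq_bot_iff]
  intro x hx
  rw [Subgroup.mem_bot]
  have hc := Cfsg.Agent.Lib.Core.pPrimeCore_coprime 2 SLG
  have hodd : ∀ y ∈ Cfsg.pPrimeCore 2 SLG, y ^ 3 = 1 := by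
    intro y hy
    apply pow_three_of_odd
    have h1 := orderOf_dvd_natCard (⟨y, hy⟩ : Cfsg.pPrimeCore 2 SLG)
    rw [Subgroup.orderOf_mk] at h1
    exact Nat.Coprime.coprime_dvd_left h1 hc
  refine key1 x (hodd x hx) (fun g => hodd _ ?_)
  have hn : (Cfsg.pPrimeCore 2 SLG).Normal := inferInstance
  have h2 : x * g * x⁻¹ * g⁻¹ = x * (g * x⁻¹ * g⁻¹) := by group
  rw [h2]
  exact (Cfsg.pPrimeCore 2 SLG).mul_mem hx (hn.conj_mem _ (inv_mem hx) g)

/-- The group X = SL(2, 3): it is 2-constrained, O_{2'}(X) = 1, its centre A = Z(X) contains every involution of X = C_X(A), and X has a subgroup of order 3 (normalized by A) not contained in O_{2'}(X). -/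
theorem result : Cfsg.IsPConstrained 2 (Matrix.SpecialLinearGroup (Fin 2) (ZMod 3)) ∧ Cfsg.pPrimeCore 2 (Matrix.SpecialLinearGroup (Fin 2) (ZMod 3)) = ⊥ ∧ (∀ t : Matrix.SpecialLinearGroup (Fin 2) (ZMod 3), orderOf t = 2 → t ∈ Subgroup.center (Matrix.SpecialLinearGroup (Fin 2) (ZMod 3))) ∧ ∃ Q : Subgroup (Matrix.SpecialLinearGroup (Fin 2) (ZMod 3)), Nat.card ↥Q = 3 ∧ ¬ (Q ≤ Cfsg.pPrimeCore 2 (Matrix.SpecialLinearGroup (Fin 2) (ZMod 3))) := by
  have hsolv : Group.IsSolvable SLG :=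
    Cfsg.Agent.Lib.Char.isSolvable_of_card 2 3 3 1 Nat.prime_two Nat.prime_three (by rw [card_slg]; norm_num)
  refine ⟨?_, core_bot, ?_, ?_⟩
  · exact (Cfsg.Agent.Lib.FStar.isPConstrained_iff).mpr (Cfsg.Agent.Lib.FStar.pLayer_eq_bot_of_solvable hsolv)
  · intro t ht
    have h1 : t * t = 1 := by
      have := pow_orderOf_eq_one t
      rw [ht, pow_two] at this
      exact this
    rcases key2 t h1 with h | h
    · exfalso
      rw [h, orderOf_one] at ht
      omega
    · rw [h, Subgroup.mem_center_iff]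
      intro g
      exact key3 g
  · refine ⟨Subgroup.zpowers u, ?_, ?_⟩
    · rw [Nat.card_zpowers]
      haveI : Fact (Nat.Prime 3) := ⟨Nat.prime_three⟩
      exact orderOf_eq_prime u3 u1
    · rw [core_bot]
      intro h
      have : u ∈ (⊥ : Subgroup SLG) := h (Subgroup.mem_zpowers u)
      exact u1 (Subgroup.mem_bot.mp this)

end Cfsg.Agent.S1303
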