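import Cfsg.Statements.S1306
import Mathlib
import Cfsg.Agent.Lib.FStar.Basic
import Cfsg.Agent.Lib.Hall.CoprimeLemmas

set_option autoImplicit false
open Cfsg

namespace Cfsg.Agent.S1306

open Subgroup in
theorem comp_conj {G : Type*} [Group G] {L : Subgroup G} {z : G} (g : G)
    (hL : L ≤ centralizer ({z} : Set G)) (hc : Cfsg.IsComponent (L.subgroupOf (centralizer ({z} : Set G)))) :
    L.map (MulAut.conj g).toMonoidHom ≤ centralizer ({g * z * g⁻¹} : Set G) ∧
    Cfsg.IsComponent ((L.map (MulAut.conj g).toMonoidHom).subgroupOf (centralizer ({g * z * g⁻¹} : Set G))) := by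
  have hle : L.map (MulAut.conj g).toMonoidHom ≤ centralizer ({g * z * g⁻¹} : Set G) := by
    rintro _ ⟨l, hl, rfl⟩
    rw [mem_centralizer_singleton_iff]
    have h1 := mem_centralizer_singleton_iff.mp (hL hl)
    simp only [MulEquiv.coe_toMonoidHom, MulAut.conj_apply]
    calc g * l * g⁻¹ * (g * z * g⁻¹) = g * (l * z) * g⁻¹ := by group
      _ = g * (z * l) * g⁻¹ := by rw [h1]
      _ = _ := by group
  refine ⟨hle, ?_⟩
  -- the conjugation isomorphism of centralizers
  let e : centralizer ({z} : Set G) ≃* centralizer ({g * z * g⁻¹} : Set G) :=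
    { toFun := fun c => ⟨g * c * g⁻¹, by
        rw [mem_centralizer_singleton_iff]
        have h1 := mem_centralizer_singleton_iff.mp c.2
        calc g * c * g⁻¹ * (g * z * g⁻¹) = g * (c * z) * g⁻¹ := by group
          _ = g * (z * c) * g⁻¹ := by rw [h1]
          _ = _ := by group⟩
      invFun := fun c => ⟨g⁻¹ * c * g, by
        rw [mem_centralizer_singleton_iff]
        have h1 := mem_centralizer_singleton_iff.mp c.2
        calc g⁻¹ * c * g * z = g⁻¹ * (c * (g * z * g⁻¹)) * g := by group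
          _ = g⁻¹ * ((g * z * g⁻¹) * c) * g := by rw [h1]
          _ = _ := by group⟩
      left_inv := fun c => Subtype.ext (by simp [mul_assoc])
      right_inv := fun c => Subtype.ext (by simp [mul_assoc])
      map_mul' := fun a b => Subtype.ext (by simp [mul_assoc]) }
  have h2 := Cfsg.Agent.Lib.FStar.component_map_equiv e hc
  convert h2 using 1
  ext c
  rw [mem_subgroupOf]
  constructor
  · rintro ⟨l, hl, hlc⟩
    refine ⟨⟨l, hL hl⟩, mem_subgroupOf.mpr hl, Subtype.ext ?_⟩
    exact hlc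
  · rintro ⟨c', hc', rfl⟩
    exact ⟨c', mem_subgroupOf.mp hc', rfl⟩

theorem normalizer_of_eq {G : Type*} [Group G] [Finite G] {L : Subgroup G} {g : G}
    (h : L.map (MulAut.conj g).toMonoidHom = L) : g ∈ Subgroup.normalizer (L : Set G) := by
  refine Cfsg.Agent.Lib.Hall.mem_normalizer_of_conj_le ?_
  intro a ha
  rw [← h]
  exact ⟨a, ha, rfl⟩

open Subgroup in
theorem key {G : Type*} [Group G] [Finite G] {L : Subgroup G}
    (hne : ∀ y : G, orderOf y = 2 → y ∈ centralizer (L : Set G) → L ≤ centralizer ({y} : Set G) ∧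
      Cfsg.IsComponent (L.subgroupOf (centralizer ({y} : Set G))))
    (hnc : ∀ g : G, L.map (MulAut.conj g).toMonoidHom ≠ L → ⁅L, L.map (MulAut.conj g).toMonoidHom⁆ ≠ ⊥)
    {z g : G} (hz : orderOf z = 2) (hzC : z ∈ centralizer (L : Set G))
    (hy : g * z * g⁻¹ ∈ centralizer (L : Set G)) : L.map (MulAut.conj g).toMonoidHom = L := by
  by_contra hcon
  apply hnc g hcon
  obtain ⟨h1, h2⟩ := hne z hz hzC
  obtain ⟨h3, h4⟩ := comp_conj g h1 h2
  have hoy : orderOf (g * z * g⁻¹) = 2 := by
    rw [show g * z * g⁻¹ = MulAut.conj g z from rfl, MulEquiv.orderOf_eq]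
    exact hz
  obtain ⟨h5, h6⟩ := hne _ hoy hy
  have hne' : L.subgroupOf (centralizer ({g * z * g⁻¹} : Set G)) ≠
      (L.map (MulAut.conj g).toMonoidHom).subgroupOf (centralizer ({g * z * g⁻¹} : Set G)) := by
    intro he
    apply hcon
    have := congrArg (Subgroup.map (centralizer ({g * z * g⁻¹} : Set G)).subtype) he
    rw [Subgroup.map_subgroupOf_eq_of_le h5, Subgroup.map_subgroupOf_eq_of_le h3] at this
    exact this.symm
  have hc := Cfsg.Agent.Lib.FStar.component_commute h6 h4 hne'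
  have := congrArg (Subgroup.map (centralizer ({g * z * g⁻¹} : Set G)).subtype) hc
  rw [Subgroup.map_commutator, Subgroup.map_subgroupOf_eq_of_le h5, Subgroup.map_subgroupOf_eq_of_le h3,
    Subgroup.map_bot] at this
  exact this

/-- Let G be finite, x an involution and L ≤ C_G(x) a component of C_G(x). Suppose L is a component of C_G(y) for every involution y ∈ C_G(L), and ⁅L, g L g⁻¹⁆ ≠ 1 whenever g L g⁻¹ ≠ L. Then L is a standard subgroup of G. -/
theorem result {G : Type*} [Group G] [Finite G] (x : G) (hx : orderOf x = 2) (L : Subgroup G) (hLx : L ≤ Subgroup.centralizer ({x} : Set G)) (hL : Cfsg.IsComponent (L.subgroupOf (Subgroup.centralizer ({x} : Set G)))) (hne : ∀ y : G, orderOf y = 2 → y ∈ Subgroup.centralizer (L : Set G) → L ≤ Subgroup.centralizer ({y} : Set G) ∧ Cfsg.IsComponent (L.subgroupOf (Subgroup.centralizer ({y} : Set G)))) (hnc : ∀ g : G, L.map (MulAut.conj g).toMonoidHom ≠ L → ⁅L, L.map (MulAut.conj g).toMonoidHom⁆ ≠ ⊥) : Cfsg.IsStandardSubgroup L := by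
  classical
  have hxC : x ∈ Subgroup.centralizer (L : Set G) := by
    rw [Subgroup.mem_centralizer_iff]
    intro l hl
    exact Subgroup.mem_centralizer_singleton_iff.mp (hLx hl)
  have hnorm : Subgroup.normalizer (L : Set G) ≤ Subgroup.normalizer (Subgroup.centralizer (L : Set G) : Set G) := by
    intro g hg
    rw [Subgroup.mem_normalizer_iff]
    intro c
    constructor
    · intro hc
      rw [Subgroup.mem_centralizer_iff] at hc ⊢
      intro l hl
      have h1 : g⁻¹ * l * g⁻¹⁻¹ ∈ L := (Subgroup.mem_normalizer_iff.mp (Subgroup.inv_mem _ hg) l).mp hl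
      have h2 := hc _ h1
      calc l * (g * c * g⁻¹) = g * ((g⁻¹ * l * g⁻¹⁻¹) * c) * g⁻¹ := by group
        _ = g * (c * (g⁻¹ * l * g⁻¹⁻¹)) * g⁻¹ := by rw [h2]
        _ = _ := by group
    · intro hc
      rw [Subgroup.mem_centralizer_iff] at hc ⊢
      intro l hl
      have h1 : g * l * g⁻¹ ∈ L := (Subgroup.mem_normalizer_iff.mp hg l).mp hl
      have h2 := hc _ h1
      calc l * c = g⁻¹ * ((g * l * g⁻¹) * (g * c * g⁻¹)) * g := by group
        _ = g⁻¹ * ((g * c * g⁻¹) * (g * l * g⁻¹)) * g := by rw [h2]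
        _ = _ := by group
  refine ⟨?_, ⟨?_, ?_⟩, hnc, le_antisymm hnorm ?_⟩
  · exact (Cfsg.Agent.Lib.FStar.qs_iff_of_mulEquiv (Subgroup.subgroupOfEquivOfLe hLx)).mp hL.2
  · -- even
    have h1 := orderOf_dvd_natCard (⟨x, hxC⟩ : Subgroup.centralizer (L : Set G))
    rw [Subgroup.orderOf_mk, hx] at h1
    exact even_iff_two_dvd.mpr h1
  · intro g hg
    by_contra hodd
    rw [Nat.not_odd_iff_even] at hodd
    obtain ⟨y, hyo⟩ := exists_prime_orderOf_dvd_card' (G := ↥(Subgroup.centralizer (L : Set G) ⊓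
      (Subgroup.centralizer (L : Set G)).map (MulAut.conj g).toMonoidHom)) 2 (even_iff_two_dvd.mp hodd)
    have hy1 := (y : G)
    have hyC : (y : G) ∈ Subgroup.centralizer (L : Set G) := y.2.1
    obtain ⟨z, hzC, hz⟩ := y.2.2
    have hzo : orderOf z = 2 := by
      have h1 : orderOf (y : G) = 2 := by rwa [Subgroup.orderOf_coe]
      rw [← hz, MulEquiv.coe_toMonoidHom, MulEquiv.orderOf_eq] at h1
      exact h1
    have hgz : g * z * g⁻¹ ∈ Subgroup.centralizer (L : Set G) := by
      have : g * z * g⁻¹ = (y : G) := hz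
      rw [this]
      exact hyC
    exact hg (hnorm (normalizer_of_eq (key hne hnc hzo hzC hgz)))
  · intro g hg
    have hgx : g * x * g⁻¹ ∈ Subgroup.centralizer (L : Set G) :=
      (Subgroup.mem_normalizer_iff.mp hg x).mp hxC
    exact normalizer_of_eq (key hne hnc hx hxC hgx)

end Cfsg.Agent.S1306
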