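import Cfsg.Statements.S1336
import Mathlib

set_option autoImplicit false
open Cfsg

namespace Cfsg.Agent.S1336


section
variable {G : Type*} [Group G] {p : ℕ}

/-- The relation of the commuting graph. -/
def Rr (p : ℕ) (G : Type*) [Group G] : Subgroup G → Subgroup G → Prop :=
  fun A B : Subgroup G => Cfsg.IsElementaryAbelian p A ∧ p ^ 1 ≤ Nat.card ↥A ∧ Cfsg.IsElementaryAbelian p B ∧
        p ^ 1 ≤ Nat.card ↥B ∧ ∀ a ∈ A, ∀ b ∈ B, a * b = b * a

/-- Conjugation of subgroups. -/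
def cj (g : G) (A : Subgroup G) : Subgroup G := A.map (MulAut.conj g).toMonoidHom

theorem mem_cj {g x : G} {A : Subgroup G} : x ∈ cj g A ↔ g⁻¹ * x * g ∈ A := by
  constructor
  · rintro ⟨a, ha, rfl⟩
    simpa [mul_assoc] using ha
  · intro h
    exact ⟨_, h, by simp [mul_assoc]⟩

theorem conj_mem_cj {g a : G} {A : Subgroup G} (h : a ∈ A) : g * a * g⁻¹ ∈ cj g A :=
  ⟨a, h, by simp⟩

theorem cj_mul (g h : G) (A : Subgroup G) : cj (g * h) A = cj g (cj h A) := by
  ext x
  simp only [mem_cj]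
  have : (g * h)⁻¹ * x * (g * h) = h⁻¹ * (g⁻¹ * x * g) * h := by group
  rw [this]

theorem cj_one (A : Subgroup G) : cj (1 : G) A = A := by
  ext x
  simp [mem_cj]

theorem cj_inv_cj (g : G) (A : Subgroup G) : cj g⁻¹ (cj g A) = A := by
  rw [← cj_mul, inv_mul_cancel, cj_one]

theorem cj_cj_inv (g : G) (A : Subgroup G) : cj g (cj g⁻¹ A) = A := by
  rw [← cj_mul, mul_inv_cancel, cj_one]

theorem cj_self {a : G} {A : Subgroup G} (h : a ∈ A) : cj a A = A := by
  ext x
  rw [mem_cj]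
  constructor
  · intro hx
    have : x = a * (a⁻¹ * x * a) * a⁻¹ := by group
    rw [this]
    exact A.mul_mem (A.mul_mem h hx) (A.inv_mem h)
  · intro hx
    exact A.mul_mem (A.mul_mem (A.inv_mem h) hx) h

theorem card_cj (g : G) (A : Subgroup G) : Nat.card ↥(cj g A) = Nat.card ↥A := by
  apply Nat.card_congr
  exact ((MulAut.conj g).subgroupMap A).toEquiv.symm

theorem ea_cj {g : G} {A : Subgroup G} (h : Cfsg.IsElementaryAbelian p A) : Cfsg.IsElementaryAbelian p (cj g A) := by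
  obtain ⟨h1, h2⟩ := h
  refine ⟨⟨⟨?_⟩⟩, ?_⟩
  · rintro ⟨x, hx⟩ ⟨y, hy⟩
    apply Subtype.ext
    have hx' := mem_cj.mp hx
    have hy' := mem_cj.mp hy
    have := congrArg Subtype.val (h1.is_comm.comm ⟨_, hx'⟩ ⟨_, hy'⟩)
    simp only [Subgroup.coe_mul] at this
    show x * y = y * x
    have e1 : x * y = g * (g⁻¹ * x * g * (g⁻¹ * y * g)) * g⁻¹ := by group
    have e2 : y * x = g * (g⁻¹ * y * g * (g⁻¹ * x * g)) * g⁻¹ := by group
    rw [e1, e2, this]
  · intro a ha
    have := h2 _ (mem_cj.mp ha)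
    have e : (g⁻¹ * a * g) ^ p = g⁻¹ * a ^ p * g := by
      have := conj_pow (a := g⁻¹) (b := a) (i := p)
      simpa using this
    rw [e] at this
    have h3 : a ^ p = g * (g⁻¹ * a ^ p * g) * g⁻¹ := by group
    rw [h3, this]
    group

theorem Rr_cj (g : G) {A B : Subgroup G} (h : Rr p G A B) : Rr p G (cj g A) (cj g B) := by
  obtain ⟨h1, h2, h3, h4, h5⟩ := h
  refine ⟨ea_cj h1, by rwa [card_cj], ea_cj h3, by rwa [card_cj], ?_⟩
  intro a ha b hb
  have := h5 _ (mem_cj.mp ha) _ (mem_cj.mp hb)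
  have e1 : a * b = g * (g⁻¹ * a * g * (g⁻¹ * b * g)) * g⁻¹ := by group
  have e2 : b * a = g * (g⁻¹ * b * g * (g⁻¹ * a * g)) * g⁻¹ := by group
  rw [e1, e2, this]

theorem Rr_symm {A B : Subgroup G} (h : Rr p G A B) : Rr p G B A := by
  obtain ⟨h1, h2, h3, h4, h5⟩ := h
  exact ⟨h3, h4, h1, h2, fun a ha b hb => (h5 b hb a ha).symm⟩

/-- Connectedness. -/
abbrev Conn (p : ℕ) (G : Type*) [Group G] : Subgroup G → Subgroup G → Prop := Relation.ReflTransGen (Rr p G)

theorem Conn_symm {A B : Subgroup G} (h : Conn p G A B) : Conn p G B A :=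
  by
    induction h with
    | refl => exact Relation.ReflTransGen.refl
    | tail _ hr ih => exact Relation.ReflTransGen.head (Rr_symm hr) ih

theorem Conn_cj (g : G) {A B : Subgroup G} (h : Conn p G A B) : Conn p G (cj g A) (cj g B) :=
  by
    induction h with
    | refl => exact Relation.ReflTransGen.refl
    | tail _ hr ih => exact Relation.ReflTransGen.tail ih (Rr_cj g hr)

variable [Fact p.Prime]

theorem exists_order_p {A : Subgroup G} (h1 : Cfsg.IsElementaryAbelian p A) (h2 : p ^ 1 ≤ Nat.card ↥A) (hfin : Finite A) :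
    ∃ a ∈ A, orderOf a = p := by
  have hp := (Fact.out : p.Prime)
  rw [pow_one] at h2
  haveI : Nontrivial ↥A := by
    apply Finite.one_lt_card_iff_nontrivial.mp
    have := hp.two_le
    omega
  obtain ⟨⟨a, ha⟩, hne⟩ := exists_ne (1 : ↥A)
  refine ⟨a, ha, ?_⟩
  apply orderOf_eq_prime (h1.2 a ha)
  intro h
  exact hne (Subtype.ext h)

theorem ea_zpowers {x : G} (hx : orderOf x = p) : Cfsg.IsElementaryAbelian p (Subgroup.zpowers x) := by
  refine ⟨inferInstance, ?_⟩
  rintro _ ⟨k, rfl⟩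
  show (x ^ k) ^ p = 1
  rw [← zpow_natCast, ← zpow_mul, mul_comm, zpow_mul, zpow_natCast, ← hx, pow_orderOf_eq_one, one_zpow]

theorem card_zpowers_ge {x : G} (hx : orderOf x = p) : p ^ 1 ≤ Nat.card ↥(Subgroup.zpowers x) := by
  rw [Nat.card_zpowers, hx, pow_one]

/-- Two vertices inside a `p`-subgroup are connected. -/
theorem conn_of_le_pgroup [Finite G] {T : Subgroup G} (hT : IsPGroup p ↥T) {A B : Subgroup G}
    (hA : Cfsg.IsElementaryAbelian p A) (hAc : p ^ 1 ≤ Nat.card ↥A) (hB : Cfsg.IsElementaryAbelian p B)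
    (hBc : p ^ 1 ≤ Nat.card ↥B) (hAT : A ≤ T) (hBT : B ≤ T) : Conn p G A B := by
  obtain ⟨a, ha, hao⟩ := exists_order_p hA hAc inferInstance
  haveI : Nontrivial ↥T := by
    refine ⟨⟨⟨a, hAT ha⟩, 1, fun h => ?_⟩⟩
    have h1 : a = 1 := congrArg Subtype.val h
    rw [h1, orderOf_one] at hao
    exact (Fact.out : p.Prime).one_lt.ne hao
  haveI : Nontrivial (Subgroup.center ↥T) := hT.center_nontrivial
  have hpc : IsPGroup p ↥(Subgroup.center ↥T) := hT.to_subgroup _
  obtain ⟨n, hn, hcard⟩ := hpc.nontrivial_iff_card.mp inferInstance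
  have hd : p ∣ Nat.card ↥(Subgroup.center ↥T) := by
    rw [hcard]
    exact dvd_pow_self p hn.ne'
  obtain ⟨⟨⟨z, hzT⟩, hzc⟩, hzo⟩ := exists_prime_orderOf_dvd_card' p hd
  have hzo' : orderOf z = p := by
    have e1 : orderOf (⟨⟨z, hzT⟩, hzc⟩ : ↥(Subgroup.center ↥T)) = orderOf (⟨z, hzT⟩ : ↥T) :=
      Subgroup.orderOf_mk _ hzc
    have e2 : orderOf (⟨z, hzT⟩ : ↥T) = orderOf z := Subgroup.orderOf_mk _ hzT
    rw [← e2, ← e1]
    exact hzo
  have hcomm : ∀ t ∈ T, z * t = t * z := by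
    intro t ht
    have := Subgroup.mem_center_iff.mp hzc ⟨t, ht⟩
    exact (congrArg Subtype.val this).symm
  have hZ : ∀ y ∈ Subgroup.zpowers z, ∀ t ∈ T, y * t = t * y := by
    rintro _ ⟨k, rfl⟩ t ht
    exact (Commute.zpow_left (show Commute z t from hcomm t ht) k)
  have r1 : Rr p G A (Subgroup.zpowers z) := ⟨hA, hAc, ea_zpowers hzo', card_zpowers_ge hzo',
    fun a ha b hb => (hZ b hb a (hAT ha)).symm⟩
  have r2 : Rr p G (Subgroup.zpowers z) B := ⟨ea_zpowers hzo', card_zpowers_ge hzo', hB, hBc,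
    fun a ha b hb => hZ a ha b (hBT hb)⟩
  exact (Relation.ReflTransGen.single r1).trans (Relation.ReflTransGen.single r2)

theorem cj_zpowers (g x : G) : cj g (Subgroup.zpowers x) = Subgroup.zpowers (g * x * g⁻¹) := by
  unfold cj
  rw [MonoidHom.map_zpowers]
  rfl

theorem isP_of_ea [Finite G] {A : Subgroup G} (hA : Cfsg.IsElementaryAbelian p A) : IsPGroup p ↥A := by
  intro a
  refine ⟨1, ?_⟩
  apply Subtype.ext
  rw [pow_one]
  simpa using hA.2 a a.2

/-- The stabiliser of a connected component. -/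
def stabC (p : ℕ) (E : Subgroup G) : Subgroup G where
  carrier := {g | Conn p G E (cj g E)}
  one_mem' := by
    show Conn p G E (cj 1 E)
    rw [cj_one]
  mul_mem' := by
    intro g h hg hh
    show Conn p G E (cj (g * h) E)
    rw [cj_mul]
    exact Relation.ReflTransGen.trans hg (Conn_cj g hh)
  inv_mem' := by
    intro g hg
    have := Conn_cj g⁻¹ hg
    rw [cj_inv_cj] at this
    exact Conn_symm this

theorem mem_stabC {E : Subgroup G} {g : G} : g ∈ stabC p E ↔ Conn p G E (cj g E) := Iff.rfl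

/-- Subgroups of prime order of the stabiliser lie in the component. -/
theorem conn_of_mem_stabC [Finite G] {E : Subgroup G} (hE : Cfsg.IsElementaryAbelian p E) (hEc : p ^ 1 ≤ Nat.card ↥E)
    {x : G} (hx : x ∈ stabC p E) (hxo : orderOf x = p) : Conn p G E (Subgroup.zpowers x) := by
  set H := stabC p E with hH
  have hEH : E ≤ H := fun a ha => by
    show Conn p G E (cj a E)
    rw [cj_self ha]
  have hPE : IsPGroup p ↥(E.subgroupOf H) := by
    intro a
    refine ⟨1, ?_⟩
    apply Subtype.ext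
    apply Subtype.ext
    rw [pow_one]
    simpa using hE.2 a.1 a.2
  obtain ⟨T₀, hT₀⟩ := hPE.exists_le_sylow
  have hPx : IsPGroup p ↥(Subgroup.zpowers (⟨x, hx⟩ : ↥H)) := by
    intro a
    obtain ⟨_, k, rfl⟩ := a
    refine ⟨1, ?_⟩
    apply Subtype.ext
    apply Subtype.ext
    rw [pow_one]
    have h1 := (ea_zpowers hxo).2 (x ^ k) ⟨k, rfl⟩
    simpa using h1
  obtain ⟨T₁, hT₁⟩ := hPx.exists_le_sylow
  obtain ⟨h, hh⟩ := MulAction.exists_smul_eq ↥H T₁ T₀
  -- the conjugate of `x` by `h` lies in `T₀`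
  have hmem : (h : G) * x * (h : G)⁻¹ ∈ (T₀ : Subgroup ↥H).map H.subtype := by
    have h1 : (⟨x, hx⟩ : ↥H) ∈ (T₁ : Subgroup ↥H) := hT₁ (Subgroup.mem_zpowers _)
    have h2 : h * ⟨x, hx⟩ * h⁻¹ ∈ (T₀ : Subgroup ↥H) := by
      rw [← hh, Sylow.coe_subgroup_smul]
      exact Subgroup.mem_pointwise_smul_iff_inv_smul_mem.mpr (by
        simpa [MulAut.smul_def, MulAut.conj_apply, mul_assoc] using h1)
    exact ⟨_, h2, rfl⟩
  have hET : E ≤ (T₀ : Subgroup ↥H).map H.subtype := by
    intro a ha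
    exact ⟨⟨a, hEH ha⟩, hT₀ ha, rfl⟩
  have hP : IsPGroup p ↥((T₀ : Subgroup ↥H).map H.subtype) := by
    exact (T₀.isPGroup').map H.subtype
  have hyo : orderOf ((h : G) * x * (h : G)⁻¹) = p := by
    rw [← MulAut.conj_apply, MulEquiv.orderOf_eq, hxo]
  have hc1 : Conn p G E (Subgroup.zpowers ((h : G) * x * (h : G)⁻¹)) := by
    apply conn_of_le_pgroup hP hE hEc (ea_zpowers hyo) (card_zpowers_ge hyo) hET
    rw [Subgroup.zpowers_le]
    exact hmem
  have hc2 := Conn_cj (h : G)⁻¹ hc1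
  rw [cj_zpowers] at hc2
  have e : (h : G)⁻¹ * ((h : G) * x * (h : G)⁻¹) * (h : G)⁻¹⁻¹ = x := by group
  rw [e] at hc2
  have hh' : (h : G)⁻¹ ∈ H := H.inv_mem h.2
  exact Relation.ReflTransGen.trans hh' hc2

end

/-- Let G be finite and p prime. Then G has a proper subgroup H with p ∣ |H| and p ∤ |H ∩ gHg⁻¹| for every g ∉ H (a strongly p-embedded subgroup) if and only if G is not 1-connected for p. -/
theorem result {G : Type*} [Group G] [Finite G] (p : ℕ) [Fact p.Prime] : (∃ H : Subgroup G, H ≠ ⊤ ∧ p ∣ Nat.card ↥H ∧ ∀ g : G, g ∉ H → ¬ p ∣ Nat.card ↥(H ⊓ H.map (MulAut.conj g).toMonoidHom)) ↔ ¬ Cfsg.IsKConnected p 1 G := by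
  classical
  have hp := (Fact.out : p.Prime)
  constructor
  · rintro ⟨H, hH, hpH, hstr⟩ hconn
    obtain ⟨⟨a, haH⟩, hao⟩ := exists_prime_orderOf_dvd_card' p hpH
    have hao' : orderOf a = p := (Subgroup.orderOf_mk _ haH).symm.trans hao
    obtain ⟨g, hg⟩ : ∃ g, g ∉ H := by
      by_contra hall
      push Not at hall
      exact hH (eq_top_iff.mpr fun x _ => hall x)
    have hgo : orderOf (g * a * g⁻¹) = p := by
      rw [← MulAut.conj_apply, MulEquiv.orderOf_eq, hao']
    have hchain := hconn (Subgroup.zpowers a) (Subgroup.zpowers (g * a * g⁻¹))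
      (ea_zpowers hao') (card_zpowers_ge hao') (ea_zpowers hgo) (card_zpowers_ge hgo)
    -- staying inside `H`
    have hstay : ∀ A B : Subgroup G, A ≤ H → Rr p G A B → B ≤ H := by
      rintro A B hA ⟨h1, h2, h3, h4, h5⟩ b hb
      by_contra hbH
      obtain ⟨c, hc, hco⟩ := exists_order_p h1 h2 inferInstance
      apply hstr b hbH
      have hmem : c ∈ H ⊓ H.map (MulAut.conj b).toMonoidHom := by
        refine ⟨hA hc, c, hA hc, ?_⟩
        show b * c * b⁻¹ = c
        rw [← h5 c hc b hb]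
        group
      have hd : orderOf (⟨c, hmem⟩ : ↥(H ⊓ H.map (MulAut.conj b).toMonoidHom)) = p :=
        (Subgroup.orderOf_mk _ hmem).trans hco
      rw [← hd]
      exact orderOf_dvd_natCard _
    have hfinal : Subgroup.zpowers (g * a * g⁻¹) ≤ H := by
      have haH' : Subgroup.zpowers a ≤ H := by
        rw [Subgroup.zpowers_le]
        exact haH
      have : ∀ B, Relation.ReflTransGen (Rr p G) (Subgroup.zpowers a) B → B ≤ H := by
        intro B hB
        induction hB with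
        | refl => exact haH'
        | tail _ hr ih => exact hstay _ _ ih hr
      exact this _ hchain
    have hmem2 : g * a * g⁻¹ ∈ H := hfinal (Subgroup.mem_zpowers _)
    apply hstr g hg
    have hmem : g * a * g⁻¹ ∈ H ⊓ H.map (MulAut.conj g).toMonoidHom :=
      ⟨hmem2, a, haH, rfl⟩
    have hd : orderOf (⟨_, hmem⟩ : ↥(H ⊓ H.map (MulAut.conj g).toMonoidHom)) = p :=
      (Subgroup.orderOf_mk _ hmem).trans hgo
    rw [← hd]
    exact orderOf_dvd_natCard _
  · intro hnc
    unfold Cfsg.IsKConnected at hnc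
    push Not at hnc
    obtain ⟨E, E', hE, hEc, hE', hEc', hne⟩ := hnc
    have hne' : ¬ Conn p G E E' := hne
    refine ⟨stabC p E, ?_, ?_, ?_⟩
    · -- proper
      intro htop
      obtain ⟨S, hS⟩ := IsPGroup.exists_le_sylow (isP_of_ea hE)
      obtain ⟨S', hS'⟩ := IsPGroup.exists_le_sylow (isP_of_ea hE')
      obtain ⟨g, hg⟩ := MulAction.exists_smul_eq G S' S
      have hle : cj g E' ≤ (S : Subgroup G) := by
        rw [← hg, Sylow.coe_subgroup_smul]
        intro x hx
        obtain ⟨b, hb, rfl⟩ := hx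
        exact Subgroup.mem_pointwise_smul_iff_inv_smul_mem.mpr (by
          simpa [MulAut.smul_def, MulAut.conj_apply, mul_assoc] using hS' hb)
      have c1 := conn_of_le_pgroup S.isPGroup' hE hEc (ea_cj hE') (by rwa [card_cj]) hS hle
      have c2 := Conn_cj g⁻¹ c1
      rw [cj_inv_cj] at c2
      have hm : g⁻¹ ∈ stabC p E := htop ▸ Subgroup.mem_top _
      exact hne' (Relation.ReflTransGen.trans hm c2)
    · obtain ⟨a, ha, hao⟩ := exists_order_p hE hEc inferInstance
      have hmem : a ∈ stabC p E := by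
        show Conn p G E (cj a E)
        rw [cj_self ha]
      have hd : orderOf (⟨a, hmem⟩ : ↥(stabC p E)) = p := (Subgroup.orderOf_mk _ hmem).trans hao
      have h := orderOf_dvd_natCard (⟨a, hmem⟩ : ↥(stabC p E))
      rw [hd] at h
      exact h
    · intro g hg hd
      obtain ⟨⟨a, ha⟩, hao⟩ := exists_prime_orderOf_dvd_card' p hd
      have hao' : orderOf a = p := (Subgroup.orderOf_mk (H := stabC p E ⊓ (stabC p E).map (MulAut.conj g).toMonoidHom) a ha).symm.trans hao
      obtain ⟨ha1, b, hb, rfl⟩ := ha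
      have hbo : orderOf b = p := (MulEquiv.orderOf_eq (MulAut.conj g) b).symm.trans hao'
      have c1 := conn_of_mem_stabC hE hEc ha1 hao'
      have c2 := conn_of_mem_stabC hE hEc hb hbo
      have c3 := Conn_cj g c2
      rw [cj_zpowers] at c3
      apply hg
      show Conn p G E (cj g E)
      exact Relation.ReflTransGen.trans c1 (Conn_symm c3)


end Cfsg.Agent.S1336
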