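import Cfsg.Statements.S1348
import Mathlib
import Cfsg.Agent.Lib.LBal.SLBlock

set_option autoImplicit false
open Cfsg

namespace Cfsg.Agent.S1348

/-- Let F be a finite field of odd order, n ≥ 7 odd, and t ∈ SL(n, F) the diagonal matrix with entries −1, …, −1, 1. Then E(C(t)) is a standard subgroup of SL(n, F). -/
theorem result {F : Type*} [Field F] [Fintype F] [DecidableEq F] (hF : Odd (Fintype.card F)) (n : ℕ) (hn : 7 ≤ n) (hodd : Odd n) (t : Matrix.SpecialLinearGroup (Fin n) F) (ht : (t : Matrix (Fin n) (Fin n) F) = Matrix.diagonal (fun i : Fin n => if (i : ℕ) + 1 = n then (1 : F) else -1)) : Cfsg.IsStandardSubgroup ((Cfsg.layer ↥(Subgroup.centralizer ({t} : Set (Matrix.SpecialLinearGroup (Fin n) F)))).map (Subgroup.centralizer ({t} : Set (Matrix.SpecialLinearGroup (Fin n) F))).subtype) := by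
  classical
  have h2 : (2 : F) ≠ 0 := by
    intro h
    have h3 : ringChar F = 2 := by
      rw [CharP.ringChar_of_prime_eq_zero Nat.prime_two]
      exact_mod_cast h
    have h4 := FiniteField.even_card_iff_char_two.1 h3
    obtain ⟨m, hm⟩ := hF
    omega
  have hn0 : n - 1 < n := by omega
  set o : Fin n := ⟨n - 1, hn0⟩ with ho
  have hio : ∀ i : Fin n, (i : ℕ) + 1 = n ↔ i = o := by
    intro i
    rw [ho, Fin.ext_iff]
    simp only
    omega
  have ht' : (t : Matrix (Fin n) (Fin n) F) = Matrix.diagonal (fun i => if i = o then 1 else -1) := by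
    rw [ht]
    congr 1
    funext i
    by_cases h : i = o
    · rw [if_pos h, if_pos ((hio i).2 h)]
    · rw [if_neg h, if_neg (fun h' => h ((hio i).1 h'))]
  have hcard : Fintype.card (Cfsg.Agent.Lib.LBal.SubIdx o) = n - 1 := by
    rw [Fintype.card_subtype_compl]
    simp
  refine Cfsg.Agent.Lib.LBal.standard_layer o h2 (by rw [hcard]; omega) (by rw [hcard]; exact hodd.tsub_odd odd_one) ht'

end Cfsg.Agent.S1348
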