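import Cfsg.Statements.S1350
import Cfsg.Agent.Lib.Uniq.MAlpha
import Cfsg.Agent.Lib.Uniq.Sigma

set_option autoImplicit false
open Cfsg

namespace Cfsg.Agent.S1350

/-- Let G be a minimal simple group of odd order and M a maximal subgroup. Then M_σ (the largest normal σ(M)-subgroup of M) is a Hall σ(M)-subgroup of M and also of G, and every Hall σ(M)-subgroup of M that is normal in M equals M_σ. -/
theorem result {G : Type*} [Group G] [Finite G] (hG : Cfsg.IsMinSimpleOddOrder G)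
    (M : Subgroup G) (hM : IsCoatom M) :
    Cfsg.IsPiHallOf (Cfsg.sigma M) (Cfsg.sigmaCore M) M ∧ Cfsg.IsPiHall (Cfsg.sigma M) (Cfsg.sigmaCore M) ∧
      ∀ N : Subgroup G, M ≤ Subgroup.normalizer (N : Set G) → Cfsg.IsPiHallOf (Cfsg.sigma M) N M →
        N = Cfsg.sigmaCore M := by
  classical
  have hs := Cfsg.Agent.Lib.Uniq.s1405 hG hM
  have hprimes : ∀ r : ℕ, r.Prime → r ∣ Nat.card (sigmaCore M) → r ∈ sigma M :=
    Cfsg.Agent.Lib.Uniq.primes_piCoreOf (π := sigma M) (X := M)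
  have key : ∀ p : ℕ, p.Prime → p ∈ sigma M → ∃ P : Sylow p G, (P : Subgroup G) ≤ sigmaCore M := by
    intro p hp hpσ
    haveI : Fact p.Prime := ⟨hp⟩
    obtain ⟨P, hPM, -⟩ := Cfsg.Agent.Lib.Uniq.exists_sylow_of_sigma hpσ
    refine ⟨P, ?_⟩
    have hPc := Cfsg.Agent.Lib.Uniq.sylow_le_commutator_of_sigma hG hM hpσ P hPM
    obtain ⟨N, hNd⟩ : ∃ N, N = piCore (alpha M) ↥M := ⟨_, rfl⟩
    haveI hNn : N.Normal := hNd ▸ inferInstance
    have hnil : Group.IsNilpotent ↥((commutator ↥M).map (QuotientGroup.mk' N)) := hNd ▸ hs.2.2.2.2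
    have hNp : ∀ r : ℕ, r.Prime → r ∣ Nat.card N → r ∈ sigma M := by
      intro r hr hd
      refine Cfsg.Agent.Lib.Uniq.alpha_subset_sigma hG hM ?_
      rw [hNd] at hd
      exact Cfsg.Agent.Lib.Uniq.primes_piCore _ _ r hr hd
    let φ := QuotientGroup.mk' N
    let W := (commutator ↥M).map φ
    haveI hWn : W.Normal := Subgroup.Normal.map inferInstance _ (QuotientGroup.mk'_surjective N)
    let P' : Subgroup M := (P : Subgroup G).subgroupOf M
    have hP'p : IsPGroup p P' := by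
      rintro ⟨x, hx⟩
      obtain ⟨k, hk⟩ := P.isPGroup' ⟨x.1, hx⟩
      refine ⟨k, Subtype.ext (Subtype.ext ?_)⟩
      simpa using congrArg Subtype.val hk
    let Pb : Subgroup W := (P'.map φ).subgroupOf W
    have hPb : IsPGroup p Pb := by
      rintro ⟨⟨x, hxW⟩, hx⟩
      rw [Subgroup.mem_subgroupOf] at hx
      obtain ⟨y, hy, rfl⟩ := hx
      obtain ⟨k, hk⟩ := hP'p ⟨y, hy⟩
      refine ⟨k, Subtype.ext (Subtype.ext ?_)⟩
      have h1 : y ^ p ^ k = 1 := by simpa using congrArg Subtype.val hk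
      simp only [Subgroup.coe_pow, Subgroup.coe_one, ← map_pow, h1, map_one]
    obtain ⟨R, hR⟩ := hPb.exists_le_sylow
    haveI hRc : (R : Subgroup W).Characteristic := R.characteristic_of_normal inferInstance
    let Rm : Subgroup (↥M ⧸ N) := (R : Subgroup W).map W.subtype
    haveI hRm : Rm.Normal := ConjAct.normal_of_characteristic_of_normal
    let Y : Subgroup M := Rm.comap φ
    haveI hYn : Y.Normal := inferInstance
    have hYp : ∀ r : ℕ, r.Prime → r ∣ Nat.card Y → r ∈ sigma M := by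
      intro r hr hd
      have h1 := Cfsg.Agent.Lib.Core.card_comap_of_surjective φ (QuotientGroup.mk'_surjective N) Rm
      rw [show φ.ker = N from QuotientGroup.ker_mk' N] at h1
      have h2 : Nat.card Rm = Nat.card (R : Subgroup W) :=
        Nat.card_congr ((R : Subgroup W).equivMapOfInjective W.subtype W.subtype_injective).symm.toEquiv
      rw [show Nat.card Y = _ from h1, h2] at hd
      rcases (Nat.Prime.dvd_mul hr).1 hd with h3 | h3
      · exact hNp r hr h3
      · obtain ⟨n, hn⟩ := IsPGroup.iff_card.mp R.isPGroup'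
        rw [hn] at h3
        have := (Nat.prime_dvd_prime_iff_eq hr hp).1 (hr.dvd_of_dvd_pow h3)
        rwa [this]
    have hY : Y ≤ piCore (sigma M) M := le_sSup ⟨hYn, hYp⟩
    intro x hx
    refine ⟨⟨x, hPM hx⟩, hY ?_, rfl⟩
    have hxc : (⟨x, hPM hx⟩ : M) ∈ commutator M := by
      have h1 := hPc hx
      rw [← Subgroup.map_subtype_commutator] at h1
      obtain ⟨z, hz, hzx⟩ := h1
      have : z = ⟨x, hPM hx⟩ := Subtype.ext hzx
      rwa [← this]
    have hW : φ ⟨x, hPM hx⟩ ∈ W := ⟨_, hxc, rfl⟩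
    have hb : (⟨φ ⟨x, hPM hx⟩, hW⟩ : W) ∈ Pb := by
      rw [Subgroup.mem_subgroupOf]
      exact ⟨⟨x, hPM hx⟩, hx, rfl⟩
    exact ⟨_, hR hb, rfl⟩
  refine ⟨⟨Subgroup.map_subtype_le _, hprimes, ?_⟩, ⟨hprimes, ?_⟩, ?_⟩
  · intro p hp hpσ hd
    haveI : Fact p.Prime := ⟨hp⟩
    obtain ⟨P, hP⟩ := key p hp hpσ
    have hle : sigmaCore M ≤ M := Subgroup.map_subtype_le _
    apply P.not_dvd_index
    refine (hd.trans ?_).trans (Subgroup.index_dvd_of_le hP)
    exact ⟨_, (Subgroup.relIndex_mul_index hle).symm⟩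
  · intro p hp hpσ hd
    haveI : Fact p.Prime := ⟨hp⟩
    obtain ⟨P, hP⟩ := key p hp hpσ
    exact P.not_dvd_index (hd.trans (Subgroup.index_dvd_of_le hP))
  · intro N hN hH
    have hle : N ≤ sigmaCore M := Cfsg.Agent.Lib.Uniq.le_piCoreOf hH.1 hN hH.2.1
    by_contra hne
    have hle2 : sigmaCore M ≤ M := Subgroup.map_subtype_le _
    have h1 : N.relIndex (sigmaCore M) ≠ 1 := by
      intro h
      exact hne (le_antisymm hle (Subgroup.relIndex_eq_one.mp h))
    obtain ⟨r, hr, hrd⟩ := Nat.exists_prime_and_dvd h1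
    have hrc : r ∣ Nat.card (sigmaCore M) := hrd.trans (Subgroup.index_dvd_card _)
    apply hH.2.2 r hr (hprimes r hr hrc)
    rw [← Subgroup.relIndex_mul_relIndex N (sigmaCore M) M hle hle2]
    exact hrd.trans (dvd_mul_right _ _)

end Cfsg.Agent.S1350
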