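import Cfsg.Statements.S1396
import Mathlib
import Cfsg.Agent.Lib.Uniq.THOmega

set_option autoImplicit false
open Cfsg

namespace Cfsg.Agent.S1396

/-- Let G be a minimal simple group of odd order, p a prime dividing the order of G and A an abelian p-subgroup. Suppose either (1) A consists exactly of the elements x of C_G(A) with x^p = 1, and every proper subgroup of G has p-length at most one, or (2) A is normal and self-centralizing in some Sylow p-subgroup of G and has rank at least 2. Then A satisfies the transitivity hypothesis. -/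
theorem result {G : Type*} [Group G] [Finite G] (hG : Cfsg.IsMinSimpleOddOrder G)
    (p : ℕ) [Fact p.Prime] (hp : p ∣ Nat.card G) (A : Subgroup G) (hAp : IsPGroup p A) (hAc : IsMulCommutative A)
    (h : (∀ x ∈ Subgroup.centralizer (A : Set G), x ^ p = 1 ↔ x ∈ A) ∧ (∀ H : Subgroup G, H ≠ ⊤ → Cfsg.PLengthLE p 1 H) ∨
      ∃ P : Sylow p G, Cfsg.IsSCN (P : Subgroup G) A ∧ ¬ Cfsg.PRankLE p 1 A) :
    Cfsg.TransitivityHypothesis A := by
  apply Cfsg.Agent.Lib.Uniq.th_of_abelian_omega hG hp hAp
  rcases h with ⟨h, _⟩ | ⟨P, hP, hr⟩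
  · exact Or.inl h
  · refine Or.inr ⟨P, hP, ?_⟩
    rintro rfl
    apply hr
    intro E _
    have : Nat.card E = 1 := by
      rw [Nat.card_eq_one_iff_unique]
      exact ⟨inferInstance, ⟨1⟩⟩
    rw [this]
    exact fun _ => Nat.one_le_pow _ _ (Fact.out : p.Prime).pos

end Cfsg.Agent.S1396
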