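import Cfsg.Statements.S1397
import Mathlib
import Cfsg.Agent.Lib.Uniq.Fit

set_option autoImplicit false
open Cfsg

namespace Cfsg.Agent.S1397

/-- Let G be a minimal simple group of odd order, M a maximal subgroup, p a prime and A₀ an elementary abelian p-subgroup of F(M) of order at least p ^ 3 that is maximal among elementary abelian p-subgroups of F(M). (a) If F(M) is not a p-group, then F(M) ∩ C_G(A₀) lies in exactly one maximal subgroup of G. (b) If F(M) is a p-group and P is a Sylow p-subgroup of M, then p does not divide the index of P in G, and every normal self-centralizing subgroup A of P containing an elementary abelian subgroup of order p ^ 3 is contained in F(M) and lies in exactly one maximal subgroup of G. -/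
theorem result {G : Type*} [Group G] [Finite G] (hG : Cfsg.IsMinSimpleOddOrder G)
    (M : Subgroup G) (hM : IsCoatom M) (p : ℕ) [Fact p.Prime] (A₀ : Subgroup G)
    (hA₀ : A₀ ≤ Cfsg.fittingOf M) (hA₀e : Cfsg.IsElementaryAbelian p A₀) (hA₀3 : p ^ 3 ≤ Nat.card A₀)
    (hA₀max : ∀ B : Subgroup G, B ≤ Cfsg.fittingOf M → Cfsg.IsElementaryAbelian p B → A₀ ≤ B → B = A₀) :
    (¬ IsPGroup p ↥(Cfsg.fittingOf M) → Cfsg.InUniqueMaximal (Cfsg.fittingOf M ⊓ Subgroup.centralizer (A₀ : Set G))) ∧
      (IsPGroup p ↥(Cfsg.fittingOf M) → ∀ P : Sylow p M,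
        ¬ p ∣ ((P : Subgroup M).map M.subtype).index ∧
        ∀ A : Subgroup G, Cfsg.IsSCN ((P : Subgroup M).map M.subtype) A → ¬ Cfsg.PRankLE p 2 ↥A →
          A ≤ Cfsg.fittingOf M ∧ Cfsg.InUniqueMaximal A) := by
  have hA₀p : IsPGroup p A₀ := Cfsg.Agent.Lib.Uniq.isPGroup_of_isElementaryAbelian hA₀e
  have hp : p.Prime := Fact.out
  have hpF : p ∣ Nat.card (Cfsg.fittingOf M) := by
    obtain ⟨k, hk⟩ := IsPGroup.iff_card.mp hA₀p
    have hk3 : 3 ≤ k := by
      rw [hk] at hA₀3
      exact (Nat.pow_le_pow_iff_right hp.one_lt).mp hA₀3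
    have : p ∣ Nat.card A₀ := by
      rw [hk]
      exact dvd_pow_self p (by omega)
    exact this.trans (Subgroup.card_dvd_of_le hA₀)
  exact ⟨fun hnp => Cfsg.Agent.Lib.Uniq.s1397a hG hM hA₀ hA₀e hA₀3 hnp,
    fun hpg P => Cfsg.Agent.Lib.Uniq.s1397b hG hM hpF hpg P⟩

end Cfsg.Agent.S1397
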