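import Cfsg.Statements.S1398
import Mathlib
import Cfsg.Agent.Lib.Uniq.Scheme
import Cfsg.Agent.Lib.Hall.Generation

set_option autoImplicit false
open Cfsg

namespace Cfsg.Agent.S1398

/-- Let G be a minimal simple group of odd order, M a maximal subgroup, p a prime, and B a noncyclic elementary abelian p-subgroup of M. If C_G(b) ≤ M for every non-identity b ∈ B, or if every subgroup of G of order coprime to p normalized by B is contained in M, then M is the only maximal subgroup of G containing B. -/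
theorem result {G : Type*} [Group G] [Finite G] (hG : Cfsg.IsMinSimpleOddOrder G)
    (M : Subgroup G) (hM : IsCoatom M) (p : ℕ) [Fact p.Prime] (B : Subgroup G) (hBM : B ≤ M)
    (hBe : Cfsg.IsElementaryAbelian p B) (hBnc : ¬ IsCyclic B)
    (h : (∀ b ∈ B, b ≠ 1 → Subgroup.centralizer ({b} : Set G) ≤ M) ∨
      ∀ Y ∈ Cfsg.invSubgroups ⊤ B (Cfsg.primesNotDvd p), Y ≤ M) :
    Cfsg.InUniqueMaximal B := by
  classical
  have hp : p.Prime := Fact.out
  have hBp : IsPGroup p B := Cfsg.Agent.Lib.Uniq.isPGroup_of_isElementaryAbelian hBe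
  have hB1 : B ≠ ⊥ := by
    rintro rfl
    apply hBnc
    infer_instance
  have hpd : p ∣ Nat.card B := Cfsg.Agent.Lib.Uniq.prime_dvd_card_of_ne_bot hBp hB1
  have hp2 : p ≠ 2 := Cfsg.Agent.Lib.Uniq.odd_prime_of_dvd hG (hpd.trans (Subgroup.card_subgroup_dvd_card B))
  refine Cfsg.Agent.Lib.Uniq.inUniqueMaximal_of_inv_le hG hM hp2 hBp hB1 hBM ?_
  intro Y hYc hBY
  rcases h with h | h
  · -- generation
    obtain ⟨k, hk⟩ := IsPGroup.iff_card.mp hBp
    have hk2 : 2 ≤ k := by
      by_contra hlt
      apply hBnc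
      have hk1 : k = 1 := by
        have : k ≠ 0 := by
          rintro rfl
          rw [pow_zero] at hk
          exact hB1 (Subgroup.eq_bot_of_card_eq _ hk)
        omega
      subst hk1
      rw [pow_one] at hk
      haveI := Fact.mk (show (Nat.card B).Prime by rw [hk]; exact hp)
      exact isCyclic_of_prime_card rfl
    obtain ⟨E, hEB, hE2⟩ := Cfsg.Agent.Lib.Uniq.exists_le_card_of_dvd (E := B) (p := p) (n := 2) (by
      rw [hk]; exact pow_dvd_pow p hk2)
    have hgen := Cfsg.Agent.Lib.Hall.generation_elementary hp hE2 (fun x hx => hBe.2 x (hEB hx))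
      (Nat.card Y) Y le_rfl (hEB.trans hBY) hYc.symm
    rw [← hgen]
    refine iSup₂_le fun a ha => ?_
    exact inf_le_right.trans (h a (hEB ha.1) ha.2)
  · refine h Y ⟨le_top, fun r hr hrd => ⟨hr, fun hrp => ?_⟩, hBY⟩
    have : r = p := (Nat.prime_dvd_prime_iff_eq hr hp).mp hrp
    subst this
    exact (Nat.Prime.coprime_iff_not_dvd hr).mp hYc.symm hrd

end Cfsg.Agent.S1398
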