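import Cfsg.Statements.S1404
import Mathlib
import Cfsg.Agent.Lib.Uniq.Sigma

set_option autoImplicit false
open Cfsg

namespace Cfsg.Agent.S1404

/-- Let G be a minimal simple group of odd order, M a maximal subgroup, p a prime in σ(M), and X a nontrivial p-subgroup of M. If gXg⁻¹ ≤ M for some g ∈ G then g = m c with m ∈ M and c ∈ C_G(X); and the normalizer of X is generated by N_M(X) and C_G(X). -/
theorem result {G : Type*} [Group G] [Finite G] (hG : Cfsg.IsMinSimpleOddOrder G)
    (M : Subgroup G) (hM : IsCoatom M) (p : ℕ) [Fact p.Prime] (hp : p ∈ Cfsg.sigma M)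
    (X : Subgroup G) (hXp : IsPGroup p X) (hX1 : X ≠ ⊥) (hXM : X ≤ M) :
    (∀ g : G, X.map (MulAut.conj g).toMonoidHom ≤ M → ∃ m ∈ M, ∃ c ∈ Subgroup.centralizer (X : Set G), g = m * c) ∧
      Subgroup.normalizer (X : Set G) = (M ⊓ Subgroup.normalizer (X : Set G)) ⊔ Subgroup.centralizer (X : Set G) := by
  classical
  have key : ∀ g : G, X.map (MulAut.conj g).toMonoidHom ≤ M → Cfsg.Agent.Lib.Uniq.McC M X g := fun g hg =>
    Cfsg.Agent.Lib.Uniq.sigma_fusion hG hM hp hXp hX1 hXM hg
  refine ⟨fun g hg => ?_, ?_⟩
  · obtain ⟨m, hm, c, hc, e⟩ := key g hg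
    exact ⟨m, hm, c, hc, e⟩
  · apply le_antisymm
    · intro g hg
      have h1 : X.map (MulAut.conj g).toMonoidHom = X := Cfsg.Agent.Lib.Core.conj_smul_eq_self_of_mem_normalizer hg
      obtain ⟨m, hm, c, hc, rfl⟩ := key g (by rw [h1]; exact hXM)
      have hcN : c ∈ Subgroup.normalizer (X : Set G) := by
        rw [Subgroup.mem_normalizer_iff]
        intro x
        constructor
        · intro hx
          have hcx : x * c = c * x := Subgroup.mem_centralizer_iff.mp hc x hx
          have e2 : c * x * c⁻¹ = x := by rw [← hcx]; group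
          rwa [e2]
        · intro hx
          have hcx := Subgroup.mem_centralizer_iff.mp hc _ hx
          have e2 : c * x * c⁻¹ * c = c * (c * x * c⁻¹) := hcx
          have e3 : x = c * x * c⁻¹ := by
            have : c⁻¹ * (c * x * c⁻¹ * c) = c⁻¹ * (c * (c * x * c⁻¹)) := by rw [e2]
            simpa [mul_assoc] using this
          rwa [e3]
      have hmN : m ∈ Subgroup.normalizer (X : Set G) := by
        have e : m = (m * c) * c⁻¹ := by group
        rw [e]
        exact mul_mem hg (inv_mem hcN)
      exact Subgroup.mul_mem _ (Subgroup.mem_sup_left ⟨hm, hmN⟩) (Subgroup.mem_sup_right hc)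
    · refine sup_le inf_le_right ?_
      intro c hc
      rw [Subgroup.mem_normalizer_iff]
      intro x
      constructor
      · intro hx
        have hcx : x * c = c * x := Subgroup.mem_centralizer_iff.mp hc x hx
        have e2 : c * x * c⁻¹ = x := by rw [← hcx]; group
        rwa [e2]
      · intro hx
        have hcx := Subgroup.mem_centralizer_iff.mp hc _ hx
        have e2 : c * x * c⁻¹ * c = c * (c * x * c⁻¹) := hcx
        have e3 : x = c * x * c⁻¹ := by
          have : c⁻¹ * (c * x * c⁻¹ * c) = c⁻¹ * (c * (c * x * c⁻¹)) := by rw [e2]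
          simpa [mul_assoc] using this
        rwa [e3]

end Cfsg.Agent.S1404
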