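import Cfsg.Statements.S1445
import Mathlib
import Cfsg.Agent.Lib.OddLocal.FitOdd

set_option autoImplicit false
open Cfsg

namespace Cfsg.Agent.S1445

open scoped commutatorElement
open Subgroup Cfsg.Agent.Lib.OddLocal Cfsg.Agent.Lib.PGroup.HH Cfsg.Agent.Lib.Core

/-- Let G be a solvable group of odd order, K a normal subgroup and R a subgroup with G = KR and the orders of K and R coprime. Suppose K ∩ C_G(x) = K ∩ C_G(R) for every non-identity x ∈ R, and F(K) ∩ C_G(R) = 1. Then [K, R] is contained in the Fitting subgroup of K. -/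
theorem result {G : Type*} [Group G] [Finite G] [Group.IsSolvable G] (hodd : Odd (Nat.card G)) (K R : Subgroup G) [K.Normal] (hKR : K ⊔ R = ⊤) (hcop : (Nat.card K).Coprime (Nat.card R))
    (hprime : ∀ x ∈ R, x ≠ 1 → K ⊓ Subgroup.centralizer ({x} : Set G) = (K ⊓ Subgroup.centralizer (R : Set G)))
    (hF : Cfsg.fittingOf K ⊓ Subgroup.centralizer (R : Set G) = ⊥) :
    ⁅K, R⁆ ≤ Cfsg.fittingOf K := by
  classical
  rw [Subgroup.commutator_le]
  intro k hk r hr
  by_cases hr1 : r = 1
  · subst hr1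
    simp
  haveI hK : Group.IsSolvable K := inferInstance
  have hor : orderOf r ≠ 1 := fun h => hr1 (orderOf_eq_one_iff.mp h)
  have hor0 : orderOf r ≠ 0 := (orderOf_pos r).ne'
  let p := (orderOf r).minFac
  have hp : p.Prime := Nat.minFac_prime hor
  haveI hpF : Fact p.Prime := ⟨hp⟩
  let x : G := r ^ (orderOf r / p)
  have hxo : orderOf x = p := orderOf_pow_orderOf_div hor0 (Nat.minFac_dvd _)
  have hxR : x ∈ R := R.pow_mem hr _
  have hx1 : x ≠ 1 := by
    intro h
    rw [h, orderOf_one] at hxo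
    exact hp.one_lt.ne hxo
  have hpR : p ∣ Nat.card R := by
    have : orderOf (⟨x, hxR⟩ : R) = p := by
      rw [Subgroup.orderOf_mk, hxo]
    rw [← this]
    exact orderOf_dvd_natCard _
  have hpK : p.Coprime (Nat.card K) :=
    (Nat.Coprime.coprime_dvd_left hpR hcop.symm)
  have hp2 : p ≠ 2 := by
    rintro hp2
    have h2 : 2 ∣ Nat.card G := by
      rw [← hp2]
      exact hpR.trans (Subgroup.card_subgroup_dvd_card R)
    exact (Nat.not_even_iff_odd.mpr hodd) (even_iff_two_dvd.mpr h2)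
  have hoddK : Odd (Nat.card K) :=
    Odd.of_dvd_nat hodd (Subgroup.card_subgroup_dvd_card K)
  let σ : K ≃* K := MulAut.conjNormal x
  have hσc : ∀ g : K, ((σ g : K) : G) = x * g * x⁻¹ := fun g => MulAut.conjNormal_apply x g
  have hxp : x ^ p = 1 := by rw [← hxo]; exact pow_orderOf_eq_one x
  have hσp : ∀ g, σ^[p ^ (0 + 1)] g = g := by
    intro g
    rw [← mulAut_pow_apply, zero_add, pow_one]
    have : (σ : MulAut K) ^ p = 1 := by
      show (MulAut.conjNormal x) ^ p = 1
      rw [← map_pow, hxp, map_one]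
    rw [this]
    rfl
  have hC : ∀ c : K, σ c = c → ∀ y ∈ R, (c : G) * y = y * c := by
    intro c hc y hy
    have h1 : x * c * x⁻¹ = c := by
      rw [← hσc, hc]
    have h2 : (c : G) ∈ K ⊓ centralizer ({x} : Set G) := by
      refine ⟨c.2, ?_⟩
      show (c : G) ∈ centralizer ({x} : Set G)
      rw [Subgroup.mem_centralizer_singleton_iff]
      exact (mul_inv_eq_iff_eq_mul.mp h1).symm
    rw [hprime x hxR hx1] at h2
    have h3 := (Subgroup.mem_centralizer_iff.mp h2.2) y hy
    exact h3.symm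
  have hfpf : ∀ g ∈ fittingSubgroup K, σ g = g → g = 1 := by
    intro g hg h
    have h1 : (g : G) ∈ fittingOf K ⊓ centralizer (R : Set G) := by
      refine ⟨⟨g, hg, rfl⟩, ?_⟩
      show (g : G) ∈ centralizer (R : Set G)
      rw [Subgroup.mem_centralizer_iff]
      intro y hy
      exact (hC g h y hy).symm
    rw [hF, Subgroup.mem_bot] at h1
    exact Subtype.ext h1
  let k' : K := ⟨k, hk⟩
  have hkey := key_claim_odd hoddK (n := 0) hp hp2 hpK σ hfpf hσp k'
  have hFσ : ∀ a ∈ fittingSubgroup K, σ a ∈ fittingSubgroup K := fun a ha =>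
    (Subgroup.characteristic_iff_le_comap.mp (fittingSubgroup_characteristic K) σ) ha
  have hcF : p.Coprime (Nat.card (fittingSubgroup K)) :=
    Nat.Coprime.coprime_dvd_right (Subgroup.card_subgroup_dvd_card _) hpK
  obtain ⟨c, hc, hcm⟩ := exists_fix_of_coset (fittingSubgroup K) σ hFσ hp hσp hcF k' (by simpa using hkey)
  -- the element `f`
  let f : K := c⁻¹ * k'
  have hf : f ∈ fittingSubgroup K := by
    have := (fittingSubgroup K).inv_mem hcm
    simpa [f] using this
  let τ : K ≃* K := MulAut.conjNormal r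
  have hτc : ∀ g : K, ((τ g : K) : G) = r * g * r⁻¹ := fun g => MulAut.conjNormal_apply r g
  have hτF : τ f⁻¹ ∈ fittingSubgroup K :=
    (Subgroup.characteristic_iff_le_comap.mp (fittingSubgroup_characteristic K) τ) ((fittingSubgroup K).inv_mem hf)
  have hu : c * (f * τ f⁻¹) * c⁻¹ ∈ fittingSubgroup K :=
    (fittingSubgroup_normal K).conj_mem _ ((fittingSubgroup K).mul_mem hf hτF) c
  refine ⟨_, hu, ?_⟩
  have hcr : (c : G) * r = r * c := hC c hc r hr
  show ((c * (f * τ f⁻¹) * c⁻¹ : K) : G) = ⁅k, r⁆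
  rw [Subgroup.coe_mul, Subgroup.coe_mul, Subgroup.coe_mul, hτc, commutatorElement_def]
  have hfc : (f : G) = (c : G)⁻¹ * k := rfl
  have hcinv : r⁻¹ * (c : G)⁻¹ = (c : G)⁻¹ * r⁻¹ := by
    rw [← mul_inv_rev, ← mul_inv_rev, hcr]
  simp only [Subgroup.coe_inv, hfc]
  calc (c : G) * ((c : G)⁻¹ * k * (r * ((c : G)⁻¹ * k)⁻¹ * r⁻¹)) * (c : G)⁻¹
      = k * r * k⁻¹ * ((c : G) * r⁻¹ * (c : G)⁻¹) := by group
    _ = k * r * k⁻¹ * r⁻¹ := by
        rw [mul_assoc (c : G), hcinv, ← mul_assoc (c : G)]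
        simp

end Cfsg.Agent.S1445
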