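import Cfsg.Statements.S1446
import Mathlib
import Cfsg.Agent.Lib.FrobFix.Cent

set_option autoImplicit false
open Cfsg

namespace Cfsg.Agent.S1446

-- Frobenius groups acting on nilpotent groups with a constant centralizer for the complement.


/-- Let X be a finite group with subgroups K, R, M such that: K and R are nontrivial, K ∩ R = 1, R normalizes K, no non-identity element of R centralizes a non-identity element of K, K ⊔ R is solvable of odd order; M is nilpotent and nontrivial, normalized by K and by R, with order coprime to that of K ⊔ R, M ∩ C(K) = 1, and M ∩ C(x) = M ∩ C(R) for all non-identity x ∈ R. Then R has prime order p, #M = #(M ∩ C(R)) ^ p, and if M ∩ C(R) is cyclic then [K, K] centralizes M. -/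
theorem result {X : Type*} [Group X] [Finite X] (K R M : Subgroup X) (hK1 : K ≠ ⊥) (hR1 : R ≠ ⊥) (hKR : K ⊓ R = ⊥)
    (hRK : R ≤ Subgroup.normalizer (K : Set X)) (hfrob : ∀ r ∈ R, r ≠ 1 → K ⊓ Subgroup.centralizer ({r} : Set X) = ⊥)
    (hsolv : Group.IsSolvable ↥(K ⊔ R)) (hodd : Odd (Nat.card ↥(K ⊔ R)))
    (hM1 : M ≠ ⊥) (hMn : Group.IsNilpotent M) (hKM : K ≤ Subgroup.normalizer (M : Set X)) (hRM : R ≤ Subgroup.normalizer (M : Set X))
    (hcop : (Nat.card ↥(K ⊔ R)).Coprime (Nat.card M)) (hCK : M ⊓ Subgroup.centralizer (K : Set X) = ⊥)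
    (hpr : ∀ x ∈ R, x ≠ 1 → M ⊓ Subgroup.centralizer ({x} : Set X) = M ⊓ Subgroup.centralizer (R : Set X)) :
    (Nat.card R).Prime ∧ Nat.card M = Nat.card ↥(M ⊓ Subgroup.centralizer (R : Set X)) ^ Nat.card R ∧
      (IsCyclic ↥(M ⊓ Subgroup.centralizer (R : Set X)) → ⁅K, K⁆ ≤ Subgroup.centralizer (M : Set X)) := by
  classical
  have hUn : ∀ e ∈ R, ∀ u ∈ K, e * u * e⁻¹ ∈ K := by
    intro e he u hu
    exact (Subgroup.mem_normalizer_iff.1 (hRK he) u).1 hu
  have hfpf : ∀ e ∈ R, e ≠ 1 → ∀ u ∈ K, e * u = u * e → u = 1 := by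
    intro e he he1 u hu hcomm
    have h1 : u ∈ K ⊓ Subgroup.centralizer ({e} : Set X) :=
      ⟨hu, Subgroup.mem_centralizer_singleton_iff.2 hcomm.symm⟩
    rw [hfrob e he he1] at h1
    exact h1
  have hIM : ∀ x ∈ K ⊔ R, ∀ h ∈ M, x * h * x⁻¹ ∈ M := by
    intro x hx h hh
    have h1 : K ⊔ R ≤ Subgroup.normalizer (M : Set X) := sup_le hKM hRM
    exact (Subgroup.mem_normalizer_iff.1 (h1 hx) h).1 hh
  haveI := hMn
  have hMsolv : Group.IsSolvable M := inferInstance
  have hcopM := hcop.symm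
  have hCK' : ∀ T : Subgroup X, K ≤ T → M ⊓ Subgroup.centralizer (T : Set X) = ⊥ := by
    intro T hT
    rw [eq_bot_iff, ← hCK]
    exact inf_le_inf_left _ (Subgroup.centralizer_le hT)
  have h2 : Nat.card M = Nat.card ↥(M ⊓ Subgroup.centralizer (R : Set X)) ^ Nat.card R := by
    have h := Cfsg.Agent.Lib.FrobFix.main_count K R hR1 hUn hfpf _ M le_rfl hIM hMsolv hcopM
    rw [hCK' _ le_sup_left, hCK, Subgroup.card_bot, one_pow, one_mul, mul_one] at h
    exact h
  have hM1' : Nat.card M ≠ 1 := fun h => hM1 (Subgroup.eq_bot_of_card_eq M h)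
  have hbase : 2 ≤ Nat.card ↥(M ⊓ Subgroup.centralizer (R : Set X)) := by
    have h3 : 0 < Nat.card ↥(M ⊓ Subgroup.centralizer (R : Set X)) := Nat.card_pos
    by_contra h4
    have h5 : Nat.card ↥(M ⊓ Subgroup.centralizer (R : Set X)) = 1 := by omega
    rw [h5, one_pow] at h2
    exact hM1' h2
  have hord : ∀ x ∈ R, x ≠ 1 → orderOf x = Nat.card R := by
    intro x hx hx1
    have hzR : Subgroup.zpowers x ≤ R := Subgroup.zpowers_le.2 hx
    have hzc : Subgroup.centralizer ((Subgroup.zpowers x : Subgroup X) : Set X) =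
        Subgroup.centralizer ({x} : Set X) := by
      ext y
      simp only [Subgroup.mem_centralizer_iff]
      constructor
      · intro h g hg
        rw [Set.mem_singleton_iff.1 hg]
        exact h x (Subgroup.mem_zpowers x)
      · rintro h _ ⟨n, rfl⟩
        have h5 : Commute x y := h x rfl
        exact h5.zpow_left n
    have h := Cfsg.Agent.Lib.FrobFix.main_count K (Subgroup.zpowers x)
      (Subgroup.zpowers_ne_bot.2 hx1)
      (fun e he u hu => hUn e (hzR he) u hu)
      (fun e he he1 u hu hh => hfpf e (hzR he) he1 u hu hh) _ M le_rfl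
      (fun y hy h hh => hIM y (sup_le_sup_left hzR K hy) h hh) hMsolv
      (Nat.Coprime.coprime_dvd_right (Subgroup.card_dvd_of_le (sup_le_sup_left hzR K)) hcopM)
    rw [hCK' _ le_sup_left, hCK, Subgroup.card_bot, one_pow, one_mul, mul_one, hzc,
      hpr x hx hx1, Nat.card_zpowers, h2] at h
    exact (Nat.pow_right_injective hbase h).symm
  refine ⟨?_, h2, ?_⟩
  · have hRne : Nat.card R ≠ 1 := fun h => hR1 (Subgroup.eq_bot_of_card_eq R h)
    obtain ⟨p, hp, hpd⟩ := Nat.exists_prime_and_dvd hRne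
    haveI : Fact p.Prime := ⟨hp⟩
    obtain ⟨x, hx⟩ := exists_prime_orderOf_dvd_card' p hpd
    have hx1 : (x : X) ≠ 1 := by
      intro h
      have h3 : x = 1 := Subtype.ext h
      rw [h3, orderOf_one] at hx
      exact hp.one_lt.ne hx
    have h3 := hord x x.2 hx1
    rw [Subgroup.orderOf_coe, hx] at h3
    rw [← h3]
    exact hp
  · intro hcyc
    rw [Subgroup.commutator_le]
    intro a ha b hb
    rw [Subgroup.mem_centralizer_iff]
    intro y hy
    exact (Cfsg.Agent.Lib.FrobFix.deriv_cent K R M hR1 hUn hfpf hMsolv hcopM hCK hcyc _ M le_rfl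
      le_rfl hIM a ha b hb y hy).symm

end Cfsg.Agent.S1446
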