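import Cfsg.Statements.S1458
import Mathlib
import Cfsg.Agent.Lib.PLocal.GTe
import Cfsg.Agent.Lib.Transfer.ThompsonFact
import Cfsg.Agent.Lib.Core.Basic

set_option autoImplicit false
open Cfsg

namespace Cfsg.Agent.S1458

/-- Let G be a solvable group of odd order, p a prime and S a Sylow p-subgroup of G. Then the subgroup generated by the centre of the Thompson subgroup of S and O_{p'}(G) is normal in G. -/
theorem result {G : Type*} [Group G] [Finite G] [Group.IsSolvable G] (hodd : Odd (Nat.card G)) (p : ℕ) [Fact p.Prime] (S : Sylow p G) :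
    (Cfsg.centerThompsonOf p (S : Subgroup G) ⊔ Cfsg.pPrimeCore p G).Normal := by
  classical
  by_cases hp : p = 2
  · subst hp
    have hcop : (Nat.card (⊤ : Subgroup G)).Coprime 2 := by
      rw [Subgroup.card_top]
      exact Nat.coprime_two_right.2 hodd
    have htop : Cfsg.pPrimeCore 2 G = ⊤ := top_le_iff.1 (Cfsg.Agent.Lib.Core.le_pPrimeCore (inferInstance) hcop)
    rw [htop, sup_top_eq]
    infer_instance
  set N := Cfsg.pPrimeCore p G with hN
  haveI hNn : N.Normal := by rw [hN]; infer_instance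
  have hpp : p.Prime := Fact.out
  set f := QuotientGroup.mk' N with hf
  have hfs : Function.Surjective f := QuotientGroup.mk'_surjective N
  have hsolv : Group.IsSolvable (G ⧸ N) := inferInstance
  have hO' : Cfsg.pPrimeCore p (G ⧸ N) = ⊥ := Cfsg.Agent.Lib.Core.pPrimeCore_quotient_eq_bot
  have hc : Subgroup.centralizer (Cfsg.pCore p (G ⧸ N) : Set (G ⧸ N)) ≤ Cfsg.pCore p (G ⧸ N) :=
    Cfsg.Agent.Lib.PSolv.centralizer_pCore_le (Cfsg.Agent.Lib.CharExtra.pStep_of_isSolvable hpp) hO'
  have hoddq : Odd (Nat.card (G ⧸ N)) := by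
    have : Nat.card (G ⧸ N) ∣ Nat.card G := by
      rw [← Subgroup.index_eq_card]; exact Subgroup.index_dvd_card N
    exact Odd.of_dvd_nat hodd this
  have h2 : ∀ T : Sylow 2 (G ⧸ N), IsMulCommutative T := by
    intro T
    have h1 : Nat.card T = 1 := by
      obtain ⟨k, hk⟩ := IsPGroup.iff_card.mp T.isPGroup'
      rcases k with _ | k
      · simpa using hk
      · exfalso
        have : 2 ∣ Nat.card (T : Subgroup (G ⧸ N)) := by rw [hk]; exact dvd_pow_self 2 (by omega)
        have h3 := this.trans (Subgroup.card_subgroup_dvd_card (T : Subgroup (G ⧸ N)))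
        have := (Nat.odd_iff.mp hoddq)
        omega
    have hbot : (T : Subgroup (G ⧸ N)) = ⊥ := (Subgroup.card_eq_one).1 h1
    refine ⟨⟨fun a b => ?_⟩⟩
    have ha : (a : G ⧸ N) = 1 := by
      have h : ∀ t ∈ (T : Subgroup (G ⧸ N)), t = 1 := fun t ht => by
        rw [hbot] at ht; exact Subgroup.mem_bot.1 ht
      exact h _ a.2
    have hb : (b : G ⧸ N) = 1 := by
      have h : ∀ t ∈ (T : Subgroup (G ⧸ N)), t = 1 := fun t ht => by
        rw [hbot] at ht; exact Subgroup.mem_bot.1 ht
      exact h _ b.2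
    exact Subtype.ext (by rw [Subgroup.coe_mul, Subgroup.coe_mul, ha, hb])
  have hNo : Cfsg.Agent.Lib.PLocal.QuadMat.NoSL2 p (G ⧸ N) :=
    Cfsg.Agent.Lib.Transfer.noSL2_of_solvable hp hsolv (fun _ T => h2 T)
  have hZ := Cfsg.Agent.Lib.PLocal.zje_normal hp (S.mapSurjective hfs) hc
    (fun W _ hW a _ hq => Cfsg.Agent.Lib.PLocal.QuadMat.isPStableOn_pgroup_of_noSL2 hp hNo W hW a hq)
  have hinj : ∀ x ∈ (S : Subgroup G), f x = 1 → x = 1 := by
    intro x hx h
    have hxN : x ∈ N := by
      rwa [hf, QuotientGroup.mk'_apply, QuotientGroup.eq_one_iff] at h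
    obtain ⟨k, hk⟩ := (IsPGroup.iff_orderOf.mp S.isPGroup') ⟨x, hx⟩
    have h1 : orderOf x = p ^ k := by simpa [Subgroup.orderOf_mk] using hk
    have h2 : orderOf x ∣ Nat.card N := by
      have := Subgroup.orderOf_dvd_natCard N hxN
      exact this
    have hcop : (Nat.card N).Coprime (p ^ k) :=
      Nat.Coprime.pow_right k (Cfsg.Agent.Lib.Core.pPrimeCore_coprime p G)
    have h3 : orderOf x = 1 := Nat.eq_one_of_dvd_coprimes hcop h2 (by rw [h1])
    exact orderOf_eq_one_iff.mp h3
  rw [Sylow.coe_mapSurjective, Cfsg.Agent.Lib.PLocal.GT.centerThompsonOf_map_of_injOn f hinj] at hZ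
  have hmap := hZ.comap f
  have hkey : (Cfsg.centerThompsonOf p (S : Subgroup G) ⊔ N) =
      ((Cfsg.centerThompsonOf p (S : Subgroup G)).map f).comap f := by
    rw [Subgroup.comap_map_eq, hf, QuotientGroup.ker_mk']
  rw [hkey]
  exact hmap

end Cfsg.Agent.S1458
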