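import Cfsg.Statements.S1459
import Mathlib
import Cfsg.Agent.Lib.OddLocal.Comm

set_option autoImplicit false
open Cfsg

namespace Cfsg.Agent.S1459

/-- Let G be a finite solvable group. (a) If H is a normal subgroup of order coprime to its index, K is a complement to H, and H ≤ G', then H = [H, K] and H ∩ C_G(K) ≤ [H, H]. (b) If G' is nilpotent and has prime index in G, then the order of G' is coprime to its index and G' = [G, K] (the subgroup generated by commutators of elements of G with elements of K) for every complement K of G'. -/
theorem result {G : Type*} [Group G] [Finite G] [Group.IsSolvable G] :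
    (∀ (H K : Subgroup G), H.Normal → (Nat.card H).Coprime H.index → Subgroup.IsComplement' H K → H ≤ commutator G →
        H = ⁅H, K⁆ ∧ H ⊓ Subgroup.centralizer (K : Set G) ≤ ⁅H, H⁆) ∧
      (Group.IsNilpotent ↥(commutator G) → (commutator G).index.Prime →
        (Nat.card ↥(commutator G)).Coprime (commutator G).index ∧
        ∀ K : Subgroup G, Subgroup.IsComplement' (commutator G) K → commutator G = ⁅(⊤ : Subgroup G), K⁆) := by
  open Cfsg.Agent.Lib.OddLocal in
  have ha : ∀ (H K : Subgroup G), H.Normal → (Nat.card H).Coprime H.index → Subgroup.IsComplement' H K → H ≤ commutator G →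
        H = ⁅H, K⁆ ∧ H ⊓ Subgroup.centralizer (K : Set G) ≤ ⁅H, H⁆ := by
    intro H K hn hc hK hle
    haveI := hn
    have h1 : H ⊔ K = ⊤ := hK.sup_eq_top
    have h2 : H ⊓ K = ⊥ := disjoint_iff.mp hK.disjoint
    have hsol : Group.IsSolvable H := inferInstance
    have h3 : Nat.card K = H.index := hK.symm.index_eq_card.symm
    refine ⟨eq_commutator_of_le h1 hsol hle h2, inf_centralizer_le_commutator h1 hsol hle h2 ?_⟩
    rw [h3]
    exact hc.symm
  refine ⟨ha, fun hn hp => ?_⟩
  have hc := coprime_of_index_prime hn hp
  refine ⟨hc, fun K hK => ?_⟩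
  have h1 := (ha (commutator G) K inferInstance hc hK le_rfl).1
  apply le_antisymm
  · rw [h1]
    exact Subgroup.commutator_mono le_top le_rfl
  · rw [commutator_def]
    exact Subgroup.commutator_mono le_rfl le_top

end Cfsg.Agent.S1459
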