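import Cfsg.Statements.S1475
import Mathlib
import Cfsg.Agent.Lib.OddLocal.CP

set_option autoImplicit false
open Cfsg

namespace Cfsg.Agent.S1475

/-- Let G be a finite solvable group such that the order of every element is a prime power (1 included). Then at most two distinct primes divide the order of G. -/
theorem result {G : Type*} [Group G] [Finite G] [Group.IsSolvable G] (h : ∀ g : G, IsPrimePow (orderOf g) ∨ g = 1) :
    (Nat.card G).primeFactors.card ≤ 2 := by
  exact Cfsg.Agent.Lib.OddLocal.primeFactors_card_le_two h inferInstance

end Cfsg.Agent.S1475
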