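import Cfsg.Statements.S1484
import Mathlib
import Cfsg.Agent.Lib.OddLocal.CN6

set_option autoImplicit false
open Cfsg

namespace Cfsg.Agent.S1484

/-- Let G be a minimal simple group of odd order in which every non-identity element has nilpotent centralizer, and M₁, …, M_k maximal subgroups, pairwise non-conjugate, such that every maximal subgroup is conjugate to some M_i. Let H_i be the largest normal nilpotent Hall subgroup of M_i. Then the orders of the H_i are pairwise coprime, their product is the order of G, and every element of G is conjugate to an element of some H_i. -/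
theorem result {G : Type*} [Group G] [Finite G] (hG : Cfsg.IsMinSimpleOddOrder G) (hCN : Cfsg.IsCNGroup G) (k : ℕ) (Mrep : Fin k → Subgroup G) (hmax : ∀ i, IsCoatom (Mrep i))
    (hnc : ∀ i j, i ≠ j → ∀ g : G, Mrep j ≠ (Mrep i).map (MulAut.conj g).toMonoidHom) (hall : ∀ M : Subgroup G, IsCoatom M → ∃ i, ∃ g : G, M = (Mrep i).map (MulAut.conj g).toMonoidHom) :
    (∀ i j, i ≠ j → (Nat.card (Cfsg.fittingHallOf (Mrep i))).Coprime (Nat.card (Cfsg.fittingHallOf (Mrep j)))) ∧
      ∏ i, Nat.card (Cfsg.fittingHallOf (Mrep i)) = Nat.card G ∧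
      ∀ x : G, ∃ i, ∃ g : G, g * x * g⁻¹ ∈ Cfsg.fittingHallOf (Mrep i) := by
  exact Cfsg.Agent.Lib.OddLocal.s1484_main hG hCN k Mrep hmax hnc hall

end Cfsg.Agent.S1484
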