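import Cfsg.Statements.S1487
import Cfsg.Agent.Lib.OddChar.Basic

set_option autoImplicit false
open Cfsg

namespace Cfsg.Agent.S1487

/-- Let A ≤ H be normal subgroups of the finite group G and θ an irreducible character of H. Then θ takes the value θ 1 on all of A if and only if the function induced from θ to G takes its value at 1 on all of A. -/
theorem result {G : Type*} [Group G] [Fintype G] (A H : Subgroup G) [A.Normal] [H.Normal] (hAH : A ≤ H) (θ : H → ℂ) (hθ : Cfsg.IsIrrCharacter H θ) : (∀ a : H, (a : G) ∈ A → θ a = θ 1) ↔ (∀ a : G, a ∈ A → Cfsg.indFun H θ a = Cfsg.indFun H θ 1) := by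
  open Cfsg.Agent.Lib.Char Cfsg.Agent.Lib.OddChar in
  have hθc := IsIrrCharacter.isCharacter hθ
  have hmem : ∀ a ∈ A, ∀ x : G, x⁻¹ * a * x ∈ H := by
    intro a ha x
    apply hAH
    have := ‹A.Normal›.conj_mem a ha x⁻¹
    simpa using this
  have hone : ∀ x : G, extendByZero H θ (x⁻¹ * 1 * x) = θ 1 := by
    intro x
    rw [extendByZero_of_mem _ _ (by simp)]
    congr 1
    apply Subtype.ext
    simp
  constructor
  · intro h a ha
    rw [indFun_apply, indFun_apply]
    congr 1
    refine Finset.sum_congr rfl fun x _ => ?_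
    rw [hone x, extendByZero_of_mem _ _ (hmem a ha x)]
    refine h _ ?_
    have := ‹A.Normal›.conj_mem a ha x⁻¹
    simpa using this
  · intro h a ha
    have h1 := h a ha
    rw [indFun_apply, indFun_apply] at h1
    have hc : (Nat.card H : ℂ)⁻¹ ≠ 0 := inv_ne_zero (card_ne_zero_complex H)
    have h2 := mul_left_cancel₀ hc h1
    simp only [hone] at h2
    have h3 := congrArg Complex.re h2
    simp only [Complex.re_sum] at h3
    have hle : ∀ x ∈ (Finset.univ : Finset G),
        (extendByZero H θ (x⁻¹ * (a : G) * x)).re ≤ (θ 1).re := by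
      intro x _
      rw [extendByZero_of_mem _ _ (hmem a ha x)]
      exact (Complex.re_le_norm _).trans (IsCharacter.norm_le' hθc _)
    have h4 := (Finset.sum_eq_sum_iff_of_le hle).mp h3 1 (Finset.mem_univ _)
    have h5 : extendByZero H θ ((1 : G)⁻¹ * (a : G) * 1) = θ a := by
      rw [extendByZero_of_mem _ _ (hmem a ha 1)]
      congr 1
      apply Subtype.ext
      simp
    rw [h5] at h4
    exact IsCharacter_eq_of_re_eq hθc h4

end Cfsg.Agent.S1487
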