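import Cfsg.Statements.S1488
import Cfsg.Agent.Lib.OddChar.Basic
import Cfsg.Agent.Lib.Degree.FSMore

set_option autoImplicit false
open Cfsg

namespace Cfsg.Agent.S1488

/-- Let A be a normal subgroup of the finite group G contained in the subgroup H, let θ be a function on H and θ₁ a function on the image of H in G ⧸ A whose composite with the projection is θ. Then the function induced from θ₁ to G ⧸ A, composed with the projection G → G ⧸ A, equals the function induced from θ to G. -/
theorem result {G : Type*} [Group G] [Fintype G] (A H : Subgroup G) [A.Normal] (hAH : A ≤ H) [Fintype (G ⧸ A)] [Fintype ↥(H.map (QuotientGroup.mk' A))] (θ : H → ℂ) (θ₁ : ↥(H.map (QuotientGroup.mk' A)) → ℂ) (hθ : ∀ x : H, θ₁ ⟨QuotientGroup.mk' A x, Subgroup.mem_map_of_mem _ x.2⟩ = θ x) (g : G) : Cfsg.indFun (H.map (QuotientGroup.mk' A)) θ₁ (QuotientGroup.mk' A g) = Cfsg.indFun H θ g := by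
  open Cfsg.Agent.Lib.Char Cfsg.Agent.Lib.OddChar in
  have hext : ∀ y : G, extendByZero H θ y =
      extendByZero (H.map (QuotientGroup.mk' A)) θ₁ (QuotientGroup.mk' A y) := by
    intro y
    by_cases hy : y ∈ H
    · rw [extendByZero_of_mem _ _ hy, extendByZero_of_mem _ _ (Subgroup.mem_map_of_mem _ hy)]
      exact (hθ ⟨y, hy⟩).symm
    · have hy' : QuotientGroup.mk' A y ∉ H.map (QuotientGroup.mk' A) := by
        rintro ⟨z, hz, hzy⟩
        apply hy
        have : z⁻¹ * y ∈ A := by
          rw [← QuotientGroup.eq]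
          exact hzy
        have h2 := H.mul_mem hz (hAH this)
        simpa using h2
      rw [extendByZero_of_not_mem _ _ hy, extendByZero_of_not_mem _ _ hy']
  have hcard : Nat.card H = Nat.card A * Nat.card ↥(H.map (QuotientGroup.mk' A)) := by
    have hc : H = (H.map (QuotientGroup.mk' A)).comap (QuotientGroup.mk' A) := by
      rw [Subgroup.comap_map_eq_self]
      rwa [QuotientGroup.ker_mk']
    have hi : H.index = (H.map (QuotientGroup.mk' A)).index := by
      conv_lhs => rw [hc]
      exact Subgroup.index_comap_of_surjective _ (QuotientGroup.mk'_surjective A)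
    have h1 := H.card_mul_index
    have h2 := (H.map (QuotientGroup.mk' A)).card_mul_index
    have h3 := A.card_eq_card_quotient_mul_card_subgroup
    rw [← h2, hi.symm] at h3
    rw [h3] at h1
    have hi0 : H.index ≠ 0 := Subgroup.index_ne_zero_of_finite
    apply Nat.eq_of_mul_eq_mul_right (Nat.pos_of_ne_zero hi0)
    rw [h1]
    ring
  rw [indFun_apply, indFun_apply]
  have hsum := Cfsg.Agent.Lib.Degree.sum_comp_mk A (fun q : G ⧸ A =>
    extendByZero (H.map (QuotientGroup.mk' A)) θ₁ (q⁻¹ * QuotientGroup.mk' A g * q))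
  have hsum2 : ∑ x : G, extendByZero H θ (x⁻¹ * g * x) =
      Nat.card A • ∑ q : G ⧸ A,
        extendByZero (H.map (QuotientGroup.mk' A)) θ₁ (q⁻¹ * QuotientGroup.mk' A g * q) := by
    rw [← hsum]
    refine Finset.sum_congr rfl fun x _ => ?_
    rw [hext]
    rfl
  rw [hsum2, hcard, Nat.cast_mul, nsmul_eq_mul]
  have hA : (Nat.card A : ℂ) ≠ 0 := card_ne_zero_complex A
  field_simp

end Cfsg.Agent.S1488
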