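import Cfsg.Statements.S1491
import Cfsg.Agent.Lib.OddChar.Inertia
import Cfsg.Agent.Lib.Coprime.CopDeg

set_option autoImplicit false
open Cfsg

namespace Cfsg.Agent.S1491

/-- Let H be a normal subgroup of the finite group G and θ an irreducible character of H with inertia group T, where T/H is abelian (commutators of T lie in H) and the index of H in T is coprime to the order of H. Then the function induced from θ is the sum of a set of exactly [T:H] irreducible characters of G, each of degree [G:T] * θ(1). -/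
theorem result {G : Type*} [Group G] [Fintype G] (H T : Subgroup G) [hN : H.Normal] (θ : H → ℂ) (hθ : Cfsg.IsIrrCharacter H θ) (hT : ∀ g : G, g ∈ T ↔ ∀ h : H, θ ⟨g * h * g⁻¹, hN.conj_mem h h.2 g⟩ = θ h) (hab : ∀ x ∈ T, ∀ y ∈ T, x * y * x⁻¹ * y⁻¹ ∈ H) (hcop : Nat.Coprime (Nat.card H) (H.relIndex T)) : ∃ C : Finset (G → ℂ), (∀ χ ∈ C, Cfsg.IsIrrCharacter G χ) ∧ C.card = H.relIndex T ∧ Cfsg.indFun H θ = ∑ χ ∈ C, χ ∧ ∀ χ ∈ C, χ 1 = (T.index : ℂ) * θ 1 := by
  open Cfsg.Agent.Lib.Char Cfsg.Agent.Lib.OddChar in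
  classical
  have : Fintype H := Fintype.ofFinite H
  have : Fintype T := Fintype.ofFinite T
  have hTeq : T = inertia hN θ := Subgroup.ext fun g => (hT g).trans (mem_inertia_iff hN θ g).symm
  have hHT : H ≤ T := by
    rw [hTeq]
    exact le_inertia hN (IsCharacter.isClassFunction (IsIrrCharacter.isCharacter hθ))
  obtain ⟨e, C, h1, h2, h3, h4, h5, h6⟩ := abelian_inertia hN hθ hTeq hab hHT
  have hcardN : Nat.card ↥(H.subgroupOf T) = Nat.card H := Nat.card_congr (subEquiv hHT).toEquiv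
  have hθ' : IsIrrCharacter ↥(H.subgroupOf T) (θ ∘ (subEquiv hHT)) := isIrr_comp_equiv _ hθ
  obtain ⟨ψ, hψ, hext⟩ := Cfsg.Agent.Lib.Coprime.exists_ext_of_coprime (H.subgroupOf T)
    (by rw [hcardN]; exact hcop.symm) hθ' (by
      intro t x
      have h7 : (t : G) ∈ inertia hN θ := hTeq ▸ t.2
      exact (mem_inertia_iff hN θ _).mp h7 ⟨((x : T) : G), Subgroup.mem_subgroupOf.mp x.2⟩)
  have hres : (fun n : H => ψ ⟨n, hHT n.2⟩) = θ := by
    funext n
    exact hext ⟨⟨n, hHT n.2⟩, Subgroup.mem_subgroupOf.mpr n.2⟩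
  have hψ1 := h6 ψ hψ (by rw [hres, classInner_irr_self hθ]; exact one_ne_zero)
  have hψ2 : ψ 1 = θ 1 := by
    have := congrFun hres 1
    exact this
  rw [hψ2] at hψ1
  have hθ1 : θ 1 ≠ 0 := map_one_ne_zero_of_irr hθ
  have he1 : (e : ℂ) = 1 := by
    have := hψ1
    apply mul_right_cancel₀ hθ1
    rw [one_mul]
    exact this.symm
  have he : e = 1 := by exact_mod_cast he1
  subst he
  refine ⟨C, h2, ?_, ?_, ?_⟩
  · have h8 := (H.subgroupOf T).card_mul_index
    rw [hcardN] at h8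
    have h9 : H.relIndex T = (H.subgroupOf T).index := rfl
    rw [h9]
    have hpos : 0 < Nat.card H := Nat.card_pos
    apply Nat.eq_of_mul_eq_mul_left hpos
    rw [h8, ← h3]
    ring
  · rw [h4]
    simp
  · intro χ hχ
    rw [h5 χ hχ]
    simp

end Cfsg.Agent.S1491
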