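import Cfsg.Statements.S1492
import Cfsg.Agent.Lib.OddChar.CentralBound

set_option autoImplicit false
open Cfsg

namespace Cfsg.Agent.S1492

/-- Let ψ be an irreducible character of the finite group G and B ≤ D ≤ C subgroups with B normal in C, every commutator of an element of D with an element of C lying in B (so D/B is central in C/B), and ψ constant equal to ψ 1 on B. Then ψ(1) ^ 2 * |C| * |D| ≤ |G| ^ 2. -/
theorem result {G : Type*} [Group G] [Finite G] (ψ : G → ℂ) (hψ : Cfsg.IsIrrCharacter G ψ) (B C D : Subgroup G) (hBD : B ≤ D) (hDC : D ≤ C) (hBn : ∀ c ∈ C, ∀ b ∈ B, c * b * c⁻¹ ∈ B) (hcent : ∀ d ∈ D, ∀ c ∈ C, d * c * d⁻¹ * c⁻¹ ∈ B) (hker : ∀ b ∈ B, ψ b = ψ 1) : ‖ψ 1‖ ^ 2 * (Nat.card C : ℝ) * (Nat.card D : ℝ) ≤ (Nat.card G : ℝ) ^ 2 := by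
  open Cfsg.Agent.Lib.Char Cfsg.Agent.Lib.OddChar in
  classical
  letI : Fintype G := Fintype.ofFinite G
  letI : Fintype C := Fintype.ofFinite C
  have hres := IsCharacter.restrict C (IsIrrCharacter.isCharacter hψ)
  have hne : (fun c : C => ψ c) ≠ 0 := by
    intro h
    have := congrFun h 1
    exact map_one_ne_zero_of_irr hψ (by simpa using this)
  obtain ⟨θ, hθ, hc⟩ := exists_constituent hres hne
  have hB : ∀ b ∈ {x : C | (x : G) ∈ B}, θ b = θ 1 := fun b hb =>
    constituent_trivial hψ C hθ hc b (hker b hb)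
  have hD : ∀ d ∈ D.subgroupOf C, ‖θ d‖ = (θ 1).re := fun d hd =>
    norm_eq_of_central_mod_ker hθ _ hB d (fun c => hcent _ hd _ c.2)
  have h1 := card_mul_sq_le_of_norm_eq hθ _ hD
  have h2 : Nat.card ↥(D.subgroupOf C) = Nat.card D :=
    Nat.card_congr (Subgroup.subgroupOfEquivOfLe hDC).toEquiv
  rw [h2] at h1
  exact sq_mul_card_mul_card_le hψ C hθ hc _ h1 (by positivity)

end Cfsg.Agent.S1492
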