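import Cfsg.Statements.S1493
import Cfsg.Agent.Lib.Degree.GaloisChar

set_option autoImplicit false
open Cfsg

namespace Cfsg.Agent.S1493

/-- Let G be a finite group of order a * b with a and b coprime, let k be coprime to a, and let χ be a character of G. Then there is a character χ' of G such that χ'(g) = χ(g ^ k) whenever the order of g divides a and χ'(g) = χ(g) whenever the order of g is coprime to a; moreover χ' is irreducible if χ is. -/
theorem result {G : Type*} [Group G] [Finite G] (a b k : ℕ) (hab : Nat.card G = a * b) (hcop : Nat.Coprime a b) (hk : Nat.Coprime k a) (χ : G → ℂ) (hχ : Cfsg.IsCharacter G χ) : ∃ χ' : G → ℂ, Cfsg.IsCharacter G χ' ∧ (Cfsg.IsIrrCharacter G χ → Cfsg.IsIrrCharacter G χ') ∧ (∀ g : G, orderOf g ∣ a → χ' g = χ (g ^ k)) ∧ (∀ g : G, Nat.Coprime (orderOf g) a → χ' g = χ g) := by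
  open Cfsg.Agent.Lib.Char Cfsg.Agent.Lib.Degree in
  classical
  letI : Fintype G := Fintype.ofFinite G
  obtain ⟨K, hKa, hKb⟩ := Nat.chineseRemainder hcop k 1
  have hKa' : K.Coprime a := by
    have := hKa.gcd_eq
    rwa [hk.gcd_eq_one] at this
  have hKb' : K.Coprime b := by
    have := hKb.gcd_eq
    rwa [Nat.gcd_one_left] at this
  have hKG : K.Coprime (Nat.card G) := hab ▸ Nat.Coprime.mul_right hKa' hKb'
  refine ⟨fun g => χ (g ^ K), ?_, fun h => galois_isIrr h hKG, ?_, ?_⟩
  · obtain ⟨l, hl, rfl⟩ := IsCharacter.exists_list_sum_irr hχ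
    clear hχ
    induction l with
    | nil =>
      have : (fun g : G => (([] : List (G → ℂ)).sum) (g ^ K)) = 0 := by
        funext g
        simp
      rw [this]
      exact IsCharacter.zero
    | cons t l ih =>
      have h1 : (fun g : G => ((t :: l).sum) (g ^ K)) =
          (fun g : G => t (g ^ K)) + (fun g : G => l.sum (g ^ K)) := by
        funext g
        simp
      rw [h1]
      exact IsCharacter.add
        (IsIrrCharacter.isCharacter (galois_isIrr (hl t (by simp)) hKG))
        (ih fun ψ hψ => hl ψ (by simp [hψ]))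
  · intro g hg
    change χ (g ^ K) = χ (g ^ k)
    rw [(pow_eq_pow_iff_modEq).mpr (hKa.of_dvd hg)]
  · intro g hg
    have h1 : orderOf g ∣ a * b := hab ▸ orderOf_dvd_natCard g
    have h2 : orderOf g ∣ b := hg.dvd_of_dvd_mul_left h1
    have h3 : g ^ K = g ^ 1 := (pow_eq_pow_iff_modEq).mpr (hKb.of_dvd h2)
    change χ (g ^ K) = χ g
    rw [h3, pow_one]

end Cfsg.Agent.S1493
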