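import Cfsg.Statements.S1502
import Cfsg.Agent.Lib.OddChar.CyclicW5
import Cfsg.Agent.Lib.OddChar.TIGrid

set_option autoImplicit false
open Cfsg

namespace Cfsg.Agent.S1502

open Cfsg.Agent.Lib.Char Cfsg.Agent.Lib.OddChar Cfsg.Agent.Lib.OddChar.TIGrid

section Helpers

variable {G : Type*} [Group G] [Fintype G]

/-- The integer combination of irreducible characters with given coordinates. -/
noncomputable def Fv (v : IrrCharacter G → ℤ) : G → ℂ := ∑ χ, (v χ : ℂ) • (χ : G → ℂ)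

theorem classInner_Fv (v w : IrrCharacter G → ℤ) :
    classInner (Fv v) (Fv w) = ((dotZ v w : ℤ) : ℂ) := by
  unfold Fv dotZ
  rw [classInner_sum_left]
  push_cast
  refine Finset.sum_congr rfl fun χ _ => ?_
  rw [classInner_smul_left, classInner_sum_right, Finset.sum_eq_single χ]
  · rw [classInner_smul_right, classInner_irr_self χ.2]
    simp
  · intro ψ _ hne
    rw [classInner_smul_right, classInner_irr_of_ne χ.2 ψ.2 (fun h => hne (Subtype.ext h).symm),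
      mul_zero]
  · intro h
    exact absurd (Finset.mem_univ _) h

variable [DecidableEq (IrrCharacter G)]

theorem Fv_sng (p : IrrCharacter G) (s : ℤ) : Fv (sng p s) = (s : ℂ) • (p : G → ℂ) := by
  unfold Fv
  rw [Finset.sum_eq_single p]
  · rw [sng_self]
  · intro z _ hz
    rw [sng_ne _ hz]
    simp
  · intro h
    exact absurd (Finset.mem_univ _) h

omit [DecidableEq (IrrCharacter G)] in
theorem Fv_comb {v a b c e : IrrCharacter G → ℤ} (h : ∀ w, v w = a w - b w - c w + e w) :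
    Fv v = Fv a - Fv b - Fv c + Fv e := by
  unfold Fv
  rw [← Finset.sum_sub_distrib, ← Finset.sum_sub_distrib, ← Finset.sum_add_distrib]
  refine Finset.sum_congr rfl fun χ _ => ?_
  rw [h χ]
  push_cast
  simp only [add_smul, sub_smul]

end Helpers

theorem no_three_three {G : Type*} [Group G] [Finite G] {W₁ W₂ : Subgroup G}
    (hc' : ∀ a ∈ W₁, ∀ b ∈ W₂, a * b = b * a) (hcyc : IsCyclic ↥(W₁ ⊔ W₂)) (hinf : W₁ ⊓ W₂ = ⊥)
    (h3 : Nat.card W₁ = 3) (h4 : Nat.card W₂ = 3) : False := by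
  obtain ⟨g, hg⟩ := IsCyclic.exists_ofOrder_eq_natCard (α := ↥(W₁ ⊔ W₂))
  rw [card_sup_of_comm hc' hinf, h3, h4] at hg
  obtain ⟨a, ha, b, hb, hab⟩ := mem_sup_of_comm hc' g.2
  have ha3 : a ^ 3 = 1 := by
    have h5 := pow_card_eq_one' (x := (⟨a, ha⟩ : W₁))
    rw [h3] at h5
    simpa using congrArg Subtype.val h5
  have hb3 : b ^ 3 = 1 := by
    have h5 := pow_card_eq_one' (x := (⟨b, hb⟩ : W₂))
    rw [h4] at h5
    simpa using congrArg Subtype.val h5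
  have hcm : Commute a b := hc' a ha b hb
  have hg3 : g ^ 3 = 1 := by
    apply Subtype.ext
    simp only [Subgroup.coe_pow, Subgroup.coe_one]
    rw [hab, hcm.mul_pow, ha3, hb3, one_mul]
  have h5 := orderOf_dvd_of_pow_eq_one hg3
  rw [hg] at h5
  norm_num at h5

/-- Let W₁, W₂ be nontrivial subgroups of the finite group G generating a cyclic subgroup W = W₁ ⊔ W₂ of odd order that is the normaliser of every nonempty set of its elements outside W₁ ∪ W₂. Then there is a family attaching to each linear character ω of W an irreducible character of G up to sign, orthonormal, sending the trivial character to the principal character, with χ ω = ω on W outside W₁ ∪ W₂, and such that inducing (1 − φ)(1 − ψ) to G gives 1 − χ φ − χ ψ + χ (φψ) whenever φ ≠ 1 is trivial on W₂ and ψ ≠ 1 is trivial on W₁. -/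
theorem result {G : Type*} [Group G] [Fintype G] (W₁ W₂ : Subgroup G) (hW : Cfsg.IsSelfNormalizingCyclic W₁ W₂) (hodd : Odd (Nat.card ↥(W₁ ⊔ W₂))) : ∃ χ : (↥(W₁ ⊔ W₂) →* ℂˣ) → (G → ℂ), Cfsg.IsCyclicTIFamily W₁ W₂ χ := by
  classical
  letI : Fintype ↥(W₁ ⊔ W₂) := Fintype.ofFinite _
  obtain ⟨hW1, hW2, hinf, hc', hcyc, -⟩ := id hW
  have hcomm : ∀ a b : ↥(W₁ ⊔ W₂), a * b = b * a := fun a b => by
    letI := IsCyclic.commGroup (α := ↥(W₁ ⊔ W₂))
    exact mul_comm a b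
  have hoddW : Odd (Nat.card W₁) ∧ Odd (Nat.card W₂) := by
    rw [card_sup_of_comm hc' hinf] at hodd
    exact Nat.odd_mul.mp hodd
  have hne1 : Nat.card W₁ ≠ 1 := fun h => hW1 (Subgroup.eq_bot_of_card_eq _ h)
  have hne2 : Nat.card W₂ ≠ 1 := fun h => hW2 (Subgroup.eq_bot_of_card_eq _ h)
  have h1L : (1 : ↥(W₁ ⊔ W₂) →* ℂˣ) ∈ homsLeft W₁ W₂ := mem_homsLeft.mpr fun w _ => rfl
  have h1R : (1 : ↥(W₁ ⊔ W₂) →* ℂˣ) ∈ homsRight W₁ W₂ := mem_homsRight.mpr fun w _ => rfl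
  set A : Finset (↥(W₁ ⊔ W₂) →* ℂˣ) := (homsLeft W₁ W₂).erase 1 with hAdef
  set B : Finset (↥(W₁ ⊔ W₂) →* ℂˣ) := (homsRight W₁ W₂).erase 1 with hBdef
  have hAcard : A.card = Nat.card W₁ - 1 := by
    rw [hAdef, Finset.card_erase_of_mem h1L, card_homsLeft hc' hcomm hinf]
  have hBcard : B.card = Nat.card W₂ - 1 := by
    rw [hBdef, Finset.card_erase_of_mem h1R, card_homsRight hc' hcomm hinf]
  have hpos1 : 0 < Nat.card W₁ := Nat.card_pos
  have hpos2 : 0 < Nat.card W₂ := Nat.card_pos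
  have hA : A.card = 2 ∨ 4 ≤ A.card := by
    obtain ⟨⟨u, hu⟩, -⟩ := hoddW
    omega
  have hB : B.card = 2 ∨ 4 ≤ B.card := by
    obtain ⟨-, ⟨u, hu⟩⟩ := hoddW
    omega
  have hAB : 4 ≤ A.card ∨ 4 ≤ B.card := by
    by_contra hcon
    push Not at hcon
    refine no_three_three hc' hcyc hinf ?_ ?_
    · obtain ⟨⟨u, hu⟩, -⟩ := hoddW
      omega
    · obtain ⟨-, ⟨u, hu⟩⟩ := hoddW
      omega
  have hAm : ∀ i ∈ A, i ≠ 1 ∧ ∀ w : ↥(W₁ ⊔ W₂), (w : G) ∈ W₂ → i w = 1 := fun i hi =>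
    ⟨(Finset.mem_erase.mp hi).1, mem_homsLeft.mp (Finset.mem_erase.mp hi).2⟩
  have hBm : ∀ i ∈ B, i ≠ 1 ∧ ∀ w : ↥(W₁ ⊔ W₂), (w : G) ∈ W₁ → i w = 1 := fun i hi =>
    ⟨(Finset.mem_erase.mp hi).1, mem_homsRight.mp (Finset.mem_erase.mp hi).2⟩
  -- coordinates of the induced functions
  have hgen : ∀ φ ψ : ↥(W₁ ⊔ W₂) →* ℂˣ, Cfsg.IsGeneralizedCharacter G (indFun (W₁ ⊔ W₂) (pairFun φ ψ)) := by
    intro φ ψ
    rw [pairFun_eq, indFun_add, indFun_sub, indFun_sub]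
    have h : ∀ f : ↥(W₁ ⊔ W₂) →* ℂˣ, Cfsg.IsGeneralizedCharacter G (indFun (W₁ ⊔ W₂) (hc f)) := fun f =>
      IsGeneralizedCharacter.of_isCharacter (indFun_isCharacter _ (IsIrrCharacter.isCharacter (hc_isIrr f)))
    exact IsGeneralizedCharacter.add (IsGeneralizedCharacter.sub (IsGeneralizedCharacter.sub (h _) (h _)) (h _)) (h _)
  choose ν hν using fun φ ψ => generalized_eq_sum (hgen φ ψ)
  have hν' : ∀ φ ψ, indFun (W₁ ⊔ W₂) (pairFun φ ψ) = Fv (ν φ ψ) := hν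
  let e₀ : IrrCharacter G := ⟨fun _ => 1, isIrrCharacter_one⟩
  let d : IrrCharacter G → ℂ := fun x => (x : G → ℂ) 1
  have hd : ∀ x, d x ≠ 0 := fun x => map_one_ne_zero_of_irr x.2
  have hzero : ∀ (f g : ↥(W₁ ⊔ W₂) →* ℂˣ), (∀ w : ↥(W₁ ⊔ W₂), (w : G) ∈ W₂ → f w = 1) →
      (∀ w : ↥(W₁ ⊔ W₂), (w : G) ∈ W₁ → g w = 1) →
      ∀ w : ↥(W₁ ⊔ W₂), (w : G) ∈ W₁ ∨ (w : G) ∈ W₂ → pairFun f g w = 0 := by
    rintro f g hf hg w (hw | hw)
    · exact pairFun_eq_zero_right f g hg hw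
    · exact pairFun_eq_zero_left f g hf hw
  have hG : ∀ i ∈ A, ∀ j ∈ B, ∀ h ∈ A, ∀ k ∈ B, dotZ (ν i j) (ν h k) =
      (if i = h then 2 else 1) * (if j = k then 2 else 1) := by
    intro i hi j hj h hh k hk
    have h1 := classInner_Fv (ν i j) (ν h k)
    rw [← hν' i j, ← hν' h k, classInner_indFun_cyc hW (hzero _ _ (hAm i hi).2 (hBm j hj).2)
      (hzero _ _ (hAm h hh).2 (hBm k hk).2), classInner_pairFun_pairFun hc' (hAm i hi).1 (hBm j hj).1
      (hAm h hh).1 (hBm k hk).1 (hAm i hi).2 (hBm j hj).2 (hAm h hh).2 (hBm k hk).2] at h1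
    by_cases e1 : i = h <;> by_cases e2 : j = k
    · rw [if_pos e1, if_pos e2] at h1 ⊢
      have h2 : ((dotZ (ν i j) (ν h k) : ℤ) : ℂ) = 4 := by
        rw [← h1]
        norm_num
      exact_mod_cast h2
    · rw [if_pos e1, if_neg e2] at h1 ⊢
      have h2 : ((dotZ (ν i j) (ν h k) : ℤ) : ℂ) = 2 := by
        rw [← h1]
        norm_num
      exact_mod_cast h2
    · rw [if_neg e1, if_pos e2] at h1 ⊢
      have h2 : ((dotZ (ν i j) (ν h k) : ℤ) : ℂ) = 2 := by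
        rw [← h1]
        norm_num
      exact_mod_cast h2
    · rw [if_neg e1, if_neg e2] at h1 ⊢
      have h2 : ((dotZ (ν i j) (ν h k) : ℤ) : ℂ) = 1 := by
        rw [← h1]
        norm_num
      exact_mod_cast h2
  have he : ∀ i ∈ A, ∀ j ∈ B, ν i j e₀ = 1 := by
    intro i hi j hj
    have h1 := classInner_Fv (ν i j) (sng e₀ 1)
    rw [Fv_sng, dotZ_sng_right, ← hν' i j] at h1
    have h2 : ((1 : ℤ) : ℂ) • (e₀ : G → ℂ) = fun _ => 1 := by
      funext g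
      simp [e₀]
    rw [h2, frobenius_reciprocity _ _ _ (fun _ _ => rfl)] at h1
    have h3 : (fun h : ↥(W₁ ⊔ W₂) => (1 : ℂ)) = hc 1 := hc_one.symm
    rw [h3, classInner_pairFun_hc, if_pos rfl, if_neg (hAm i hi).1, if_neg (hBm j hj).1,
      if_neg (hom_mul_facts hc' (hAm i hi).1 (hBm j hj).1 (hAm i hi).2 (hBm j hj).2 (hAm i hi).2
        (hBm j hj).2).1.symm] at h1
    have h4 : ((ν i j e₀ * 1 : ℤ) : ℂ) = 1 := by
      rw [← h1]
      simp
    have h5 : ν i j e₀ * 1 = 1 := by exact_mod_cast h4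
    linarith
  have hdeg : ∀ i ∈ A, ∀ j ∈ B, ∑ x, d x * (ν i j x : ℂ) = 0 := by
    intro i hi j hj
    have h1 : Fv (ν i j) 1 = ∑ x, d x * (ν i j x : ℂ) := by
      unfold Fv
      rw [Finset.sum_apply]
      refine Finset.sum_congr rfl fun x _ => ?_
      simp only [Pi.smul_apply, smul_eq_mul, d]
      ring
    rw [← h1, ← hν' i j, indFun_apply]
    have h2 : ∀ x : G, extendByZero (W₁ ⊔ W₂) (pairFun i j) (x⁻¹ * 1 * x) = 0 := by
      intro x
      have h3 : x⁻¹ * 1 * x = 1 := by group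
      rw [h3, extendByZero_of_mem _ _ (Subgroup.one_mem _)]
      exact hzero _ _ (hAm i hi).2 (hBm j hj).2 _ (Or.inl W₁.one_mem)
    simp only [h2, Finset.sum_const_zero, mul_zero]
  obtain ⟨P, Q, hQ, hPinj, hP0, hQ0, hdec⟩ := grid_main A B (1 : ↥(W₁ ⊔ W₂) →* ℂˣ)
    (1 : ↥(W₁ ⊔ W₂) →* ℂˣ) (by simp [hAdef]) (by simp [hBdef]) e₀ ν d hd hG he hdeg hA hB hAB
  have hLins : insert 1 A = homsLeft W₁ W₂ := Finset.insert_erase h1L
  have hRins : insert 1 B = homsRight W₁ W₂ := Finset.insert_erase h1R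
  rw [hLins, hRins] at hQ hPinj
  choose fl hfl fr hfr hfe using exists_factor hc' hcomm hinf
  have hfac : ∀ φ ∈ homsLeft W₁ W₂, ∀ ψ ∈ homsRight W₁ W₂, fl (φ * ψ) = φ ∧ fr (φ * ψ) = ψ := by
    intro φ hφ ψ hψ
    exact factor_injective hc' (hfl (φ * ψ)) hφ (hfr (φ * ψ)) hψ (hfe (φ * ψ)).symm
  have hfacL : ∀ φ ∈ homsLeft W₁ W₂, fl φ = φ ∧ fr φ = 1 := by
    intro φ hφ
    have := hfac φ hφ 1 h1R
    have h5 : φ * (1 : ↥(W₁ ⊔ W₂) →* ℂˣ) = φ := by
      ext v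
      simp
    rwa [h5] at this
  have hfacR : ∀ ψ ∈ homsRight W₁ W₂, fl ψ = 1 ∧ fr ψ = ψ := by
    intro ψ hψ
    have := hfac 1 h1L ψ hψ
    have h5 : (1 : ↥(W₁ ⊔ W₂) →* ℂˣ) * ψ = ψ := by
      ext v
      simp
    rwa [h5] at this
  let E : (↥(W₁ ⊔ W₂) →* ℂˣ) → (↥(W₁ ⊔ W₂) →* ℂˣ) → G → ℂ :=
    fun i j => ((Q i j : ℤ) : ℂ) • ((P i j : IrrCharacter G) : G → ℂ)
  let Fam : (↥(W₁ ⊔ W₂) →* ℂˣ) → G → ℂ := fun ω => E (fl ω) (fr ω)
  have hQL : ∀ ω, Q (fl ω) (fr ω) = 1 ∨ Q (fl ω) (fr ω) = -1 := fun ω => hQ _ (hfl ω) _ (hfr ω)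
  have hPM : ∀ ω, PM G (Fam ω) := by
    intro ω
    rcases hQL ω with h | h
    · left
      simp only [Fam, E]
      rw [h]
      simpa using (P (fl ω) (fr ω)).2
    · right
      simp only [Fam, E]
      rw [h]
      simpa using (P (fl ω) (fr ω)).2
  have horth : ∀ ω ω', classInner (Fam ω) (Fam ω') = if ω = ω' then 1 else 0 := by
    intro ω ω'
    simp only [Fam, E]
    rw [classInner_smul_left, classInner_smul_right]
    by_cases e : ω = ω'
    · subst e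
      rw [if_pos rfl, classInner_irr_self (P (fl ω) (fr ω)).2]
      rcases hQL ω with h | h <;> rw [h] <;> simp
    · have hne : P (fl ω) (fr ω) ≠ P (fl ω') (fr ω') := by
        intro h
        obtain ⟨h1, h2⟩ := hPinj _ (hfl ω) _ (hfr ω) _ (hfl ω') _ (hfr ω') h
        apply e
        rw [hfe ω, hfe ω', h1, h2]
      rw [if_neg e, classInner_irr_of_ne (P (fl ω) (fr ω)).2 (P (fl ω') (fr ω')).2
        (fun h => hne (Subtype.ext h))]
      simp
  have hF1 : Fam 1 = E 1 1 := by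
    simp only [Fam]
    rw [(hfacL 1 h1L).1, (hfacL 1 h1L).2]
  have hE11 : E 1 1 = fun _ => 1 := by
    simp only [E]
    rw [hP0, hQ0]
    funext g
    simp [e₀]
  have hind : ∀ φ ∈ A, ∀ ψ ∈ B, indFun (W₁ ⊔ W₂) (pairFun φ ψ) =
      Fam 1 - Fam φ - Fam ψ + Fam (φ * ψ) := by
    intro φ hφ ψ hψ
    have hφL : φ ∈ homsLeft W₁ W₂ := (Finset.mem_erase.mp hφ).2
    have hψR : ψ ∈ homsRight W₁ W₂ := (Finset.mem_erase.mp hψ).2
    have h1 : Fam φ = E φ 1 := by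
      simp only [Fam]
      rw [(hfacL φ hφL).1, (hfacL φ hφL).2]
    have h2 : Fam ψ = E 1 ψ := by
      simp only [Fam]
      rw [(hfacR ψ hψR).1, (hfacR ψ hψR).2]
    have h3 : Fam (φ * ψ) = E φ ψ := by
      simp only [Fam]
      rw [(hfac φ hφL ψ hψR).1, (hfac φ hφL ψ hψR).2]
    rw [hF1, h1, h2, h3, hν', Fv_comb (hdec φ hφ ψ hψ), Fv_sng, Fv_sng, Fv_sng, Fv_sng]
  refine ⟨Fam, ⟨hPM, ?_, ?_, ?_, ?_⟩⟩
  · intro ω ω'
    by_cases e : ω = ω'
    · rw [if_pos e]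
      have := horth ω ω'
      rwa [if_pos e] at this
    · rw [if_neg e]
      have := horth ω ω'
      rwa [if_neg e] at this
  · rw [hF1, hE11]
  · intro ω w hw1 hw2
    have key := eq_zero_of_orth_pairFun hc' hcomm hinf (fun v : ↥(W₁ ⊔ W₂) => Fam ω v - hc ω v) ?_ w hw1 hw2
    · have h1 : Fam ω w - hc ω w = 0 := key
      rw [sub_eq_zero] at h1
      exact h1
    · intro φ' ψ' hφ' hψ'
      by_cases e1 : φ' = 1
      · subst e1
        have h1 : pairFun (1 : ↥(W₁ ⊔ W₂) →* ℂˣ) ψ' = 0 := by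
          funext v
          simp [pairFun]
        rw [h1, classInner_zero_right]
      by_cases e2 : ψ' = 1
      · subst e2
        have h1 : pairFun φ' (1 : ↥(W₁ ⊔ W₂) →* ℂˣ) = 0 := by
          funext v
          simp [pairFun]
        rw [h1, classInner_zero_right]
      have hφ'A : φ' ∈ A := Finset.mem_erase.mpr ⟨e1, mem_homsLeft.mpr hφ'⟩
      have hψ'B : ψ' ∈ B := Finset.mem_erase.mpr ⟨e2, mem_homsRight.mpr hψ'⟩
      have h1 : (fun v : ↥(W₁ ⊔ W₂) => Fam ω v - hc ω v) = (fun v : ↥(W₁ ⊔ W₂) => Fam ω v) - hc ω := rfl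
      rw [h1, classInner_sub_left, ← frobenius_reciprocity' _ _ _ (hPM ω).isClass, hind φ' hφ'A ψ' hψ'B,
        classInner_add_right, classInner_sub_right, classInner_sub_right, horth, horth, horth, horth,
        pairFun_eq, classInner_add_right, classInner_sub_right, classInner_sub_right, classInner_hc,
        classInner_hc, classInner_hc, classInner_hc]
      simp
  · intro φ ψ hφ1 hψ1 hφ hψ
    have h1 := hind φ (Finset.mem_erase.mpr ⟨hφ1, mem_homsLeft.mpr hφ⟩) ψ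
      (Finset.mem_erase.mpr ⟨hψ1, mem_homsRight.mpr hψ⟩)
    change indFun (W₁ ⊔ W₂) (pairFun φ ψ) = _
    rw [h1, hF1, hE11]
    funext g
    rfl

end Cfsg.Agent.S1502
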