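import Cfsg.Statements.S1505
import Cfsg.Agent.Lib.OddChar.CyclicW3

set_option autoImplicit false
open Cfsg

namespace Cfsg.Agent.S1505

open Classical in
/-- Let W₁, W₂ ≤ G form a self-normalising cyclic subgroup W = W₁ ⊔ W₂. For nontrivial linear characters φ, φ' of W trivial on W₂ and ψ, ψ' trivial on W₁, put α = (1 − φ)(1 − ψ) and α' = (1 − φ')(1 − ψ'). Then the function induced from α to G has inner product 1 with the principal character, and the inner product of the functions induced from α and α' is 1 + a + b + ab where a = 1 if φ = φ' (else 0) and b = 1 if ψ = ψ' (else 0). -/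
theorem result {G : Type*} [Group G] [Fintype G] (W₁ W₂ : Subgroup G) (hW : Cfsg.IsSelfNormalizingCyclic W₁ W₂) (φ φ' ψ ψ' : ↥(W₁ ⊔ W₂) →* ℂˣ) (hφ : φ ≠ 1) (hφ' : φ' ≠ 1) (hψ : ψ ≠ 1) (hψ' : ψ' ≠ 1) (hφ₂ : ∀ w : ↥(W₁ ⊔ W₂), (w : G) ∈ W₂ → φ w = 1 ∧ φ' w = 1) (hψ₁ : ∀ w : ↥(W₁ ⊔ W₂), (w : G) ∈ W₁ → ψ w = 1 ∧ ψ' w = 1) : Cfsg.classInner (Cfsg.indFun (W₁ ⊔ W₂) (fun w => 1 - (φ w : ℂ) - (ψ w : ℂ) + (φ w : ℂ) * (ψ w : ℂ))) (fun _ => 1) = 1 ∧ Cfsg.classInner (Cfsg.indFun (W₁ ⊔ W₂) (fun w => 1 - (φ w : ℂ) - (ψ w : ℂ) + (φ w : ℂ) * (ψ w : ℂ))) (Cfsg.indFun (W₁ ⊔ W₂) (fun w => 1 - (φ' w : ℂ) - (ψ' w : ℂ) + (φ' w : ℂ) * (ψ' w : ℂ))) = 1 + (if φ = φ' then 1 else 0) + (if ψ = ψ' then 1 else 0) + (if φ = φ' then 1 else 0) * (if ψ = ψ' then 1 else 0) := by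
  open Cfsg.Agent.Lib.Char Cfsg.Agent.Lib.OddChar in
  classical
  letI : Fintype ↥(W₁ ⊔ W₂) := Fintype.ofFinite _
  have hc' := hW.2.2.2.1
  have hφt : ∀ w : ↥(W₁ ⊔ W₂), (w : G) ∈ W₂ → φ w = 1 := fun w hw => (hφ₂ w hw).1
  have hφ't : ∀ w : ↥(W₁ ⊔ W₂), (w : G) ∈ W₂ → φ' w = 1 := fun w hw => (hφ₂ w hw).2
  have hψt : ∀ w : ↥(W₁ ⊔ W₂), (w : G) ∈ W₁ → ψ w = 1 := fun w hw => (hψ₁ w hw).1
  have hψ't : ∀ w : ↥(W₁ ⊔ W₂), (w : G) ∈ W₁ → ψ' w = 1 := fun w hw => (hψ₁ w hw).2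
  have hzero : ∀ (f g : ↥(W₁ ⊔ W₂) →* ℂˣ), (∀ w : ↥(W₁ ⊔ W₂), (w : G) ∈ W₂ → f w = 1) →
      (∀ w : ↥(W₁ ⊔ W₂), (w : G) ∈ W₁ → g w = 1) →
      ∀ w : ↥(W₁ ⊔ W₂), (w : G) ∈ W₁ ∨ (w : G) ∈ W₂ → pairFun f g w = 0 := by
    rintro f g hf hg w (hw | hw)
    · exact pairFun_eq_zero_right f g hg hw
    · exact pairFun_eq_zero_left f g hf hw
  constructor
  · change classInner (indFun (W₁ ⊔ W₂) (pairFun φ ψ)) _ = 1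
    rw [frobenius_reciprocity _ _ _ (fun _ _ => rfl)]
    have h1 : (fun h : ↥(W₁ ⊔ W₂) => (1 : ℂ)) = hc 1 := hc_one.symm
    rw [h1, classInner_pairFun_hc, if_pos rfl, if_neg hφ, if_neg hψ,
      if_neg (hom_mul_facts hc' hφ hψ hφt hψt hφt hψt).1.symm]
    simp
  · change classInner (indFun (W₁ ⊔ W₂) (pairFun φ ψ)) (indFun (W₁ ⊔ W₂) (pairFun φ' ψ')) = _
    rw [classInner_indFun_cyc hW (hzero φ ψ hφt hψt) (hzero φ' ψ' hφ't hψ't)]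
    convert classInner_pairFun_pairFun hc' hφ hψ hφ' hψ' hφt hψt hφ't hψ't

end Cfsg.Agent.S1505
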