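import Cfsg.Statements.S1506
import Cfsg.Agent.Lib.OddChar.CyclicW2

set_option autoImplicit false
open Cfsg

namespace Cfsg.Agent.S1506

/-- Let W₁, W₂ ≤ G form a self-normalising cyclic subgroup W = W₁ ⊔ W₂ and χ an orthonormal family of irreducible characters of G up to sign, indexed by the linear characters ω of W, with χ_1 = 1, χ_ω = ω on W outside W₁ ∪ W₂, and the induction identity for (1 − φ)(1 − ψ). Let θ be a class function of G vanishing at every element of W outside W₁ ∪ W₂. For linear characters φ, φ' of W trivial on W₂ and ψ, ψ' trivial on W₁, the inner products a(ω) = ⟨θ, χ ω⟩ satisfy a(φψ) + a(φ'ψ') = a(φψ') + a(φ'ψ). -/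
theorem result {G : Type*} [Group G] [Fintype G] (W₁ W₂ : Subgroup G) (hW : Cfsg.IsSelfNormalizingCyclic W₁ W₂) (χ : (↥(W₁ ⊔ W₂) →* ℂˣ) → (G → ℂ)) (hχ : Cfsg.IsCyclicTIFamily W₁ W₂ χ) (θ : G → ℂ) (hθ : Cfsg.IsClassFunction G θ) (hθV : ∀ w : ↥(W₁ ⊔ W₂), (w : G) ∉ W₁ → (w : G) ∉ W₂ → θ w = 0) (φ φ' ψ ψ' : ↥(W₁ ⊔ W₂) →* ℂˣ) (hφ₂ : ∀ w : ↥(W₁ ⊔ W₂), (w : G) ∈ W₂ → φ w = 1 ∧ φ' w = 1) (hψ₁ : ∀ w : ↥(W₁ ⊔ W₂), (w : G) ∈ W₁ → ψ w = 1 ∧ ψ' w = 1) : Cfsg.classInner θ (χ (φ * ψ)) + Cfsg.classInner θ (χ (φ' * ψ')) = Cfsg.classInner θ (χ (φ * ψ')) + Cfsg.classInner θ (χ (φ' * ψ)) := by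
  open Cfsg.Agent.Lib.Char Cfsg.Agent.Lib.OddChar in
  classical
  letI : Fintype ↥(W₁ ⊔ W₂) := Fintype.ofFinite _
  have key : ∀ φ ψ : ↥(W₁ ⊔ W₂) →* ℂˣ, (∀ w : ↥(W₁ ⊔ W₂), (w : G) ∈ W₂ → φ w = 1) →
      (∀ w : ↥(W₁ ⊔ W₂), (w : G) ∈ W₁ → ψ w = 1) →
      Cfsg.classInner θ (χ (φ * ψ)) + Cfsg.classInner θ (χ 1) =
        Cfsg.classInner θ (χ φ) + Cfsg.classInner θ (χ ψ) := by
    intro φ ψ hφ hψ
    by_cases hφ1 : φ = 1
    · subst hφ1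
      have h1 : (1 : ↥(W₁ ⊔ W₂) →* ℂˣ) * ψ = ψ := by
        ext v
        simp
      rw [h1, add_comm]
    by_cases hψ1 : ψ = 1
    · subst hψ1
      have h1 : φ * (1 : ↥(W₁ ⊔ W₂) →* ℂˣ) = φ := by
        ext v
        simp
      rw [h1]
    have h := classInner_family_pair χ hχ hθ hφ1 hψ1 hφ hψ
    have h0 : Cfsg.classInner (fun w : ↥(W₁ ⊔ W₂) => θ w) (pairFun φ ψ) = 0 := by
      rw [classInner_def, Finset.sum_eq_zero, mul_zero]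
      intro w _
      by_cases hw₁ : (w : G) ∈ W₁
      · rw [pairFun_eq_zero_right φ ψ hψ hw₁]
        simp
      by_cases hw₂ : (w : G) ∈ W₂
      · rw [pairFun_eq_zero_left φ ψ hφ hw₂]
        simp
      · rw [hθV w hw₁ hw₂, zero_mul]
    rw [h0] at h
    linear_combination -h
  have h1 := key φ ψ (fun w hw => (hφ₂ w hw).1) (fun w hw => (hψ₁ w hw).1)
  have h2 := key φ' ψ' (fun w hw => (hφ₂ w hw).2) (fun w hw => (hψ₁ w hw).2)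
  have h3 := key φ ψ' (fun w hw => (hφ₂ w hw).1) (fun w hw => (hψ₁ w hw).2)
  have h4 := key φ' ψ (fun w hw => (hφ₂ w hw).2) (fun w hw => (hψ₁ w hw).1)
  linear_combination h1 + h2 - h3 - h4

end Cfsg.Agent.S1506
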