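import Cfsg.Statements.S1507
import Cfsg.Agent.Lib.OddChar.CyclicW4

set_option autoImplicit false
open Cfsg

namespace Cfsg.Agent.S1507

open Classical in
/-- Let W₁, W₂ ≤ G form a self-normalising cyclic subgroup W = W₁ ⊔ W₂ of odd order with Nat.card W₁ < Nat.card W₂, and χ an orthonormal family of irreducible characters of G up to sign, indexed by the linear characters ω of W, with χ_1 = 1, χ_ω = ω on W outside W₁ ∪ W₂, and the induction identity for (1 − φ)(1 − ψ). Let θ be a class function of G vanishing on W outside W₁ ∪ W₂, and suppose fewer than 2 · Nat.card W₁ linear characters ω of W have ⟨θ, χ ω⟩ ≠ 0. Then one of: all ⟨θ, χ ω⟩ vanish; or there are ψ₀ and a with ⟨θ, χ ω⟩ = a when ω ψ₀⁻¹ is trivial on W₂ and 0 otherwise; or there are φ₀ and a with ⟨θ, χ ω⟩ = a when ω φ₀⁻¹ is trivial on W₁ and 0 otherwise. -/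
theorem result {G : Type*} [Group G] [Fintype G] (W₁ W₂ : Subgroup G) (hW : Cfsg.IsSelfNormalizingCyclic W₁ W₂) (hodd : Odd (Nat.card ↥(W₁ ⊔ W₂))) (χ : (↥(W₁ ⊔ W₂) →* ℂˣ) → (G → ℂ)) (hχ : Cfsg.IsCyclicTIFamily W₁ W₂ χ) (hlt : Nat.card W₁ < Nat.card W₂) (θ : G → ℂ) (hθ : Cfsg.IsClassFunction G θ) (hθV : ∀ w : ↥(W₁ ⊔ W₂), (w : G) ∉ W₁ → (w : G) ∉ W₂ → θ w = 0) (hfew : Nat.card {ω : ↥(W₁ ⊔ W₂) →* ℂˣ // Cfsg.classInner θ (χ ω) ≠ 0} < 2 * Nat.card W₁) : (∀ ω, Cfsg.classInner θ (χ ω) = 0) ∨ (∃ (ψ₀ : ↥(W₁ ⊔ W₂) →* ℂˣ) (a : ℂ), ∀ ω, Cfsg.classInner θ (χ ω) = if (∀ w : ↥(W₁ ⊔ W₂), (w : G) ∈ W₂ → (ω * ψ₀⁻¹) w = 1) then a else 0) ∨ (∃ (φ₀ : ↥(W₁ ⊔ W₂) →* ℂˣ) (a : ℂ), ∀ ω, Cfsg.classInner θ (χ ω) = if (∀ w : ↥(W₁ ⊔ W₂), (w : G) ∈ W₁ → (ω * φ₀⁻¹) w = 1) then a else 0) := by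
  open Cfsg.Agent.Lib.Char Cfsg.Agent.Lib.OddChar in
  classical
  letI : Fintype ↥(W₁ ⊔ W₂) := Fintype.ofFinite _
  obtain ⟨hW1, hW2, hinf, hc', hcyc, -⟩ := id hW
  have hcomm : ∀ a b : ↥(W₁ ⊔ W₂), a * b = b * a := fun a b => by
    letI := IsCyclic.commGroup (α := ↥(W₁ ⊔ W₂))
    exact mul_comm a b
  -- additivity
  have key : ∀ φ ψ : ↥(W₁ ⊔ W₂) →* ℂˣ, (∀ w : ↥(W₁ ⊔ W₂), (w : G) ∈ W₂ → φ w = 1) →
      (∀ w : ↥(W₁ ⊔ W₂), (w : G) ∈ W₁ → ψ w = 1) →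
      Cfsg.classInner θ (χ (φ * ψ)) + Cfsg.classInner θ (χ 1) =
        Cfsg.classInner θ (χ φ) + Cfsg.classInner θ (χ ψ) := by
    intro φ ψ hφ hψ
    by_cases hφ1 : φ = 1
    · subst hφ1
      have h1 : (1 : ↥(W₁ ⊔ W₂) →* ℂˣ) * ψ = ψ := by
        ext v
        simp
      rw [h1, add_comm]
    by_cases hψ1 : ψ = 1
    · subst hψ1
      have h1 : φ * (1 : ↥(W₁ ⊔ W₂) →* ℂˣ) = φ := by
        ext v
        simp
      rw [h1]
    have h := classInner_family_pair χ hχ hθ hφ1 hψ1 hφ hψ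
    have h0 : Cfsg.classInner (fun w : ↥(W₁ ⊔ W₂) => θ w) (pairFun φ ψ) = 0 := by
      rw [classInner_def, Finset.sum_eq_zero, mul_zero]
      intro w _
      by_cases hw₁ : (w : G) ∈ W₁
      · rw [pairFun_eq_zero_right φ ψ hψ hw₁]
        simp
      by_cases hw₂ : (w : G) ∈ W₂
      · rw [pairFun_eq_zero_left φ ψ hφ hw₂]
        simp
      · rw [hθV w hw₁ hw₂, zero_mul]
    rw [h0] at h
    linear_combination -h
  let I := {x // x ∈ homsLeft W₁ W₂}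
  let J := {x // x ∈ homsRight W₁ W₂}
  have hI : Fintype.card I = Nat.card W₁ := by
    rw [Fintype.card_coe, card_homsLeft hc' hcomm hinf]
  have hJ : Fintype.card J = Nat.card W₂ := by
    rw [Fintype.card_coe, card_homsRight hc' hcomm hinf]
  let a : I → J → ℂ := fun i j => Cfsg.classInner θ (χ (i.1 * j.1))
  have hadd : ∀ i i' j j', a i j + a i' j' = a i j' + a i' j := by
    intro i i' j j'
    have h1 := key i.1 j.1 (mem_homsLeft.mp i.2) (mem_homsRight.mp j.2)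
    have h2 := key i'.1 j'.1 (mem_homsLeft.mp i'.2) (mem_homsRight.mp j'.2)
    have h3 := key i.1 j'.1 (mem_homsLeft.mp i.2) (mem_homsRight.mp j'.2)
    have h4 := key i'.1 j.1 (mem_homsLeft.mp i'.2) (mem_homsRight.mp j.2)
    simp only [a]
    linear_combination h1 + h2 - h3 - h4
  have hoddW : Odd (Nat.card W₁) ∧ Odd (Nat.card W₂) := by
    rw [card_sup_of_comm hc' hinf] at hodd
    exact Nat.odd_mul.mp hodd
  have hmn : Fintype.card I + 2 ≤ Fintype.card J := by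
    rw [hI, hJ]
    obtain ⟨⟨u, hu⟩, ⟨v, hv⟩⟩ := hoddW
    omega
  have hinjp : Function.Injective (fun p : I × J => ((p.1.1 * p.2.1 : ↥(W₁ ⊔ W₂) →* ℂˣ))) := by
    rintro ⟨i, j⟩ ⟨i', j'⟩ h
    obtain ⟨h1, h2⟩ := factor_injective hc' i.2 i'.2 j.2 j'.2 h
    exact Prod.ext (Subtype.ext h1) (Subtype.ext h2)
  have hfew' : (Finset.univ.filter fun p : I × J => a p.1 p.2 ≠ 0).card < 2 * Fintype.card I := by
    rw [hI]
    refine lt_of_le_of_lt ?_ hfew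
    have h5 : Nat.card {p : I × J // a p.1 p.2 ≠ 0} ≤
        Nat.card {ω : ↥(W₁ ⊔ W₂) →* ℂˣ // Cfsg.classInner θ (χ ω) ≠ 0} :=
      Nat.card_le_card_of_injective (fun p => ⟨p.1.1.1 * p.1.2.1, p.2⟩) (by
        intro p p' h
        exact Subtype.ext (hinjp (congrArg Subtype.val h)))
    rwa [Nat.subtype_card (Finset.univ.filter fun p : I × J => a p.1 p.2 ≠ 0) (by simp)] at h5
  rcases grid_lemma a hadd hmn hfew' with h | ⟨j₀, c, h⟩ | ⟨i₀, c, h⟩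
  · left
    intro ω
    obtain ⟨φ, hφ, ψ, hψ, rfl⟩ := exists_factor hc' hcomm hinf ω
    exact h ⟨φ, hφ⟩ ⟨ψ, hψ⟩
  · right; left
    refine ⟨j₀.1, c, fun ω => ?_⟩
    obtain ⟨φ, hφ, ψ, hψ, rfl⟩ := exists_factor hc' hcomm hinf ω
    have h6 := h ⟨φ, hφ⟩ ⟨ψ, hψ⟩
    have hφ' := mem_homsLeft.mp hφ
    have hψ' := mem_homsRight.mp hψ
    have hj' := mem_homsRight.mp j₀.2
    have hiff : (∀ w : ↥(W₁ ⊔ W₂), (w : G) ∈ W₂ → (φ * ψ * j₀.1⁻¹) w = 1) ↔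
        (⟨ψ, hψ⟩ : J) = j₀ := by
      constructor
      · intro h7
        refine Subtype.ext (hom_ext_sup hc' (fun w hw => ?_) (fun w hw => ?_))
        · rw [hψ' w hw, hj' w hw]
        · have h8 := h7 w hw
          simp only [MonoidHom.mul_apply, MonoidHom.inv_apply, hφ' w hw, one_mul] at h8
          exact mul_inv_eq_one.mp h8
      · intro h7 w hw
        rw [← h7]
        simp [hφ' w hw]
    by_cases hq : (⟨ψ, hψ⟩ : J) = j₀
    · rw [if_pos (hiff.mpr hq)]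
      rw [if_pos hq] at h6
      exact h6
    · rw [if_neg (fun h9 => hq (hiff.mp h9))]
      rw [if_neg hq] at h6
      exact h6
  · right; right
    refine ⟨i₀.1, c, fun ω => ?_⟩
    obtain ⟨φ, hφ, ψ, hψ, rfl⟩ := exists_factor hc' hcomm hinf ω
    have h6 := h ⟨φ, hφ⟩ ⟨ψ, hψ⟩
    have hφ' := mem_homsLeft.mp hφ
    have hψ' := mem_homsRight.mp hψ
    have hj' := mem_homsLeft.mp i₀.2
    have hiff : (∀ w : ↥(W₁ ⊔ W₂), (w : G) ∈ W₁ → (φ * ψ * i₀.1⁻¹) w = 1) ↔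
        (⟨φ, hφ⟩ : I) = i₀ := by
      constructor
      · intro h7
        refine Subtype.ext (hom_ext_sup hc' (fun w hw => ?_) (fun w hw => ?_))
        · have h8 := h7 w hw
          simp only [MonoidHom.mul_apply, MonoidHom.inv_apply, hψ' w hw, mul_one] at h8
          exact mul_inv_eq_one.mp h8
        · rw [hφ' w hw, hj' w hw]
      · intro h7 w hw
        rw [← h7]
        simp [hψ' w hw]
    by_cases hq : (⟨φ, hφ⟩ : I) = i₀
    · rw [if_pos (hiff.mpr hq)]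
      rw [if_pos hq] at h6
      exact h6
    · rw [if_neg (fun h9 => hq (hiff.mp h9))]
      rw [if_neg hq] at h6
      exact h6

end Cfsg.Agent.S1507
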