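import Cfsg.Statements.S1508
import Cfsg.Agent.Lib.OddChar.CyclicW5

set_option autoImplicit false
open Cfsg

namespace Cfsg.Agent.S1508

/-- Let W₁, W₂ ≤ G form a self-normalising cyclic subgroup W = W₁ ⊔ W₂ of odd order and χ an orthonormal family of irreducible characters of G up to sign, indexed by the linear characters ω of W, with χ_1 = 1, χ_ω = ω on W outside W₁ ∪ W₂, and the induction identity for (1 − φ)(1 − ψ). Let ω be a linear character of W and g an element of G whose order is coprime to the order of ω. Then χ ω g is an integer. -/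
theorem result {G : Type*} [Group G] [Fintype G] (W₁ W₂ : Subgroup G) (hW : Cfsg.IsSelfNormalizingCyclic W₁ W₂) (hodd : Odd (Nat.card ↥(W₁ ⊔ W₂))) (χ : (↥(W₁ ⊔ W₂) →* ℂˣ) → (G → ℂ)) (hχ : Cfsg.IsCyclicTIFamily W₁ W₂ χ) (ω : ↥(W₁ ⊔ W₂) →* ℂˣ) (g : G) (hg : Nat.Coprime (orderOf g) (orderOf ω)) : ∃ n : ℤ, χ ω g = n := by
  open Cfsg.Agent.Lib.Char Cfsg.Agent.Lib.OddChar in
  classical
  have hpow := fun (u : ℕ) (hu : u.Coprime (orderOf g)) =>
    family_pow_self hW hodd hχ ω g hg hu
  haveI : NeZero (orderOf g) := ⟨(orderOf_pos g).ne'⟩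
  have hint : ∀ (f : G → ℂ), IsIrrCharacter G f →
      (∀ u : ℕ, u.Coprime (orderOf g) → f (g ^ u) = f g) → ∃ n : ℤ, f g = n := by
    intro f hf h
    obtain ⟨n, ρ, -, rfl⟩ := id hf
    obtain ⟨q, hq⟩ := char_rational_of_forall_pow ρ (orderOf g) g (pow_orderOf_eq_one g) h
    have h2 : IsIntegral ℤ (ρ.character g) :=
      IsCharacter.isIntegral' (IsIrrCharacter.isCharacter hf) g
    rw [hq] at h2
    have h3 : IsIntegral ℤ q := by
      have hinj : Function.Injective (algebraMap ℚ ℂ) := (algebraMap ℚ ℂ).injective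
      exact (isIntegral_algebraMap_iff hinj).mp (by simpa using h2)
    obtain ⟨y, hy⟩ := IsIntegrallyClosed.isIntegral_iff.mp h3
    refine ⟨y, ?_⟩
    rw [hq, ← hy]
    simp
  rcases hχ.irr_or_neg ω with h | h
  · exact hint _ h hpow
  · obtain ⟨n, hn⟩ := hint _ h (fun u hu => by simpa using hpow u hu)
    refine ⟨-n, ?_⟩
    simp only [Pi.neg_apply] at hn
    push_cast
    linear_combination -hn

end Cfsg.Agent.S1508
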