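import Cfsg.Statements.S1510
import Mathlib

set_option autoImplicit false
open Cfsg

namespace Cfsg.Agent.S1510


theorem mem_sup_comm {L : Type*} [Group L] {A B : Subgroup L} (hc : ∀ a ∈ A, ∀ b ∈ B, a * b = b * a) {z : L}
    (hz : z ∈ A ⊔ B) : ∃ a ∈ A, ∃ b ∈ B, z = a * b := by
  rw [Subgroup.sup_eq_closure] at hz
  induction hz using Subgroup.closure_induction with
  | mem x hx =>
    rcases hx with hx | hx
    · exact ⟨x, hx, 1, B.one_mem, (mul_one x).symm⟩
    · exact ⟨1, A.one_mem, x, hx, (one_mul x).symm⟩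
  | one => exact ⟨1, A.one_mem, 1, B.one_mem, (one_mul 1).symm⟩
  | mul x y _ _ hx hy =>
    obtain ⟨a, ha, b, hb, rfl⟩ := hx
    obtain ⟨a', ha', b', hb', rfl⟩ := hy
    refine ⟨a * a', A.mul_mem ha ha', b * b', B.mul_mem hb hb', ?_⟩
    calc a * b * (a' * b') = a * (b * a') * b' := by group
      _ = a * (a' * b) * b' := by rw [hc a' ha' b hb]
      _ = a * a' * (b * b') := by group
  | inv x _ hx =>
    obtain ⟨a, ha, b, hb, rfl⟩ := hx
    refine ⟨a⁻¹, A.inv_mem ha, b⁻¹, B.inv_mem hb, ?_⟩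
    rw [mul_inv_rev]
    have h1 : a⁻¹ * b⁻¹ = b⁻¹ * a⁻¹ := hc _ (A.inv_mem ha) _ (B.inv_mem hb)
    rw [h1]

/-- Let L be a finite group with a normal subgroup K and a nontrivial cyclic subgroup W₁ of order coprime to its index, K ⊓ W₁ = ⊥ and K ⊔ W₁ = ⊤; let W₂ ≠ ⊥ be a cyclic subgroup of K with K ⊓ C_L(x) = W₂ for every non-identity x ∈ W₁, and suppose W₁ ⊔ W₂ has odd order. Then (W₁, W₂) is a self-normalising cyclic pair in L. -/
theorem result {L : Type*} [Group L] [Fintype L] (K W₁ W₂ : Subgroup L) [hK : K.Normal] (hKW₁ : K ⊓ W₁ = ⊥) (hKW₁' : K ⊔ W₁ = ⊤) (hW₁ : W₁ ≠ ⊥) (hW₁c : IsCyclic W₁) (hHall : Nat.Coprime (Nat.card W₁) W₁.index) (hW₂ : W₂ ≠ ⊥) (hW₂c : IsCyclic W₂) (hW₂K : W₂ ≤ K) (hC : ∀ x ∈ W₁, x ≠ 1 → K ⊓ Subgroup.centralizer ({x} : Set L) = W₂) (hodd : Odd (Nat.card ↥(W₁ ⊔ W₂))) : Cfsg.IsSelfNormalizingCyclic W₁ W₂ := by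
  classical
  have hW₁comm : ∀ a ∈ W₁, ∀ a' ∈ W₁, a * a' = a' * a := by
    intro a ha a' ha'
    have := (IsCyclic.commGroup (α := W₁)).mul_comm ⟨a, ha⟩ ⟨a', ha'⟩
    exact congrArg Subtype.val this
  have hW₂comm : ∀ a ∈ W₂, ∀ a' ∈ W₂, a * a' = a' * a := by
    intro a ha a' ha'
    have := (IsCyclic.commGroup (α := W₂)).mul_comm ⟨a, ha⟩ ⟨a', ha'⟩
    exact congrArg Subtype.val this
  have hcomm : ∀ a ∈ W₁, ∀ b ∈ W₂, a * b = b * a := by
    intro a ha b hb
    by_cases h1 : a = 1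
    · rw [h1, one_mul, mul_one]
    · have h2 : b ∈ K ⊓ Subgroup.centralizer ({a} : Set L) := by
        rw [hC a ha h1]
        exact hb
      exact (Subgroup.mem_centralizer_singleton_iff.mp h2.2).symm
  -- orders
  have hcompl : Subgroup.IsComplement' W₁ K := by
    apply Subgroup.isComplement'_of_disjoint_and_mul_eq_univ
    · rw [disjoint_iff, inf_comm]
      exact hKW₁
    · rw [← Subgroup.mul_normal, sup_comm, hKW₁']
      rfl
  have hidx : W₁.index = Nat.card K := hcompl.symm.index_eq_card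
  have hcop : Nat.Coprime (Nat.card W₁) (Nat.card K) := hidx ▸ hHall
  have hW₁big : 1 < Nat.card W₁ := by
    haveI : Nontrivial W₁ := (Subgroup.nontrivial_iff_ne_bot W₁).mpr hW₁
    exact Finite.one_lt_card
  have hK_pow : ∀ b ∈ K, b ^ Nat.card K = 1 := by
    intro b hb
    have := pow_card_eq_one' (x := (⟨b, hb⟩ : K))
    exact congrArg Subtype.val this
  have hW₁_pow : ∀ a ∈ W₁, a ^ Nat.card W₁ = 1 := by
    intro a ha
    have := pow_card_eq_one' (x := (⟨a, ha⟩ : W₁))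
    exact congrArg Subtype.val this
  obtain ⟨s, -, hs⟩ := Nat.exists_mul_mod_eq_one_of_coprime hcop.symm hW₁big
  set m := Nat.card K * s with hm
  -- the `W₁`-part of an element of `W₁ W₂`
  have hpart : ∀ a ∈ W₁, ∀ b ∈ W₂, (a * b) ^ m = a := by
    intro a ha b hb
    have hc : Commute a b := hcomm a ha b hb
    rw [hc.mul_pow]
    have h1 : b ^ m = 1 := by
      rw [hm, pow_mul, hK_pow b (hW₂K hb), one_pow]
    have h2 : a ^ m = a := by
      have h3 := Nat.div_add_mod m (Nat.card W₁)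
      rw [hs] at h3
      rw [← h3, pow_add, pow_mul, hW₁_pow a ha, one_pow, one_mul, pow_one]
    rw [h1, h2, mul_one]
  refine ⟨hW₁, hW₂, ?_, hcomm, ?_, ?_⟩
  · -- trivial intersection
    rw [eq_bot_iff]
    rintro x ⟨h1, h2⟩
    have : x ∈ K ⊓ W₁ := ⟨hW₂K h2, h1⟩
    rw [hKW₁] at this
    exact this
  · -- cyclic
    obtain ⟨⟨g₁, hg₁⟩, hgen₁⟩ := hW₁c.exists_generator
    obtain ⟨⟨g₂, hg₂⟩, hgen₂⟩ := hW₂c.exists_generator
    have ho₁ : orderOf g₁ = Nat.card W₁ := by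
      rw [← orderOf_eq_card_of_forall_mem_zpowers hgen₁]
      exact (Subgroup.orderOf_mk _ hg₁).symm
    have ho₂ : orderOf g₂ = Nat.card W₂ := by
      rw [← orderOf_eq_card_of_forall_mem_zpowers hgen₂]
      exact (Subgroup.orderOf_mk _ hg₂).symm
    have hd₂ : Nat.card W₂ ∣ Nat.card K := Subgroup.card_dvd_of_le hW₂K
    have hcop₂ : Nat.Coprime (orderOf g₁) (orderOf g₂) := by
      rw [ho₁, ho₂]
      exact Nat.Coprime.coprime_dvd_right hd₂ hcop
    have hc12 : Commute g₁ g₂ := hcomm g₁ hg₁ g₂ hg₂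
    have hord : orderOf (g₁ * g₂) = Nat.card W₁ * Nat.card W₂ := by
      rw [hc12.orderOf_mul_eq_mul_orderOf_of_coprime hcop₂, ho₁, ho₂]
    have hmem : g₁ * g₂ ∈ W₁ ⊔ W₂ :=
      Subgroup.mul_mem _ (Subgroup.mem_sup_left hg₁) (Subgroup.mem_sup_right hg₂)
    have hle : Nat.card ↥(W₁ ⊔ W₂) ≤ Nat.card W₁ * Nat.card W₂ := by
      rw [← Nat.card_prod]
      apply Nat.card_le_card_of_surjective (fun p : W₁ × W₂ => (⟨p.1.1 * p.2.1, Subgroup.mul_mem _ (Subgroup.mem_sup_left p.1.2) (Subgroup.mem_sup_right p.2.2)⟩ : ↥(W₁ ⊔ W₂)))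
      rintro ⟨z, hz⟩
      obtain ⟨a, ha, b, hb, rfl⟩ := mem_sup_comm hcomm hz
      exact ⟨(⟨a, ha⟩, ⟨b, hb⟩), rfl⟩
    have hdvd : Nat.card W₁ * Nat.card W₂ ∣ Nat.card ↥(W₁ ⊔ W₂) := by
      rw [← hord, ← Subgroup.orderOf_mk _ hmem]
      exact orderOf_dvd_natCard _
    have hpos : 0 < Nat.card ↥(W₁ ⊔ W₂) := Nat.card_pos
    have heq : Nat.card ↥(W₁ ⊔ W₂) = Nat.card W₁ * Nat.card W₂ :=
      le_antisymm hle (Nat.le_of_dvd hpos hdvd)
    apply isCyclic_of_orderOf_eq_card (⟨_, hmem⟩ : ↥(W₁ ⊔ W₂))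
    rw [Subgroup.orderOf_mk, hord, heq]
  · -- the normaliser
    intro X hX hne
    obtain ⟨z, hz⟩ := hne
    apply le_antisymm
    · intro g hg
      obtain ⟨hzW, hznot⟩ := hX hz
      obtain ⟨a, ha, b, hb, rfl⟩ := mem_sup_comm hcomm hzW
      have ha1 : a ≠ 1 := by
        rintro rfl
        apply hznot
        right
        simpa using hb
      have hgz := (Subgroup.mem_set_normalizer_iff.mp hg (a * b)).mp hz
      obtain ⟨hzW', -⟩ := hX hgz
      obtain ⟨a', ha', b', hb', e⟩ := mem_sup_comm hcomm hzW'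
      have hconj : g * a * g⁻¹ = a' := by
        have h1 := hpart a ha b hb
        have h2 := hpart a' ha' b' hb'
        rw [← e, conj_pow, h1] at h2
        exact h2
      -- decompose `g`
      have hg' : g ∈ K ⊔ W₁ := by rw [hKW₁']; exact Subgroup.mem_top g
      rw [← SetLike.mem_coe, Subgroup.normal_mul] at hg'
      obtain ⟨k, hk, w, hw, rfl⟩ := hg'
      have hka : k * a * k⁻¹ = a' := by
        rw [← hconj]
        have h3 := hW₁comm w hw a ha
        calc k * a * k⁻¹ = k * (w * a * w⁻¹) * k⁻¹ := by rw [h3]; group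
          _ = _ := by group
      have hin : a' * a⁻¹ ∈ K ⊓ W₁ := by
        refine ⟨?_, Subgroup.mul_mem _ ha' (Subgroup.inv_mem _ ha)⟩
        rw [← hka]
        have : k * a * k⁻¹ * a⁻¹ = k * (a * k⁻¹ * a⁻¹) := by group
        rw [this]
        exact Subgroup.mul_mem _ hk (hK.conj_mem _ (Subgroup.inv_mem _ hk) a)
      rw [hKW₁] at hin
      have haa : a' = a := by
        have : a' * a⁻¹ = 1 := hin
        exact mul_inv_eq_one.mp this
      rw [haa] at hka
      have hkW : k ∈ K ⊓ Subgroup.centralizer ({a} : Set L) := by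
        refine ⟨hk, Subgroup.mem_centralizer_singleton_iff.mpr ?_⟩
        exact mul_inv_eq_iff_eq_mul.mp hka
      rw [hC a ha ha1] at hkW
      exact Subgroup.mul_mem _ (Subgroup.mem_sup_right hkW) (Subgroup.mem_sup_left hw)
    · intro g hg
      -- `W₁ ⊔ W₂` is commutative
      have hab : ∀ x ∈ W₁ ⊔ W₂, ∀ y ∈ W₁ ⊔ W₂, x * y = y * x := by
        intro x hx y hy
        obtain ⟨a, ha, b, hb, rfl⟩ := mem_sup_comm hcomm hx
        obtain ⟨a', ha', b', hb', rfl⟩ := mem_sup_comm hcomm hy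
        calc a * b * (a' * b') = a * (b * a') * b' := by group
          _ = a * (a' * b) * b' := by rw [hcomm a' ha' b hb]
          _ = (a * a') * (b * b') := by group
          _ = (a' * a) * (b' * b) := by rw [hW₁comm a ha a' ha', hW₂comm b hb b' hb']
          _ = a' * (a * b') * b := by group
          _ = a' * (b' * a) * b := by rw [hcomm a ha b' hb']
          _ = _ := by group
      rw [Subgroup.mem_set_normalizer_iff]
      intro h
      constructor
      · intro hh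
        have h1 := (hX hh).1
        have : g * h * g⁻¹ = h := by rw [hab g hg h h1]; group
        rw [this]
        exact hh
      · intro hh
        have h1 := (hX hh).1
        have h3 := hab g⁻¹ (Subgroup.inv_mem _ hg) _ h1
        have h4 : h = g * h * g⁻¹ := by
          calc h = g⁻¹ * (g * h * g⁻¹) * g := by group
            _ = (g * h * g⁻¹) * g⁻¹ * g := by rw [h3]
            _ = g * h * g⁻¹ := by group
        rw [h4]
        exact hh


end Cfsg.Agent.S1510
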