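import Cfsg.Statements.S1511
import Cfsg.Agent.Lib.Coprime.CycCent2
import Cfsg.Agent.Lib.Coprime.CopCover
import Mathlib

set_option autoImplicit false
open Cfsg

namespace Cfsg.Agent.S1511

open scoped ComplexConjugate
open Cfsg.Agent.Lib.Char Cfsg.Agent.Lib.Coprime Cfsg.Agent.Lib.Coprime.CycCent

/-- Let L be a finite group with K normal with complement W₁ ≠ 1 a cyclic Hall subgroup, and W₂ ≠ 1 a cyclic subgroup of K equal to C_K(x) for every non-identity x ∈ W₁, with W₁W₂ of odd order. Then there are a map μ from the linear characters of W = W₁ ⊔ W₂ to irreducible characters of L, injective, and a sign δ(ω) ∈ {1, −1} depending only on the values of ω on W₂, such that: for ω, ω' agreeing on W₂, the function induced to L from ω − ω' equals δ(ω) • (μ ω − μ ω'); μ ω x = δ(ω) ω x for x ∈ W outside W₂; every irreducible character of L not of the form μ ω vanishes on W outside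 W₂; and μ ω 1 − δ(ω) is an integer multiple of Nat.card W₁. -/
theorem result {L : Type*} [Group L] [Fintype L] (K W₁ W₂ : Subgroup L) [hK : K.Normal] (hKW₁ : K ⊓ W₁ = ⊥) (hKW₁' : K ⊔ W₁ = ⊤) (hW₁ : W₁ ≠ ⊥) (hW₁c : IsCyclic W₁) (hHall : Nat.Coprime (Nat.card W₁) W₁.index) (hW₂ : W₂ ≠ ⊥) (hW₂c : IsCyclic W₂) (hW₂K : W₂ ≤ K) (hC : ∀ x ∈ W₁, x ≠ 1 → K ⊓ Subgroup.centralizer ({x} : Set L) = W₂) (hodd : Odd (Nat.card ↥(W₁ ⊔ W₂))) : ∃ (μ : (↥(W₁ ⊔ W₂) →* ℂˣ) → (L → ℂ)) (δ : (↥(W₁ ⊔ W₂) →* ℂˣ) → ℂ), Function.Injective μ ∧ (∀ ω, Cfsg.IsIrrCharacter L (μ ω)) ∧ (∀ ω, δ ω = 1 ∨ δ ω = -1) ∧ (∀ ω ω' : ↥(W₁ ⊔ W₂) →* ℂˣ, (∀ w : ↥(W₁ ⊔ W₂), (w : L) ∈ W₂ → ω w = ω' w) → δ ω = δ ω' ∧ Cfsg.indFun (W₁ ⊔ W₂) (fun w => (ω w : ℂ) - (ω' w : ℂ)) = δ ω • (μ ω - μ ω')) ∧ (∀ ω, ∀ w : ↥(W₁ ⊔ W₂), (w : L) ∉ W₂ → μ ω w = δ ω * (ω w : ℂ)) ∧ (∀ θ : L → ℂ, Cfsg.IsIrrCharacter L θ → (∀ ω, θ ≠ μ ω) → ∀ w :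 ↥(W₁ ⊔ W₂), (w : L) ∉ W₂ → θ w = 0) ∧ (∀ ω, ∃ n : ℤ, μ ω 1 - δ ω = n * (Nat.card W₁ : ℂ)) := by
  classical
  have hcopK : (Nat.card K).Coprime (Nat.card W₁) := by
    have h1 := card_eq_index_of hK hKW₁ hKW₁'
    rw [h1] at hHall
    exact hHall.symm
  have hW₂comm : ∀ a ∈ W₂, ∀ b ∈ W₂, a * b = b * a := by
    intro a ha b hb
    haveI := hW₂c
    letI : CommGroup W₂ := IsCyclic.commGroup
    have := mul_comm (⟨a, ha⟩ : W₂) ⟨b, hb⟩
    exact congrArg Subtype.val this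
  have S : Setup K W₁ W₂ := ⟨hK, hKW₁, hKW₁', hW₁, hW₁c, hcopK, hW₂comm, hW₂K, hC⟩
  have hoddW₁ : Odd (Nat.card W₁) := Odd.of_dvd_nat hodd (Subgroup.card_dvd_of_le le_sup_left)
  obtain ⟨X, ε, hX, hXK, hε, hval, hcover⟩ := S.exists_family hoddW₁
  obtain ⟨π, hπ1, hπ2⟩ := S.exists_proj
  haveI := hW₁c
  letI : CommGroup W₁ := IsCyclic.commGroup
  letI : Fintype K := Fintype.ofFinite _
  letI : Fintype ↥(W₁ ⊔ W₂) := Fintype.ofFinite _
  letI : Fintype W₂ := Fintype.ofFinite _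
  -- the decomposition of the elements of `W`
  have hdec : ∀ w ∈ W₁ ⊔ W₂, ∃ c ∈ W₂, ∃ x ∈ W₁, w = c * x := by
    let T : Subgroup L :=
      { carrier := {w | ∃ c ∈ W₂, ∃ x ∈ W₁, w = c * x}
        mul_mem' := by
          rintro _ _ ⟨c, hc, x, hx, rfl⟩ ⟨c', hc', x', hx', rfl⟩
          refine ⟨c * c', W₂.mul_mem hc hc', x * x', W₁.mul_mem hx hx', ?_⟩
          have h1 : x * c' = c' * x := (S.commute hx hc').symm.eq
          calc c * x * (c' * x') = c * (x * c') * x' := by group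
            _ = c * (c' * x) * x' := by rw [h1]
            _ = _ := by group
        one_mem' := ⟨1, W₂.one_mem, 1, W₁.one_mem, by simp⟩
        inv_mem' := by
          rintro _ ⟨c, hc, x, hx, rfl⟩
          refine ⟨c⁻¹, W₂.inv_mem hc, x⁻¹, W₁.inv_mem hx, ?_⟩
          have h1 : x⁻¹ * c⁻¹ = c⁻¹ * x⁻¹ := ((S.commute hx hc).inv_inv).symm.eq
          rw [mul_inv_rev, h1] }
    have hT : W₁ ⊔ W₂ ≤ T := sup_le (fun x hx => ⟨1, W₂.one_mem, x, hx, by simp⟩) (fun c hc => ⟨c, hc, 1, W₁.one_mem, by simp⟩)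
    intro w hw
    exact hT hw
  let ι₂ : W₂ →* ↥(W₁ ⊔ W₂) := Subgroup.inclusion le_sup_right
  let ι₁ : W₁ →* ↥(W₁ ⊔ W₂) := Subgroup.inclusion le_sup_left
  let Ψ : (↥(W₁ ⊔ W₂) →* ℂˣ) → IrrCharacter W₂ := fun ω =>
    ⟨fun c => ((ω (ι₂ c) : ℂˣ) : ℂ), isIrrCharacter_of_hom (ω.comp ι₂)⟩
  let Λ : (↥(W₁ ⊔ W₂) →* ℂˣ) → (W₁ →* ℂˣ) := fun ω => ω.comp ι₁
  let μ : (↥(W₁ ⊔ W₂) →* ℂˣ) → L → ℂ := fun ω => X (Ψ ω) * tl π (Λ ω)
  let δ : (↥(W₁ ⊔ W₂) →* ℂˣ) → ℂ := fun ω => (ε (Ψ ω) : ℂ)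
  have hπK : ∀ c ∈ K, π c = 1 := fun c hc => (hπ2 c).mpr hc
  have hval2 : ∀ (ω : ↥(W₁ ⊔ W₂) →* ℂˣ), ∀ c : W₂, ∀ x : W₁, (x : L) ≠ 1 →
      μ ω ((c : L) * x) = δ ω * ((ω (ι₂ c * ι₁ x) : ℂˣ) : ℂ) := by
    intro ω c x hx
    show X (Ψ ω) ((c : L) * x) * tl π (Λ ω) ((c : L) * x) = _
    rw [hval (Ψ ω) x x.2 hx c]
    have h1 : π ((c : L) * x) = x := by
      rw [map_mul, hπK c (hW₂K c.2), one_mul, hπ1]
    simp only [tl, h1, map_mul, Units.val_mul]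
    show _ = δ ω * (((ω (ι₂ c) : ℂˣ) : ℂ) * ((ω (ι₁ x) : ℂˣ) : ℂ))
    have h2 : (Ψ ω : W₂ → ℂ) c = ((ω (ι₂ c) : ℂˣ) : ℂ) := rfl
    have h3 : ((Λ ω x : ℂˣ) : ℂ) = ((ω (ι₁ x) : ℂˣ) : ℂ) := rfl
    rw [h2, h3]
    show (ε (Ψ ω) : ℂ) * _ * _ = (ε (Ψ ω) : ℂ) * _
    ring
  have hWdec : ∀ w : ↥(W₁ ⊔ W₂), ∃ (c : W₂) (x : W₁), w = ι₂ c * ι₁ x := by
    rintro ⟨w, hw⟩
    obtain ⟨c, hc, x, hx, rfl⟩ := hdec w hw
    exact ⟨⟨c, hc⟩, ⟨x, hx⟩, Subtype.ext rfl⟩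
  have hnotW₂ : ∀ (c : W₂) (x : W₁), ((c : L) * x) ∉ W₂ → (x : L) ≠ 1 := by
    intro c x h hx
    apply h
    rw [hx, mul_one]
    exact c.2
  have hval3 : ∀ (ω : ↥(W₁ ⊔ W₂) →* ℂˣ) (w : ↥(W₁ ⊔ W₂)), (w : L) ∉ W₂ → μ ω w = δ ω * ((ω w : ℂˣ) : ℂ) := by
    intro ω w hw
    obtain ⟨c, x, rfl⟩ := hWdec w
    exact hval2 ω c x (hnotW₂ c x hw)
  have hδ : ∀ ω, δ ω = 1 ∨ δ ω = -1 := by
    intro ω
    rcases hε (Ψ ω) with h | h
    · left; show (ε (Ψ ω) : ℂ) = 1; rw [h]; simp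
    · right; show (ε (Ψ ω) : ℂ) = -1; rw [h]; simp
  have hδ0 : ∀ ω, δ ω ≠ 0 := by
    intro ω
    rcases hδ ω with h | h <;> rw [h] <;> simp
  have hμirr : ∀ ω, IsIrrCharacter L (μ ω) := fun ω => isIrr_mul_tl π (Λ ω) ⟨X (Ψ ω), hX _⟩
  -- the element `x₀`
  obtain ⟨x₀, hx₀⟩ := S.exists_gen
  have hx₀1 : x₀ ≠ 1 := by
    rintro rfl
    apply hW₁
    rw [← hx₀]
    simp
  have hx₀m : x₀ ∈ W₁ := by rw [← hx₀]; exact Subgroup.mem_zpowers x₀
  have hinj : Function.Injective μ := by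
    intro ω ω' h
    have hall : ∀ (c : W₂) (x : W₁), (x : L) ≠ 1 → δ ω * ((ω (ι₂ c * ι₁ x) : ℂˣ) : ℂ) = δ ω' * ((ω' (ι₂ c * ι₁ x) : ℂˣ) : ℂ) := by
      intro c x hx
      rw [← hval2 ω c x hx, ← hval2 ω' c x hx, h]
    let y₀ : W₁ := ⟨x₀, hx₀m⟩
    have h1 : ∀ c : W₂, ((ω (ι₂ c) : ℂˣ) : ℂ) = ((ω' (ι₂ c) : ℂˣ) : ℂ) := by
      intro c
      have h2 := hall c y₀ hx₀1
      have h3 := hall 1 y₀ hx₀1
      simp only [map_mul, Units.val_mul, map_one, Units.val_one, one_mul] at h2 h3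
      have h4 : ((ω (ι₁ y₀) : ℂˣ) : ℂ) ≠ 0 := Units.ne_zero _
      have h5 : δ ω * ((ω (ι₁ y₀) : ℂˣ) : ℂ) ≠ 0 := mul_ne_zero (hδ0 ω) h4
      have h6 : (δ ω * ((ω (ι₁ y₀) : ℂˣ) : ℂ)) * ((ω (ι₂ c) : ℂˣ) : ℂ) = (δ ω * ((ω (ι₁ y₀) : ℂˣ) : ℂ)) * ((ω' (ι₂ c) : ℂˣ) : ℂ) := by
        linear_combination h2 - ((ω' (ι₂ c) : ℂˣ) : ℂ) * h3
      exact mul_left_cancel₀ h5 h6
    have hΨ : Ψ ω = Ψ ω' := Subtype.ext (funext h1)
    have hδeq : δ ω = δ ω' := by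
      show (ε (Ψ ω) : ℂ) = (ε (Ψ ω') : ℂ)
      rw [hΨ]
    have h2 : ∀ x : W₁, ((ω (ι₁ x) : ℂˣ) : ℂ) = ((ω' (ι₁ x) : ℂˣ) : ℂ) := by
      intro x
      by_cases hx : (x : L) = 1
      · have : x = 1 := Subtype.ext hx
        rw [this]
        simp
      · have h3 := hall 1 x hx
        simp only [map_mul, Units.val_mul, map_one, Units.val_one, one_mul] at h3
        rw [hδeq] at h3
        exact mul_left_cancel₀ (hδ0 ω') h3
    ext w
    obtain ⟨c, x, rfl⟩ := hWdec w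
    simp only [map_mul, Units.val_mul]
    rw [h1 c, h2 x]
  -- irreducible characters other than the `μ ω` vanish outside `W₂`
  have hvan : ∀ θ : L → ℂ, IsIrrCharacter L θ → (∀ ω, θ ≠ μ ω) → ∀ w : ↥(W₁ ⊔ W₂), (w : L) ∉ W₂ → θ w = 0 := by
    intro θ hθ hne w hw
    obtain ⟨c, x, rfl⟩ := hWdec w
    have hx : (x : L) ≠ 1 := hnotW₂ c x hw
    have hwK : (c : L) * x ∉ K := by
      intro h
      have h1 : (x : L) ∈ K := by
        have := K.mul_mem (K.inv_mem (hW₂K c.2)) h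
        simpa using this
      exact hx (S.eq_one_of_mem x.2 h1)
    -- a constituent on `K`
    have hres : IsCharacter K (fun n : K => θ n) := IsCharacter.restrict K (IsIrrCharacter.isCharacter hθ)
    have hne0 : (fun n : K => θ n) ≠ 0 := by
      intro h0
      have h1 := congrFun h0 1
      simp only [OneMemClass.coe_one, Pi.zero_apply] at h1
      exact map_one_ne_zero_of_irr hθ h1
    obtain ⟨ϑ, hϑ, hin⟩ := exists_constituent hres hne0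
    by_cases hinv : ∀ y ∈ W₁, Fix S.normal y ϑ
    · exfalso
      obtain ⟨ψ, hψ⟩ := hcover ϑ hϑ hinv
      have hext : ∀ n : K, X ψ n = ϑ n := fun n => congrFun hψ n
      have hb := gallagher_ext K hϑ (hX ψ) hext
      obtain ⟨β, ⟨hβ, hβK⟩, hβeq⟩ := hb.surjOn ⟨hθ, hin⟩
      obtain ⟨β₁, hβ₁⟩ := exists_descend π (fun w => ⟨w, hπ1 w⟩) ⟨β, hβ⟩ (fun a ha => hβK a ((hπ2 a).mp ha))
      have hlin : (β₁ : W₁ → ℂ) 1 = 1 :=
        charDegree_eq_one_of_comm (fun a b => mul_comm a b) β₁.2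
      obtain ⟨l, hl⟩ := exists_hom_of_character_one (IsIrrCharacter.isCharacter β₁.2) hlin
      obtain ⟨lψ, hlψ⟩ := S.exists_hom ψ
      have hmem : ∀ v : ↥(W₁ ⊔ W₂), (v : L) * ((π v : W₁) : L)⁻¹ ∈ W₂ := by
        intro v
        obtain ⟨d, y, rfl⟩ := hWdec v
        have h1 : π ((ι₂ d * ι₁ y : ↥(W₁ ⊔ W₂)) : L) = y := by
          show π ((d : L) * (y : L)) = y
          rw [map_mul, hπK d (hW₂K d.2), one_mul, hπ1]
        rw [h1]
        show (d : L) * y * (y : L)⁻¹ ∈ W₂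
        simp
      let p₂ : ↥(W₁ ⊔ W₂) →* W₂ := MonoidHom.mk' (fun v => ⟨(v : L) * ((π v : W₁) : L)⁻¹, hmem v⟩) (by
        intro a b
        apply Subtype.ext
        show ((a : L) * b) * ((π ((a : L) * b) : W₁) : L)⁻¹ = ((a : L) * ((π a : W₁) : L)⁻¹) * ((b : L) * ((π b : W₁) : L)⁻¹)
        rw [map_mul, Subgroup.coe_mul, mul_inv_rev]
        have h1 : Commute ((b : L) * ((π b : W₁) : L)⁻¹) ((π a : W₁) : L)⁻¹ :=
          (S.commute (π a).2 (hmem b)).inv_right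
        have h2 : (b : L) * ((π b : W₁) : L)⁻¹ * ((π a : W₁) : L)⁻¹ = ((π a : W₁) : L)⁻¹ * ((b : L) * ((π b : W₁) : L)⁻¹) := h1
        calc (a : L) * b * (((π b : W₁) : L)⁻¹ * ((π a : W₁) : L)⁻¹)
            = (a : L) * ((b : L) * ((π b : W₁) : L)⁻¹ * ((π a : W₁) : L)⁻¹) := by group
          _ = (a : L) * (((π a : W₁) : L)⁻¹ * ((b : L) * ((π b : W₁) : L)⁻¹)) := by rw [h2]
          _ = _ := by group)
      let ω : ↥(W₁ ⊔ W₂) →* ℂˣ := (lψ.comp p₂) * (l.comp (π.comp (W₁ ⊔ W₂).subtype))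
      have hΨ : Ψ ω = ψ := by
        apply Subtype.ext
        funext d
        show ((ω (ι₂ d) : ℂˣ) : ℂ) = (ψ : W₂ → ℂ) d
        have h1 : π (d : L) = 1 := hπK d (hW₂K d.2)
        have h2 : p₂ (ι₂ d) = d := by
          apply Subtype.ext
          show (d : L) * ((π (d : L) : W₁) : L)⁻¹ = d
          rw [h1]
          simp
        have h3 : ω (ι₂ d) = lψ (p₂ (ι₂ d)) * l (π (d : L)) := rfl
        rw [h3, h2, h1, map_one, mul_one, hlψ]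
      have hΛ : Λ ω = l := by
        ext y
        show ((ω (ι₁ y) : ℂˣ) : ℂ) = ((l y : ℂˣ) : ℂ)
        have h1 : π (y : L) = y := hπ1 y
        have h2 : p₂ (ι₁ y) = 1 := by
          apply Subtype.ext
          show (y : L) * ((π (y : L) : W₁) : L)⁻¹ = 1
          rw [h1]
          simp
        have h3 : ω (ι₁ y) = lψ (p₂ (ι₁ y)) * l (π (y : L)) := rfl
        rw [h3, h2, h1, map_one, one_mul]
      apply hne ω
      show θ = X (Ψ ω) * tl π (Λ ω)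
      rw [hΨ, hΛ, ← hβeq, mul_comm]
      congr 1
      funext g
      have h5 : (β₁ : W₁ → ℂ) (π g) = β g := hβ₁ g
      rw [← h5]
      exact congrFun hl (π g)
    · push Not at hinv
      obtain ⟨y, hy, hnf⟩ := hinv
      have hind := S.ind_irr hϑ ⟨y, hy, hnf⟩
      have hθeq : θ = indFun K ϑ := by
        by_contra hcon
        have h1 := classInner_irr_of_ne hθ hind hcon
        rw [← conj_classInner, frobenius_reciprocity K ϑ θ (IsCharacter.isClassFunction (IsIrrCharacter.isCharacter hθ))] at h1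
        have h2 : classInner ϑ (fun n : K => θ n) = 0 := by simpa using h1
        apply hin
        rw [← conj_classInner, h2]
        simp
      rw [hθeq]
      show indFun K ϑ ((c : L) * x) = 0
      rw [indFun_apply]
      have h2 : ∀ v : L, extendByZero K ϑ (v⁻¹ * ((c : L) * x) * v) = 0 := by
        intro v
        refine extendByZero_of_not_mem K ϑ fun h3 => hwK ?_
        have := S.normal.conj_mem _ h3 v
        simpa [mul_assoc] using this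
      simp [h2]
  -- the inner products on `W`
  have hWinner : ∀ ν ω : ↥(W₁ ⊔ W₂) →* ℂˣ, classInner (fun w : ↥(W₁ ⊔ W₂) => ((ω w : ℂˣ) : ℂ)) (fun w => ((ν w : ℂˣ) : ℂ)) = if ω = ν then 1 else 0 := by
    intro ν ω
    split_ifs with h
    · rw [h]
      exact classInner_irr_self (isIrrCharacter_of_hom ν)
    · refine classInner_irr_of_ne (isIrrCharacter_of_hom ω) (isIrrCharacter_of_hom ν) fun h2 => h ?_
      ext w
      exact congrFun h2 w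
  have hLinner : ∀ ν ω : ↥(W₁ ⊔ W₂) →* ℂˣ, classInner (μ ω) (μ ν) = if ω = ν then 1 else 0 := by
    intro ν ω
    split_ifs with h
    · rw [h]
      exact classInner_irr_self (hμirr ν)
    · exact classInner_irr_of_ne (hμirr ω) (hμirr ν) fun h2 => h (hinj h2)
  have hδreal : ∀ ω, conj (δ ω) = δ ω := by
    intro ω
    show conj ((ε (Ψ ω) : ℂ)) = (ε (Ψ ω) : ℂ)
    simp
  -- the induced function
  have hind : ∀ ω ω' : ↥(W₁ ⊔ W₂) →* ℂˣ, (∀ w : ↥(W₁ ⊔ W₂), (w : L) ∈ W₂ → ω w = ω' w) →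
      δ ω = δ ω' ∧ Cfsg.indFun (W₁ ⊔ W₂) (fun w => ((ω w : ℂˣ) : ℂ) - ((ω' w : ℂˣ) : ℂ)) = δ ω • (μ ω - μ ω') := by
    intro ω ω' hag
    have hΨ : Ψ ω = Ψ ω' := by
      apply Subtype.ext
      funext c
      show ((ω (ι₂ c) : ℂˣ) : ℂ) = ((ω' (ι₂ c) : ℂˣ) : ℂ)
      rw [hag _ c.2]
    have hδeq : δ ω = δ ω' := by
      show (ε (Ψ ω) : ℂ) = (ε (Ψ ω') : ℂ)
      rw [hΨ]
    refine ⟨hδeq, ?_⟩
    set f : ↥(W₁ ⊔ W₂) → ℂ := fun w => ((ω w : ℂˣ) : ℂ) - ((ω' w : ℂˣ) : ℂ) with hf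
    have hf0 : ∀ w : ↥(W₁ ⊔ W₂), (w : L) ∈ W₂ → f w = 0 := by
      intro w hw
      show ((ω w : ℂˣ) : ℂ) - ((ω' w : ℂˣ) : ℂ) = 0
      rw [hag w hw, sub_self]
    have hcl1 : IsClassFunction L (indFun (W₁ ⊔ W₂) f) := indFun_isClassFunction _ f
    have hcl2 : IsClassFunction L (δ ω • (μ ω - μ ω')) := by
      intro g h
      have h1 := IsCharacter.isClassFunction (IsIrrCharacter.isCharacter (hμirr ω)) g h
      have h2 := IsCharacter.isClassFunction (IsIrrCharacter.isCharacter (hμirr ω')) g h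
      simp only [Pi.smul_apply, Pi.sub_apply, smul_eq_mul, h1, h2]
    have hinner : ∀ ζ : IrrCharacter L, classInner (indFun (W₁ ⊔ W₂) f) (ζ : L → ℂ) = classInner (δ ω • (μ ω - μ ω')) (ζ : L → ℂ) := by
      intro ζ
      have hRHS : classInner (δ ω • (μ ω - μ ω')) (ζ : L → ℂ) = δ ω * (classInner (μ ω) (ζ : L → ℂ) - classInner (μ ω') (ζ : L → ℂ)) := by
        rw [classInner_smul_left, classInner_sub_left]
      rw [frobenius_reciprocity _ f _ (IsCharacter.isClassFunction (IsIrrCharacter.isCharacter ζ.2)), hRHS]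
      by_cases hζ : ∃ ν, (ζ : L → ℂ) = μ ν
      · obtain ⟨ν, hν⟩ := hζ
        rw [hν, hLinner ν ω, hLinner ν ω']
        have h1 : classInner f (fun w : ↥(W₁ ⊔ W₂) => μ ν w) = δ ν * (classInner (fun w : ↥(W₁ ⊔ W₂) => ((ω w : ℂˣ) : ℂ)) (fun w => ((ν w : ℂˣ) : ℂ)) -
            classInner (fun w : ↥(W₁ ⊔ W₂) => ((ω' w : ℂˣ) : ℂ)) (fun w => ((ν w : ℂˣ) : ℂ))) := by
          rw [← classInner_sub_left]
          simp only [classInner_def]
          rw [mul_left_comm]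
          congr 1
          rw [Finset.mul_sum]
          refine Finset.sum_congr rfl fun w _ => ?_
          simp only [Pi.sub_apply]
          by_cases hw : (w : L) ∈ W₂
          · have h2 := hf0 w hw
            have h3 : ((ω w : ℂˣ) : ℂ) - ((ω' w : ℂˣ) : ℂ) = 0 := h2
            rw [h2, zero_mul, h3, zero_mul, mul_zero]
          · rw [hval3 ν w hw, map_mul, hδreal]
            show (((ω w : ℂˣ) : ℂ) - ((ω' w : ℂˣ) : ℂ)) * _ = _
            ring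
        rw [h1, hWinner, hWinner]
        by_cases h2 : ω = ν
        · have h3 : δ ν = δ ω := by rw [h2]
          rw [h3]
        · by_cases h4 : ω' = ν
          · have h3 : δ ν = δ ω := by rw [← h4, hδeq]
            rw [h3]
          · rw [if_neg h2, if_neg h4]
            simp
      · push Not at hζ
        have hne1 : (ζ : L → ℂ) ≠ μ ω := hζ ω
        have hne2 : (ζ : L → ℂ) ≠ μ ω' := hζ ω'
        have hv := hvan ζ ζ.2 hζ
        rw [classInner_irr_of_ne (hμirr ω) ζ.2 hne1.symm, classInner_irr_of_ne (hμirr ω') ζ.2 hne2.symm]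
        simp only [sub_self, mul_zero, classInner_def]
        refine mul_eq_zero_of_right _ (Finset.sum_eq_zero fun w _ => ?_)
        by_cases hw : (w : L) ∈ W₂
        · rw [hf0 w hw, zero_mul]
        · rw [hv w hw, map_zero, mul_zero]
    rw [classFunction_eq_sum _ hcl1, classFunction_eq_sum _ hcl2]
    refine Finset.sum_congr rfl fun ζ _ => ?_
    rw [hinner ζ]
  refine ⟨μ, δ, hinj, hμirr, hδ, hind, hval3, hvan, ?_⟩
  intro ω
  have hψ1 : ∀ x ∈ W₁, x ≠ 1 → X (Ψ ω) x = (ε (Ψ ω) : ℂ) := by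
    intro x hx hx1
    have h1 := hval (Ψ ω) x hx hx1 1
    have h2 : (Ψ ω : W₂ → ℂ) 1 = 1 := by
      show ((ω (ι₂ 1) : ℂˣ) : ℂ) = 1
      simp
    rw [h2, mul_one] at h1
    simpa using h1
  obtain ⟨n, hn⟩ := S.degree_cong (IsIrrCharacter.isCharacter (hX (Ψ ω))) hψ1
  refine ⟨n, ?_⟩
  show (X (Ψ ω) * tl π (Λ ω)) 1 - (ε (Ψ ω) : ℂ) = _
  rw [Pi.mul_apply, tl_map_one, mul_one]
  exact hn

end Cfsg.Agent.S1511
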