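import Cfsg.Statements.S1512
import Mathlib

set_option autoImplicit false
open Cfsg

namespace Cfsg.Agent.S1512


theorem exists_fixed_in_class {L : Type*} [Group L] [Finite L] (K W₂ : Subgroup L) [hK : K.Normal] (x : L) (hx1 : x ≠ 1)
    (hx : Nat.Coprime (orderOf x) (Nat.card K))
    (hC : ∀ y ∈ Subgroup.zpowers x, y ≠ 1 → K ⊓ Subgroup.centralizer ({y} : Set L) = W₂)
    (C : ConjClasses K)
    (hstable : ConjClasses.map (MulEquiv.toMonoidHom ((MulAut.conjNormal x : MulAut K))) C = C) :
    ∃ g : K, ConjClasses.mk g = C ∧ (g : L) ∈ W₂ := by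
  classical
  haveI : Fintype K := Fintype.ofFinite K
  have hord : orderOf x ≠ 1 := fun h => hx1 (orderOf_eq_one_iff.mp h)
  have hord0 : orderOf x ≠ 0 := (orderOf_pos x).ne'
  set r := (orderOf x).minFac with hr
  have hrp : r.Prime := Nat.minFac_prime hord
  haveI : Fact r.Prime := ⟨hrp⟩
  have hrd : r ∣ orderOf x := Nat.minFac_dvd _
  set y := x ^ (orderOf x / r) with hy
  have hyo : orderOf y = r := orderOf_pow_orderOf_div hord0 hrd
  have hy1 : y ≠ 1 := by
    intro h
    rw [h, orderOf_one] at hyo
    exact hrp.one_lt.ne hyo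
  have hyz : y ∈ Subgroup.zpowers x := Subgroup.npow_mem_zpowers x _
  have hrK : ¬ r ∣ Nat.card K := by
    intro h
    have := Nat.Coprime.eq_one_of_dvd (Nat.Coprime.coprime_dvd_left hrd hx) h
    exact hrp.one_lt.ne' this
  -- closure of the class under `x` and powers
  have step : ∀ a : K, ConjClasses.mk a = C → ConjClasses.mk ((MulAut.conjNormal x : MulAut K) a) = C := by
    intro a ha
    have : ConjClasses.map (MulEquiv.toMonoidHom ((MulAut.conjNormal x : MulAut K))) (ConjClasses.mk a) =
        ConjClasses.mk ((MulAut.conjNormal x : MulAut K) a) := rfl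
    rw [← this, ha, hstable]
  have stepk : ∀ (k : ℕ) (a : K), ConjClasses.mk a = C →
      ConjClasses.mk ((MulAut.conjNormal (x ^ k) : MulAut K) a) = C := by
    intro k
    induction k with
    | zero =>
      intro a ha
      simpa using ha
    | succ k ih =>
      intro a ha
      rw [pow_succ', map_mul, MulAut.mul_apply]
      exact step _ (ih a ha)
  have stepy : ∀ a : K, ConjClasses.mk a = C → ConjClasses.mk ((MulAut.conjNormal y : MulAut K) a) = C :=
    fun a ha => stepk _ a ha
  let X := {a : K // ConjClasses.mk a = C}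
  let f : Function.End X := fun a => ⟨(MulAut.conjNormal y : MulAut K) a.1, stepy a.1 a.2⟩
  have hfk : ∀ (k : ℕ) (a : X), ((f ^ k) a).1 = (MulAut.conjNormal (y ^ k) : MulAut K) a.1 := by
    intro k
    induction k with
    | zero =>
      intro a
      rw [pow_zero, pow_zero, map_one]
      rfl
    | succ k ih =>
      intro a
      show ((f ^ k) (f a)).1 = _
      rw [ih, pow_succ, map_mul, MulAut.mul_apply]
  have hfr : f ^ r ^ 1 = 1 := by
    funext a
    apply Subtype.ext
    rw [pow_one, hfk, ← hyo, pow_orderOf_eq_one, map_one]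
    rfl
  have hmod := Equiv.Perm.card_fixedPoints_modEq (f := f) (p := r) (n := 1) hfr
  -- the size of the class
  obtain ⟨g₀, rfl⟩ := ConjClasses.mk_surjective C
  have hcardX : Fintype.card X ∣ Fintype.card K := by
    have e : Fintype.card X = Fintype.card (ConjClasses.mk g₀).carrier :=
      Fintype.card_congr (Equiv.subtypeEquivRight fun a => ConjClasses.mem_carrier_iff_mk_eq.symm)
    rw [e, ConjClasses.card_carrier]
    apply Nat.div_dvd_of_dvd
    have := Subgroup.card_subgroup_dvd_card (MulAction.stabilizer (ConjAct K) g₀)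
    simpa [ConjAct.card] using this
  have hrX : ¬ r ∣ Fintype.card X := by
    intro h
    apply hrK
    rw [Nat.card_eq_fintype_card]
    exact h.trans hcardX
  have hne : Nonempty (f.fixedPoints) := by
    by_contra hemp
    rw [not_nonempty_iff] at hemp
    have h0 : Fintype.card f.fixedPoints = 0 := Fintype.card_eq_zero
    rw [h0] at hmod
    exact hrX ((Nat.modEq_zero_iff_dvd).mp hmod)
  obtain ⟨⟨a, ha⟩⟩ := hne
  refine ⟨a.1, a.2, ?_⟩
  have h1 : (MulAut.conjNormal y : MulAut K) a.1 = a.1 := congrArg Subtype.val ha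
  have h2 : y * (a.1 : L) * y⁻¹ = a.1 := congrArg Subtype.val h1
  rw [← hC y hyz hy1]
  refine ⟨a.1.2, ?_⟩
  exact Subgroup.mem_centralizer_singleton_iff.mpr (mul_inv_eq_iff_eq_mul.mp h2).symm

/-- Let K be a normal subgroup of the finite group L and x a non-identity element whose order is coprime to the order of K, such that K ⊓ C_L(y) = W₂ for every non-identity element y of the cyclic group generated by x. Then the number of conjugacy classes of K mapped to themselves by conjugation by x is at most Nat.card W₂. -/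
theorem result {L : Type*} [Group L] [Finite L] (K W₂ : Subgroup L) [hK : K.Normal] (x : L) (hx1 : x ≠ 1) (hx : Nat.Coprime (orderOf x) (Nat.card K)) (hC : ∀ y ∈ Subgroup.zpowers x, y ≠ 1 → K ⊓ Subgroup.centralizer ({y} : Set L) = W₂) : Nat.card {C : ConjClasses K // ConjClasses.map (MulEquiv.toMonoidHom ((MulAut.conjNormal x : MulAut K))) C = C} ≤ Nat.card W₂ := by
  classical
  have hex := fun C : {C : ConjClasses K // ConjClasses.map (MulEquiv.toMonoidHom ((MulAut.conjNormal x : MulAut K))) C = C} =>
    exists_fixed_in_class K W₂ x hx1 hx hC C.1 C.2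
  choose g hg1 hg2 using hex
  have hinj : Function.Injective (fun C => (⟨(g C : L), hg2 C⟩ : W₂)) := by
    intro C C' h
    have h1 : (⟨(g C : L), hg2 C⟩ : W₂) = ⟨(g C' : L), hg2 C'⟩ := h
    have h1' : (g C : L) = (g C' : L) := congrArg (fun z : W₂ => (z : L)) h1
    have h2 : g C = g C' := Subtype.ext h1'
    apply Subtype.ext
    rw [← hg1 C, ← hg1 C', h2]
  exact Nat.card_le_card_of_injective _ hinj


end Cfsg.Agent.S1512
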