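import Cfsg.Statements.S1513
import Cfsg.Agent.Lib.Coprime.CycCent
import Mathlib

set_option autoImplicit false
open Cfsg

namespace Cfsg.Agent.S1513

open Cfsg.Agent.Lib.Coprime.CycCent

/-- Let L be a finite group with K normal with complement W₁ ≠ 1 a cyclic Hall subgroup, and W₂ ≠ 1 a cyclic subgroup of K equal to C_K(x) for every non-identity x ∈ W₁, with W₁W₂ of odd order. For an irreducible character θ of K: if θ is not fixed under conjugation by some element of W₁, then the function induced from θ to L is an irreducible character of L; and the irreducible characters of K fixed by all of W₁ are exactly Nat.card W₂ in number, each inducing to the sum of Nat.card W₁ pairwise distinct irreducible characters of L. -/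
theorem result {L : Type*} [Group L] [Fintype L] (K W₁ W₂ : Subgroup L) [hK : K.Normal] (hKW₁ : K ⊓ W₁ = ⊥) (hKW₁' : K ⊔ W₁ = ⊤) (hW₁ : W₁ ≠ ⊥) (hW₁c : IsCyclic W₁) (hHall : Nat.Coprime (Nat.card W₁) W₁.index) (hW₂ : W₂ ≠ ⊥) (hW₂c : IsCyclic W₂) (hW₂K : W₂ ≤ K) (hC : ∀ x ∈ W₁, x ≠ 1 → K ⊓ Subgroup.centralizer ({x} : Set L) = W₂) (hodd : Odd (Nat.card ↥(W₁ ⊔ W₂))) : (∀ θ : K → ℂ, Cfsg.IsIrrCharacter K θ → (∃ x ∈ W₁, (fun k : K => θ ⟨x * k * x⁻¹, hK.conj_mem (k : L) k.2 x⟩) ≠ θ) → Cfsg.IsIrrCharacter L (Cfsg.indFun K θ)) ∧ Nat.card {θ : Cfsg.IrrCharacter K // ∀ x ∈ W₁, (fun k : K => (θ : K → ℂ) ⟨x * k * x⁻¹, hK.conj_mem (k : L) k.2 x⟩) = θ} = Nat.card W₂ ∧ (∀ θ : K → ℂ, Cfsg.IsIrrCharacter K θ → (∀ x ∈ W₁, (fun k : K => θ ⟨x * k * x⁻¹, hK.conj_mem (k : L) k.2 x⟩) = θ) → ∃ C : Finset (L → ℂ), C.card = Nat.card W₁ ∧ (∀ μ ∈ C, Cfsg.IsIrrCharacter L μ) ∧ Cfsg.indFun K θ = ∑ μ ∈ C, μ) := by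
  have hcopK : (Nat.card K).Coprime (Nat.card W₁) := by
    have h1 := card_eq_index_of hK hKW₁ hKW₁'
    rw [h1] at hHall
    exact hHall.symm
  have hW₂comm : ∀ a ∈ W₂, ∀ b ∈ W₂, a * b = b * a := by
    intro a ha b hb
    haveI := hW₂c
    letI : CommGroup W₂ := IsCyclic.commGroup
    have := mul_comm (⟨a, ha⟩ : W₂) ⟨b, hb⟩
    exact congrArg Subtype.val this
  have S : Setup K W₁ W₂ := ⟨hK, hKW₁, hKW₁', hW₁, hW₁c, hcopK, hW₂comm, hW₂K, hC⟩
  refine ⟨?_, ?_, ?_⟩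
  · rintro θ hθ ⟨x, hx, hne⟩
    refine S.ind_irr hθ ⟨x, hx, fun h => hne ?_⟩
    funext n
    exact h n
  · rw [← S.card_fix_all]
    refine Nat.card_congr (Equiv.subtypeEquivRight fun χ => ?_)
    constructor
    · intro h x hx n
      exact congrFun (h x hx) n
    · intro h x hx
      funext n
      exact h x hx n
  · intro θ hθ h
    refine S.ind_sum hθ fun x hx n => ?_
    exact congrFun (h x hx) n

end Cfsg.Agent.S1513
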