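import Cfsg.Statements.S1515
import Cfsg.Agent.Lib.OddChar.Coh2

set_option autoImplicit false
open Cfsg

namespace Cfsg.Agent.S1515

/-- Let (S, τ, R) be a coherence system from L to G, χ ∈ S, and ψ an integer combination of S with ⟨χ, ψ⟩ = ⟨conj χ, ψ⟩ = 0. Let τ₁ be a linear isometry on the integer combinations of χ − ψ and χ − conj χ, with virtual-character values, agreeing with τ on integer multiples of χ − conj χ. Then the sum over α ∈ R χ of the squared absolute values of ⟨τ₁(χ − ψ), α⟩ is at least ⟨χ, χ⟩; and if ⟨τ₁(χ − ψ), τ₁(χ − ψ)⟩ minus that sum is at least ⟨ψ, ψ⟩, then the sum equals ⟨χ, χ⟩ and every ⟨τ₁(χ − ψ), α⟩ with α ∈ R χ is 0 or 1. -/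
theorem result {L : Type*} [Group L] [Fintype L] {G : Type*} [Group G] [Fintype G] (S : Set (L → ℂ)) (τ : (L → ℂ) → (G → ℂ)) (R : (L → ℂ) → Finset (G → ℂ)) (hS : Cfsg.IsCoherenceSystem S τ R) (χ : L → ℂ) (hχ : χ ∈ S) (ψ : L → ℂ) (hψ : ψ ∈ Cfsg.zspan S) (h1 : Cfsg.classInner χ ψ = 0) (h2 : Cfsg.classInner (Cfsg.conjFun χ) ψ = 0) (τ₁ : (L → ℂ) → (G → ℂ)) (hτ₁ : Cfsg.IsLinearIsometryOn (Cfsg.zspan {χ - ψ, χ - Cfsg.conjFun χ}) τ₁) (hagree : ∀ n : ℤ, τ₁ (n • (χ - Cfsg.conjFun χ)) = τ (n • (χ - Cfsg.conjFun χ))) : (Cfsg.classInner χ χ).re ≤ ∑ α ∈ R χ, ‖Cfsg.classInner (τ₁ (χ - ψ)) α‖ ^ 2 ∧ ((Cfsg.classInner ψ ψ).re ≤ (Cfsg.classInner (τ₁ (χ - ψ)) (τ₁ (χ - ψ))).re - ∑ α ∈ R χ, ‖Cfsg.classInner (τ₁ (χ - ψ)) α‖ ^ 2 → (∑ α ∈ R χ, ‖Cfsg.classInner (τ₁ (χ - ψ)) α‖ ^ 2 = (Cfsg.classInner χ χ).re ∧ ∀ α ∈ R χ, Cfsg.classInner (τ₁ (χ - ψ)) α = 0 ∨ Cfsg.classInner (τ₁ (χ - ψ))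 α = 1)) := by
  open Cfsg.Agent.Lib.Char Cfsg.Agent.Lib.OddChar in
  classical
  obtain ⟨n, hn, hnpos⟩ := sys_norm_nat hS hχ
  have hχc := hS.conj_mem χ hχ
  have hmem1 : χ - ψ ∈ zspan {χ - ψ, χ - conjFun χ} :=
    mem_zspan_of_mem (by simp)
  have hmem2 : χ - conjFun χ ∈ zspan {χ - ψ, χ - conjFun χ} :=
    mem_zspan_of_mem (by simp)
  have hag1 : τ₁ (χ - conjFun χ) = τ (χ - conjFun χ) := by
    have := hagree 1
    simpa using this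
  have hψχ : classInner ψ χ = 0 := by rw [← conj_classInner, h1, map_zero]
  have hψχc : classInner ψ (conjFun χ) = 0 := by rw [← conj_classInner, h2, map_zero]
  have hy : IsGeneralizedCharacter G (τ₁ (χ - ψ)) := hτ₁.2.2.2 _ hmem1
  have hin : classInner (τ₁ (χ - ψ)) (τ (χ - conjFun χ)) = n := by
    rw [← hag1, hτ₁.2.2.1 _ hmem1 _ hmem2, classInner_sub_left, classInner_sub_right,
      classInner_sub_right, hn, sys_conj_orth hS hχ, hψχ, hψχc]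
    ring
  obtain ⟨m, hm, hsum, hge, hsq⟩ := sys_sum_sq_ge hS hχ hy hin
  have hnre : (classInner χ χ).re = n := by rw [hn]; simp
  have hnorm : classInner (τ₁ (χ - ψ)) (τ₁ (χ - ψ)) = n + classInner ψ ψ := by
    rw [hτ₁.2.2.1 _ hmem1 _ hmem1, classInner_sub_left, classInner_sub_right,
      classInner_sub_right, hn, h1, hψχ]
    ring
  rw [hnre, hsq]
  refine ⟨by exact_mod_cast hge, fun hle => ?_⟩
  rw [hnorm, Complex.add_re] at hle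
  have h5 : ((∑ α ∈ R χ, m α ^ 2 : ℤ) : ℝ) ≤ n := by
    simp only [Complex.natCast_re] at hle
    linarith
  have h6 : ∑ α ∈ R χ, m α ^ 2 ≤ (n : ℤ) := by exact_mod_cast h5
  have h7 : ∑ α ∈ R χ, m α ^ 2 = (n : ℤ) := le_antisymm h6 hge
  refine ⟨by exact_mod_cast h7, fun α hα => ?_⟩
  rw [hm α hα]
  rcases zero_one_of_sum_sq_eq (R χ) m (by rw [h7, hsum]) α hα with h8 | h8
  · left; rw [h8]; simp
  · right; rw [h8]; simp

end Cfsg.Agent.S1515
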