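import Cfsg.Statements.S1518
import Mathlib
import Cfsg.Agent.Lib.OddChar.DadeInt
import Cfsg.Agent.Lib.OddChar.CohSameDeg
import Cfsg.Agent.Lib.OddChar.CohInd

set_option autoImplicit false
open Cfsg

namespace Cfsg.Agent.S1518

/-- Under the Dade hypothesis for (A, L, H): if χ is an irreducible character of L vanishing at every non-identity element of L outside A, then the Dade image of χ − conj χ equals μ − conj μ for some irreducible character μ of G. -/
theorem result {G : Type*} [Group G] [Fintype G] (A : Set G) (L : Subgroup G) [Fintype L] (H : G → Subgroup G) (hD : Cfsg.DadeHypothesis A L H) (χ : L → ℂ) (hχ : Cfsg.IsIrrCharacter L χ) (hsupp : ∀ x : L, x ≠ 1 → (x : G) ∉ A → χ x = 0) : ∃ μ : G → ℂ, Cfsg.IsIrrCharacter G μ ∧ Cfsg.dadeIsometry A L H (χ - Cfsg.conjFun χ) = μ - Cfsg.conjFun μ := by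
  open Cfsg.Agent.Lib.Char Cfsg.Agent.Lib.OddChar in
  classical
  have hχc := IsIrrCharacter.isCharacter hχ
  have hχb := isIrr_conjFun hχ
  set α : L → ℂ := χ - Cfsg.conjFun χ with hαdef
  have hαgen : Cfsg.IsGeneralizedCharacter L α :=
    IsGeneralizedCharacter.sub (IsGeneralizedCharacter.of_isCharacter hχc)
      (IsGeneralizedCharacter.of_isCharacter (IsIrrCharacter.isCharacter hχb))
  have hαcl := IsGeneralizedCharacter.isClassFunction hαgen
  have hαA : ∀ x : L, (x : G) ∉ A → α x = 0 := by
    intro x hx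
    by_cases hx1 : x = 1
    · subst hx1
      simp only [hαdef, Pi.sub_apply, Cfsg.conjFun]
      rw [map_one_eq_charDegree hχc, Complex.conj_natCast, sub_self]
    · have h1 := hsupp x hx1 hx
      simp only [hαdef, Pi.sub_apply, Cfsg.conjFun]
      rw [h1, map_zero, sub_self]
  by_cases hreal : Cfsg.conjFun χ = χ
  · have hα0 : α = 0 := by
      rw [hαdef, hreal, sub_self]
    refine ⟨fun _ => 1, isIrrCharacter_one, ?_⟩
    funext g
    have h1 : Cfsg.dadeIsometry A L H α g = 0 := by
      unfold Cfsg.dadeIsometry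
      split_ifs
      · rw [hα0]
        rfl
      · rfl
    rw [h1]
    simp [Cfsg.conjFun]
  -- the norm
  have hnorm : Cfsg.classInner α α = 2 := by
    have h1 := classInner_irr_self hχ
    have h2 := classInner_irr_self hχb
    have h3 := classInner_irr_of_ne hχ hχb (fun h => hreal h.symm)
    have h4 := classInner_irr_of_ne hχb hχ hreal
    rw [hαdef, classInner_sub_left, classInner_sub_right, classInner_sub_right, h1, h2, h3, h4]
    norm_num
  set β := Cfsg.dadeIsometry A L H α with hβdef
  have hβgen : Cfsg.IsGeneralizedCharacter G β := dade_isGeneralized hD hαgen hαA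
  have hβnorm : Cfsg.classInner β β = 2 := by
    rw [hβdef, dade_isometry hD hαcl hαA hαcl, hnorm]
  have hβ1 : β 1 = 0 := by
    refine dade_val_zero ?_
    rintro ⟨a, ha, x, u, hu, hx⟩
    have h1 : (a : G) * u = 1 := by
      rw [← hx]
      group
    have h2 : (a : G) = u⁻¹ := eq_inv_of_mul_eq_one_left h1
    have h3 : (a : G) ∈ H a := h2 ▸ (H a).inv_mem hu
    have h4 : (a : G) ∈ L ⊓ Subgroup.centralizer ({(a : G)} : Set G) :=
      ⟨a.2, Subgroup.mem_centralizer_singleton_iff.mpr rfl⟩
    have h5 : (a : G) ∈ H a ⊓ (L ⊓ Subgroup.centralizer ({(a : G)} : Set G)) := ⟨h3, h4⟩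
    rw [hD.inf_eq_bot a ha, Subgroup.mem_bot] at h5
    exact hD.one_not_mem (h5 ▸ ha)
  obtain ⟨a, b, ha, hb, hab, hβeq⟩ := exists_irr_sub hβgen hβnorm hβ1
  -- complex conjugation
  have hconj : Cfsg.conjFun β = - β := by
    funext g
    simp only [Cfsg.conjFun, hβdef, Pi.neg_apply]
    unfold Cfsg.dadeIsometry
    split_ifs with h
    · simp only [hαdef, Pi.sub_apply, Cfsg.conjFun, map_sub, Complex.conj_conj]
      ring
    · simp
  have hrel : a + Cfsg.conjFun a = b + Cfsg.conjFun b := by
    have h1 : Cfsg.conjFun β = Cfsg.conjFun a - Cfsg.conjFun b := by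
      rw [hβeq]
      funext g
      simp [Cfsg.conjFun]
    rw [h1, hβeq] at hconj
    have h2 : Cfsg.conjFun a - Cfsg.conjFun b + (a - b) = 0 := by
      rw [hconj]
      abel
    have h3 : a + Cfsg.conjFun a - (b + Cfsg.conjFun b) = 0 := by
      rw [← h2]
      abel
    exact sub_eq_zero.mp h3
  have ha' := isIrr_conjFun ha
  have hb' := isIrr_conjFun hb
  have hin : Cfsg.classInner (a + Cfsg.conjFun a) a = Cfsg.classInner (b + Cfsg.conjFun b) a := by rw [hrel]
  rw [classInner_add_left, classInner_add_left, classInner_irr_self ha, inner_irr_ite ha' ha,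
    inner_irr_ite hb ha, inner_irr_ite hb' ha, if_neg (Ne.symm hab)] at hin
  have hfinal : Cfsg.conjFun a = b := by
    by_cases h1 : Cfsg.conjFun a = a
    · exfalso
      rw [if_pos h1] at hin
      split_ifs at hin <;> norm_num at hin
    · rw [if_neg h1] at hin
      by_cases h2 : Cfsg.conjFun b = a
      · have h3 := congrArg Cfsg.conjFun h2
        rw [conjFun_conjFun] at h3
        exact h3.symm
      · rw [if_neg h2] at hin
        norm_num at hin
  exact ⟨a, ha, by rw [hfinal]; exact hβeq⟩

end Cfsg.Agent.S1518
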