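import Cfsg.Statements.S1525
import Mathlib
import Cfsg.Agent.Lib.OddChar.DadeIso

set_option autoImplicit false
open Cfsg

namespace Cfsg.Agent.S1525

/-- Under the Dade hypothesis for (A, L, H), let χ be a class function of G and let ψ be a function on L whose value at each a ∈ A is the average of χ over the coset a·H(a). Then (1/|G|) Σ |χ g|² over the elements g of G conjugate into some coset a·H(a) with a ∈ A is at least (1/|L|) Σ_{a ∈ A ∩ L} |ψ a|². -/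
theorem result {G : Type*} [Group G] [Fintype G] (A : Set G) (L : Subgroup G) [Fintype L] (H : G → Subgroup G) (hD : Cfsg.DadeHypothesis A L H) (χ : G → ℂ) (hχ : Cfsg.IsClassFunction G χ) (ψ : L → ℂ) (hψ : ∀ a : L, (a : G) ∈ A → ψ a = (Nat.card (H a) : ℂ)⁻¹ * ∑ᶠ u ∈ (H a : Set G), χ (a * u)) : (Nat.card L : ℝ)⁻¹ * ∑ᶠ a ∈ {a : L | (a : G) ∈ A}, ‖ψ a‖ ^ 2 ≤ (Nat.card G : ℝ)⁻¹ * ∑ᶠ g ∈ {g : G | ∃ a ∈ A, ∃ u ∈ H a, ∃ x : G, x * g * x⁻¹ = a * u}, ‖χ g‖ ^ 2 := by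
  classical
  set B : Set G := {g : G | ∃ a ∈ A, ∃ u ∈ H a, ∃ x : G, x * g * x⁻¹ = a * u} with hB
  have hBconj : ∀ g y : G, y * g * y⁻¹ ∈ B ↔ g ∈ B := by
    intro g y
    constructor
    · rintro ⟨a, ha, u, hu, x, hx⟩
      exact ⟨a, ha, u, hu, x * y, by rw [← hx]; group⟩
    · rintro ⟨a, ha, u, hu, x, hx⟩
      exact ⟨a, ha, u, hu, x * y⁻¹, by rw [← hx]; group⟩
  let f : G → ℂ := fun g => if g ∈ B then ((‖χ g‖ ^ 2 : ℝ) : ℂ) else 0
  have hf : IsClassFunction G f := by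
    intro g y
    simp only [f, hBconj, hχ g y]
  have hsum := Cfsg.Agent.Lib.OddChar.dade_sum hD f hf (fun g hg => by
    have : g ∉ B := by
      rintro ⟨a, ha, u, hu, x, hx⟩
      exact hg ⟨a, ha, x, u, hu, hx⟩
    simp [f, this])
  -- the left side
  have hleft : ∑ g, f g = ((∑ᶠ g ∈ B, ‖χ g‖ ^ 2 : ℝ) : ℂ) := by
    have h1 : B = ↑(Finset.univ.filter (· ∈ B)) := by
      ext g
      simp
    rw [h1, finsum_mem_coe_finset, Complex.ofReal_sum, Finset.sum_filter]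
  -- the right side
  have hmemB : ∀ a ∈ A, ∀ u ∈ H a, a * u ∈ B := fun a ha u hu => ⟨a, ha, u, hu, 1, by group⟩
  have hright : ∀ a ∈ Finset.univ.filter (· ∈ A), (Nat.card (H a) : ℂ)⁻¹ *
        ∑ u ∈ Finset.univ.filter (· ∈ H a), f (a * u) =
      (((Nat.card (H a) : ℝ)⁻¹ * ∑ u ∈ Finset.univ.filter (· ∈ H a), ‖χ (a * u)‖ ^ 2 : ℝ) : ℂ) := by
    intro a ha
    have ha' : a ∈ A := (Finset.mem_filter.mp ha).2
    rw [Complex.ofReal_mul, Complex.ofReal_sum]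
    push_cast
    congr 1
    refine Finset.sum_congr rfl fun u hu => ?_
    have hu' : u ∈ H a := (Finset.mem_filter.mp hu).2
    simp only [f, if_pos (hmemB a ha' u hu')]
    push_cast
    rfl
  rw [hleft, Finset.sum_congr rfl hright, ← Complex.ofReal_sum] at hsum
  have hsum' : (Nat.card L : ℝ) * (∑ᶠ g ∈ B, ‖χ g‖ ^ 2 : ℝ) = (Nat.card G : ℝ) *
      ∑ a ∈ Finset.univ.filter (· ∈ A), ((Nat.card (H a) : ℝ)⁻¹ *
        ∑ u ∈ Finset.univ.filter (· ∈ H a), ‖χ (a * u)‖ ^ 2) := by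
    exact_mod_cast hsum
  -- the sum over `L`
  have hLsum : ∑ᶠ a ∈ {a : L | (a : G) ∈ A}, ‖ψ a‖ ^ 2 ≤
      ∑ a ∈ Finset.univ.filter (· ∈ A), ((Nat.card (H a) : ℝ)⁻¹ *
        ∑ u ∈ Finset.univ.filter (· ∈ H a), ‖χ (a * u)‖ ^ 2) := by
    have h1 : {a : L | (a : G) ∈ A} = ↑(Finset.univ.filter (fun a : L => (a : G) ∈ A)) := by
      ext a
      simp
    rw [h1, finsum_mem_coe_finset]
    have h2 : ∑ a ∈ Finset.univ.filter (fun a : L => (a : G) ∈ A), ‖ψ a‖ ^ 2 ≤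
        ∑ a ∈ Finset.univ.filter (fun a : L => (a : G) ∈ A),
          ((Nat.card (H (a : G)) : ℝ)⁻¹ *
            ∑ u ∈ Finset.univ.filter (· ∈ H (a : G)), ‖χ ((a : G) * u)‖ ^ 2) := by
      refine Finset.sum_le_sum fun a ha => ?_
      have ha' : (a : G) ∈ A := (Finset.mem_filter.mp ha).2
      rw [hψ a ha', Cfsg.Agent.Lib.OddChar.finsum_coe_subgroup]
      set s := Finset.univ.filter (· ∈ H (a : G)) with hs
      have hscard : s.card = Nat.card (H (a : G)) := by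
        rw [Nat.card_eq_fintype_card, Fintype.card_subtype]
      have hcs : (0 : ℝ) < Nat.card (H (a : G)) := by exact_mod_cast Nat.card_pos
      rw [norm_mul, norm_inv, Complex.norm_natCast, mul_pow]
      have h3 : ‖∑ u ∈ s, χ ((a : G) * u)‖ ^ 2 ≤ (s.card : ℝ) * ∑ u ∈ s, ‖χ ((a : G) * u)‖ ^ 2 := by
        calc ‖∑ u ∈ s, χ ((a : G) * u)‖ ^ 2 ≤ (∑ u ∈ s, ‖χ ((a : G) * u)‖) ^ 2 :=
              pow_le_pow_left₀ (norm_nonneg _) (norm_sum_le _ _) 2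
          _ ≤ (s.card : ℝ) * ∑ u ∈ s, ‖χ ((a : G) * u)‖ ^ 2 := sq_sum_le_card_mul_sum_sq
      rw [hscard] at h3
      calc ((Nat.card (H (a : G)) : ℝ)⁻¹) ^ 2 * ‖∑ u ∈ s, χ ((a : G) * u)‖ ^ 2
          ≤ ((Nat.card (H (a : G)) : ℝ)⁻¹) ^ 2 *
              ((Nat.card (H (a : G)) : ℝ) * ∑ u ∈ s, ‖χ ((a : G) * u)‖ ^ 2) :=
            mul_le_mul_of_nonneg_left h3 (by positivity)
        _ = (Nat.card (H (a : G)) : ℝ)⁻¹ * ∑ u ∈ s, ‖χ ((a : G) * u)‖ ^ 2 := by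
            field_simp
    refine h2.trans (le_of_eq ?_)
    symm
    refine Finset.sum_bij (fun a ha => (⟨a, hD.subset (Finset.mem_filter.mp ha).2⟩ : L)) ?_ ?_ ?_ ?_
    · intro a ha
      simp only [Finset.mem_filter, Finset.mem_univ, true_and]
      exact (Finset.mem_filter.mp ha).2
    · intro a _ b _ h
      exact congrArg Subtype.val h
    · intro a ha
      exact ⟨a, Finset.mem_filter.mpr ⟨Finset.mem_univ _, (Finset.mem_filter.mp ha).2⟩, rfl⟩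
    · intro a _
      rfl
  have hL : (0 : ℝ) < Nat.card L := by exact_mod_cast Nat.card_pos
  have hG : (0 : ℝ) < Nat.card G := by exact_mod_cast Nat.card_pos
  have h5 : (Nat.card G : ℝ)⁻¹ * (∑ᶠ g ∈ B, ‖χ g‖ ^ 2 : ℝ) = (Nat.card L : ℝ)⁻¹ *
      ∑ a ∈ Finset.univ.filter (· ∈ A), ((Nat.card (H a) : ℝ)⁻¹ *
        ∑ u ∈ Finset.univ.filter (· ∈ H a), ‖χ (a * u)‖ ^ 2) := by
    generalize (∑ᶠ g ∈ B, ‖χ g‖ ^ 2 : ℝ) = F at hsum'
    generalize (∑ a ∈ Finset.univ.filter (· ∈ A), ((Nat.card (H a) : ℝ)⁻¹ *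
        ∑ u ∈ Finset.univ.filter (· ∈ H a), ‖χ (a * u)‖ ^ 2)) = F' at hsum'
    field_simp
    linarith [hsum']
  rw [h5]
  exact mul_le_mul_of_nonneg_left hLsum (by positivity)

end Cfsg.Agent.S1525
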