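import Cfsg.Statements.S1527
import Mathlib

set_option autoImplicit false
open Cfsg

namespace Cfsg.Agent.S1527

/-- Let G be a finite group and H i (i in a finite index type) subgroups of pairwise coprime orders, each of whose underlying sets is a TI-subset of G, such that every non-identity element of G is conjugate to an element of some H i. Then Nat.card G − 1 = Σ_i [G : N_G(H i)] · (Nat.card (H i) − 1). -/
theorem result {G : Type*} [Group G] [Finite G] {ι : Type*} [Fintype ι] (H : ι → Subgroup G) (hcop : ∀ i j, i ≠ j → Nat.Coprime (Nat.card (H i)) (Nat.card (H j))) (hTI : ∀ i, Cfsg.IsTISubset (H i : Set G)) (hcover : ∀ g : G, g ≠ 1 → ∃ i, ∃ x : G, x * g * x⁻¹ ∈ H i) : Nat.card G - 1 = ∑ i, (Subgroup.normalizer (H i : Set G)).index * (Nat.card (H i) - 1) := by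
  classical
  haveI : Fintype G := Fintype.ofFinite G
  let N : ι → Subgroup G := fun i => Subgroup.normalizer (H i : Set G)
  let f : (Σ i, (G ⧸ N i) × {h : G // h ∈ H i ∧ h ≠ 1}) → {g : G // g ≠ 1} := fun p =>
    ⟨(Quotient.out p.2.1 : G) * p.2.2.1 * (Quotient.out p.2.1 : G)⁻¹, by
      intro h0
      apply p.2.2.2.2
      have e := congrArg (fun z => (Quotient.out p.2.1 : G)⁻¹ * z * (Quotient.out p.2.1 : G)) h0
      simpa [mul_assoc] using e⟩
  have hf : Function.Bijective f := by
    constructor
    · rintro ⟨i, q, ⟨h, hh, hh1⟩⟩ ⟨i', q', ⟨h', hh', hh1'⟩⟩ e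
      have e' : (Quotient.out q : G) * h * (Quotient.out q : G)⁻¹ =
          (Quotient.out q' : G) * h' * (Quotient.out q' : G)⁻¹ := congrArg Subtype.val e
      set y := (Quotient.out q : G) with hy
      set y' := (Quotient.out q' : G) with hy'
      -- the index is the same
      have hii : i = i' := by
        by_contra hne
        have hc := hcop i i' hne
        have h1 : orderOf h ∣ Nat.card (H i) := by
          have := orderOf_dvd_natCard (⟨h, hh⟩ : H i)
          rwa [Subgroup.orderOf_mk] at this
        have h2 : orderOf h' ∣ Nat.card (H i') := by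
          have := orderOf_dvd_natCard (⟨h', hh'⟩ : H i')
          rwa [Subgroup.orderOf_mk] at this
        have h3 : orderOf h = orderOf h' := by
          have a1 : orderOf (y * h * y⁻¹) = orderOf h := by rw [← MulAut.conj_apply, MulEquiv.orderOf_eq]
          have a2 : orderOf (y' * h' * y'⁻¹) = orderOf h' := by rw [← MulAut.conj_apply, MulEquiv.orderOf_eq]
          rw [← a1, ← a2, e']
        rw [← h3] at h2
        have h4 := Nat.Coprime.eq_one_of_dvd (Nat.Coprime.coprime_dvd_left h1 hc) h2
        exact hh1 (orderOf_eq_one_iff.mp h4)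
      subst hii
      have hz : (y'⁻¹ * y) * h * (y'⁻¹ * y)⁻¹ = h' := by
        calc (y'⁻¹ * y) * h * (y'⁻¹ * y)⁻¹ = y'⁻¹ * (y * h * y⁻¹) * y' := by group
          _ = y'⁻¹ * (y' * h' * y'⁻¹) * y' := by rw [e']
          _ = h' := by group
      have hzN : y'⁻¹ * y ∈ N i := by
        by_contra hzN
        exact hh1 (hTI i _ hzN h hh (by rw [hz]; exact hh'))
      have hq : q' = q := by
        have := (QuotientGroup.eq (s := N i) (a := y') (b := y)).mpr hzN
        rw [hy, hy', QuotientGroup.out_eq', QuotientGroup.out_eq'] at this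
        exact this
      subst hq
      have hh2 : h = h' := by
        have : y = y' := rfl
        rw [this] at hz
        simpa using hz
      subst hh2
      rfl
    · rintro ⟨g, hg⟩
      obtain ⟨i, x, hx⟩ := hcover g hg
      set q : G ⧸ N i := QuotientGroup.mk x⁻¹ with hq
      set y : G := Quotient.out q with hy
      have hmem : (x⁻¹)⁻¹ * y ∈ N i := by
        have h1 : (QuotientGroup.mk y : G ⧸ N i) = QuotientGroup.mk x⁻¹ := by
          rw [hy, QuotientGroup.out_eq']
        exact (QuotientGroup.eq).mp h1.symm
      rw [inv_inv] at hmem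
      -- `n = x y`
      set n := x * y with hn
      have hxg : n⁻¹ * (x * g * x⁻¹) * n = y⁻¹ * g * y := by
        rw [hn]; group
      have hin : y⁻¹ * g * y ∈ H i := by
        rw [← hxg]
        have := (Subgroup.mem_set_normalizer_iff.mp (Subgroup.inv_mem _ hmem) (x * g * x⁻¹)).mp hx
        simpa using this
      have hne : y⁻¹ * g * y ≠ 1 := by
        intro h0
        apply hg
        have e := congrArg (fun z => y * z * y⁻¹) h0
        simpa [mul_assoc] using e
      refine ⟨⟨i, q, ⟨_, hin, hne⟩⟩, ?_⟩
      apply Subtype.ext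
      show y * (y⁻¹ * g * y) * y⁻¹ = g
      group
  have hcard := Nat.card_congr (Equiv.ofBijective f hf)
  rw [Nat.card_sigma] at hcard
  have h1 : ∀ i, Nat.card ((G ⧸ N i) × {h : G // h ∈ H i ∧ h ≠ 1}) =
      (Subgroup.normalizer (H i : Set G)).index * (Nat.card (H i) - 1) := by
    intro i
    rw [Nat.card_prod]
    congr 1
    have h2 : Nat.card {h : G // h ∈ H i ∧ h ≠ 1} = Nat.card {h : H i // h ≠ 1} := by
      apply Nat.card_congr
      exact { toFun := fun x => ⟨⟨x.1, x.2.1⟩, fun h => x.2.2 (congrArg Subtype.val h)⟩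
              invFun := fun x => ⟨x.1.1, x.1.2, fun h => x.2 (Subtype.ext h)⟩
              left_inv := fun x => rfl
              right_inv := fun x => rfl }
    rw [h2]
    haveI := Fintype.ofFinite (H i)
    rw [Nat.card_eq_fintype_card, Nat.card_eq_fintype_card, Fintype.card_subtype_compl]
    simp
  simp only [h1] at hcard
  rw [hcard]
  rw [Nat.card_eq_fintype_card, Nat.card_eq_fintype_card, Fintype.card_subtype_compl]
  simp


end Cfsg.Agent.S1527
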