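import Cfsg.Statements.S1528
import Cfsg.Agent.Lib.OddChar.FixChar
import Cfsg.Agent.Lib.Char.Clifford2

set_option autoImplicit false
open Cfsg

namespace Cfsg.Agent.S1528

/-- Let N be a normal subgroup of the finite group G such that every element of G commuting with a non-identity element of N lies in N. If χ is an irreducible character of G with χ n ≠ χ 1 for some n ∈ N, then χ is the function induced from some irreducible character of N. -/
theorem result {G : Type*} [Group G] [Fintype G] (N : Subgroup G) [N.Normal] (hC : ∀ n ∈ N, n ≠ 1 → Subgroup.centralizer ({n} : Set G) ≤ N) (χ : G → ℂ) (hχ : Cfsg.IsIrrCharacter G χ) (hker : ∃ n ∈ N, χ n ≠ χ 1) : ∃ φ : N → ℂ, Cfsg.IsIrrCharacter N φ ∧ χ = Cfsg.indFun N φ := by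
  open Cfsg.Agent.Lib.Char Cfsg.Agent.Lib.OddChar in
  classical
  have hN : N.Normal := inferInstance
  letI : Fintype N := Fintype.ofFinite _
  have hres : IsCharacter N (fun n : N => χ n) :=
    IsCharacter.restrict N (IsIrrCharacter.isCharacter hχ)
  obtain ⟨n, hn, hne⟩ := hker
  -- a nonprincipal constituent
  obtain ⟨θ, hθ, hθne, hcon⟩ : ∃ θ : N → ℂ, IsIrrCharacter N θ ∧ θ ≠ (fun _ => 1) ∧
      classInner (fun n : N => χ n) θ ≠ 0 := by
    by_contra hcon
    push Not at hcon
    have hexp := classFunction_eq_sum _ (IsCharacter.isClassFunction hres)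
    have hval : ∀ m : N, χ m = classInner (fun n : N => χ n) (fun _ => (1 : ℂ)) := by
      intro m
      have h1 := congrFun hexp m
      simp only [Finset.sum_apply, Pi.smul_apply, smul_eq_mul] at h1
      rw [h1, Finset.sum_eq_single (⟨fun _ => 1, isIrrCharacter_one⟩ : IrrCharacter N)]
      · simp
      · intro b _ hb
        have : (b : N → ℂ) ≠ (fun _ => 1) := fun h => hb (Subtype.ext h)
        rw [hcon _ b.2 this, zero_mul]
      · intro h
        exact absurd (Finset.mem_univ _) h
    have h1 := hval ⟨n, hn⟩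
    have h2 := hval 1
    apply hne
    have h3 : χ n = χ ((⟨n, hn⟩ : N) : G) := rfl
    have h4 : χ 1 = χ ((1 : N) : G) := rfl
    rw [h3, h4, h1, h2]
  have hT : N = inertia hN θ := by
    refine le_antisymm (le_inertia hN (IsCharacter.isClassFunction (IsIrrCharacter.isCharacter hθ))) ?_
    intro x hx
    by_contra hxN
    have hfix : θ ∘ conjEquiv hN x = θ := by
      funext m
      exact (mem_inertia_iff hN θ x).mp hx m
    obtain ⟨g, hg1, hg⟩ := (exists_fixed_irr_iff (conjEquiv hN x)).mp ⟨θ, hθ, hθne, hfix⟩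
    obtain ⟨c, hc⟩ := isConj_iff.mp hg
    have hc' : (c : G) * g * (c : G)⁻¹ = x * g * x⁻¹ := congrArg Subtype.val hc
    have hg1' : (g : G) ≠ 1 := fun h0 => hg1 (Subtype.ext h0)
    have h5 : (c : G)⁻¹ * x ∈ Subgroup.centralizer ({(g : G)} : Set G) := by
      rw [Subgroup.mem_centralizer_singleton_iff]
      have : ((c : G)⁻¹ * x) * g * ((c : G)⁻¹ * x)⁻¹ = g := by
        calc ((c : G)⁻¹ * x) * g * ((c : G)⁻¹ * x)⁻¹
            = (c : G)⁻¹ * (x * g * x⁻¹) * c := by group
          _ = (c : G)⁻¹ * ((c : G) * g * (c : G)⁻¹) * c := by rw [hc']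
          _ = g := by group
      calc ((c : G)⁻¹ * x) * g = ((c : G)⁻¹ * x) * g * ((c : G)⁻¹ * x)⁻¹ * ((c : G)⁻¹ * x) := by group
        _ = g * ((c : G)⁻¹ * x) := by rw [this]
    have h6 := hC g g.2 hg1' h5
    apply hxN
    have h7 : x = c * ((c : G)⁻¹ * x) := by group
    rw [h7]
    exact N.mul_mem c.2 h6
  obtain ⟨ψ, hψ, hind, -⟩ := clifford_correspondence hN hθ hT le_rfl hχ hcon
  exact ⟨ψ, hψ, hind.symm⟩

end Cfsg.Agent.S1528
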