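import Cfsg.Statements.S1530
import Cfsg.Agent.Lib.OddChar.Coh4

set_option autoImplicit false
open Cfsg

namespace Cfsg.Agent.S1530

/-- Let N be a subgroup of the finite group G and S₀ a finite set of irreducible characters of N, χ an irreducible character of N not in S₀, with degrees ξ 1 = d ξ. Let τ be a linear isometry on the integer combinations of S₀ ∪ {χ} vanishing at 1, with values virtual characters of G vanishing at 1, such that (S₀, N minus 1, τ) is coherent. If some ψ ∈ S₀ has d ψ dividing d χ and 2 · d ψ · d χ < Σ_{ξ ∈ S₀} (d ξ)², then (S₀ ∪ {χ}, N minus 1, τ) is coherent. -/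
theorem result {G : Type*} [Group G] [Fintype G] (N : Subgroup G) [Fintype N] (S₀ : Finset (N → ℂ)) (χ : N → ℂ) (hirr : ∀ ξ ∈ S₀, Cfsg.IsIrrCharacter N ξ) (hχ : Cfsg.IsIrrCharacter N χ) (hχS : χ ∉ S₀) (d : (N → ℂ) → ℕ) (hd : ∀ ξ ∈ insert χ S₀, ξ 1 = (d ξ : ℂ)) (τ : (N → ℂ) → (G → ℂ)) (hτ : Cfsg.IsLinearIsometryOn (Cfsg.zspanOn (↑(insert χ S₀) : Set (N → ℂ)) {1}ᶜ) τ) (hτ1 : ∀ α ∈ Cfsg.zspanOn (↑(insert χ S₀) : Set (N → ℂ)) {1}ᶜ, τ α 1 = 0) (hcoh : Cfsg.IsCoherent (↑S₀ : Set (N → ℂ)) {1}ᶜ τ) (ψ : N → ℂ) (hψ : ψ ∈ S₀) (hdvd : d ψ ∣ d χ) (hlt : 2 * d ψ * d χ < ∑ ξ ∈ S₀, d ξ ^ 2) : Cfsg.IsCoherent (↑(insert χ S₀) : Set (N → ℂ)) {1}ᶜ τ := by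
  open Cfsg.Agent.Lib.Char Cfsg.Agent.Lib.OddChar in
  classical
  obtain ⟨⟨α₀, hα₀, hα₀ne⟩, τ₁, hτ₁, hag⟩ := hcoh
  have hext : CohExt (↑S₀ : Set (N → ℂ)) τ τ₁ := ⟨hτ₁, hag⟩
  have hS₂ : insert χ (↑S₀ : Set (N → ℂ)) ⊆ (↑(insert χ S₀) : Set (N → ℂ)) := by
    rw [Finset.coe_insert]
  have hdd : ∀ ξ ∈ S₀, ξ 1 = ((d ξ : ℤ) : ℂ) := fun ξ hξ => by
    rw [hd ξ (Finset.mem_insert_of_mem hξ)]
    simp
  have hdχ : χ 1 = ((d χ : ℤ) : ℂ) := by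
    rw [hd χ (Finset.mem_insert_self _ _)]
    simp
  obtain ⟨a, ha⟩ := hdvd
  have hdψpos : 0 < d ψ := by
    have := map_one_ne_zero_of_irr (hirr ψ hψ)
    rw [hdd ψ hψ] at this
    apply Nat.pos_of_ne_zero
    intro h0
    apply this
    simp [h0]
  have hdχpos : 0 < d χ := by
    have := map_one_ne_zero_of_irr hχ
    rw [hdχ] at this
    apply Nat.pos_of_ne_zero
    intro h0
    apply this
    simp [h0]
  have hapos : 0 < a := by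
    apply Nat.pos_of_ne_zero
    intro h0
    rw [h0, mul_zero] at ha
    omega
  have horthχ : ∀ ξ ∈ (↑S₀ : Set (N → ℂ)), classInner ξ χ = 0 := by
    intro ξ hξ
    refine classInner_irr_of_ne (hirr ξ hξ) hχ ?_
    rintro rfl
    exact hχS hξ
  set X : G → ℂ := τ (χ - (a : ℤ) • ψ) + (a : ℤ) • τ₁ ψ with hX
  obtain ⟨hXgen, hrel, ⟨b, hb, hXX⟩, -⟩ := X_facts (S := (↑S₀ : Set (N → ℂ)))
    (d := fun ξ => (d ξ : ℤ)) (χ₁ := ψ) (a := (a : ℤ)) hS₂ hτ hext horthχ hψ hdχ (hdd ψ hψ)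
    (by rw [ha]; push_cast; ring) (fun ξ hξ => hdd ξ hξ) hX
  have hnorm1 : classInner χ χ = 1 := classInner_irr_self hχ
  rw [hnorm1] at hXX
  -- integer coefficients
  have hcoef : ∀ ξ ∈ S₀, ∃ e : ℤ, classInner X (τ₁ ξ) = e := fun ξ hξ =>
    classInner_isGeneralized_int hXgen (hτ₁.2.2.2 _ (mem_zspan_of_mem hξ))
  choose! e he using hcoef
  have hτz : ∀ ξ ∈ S₀, ξ ∈ zspan (↑S₀ : Set (N → ℂ)) := fun ξ hξ => mem_zspan_of_mem hξ
  have hsqrel : ∀ ξ ∈ S₀, (d ψ : ℤ) * e ξ = (d ξ : ℤ) * b := by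
    intro ξ hξ
    have := hrel ξ hξ
    rw [he ξ hξ, hb] at this
    exact_mod_cast this
  have hbess := bessel S₀ τ₁ (fun _ => (1 : ℝ)) (fun _ _ => one_pos)
    (fun ξ hξ ξ' hξ' hne => by
      rw [hτ₁.2.2.1 _ (hτz ξ hξ) _ (hτz ξ' hξ')]
      exact classInner_irr_of_ne (hirr ξ hξ) (hirr ξ' hξ') hne)
    (fun ξ hξ => by
      rw [hτ₁.2.2.1 _ (hτz ξ hξ) _ (hτz ξ hξ), classInner_irr_self (hirr ξ hξ)]
      simp) X
  have hsumE : ∑ ξ ∈ S₀, ‖classInner X (τ₁ ξ)‖ ^ 2 / (1 : ℝ) = ((∑ ξ ∈ S₀, e ξ ^ 2 : ℤ) : ℝ) := by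
    push_cast
    refine Finset.sum_congr rfl fun ξ hξ => ?_
    rw [he ξ hξ, Complex.norm_intCast, sq_abs, div_one]
  have hXre : (classInner X X).re = ((1 + 2 * (a : ℤ) * b : ℤ) : ℝ) := by
    rw [hXX]
    simp
  obtain ⟨hb1, hb2⟩ := hbess
  rw [hsumE, hXre] at hb1
  rw [hsumE, hXre] at hb2
  have hE : ∑ ξ ∈ S₀, e ξ ^ 2 ≤ 1 + 2 * (a : ℤ) * b := by exact_mod_cast hb1
  set E : ℤ := ∑ ξ ∈ S₀, e ξ ^ 2 with hEdef
  set T : ℤ := ∑ ξ ∈ S₀, (d ξ : ℤ) ^ 2 with hTdef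
  have hDE : (d ψ : ℤ) ^ 2 * E = b ^ 2 * T := by
    rw [hEdef, hTdef, Finset.mul_sum, Finset.mul_sum]
    refine Finset.sum_congr rfl fun ξ hξ => ?_
    have := hsqrel ξ hξ
    calc (d ψ : ℤ) ^ 2 * e ξ ^ 2 = ((d ψ : ℤ) * e ξ) ^ 2 := by ring
      _ = ((d ξ : ℤ) * b) ^ 2 := by rw [this]
      _ = b ^ 2 * (d ξ : ℤ) ^ 2 := by ring
  have hTlt : 2 * (a : ℤ) * (d ψ : ℤ) ^ 2 < T := by
    have h1 : ((2 * d ψ * d χ : ℕ) : ℤ) < ((∑ ξ ∈ S₀, d ξ ^ 2 : ℕ) : ℤ) := by exact_mod_cast hlt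
    rw [ha] at h1
    push_cast at h1
    rw [hTdef]
    nlinarith
  have hD : (0 : ℤ) < (d ψ : ℤ) := by exact_mod_cast hdψpos
  have hA : (1 : ℤ) ≤ (a : ℤ) := by exact_mod_cast hapos
  have hb01 : b = 0 ∨ b = 1 := by
    by_contra hcon
    push Not at hcon
    obtain ⟨hb0, hb1'⟩ := hcon
    have hbb : 2 ≤ b * (b - 1) := by
      rcases lt_or_gt_of_ne hb0 with h | h
      · nlinarith
      · have : 2 ≤ b := by omega
        nlinarith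
    have hbsq : 1 ≤ b ^ 2 := by
      have := sq_pos_of_ne_zero hb0
      omega
    have hD2 : (0 : ℤ) < (d ψ : ℤ) ^ 2 := by positivity
    have h1 : (d ψ : ℤ) ^ 2 * E ≤ (d ψ : ℤ) ^ 2 * (1 + 2 * (a : ℤ) * b) :=
      mul_le_mul_of_nonneg_left hE hD2.le
    have h2 : b ^ 2 * (2 * (a : ℤ) * (d ψ : ℤ) ^ 2 + 1) ≤ b ^ 2 * T :=
      mul_le_mul_of_nonneg_left (by omega) (by positivity)
    have h3 : (d ψ : ℤ) ^ 2 * (1 - 2 * (a : ℤ) * (b * (b - 1))) ≥ 1 := by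
      nlinarith
    have h4 : 1 - 2 * (a : ℤ) * (b * (b - 1)) ≤ -3 := by nlinarith
    nlinarith
  have hb0 : b = 0 := by
    rcases hb01 with h | h
    · exact h
    exfalso
    subst h
    simp only [one_pow, one_mul, mul_one] at hDE hE
    have hD2 : (0 : ℤ) < (d ψ : ℤ) ^ 2 := by positivity
    have hE2 : 2 * (a : ℤ) < E := by
      by_contra hcon
      push Not at hcon
      have := mul_le_mul_of_nonneg_left hcon hD2.le
      nlinarith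
    have hE3 : E = 1 + 2 * (a : ℤ) := by omega
    have heq := hb2 (by rw [hE3]; simp)
    -- the values at `1`
    have hval : ∀ ξ ∈ S₀, τ₁ ξ 1 = (e ξ : ℂ) * τ₁ ψ 1 := by
      intro ξ hξ
      have h1 : (d ψ : ℤ) • ξ - (d ξ : ℤ) • ψ ∈ zspan (↑S₀ : Set (N → ℂ)) :=
        zspan_sub (zspan_smul _ (hτz ξ hξ)) (zspan_smul _ (hτz ψ hψ))
      have h2 : ((d ψ : ℤ) • ξ - (d ξ : ℤ) • ψ) 1 = 0 := by
        simp only [Pi.sub_apply, zsmul_fun_apply]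
        rw [hdd ξ hξ, hdd ψ hψ]
        ring
      have h3 := hag _ (mem_zspanOn_one.mpr ⟨h1, h2⟩)
      have h4 := hτ1 _ (zspanOn_mono ((Set.subset_insert _ _).trans hS₂) (mem_zspanOn_one.mpr ⟨h1, h2⟩))
      rw [← h3, isometry_sub hτ₁ (zspan_smul _ (hτz ξ hξ)) (zspan_smul _ (hτz ψ hψ)),
        hτ₁.2.1 _ (hτz ξ hξ), hτ₁.2.1 _ (hτz ψ hψ)] at h4
      simp only [Pi.sub_apply, zsmul_fun_apply] at h4
      have h5 : ((d ψ : ℤ) : ℂ) * (e ξ : ℂ) = ((d ξ : ℤ) : ℂ) := by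
        have := hsqrel ξ hξ
        rw [mul_one] at this
        exact_mod_cast this
      have h6 : ((d ψ : ℤ) : ℂ) ≠ 0 := by exact_mod_cast hD.ne'
      apply mul_left_cancel₀ h6
      rw [← mul_assoc, h5]
      linear_combination h4
    have hX1 : X 1 = ((E : ℤ) : ℂ) * τ₁ ψ 1 := by
      rw [heq, Finset.sum_apply, hEdef]
      push_cast
      rw [Finset.sum_mul]
      refine Finset.sum_congr rfl fun ξ hξ => ?_
      rw [Pi.smul_apply, smul_eq_mul, he ξ hξ, hval ξ hξ]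
      simp only [Complex.ofReal_one, div_one]
      ring
    have hX2 : X 1 = (a : ℂ) * τ₁ ψ 1 := by
      rw [hX]
      have hy : χ - (a : ℤ) • ψ ∈ Cfsg.zspanOn (↑(insert χ S₀) : Set (N → ℂ)) {1}ᶜ := by
        refine mem_zspanOn_one.mpr ⟨zspan_sub (mem_zspan_of_mem (by simp))
          (zspan_smul _ (mem_zspan_of_mem (by simp [hψ]))), ?_⟩
        simp only [Pi.sub_apply, zsmul_fun_apply]
        rw [hdχ, hdd ψ hψ, ha]
        push_cast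
        ring
      have := hτ1 _ hy
      simp only [Pi.add_apply, zsmul_fun_apply]
      rw [this]
      push_cast
      ring
    have hne0 : τ₁ ψ 1 ≠ 0 :=
      (pm_of_norm_one (hτ₁.2.2.2 _ (hτz ψ hψ)) (by
        rw [hτ₁.2.2.1 _ (hτz ψ hψ) _ (hτz ψ hψ), classInner_irr_self (hirr ψ hψ)])).map_one_ne
    rw [hX1, hE3] at hX2
    have h7 := mul_right_cancel₀ hne0 hX2
    have h8 : (1 + 2 * (a : ℤ) : ℤ) = (a : ℤ) := by exact_mod_cast h7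
    omega
  subst hb0
  have hXnorm : classInner X X = classInner χ χ := by
    rw [hXX, hnorm1]
    simp
  have hXorth : ∀ φ ∈ (↑S₀ : Set (N → ℂ)), classInner (τ₁ φ) X = 0 := by
    intro φ hφ
    have h1 := hrel φ hφ
    rw [hb] at h1
    simp only [Int.cast_zero, mul_zero] at h1
    have h2 : classInner X (τ₁ φ) = 0 := by
      rcases mul_eq_zero.mp h1 with h3 | h3
      · exfalso
        exact hD.ne' (by exact_mod_cast h3)
      · exact h3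
    rw [← conj_classInner, h2, map_zero]
  have hχ0 : classInner χ χ ≠ 0 := by
    rw [hnorm1]
    exact one_ne_zero
  obtain ⟨τ', hτ', -, -⟩ := cohExt_insert hS₂ hτ hext horthχ hχ0 hψ
    (by rw [hdχ, hdd ψ hψ, ha]; push_cast; ring) hX hXgen hXnorm hXorth
  refine ⟨⟨α₀, zspanOn_mono (by simp) hα₀, hα₀ne⟩, τ', ?_⟩
  rw [Finset.coe_insert]
  exact hτ'

end Cfsg.Agent.S1530
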