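import Cfsg.Statements.S1532
import Mathlib
import Cfsg.Agent.Lib.OddChar.SylowFrob

set_option autoImplicit false
open Cfsg

namespace Cfsg.Agent.S1532

open Cfsg.Agent.Lib.Char Cfsg.Agent.Lib.OddChar in
theorem aux {G : Type*} [Group G] [Fintype G] (p : ℕ) [Fact p.Prime] (hp : p ≠ 2) (PP : Subgroup G)
    (hPpg : IsPGroup p PP) (hna : ¬ IsMulCommutative PP) (hTI : Cfsg.IsTISubset (PP : Set G))
    (hlt : PP < Subgroup.normalizer (PP : Set G)) (hC : ∀ k ∈ PP, k ≠ 1 → Subgroup.centralizer ({k} : Set G) ≤ PP)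
    (L : Subgroup G) [Fintype L] (hL : L = Subgroup.normalizer (PP : Set G)) (Z : Subgroup G) (hZ1 : Z ≠ ⊥)
    (hZP : ∀ z ∈ Z, z ∈ PP ∧ ∀ y ∈ PP, z * y = y * z)
    (hZn : ∀ x ∈ Subgroup.normalizer (PP : Set G), ∀ z ∈ Z, x * z * x⁻¹ ∈ Z) :
    Cfsg.IsCoherent {χ : L → ℂ | Cfsg.IsIrrCharacter L χ ∧ ∃ z : L, (z : G) ∈ Z ∧ χ z ≠ χ 1} {1}ᶜ
      (fun α => Cfsg.indFun L α) := by
  classical
  have hPL : PP ≤ L := hL ▸ le_setNormalizer
  haveI hKn : (PP.subgroupOf L).Normal := hL ▸ subgroupOf_setNormalizer_normal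
  have hlt' : PP < L := hL ▸ hlt
  have hTI' : ∀ g : G, g ∉ L → ∀ s ∈ PP, g * s * g⁻¹ ∈ PP → s = 1 := hL ▸ hTI
  set K := PP.subgroupOf L with hK
  have hCL : ∀ n ∈ K, n ≠ 1 → Subgroup.centralizer ({n} : Set L) ≤ K := fun n hn hn1 =>
    centralizers_of_global hC n hn hn1
  have hKcard : Nat.card K = Nat.card PP := Nat.card_congr (Subgroup.subgroupOfEquivOfLe hPL).toEquiv
  have hKpg : IsPGroup p K := by
    obtain ⟨m, hm⟩ := IsPGroup.iff_card.mp hPpg
    exact IsPGroup.of_card (n := m) (by rw [hKcard, hm])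
  have hKodd : Odd (Nat.card K) := by
    obtain ⟨m, hm⟩ := IsPGroup.iff_card.mp hKpg
    rw [hm]
    exact Odd.pow ((Fact.out : p.Prime).odd_of_ne_two hp)
  have hna' : ¬ IsMulCommutative K := by
    intro h
    apply hna
    have hc := h.1.1
    refine ⟨⟨fun a b => ?_⟩⟩
    have h1 := hc ⟨⟨a, hPL a.2⟩, Subgroup.mem_subgroupOf.mpr a.2⟩ ⟨⟨b, hPL b.2⟩, Subgroup.mem_subgroupOf.mpr b.2⟩
    apply Subtype.ext
    exact congrArg (fun x : K => ((x : L) : G)) h1
  have heodd : Odd K.index := odd_index_of_nonabelian hCL hKodd hna'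
  have hodd : Odd (Nat.card L) := by
    rw [← Subgroup.card_mul_index K]
    exact hKodd.mul heodd
  have hP1 : PP ≠ ⊥ := by
    intro h
    apply hna
    rw [h]
    exact ⟨⟨fun a b => Subsingleton.elim _ _⟩⟩
  obtain ⟨R, hS⟩ := exists_system (L := L) hPL hTI' hodd hP1 hCL
  have hK1 : K ≠ ⊥ := by
    intro h
    apply hna'
    rw [h]
    exact ⟨⟨fun a b => Subsingleton.elim _ _⟩⟩
  have hnil : Group.IsNilpotent K := by
    haveI := hKpg.isNilpotent
    infer_instance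
  have hsolv : Group.IsSolvable K := inferInstance
  have hKL : K < ⊤ := by
    refine lt_top_iff_ne_top.mpr fun h => ?_
    apply hlt'.not_ge
    intro x hx
    have h1 : (⟨x, hx⟩ : L) ∈ K := by rw [h]; trivial
    exact Subgroup.mem_subgroupOf.mp h1
  -- the subgroup `Z`
  set Z' : Subgroup L := Z.subgroupOf L with hZ'
  haveI hZ'n : Z'.Normal := by
    refine ⟨fun n hn g => Subgroup.mem_subgroupOf.mpr ?_⟩
    exact hZn _ (hL ▸ g.2) _ (Subgroup.mem_subgroupOf.mp hn)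
  have hZL : Z ≤ L := fun z hz => hPL (hZP z hz).1
  have hZ'1 : Z' ≠ ⊥ := by
    intro h
    apply hZ1
    rw [eq_bot_iff]
    intro z hz
    have h1 : (⟨z, hZL hz⟩ : L) ∈ Z' := Subgroup.mem_subgroupOf.mpr hz
    rw [h, Subgroup.mem_bot] at h1
    exact Subgroup.mem_bot.mpr (congrArg Subtype.val h1)
  have hZ'K : Z' ≤ K := fun z hz =>
    Subgroup.mem_subgroupOf.mpr (hZP _ (Subgroup.mem_subgroupOf.mp hz)).1
  have hZ'c : ∀ z ∈ Z', ∀ k ∈ K, z * k = k * z := fun z hz k hk => by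
    apply Subtype.ext
    exact (hZP _ (Subgroup.mem_subgroupOf.mp hz)).2 _ (Subgroup.mem_subgroupOf.mp hk)
  have hirr : ∀ χ ∈ inducedIrrAbove K ⊥ \ inducedIrrAbove K Z', Cfsg.IsIrrCharacter L χ :=
    fun χ hχ => inducedIrrAbove_irr hCL hχ.1
  have hcoh := coh_central hsolv hS hodd hnil (commutator_lt_of_solvable hsolv hK1) hKL
    (fun k hk hk2 x hx => frob_mod_commutator hCL hk hk2 hx) Z' hZ'1 hZ'K hZ'c hirr
  rw [diff_eq_irr hS Z' hZ'K hirr] at hcoh
  have hset : {χ : L → ℂ | Cfsg.IsIrrCharacter L χ ∧ ∃ z : L, (z : G) ∈ Z ∧ χ z ≠ χ 1} =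
      {χ | Cfsg.IsIrrCharacter L χ ∧ ∃ z ∈ Z', χ z ≠ χ 1} := by
    ext χ
    simp only [Set.mem_ofPred_eq, Subgroup.mem_subgroupOf, hZ']
  rw [hset]
  exact hcoh

/-- Let G be a finite group, p an odd prime and P a Sylow p-subgroup that is non-abelian, whose underlying set is a TI-subset of G, with P properly contained in its set normaliser N and C_G(x) ≤ P for every non-identity x ∈ P. Let Z be a nontrivial subgroup of the centre of P normalised by N. Then the set of irreducible characters χ of N with χ z ≠ χ 1 for some z ∈ Z is coherent for the map induced by induction from N to G. -/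
theorem result {G : Type*} [Group G] [Fintype G] (p : ℕ) [Fact p.Prime] (hp : p ≠ 2) (P : Sylow p G) (hna : ¬ IsMulCommutative (P : Subgroup G)) (hTI : Cfsg.IsTISubset ((P : Subgroup G) : Set G)) (hlt : (P : Subgroup G) < Subgroup.normalizer ((P : Subgroup G) : Set G)) (hC : ∀ k ∈ (P : Subgroup G), k ≠ 1 → Subgroup.centralizer ({k} : Set G) ≤ (P : Subgroup G)) [Fintype ↥(Subgroup.normalizer ((P : Subgroup G) : Set G))] (Z : Subgroup G) (hZ1 : Z ≠ ⊥) (hZP : ∀ z ∈ Z, z ∈ (P : Subgroup G) ∧ ∀ y ∈ (P : Subgroup G), z * y = y * z) (hZn : ∀ x ∈ Subgroup.normalizer ((P : Subgroup G) : Set G), ∀ z ∈ Z, x * z * x⁻¹ ∈ Z) : Cfsg.IsCoherent {χ : ↥(Subgroup.normalizer ((P : Subgroup G) : Set G)) → ℂ | Cfsg.IsIrrCharacter ↥(Subgroup.normalizer ((P : Subgroup G) : Set G)) χ ∧ ∃ z : ↥(Subgroup.normalizer ((P : Subgroup G) : Set G)), (z : G) ∈ Z ∧ χ z ≠ χ 1} {1}ᶜ (fun α => Cfsg.indFun (Subgroup.normalizer ((P : Subgroup G) : Set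 G)) α) := by

  exact aux p hp _ P.isPGroup' hna hTI hlt hC _ rfl Z hZ1 hZP hZn

end Cfsg.Agent.S1532
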