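import Cfsg.Statements.S1533
import Mathlib
import Cfsg.Agent.Lib.OddChar.FrobAbelian

set_option autoImplicit false
open Cfsg

namespace Cfsg.Agent.S1533

open Cfsg.Agent.Lib.Char Cfsg.Agent.Lib.OddChar in
theorem aux {G : Type*} [Group G] [Fintype G] (p : ℕ) [Fact p.Prime] (hp : p ≠ 2) (P : Sylow p G)
    (hP1 : (P : Subgroup G) ≠ ⊥) (hTI : Cfsg.IsTISubset ((P : Subgroup G) : Set G))
    (hlt : (P : Subgroup G) < Subgroup.normalizer ((P : Subgroup G) : Set G))
    (hC : ∀ k ∈ (P : Subgroup G), k ≠ 1 → Subgroup.centralizer ({k} : Set G) ≤ (P : Subgroup G))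
    (L : Subgroup G) [Fintype L] (hL : L = Subgroup.normalizer ((P : Subgroup G) : Set G)) :
    (Nat.card {χ : L → ℂ // Cfsg.IsIrrCharacter L χ ∧ ∃ x : L, (x : G) ∈ (P : Subgroup G) ∧ χ x ≠ χ 1} = 1 ∧
      Cfsg.IsElementaryAbelian p (P : Subgroup G) ∧
      Nat.card (P : Subgroup G) = ((P : Subgroup G).subgroupOf L).index + 1) ∨
    Cfsg.IsCoherent {χ : L → ℂ | Cfsg.IsIrrCharacter L χ ∧ ∃ x : L, (x : G) ∈ (P : Subgroup G) ∧ χ x ≠ χ 1}
      {1}ᶜ (fun α => Cfsg.indFun L α) := by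
  classical
  have hPL : (P : Subgroup G) ≤ L := hL ▸ le_setNormalizer
  haveI hKn : ((P : Subgroup G).subgroupOf L).Normal := hL ▸ subgroupOf_setNormalizer_normal
  have hTI' : ∀ g : G, g ∉ L → ∀ s ∈ (P : Subgroup G), g * s * g⁻¹ ∈ (P : Subgroup G) → s = 1 := hL ▸ hTI
  set K := (P : Subgroup G).subgroupOf L with hK
  letI : Fintype K := Fintype.ofFinite _
  have hKmem : ∀ x : L, x ∈ K ↔ (x : G) ∈ (P : Subgroup G) := fun x => Subgroup.mem_subgroupOf
  have hCL : ∀ n ∈ K, n ≠ 1 → Subgroup.centralizer ({n} : Set L) ≤ K := fun n hn hn1 =>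
    centralizers_of_global hC n hn hn1
  have hKcard : Nat.card K = Nat.card (P : Subgroup G) :=
    Nat.card_congr (Subgroup.subgroupOfEquivOfLe hPL).toEquiv
  have hKpg : IsPGroup p K := by
    obtain ⟨m, hm⟩ := IsPGroup.iff_card.mp P.isPGroup'
    exact IsPGroup.of_card (n := m) (by rw [hKcard, hm])
  have hKodd : Odd (Nat.card K) := by
    obtain ⟨m, hm⟩ := IsPGroup.iff_card.mp hKpg
    rw [hm]
    exact Odd.pow ((Fact.out : p.Prime).odd_of_ne_two hp)
  have hK1 : K ≠ ⊥ := by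
    intro h
    apply hP1
    rw [eq_bot_iff]
    intro x hx
    have h1 : (⟨x, hPL hx⟩ : L) ∈ K := (hKmem _).mpr hx
    rw [h, Subgroup.mem_bot] at h1
    exact Subgroup.mem_bot.mpr (congrArg Subtype.val h1)
  have hTeq : {χ : L → ℂ | Cfsg.IsIrrCharacter L χ ∧ ∃ x : L, (x : G) ∈ (P : Subgroup G) ∧ χ x ≠ χ 1} =
      Cfsg.inducedIrrAbove K ⊥ := by
    rw [induced_eq_irr hCL]
    ext χ
    simp only [Set.mem_ofPred_eq, hKmem]
  have hTeq' : ∀ χ : L → ℂ, (Cfsg.IsIrrCharacter L χ ∧ ∃ x : L, (x : G) ∈ (P : Subgroup G) ∧ χ x ≠ χ 1) ↔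
      χ ∈ Cfsg.inducedIrrAbove K ⊥ := fun χ => by
    rw [← hTeq]
    rfl
  rw [hTeq]
  by_cases hna : ∀ a b : K, a * b = b * a
  · -- the abelian case
    have hirr : ∀ χ ∈ Cfsg.inducedIrrAbove K ⊥, Cfsg.IsIrrCharacter L χ := fun χ hχ =>
      inducedIrrAbove_irr hCL hχ
    have hdeg : ∀ φ ∈ Cfsg.inducedIrrAbove K ⊥, ∀ ψ ∈ Cfsg.inducedIrrAbove K ⊥, φ 1 = ψ 1 := fun φ hφ ψ hψ => by
      rw [abelian_degree hna hφ, abelian_degree hna hψ]
    by_cases htwo : ∃ χ ∈ Cfsg.inducedIrrAbove K ⊥, ∃ ψ ∈ Cfsg.inducedIrrAbove K ⊥, χ ≠ ψ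
    · right
      obtain ⟨hiso, hiso1⟩ := ind_isometry hPL hTI' (⊥ : Subgroup L)
      exact coh_same_deg_irr (inducedIrrAbove_finite _) hirr htwo hdeg hiso hiso1
    · left
      push Not at htwo
      obtain ⟨χ, hχ⟩ : (Cfsg.inducedIrrAbove K ⊥).Nonempty := by
        obtain ⟨φ, hφ⟩ := exists_nontrivial_on (K := K) K hK1 le_rfl
        exact ⟨φ, hφ.1⟩
      have hset : (inducedIrrAbove_finite (K := K) (⊥ : Subgroup L)).toFinset = {χ} := by
        ext φ
        simp only [Set.Finite.mem_toFinset, Finset.mem_singleton]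
        exact ⟨fun h => htwo φ h χ hχ, fun h => h ▸ hχ⟩
      have hsum := sum_degree_sq hCL
      rw [hset, Finset.sum_singleton] at hsum
      have hdegχ : (Cfsg.charDegree χ : ℂ) = (K.index : ℂ) := by
        rw [← map_one_eq_charDegree (IsIrrCharacter.isCharacter (hirr χ hχ))]
        exact abelian_degree hna hχ
      have hdegχ' : (Cfsg.charDegree χ : ℝ) = (K.index : ℝ) := by
        have : Cfsg.charDegree χ = K.index := by exact_mod_cast hdegχ
        rw [this]
      rw [hdegχ'] at hsum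
      have hepos : (0 : ℝ) < K.index := by
        exact_mod_cast Nat.pos_of_ne_zero Subgroup.index_ne_zero_of_finite
      have hcardR : (Nat.card K : ℝ) = (K.index : ℝ) + 1 := by
        have h1 : (K.index : ℝ) * K.index = K.index * ((Nat.card K : ℝ) - 1) := by
          rw [← hsum]
          ring
        have h2 := mul_left_cancel₀ hepos.ne' h1
        linarith
      have hcard : Nat.card K = K.index + 1 := by exact_mod_cast hcardR
      refine ⟨?_, ⟨?_, ?_⟩, ?_⟩
      · have huniq : Nat.card {χ : L → ℂ // Cfsg.IsIrrCharacter L χ ∧ ∃ x : L, (x : G) ∈ (P : Subgroup G) ∧ χ x ≠ χ 1} = 1 := by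
          rw [Nat.card_eq_one_iff_unique]
          refine ⟨⟨fun a b => ?_⟩, ⟨⟨χ, (hTeq' χ).mpr hχ⟩⟩⟩
          apply Subtype.ext
          exact htwo _ ((hTeq' _).mp a.2) _ ((hTeq' _).mp b.2)
        exact huniq
      · refine ⟨⟨fun a b => ?_⟩⟩
        have h1 := hna ⟨⟨a, hPL a.2⟩, (hKmem _).mpr a.2⟩ ⟨⟨b, hPL b.2⟩, (hKmem _).mpr b.2⟩
        apply Subtype.ext
        exact congrArg (fun x : K => ((x : L) : G)) h1
      · intro a ha
        have h1 := elementary_of_card hCL hna hKpg hK1 hcard ⟨a, hPL ha⟩ ((hKmem _).mpr ha)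
        exact congrArg Subtype.val h1
      · rw [← hKcard, hcard]
  · -- the nonabelian case
    right
    have hna' : ¬ IsMulCommutative K := fun h => hna fun a b => h.1.1 a b
    have heodd : Odd K.index := odd_index_of_nonabelian hCL hKodd hna'
    have hodd : Odd (Nat.card L) := by
      rw [← Subgroup.card_mul_index K]
      exact hKodd.mul heodd
    exact sibley_coherent P hTI (hL ▸ hodd) hL hK hP1 hCL

/-- Let G be a finite group, p an odd prime, and P a nontrivial Sylow p-subgroup whose underlying set is a TI-subset of G, with P properly contained in its set normaliser N and C_G(x) ≤ P for every non-identity x ∈ P. Let S be the set of irreducible characters χ of N with χ x ≠ χ 1 for some x ∈ P. Then either S has exactly one member, P is elementary abelian and Nat.card P = [N:P] + 1; or (S, N minus 1, induction to G) is coherent. -/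
theorem result {G : Type*} [Group G] [Fintype G] (p : ℕ) [Fact p.Prime] (hp : p ≠ 2) (P : Sylow p G) (hP1 : (P : Subgroup G) ≠ ⊥) (hTI : Cfsg.IsTISubset ((P : Subgroup G) : Set G)) (hlt : (P : Subgroup G) < Subgroup.normalizer ((P : Subgroup G) : Set G)) (hC : ∀ k ∈ (P : Subgroup G), k ≠ 1 → Subgroup.centralizer ({k} : Set G) ≤ (P : Subgroup G)) [Fintype ↥(Subgroup.normalizer ((P : Subgroup G) : Set G))] : (Nat.card {χ : ↥(Subgroup.normalizer ((P : Subgroup G) : Set G)) → ℂ // Cfsg.IsIrrCharacter ↥(Subgroup.normalizer ((P : Subgroup G) : Set G)) χ ∧ ∃ x : ↥(Subgroup.normalizer ((P : Subgroup G) : Set G)), (x : G) ∈ (P : Subgroup G) ∧ χ x ≠ χ 1} = 1 ∧ Cfsg.IsElementaryAbelian p (P : Subgroup G) ∧ Nat.card (P : Subgroup G) = ((P : Subgroup G).subgroupOf (Subgroup.normalizer ((P : Subgroup G) : Set G))).index + 1) ∨ Cfsg.IsCoherent {χ : ↥(Subgroup.normalizer ((P : Subgroup G) : Set G)) → ℂ | Cfsg.IsIrrCharacter ↥(Subgroup.normalizer ((P : Subgroup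 G) : Set G)) χ ∧ ∃ x : ↥(Subgroup.normalizer ((P : Subgroup G) : Set G)), (x : G) ∈ (P : Subgroup G) ∧ χ x ≠ χ 1} {1}ᶜ (fun α => Cfsg.indFun (Subgroup.normalizer ((P : Subgroup G) : Set G)) α) := by

  exact aux p hp P hP1 hTI hlt hC _ rfl

end Cfsg.Agent.S1533
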