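import Cfsg.Statements.S1535
import Mathlib
import Cfsg.Agent.Lib.OddChar.CohIrr2

set_option autoImplicit false
open Cfsg

namespace Cfsg.Agent.S1535

/-- Let N be a finite group with a proper nontrivial normal subgroup H such that every element commuting with a non-identity element of H lies in H (N is a Frobenius group with kernel H); let e be the index of H and suppose Nat.card H ≠ e + 1. Let S be the set of irreducible characters χ of N with χ h ≠ χ 1 for some h ∈ H, and τ a linear isometry on the integer combinations of S vanishing at 1, with values virtual characters of a finite group G vanishing at 1. Then (S, N minus 1, τ) is coherent, or there is a prime p with Nat.card H a power of p, H non-abelian and [H : [H,H]] ≤ 4e² + 1. -/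
theorem result {N : Type*} [Group N] [Fintype N] {G : Type*} [Group G] [Fintype G] (H : Subgroup N) [H.Normal] (hH1 : H ≠ ⊥) (hH2 : H ≠ ⊤) (hC : ∀ h ∈ H, h ≠ 1 → Subgroup.centralizer ({h} : Set N) ≤ H) (he : Nat.card H ≠ H.index + 1) (τ : (N → ℂ) → (G → ℂ)) (hτ : Cfsg.IsLinearIsometryOn (Cfsg.zspanOn {χ : N → ℂ | Cfsg.IsIrrCharacter N χ ∧ ∃ h ∈ H, χ h ≠ χ 1} {1}ᶜ) τ) (hτ1 : ∀ α ∈ Cfsg.zspanOn {χ : N → ℂ | Cfsg.IsIrrCharacter N χ ∧ ∃ h ∈ H, χ h ≠ χ 1} {1}ᶜ, τ α 1 = 0) : Cfsg.IsCoherent {χ : N → ℂ | Cfsg.IsIrrCharacter N χ ∧ ∃ h ∈ H, χ h ≠ χ 1} {1}ᶜ τ ∨ ∃ p : ℕ, p.Prime ∧ (∃ m : ℕ, Nat.card H = p ^ m) ∧ ¬ IsMulCommutative H ∧ (⁅H, H⁆.subgroupOf H).index ≤ 4 * H.index ^ 2 + 1 := by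
  open Cfsg.Agent.Lib.Char Cfsg.Agent.Lib.OddChar in
  classical
  have hKL : H < ⊤ := lt_top_iff_ne_top.mpr hH2
  have hset : {χ : N → ℂ | Cfsg.IsIrrCharacter N χ ∧ ∃ h ∈ H, χ h ≠ χ 1} = Cfsg.inducedIrrAbove H ⊥ := by
    rw [induced_eq_irr hC]
  rw [hset] at hτ hτ1 ⊢
  by_cases hcomm : IsMulCommutative H
  · left
    have hcomm' : ∀ a b : H, a * b = b * a := fun a b => hcomm.1.1 a b
    have hnil : Group.IsNilpotent H := kernel_nilpotent hKL hC
    have hsolv : Group.IsSolvable H := inferInstance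
    have hbot : ⁅H, H⁆ ≤ (⊥ : Subgroup N) := by
      rw [Subgroup.commutator_le]
      intro a ha b hb
      have := hcomm' ⟨a, ha⟩ ⟨b, hb⟩
      have h1 : a * b = b * a := congrArg Subtype.val this
      rw [Subgroup.mem_bot, commutatorElement_eq_one_iff_mul_comm]
      exact h1
    refine coh_top_irr hC hsolv hτ hτ1 ⊥ (bot_lt_iff_ne_bot.mpr hH1) hbot ?_
    rw [Subgroup.relIndex_bot_left]
    have h1 := index_dvd_card_sub_one hC (N := H) le_rfl
    have h2 : Nat.card H ≠ 1 := by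
      intro h
      exact hH1 (Subgroup.eq_bot_of_card_eq H h)
    have h3 : 0 < Nat.card H := Nat.card_pos
    obtain ⟨c, hc⟩ := h1
    have hepos : 0 < H.index := Nat.pos_of_ne_zero Subgroup.index_ne_zero_of_finite
    have hc0 : c ≠ 0 := by
      rintro rfl
      omega
    have hc1 : c ≠ 1 := by
      rintro rfl
      omega
    have hc2 : 2 ≤ c := by omega
    have : H.index * 2 ≤ H.index * c := Nat.mul_le_mul_left _ hc2
    omega
  · by_cases hpp : ∃ p m : ℕ, p.Prime ∧ Nat.card H = p ^ m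
    · by_cases hbig : 4 * H.index ^ 2 + 1 < ⁅H, H⁆.relIndex H
      · left
        exact coh_big_irr hC (kernel_nilpotent hKL hC) hτ hτ1 hH1 hbig
      · right
        obtain ⟨p, m, hp, hm⟩ := hpp
        exact ⟨p, hp, ⟨m, hm⟩, hcomm, not_lt.mp hbig⟩
    · left
      exact coh_nonprime_irr hKL hC hτ hτ1 hcomm hpp

end Cfsg.Agent.S1535
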