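import Cfsg.Statements.S1534
import Mathlib
import Cfsg.Agent.S1535
import Cfsg.Agent.S1524

set_option autoImplicit false
open Cfsg

namespace Cfsg.Agent.S1534

/-- In a Frobenius group with kernel of order `e + 1`, all non-identity elements of the kernel are
conjugate. -/
theorem conj_of_card {L : Type*} [Group L] [Finite L] {K : Subgroup L} [hKn : K.Normal]
    (hC : ∀ n ∈ K, n ≠ 1 → Subgroup.centralizer ({n} : Set L) ≤ K)
    (hcard : Nat.card K = K.index + 1) {a b : L} (ha : a ∈ K) (ha1 : a ≠ 1) (hb : b ∈ K) (hb1 : b ≠ 1) :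
    ∃ g : L, g * a * g⁻¹ = b := by
  classical
  let Y := {y : L // y ∈ K ∧ y ≠ 1}
  letI act : MulAction L Y :=
    { smul := fun q y => ⟨q * y.1 * q⁻¹, hKn.conj_mem _ y.2.1 q, fun h => y.2.2 (by
        have h1 : q * y.1 * q⁻¹ = q * 1 * q⁻¹ := by rw [h]; group
        exact mul_left_cancel (mul_right_cancel h1))⟩
      one_smul := fun y => by
        apply Subtype.ext
        change 1 * y.1 * 1⁻¹ = y.1
        group
      mul_smul := fun a b y => by
        apply Subtype.ext
        change (a * b) * y.1 * (a * b)⁻¹ = a * (b * y.1 * b⁻¹) * a⁻¹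
        group }
  have hY : Nat.card Y = K.index := by
    letI : Fintype K := Fintype.ofFinite _
    have h2 : Y ≃ {y : K // y ≠ 1} :=
      { toFun := fun y => ⟨⟨y.1, y.2.1⟩, fun h => y.2.2 (congrArg Subtype.val h)⟩
        invFun := fun y => ⟨y.1.1, y.1.2, fun h => y.2 (Subtype.ext h)⟩
        left_inv := fun _ => rfl
        right_inv := fun _ => rfl }
    rw [Nat.card_congr h2, Nat.card_eq_fintype_card, Fintype.card_subtype_compl, Fintype.card_subtype_eq]
    rw [← Nat.card_eq_fintype_card, hcard]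
    omega
  let y₀ : Y := ⟨a, ha, ha1⟩
  have hstab : MulAction.stabilizer L y₀ ≤ K := by
    intro x hx
    refine hC a ha ha1 ?_
    rw [Subgroup.mem_centralizer_singleton_iff]
    have h1 : x * a * x⁻¹ = a := congrArg Subtype.val (MulAction.mem_stabilizer_iff.mp hx)
    calc x * a = (x * a * x⁻¹) * x := by group
      _ = a * x := by rw [h1]
  have horb : K.index ≤ (MulAction.orbit L y₀).ncard := by
    rw [← MulAction.index_stabilizer]
    exact Nat.le_of_dvd (Nat.pos_of_ne_zero Subgroup.index_ne_zero_of_finite) (Subgroup.index_dvd_of_le hstab)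
  have huniv : MulAction.orbit L y₀ = Set.univ :=
    Set.eq_of_subset_of_ncard_le (Set.subset_univ _) (by rw [Set.ncard_univ, hY]; exact horb)
  have hmem : (⟨b, hb, hb1⟩ : Y) ∈ MulAction.orbit L y₀ := by
    rw [huniv]
    trivial
  obtain ⟨g, hg⟩ := hmem
  exact ⟨g, congrArg Subtype.val hg⟩

open Cfsg.Agent.Lib.Char Cfsg.Agent.Lib.OddChar in
theorem aux {G : Type*} [Group G] [Fintype G] (K : Subgroup G) (hK1 : K ≠ ⊥) (hnil : Group.IsNilpotent K)
    (hTI : Cfsg.IsTISubset (K : Set G)) (hlt : K < Subgroup.normalizer (K : Set G))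
    (hC : ∀ k ∈ K, k ≠ 1 → Subgroup.centralizer ({k} : Set G) ≤ K)
    (L : Subgroup G) [Fintype L] (hL : L = Subgroup.normalizer (K : Set G)) :
    (Nat.card {χ : L → ℂ // Cfsg.IsIrrCharacter L χ ∧ ∃ k : L, (k : G) ∈ K ∧ χ k ≠ χ 1} = 1 ∧
      Nat.card K = (K.subgroupOf L).index + 1 ∧ ∃ p : ℕ, p.Prime ∧ Cfsg.IsElementaryAbelian p K) ∨
    (Nat.card K = 2 ^ (Nat.card G).factorization 2 ∧
      (⁅K, K⁆.subgroupOf K).index < 4 * (K.subgroupOf L).index ^ 2) ∨
    Cfsg.IsCoherent {χ : L → ℂ | Cfsg.IsIrrCharacter L χ ∧ ∃ k : L, (k : G) ∈ K ∧ χ k ≠ χ 1}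
      {1}ᶜ (fun α => Cfsg.indFun L α) := by
  classical
  have hKL : K ≤ L := hL ▸ le_setNormalizer
  haveI hKn : (K.subgroupOf L).Normal := hL ▸ subgroupOf_setNormalizer_normal
  have hTI' : ∀ g : G, g ∉ L → ∀ s ∈ K, g * s * g⁻¹ ∈ K → s = 1 := hL ▸ hTI
  set H := K.subgroupOf L with hH
  letI : Fintype H := Fintype.ofFinite _
  have hHmem : ∀ x : L, x ∈ H ↔ (x : G) ∈ K := fun x => Subgroup.mem_subgroupOf
  have hCL : ∀ n ∈ H, n ≠ 1 → Subgroup.centralizer ({n} : Set L) ≤ H := fun n hn hn1 =>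
    centralizers_of_global hC n hn hn1
  have hHcard : Nat.card H = Nat.card K := Nat.card_congr (Subgroup.subgroupOfEquivOfLe hKL).toEquiv
  have hH1 : H ≠ ⊥ := by
    intro h
    apply hK1
    rw [eq_bot_iff]
    intro x hx
    have h1 : (⟨x, hKL hx⟩ : L) ∈ H := (hHmem _).mpr hx
    rw [h, Subgroup.mem_bot] at h1
    exact Subgroup.mem_bot.mpr (congrArg Subtype.val h1)
  have hH2 : H ≠ ⊤ := by
    intro h
    obtain ⟨x, hx, hxK⟩ := SetLike.exists_of_lt hlt
    have h1 : (⟨x, hL ▸ hx⟩ : L) ∈ H := by rw [h]; trivial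
    exact hxK ((hHmem _).mp h1)
  have hHlt : H < ⊤ := lt_top_iff_ne_top.mpr hH2
  have hTeq : {χ : L → ℂ | Cfsg.IsIrrCharacter L χ ∧ ∃ k : L, (k : G) ∈ K ∧ χ k ≠ χ 1} =
      Cfsg.inducedIrrAbove H ⊥ := by
    rw [induced_eq_irr hCL]
    ext χ
    simp only [Set.mem_ofPred_eq, hHmem]
  have hTeq' : ∀ χ : L → ℂ, (Cfsg.IsIrrCharacter L χ ∧ ∃ k : L, (k : G) ∈ K ∧ χ k ≠ χ 1) ↔
      χ ∈ Cfsg.inducedIrrAbove H ⊥ := fun χ => by
    rw [← hTeq]
    rfl
  have hepos : 0 < H.index := Nat.pos_of_ne_zero Subgroup.index_ne_zero_of_finite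
  have he1 : H.index ≠ 1 := fun h => hH2 (Subgroup.index_eq_one.mp h)
  have hcop := coprime_of_centralizers hCL
  by_cases hcard : Nat.card H = H.index + 1
  · left
    -- all non-identity elements are conjugate
    have hconj := fun a b ha ha1 hb hb1 => conj_of_card hCL hcard (a := a) (b := b) ha ha1 hb hb1
    -- the single character
    obtain ⟨χ₀, hχ₀⟩ : (Cfsg.inducedIrrAbove H ⊥).Nonempty := by
      obtain ⟨φ, hφ⟩ := exists_nontrivial_on (K := H) H hH1 le_rfl
      exact ⟨φ, hφ.1⟩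
    have hdege : ∀ χ ∈ Cfsg.inducedIrrAbove H ⊥, H.index ≤ Cfsg.charDegree χ := by
      rintro χ ⟨θ, hθ, -, -, rfl⟩
      have hθ1 := map_one_eq_charDegree (IsIrrCharacter.isCharacter hθ)
      have hdχ : Cfsg.charDegree (Cfsg.indFun H θ) = H.index * Cfsg.charDegree θ :=
        charDegree_natCast (by rw [indFun_one, hθ1]; push_cast; ring)
      rw [hdχ]
      exact Nat.le_mul_of_pos_right _ (charDegree_pos_of_irr hθ)
    have hsum := sum_degree_sq hCL
    have huniq : ∀ χ ∈ Cfsg.inducedIrrAbove H ⊥, χ = χ₀ := by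
      intro χ hχ
      by_contra hne
      have h1 : ({χ, χ₀} : Finset (L → ℂ)) ⊆ (inducedIrrAbove_finite (K := H) (⊥ : Subgroup L)).toFinset := by
        intro f hf
        simp only [Finset.mem_insert, Finset.mem_singleton] at hf
        simp only [Set.Finite.mem_toFinset]
        rcases hf with rfl | rfl
        · exact hχ
        · exact hχ₀
      have h2 := Finset.sum_le_sum_of_subset_of_nonneg (f := fun φ => ((Cfsg.charDegree φ : ℝ) ^ 2)) h1
        (fun _ _ _ => by positivity)
      rw [hsum, Finset.sum_pair hne, hcard] at h2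
      have h3 : (H.index : ℝ) ≤ Cfsg.charDegree χ := by exact_mod_cast hdege χ hχ
      have h4 : (H.index : ℝ) ≤ Cfsg.charDegree χ₀ := by exact_mod_cast hdege χ₀ hχ₀
      have h5 : (0 : ℝ) < H.index := by exact_mod_cast hepos
      push_cast at h2
      nlinarith
    -- the elements have prime order
    obtain ⟨a, haH, ha1⟩ : ∃ a : L, a ∈ H ∧ a ≠ 1 := by
      obtain h | ⟨a, ha, ha1⟩ := H.bot_or_exists_ne_one
      · exact absurd h hH1
      · exact ⟨a, ha, ha1⟩
    have hn1 : orderOf a ≠ 1 := fun h => ha1 (orderOf_eq_one_iff.mp h)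
    obtain ⟨p, hp, hpd⟩ := Nat.exists_prime_and_dvd hn1
    haveI : Fact p.Prime := ⟨hp⟩
    have hb := orderOf_pow_orderOf_div (orderOf_pos a).ne' hpd
    set b := a ^ (orderOf a / p) with hbdef
    have hbH : b ∈ H := H.pow_mem haH _
    have hb1 : b ≠ 1 := by
      intro h
      rw [h, orderOf_one] at hb
      exact hp.one_lt.ne hb
    have hpow : ∀ x ∈ H, x ^ p = 1 := by
      intro x hx
      by_cases hx1 : x = 1
      · rw [hx1, one_pow]
      obtain ⟨g, rfl⟩ := hconj b x hbH hb1 hx hx1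
      rw [conj_pow]
      have h1 : b ^ p = 1 := by
        rw [← hb]
        exact pow_orderOf_eq_one b
      rw [h1]
      group
    -- commutativity: the centre is everything
    have hnilH : Group.IsNilpotent H := kernel_nilpotent hHlt hCL
    have hcomm : ∀ x y : L, x ∈ H → y ∈ H → x * y = y * x := by
      haveI : Nontrivial H := (Subgroup.nontrivial_iff_ne_bot H).mpr hH1
      obtain ⟨z, hz1⟩ : ∃ z : H, z ∈ Subgroup.center H ∧ z ≠ 1 := by
        haveI : Group.IsNilpotent H := hnilH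
        have hT : (⊤ : Subgroup H) ≠ ⊥ := top_ne_bot
        obtain ⟨z, -, hz1, hzc⟩ := exists_center_of_normal_nilpotent (X := H) ⊤ hT
        exact ⟨z, hzc, hz1⟩
      obtain ⟨hzc, hzne⟩ := hz1
      have hzne' : (z : L) ≠ 1 := fun h => hzne (Subtype.ext h)
      have hcen : ∀ x ∈ H, x ≠ 1 → ∀ y ∈ H, x * y = y * x := by
        intro x hx hx1 y hy
        obtain ⟨g, hg⟩ := hconj (z : L) x z.2 hzne' hx hx1
        have h1 := Subgroup.mem_center_iff.mp hzc ⟨g⁻¹ * y * g, by
          simpa using hKn.conj_mem y hy g⁻¹⟩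
        have h2 : (g⁻¹ * y * g) * (z : L) = (z : L) * (g⁻¹ * y * g) := congrArg Subtype.val h1
        rw [← hg]
        calc g * (z : L) * g⁻¹ * y = g * ((z : L) * (g⁻¹ * y * g)) * g⁻¹ := by group
          _ = g * ((g⁻¹ * y * g) * (z : L)) * g⁻¹ := by rw [h2]
          _ = y * (g * (z : L) * g⁻¹) := by group
      intro x y hx hy
      by_cases hx1 : x = 1
      · rw [hx1, one_mul, mul_one]
      · exact hcen x hx hx1 y hy
    refine ⟨?_, hHcard ▸ hcard, p, hp, ⟨⟨fun a b => ?_⟩⟩, ?_⟩
    · rw [Nat.card_eq_one_iff_unique]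
      refine ⟨⟨fun a b => ?_⟩, ⟨⟨χ₀, (hTeq' χ₀).mpr hχ₀⟩⟩⟩
      apply Subtype.ext
      rw [huniq _ ((hTeq' _).mp a.2), huniq _ ((hTeq' _).mp b.2)]
    · have h1 := hcomm ⟨a, hKL a.2⟩ ⟨b, hKL b.2⟩ ((hHmem _).mpr a.2) ((hHmem _).mpr b.2)
      apply Subtype.ext
      have h2 : (a : G) * b = b * a := congrArg Subtype.val h1
      exact h2
    · intro a ha
      have h1 := hpow ⟨a, hKL ha⟩ ((hHmem _).mpr ha)
      exact congrArg Subtype.val h1
  · right
    obtain ⟨hiso, hiso1⟩ := ind_isometry hKL hTI' (⊥ : Subgroup L)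
    have hfrobeq : {χ : L → ℂ | Cfsg.IsIrrCharacter L χ ∧ ∃ h ∈ H, χ h ≠ χ 1} = Cfsg.inducedIrrAbove H ⊥ := by
      rw [induced_eq_irr hCL]
    rw [hTeq]
    have hres := Cfsg.Agent.S1535.result H hH1 hH2 hCL hcard (fun α : L → ℂ => Cfsg.indFun L α)
      (by rw [hfrobeq]; exact hiso) (by rw [hfrobeq]; exact hiso1)
    rw [hfrobeq] at hres
    rcases hres with h | ⟨p, hp, ⟨m, hm⟩, hna, hidx⟩
    · exact Or.inr h
    haveI : Fact p.Prime := ⟨hp⟩
    have hKp : IsPGroup p K := IsPGroup.of_card (n := m) (by rw [← hHcard, hm])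
    obtain ⟨Q, hQ⟩ := hKp.exists_le_sylow
    have hKQ := Cfsg.Agent.S1524.sylow_eq K L hKL hL.symm hK1 hKp hcop Q hQ
    by_cases hp2 : p = 2
    · left
      subst hp2
      refine ⟨?_, ?_⟩
      · rw [hKQ]
        exact Q.card_eq_multiplicity
      · -- the index
        have hidxeq : (⁅K, K⁆.subgroupOf K).index = (⁅H, H⁆.subgroupOf H).index := by
          have hmapH : H.map L.subtype = K := by
            rw [hH]
            exact Subgroup.map_subgroupOf_eq_of_le hKL
          have hcomm' : ⁅H, H⁆.map L.subtype = ⁅K, K⁆ := by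
            rw [Subgroup.map_commutator, hmapH]
          have h1 : Nat.card (⁅H, H⁆ : Subgroup L) = Nat.card (⁅K, K⁆ : Subgroup G) := by
            rw [← hcomm']
            exact (Subgroup.card_map_of_injective L.subtype_injective).symm
          have h2 := Subgroup.card_mul_index (⁅H, H⁆.subgroupOf H)
          have h3 := Subgroup.card_mul_index (⁅K, K⁆.subgroupOf K)
          have h4 : Nat.card (⁅H, H⁆.subgroupOf H) = Nat.card (⁅H, H⁆ : Subgroup L) :=
            Nat.card_congr (Subgroup.subgroupOfEquivOfLe (Subgroup.commutator_le_left _ _)).toEquiv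
          have hKK : ⁅K, K⁆ ≤ K := by
            rw [Subgroup.commutator_le]
            intro a ha b hb
            rw [commutatorElement_def]
            exact K.mul_mem (K.mul_mem (K.mul_mem ha hb) (K.inv_mem ha)) (K.inv_mem hb)
          have h5 : Nat.card (⁅K, K⁆.subgroupOf K) = Nat.card (⁅K, K⁆ : Subgroup G) :=
            Nat.card_congr (Subgroup.subgroupOfEquivOfLe hKK).toEquiv
          rw [h4] at h2
          rw [h5] at h3
          have h6 : 0 < Nat.card (⁅K, K⁆ : Subgroup G) := Nat.card_pos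
          apply Nat.eq_of_mul_eq_mul_left h6
          rw [h3, ← h1, h2, hHcard]
        rw [hidxeq, ← Subgroup.relIndex]
        have hsolvH : Group.IsSolvable H := by
          have hnilH : Group.IsNilpotent H := kernel_nilpotent hHlt hCL
          infer_instance
        have hHH : ⁅H, H⁆ < H := commutator_lt_of_solvable hsolvH hH1
        have hx1 : ⁅H, H⁆.relIndex H ≠ 1 := fun h => hHH.not_ge (Subgroup.relIndex_eq_one.mp h)
        have hxdvd : ⁅H, H⁆.relIndex H ∣ 2 ^ m := by
          rw [← hm]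
          exact Subgroup.index_dvd_card _
        obtain ⟨j, -, hj⟩ := (Nat.dvd_prime_pow Nat.prime_two).mp hxdvd
        have hj0 : j ≠ 0 := by
          rintro rfl
          exact hx1 (by simpa using hj)
        have heven : 2 ∣ ⁅H, H⁆.relIndex H := by
          rw [hj]
          exact dvd_pow_self _ hj0
        have hd : H.index ∣ ⁅H, H⁆.relIndex H - 1 :=
          frob_count (K := H) (H₁ := ⁅H, H⁆) (N := H) hHH.le le_rfl le_rfl
            (fun k hk hk2 x hx => mem_of_comm_mem hCL hHH.le hk hk2 hx)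
        have hne1 : ⁅H, H⁆.relIndex H ≠ 4 * H.index ^ 2 + 1 := by
          intro h
          rw [h] at heven
          omega
        have hne2 : ⁅H, H⁆.relIndex H ≠ 4 * H.index ^ 2 := by
          intro h
          rw [h] at hd
          have h3 : H.index ∣ 4 * H.index ^ 2 := ⟨4 * H.index, by ring⟩
          have h4 : H.index ∣ 4 * H.index ^ 2 - (4 * H.index ^ 2 - 1) := Nat.dvd_sub h3 hd
          have h5 : 0 < 4 * H.index ^ 2 := by positivity
          have h6 : 4 * H.index ^ 2 - (4 * H.index ^ 2 - 1) = 1 := by omega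
          rw [h6] at h4
          exact he1 (Nat.dvd_one.mp h4)
        have hle : ⁅H, H⁆.relIndex H ≤ 4 * H.index ^ 2 + 1 := hidx
        have hlast : ⁅H, H⁆.relIndex H < 4 * H.index ^ 2 := by omega
        exact hlast
    · right
      have hKodd : Odd (Nat.card H) := by
        rw [hm]
        exact Odd.pow (hp.odd_of_ne_two hp2)
      have heodd : Odd H.index := odd_index_of_nonabelian hCL hKodd hna
      have hodd : Odd (Nat.card L) := by
        rw [← Subgroup.card_mul_index H]
        exact hKodd.mul heodd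
      subst hKQ
      exact sibley_coherent Q hTI (hL ▸ hodd) hL rfl hK1 hCL

/-- Let G be a finite group and K a nontrivial nilpotent subgroup whose underlying set is a TI-subset of G, properly contained in its set normaliser N, with C_G(k) ≤ K for every non-identity k ∈ K; let e be the index of K in N and S the set of irreducible characters χ of N with χ k ≠ χ 1 for some k ∈ K. Then one of: S has exactly one member, Nat.card K = e + 1 and K is an elementary abelian p-group for some prime p; or K is a Sylow 2-subgroup of G (Nat.card K is the largest power of 2 dividing Nat.card G) and [K : [K,K]] < 4e²; or (S, N minus 1, induction to G) is coherent. -/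
theorem result {G : Type*} [Group G] [Fintype G] (K : Subgroup G) (hK1 : K ≠ ⊥) (hnil : Group.IsNilpotent K) (hTI : Cfsg.IsTISubset (K : Set G)) (hlt : K < Subgroup.normalizer (K : Set G)) (hC : ∀ k ∈ K, k ≠ 1 → Subgroup.centralizer ({k} : Set G) ≤ K) [Fintype ↥(Subgroup.normalizer (K : Set G))] : (Nat.card {χ : ↥(Subgroup.normalizer (K : Set G)) → ℂ // Cfsg.IsIrrCharacter ↥(Subgroup.normalizer (K : Set G)) χ ∧ ∃ k : ↥(Subgroup.normalizer (K : Set G)), (k : G) ∈ K ∧ χ k ≠ χ 1} = 1 ∧ Nat.card K = (K.subgroupOf (Subgroup.normalizer (K : Set G))).index + 1 ∧ ∃ p : ℕ, p.Prime ∧ Cfsg.IsElementaryAbelian p K) ∨ (Nat.card K = 2 ^ (Nat.card G).factorization 2 ∧ (⁅K, K⁆.subgroupOf K).index < 4 * (K.subgroupOf (Subgroup.normalizer (K : Set G))).index ^ 2) ∨ Cfsg.IsCoherent {χ : ↥(Subgroup.normalizer (K : Set G)) → ℂ | Cfsg.IsIrrCharacter ↥(Subgroup.normalizer (K : Set G)) χ ∧ ∃ k : ↥(Subgroup.normalizer (K : Set G)), (k : G) ∈ K ∧ χ k ≠ χ 1} {1}ᶜ (fun α => Cfsg.indFun (Subgroup.normalizer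 (K : Set G)) α) := by

  exact aux K hK1 hnil hTI hlt hC _ rfl

end Cfsg.Agent.S1534
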