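import Cfsg.Statements.S1536
import Cfsg.Agent.Lib.OddChar.FixChar

set_option autoImplicit false
open Cfsg

namespace Cfsg.Agent.S1536

/-- Let H be a normal subgroup of the finite group M whose order is coprime to its index. For x ∈ M: some non-principal irreducible character of H is unchanged under h ↦ θ(x h x⁻¹) if and only if some non-identity element of H commutes with x. -/
theorem result {M : Type*} [Group M] [Finite M] (H : Subgroup M) [hN : H.Normal] (hHall : Nat.Coprime (Nat.card H) H.index) (x : M) : (∃ θ : H → ℂ, Cfsg.IsIrrCharacter H θ ∧ θ ≠ (fun _ => 1) ∧ (fun h : H => θ ⟨x * h * x⁻¹, hN.conj_mem h h.2 x⟩) = θ) ↔ ∃ h ∈ H, h ≠ 1 ∧ x * h = h * x := by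
  open Cfsg.Agent.Lib.Char Cfsg.Agent.Lib.OddChar Cfsg.Agent.Lib.Coprime in
  classical
  let α : H ≃* H := MulAut.conjNormal x
  have hα : ∀ h : H, ((α h : H) : M) = x * h * x⁻¹ := fun h => MulAut.conjNormal_apply x h
  have hconv : ∀ θ : H → ℂ, (fun h : H => θ ⟨x * h * x⁻¹, hN.conj_mem h h.2 x⟩) = θ ∘ α := by
    intro θ
    funext h
    simp only [Function.comp_apply]
    congr 1
  constructor
  · rintro ⟨θ, hθ, hne, hfix⟩
    obtain ⟨g, hg1, hg⟩ := (exists_fixed_irr_iff α).mp ⟨θ, hθ, hne, by rw [← hconv]; exact hfix⟩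
    by_cases hcop : (orderOf x).Coprime (Nat.card H)
    · let A := Subgroup.zpowers x
      let φ : A →* MulAut H := (MulAut.conjNormal (G := M) (H := H)).comp A.subtype
      let a₀ : A := ⟨x, Subgroup.mem_zpowers x⟩
      have hgen : ∀ a : A, a ∈ Subgroup.zpowers a₀ := by
        rintro ⟨a, ha⟩
        obtain ⟨k, rfl⟩ := Subgroup.mem_zpowers_iff.mp ha
        refine Subgroup.mem_zpowers_iff.mpr ⟨k, ?_⟩
        apply Subtype.ext
        simp [a₀]
      have hφa₀ : ∀ h : H, φ a₀ h = α h := fun h => rfl
      have hfixcl : IsFixCl φ (ConjClasses.mk g) := by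
        refine isFixCl_of_gen hgen ?_
        intro g' hg'
        rw [hφa₀]
        have h1 : IsConj g' g := ConjClasses.mk_eq_mk_iff_isConj.mp hg'
        have h2 : IsConj (α g') (α g) := by
          obtain ⟨c, rfl⟩ := isConj_iff.mp h1
          exact isConj_iff.mpr ⟨α c, by simp⟩
        exact ConjClasses.mk_eq_mk_iff_isConj.mpr (h2.trans hg.symm)
      have hg' : ∀ a : A, IsConj g (φ a g) := fun a =>
        (ConjClasses.mk_eq_mk_iff_isConj.mp (hfixcl a g rfl)).symm
      have hcard : Nat.card A = orderOf x := Nat.card_zpowers x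
      have hsol : Group.IsSolvable A := by
        haveI : IsMulCommutative A := inferInstance
        infer_instance
      obtain ⟨w, hw1, hw2⟩ := exists_fixed_of_conj (φ := φ) (by rw [hcard]; exact hcop)
        (Or.inl hsol) g hg'
      refine ⟨w, w.2, ?_, ?_⟩
      · intro h0
        apply hg1
        have : w = 1 := Subtype.ext h0
        rw [this] at hw1
        exact isConj_one_right.mp hw1.symm
      · have h3 := congrArg Subtype.val (hw2 a₀)
        have h4 : ((φ a₀ w : H) : M) = x * w * x⁻¹ := hα w
        rw [h4] at h3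
        calc x * w = x * w * x⁻¹ * x := by group
          _ = w * x := by rw [h3]
    · obtain ⟨p, hp, hpx, hpH⟩ := Nat.Prime.not_coprime_iff_dvd.mp hcop
      haveI := Fact.mk hp
      have hx0 : 0 < orderOf x := orderOf_pos x
      have hy : orderOf (x ^ (orderOf x / p)) = p := orderOf_pow_orderOf_div hx0.ne' hpx
      set y := x ^ (orderOf x / p) with hydef
      have hpi : (Nat.card H).Coprime H.index := hHall
      have hpidx : p.Coprime H.index := Nat.Coprime.coprime_dvd_left hpH hpi
      have hyH : y ∈ H := by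
        have h1 : y ^ H.index ∈ H := Subgroup.pow_index_mem H y
        have h2 : y ^ p = 1 := by
          rw [← hy]
          exact pow_orderOf_eq_one y
        have h3 : Nat.gcd p H.index = 1 := hpidx
        have h4 := Nat.gcd_eq_gcd_ab p H.index
        rw [h3] at h4
        have h5 : y = (y ^ p) ^ (Nat.gcdA p H.index) * (y ^ H.index) ^ (Nat.gcdB p H.index) := by
          rw [← zpow_natCast y p, ← zpow_natCast y H.index, ← zpow_mul, ← zpow_mul, ← zpow_add,
            ← h4]
          simp
        rw [h5, h2, one_zpow, one_mul]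
        exact Subgroup.zpow_mem _ h1 _
      refine ⟨y, hyH, ?_, ?_⟩
      · intro h0
        rw [h0, orderOf_one] at hy
        exact hp.one_lt.ne hy
      · rw [hydef]
        exact (Commute.pow_right (Commute.refl x) _).eq
  · rintro ⟨h, hh, hh1, hc⟩
    obtain ⟨θ, hθ, hne, hfix⟩ := (exists_fixed_irr_iff α).mpr ⟨⟨h, hh⟩, fun h0 => hh1 (congrArg Subtype.val h0), by
      have h2 : α ⟨h, hh⟩ = ⟨h, hh⟩ := by
        apply Subtype.ext
        rw [hα]
        show x * h * x⁻¹ = h
        rw [hc]
        group
      rw [h2]⟩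
    exact ⟨θ, hθ, hne, by rw [hconv]; exact hfix⟩

end Cfsg.Agent.S1536
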