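import Cfsg.Statements.S1546
import Mathlib

set_option autoImplicit false
open Cfsg

namespace Cfsg.Agent.S1546

/-- Let p and q be odd primes and N = (p ^ q − 1) / (p − 1) = 1 + p + ⋯ + p^(q−1). Then N is odd; if p ≡ 1 (mod q) then q ∣ N; and if p is not ≡ 1 (mod q) then N is coprime to p − 1 and every divisor of N is ≡ 1 (mod q). -/
theorem result (p q : ℕ) (hp : p.Prime) (hq : q.Prime) (hp2 : p ≠ 2) (hq2 : q ≠ 2) : Odd ((p ^ q - 1) / (p - 1)) ∧ (p % q = 1 → q ∣ (p ^ q - 1) / (p - 1)) ∧ (p % q ≠ 1 → Nat.Coprime ((p ^ q - 1) / (p - 1)) (p - 1) ∧ ∀ x : ℕ, x ∣ (p ^ q - 1) / (p - 1) → x % q = 1) := by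
  have hp3 : 3 ≤ p := by
    have := hp.two_le
    omega
  have hq3 : 3 ≤ q := by
    have := hq.two_le
    omega
  set N := (p ^ q - 1) / (p - 1) with hN
  have hNsum : N = ∑ k ∈ Finset.range q, p ^ k := (Nat.geomSum_eq hp.two_le q).symm
  have hpodd : Odd p := hp.odd_of_ne_two hp2
  have hqodd : Odd q := hq.odd_of_ne_two hq2
  have hodd : Odd N := by
    rw [hNsum, Finset.odd_sum_iff_odd_card_odd]
    have : (Finset.range q).filter (fun k => Odd (p ^ k)) = Finset.range q :=
      Finset.filter_true_of_mem fun k _ => hpodd.pow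
    rw [this, Finset.card_range]
    exact hqodd
  have hmul : N * (p - 1) = p ^ q - 1 := by
    rw [hN]
    apply Nat.div_mul_cancel
    simpa only [one_pow] using Nat.sub_dvd_pow_sub_pow p 1 q
  -- in a ring where `p = 1`, `N = q`
  have hmod : ∀ d : ℕ, d ∣ p - 1 → (N : ZMod d) = (q : ZMod d) := by
    intro d hd
    have h1 : (p : ZMod d) = 1 := by
      have h2 : ((p - 1 : ℕ) : ZMod d) = 0 := (ZMod.natCast_eq_zero_iff _ _).mpr hd
      have h3 : ((p - 1 : ℕ) : ZMod d) = (p : ZMod d) - 1 := by
        rw [Nat.cast_sub (by omega)]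
        simp
      rw [h3] at h2
      exact sub_eq_zero.mp h2
    rw [hNsum]
    push_cast
    rw [h1]
    simp
  have hdvdq : p % q = 1 → q ∣ p - 1 := by
    intro h
    have := Nat.div_add_mod p q
    rw [h] at this
    exact ⟨p / q, by omega⟩
  refine ⟨hodd, fun h => ?_, fun h => ?_⟩
  · -- `q ∣ N`
    have h1 := hmod q (hdvdq h)
    rw [ZMod.natCast_self] at h1
    exact (ZMod.natCast_eq_zero_iff _ _).mp h1
  · have hcop : Nat.Coprime N (p - 1) := by
      by_contra hne
      obtain ⟨r, hr, hrN, hrp⟩ := Nat.Prime.not_coprime_iff_dvd.mp hne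
      have h1 := hmod r hrp
      have h2 : (N : ZMod r) = 0 := (ZMod.natCast_eq_zero_iff _ _).mpr hrN
      rw [h2] at h1
      have h3 : r ∣ q := (ZMod.natCast_eq_zero_iff _ _).mp h1.symm
      have h4 : r = q := (Nat.prime_dvd_prime_iff_eq hr hq).mp h3
      subst h4
      apply h
      obtain ⟨c, hc⟩ := hrp
      have h5 : p = r * c + 1 := by omega
      rw [h5, Nat.mul_add_mod]
      exact Nat.mod_eq_of_lt (by omega)
    refine ⟨hcop, ?_⟩
    -- prime divisors are `1` modulo `q`
    have hprime : ∀ r : ℕ, r.Prime → r ∣ N → r % q = 1 := by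
      intro r hr hrN
      haveI := Fact.mk hr
      have h1 : (p : ZMod r) ^ q = 1 := by
        have h2 : (N : ZMod r) = 0 := (ZMod.natCast_eq_zero_iff _ _).mpr hrN
        have h3 : ((N * (p - 1) : ℕ) : ZMod r) = 0 := by
          push_cast
          rw [h2, zero_mul]
        rw [hmul, Nat.cast_sub (Nat.one_le_pow _ _ hp.pos)] at h3
        push_cast at h3
        exact sub_eq_zero.mp h3
      have h0 : (p : ZMod r) ≠ 0 := by
        intro h5
        rw [h5, zero_pow (by omega)] at h1
        exact zero_ne_one h1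
      have hord := orderOf_dvd_of_pow_eq_one h1
      rcases (Nat.dvd_prime hq).mp hord with h2 | h2
      · exfalso
        have h3 : (p : ZMod r) = 1 := orderOf_eq_one_iff.mp h2
        have h4 : r ∣ p - 1 := by
          rw [← ZMod.natCast_eq_zero_iff, Nat.cast_sub (by omega)]
          push_cast
          rw [h3, sub_self]
        have := Nat.eq_one_of_dvd_coprimes hcop hrN h4
        exact hr.one_lt.ne' this
      · have h3 : q ∣ r - 1 := h2 ▸ ZMod.orderOf_dvd_card_sub_one h0
        obtain ⟨c, hc⟩ := h3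
        have h5 : r = q * c + 1 := by
          have := hr.pos
          omega
        rw [h5, Nat.mul_add_mod]
        exact Nat.mod_eq_of_lt (by omega)
    have hN0 : N ≠ 0 := fun h0 => by
      rw [h0] at hodd
      exact absurd hodd (by decide)
    intro x
    induction x using Nat.recOnMul with
    | zero =>
      intro h
      exact absurd (zero_dvd_iff.mp h) hN0
    | one =>
      intro _
      exact Nat.mod_eq_of_lt (by omega)
    | prime r hr =>
      intro h
      exact hprime r hr h
    | mul a b ha hb =>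
      intro h
      have h1 := ha (dvd_of_mul_right_dvd h)
      have h2 := hb (dvd_of_mul_left_dvd h)
      rw [Nat.mul_mod, h1, h2]
      exact Nat.mod_eq_of_lt (by omega)


end Cfsg.Agent.S1546
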