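import Cfsg.Statements.S1550
import Cfsg.Agent.Lib.M24.Tables

set_option autoImplicit false
open scoped Pointwise
open Cfsg

namespace Cfsg.Agent.S1550

/-- Every 4-element set of the 24 points is a tetrad of exactly one sextet, and the sextets number 1771. -/
theorem result : (∀ t : Finset Cfsg.GolayPt, t.card = 4 → ∃! S : Finset (Finset Cfsg.GolayPt), S ∈ Cfsg.sextets ∧ t ∈ S) ∧ Cfsg.sextets.ncard = 1771 := by
  constructor
  · intro t ht
    obtain ⟨k, hk, htk⟩ := Cfsg.Agent.Lib.M24.sx_cover t ht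
    refine ⟨Cfsg.Agent.Lib.M24.sxS k, ⟨Cfsg.Agent.Lib.M24.sxS_mem_sextets hk, htk⟩, ?_⟩
    rintro S' ⟨hS', ht'⟩
    exact Cfsg.Agent.Lib.M24.sextet_eq_of_mem hS' (Cfsg.Agent.Lib.M24.sxS_mem_sextets hk) ht' htk
  · have h := Cfsg.Agent.Lib.M24.ncard_table (A := Cfsg.sextets) (elt := Cfsg.Agent.Lib.M24.sxS) (K := 1771)
      (fun _ => Cfsg.Agent.Lib.M24.mem_sextets_iff)
      (fun _ _ ha hb h => Cfsg.Agent.Lib.M24.sxS_injOn ha hb h) (fun _ => True) (fun _ => true) (fun _ _ => by simp)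
    simp only [and_true] at h
    rw [show {x | x ∈ Cfsg.sextets} = Cfsg.sextets from rfl] at h
    rw [h]
    decide +kernel


end Cfsg.Agent.S1550
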