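import Cfsg.Statements.S1556
import Cfsg.Agent.Lib.M24.OctOct

set_option autoImplicit false
open scoped Pointwise
open Cfsg

namespace Cfsg.Agent.S1556

/-- Two octads meeting a fixed octad in equally many points are in the same orbit of its stabiliser. -/
theorem result (o o' o'' : Finset Cfsg.GolayPt) (ho : o ∈ Cfsg.octads) (ho' : o' ∈ Cfsg.octads) (ho'' : o'' ∈ Cfsg.octads) (h : (o ∩ o').card = (o ∩ o'').card) : ∃ g : Equiv.Perm Cfsg.GolayPt, g ∈ Cfsg.M24 ∧ g • o = o ∧ g • o' = o'' := by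
  obtain ⟨g, r, hr, h1, h2⟩ := Cfsg.Agent.Lib.M24.octad_pair_normal ho ho'
  obtain ⟨g', r', hr', h1', h2'⟩ := Cfsg.Agent.Lib.M24.octad_pair_normal ho ho''
  have hc : (o ∩ o').card = Cfsg.Agent.Lib.Compute.Enc.popAux (Nat.land Cfsg.Agent.Lib.M24.O0 (Cfsg.Agent.Lib.M24.ocT r)) 24 := by
    rw [← Cfsg.Agent.Lib.M24.card_inter_smul g, h1, h2, Cfsg.Agent.Lib.M24.card_inter_finOf]
  have hc' : (o ∩ o'').card = Cfsg.Agent.Lib.Compute.Enc.popAux (Nat.land Cfsg.Agent.Lib.M24.O0 (Cfsg.Agent.Lib.M24.ocT r')) 24 := by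
    rw [← Cfsg.Agent.Lib.M24.card_inter_smul g', h1', h2', Cfsg.Agent.Lib.M24.card_inter_finOf]
  rw [hc, hc'] at h
  have hrr : r = r' := by
    have key : ∀ a ∈ [528, 58, 0, 2], ∀ b ∈ [528, 58, 0, 2], Cfsg.Agent.Lib.Compute.Enc.popAux (Nat.land Cfsg.Agent.Lib.M24.O0 (Cfsg.Agent.Lib.M24.ocT a)) 24 = Cfsg.Agent.Lib.Compute.Enc.popAux (Nat.land Cfsg.Agent.Lib.M24.O0 (Cfsg.Agent.Lib.M24.ocT b)) 24 → a = b := by
      decide +kernel
    exact key r hr r' hr' h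
  subst hrr
  refine ⟨(g'⁻¹ * g : ↥Cfsg.M24).1, (g'⁻¹ * g : ↥Cfsg.M24).2, ?_, ?_⟩
  · show (g'⁻¹ * g) • o = o
    rw [mul_smul, h1, ← h1', inv_smul_smul]
  · show (g'⁻¹ * g) • o' = o''
    rw [mul_smul, h2, ← h2', inv_smul_smul]


end Cfsg.Agent.S1556
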