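import Cfsg.Statements.S1557
import Cfsg.Agent.Lib.M24.Tables

set_option autoImplicit false
open scoped Pointwise
open Cfsg

namespace Cfsg.Agent.S1557

/-- The complement of the union of two disjoint octads is an octad, and the code has exactly 3795 trios of pairwise disjoint octads. -/
theorem result : (∀ o o' : Finset Cfsg.GolayPt, o ∈ Cfsg.octads → o' ∈ Cfsg.octads → Disjoint o o' → (o ∪ o')ᶜ ∈ Cfsg.octads) ∧ Cfsg.trios.ncard = 3795 := by
  constructor
  · intro o o' ho ho' hd
    obtain ⟨k, hk, h1, h2⟩ := Cfsg.Agent.Lib.M24.tr_pair_cover ho ho' hd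
    have hT := Cfsg.Agent.Lib.M24.trS_mem_trios hk
    obtain ⟨hc, hoct, hdis⟩ := hT
    have hne : o ≠ o' := by
      intro h
      subst h
      have h3 : (o ∩ o).card = 0 := by
        rw [Finset.disjoint_iff_inter_eq_empty.1 hd]
        rfl
      rw [Finset.inter_self, Cfsg.Agent.Lib.Golay.octads_card ho] at h3
      omega
    obtain ⟨c, hc1, hc2, hc3⟩ : ∃ c ∈ Cfsg.Agent.Lib.M24.trS k, c ≠ o ∧ c ≠ o' := by
      obtain ⟨x, y, z, _, _, _, hxyz⟩ := Finset.card_eq_three.1 hc
      by_contra hcon
      push Not at hcon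
      have hsub : Cfsg.Agent.Lib.M24.trS k ⊆ {o, o'} := by
        intro c hcc
        by_cases hco : c = o
        · simp [hco]
        · simp [hcon c hcc hco]
      have := Finset.card_le_card hsub
      rw [hc] at this
      have h5 := Finset.card_pair hne
      omega
    have hc4 := hoct c hc1
    have d1 := hdis c hc1 o h1 hc2
    have d2 := hdis c hc1 o' h2 hc3
    have hcard : ((o ∪ o')ᶜ).card = 8 := by
      rw [Finset.card_compl, Finset.card_union_of_disjoint hd, Cfsg.Agent.Lib.Golay.octads_card ho, Cfsg.Agent.Lib.Golay.octads_card ho']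
      rfl
    have hsub : c ⊆ (o ∪ o')ᶜ := by
      intro x hx
      rw [Finset.mem_compl, Finset.mem_union, not_or]
      exact ⟨Finset.disjoint_left.1 d1 hx, Finset.disjoint_left.1 d2 hx⟩
    have heq : c = (o ∪ o')ᶜ := Finset.eq_of_subset_of_card_le hsub (by rw [hcard, Cfsg.Agent.Lib.Golay.octads_card hc4])
    rw [← heq]
    exact hc4
  · have h := Cfsg.Agent.Lib.M24.ncard_table (A := Cfsg.trios) (elt := Cfsg.Agent.Lib.M24.trS) (K := 3795)
      (fun _ => Cfsg.Agent.Lib.M24.mem_trios_iff)
      (fun _ _ ha hb h => Cfsg.Agent.Lib.M24.trS_injOn ha hb h) (fun _ => True) (fun _ => true) (fun _ _ => by simp)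
    simp only [and_true] at h
    rw [show {x | x ∈ Cfsg.trios} = Cfsg.trios from rfl] at h
    rw [h]
    decide +kernel


end Cfsg.Agent.S1557
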