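import Cfsg.Statements.S1565
import Cfsg.Agent.Lib.M24.OctOct
import Cfsg.Agent.Lib.M24.Coatom2

set_option autoImplicit false
open scoped Pointwise
open Cfsg

namespace Cfsg.Agent.S1565

/-- The stabiliser of an octad is a maximal proper subgroup of the group of the length-24 code. -/
theorem result (o : Finset Cfsg.GolayPt) (ho : o ∈ Cfsg.octads) : IsCoatom (MulAction.stabilizer Cfsg.M24 o) := by
  have h0 : Cfsg.Agent.Lib.M24.OrbDecomp4 (G := ↥Cfsg.M24) (Cfsg.Agent.Lib.Golay.enc.finOf Cfsg.Agent.Lib.M24.O0 : Finset Cfsg.GolayPt) Cfsg.octads 1 30 280 448 :=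
    Cfsg.Agent.Lib.M24.cert4 Cfsg.Agent.Lib.M24.octTable (Cfsg.Agent.Lib.M24.octBase Cfsg.Agent.Lib.M24.O0) (Cfsg.Agent.Lib.M24.gens_of_fix (Cfsg.Agent.Lib.M24.octBase Cfsg.Agent.Lib.M24.O0) Finset.singleton_injective Cfsg.Agent.Lib.M24.oTri_fix) Cfsg.Agent.Lib.M24.oOct_chk (by norm_num) (by norm_num) (by norm_num) (by norm_num) Cfsg.Agent.Lib.M24.oOct_nodup Cfsg.Agent.Lib.M24.oOct_count1 Cfsg.Agent.Lib.M24.oOct_count2 Cfsg.Agent.Lib.M24.oOct_count3 Cfsg.Agent.Lib.M24.oOct_count4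
  have hA : MulAction.orbit ↥Cfsg.M24 o = Cfsg.octads := by
    ext y
    constructor
    · rintro ⟨g, rfl⟩
      exact Cfsg.Agent.Lib.M24.smul_mem_octads g.2 ho
    · intro hy
      obtain ⟨g, hg⟩ := Cfsg.Agent.Lib.Golay.octads_transitive ho hy
      exact ⟨g, hg⟩
  obtain ⟨g, hg⟩ := Cfsg.Agent.Lib.Golay.octads_transitive Cfsg.Agent.Lib.M24.O0_octad ho
  have h := h0.smul (fun g _ hx => Cfsg.Agent.Lib.M24.smul_mem_octads g.2 hx) g
  rw [hg, ← hA] at h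
  exact Cfsg.Agent.Lib.M24.coatom_of_decomp4 h (by decide) (by decide +kernel) (by norm_num)


end Cfsg.Agent.S1565
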