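import Cfsg.Statements.S1569
import Mathlib
import Cfsg.Agent.S1570

set_option autoImplicit false
open scoped Pointwise
open Cfsg

namespace Cfsg.Agent.S1569

/-- The cross through a lattice vector of customary norm 8 has exactly 48 members. -/
theorem result (x : Cfsg.GolayPt → ℤ) (hx : x ∈ Cfsg.leechLattice) (hxn : Cfsg.sqNorm x = 64) : (Cfsg.cross x).ncard = 48 := by
  classical
  -- the finite sets of short vectors
  set A32 : Set (Cfsg.GolayPt → ℤ) := {x | x ∈ Cfsg.leechLattice ∧ Cfsg.sqNorm x = 32} with hA32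
  set A48 : Set (Cfsg.GolayPt → ℤ) := {x | x ∈ Cfsg.leechLattice ∧ Cfsg.sqNorm x = 48} with hA48
  set A64 : Set (Cfsg.GolayPt → ℤ) := {x | x ∈ Cfsg.leechLattice ∧ Cfsg.sqNorm x = 64} with hA64
  have c32 : A32.ncard = 196560 := Cfsg.Agent.S0394.result
  have c48 : A48.ncard = 16773120 := Cfsg.Agent.S0395.result
  have c64 : A64.ncard = 398034000 := Cfsg.Agent.S0396.result
  have f32 : A32.Finite := Set.finite_of_ncard_ne_zero (by rw [c32]; norm_num)
  have f48 : A48.Finite := Set.finite_of_ncard_ne_zero (by rw [c48]; norm_num)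
  have f64 : A64.Finite := Set.finite_of_ncard_ne_zero (by rw [c64]; norm_num)
  set B32 := f32.toFinset with hB32
  set B48 := f48.toFinset with hB48
  set B64 := f64.toFinset with hB64
  have n32 : B32.card = 196560 := by rw [hB32, ← Set.ncard_eq_toFinset_card A32 f32, c32]
  have n48 : B48.card = 16773120 := by rw [hB48, ← Set.ncard_eq_toFinset_card A48 f48, c48]
  have n64 : B64.card = 398034000 := by rw [hB64, ← Set.ncard_eq_toFinset_card A64 f64, c64]
  have m32 : ∀ x, x ∈ B32 ↔ x ∈ Cfsg.leechLattice ∧ Cfsg.sqNorm x = 32 := fun x => f32.mem_toFinset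
  have m48 : ∀ x, x ∈ B48 ↔ x ∈ Cfsg.leechLattice ∧ Cfsg.sqNorm x = 48 := fun x => f48.mem_toFinset
  have m64 : ∀ x, x ∈ B64 ↔ x ∈ Cfsg.leechLattice ∧ Cfsg.sqNorm x = 64 := fun x => f64.mem_toFinset
  set U : Finset (Cfsg.GolayPt → ℤ) := insert 0 (B32 ∪ B48 ∪ B64) with hU
  have hsq0 : Cfsg.sqNorm (0 : Cfsg.GolayPt → ℤ) = 0 := by simp [Cfsg.sqNorm]
  have hUL : ∀ x ∈ U, x ∈ Cfsg.leechLattice ∧ Cfsg.sqNorm x ≤ 64 := by
    intro x hx
    simp only [hU, Finset.mem_insert, Finset.mem_union, m32, m48, m64] at hx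
    rcases hx with rfl | (h | h) | h
    · exact ⟨zero_mem _, by rw [hsq0]; norm_num⟩
    · exact ⟨h.1, by rw [h.2]; norm_num⟩
    · exact ⟨h.1, by rw [h.2]; norm_num⟩
    · exact ⟨h.1, by rw [h.2]⟩
  -- weights
  let w : (Cfsg.GolayPt → ℤ) → ℕ := fun x => if x = 0 then 48 else if Cfsg.sqNorm x = 64 then 1 else 24
  have hsumw : ∑ x ∈ U, w x = 48 * 2 ^ 24 := by
    have d1 : Disjoint B32 B48 := by
      rw [Finset.disjoint_left]
      intro x h1 h2
      have e1 := ((m32 x).mp h1).2
      have e2 := ((m48 x).mp h2).2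
      omega
    have d2 : Disjoint (B32 ∪ B48) B64 := by
      rw [Finset.disjoint_left]
      intro x h1 h2
      have e2 := ((m64 x).mp h2).2
      rcases Finset.mem_union.mp h1 with h | h
      · have e1 := ((m32 x).mp h).2
        omega
      · have e1 := ((m48 x).mp h).2
        omega
    have d3 : (0 : Cfsg.GolayPt → ℤ) ∉ B32 ∪ B48 ∪ B64 := by
      intro h
      rcases Finset.mem_union.mp h with h | h
      · rcases Finset.mem_union.mp h with h | h
        · have e1 := ((m32 _).mp h).2
          rw [hsq0] at e1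
          omega
        · have e1 := ((m48 _).mp h).2
          rw [hsq0] at e1
          omega
      · have e1 := ((m64 _).mp h).2
        rw [hsq0] at e1
        omega
    rw [hU, Finset.sum_insert d3, Finset.sum_union d2, Finset.sum_union d1]
    have s32 : ∑ x ∈ B32, w x = 24 * 196560 := by
      rw [Finset.sum_congr rfl (g := fun _ => 24)]
      · simp [n32]
      · intro x hx
        have e1 := ((m32 x).mp hx).2
        have h0 : x ≠ 0 := by
          rintro rfl
          rw [hsq0] at e1
          omega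
        have h64 : Cfsg.sqNorm x ≠ 64 := by omega
        simp [w, h0, h64]
    have s48 : ∑ x ∈ B48, w x = 24 * 16773120 := by
      rw [Finset.sum_congr rfl (g := fun _ => 24)]
      · simp [n48]
      · intro x hx
        have e1 := ((m48 x).mp hx).2
        have h0 : x ≠ 0 := by
          rintro rfl
          rw [hsq0] at e1
          omega
        have h64 : Cfsg.sqNorm x ≠ 64 := by omega
        simp [w, h0, h64]
    have s64 : ∑ x ∈ B64, w x = 398034000 := by
      rw [Finset.sum_congr rfl (g := fun _ => 1)]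
      · simp [n64]
      · intro x hx
        have e1 := ((m64 x).mp hx).2
        have h0 : x ≠ 0 := by
          rintro rfl
          rw [hsq0] at e1
          omega
        simp [w, h0, e1]
    rw [s32, s48, s64]
    simp only [w, if_true]
    norm_num
  -- the quotient
  let N : AddSubgroup ↥Cfsg.leechLattice := Cfsg.Agent.S1570.TT.addSubgroupOf Cfsg.leechLattice
  have hcardQ : Nat.card (↥Cfsg.leechLattice ⧸ N) = 2 ^ 24 := Cfsg.Agent.S1570.relIndex_TT
  haveI : Finite (↥Cfsg.leechLattice ⧸ N) := Nat.finite_of_card_ne_zero (by rw [hcardQ]; norm_num)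
  haveI := Fintype.ofFinite (↥Cfsg.leechLattice ⧸ N)
  let φ : (Cfsg.GolayPt → ℤ) → (↥Cfsg.leechLattice ⧸ N) := fun x =>
    if h : x ∈ Cfsg.leechLattice then QuotientAddGroup.mk (⟨x, h⟩ : ↥Cfsg.leechLattice) else 0
  have hφeq : ∀ x y, x ∈ Cfsg.leechLattice → y ∈ Cfsg.leechLattice → φ x = φ y → ∃ z ∈ Cfsg.leechLattice, x - y = 2 • z := by
    intro x y hx hy h
    simp only [φ, dif_pos hx, dif_pos hy] at h
    have h1 : -(⟨x, hx⟩ : ↥Cfsg.leechLattice) + ⟨y, hy⟩ ∈ N := QuotientAddGroup.eq.mp h
    obtain ⟨z, hz, e⟩ := (show y - x ∈ Cfsg.Agent.S1570.TT from by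
      have : ((-(⟨x, hx⟩ : ↥Cfsg.leechLattice) + ⟨y, hy⟩ : ↥Cfsg.leechLattice) : Cfsg.GolayPt → ℤ) ∈ Cfsg.Agent.S1570.TT :=
        AddSubgroup.mem_addSubgroupOf.mp h1
      have e : ((-(⟨x, hx⟩ : ↥Cfsg.leechLattice) + ⟨y, hy⟩ : ↥Cfsg.leechLattice) : Cfsg.GolayPt → ℤ) = y - x := by
        simp
        abel
      rwa [e] at this)
    refine ⟨-z, neg_mem hz, ?_⟩
    have e' : 2 • z = y - x := e
    rw [smul_neg, e']
    abel
  -- fibres have weight at most 48
  have hfib : ∀ q, ∑ x ∈ U.filter (fun x => φ x = q), w x ≤ 48 := by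
    intro q
    set F := U.filter (fun x => φ x = q) with hF
    have hFm : ∀ x ∈ F, x ∈ Cfsg.leechLattice ∧ Cfsg.sqNorm x ≤ 64 ∧ φ x = q := by
      intro x hx
      have := Finset.mem_filter.mp hx
      exact ⟨(hUL x this.1).1, (hUL x this.1).2, this.2⟩
    have hpair : ∀ x ∈ F, ∀ y ∈ F, y = x ∨ y = -x ∨ (Cfsg.sqNorm x = 64 ∧ Cfsg.sqNorm y = 64 ∧ Cfsg.dotInt x y = 0) := by
      intro x hx y hy
      obtain ⟨a1, a2, a3⟩ := hFm x hx
      obtain ⟨b1, b2, b3⟩ := hFm y hy
      obtain ⟨z, hz, e⟩ := hφeq x y a1 b1 (a3.trans b3.symm)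
      exact Cfsg.Agent.S1570.cong_short a1 b1 hz e a2 b2
    by_cases hall : ∃ x ∈ F, Cfsg.sqNorm x ≠ 64
    · obtain ⟨x, hx, hx64⟩ := hall
      have hsub : F ⊆ {x, -x} := by
        intro y hy
        rcases hpair x hx y hy with h | h | h
        · simp [h]
        · simp [h]
        · exact absurd h.1 hx64
      by_cases hx0 : x = 0
      · subst hx0
        have : F = {0} := by
          apply Finset.eq_singleton_iff_unique_mem.mpr
          refine ⟨hx, fun y hy => ?_⟩
          have := hsub hy
          simpa using this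
        rw [this, Finset.sum_singleton]
        simp [w]
      · have hneg0 : -x ≠ 0 := neg_ne_zero.mpr hx0
        have hnegn : Cfsg.sqNorm (-x) = Cfsg.sqNorm x := by simp [Cfsg.sqNorm]
        have hne : x ≠ -x := by
          intro h
          apply hx0
          funext i
          have := congrFun h i
          simp only [Pi.neg_apply] at this
          simp only [Pi.zero_apply]
          linarith
        calc ∑ y ∈ F, w y ≤ ∑ y ∈ ({x, -x} : Finset _), w y :=
              Finset.sum_le_sum_of_subset hsub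
          _ = w x + w (-x) := Finset.sum_pair hne
          _ ≤ 48 := by
            simp [w, hx0, hx64, hnegn]
    · push Not at hall
      have hcard : F.card ≤ 48 := by
        apply Cfsg.Agent.S1570.orth_card48
        · intro x hx
          rw [hall x hx]
          norm_num
        · intro x hx y hy
          rcases hpair x hx y hy with h | h | h
          · exact Or.inl h
          · exact Or.inr (Or.inl h)
          · exact Or.inr (Or.inr h.2.2)
      calc ∑ y ∈ F, w y = ∑ y ∈ F, 1 := by
            apply Finset.sum_congr rfl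
            intro y hy
            have h64 := hall y hy
            have h0 : y ≠ 0 := by
              rintro rfl
              rw [hsq0] at h64
              omega
            simp [w, h0, h64]
        _ = F.card := by simp
        _ ≤ 48 := hcard
  -- every fibre has weight exactly 48
  have hallq : ∀ q, ∑ y ∈ U.filter (fun y => φ y = q), w y = 48 := by
    have hmaps : ∀ y ∈ U, φ y ∈ (Finset.univ : Finset (↥Cfsg.leechLattice ⧸ N)) := fun y _ => Finset.mem_univ _
    have htot : ∑ q : (↥Cfsg.leechLattice ⧸ N), ∑ y ∈ U.filter (fun y => φ y = q), w y =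
        ∑ q : (↥Cfsg.leechLattice ⧸ N), 48 := by
      rw [Finset.sum_fiberwise_of_maps_to hmaps, hsumw]
      simp only [Finset.sum_const, Finset.card_univ, smul_eq_mul]
      rw [← Nat.card_eq_fintype_card, hcardQ]
      ring
    have := (Finset.sum_eq_sum_iff_of_le (fun q _ => hfib q)).mp htot
    exact fun q => this q (Finset.mem_univ _)
  have hxU : x ∈ U := by
    rw [hU]
    exact Finset.mem_insert_of_mem (Finset.mem_union_right _ ((m64 x).mpr ⟨hx, hxn⟩))
  set F := U.filter (fun y => φ y = φ x) with hF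
  have hcross : Cfsg.cross x = ↑F := by
    ext y
    simp only [Cfsg.cross, Set.mem_setOf_eq, Finset.mem_coe, hF, Finset.mem_filter]
    constructor
    · rintro ⟨hyL, hyn, z, hz, e⟩
      refine ⟨?_, ?_⟩
      · rw [hU]
        rw [hxn] at hyn
        exact Finset.mem_insert_of_mem (Finset.mem_union_right _ ((m64 y).mpr ⟨hyL, hyn⟩))
      · simp only [φ, dif_pos hyL, dif_pos hx]
        apply (QuotientAddGroup.eq).mpr
        apply AddSubgroup.mem_addSubgroupOf.mpr
        refine ⟨z, hz, ?_⟩
        show 2 • z = _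
        rw [← e]
        simp
        abel
    · rintro ⟨hyU, hyφ⟩
      obtain ⟨hyL, hyle⟩ := hUL y hyU
      obtain ⟨z, hz, e⟩ := hφeq x y hx hyL hyφ.symm
      refine ⟨hyL, ?_, z, hz, e⟩
      rcases Cfsg.Agent.S1570.cong_short hx hyL hz e (by rw [hxn]) hyle with h | h | h
      · rw [h]
      · rw [h]
        simp [Cfsg.sqNorm]
      · rw [h.1, h.2.1]
  rw [hcross, Set.ncard_coe_finset]
  have h48 := hallq (φ x)
  have hw1 : ∑ y ∈ F, w y = F.card := by
    rw [Finset.card_eq_sum_ones]
    apply Finset.sum_congr rfl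
    intro y hy
    have hyc : y ∈ (↑F : Set _) := hy
    rw [← hcross] at hyc
    have h64 : Cfsg.sqNorm y = 64 := by rw [hyc.2.1, hxn]
    have h0 : y ≠ 0 := by
      rintro rfl
      rw [hsq0] at h64
      omega
    simp [w, h0, h64]
  rw [← hw1]
  exact h48


end Cfsg.Agent.S1569
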