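import Cfsg.Statements.S1586
import Cfsg.Agent.S0414
import Cfsg.Agent.Lib.Steiner.HSMain
import Cfsg.Agent.Lib.Steiner.Inter

set_option autoImplicit false
open Cfsg

namespace Cfsg.Agent.S1586

/-- The Higman–Sims graph built from an S(3, 6, 22) has exactly 88704000 automorphisms. -/
theorem result {α : Type*} [Fintype α] [DecidableEq α] (hα : Fintype.card α = 22) {B : Set (Finset α)} (hB : Cfsg.IsSteinerSystem 3 6 B) : Nat.card (Cfsg.pointBlockGraph B ≃g Cfsg.pointBlockGraph B) = 88704000 := by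
  classical
  open Cfsg.Agent.Lib.Steiner Cfsg.Agent.Lib.Steiner.HS Cfsg.Agent.Lib.Compute MulAction in
  obtain ⟨E, hE⟩ := U22.hasStd hB (hall_3_6_22 hα hB) hα
  have hBE : B = (fun m => E.finOf m) '' {m | m ∈ U22.blocks0} := eq_of_hasStd hB hα (by norm_num)
    (fun m hm => by simpa using allL_iff.1 U22.blocks0_bound m hm) U22.blocks0_nodup
    (by rw [U22.blocks0_length]; decide) E hE
  letI : Fintype (Option (α ⊕ B)) := Fintype.ofFinite _
  have hm := (Cfsg.Agent.S0414.result hα hB).1
  let V := vE E hBE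
  have hcardV : Nat.card (Option (α ⊕ B)) = 100 :=
    (Nat.card_congr V.equivFin).trans (Nat.card_fin 100)
  let e1 : (Cfsg.pointBlockGraph B ≃g Cfsg.pointBlockGraph B) ≃ pbAut B :=
    { toFun := fun f => ⟨f.toEquiv, fun a b => f.map_adj_iff⟩
      invFun := fun y => ⟨y.1, fun {a b} => y.2 a b⟩
      left_inv := fun f => RelIso.ext fun _ => rfl
      right_inv := fun y => Subtype.ext rfl }
  rw [Nat.card_congr e1]
  haveI hT : IsPretransitive (pbAut B) (Option (α ⊕ B)) := by
    rw [isPretransitive_iff_base (none : Option (α ⊕ B))]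
    intro x
    obtain ⟨f, hf, hfx⟩ := trans_pb E hBE x
    exact ⟨⟨f, hf⟩, hfx⟩
  let T := stabilizer (pbAut B) (none : Option (α ⊕ B))
  let e0 : Cfsg.setSystemAut B → T := fun σ => ⟨⟨pbHat σ, pbHat_mem σ⟩, rfl⟩
  have he0 : Function.Bijective e0 := by
    constructor
    · intro x y hxy
      have h1 : pbHat x = pbHat y := congrArg (fun z : T => ((z : pbAut B) : Equiv.Perm (Option (α ⊕ B)))) hxy
      exact pbHat_injective h1
    · rintro ⟨⟨t, ht⟩, ht0⟩
      have ht0' : t none = none := ht0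
      obtain ⟨σ, hσ⟩ := exists_pbHat_eq ht ht0'
      refine ⟨σ, ?_⟩
      apply Subtype.ext
      apply Subtype.ext
      exact hσ
  have hTc : Nat.card T = 887040 := (Nat.card_congr (Equiv.ofBijective e0 he0)).symm.trans hm
  have h1 := T.card_mul_index
  rw [index_stabilizer, orbit_eq_univ, Set.ncard_univ, hcardV, hTc] at h1
  rw [← h1]

end Cfsg.Agent.S1586
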