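import Cfsg.Statements.S1587
import Mathlib

set_option autoImplicit false
open Matrix
open Cfsg

namespace Cfsg.Agent.S1587

/-- First step of the characterisation of the rank-24 lattice: in an even lattice without roots, norm-8 vectors congruent modulo 2 are equal, opposite or orthogonal. -/
theorem result (B : Matrix (Fin 24) (Fin 24) ℤ) (hsymm : B.IsSymm) (hpos : ∀ x : Fin 24 → ℤ, x ≠ 0 → 0 < x ⬝ᵥ (B *ᵥ x)) (heven : ∀ x : Fin 24 → ℤ, (2 : ℤ) ∣ x ⬝ᵥ (B *ᵥ x)) (h2 : ∀ x : Fin 24 → ℤ, x ⬝ᵥ (B *ᵥ x) ≠ 2) (x y : Fin 24 → ℤ) (hx : x ⬝ᵥ (B *ᵥ x) = 8) (hy : y ⬝ᵥ (B *ᵥ y) = 8) (hc : ∀ i, (2 : ℤ) ∣ (x - y) i) : y = x ∨ y = -x ∨ x ⬝ᵥ (B *ᵥ y) = 0 := by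
  obtain ⟨u, v, rfl, rfl⟩ : ∃ u v : Fin 24 → ℤ, x = u + v ∧ y = v - u := by
    choose u hu using hc
    refine ⟨u, fun i => u i + y i, ?_, ?_⟩
    · ext i
      have := hu i
      simp only [Pi.sub_apply] at this
      simp only [Pi.add_apply]
      linarith
    · ext i
      simp
  -- bilinear expansion
  have hBsym : u ⬝ᵥ (B *ᵥ v) = v ⬝ᵥ (B *ᵥ u) := by
    rw [Matrix.dotProduct_mulVec, dotProduct_comm, ← Matrix.mulVec_transpose, hsymm.eq]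
  have hN : ∀ a b : Fin 24 → ℤ, (a + b) ⬝ᵥ (B *ᵥ (a + b)) = a ⬝ᵥ (B *ᵥ a) + a ⬝ᵥ (B *ᵥ b) + b ⬝ᵥ (B *ᵥ a) + b ⬝ᵥ (B *ᵥ b) := by
    intro a b
    rw [Matrix.mulVec_add, dotProduct_add, add_dotProduct, add_dotProduct]
    ring
  have hN' : (v - u) ⬝ᵥ (B *ᵥ (v - u)) = v ⬝ᵥ (B *ᵥ v) - v ⬝ᵥ (B *ᵥ u) - u ⬝ᵥ (B *ᵥ v) + u ⬝ᵥ (B *ᵥ u) := by
    rw [Matrix.mulVec_sub, dotProduct_sub, sub_dotProduct, sub_dotProduct]
    ring
  have hP : (u + v) ⬝ᵥ (B *ᵥ (v - u)) = v ⬝ᵥ (B *ᵥ v) - u ⬝ᵥ (B *ᵥ u) + (u ⬝ᵥ (B *ᵥ v) - v ⬝ᵥ (B *ᵥ u)) := by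
    rw [Matrix.mulVec_sub, dotProduct_sub, add_dotProduct, add_dotProduct]
    ring
  rw [hN] at hx
  rw [hN'] at hy
  have h1 : u ⬝ᵥ (B *ᵥ u) + v ⬝ᵥ (B *ᵥ v) = 8 := by linarith
  have hu0 : 0 ≤ u ⬝ᵥ (B *ᵥ u) := by
    by_cases h : u = 0
    · subst h; simp
    · exact (hpos u h).le
  have hv0 : 0 ≤ v ⬝ᵥ (B *ᵥ v) := by
    by_cases h : v = 0
    · subst h; simp
    · exact (hpos v h).le
  obtain ⟨a, ha⟩ := heven u
  obtain ⟨b, hb⟩ := heven v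
  have hu2 := h2 u
  have hv2 := h2 v
  have hcase : (a = 0) ∨ (b = 0) ∨ (a = 2 ∧ b = 2) := by
    rw [ha] at h1 hu0 hu2
    rw [hb] at h1 hv0 hv2
    omega
  rcases hcase with h | h | ⟨ha2, hb2⟩
  · -- u = 0
    left
    have : u = 0 := by
      by_contra hne
      have := hpos u hne
      rw [ha, h] at this
      omega
    subst this
    simp
  · -- v = 0
    right; left
    have : v = 0 := by
      by_contra hne
      have := hpos v hne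
      rw [hb, h] at this
      omega
    subst this
    simp
  · right; right
    rw [hP, ha, hb, ha2, hb2, hBsym]
    ring


end Cfsg.Agent.S1587
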