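import Cfsg.Statements.S1588
import Mathlib

set_option autoImplicit false
open Matrix
open Cfsg

namespace Cfsg.Agent.S1588


theorem fiber_exact {X Q : Type*} [Fintype Q] [DecidableEq Q] (U : Finset X) (φ : X → Q) (w : X → ℕ) (c : ℕ)
    (hfib : ∀ q, ∑ x ∈ U.filter (fun x => φ x = q), w x ≤ c)
    (htot : ∑ x ∈ U, w x = c * Fintype.card Q) (q : Q) : ∑ x ∈ U.filter (fun x => φ x = q), w x = c := by
  have hmaps : ∀ y ∈ U, φ y ∈ (Finset.univ : Finset Q) := fun y _ => Finset.mem_univ _
  have h : ∑ q : Q, ∑ y ∈ U.filter (fun y => φ y = q), w y = ∑ _q : Q, c := by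
    rw [Finset.sum_fiberwise_of_maps_to hmaps, htot]
    simp only [Finset.sum_const, Finset.card_univ, smul_eq_mul]
    ring
  exact (Finset.sum_eq_sum_iff_of_le (fun q _ => hfib q)).mp h q (Finset.mem_univ _)

open Matrix in
theorem exists_reps' (B : Matrix (Fin 24) (Fin 24) ℤ) (F : Finset (Fin 24 → ℤ))
    (hF : ∀ x ∈ F, ∀ y ∈ F, y = x ∨ y = -x ∨ x ⬝ᵥ (B *ᵥ y) = 0) (hsym : ∀ x y : Fin 24 → ℤ, x ⬝ᵥ (B *ᵥ y) = y ⬝ᵥ (B *ᵥ x)) :
    ∃ R ⊆ F, (∀ x ∈ R, ∀ y ∈ R, y ≠ x → x ⬝ᵥ (B *ᵥ y) = 0) ∧ ∀ x ∈ F, x ∈ R ∨ -x ∈ R := by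
  classical
  induction F using Finset.induction_on with
  | empty => exact ⟨∅, subset_rfl, by simp, by simp⟩
  | insert a F ha ih =>
    obtain ⟨R, hRF, hR, hcov⟩ := ih (fun x hx y hy => hF x (Finset.mem_insert_of_mem hx) y (Finset.mem_insert_of_mem hy))
    by_cases h : a ∈ R ∨ -a ∈ R
    · refine ⟨R, hRF.trans (Finset.subset_insert _ _), hR, ?_⟩
      intro x hx
      rcases Finset.mem_insert.mp hx with rfl | hx
      · exact h
      · exact hcov x hx
    · push Not at h
      refine ⟨insert a R, Finset.insert_subset_insert _ hRF, ?_, ?_⟩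
      · intro x hx y hy hne
        rcases Finset.mem_insert.mp hx with hxa | hxR
        · rcases Finset.mem_insert.mp hy with hya | hyR
          · exact absurd (hya.trans hxa.symm) hne
          · rw [hxa] at hne ⊢
            rcases hF a (Finset.mem_insert_self _ _) y (Finset.mem_insert_of_mem (hRF hyR)) with h1 | h1 | h1
            · exact absurd h1 hne
            · rw [h1] at hyR
              exact absurd hyR h.2
            · exact h1
        · rcases Finset.mem_insert.mp hy with hya | hyR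
          · rw [hya] at hne ⊢
            rcases hF x (Finset.mem_insert_of_mem (hRF hxR)) a (Finset.mem_insert_self _ _) with h1 | h1 | h1
            · exact absurd h1 hne
            · exfalso
              have e : -a = x := by rw [h1]; simp
              rw [← e] at hxR
              exact h.2 hxR
            · exact h1
          · exact hR x hxR y hyR hne
      · intro x hx
        rcases Finset.mem_insert.mp hx with rfl | hx
        · exact Or.inl (Finset.mem_insert_self _ _)
        · rcases hcov x hx with h1 | h1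
          · exact Or.inl (Finset.mem_insert_of_mem h1)
          · exact Or.inr (Finset.mem_insert_of_mem h1)

open Matrix in
theorem orth_card' (B : Matrix (Fin 24) (Fin 24) ℤ) (R : Finset (Fin 24 → ℤ)) (h0 : ∀ x ∈ R, x ⬝ᵥ (B *ᵥ x) ≠ 0)
    (hR : ∀ x ∈ R, ∀ y ∈ R, y ≠ x → x ⬝ᵥ (B *ᵥ y) = 0) : R.card ≤ 24 := by
  classical
  have hli : LinearIndependent ℤ (fun x : R => (x : Fin 24 → ℤ)) := by
    rw [Fintype.linearIndependent_iff]
    intro g hg k
    have h1 : (∑ i : R, g i • (i : Fin 24 → ℤ)) ⬝ᵥ (B *ᵥ (k : Fin 24 → ℤ)) = 0 := by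
      rw [hg]
      simp
    have h2 : (∑ i : R, g i • (i : Fin 24 → ℤ)) ⬝ᵥ (B *ᵥ (k : Fin 24 → ℤ)) =
        ∑ i : R, g i * ((i : Fin 24 → ℤ) ⬝ᵥ (B *ᵥ (k : Fin 24 → ℤ))) := by
      rw [sum_dotProduct]
      simp only [smul_dotProduct, smul_eq_mul]
    rw [h2, Finset.sum_eq_single k] at h1
    · exact (mul_eq_zero.mp h1).resolve_right (h0 k k.2)
    · intro b _ hb
      rw [hR b b.2 k k.2 (fun h => hb (Subtype.ext h.symm)), mul_zero]
    · simp
  have := hli.fintype_card_le_finrank
  simpa [Module.finrank_fintype_fun_eq_card] using this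

open Matrix in
theorem orth_card48' (B : Matrix (Fin 24) (Fin 24) ℤ) (F : Finset (Fin 24 → ℤ)) (h0 : ∀ x ∈ F, x ⬝ᵥ (B *ᵥ x) ≠ 0)
    (hF : ∀ x ∈ F, ∀ y ∈ F, y = x ∨ y = -x ∨ x ⬝ᵥ (B *ᵥ y) = 0)
    (hsym : ∀ x y : Fin 24 → ℤ, x ⬝ᵥ (B *ᵥ y) = y ⬝ᵥ (B *ᵥ x)) : F.card ≤ 48 := by
  classical
  obtain ⟨R, hRF, hR, hcov⟩ := exists_reps' B F hF hsym
  have h1 := orth_card' B R (fun x hx => h0 x (hRF hx)) hR
  have h2 : F ⊆ R ∪ R.image (fun x => -x) := by
    intro x hx
    rcases hcov x hx with h | h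
    · exact Finset.mem_union_left _ h
    · exact Finset.mem_union_right _ (Finset.mem_image.mpr ⟨-x, h, by simp⟩)
  have h3 := Finset.card_le_card h2
  have h4 := Finset.card_union_le R (R.image (fun x => -x))
  have h5 : (R.image (fun x : Fin 24 → ℤ => -x)).card ≤ R.card := Finset.card_image_le
  omega

/-- Second step of the characterisation: under the vector counts of the rank-24 lattice, the norm-8 vectors fall into congruence classes of exactly 48 modulo twice the lattice. -/
theorem result (B : Matrix (Fin 24) (Fin 24) ℤ) (hsymm : B.IsSymm) (hpos : ∀ x : Fin 24 → ℤ, x ≠ 0 → 0 < x ⬝ᵥ (B *ᵥ x)) (heven : ∀ x : Fin 24 → ℤ, (2 : ℤ) ∣ x ⬝ᵥ (B *ᵥ x)) (h2 : ∀ x : Fin 24 → ℤ, x ⬝ᵥ (B *ᵥ x) ≠ 2) (h4 : {x : Fin 24 → ℤ | x ⬝ᵥ (B *ᵥ x) = 4}.ncard = 196560) (h6 : {x : Fin 24 → ℤ | x ⬝ᵥ (B *ᵥ x) = 6}.ncard = 16773120) (h8 : {x : Fin 24 → ℤ | x ⬝ᵥ (B *ᵥ x) = 8}.ncard = 398034000) (x : Fin 24 → ℤ) (hx : x ⬝ᵥ (B *ᵥ x) = 8) : {y : Fin 24 → ℤ | y ⬝ᵥ (B *ᵥ y) = 8 ∧ ∀ i, (2 : ℤ) ∣ (x -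 y) i}.ncard = 48 := by
  classical
  have hsym : ∀ x y : Fin 24 → ℤ, x ⬝ᵥ (B *ᵥ y) = y ⬝ᵥ (B *ᵥ x) := by
    intro x y
    rw [Matrix.dotProduct_mulVec, dotProduct_comm, ← Matrix.mulVec_transpose, hsymm.eq]
  set NN : (Fin 24 → ℤ) → ℤ := fun x => x ⬝ᵥ (B *ᵥ x) with hNN
  have hN0 : NN 0 = 0 := by simp [hNN]
  have hneg : ∀ y, NN (-y) = NN y := by
    intro y
    simp [hNN, Matrix.mulVec_neg]
  have hge : ∀ y : Fin 24 → ℤ, y ≠ 0 → 4 ≤ NN y := by
    intro y hy
    have h1 := hpos y hy
    have h3 := h2 y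
    obtain ⟨a, ha⟩ := heven y
    show 4 ≤ y ⬝ᵥ (B *ᵥ y)
    omega
  have hcong : ∀ x y : Fin 24 → ℤ, (∀ i, (2 : ℤ) ∣ (x - y) i) → NN x ≤ 8 → NN y ≤ 8 →
      y = x ∨ y = -x ∨ (NN x = 8 ∧ NN y = 8 ∧ x ⬝ᵥ (B *ᵥ y) = 0) := by
    intro x y hc h1 h3
    obtain ⟨u, v, rfl, rfl⟩ : ∃ u v : Fin 24 → ℤ, x = u + v ∧ y = v - u := by
      choose u hu using hc
      refine ⟨u, fun i => u i + y i, ?_, ?_⟩
      · ext i
        have := hu i
        simp only [Pi.sub_apply] at this
        simp only [Pi.add_apply]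
        linarith
      · ext i
        simp
    have hBsym := hsym u v
    have hN : NN (u + v) = NN u + u ⬝ᵥ (B *ᵥ v) + v ⬝ᵥ (B *ᵥ u) + NN v := by
      simp only [hNN]
      rw [Matrix.mulVec_add, dotProduct_add, add_dotProduct, add_dotProduct]
      ring
    have hN' : NN (v - u) = NN v - v ⬝ᵥ (B *ᵥ u) - u ⬝ᵥ (B *ᵥ v) + NN u := by
      simp only [hNN]
      rw [Matrix.mulVec_sub, dotProduct_sub, sub_dotProduct, sub_dotProduct]
      ring
    have hP : (u + v) ⬝ᵥ (B *ᵥ (v - u)) = NN v - NN u + (u ⬝ᵥ (B *ᵥ v) - v ⬝ᵥ (B *ᵥ u)) := by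
      simp only [hNN]
      rw [Matrix.mulVec_sub, dotProduct_sub, add_dotProduct, add_dotProduct]
      ring
    by_cases hu0 : u = 0
    · left
      subst hu0
      simp
    by_cases hv0 : v = 0
    · right; left
      subst hv0
      simp
    right; right
    have h5 := hge u hu0
    have h6 := hge v hv0
    rw [hN] at h1 ⊢
    rw [hN'] at h3 ⊢
    rw [hP]
    refine ⟨by omega, by omega, by omega⟩
  -- the finite sets of short vectors
  set A4 : Set (Fin 24 → ℤ) := {x | x ⬝ᵥ (B *ᵥ x) = 4} with hA4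
  set A6 : Set (Fin 24 → ℤ) := {x | x ⬝ᵥ (B *ᵥ x) = 6} with hA6
  set A8 : Set (Fin 24 → ℤ) := {x | x ⬝ᵥ (B *ᵥ x) = 8} with hA8
  have f4 : A4.Finite := Set.finite_of_ncard_ne_zero (by rw [h4]; norm_num)
  have f6 : A6.Finite := Set.finite_of_ncard_ne_zero (by rw [h6]; norm_num)
  have f8 : A8.Finite := Set.finite_of_ncard_ne_zero (by rw [h8]; norm_num)
  set B4 := f4.toFinset with hB4
  set B6 := f6.toFinset with hB6
  set B8 := f8.toFinset with hB8
  have n4 : B4.card = 196560 := by rw [hB4, ← Set.ncard_eq_toFinset_card A4 f4, h4]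
  have n6 : B6.card = 16773120 := by rw [hB6, ← Set.ncard_eq_toFinset_card A6 f6, h6]
  have n8 : B8.card = 398034000 := by rw [hB8, ← Set.ncard_eq_toFinset_card A8 f8, h8]
  have m4 : ∀ x, x ∈ B4 ↔ NN x = 4 := fun x => f4.mem_toFinset
  have m6 : ∀ x, x ∈ B6 ↔ NN x = 6 := fun x => f6.mem_toFinset
  have m8 : ∀ x, x ∈ B8 ↔ NN x = 8 := fun x => f8.mem_toFinset
  set U : Finset (Fin 24 → ℤ) := insert 0 (B4 ∪ B6 ∪ B8) with hU
  have hUL : ∀ x ∈ U, NN x ≤ 8 := by
    intro x hx
    simp only [hU, Finset.mem_insert, Finset.mem_union, m4, m6, m8] at hx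
    rcases hx with rfl | (h | h) | h
    · rw [hN0]; norm_num
    · rw [h]; norm_num
    · rw [h]; norm_num
    · rw [h]
  -- weights
  let w : (Fin 24 → ℤ) → ℕ := fun x => if x = 0 then 48 else if NN x = 8 then 1 else 24
  have hsumw : ∑ x ∈ U, w x = 48 * 2 ^ 24 := by
    have d1 : Disjoint B4 B6 := by
      rw [Finset.disjoint_left]
      intro x h1 h3
      have e1 := (m4 x).mp h1
      have e2 := (m6 x).mp h3
      omega
    have d2 : Disjoint (B4 ∪ B6) B8 := by
      rw [Finset.disjoint_left]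
      intro x h1 h3
      have e2 := (m8 x).mp h3
      rcases Finset.mem_union.mp h1 with h | h
      · have e1 := (m4 x).mp h
        omega
      · have e1 := (m6 x).mp h
        omega
    have d3 : (0 : Fin 24 → ℤ) ∉ B4 ∪ B6 ∪ B8 := by
      intro h
      rcases Finset.mem_union.mp h with h | h
      · rcases Finset.mem_union.mp h with h | h
        · have e1 := (m4 _).mp h
          rw [hN0] at e1
          omega
        · have e1 := (m6 _).mp h
          rw [hN0] at e1
          omega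
      · have e1 := (m8 _).mp h
        rw [hN0] at e1
        omega
    rw [hU, Finset.sum_insert d3, Finset.sum_union d2, Finset.sum_union d1]
    have s4 : ∑ x ∈ B4, w x = 24 * 196560 := by
      rw [Finset.sum_congr rfl (g := fun _ => 24)]
      · simp [n4]
      · intro x hx
        have e1 := (m4 x).mp hx
        have h0 : x ≠ 0 := by
          rintro rfl
          rw [hN0] at e1
          omega
        have h64 : NN x ≠ 8 := by omega
        simp [w, h0, h64]
    have s6 : ∑ x ∈ B6, w x = 24 * 16773120 := by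
      rw [Finset.sum_congr rfl (g := fun _ => 24)]
      · simp [n6]
      · intro x hx
        have e1 := (m6 x).mp hx
        have h0 : x ≠ 0 := by
          rintro rfl
          rw [hN0] at e1
          omega
        have h64 : NN x ≠ 8 := by omega
        simp [w, h0, h64]
    have s8 : ∑ x ∈ B8, w x = 398034000 := by
      rw [Finset.sum_congr rfl (g := fun _ => 1)]
      · simp [n8]
      · intro x hx
        have e1 := (m8 x).mp hx
        have h0 : x ≠ 0 := by
          rintro rfl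
          rw [hN0] at e1
          omega
        simp [w, h0, e1]
    rw [s4, s6, s8]
    simp only [w, if_true]
    norm_num
  -- reduction modulo 2
  let φ : (Fin 24 → ℤ) → (Fin 24 → ZMod 2) := fun y i => ((y i : ℤ) : ZMod 2)
  have hφeq : ∀ y z : Fin 24 → ℤ, φ y = φ z ↔ ∀ i, (2 : ℤ) ∣ (y - z) i := by
    intro y z
    constructor
    · intro h i
      have h1 : ((y i : ℤ) : ZMod 2) = ((z i : ℤ) : ZMod 2) := congrFun h i
      rw [Pi.sub_apply]
      exact (ZMod.intCast_eq_intCast_iff_dvd_sub _ _ 2).mp h1.symm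
    · intro h
      funext i
      have h1 := h i
      rw [Pi.sub_apply] at h1
      exact ((ZMod.intCast_eq_intCast_iff_dvd_sub _ _ 2).mpr h1).symm
  -- fibres have weight at most 48
  have hfib : ∀ q, ∑ x ∈ U.filter (fun x => φ x = q), w x ≤ 48 := by
    intro q
    set F := U.filter (fun x => φ x = q) with hF
    have hFm : ∀ x ∈ F, NN x ≤ 8 ∧ φ x = q := by
      intro x hx
      have := Finset.mem_filter.mp hx
      exact ⟨hUL x this.1, this.2⟩
    have hpair : ∀ x ∈ F, ∀ y ∈ F, y = x ∨ y = -x ∨ (NN x = 8 ∧ NN y = 8 ∧ x ⬝ᵥ (B *ᵥ y) = 0) := by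
      intro x hx y hy
      obtain ⟨a2, a3⟩ := hFm x hx
      obtain ⟨b2, b3⟩ := hFm y hy
      exact hcong x y ((hφeq x y).mp (a3.trans b3.symm)) a2 b2
    by_cases hall : ∃ x ∈ F, NN x ≠ 8
    · obtain ⟨x, hx, hx64⟩ := hall
      have hsub : F ⊆ {x, -x} := by
        intro y hy
        rcases hpair x hx y hy with h | h | h
        · simp [h]
        · simp [h]
        · exact absurd h.1 hx64
      by_cases hx0 : x = 0
      · subst hx0
        have : F = {0} := by
          apply Finset.eq_singleton_iff_unique_mem.mpr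
          refine ⟨hx, fun y hy => ?_⟩
          have := hsub hy
          simpa using this
        rw [this, Finset.sum_singleton]
        simp [w]
      · have hneg0 : -x ≠ 0 := neg_ne_zero.mpr hx0
        have hnegn : NN (-x) = NN x := hneg x
        have hne : x ≠ -x := by
          intro h
          apply hx0
          funext i
          have := congrFun h i
          simp only [Pi.neg_apply] at this
          simp only [Pi.zero_apply]
          linarith
        calc ∑ y ∈ F, w y ≤ ∑ y ∈ ({x, -x} : Finset _), w y :=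
              Finset.sum_le_sum_of_subset hsub
          _ = w x + w (-x) := Finset.sum_pair hne
          _ ≤ 48 := by
            simp [w, hx0, hx64, hnegn]
    · push Not at hall
      have hcard : F.card ≤ 48 := by
        apply orth_card48' B _ _ _ hsym
        · intro x hx
          have := hall x hx
          show NN x ≠ 0
          rw [this]
          norm_num
        · intro x hx y hy
          rcases hpair x hx y hy with h | h | h
          · exact Or.inl h
          · exact Or.inr (Or.inl h)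
          · exact Or.inr (Or.inr h.2.2)
      calc ∑ y ∈ F, w y = ∑ y ∈ F, 1 := by
            apply Finset.sum_congr rfl
            intro y hy
            have h64 := hall y hy
            have h0 : y ≠ 0 := by
              rintro rfl
              rw [hN0] at h64
              omega
            simp [w, h0, h64]
        _ = F.card := by simp
        _ ≤ 48 := hcard
  -- every fibre has weight exactly 48
  have hcardQ : Fintype.card (Fin 24 → ZMod 2) = 2 ^ 24 := by
    rw [Fintype.card_fun]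
    simp
  have hallq : ∀ q, ∑ y ∈ U.filter (fun y => φ y = q), w y = 48 :=
    fiber_exact U φ w 48 hfib (by rw [hsumw, hcardQ])
  set F := U.filter (fun y => φ y = φ x) with hF
  have hcross : {y : Fin 24 → ℤ | y ⬝ᵥ (B *ᵥ y) = 8 ∧ ∀ i, (2 : ℤ) ∣ (x - y) i} = ↑F := by
    ext y
    simp only [Set.mem_setOf_eq, Finset.mem_coe, hF, Finset.mem_filter]
    constructor
    · rintro ⟨hyn, hc⟩
      refine ⟨?_, ((hφeq x y).mpr hc).symm⟩
      rw [hU]
      exact Finset.mem_insert_of_mem (Finset.mem_union_right _ ((m8 y).mpr hyn))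
    · rintro ⟨hyU, hyφ⟩
      have hc := (hφeq x y).mp hyφ.symm
      refine ⟨?_, hc⟩
      rcases hcong x y hc (by show x ⬝ᵥ (B *ᵥ x) ≤ 8; rw [hx]) (hUL y hyU) with h | h | h
      · rw [h]; exact hx
      · rw [h]
        have := hneg x
        show NN (-x) = 8
        rw [this]
        exact hx
      · exact h.2.1
  rw [hcross, Set.ncard_coe_finset]
  have h48 := hallq (φ x)
  have hw1 : ∑ y ∈ F, w y = F.card := by
    rw [Finset.card_eq_sum_ones]
    apply Finset.sum_congr rfl
    intro y hy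
    have hyc : y ∈ (↑F : Set _) := hy
    rw [← hcross] at hyc
    have h64 : NN y = 8 := hyc.1
    have h0 : y ≠ 0 := by
      rintro rfl
      rw [hN0] at h64
      omega
    simp [w, h0, h64]
  rw [← hw1]
  exact h48


end Cfsg.Agent.S1588
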