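import Cfsg.Statements.S1589
import Mathlib
import Cfsg.Agent.Lib.GS1.M24Idx4
import Cfsg.Agent.Lib.M24.SextetStab

set_option autoImplicit false
open scoped Pointwise
open Cfsg

namespace Cfsg.Agent.S1589

open Cfsg.Agent.Lib.GS1.M24I Cfsg.Agent.Lib.Golay Cfsg.Agent.Lib.M24

/-- The image in the permutation group. -/
theorem card_image (H : Subgroup ↥Cfsg.M24) {i n : ℕ} (hi : H.index = i) (hn : n * i = 244823040) (hpos : 0 < i) :
    Nat.card ↥(H.map Cfsg.M24.subtype) = n := by
  rw [Subgroup.card_map_of_injective Cfsg.M24.subtype_injective]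
  have h1 := H.card_mul_index
  rw [card_M24, hi] at h1
  exact Nat.eq_of_mul_eq_mul_right hpos (h1.trans hn.symm)

theorem image_le (H : Subgroup ↥Cfsg.M24) : H.map Cfsg.M24.subtype ≤ Cfsg.M24 := by
  rintro _ ⟨x, -, rfl⟩
  exact x.2

/-- Subgroups of the group of the length-24 code of index 759, 276 and 1771 are exactly the octad, duad and sextet stabilisers, and no subgroup has index 253. -/
theorem result : (∀ H : Subgroup ↥Cfsg.M24, H.index = 759 → ∃ o ∈ Cfsg.octads, H = MulAction.stabilizer Cfsg.M24 o) ∧ (∀ H : Subgroup ↥Cfsg.M24, H.index = 276 → ∃ s : Finset Cfsg.GolayPt, s.card = 2 ∧ H = MulAction.stabilizer Cfsg.M24 s) ∧ (∀ H : Subgroup ↥Cfsg.M24, H.index = 1771 → ∃ S ∈ Cfsg.sextets, H = MulAction.stabilizer Cfsg.M24 S) ∧ ∀ H : Subgroup ↥Cfsg.M24, H.index ≠ 253 := by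
  refine ⟨fun H hH => ?_, fun H hH => ?_, fun H hH => ?_, fun H hH => ?_⟩
  · have hc := card_image H hH (n := 322560) (by norm_num) (by norm_num)
    obtain ⟨X, hX, hle⟩ := eq_759 (image_le H) hc
    refine ⟨X, hX, ?_⟩
    apply Subgroup.eq_of_le_of_card_ge
    · intro h hh
      exact hle ⟨h, hh, rfl⟩
    · rw [card_stabilizer_octad hX, ← Subgroup.card_map_of_injective Cfsg.M24.subtype_injective, hc]
  · have hc := card_image H hH (n := 887040) (by norm_num) (by norm_num)
    obtain ⟨s, hs, hle⟩ := eq_276 (image_le H) hc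
    refine ⟨s, hs, ?_⟩
    apply Subgroup.eq_of_le_of_card_ge
    · intro h hh
      exact hle ⟨h, hh, rfl⟩
    · have h2 : Nat.card ↥(H.map Cfsg.M24.subtype) = Nat.card H :=
        Subgroup.card_map_of_injective Cfsg.M24.subtype_injective
      rw [← h2, hc, ← card_inf_stab]
      exact Nat.le_of_dvd (by norm_num) (card_pair_dvd hs)
  · have hc := card_image H hH (n := 138240) (by norm_num) (by norm_num)
    obtain ⟨S, hS, hle⟩ := eq_1771 (image_le H) hc
    refine ⟨S, hS, ?_⟩
    apply Subgroup.eq_of_le_of_card_ge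
    · intro h hh
      exact hle h ⟨h, hh, rfl⟩
    · rw [card_stabilizer_sextet hS, ← Subgroup.card_map_of_injective Cfsg.M24.subtype_injective, hc]
  · exact no_253 (image_le H) (card_image H hH (by norm_num) (by norm_num))

end Cfsg.Agent.S1589
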