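import Cfsg.Statements.S1590
import Mathlib
import Cfsg.Agent.Lib.Cl.TernGolay

set_option autoImplicit false
open Cfsg

namespace Cfsg.Agent.S1590

/-- The length-12 ternary code has 729 words with weight distribution 0^1 6^264 9^440 12^24. -/
theorem result : Nat.card ↥Cfsg.ternaryGolayCode = 729 ∧ (∀ x ∈ Cfsg.ternaryGolayCode, x ≠ 0 → (Cfsg.ternarySupport x).card = 6 ∨ (Cfsg.ternarySupport x).card = 9 ∨ (Cfsg.ternarySupport x).card = 12) ∧ {x : Cfsg.ArrayPt → ZMod 3 | x ∈ Cfsg.ternaryGolayCode ∧ (Cfsg.ternarySupport x).card = 6}.ncard = 264 ∧ {x : Cfsg.ArrayPt → ZMod 3 | x ∈ Cfsg.ternaryGolayCode ∧ (Cfsg.ternarySupport x).card = 9}.ncard = 440 ∧ {x : Cfsg.ArrayPt → ZMod 3 | x ∈ Cfsg.ternaryGolayCode ∧ (Cfsg.ternarySupport x).card = 12}.ncard = 24 := by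
  open Cfsg.Agent.Lib.Cl.TG in
  refine ⟨card_code, ?_, ?_, ?_, ?_⟩
  · intro x hx hne
    obtain ⟨a, rfl⟩ := exists_of_mem hx
    rcases weights a with h | h | h | h
    · exfalso
      apply hne
      funext p
      have := Finset.card_eq_zero.mp h
      by_contra hp
      have hm : p ∈ Cfsg.ternarySupport (wd a) := by
        simp only [Cfsg.ternarySupport, Finset.mem_filter, Finset.mem_univ, true_and]
        exact hp
      rw [this] at hm
      simp at hm
    · exact Or.inl h
    · exact Or.inr (Or.inl h)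
    · exact Or.inr (Or.inr h)
  · rw [ncard_weight (fun n => n = 6)]; exact count6
  · rw [ncard_weight (fun n => n = 9)]; exact count9
  · rw [ncard_weight (fun n => n = 12)]; exact count12


end Cfsg.Agent.S1590
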