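import Cfsg.Statements.S1591
import Mathlib
import Cfsg.Agent.Lib.Cl.TernGolay

set_option autoImplicit false
open Cfsg

namespace Cfsg.Agent.S1591

/-- Any two words of the length-12 ternary code have dot product zero. -/
theorem result (x y : Cfsg.ArrayPt → ZMod 3) (hx : x ∈ Cfsg.ternaryGolayCode) (hy : y ∈ Cfsg.ternaryGolayCode) : ∑ p, x p * y p = 0 := by
  classical
  have h3 : (3 : ZMod 3) = 0 := by decide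
  obtain ⟨⟨a1, a2, a3, a4, a5, a6⟩, rfl⟩ := Cfsg.Agent.Lib.Cl.TG.exists_of_mem hx
  obtain ⟨⟨b1, b2, b3, b4, b5, b6⟩, rfl⟩ := Cfsg.Agent.Lib.Cl.TG.exists_of_mem hy
  have hsum : ∀ f : ZMod 3 → ZMod 3, ∑ r : ZMod 3, f r = f 0 + f 1 + f 2 := fun f =>
    Fin.sum_univ_three f
  rw [Fintype.sum_prod_type, Fin.sum_univ_four]
  rw [hsum, hsum, hsum, hsum]
  show ((2*a1+2*a3+2*a5+a6)*(2*b1+2*b3+2*b5+b6) + (2*a1+a2+a3+2*a4+2*a6)*(2*b1+b2+b3+2*b4+2*b6) + (2*a1+2*a2+a4+a5+2*a6)*(2*b1+2*b2+b4+b5+2*b6)) + ((a1+a2+2*a3+a4+2*a5+2*a6)*(b1+b2+2*b3+b4+2*b5+2*b6) + (a1+2*a2+a3+2*a4+a5)*(b1+2*b2+b3+2*b4+b5) + (a1)*(b1)) + ((2*a2+2*a3+2*a6)*(2*b2+2*b3+2*b6) + (a2)*(b2) + (a3)*(b3)) + ((2*a4+2*a5+2*a6)*(2*b4+2*b5+2*b6) + (a4)*(b4) + (a5)*(b5)) = 0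
  linear_combination (5*a1*b1 + 3*a1*b2 + 3*a1*b3 + 3*a1*b4 + 3*a1*b5 + 4*a1*b6 + 3*a2*b1 + 5*a2*b2 + 3*a2*b3 + 3*a2*b4 + 2*a2*b5 + 4*a2*b6 + 3*a3*b1 + 3*a3*b2 + 5*a3*b3 + 2*a3*b4 + 3*a3*b5 + 4*a3*b6 + 3*a4*b1 + 3*a4*b2 + 2*a4*b3 + 5*a4*b4 + 3*a4*b5 + 4*a4*b6 + 3*a5*b1 + 2*a5*b2 + 3*a5*b3 + 3*a5*b4 + 5*a5*b5 + 4*a5*b6 + 4*a6*b1 + 4*a6*b2 + 4*a6*b3 + 4*a6*b4 + 4*a6*b5 + 7*a6*b6) * h3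


end Cfsg.Agent.S1591
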