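import Cfsg.Statements.S1592
import Mathlib
import Cfsg.Agent.Lib.Cl.TernGolay2

set_option autoImplicit false
open Cfsg

namespace Cfsg.Agent.S1592

/-- The supports of the weight-6 words of the length-12 ternary code form a Steiner system S(5, 6, 12) with 132 blocks. -/
theorem result : Cfsg.IsSteinerSystem 5 6 {h : Finset Cfsg.ArrayPt | ∃ x ∈ Cfsg.ternaryGolayCode, Cfsg.ternarySupport x = h ∧ h.card = 6} ∧ {h : Finset Cfsg.ArrayPt | ∃ x ∈ Cfsg.ternaryGolayCode, Cfsg.ternarySupport x = h ∧ h.card = 6}.ncard = 132 := by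
  open Cfsg.Agent.Lib.Cl.TG in
  have hB : {h : Finset Cfsg.ArrayPt | ∃ x ∈ Cfsg.ternaryGolayCode, Cfsg.ternarySupport x = h ∧ h.card = 6} =
      (↑blocksF : Set (Finset Cfsg.ArrayPt)) := by
    ext h
    simp only [Set.mem_setOf_eq, Finset.mem_coe]
    exact mem_blocksF.symm
  rw [hB]
  refine ⟨⟨fun b hb => ?_, fun s hs => ?_⟩, by rw [Set.ncard_coe_finset]; exact card_blocksF⟩
  · obtain ⟨x, hx, -, hc⟩ := mem_blocksF.mp hb
    exact hc
  · obtain ⟨b, hb, hsb⟩ := exists_block s hs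
    refine ⟨b, ⟨hb, hsb⟩, ?_⟩
    rintro b' ⟨hb', hsb'⟩
    apply block_unique hb' hb
    rw [← hs]
    exact Finset.card_le_card (Finset.subset_inter hsb' hsb)


end Cfsg.Agent.S1592
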