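import Cfsg.Statements.S1593
import Mathlib
import Cfsg.Agent.Lib.Cl.TernGolay

set_option autoImplicit false
open Cfsg

namespace Cfsg.Agent.S1593


open Cfsg.Agent.Lib.Cl.TG in
private theorem pair_word : ∀ p q : Cfsg.ArrayPt, ∃ a : P6,
    (Cfsg.ternarySupport (wd a)).card = 6 ∧ wd a p ≠ 0 ∧ wd a q ≠ 0 := by
  decide +kernel

open Cfsg.Agent.Lib.Cl.TG in
private theorem aux (c : Cfsg.ArrayPt → (ZMod 3)ˣ)
    (h : ∀ x ∈ Cfsg.ternaryGolayCode, Cfsg.monomialMap 1 c x ∈ Cfsg.ternaryGolayCode)
    (p q : Cfsg.ArrayPt) (hp : c p = 1) (hq : c q = -1) : False := by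
  classical
  obtain ⟨a, ha, hap, haq⟩ := pair_word p q
  set x := wd a with hx
  have hxm : x ∈ Cfsg.ternaryGolayCode := wd_mem a
  have hz : Cfsg.monomialMap 1 c x - x ∈ Cfsg.ternaryGolayCode :=
    Submodule.sub_mem _ (h x hxm) hxm
  set z := Cfsg.monomialMap 1 c x - x with hzdef
  have hzv : ∀ r, z r = ((c r : ZMod 3) - 1) * x r := by
    intro r
    simp only [hzdef, Cfsg.monomialMap, Pi.sub_apply]
    have : (1 : Equiv.Perm Cfsg.ArrayPt).symm r = r := rfl
    rw [this]; ring
  obtain ⟨b, hb⟩ := exists_of_mem hz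
  have hsub : Cfsg.ternarySupport z ⊆ (Cfsg.ternarySupport x).erase p := by
    intro r hr
    simp only [Cfsg.ternarySupport, Finset.mem_filter, Finset.mem_univ, true_and,
      Finset.mem_erase] at hr ⊢
    refine ⟨?_, ?_⟩
    · rintro rfl
      apply hr
      rw [hzv, hp]; simp
    · intro h0
      apply hr
      rw [hzv, h0]; simp
  have hpm : p ∈ Cfsg.ternarySupport x := by
    simp only [Cfsg.ternarySupport, Finset.mem_filter, Finset.mem_univ, true_and]
    exact hap
  have hcard : (Cfsg.ternarySupport z).card ≤ 5 := by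
    have := Finset.card_le_card hsub
    rw [Finset.card_erase_of_mem hpm, ha] at this
    omega
  have hqm : q ∈ Cfsg.ternarySupport z := by
    simp only [Cfsg.ternarySupport, Finset.mem_filter, Finset.mem_univ, true_and]
    rw [hzv, hq]
    apply mul_ne_zero _ haq
    decide
  have hpos : 0 < (Cfsg.ternarySupport z).card := Finset.card_pos.mpr ⟨q, hqm⟩
  have hw := weights b
  rw [← hb] at hw
  omega

/-- The only sign changes preserving the length-12 ternary code are the identity and negation of all coordinates. -/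
theorem result (c : Cfsg.ArrayPt → (ZMod 3)ˣ) (h : (∀ x ∈ Cfsg.ternaryGolayCode, Cfsg.monomialMap 1 c x ∈ Cfsg.ternaryGolayCode)) : (∀ p, c p = 1) ∨ (∀ p, c p = -1) := by
  have hunits : ∀ u : (ZMod 3)ˣ, u = 1 ∨ u = -1 := by decide
  have key : ∀ p q, c p = c q := by
    intro p q
    rcases hunits (c p) with hp | hp <;> rcases hunits (c q) with hq | hq
    · rw [hp, hq]
    · exact (aux c h p q hp hq).elim
    · exact (aux c h q p hq hp).elim
    · rw [hp, hq]
  rcases hunits (c (0, 0)) with h0 | h0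
  · left; intro p; rw [key p (0, 0), h0]
  · right; intro p; rw [key p (0, 0), h0]


end Cfsg.Agent.S1593
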