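import Cfsg.Statements.S1595
import Mathlib

set_option autoImplicit false
open Cfsg

namespace Cfsg.Agent.S1595


section
variable {α : Type*} [Fintype α] [DecidableEq α]

private lemma lam_step (Bf : Finset (Finset α)) (h6 : ∀ c ∈ Bf, c.card = 6) (T : Finset α) :
    (6 - T.card) * (Bf.filter (fun c => T ⊆ c)).card =
      ∑ x ∈ Tᶜ, (Bf.filter (fun c => insert x T ⊆ c)).card := by
  simp_rw [Finset.card_filter]
  rw [Finset.sum_comm, Finset.mul_sum]
  refine Finset.sum_congr rfl fun c hc => ?_
  by_cases hT : T ⊆ c
  · rw [if_pos hT, mul_one]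
    have : ∑ x ∈ Tᶜ, (if insert x T ⊆ c then 1 else 0) = (c \ T).card := by
      rw [← Finset.card_filter]
      congr 1
      ext x
      simp only [Finset.mem_filter, Finset.mem_compl, Finset.mem_sdiff, Finset.insert_subset_iff, hT,
        and_true]
      tauto
    rw [this, Finset.card_sdiff_of_subset hT, h6 c hc]
  · rw [if_neg hT, mul_zero]
    symm
    apply Finset.sum_eq_zero
    intro x _
    rw [if_neg]
    intro h
    exact hT ((Finset.subset_insert _ _).trans h)

private lemma lam_const (hα : Fintype.card α = 12) (Bf : Finset (Finset α)) (h6 : ∀ c ∈ Bf, c.card = 6)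
    (i l : ℕ) (hl : ∀ T : Finset α, T.card = i + 1 → (Bf.filter (fun c => T ⊆ c)).card = l)
    (T : Finset α) (hT : T.card = i) :
    (6 - i) * (Bf.filter (fun c => T ⊆ c)).card = (12 - i) * l := by
  have h := lam_step Bf h6 T
  rw [hT] at h
  rw [h, Finset.sum_congr rfl (g := fun _ => l), Finset.sum_const, Finset.card_compl, hα, hT,
    smul_eq_mul]
  intro x hx
  apply hl
  rw [Finset.card_insert_of_notMem (Finset.mem_compl.mp hx), hT]

/-- The partition of the blocks through `s` by their trace on `b`. -/
private lemma lam_fiber (Bf : Finset (Finset α)) (b s : Finset α) (hs : s ⊆ b) :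
    (Bf.filter (fun c => s ⊆ c)).card =
      ∑ u ∈ (b \ s).powerset, (Bf.filter (fun c => b ∩ c = s ∪ u)).card := by
  rw [Finset.card_eq_sum_card_fiberwise (f := fun c => (b ∩ c) \ s) (t := (b \ s).powerset)]
  · refine Finset.sum_congr rfl fun u hu => ?_
    congr 1
    ext c
    have hu' : u ⊆ b \ s := Finset.mem_powerset.mp hu
    simp only [Finset.mem_filter]
    constructor
    · rintro ⟨⟨hc, hsc⟩, he⟩
      refine ⟨hc, ?_⟩
      rw [← he]
      ext x
      simp only [Finset.mem_inter, Finset.mem_union, Finset.mem_sdiff]
      constructor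
      · intro h
        by_cases hx : x ∈ s
        · exact Or.inl hx
        · exact Or.inr ⟨h, hx⟩
      · rintro (h | h)
        · exact ⟨hs h, hsc h⟩
        · exact h.1
    · rintro ⟨hc, he⟩
      have hsc : s ⊆ c := fun x hx => by
        have : x ∈ b ∩ c := by rw [he]; exact Finset.mem_union_left _ hx
        exact (Finset.mem_inter.mp this).2
      refine ⟨⟨hc, hsc⟩, ?_⟩
      rw [he]
      ext x
      simp only [Finset.mem_sdiff, Finset.mem_union]
      constructor
      · rintro ⟨h | h, h2⟩
        · exact absurd h h2
        · exact h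
      · intro h
        exact ⟨Or.inr h, (Finset.mem_sdiff.mp (hu' h)).2⟩
  · intro c hc
    have hsc := (Finset.mem_filter.mp hc).2
    simp only [Finset.coe_powerset, Set.mem_preimage, Set.mem_powerset_iff]
    intro x hx
    simp only [Finset.coe_sdiff, Finset.mem_coe, Set.mem_diff, Finset.mem_inter] at hx ⊢
    exact ⟨hx.1.1, hx.2⟩

end

/-- Leech triangle of S(5, 6, 12): blocks meet in 0, 2, 3 or 4 points, and a block is met exactly in a given 2-, 3- or 4-subset by 3, 2, 3 blocks respectively. -/
theorem result {α : Type*} [Fintype α] [DecidableEq α] (hα : Fintype.card α = 12) {B : Set (Finset α)} (hB : Cfsg.IsSteinerSystem 5 6 B) (b : Finset α) (hb : b ∈ B) : (∀ c ∈ B, c ≠ b → (b ∩ c).card = 0 ∨ (b ∩ c).card = 2 ∨ (b ∩ c).card = 3 ∨ (b ∩ c).card = 4) ∧ ∀ s ⊆ b, (s.card = 2 → {c : Finset α | c ∈ B ∧ b ∩ c = s}.ncard = 3) ∧ (s.card = 3 → {c : Finset α | c ∈ B ∧ b ∩ c = s}.ncard = 2) ∧ (s.card = 4 → {c : Finset α | c ∈ B ∧ b ∩ c = s}.ncard = 3) := by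
  classical
  have hfin : ∀ c : Finset α, c ∈ (Finset.univ.filter (· ∈ B)) ↔ c ∈ B := by
    intro c; simp
  set Bf : Finset (Finset α) := Finset.univ.filter (· ∈ B) with hBf
  have h6 : ∀ c ∈ Bf, c.card = 6 := fun c hc => hB.1 c ((hfin c).mp hc)
  have hb' : b ∈ Bf := (hfin b).mpr hb
  have hbc : b.card = 6 := hB.1 b hb
  -- the numbers of blocks through a set
  have L5 : ∀ T : Finset α, T.card = 5 → (Bf.filter (fun c => T ⊆ c)).card = 1 := by
    intro T hT
    obtain ⟨c, ⟨hc, hTc⟩, huniq⟩ := hB.2 T hT
    rw [Finset.card_eq_one]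
    refine ⟨c, ?_⟩
    ext d
    simp only [Finset.mem_filter, Finset.mem_singleton]
    constructor
    · rintro ⟨hd, hTd⟩
      exact huniq d ⟨(hfin d).mp hd, hTd⟩
    · rintro rfl
      exact ⟨(hfin _).mpr hc, hTc⟩
  have L4 : ∀ T : Finset α, T.card = 4 → (Bf.filter (fun c => T ⊆ c)).card = 4 := by
    intro T hT
    have := lam_const hα Bf h6 4 1 L5 T hT
    omega
  have L3 : ∀ T : Finset α, T.card = 3 → (Bf.filter (fun c => T ⊆ c)).card = 12 := by
    intro T hT
    have := lam_const hα Bf h6 3 4 L4 T hT
    omega
  have L2 : ∀ T : Finset α, T.card = 2 → (Bf.filter (fun c => T ⊆ c)).card = 30 := by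
    intro T hT
    have := lam_const hα Bf h6 2 12 L3 T hT
    omega
  have L1 : ∀ T : Finset α, T.card = 1 → (Bf.filter (fun c => T ⊆ c)).card = 66 := by
    intro T hT
    have := lam_const hα Bf h6 1 30 L2 T hT
    omega
  -- the sets meeting b
  let n : Finset α → ℕ := fun s => (Bf.filter (fun c => b ∩ c = s)).card
  have hn : ∀ s, n s = (Bf.filter (fun c => b ∩ c = s)).card := fun s => rfl
  -- general step
  have step : ∀ (s : Finset α) (hs : s ⊆ b) (f : ℕ → ℕ),
      (∀ u ⊆ b \ s, u ≠ ∅ → n (s ∪ u) = f u.card) →
      (Bf.filter (fun c => s ⊆ c)).card =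
        n s + ∑ j ∈ Finset.range (6 - s.card + 1), if j = 0 then 0 else (6 - s.card).choose j * f j := by
    intro s hs f hf
    rw [lam_fiber Bf b s hs]
    have hcard : (b \ s).card = 6 - s.card := by
      rw [Finset.card_sdiff_of_subset hs, hbc]
    have h1 : ∑ u ∈ (b \ s).powerset, (Bf.filter (fun c => b ∩ c = s ∪ u)).card =
        ∑ u ∈ (b \ s).powerset, (if u.card = 0 then n s else f u.card) := by
      refine Finset.sum_congr rfl fun u hu => ?_
      have hu' := Finset.mem_powerset.mp hu
      by_cases h0 : u = ∅
      · subst h0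
        simp [hn]
      · have hne : u.card ≠ 0 := by
          rwa [Ne, Finset.card_eq_zero]
        rw [if_neg hne, ← hf u hu' h0]
    rw [h1, Finset.sum_powerset_apply_card (fun k => if k = 0 then n s else f k), hcard,
      Finset.sum_range_succ']
    rw [add_comm]
    simp only [Nat.choose_zero_right, one_smul, if_true, smul_eq_mul, Nat.succ_ne_zero, if_false]
    rw [Finset.sum_range_succ' _ (6 - s.card)]
    simp
  have card_union : ∀ (s u : Finset α), u ⊆ b \ s → (s ∪ u).card = s.card + u.card := by
    intro s u hu
    apply Finset.card_union_of_disjoint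
    rw [Finset.disjoint_left]
    intro x hx hxu
    exact (Finset.mem_sdiff.mp (hu hxu)).2 hx
  have sub_union : ∀ (s u : Finset α), s ⊆ b → u ⊆ b \ s → s ∪ u ⊆ b := by
    intro s u hs hu
    exact Finset.union_subset hs (hu.trans Finset.sdiff_subset)
  have ucard : ∀ (s u : Finset α), s ⊆ b → u ⊆ b \ s → u.card ≤ 6 - s.card := by
    intro s u hs hu
    have := Finset.card_le_card hu
    rwa [Finset.card_sdiff_of_subset hs, hbc] at this
  -- k = 6
  have N6 : ∀ s ⊆ b, s.card = 6 → n s = 1 := by
    intro s hs hc
    have hsb : s = b := Finset.eq_of_subset_of_card_le hs (by omega)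
    subst hsb
    rw [hn, Finset.card_eq_one]
    refine ⟨s, ?_⟩
    ext c
    simp only [Finset.mem_filter, Finset.mem_singleton]
    constructor
    · rintro ⟨hcb, he⟩
      have : s ⊆ c := Finset.inter_eq_left.mp he
      exact (Finset.eq_of_subset_of_card_le this (by rw [h6 c hcb]; omega)).symm
    · rintro rfl
      exact ⟨hb', Finset.inter_self _⟩
  -- k = 5
  have N5 : ∀ s ⊆ b, s.card = 5 → n s = 0 := by
    intro s hs hc
    have := step s hs (fun _ => 1) (by
      intro u hu hne
      have h1 := ucard s u hs hu
      have h2 := Finset.card_pos.mpr (Finset.nonempty_iff_ne_empty.mpr hne)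
      apply N6 _ (sub_union s u hs hu)
      rw [card_union s u hu]
      omega)
    rw [L5 s hc, hc] at this
    simp [Finset.sum_range_succ] at this
    omega
  have N4 : ∀ s ⊆ b, s.card = 4 → n s = 3 := by
    intro s hs hc
    have := step s hs (fun j => if j = 1 then 0 else 1) (by
      intro u hu hne
      have h1 := ucard s u hs hu
      have h2 := Finset.card_pos.mpr (Finset.nonempty_iff_ne_empty.mpr hne)
      have h3 := card_union s u hu
      by_cases h : u.card = 1
      · simp only [h, if_true]
        exact N5 _ (sub_union s u hs hu) (by omega)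
      · simp only [h, if_false]
        exact N6 _ (sub_union s u hs hu) (by omega))
    rw [L4 s hc, hc] at this
    simp [Finset.sum_range_succ] at this
    omega
  have N3 : ∀ s ⊆ b, s.card = 3 → n s = 2 := by
    intro s hs hc
    have := step s hs (fun j => if j = 1 then 3 else if j = 2 then 0 else 1) (by
      intro u hu hne
      have h1 := ucard s u hs hu
      have h2 := Finset.card_pos.mpr (Finset.nonempty_iff_ne_empty.mpr hne)
      have h3 := card_union s u hu
      by_cases h : u.card = 1
      · simp only [h, if_true]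
        exact N4 _ (sub_union s u hs hu) (by omega)
      · by_cases h' : u.card = 2
        · simp only [h', h, if_true, if_false]
          exact N5 _ (sub_union s u hs hu) (by omega)
        · simp only [h, h', if_false]
          exact N6 _ (sub_union s u hs hu) (by omega))
    rw [L3 s hc, hc] at this
    simp [Finset.sum_range_succ, Nat.choose] at this
    omega
  have N2 : ∀ s ⊆ b, s.card = 2 → n s = 3 := by
    intro s hs hc
    have := step s hs (fun j => if j = 1 then 2 else if j = 2 then 3 else if j = 3 then 0 else 1) (by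
      intro u hu hne
      have h1 := ucard s u hs hu
      have h2 := Finset.card_pos.mpr (Finset.nonempty_iff_ne_empty.mpr hne)
      have h3 := card_union s u hu
      by_cases h : u.card = 1
      · simp only [h, if_true]
        exact N3 _ (sub_union s u hs hu) (by omega)
      · by_cases h' : u.card = 2
        · simp only [h', h, if_true, if_false]
          exact N4 _ (sub_union s u hs hu) (by omega)
        · by_cases h'' : u.card = 3
          · simp only [h'', h, h', if_true, if_false]
            exact N5 _ (sub_union s u hs hu) (by omega)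
          · simp only [h, h', h'', if_false]
            exact N6 _ (sub_union s u hs hu) (by omega))
    rw [L2 s hc, hc] at this
    simp [Finset.sum_range_succ, Nat.choose] at this
    omega
  have N1 : ∀ s ⊆ b, s.card = 1 → n s = 0 := by
    intro s hs hc
    have := step s hs (fun j => if j = 1 then 3 else if j = 2 then 2 else if j = 3 then 3 else
        if j = 4 then 0 else 1) (by
      intro u hu hne
      have h1 := ucard s u hs hu
      have h2 := Finset.card_pos.mpr (Finset.nonempty_iff_ne_empty.mpr hne)
      have h3 := card_union s u hu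
      by_cases h : u.card = 1
      · simp only [h, if_true]
        exact N2 _ (sub_union s u hs hu) (by omega)
      · by_cases h' : u.card = 2
        · simp only [h', h, if_true, if_false]
          exact N3 _ (sub_union s u hs hu) (by omega)
        · by_cases h'' : u.card = 3
          · simp only [h'', h, h', if_true, if_false]
            exact N4 _ (sub_union s u hs hu) (by omega)
          · by_cases h4x : u.card = 4
            · simp only [h4x, h, h', h'', if_true, if_false]
              exact N5 _ (sub_union s u hs hu) (by omega)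
            · simp only [h, h', h'', h4x, if_false]
              exact N6 _ (sub_union s u hs hu) (by omega))
    rw [L1 s hc, hc] at this
    simp [Finset.sum_range_succ, Nat.choose] at this
    omega
  have hset : ∀ s : Finset α, {c : Finset α | c ∈ B ∧ b ∩ c = s}.ncard = n s := by
    intro s
    have : {c : Finset α | c ∈ B ∧ b ∩ c = s} = ↑(Bf.filter (fun c => b ∩ c = s)) := by
      ext c
      simp only [Set.mem_setOf_eq, Finset.coe_filter, hfin]
    rw [this, Set.ncard_coe_finset]
  refine ⟨?_, fun s hs => ⟨fun hc => ?_, fun hc => ?_, fun hc => ?_⟩⟩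
  · intro c hc hne
    have hle : (b ∩ c).card ≤ 6 := by
      have := Finset.card_le_card (Finset.inter_subset_left (s₁ := b) (s₂ := c))
      omega
    have hmem : ∀ s ⊆ b, n s = 0 → b ∩ c ≠ s := by
      intro s _ h0 he
      have : c ∈ Bf.filter (fun c => b ∩ c = s) := Finset.mem_filter.mpr ⟨(hfin c).mpr hc, he⟩
      rw [hn] at h0
      rw [Finset.card_eq_zero.mp h0] at this
      simp at this
    have h1 : (b ∩ c).card ≠ 1 := fun h => hmem _ Finset.inter_subset_left
      (N1 _ Finset.inter_subset_left h) rfl
    have h5 : (b ∩ c).card ≠ 5 := fun h => hmem _ Finset.inter_subset_left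
      (N5 _ Finset.inter_subset_left h) rfl
    have h6' : (b ∩ c).card ≠ 6 := by
      intro h
      have h1 : b ∩ c = b := Finset.eq_of_subset_of_card_le Finset.inter_subset_left (by omega)
      have h2 : b ⊆ c := Finset.inter_eq_left.mp h1
      exact hne (Finset.eq_of_subset_of_card_le h2 (by rw [hB.1 c hc, hbc])).symm
    omega
  · rw [hset]; exact N2 s hs hc
  · rw [hset]; exact N3 s hs hc
  · rw [hset]; exact N4 s hs hc


end Cfsg.Agent.S1595
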