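import Cfsg.Statements.S1598
import Mathlib
import Cfsg.Agent.Lib.M24.Table
import Cfsg.Agent.Lib.M24.QuartetOrb
import Cfsg.Agent.Lib.M24.SQRowsData

set_option autoImplicit false
open scoped Pointwise
open Cfsg

namespace Cfsg.Agent.S1598

open Cfsg.Agent.Lib.Compute Cfsg.Agent.Lib.Golay Cfsg.Agent.Lib.M24

/-- A row of the table. -/
noncomputable abbrev rowL (k : ℕ) : ℕ := tbl120 sqL k
/-- Right multiplication. -/
noncomputable abbrev rowR (j k : ℕ) : ℕ := pget 9 511 sqR (Nat.add (Nat.mul j 432) k)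
/-- The generators. -/
noncomputable abbrev sgen (j : ℕ) : ℕ := pget 9 511 200602 j
/-- The matrix code of a row. -/
noncomputable abbrev psi (k : ℕ) : ℕ := pget 8 255 sqPsi k
/-- The row of a matrix code. -/
noncomputable abbrev posR (n : ℕ) : ℕ := Nat.mod (pget 9 511 sqPos n) 432
/-- The row of a point. -/
noncomputable abbrev ptR (n : ℕ) : ℕ := Nat.mod (pget 9 511 sqPt n) 432

theorem rows_vld : allBelow (fun k => vld (rowL k)) 432 = true := by decide +kernel

theorem rows_asc : allBelow (fun k => Nat.blt (keyOf (pc (rowL k))) (keyOf (pc (rowL (k + 1))))) (432 - 1) = true := by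
  decide +kernel

theorem rows_mem : allBelow (fun k => Nat.beq (imgMask (pc (rowL k)) dM 24) dM && famEq (pc (rowL k)) (qT k0) (qT k0) 4) 432 = true := by
  decide +kernel

theorem rows_id : rowId (pc (rowL 13)) = true := by decide +kernel

theorem rows_s : allBelow (fun j => Nat.blt (sgen j) 432) 2 = true := by decide +kernel

theorem rows_R : allBelow (fun j => allBelow (fun k => Nat.blt (rowR j k) 432 &&
    rowMul (pc (rowL k)) (pc (rowL (sgen j))) (pc (rowL (rowR j k)))) 432) 2 = true := by decide +kernel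

theorem rows_tree : allBelow (fun k => Nat.beq k 13 || (Nat.blt (pget 2 3 sqGen k) 2 &&
    Nat.blt (pget 9 511 sqPar k) 432 && Nat.blt (pget 4 15 sqDist (pget 9 511 sqPar k)) (pget 4 15 sqDist k) &&
    Nat.beq (rowR (pget 2 3 sqGen k) (pget 9 511 sqPar k)) k)) 432 = true := by decide +kernel

theorem psi_det : allBelow (fun k => decide ((glMat (psi k)).det ≠ 0)) 432 = true := by decide +kernel

theorem psi_mul : allBelow (fun j => allBelow (fun k => decide (glMat (psi k) * glMat (psi (sgen j)) = glMat (psi (rowR j k)))) 432) 2 = true := by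
  decide +kernel

theorem psi_id : glMat (psi 13) = 1 := by decide +kernel

theorem psi_pos : ∀ a b c d : ZMod 3, a * d - b * c ≠ 0 →
    glMat (psi (posR (Nat.add a.val (Nat.mul 3 (Nat.add b.val (Nat.mul 3 (Nat.add c.val (Nat.mul 3 d.val)))))))) =
      Matrix.of ![![a, b], ![c, d]] := by decide +kernel

theorem pt_rows : allBelow (fun x => !(tb dM x) || Nat.beq (pc (rowL (ptR x)) 0) x) 24 = true := by decide +kernel

theorem orbit_base_quartets : MulAction.orbit ↥(MulAction.stabilizer ↥M24 (enc.finOf dM : Finset GolayPt)) QB = quartets (enc.finOf dM) := by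
  ext Q
  constructor
  · rintro ⟨⟨x, hx⟩, rfl⟩
    have h := smul_mem_quartets x (zq_mem (k := k0) (by norm_num))
    rw [show x • (enc.finOf dM : Finset GolayPt) = enc.finOf dM from hx] at h
    exact h
  · intro hQ
    obtain ⟨x, h1, h2⟩ := quartets_transitive D0_mem (zq_mem (k := k0) (by norm_num)) hQ
    exact ⟨⟨x, h1⟩, h2⟩

theorem card_SQ : Nat.card ↥SQ = 432 := by
  have key := card_inf_stabilizer (G := ↥M24) (enc.finOf dM : Finset GolayPt) QB
  rw [card_stabilizer_dodecad D0_mem, orbit_base_quartets, ncard_quartets D0_mem] at key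
  have key' : Nat.card ↥SQ * 220 = 95040 := key
  omega

theorem rows_cov : ∀ σ : ↥SQ, ∃ k, k < 432 ∧ σ.1.1 = ppm (rowL k) := by
  refine list_complete rows_vld ?_ rows_asc card_SQ
  intro k hk hv
  have h1 := (allBelow_iff _ _).1 rows_mem k hk
  simp only [Bool.and_eq_true] at h1
  refine ⟨?_, ?_⟩
  · show ppm (rowL k) • (enc.finOf dM : Finset GolayPt) = _
    rw [img_finOf (vld_code hv), Nat.eq_of_beq_eq_true h1.1]
  · show ppm (rowL k) • zq k0 = zq k0
    exact famEq_spec (vld_code hv) h1.2 le_rfl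

theorem psi_det' (k : ℕ) (hk : k < 432) : (glMat (psi k)).det ≠ 0 := by
  simpa using (allBelow_iff _ _).1 psi_det k hk

theorem exists_surj : ∃ f : ↥SQ →* GL (Fin 2) (ZMod 3), Function.Surjective f := by
  have hRlt : ∀ j, j < 2 → ∀ k, k < 432 → rowR j k < 432 := by
    intro j hj k hk
    have h1 := (allBelow_iff _ _).1 ((allBelow_iff _ _).1 rows_R j hj) k hk
    simp only [Bool.and_eq_true] at h1
    simpa [Nat.blt_eq] using h1.1
  have hslt : ∀ j, j < 2 → sgen j < 432 := by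
    intro j hj
    have h1 := (allBelow_iff _ _).1 rows_s j hj
    simpa [Nat.blt_eq] using h1
  obtain ⟨f, hf⟩ := exists_hom_of_rows (B := SQ) (φ := fun k => glOf (psi k)) (T := fun j => glOf (psi (sgen j))) rows_vld rows_asc rows_cov
    rows_id (by norm_num) rows_s rows_R rows_tree (glOf_one (psi_det' _ (by norm_num)) psi_id)
    (fun j hj k hk => glOf_mul (psi_det' _ hk) (psi_det' _ (hslt j hj)) (psi_det' _ (hRlt j hj k hk))
      (by simpa using (allBelow_iff _ _).1 ((allBelow_iff _ _).1 psi_mul j hj) k hk))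
  refine ⟨f, fun y => ?_⟩
  obtain ⟨n, -, hn⟩ := exists_code_of_pos (P := fun n => psi (posR n)) psi_pos y
  have hk : posR n < 432 := Nat.mod_lt _ (by norm_num)
  have hv := (allBelow_iff _ _).1 rows_vld _ hk
  have hm := (allBelow_iff _ _).1 rows_mem _ hk
  simp only [Bool.and_eq_true] at hm
  refine ⟨⟨gOf hv, ?_, ?_⟩, ?_⟩
  · show ppm (rowL (posR n)) • (enc.finOf dM : Finset GolayPt) = _
    rw [img_finOf (vld_code hv), Nat.eq_of_beq_eq_true hm.1]
  · show ppm (rowL (posR n)) • zq k0 = zq k0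
    exact famEq_spec (vld_code hv) hm.2 le_rfl
  · rw [hf _ _ hk rfl]
    exact hn

theorem point_row {i : ℕ} (hi : i < 24) (hi' : tb dM i = true) : ∃ u : ↥SQ, u.1.1 (pt 0) = pt i := by
  have hk : ptR i < 432 := Nat.mod_lt _ (by norm_num)
  have hv := (allBelow_iff _ _).1 rows_vld _ hk
  have hm := (allBelow_iff _ _).1 rows_mem _ hk
  simp only [Bool.and_eq_true] at hm
  have h1 := (allBelow_iff _ _).1 pt_rows i hi
  rw [hi'] at h1
  simp only [Bool.not_true, Bool.false_or] at h1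
  refine ⟨⟨gOf hv, ?_, ?_⟩, ?_⟩
  · show ppm (rowL (ptR i)) • (enc.finOf dM : Finset GolayPt) = _
    rw [img_finOf (vld_code hv), Nat.eq_of_beq_eq_true hm.1]
  · show ppm (rowL (ptR i)) • zq k0 = zq k0
    exact famEq_spec (vld_code hv) hm.2 le_rfl
  · show ppm (rowL (ptR i)) (pt 0) = pt i
    rw [code_pt (vld_code hv) (by norm_num), Nat.eq_of_beq_eq_true h1]

/-- A quartet stabiliser inside the dodecad stabiliser has order 432, a normal subgroup of order 9 with quotient GL(2, 3), and is transitive on the dodecad. -/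
theorem result (d : Finset Cfsg.GolayPt) (hd : d ∈ Cfsg.dodecads) (Q : Finset (Finset Cfsg.GolayPt)) (hQ : Q ∈ Cfsg.quartets d) : Nat.card ↥(MulAction.stabilizer Cfsg.M24 d ⊓ MulAction.stabilizer Cfsg.M24 Q) = 432 ∧ (∃ (N : Subgroup ↥(MulAction.stabilizer Cfsg.M24 d ⊓ MulAction.stabilizer Cfsg.M24 Q)) (_ : N.Normal), Nat.card N = 9 ∧ Nonempty (↥(MulAction.stabilizer Cfsg.M24 d ⊓ MulAction.stabilizer Cfsg.M24 Q) ⧸ N ≃* GL (Fin 2) (ZMod 3))) ∧ ∀ p ∈ d, ∀ q ∈ d, ∃ g ∈ (MulAction.stabilizer Cfsg.M24 d ⊓ MulAction.stabilizer Cfsg.M24 Q), ((g : ↥Cfsg.M24) : Equiv.Perm Cfsg.GolayPt) p = q := by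
  obtain ⟨g, hg1, hg2⟩ := exists_quartet_normal hd hQ
  have hiff : ∀ x : ↥M24, x ∈ SQ ↔ g * x * g⁻¹ ∈ MulAction.stabilizer Cfsg.M24 d ⊓ MulAction.stabilizer Cfsg.M24 Q := by
    intro x
    rw [← hg1, ← hg2]
    simp only [Subgroup.mem_inf, MulAction.mem_stabilizer_iff, mul_smul, inv_smul_smul, smul_left_cancel_iff]
  let e := conjEquivS _ _ g hiff
  have hcard : Nat.card ↥(MulAction.stabilizer Cfsg.M24 d ⊓ MulAction.stabilizer Cfsg.M24 Q) = 432 :=
    (Nat.card_congr e.toEquiv).symm.trans card_SQ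
  have : Finite ↥(MulAction.stabilizer Cfsg.M24 d ⊓ MulAction.stabilizer Cfsg.M24 Q) := Nat.finite_of_card_ne_zero (by rw [hcard]; norm_num)
  obtain ⟨f, hf⟩ := exists_surj
  refine ⟨hcard, ?_, ?_⟩
  · refine exists_normal_quotient (f.comp e.symm.toMonoidHom) (hf.comp e.symm.surjective) ?_ ?_
    · rw [hcard, card_GL23]
    · rw [card_GL23]
      norm_num
  · intro p hp q hq
    have hm : ∀ a ∈ d, ∃ i, i < 24 ∧ tb dM i = true ∧ a = g.1 (pt i) := by
      intro a ha
      rw [← hg1] at ha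
      obtain ⟨b, hb, rfl⟩ := Finset.mem_smul_finset.1 ha
      refine ⟨idx b, idx_lt b, ?_, ?_⟩
      · have h : pt (idx b) ∈ (enc.finOf dM : Finset GolayPt) := by
          rw [pt_idx]
          exact hb
        exact (mem_finOf_ptR (idx_lt b)).1 h
      · rw [pt_idx]
        rfl
    obtain ⟨i, hi, hi', rfl⟩ := hm p hp
    obtain ⟨j, hj, hj', rfl⟩ := hm q hq
    obtain ⟨u, hu⟩ := point_row hi hi'
    obtain ⟨v, hv⟩ := point_row hj hj'
    refine ⟨(e (v * u⁻¹)).1, (e (v * u⁻¹)).2, ?_⟩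
    show (g * (v * u⁻¹).1 * g⁻¹).1 (g.1 (pt i)) = g.1 (pt j)
    have h1 : (u⁻¹ : ↥SQ).1.1 (pt i) = pt 0 := by
      rw [← hu]
      exact Equiv.symm_apply_apply _ _
    have h2 : (v * u⁻¹ : ↥SQ).1.1 (pt i) = pt j := by
      show v.1.1 ((u⁻¹ : ↥SQ).1.1 (pt i)) = pt j
      rw [h1, hv]
    have h3 : (g⁻¹ : ↥M24).1 (g.1 (pt i)) = pt i := Equiv.symm_apply_apply _ _
    show g.1 ((v * u⁻¹ : ↥SQ).1.1 ((g⁻¹ : ↥M24).1 (g.1 (pt i)))) = g.1 (pt j)
    rw [h3, h2]

end Cfsg.Agent.S1598
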