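import Cfsg.Statements.S1599
import Mathlib
import Cfsg.Agent.Lib.M24.QuartetOrb

set_option autoImplicit false
open scoped Pointwise
open Cfsg

namespace Cfsg.Agent.S1599

open Cfsg.Agent.Lib.Compute Cfsg.Agent.Lib.Golay Cfsg.Agent.Lib.M24


theorem quartets_smul (g : ↥M24) (D : Finset GolayPt) : quartets (g • D) = (fun Q => g • Q) '' quartets D := by
  ext Q
  constructor
  · intro hQ
    refine ⟨g⁻¹ • Q, ?_, smul_inv_smul g Q⟩
    have := smul_mem_quartets g⁻¹ hQ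
    rwa [inv_smul_smul] at this
  · rintro ⟨Q', hQ', rfl⟩
    exact smul_mem_quartets g hQ'

/-- A quartet stabiliser has five orbits on the quartets of its dodecad, of sizes 1, 12, 27, 72, 108. -/
theorem result (d : Finset Cfsg.GolayPt) (hd : d ∈ Cfsg.dodecads) (Q : Finset (Finset Cfsg.GolayPt)) (hQ : Q ∈ Cfsg.quartets d) : ∃ X₁ ∈ Cfsg.quartets d, ∃ X₂ ∈ Cfsg.quartets d, ∃ X₃ ∈ Cfsg.quartets d, ∃ X₄ ∈ Cfsg.quartets d, (MulAction.orbit ↥(MulAction.stabilizer Cfsg.M24 d ⊓ MulAction.stabilizer Cfsg.M24 Q) X₁).ncard = 12 ∧ (MulAction.orbit ↥(MulAction.stabilizer Cfsg.M24 d ⊓ MulAction.stabilizer Cfsg.M24 Q) X₂).ncard = 27 ∧ (MulAction.orbit ↥(MulAction.stabilizer Cfsg.M24 d ⊓ MulAction.stabilizer Cfsg.M24 Q) X₃).ncard = 72 ∧ (MulAction.orbit ↥(MulAction.stabilizer Cfsg.M24 d ⊓ MulAction.stabilizer Cfsg.M24 Q) X₄).ncard = 108 ∧ Cfsg.quartets d = {Q} ∪ MulAction.orbit ↥(MulAction.stabilizer Cfsg.M24 d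 ⊓ MulAction.stabilizer Cfsg.M24 Q) X₁ ∪ MulAction.orbit ↥(MulAction.stabilizer Cfsg.M24 d ⊓ MulAction.stabilizer Cfsg.M24 Q) X₂ ∪ MulAction.orbit ↥(MulAction.stabilizer Cfsg.M24 d ⊓ MulAction.stabilizer Cfsg.M24 Q) X₃ ∪ MulAction.orbit ↥(MulAction.stabilizer Cfsg.M24 d ⊓ MulAction.stabilizer Cfsg.M24 Q) X₄ := by
  obtain ⟨g, rfl, rfl⟩ := exists_quartet_normal hd hQ
  obtain ⟨m1, m2, m3, m4, _⟩ := mem_rootsQ
  obtain ⟨c1, c2, c3, c4, _⟩ := qCount
  have hm : ∀ r, r < 220 → g • zq r ∈ quartets (g • (enc.finOf dM : Finset GolayPt)) :=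
    fun r hr => smul_mem_quartets g (zq_mem hr)
  refine ⟨g • zq 0, hm _ (by norm_num), g • zq 5, hm _ (by norm_num), g • zq 6, hm _ (by norm_num), g • zq 4, hm _ (by norm_num),
    ncard_quartet_orbit g _ _ ((qOrbit_ncard m1 (by norm_num)).trans c1),
    ncard_quartet_orbit g _ _ ((qOrbit_ncard m2 (by norm_num)).trans c2),
    ncard_quartet_orbit g _ _ ((qOrbit_ncard m3 (by norm_num)).trans c3),
    ncard_quartet_orbit g _ _ ((qOrbit_ncard m4 (by norm_num)).trans c4), ?_⟩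
  rw [quartets_smul, quartet_base_union, Set.image_union, Set.image_union, Set.image_union, Set.image_union,
    ← orbit_inf_smul, ← orbit_inf_smul, ← orbit_inf_smul, ← orbit_inf_smul, Set.image_singleton]

end Cfsg.Agent.S1599
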