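import Cfsg.Statements.S1600
import Mathlib
import Cfsg.Agent.Lib.M24.M9

set_option autoImplicit false
open scoped Pointwise
open Cfsg

namespace Cfsg.Agent.S1600

open Cfsg.Agent.Lib.Compute Cfsg.Agent.Lib.Golay Cfsg.Agent.Lib.M24


theorem trans_chk : allBelow (fun a => allBelow (fun b => tb 340831 a || tb 340831 b ||
    m9L.any (fun e => Nat.beq (pc e a) b)) 24) 24 = true := by decide +kernel

theorem trans_base {x y : GolayPt} (hx : x ∉ (enc.finOf 340831 : Finset GolayPt)) (hy : y ∉ (enc.finOf 340831 : Finset GolayPt)) :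
    ∃ e ∈ m9L, ppm e x = y := by
  have h1 := (allBelow_iff _ _).1 ((allBelow_iff _ _).1 trans_chk _ (idx_lt x)) _ (idx_lt y)
  simp only [Bool.or_eq_true, List.any_eq_true] at h1
  rcases h1 with (h1 | h1) | ⟨e, he, h1⟩
  · exact absurd (mem_finOf_tb.2 h1) hx
  · exact absurd (mem_finOf_tb.2 h1) hy
  · refine ⟨e, he, ?_⟩
    have h2 := vld_code (m9_el he).1 x
    have h3 : idx (ppm e x) = idx y := by
      rw [← enc_idx, ← h2]
      exact Nat.eq_of_beq_eq_true h1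
    exact enc.idx_injective h3

/-- The pointwise stabiliser of three points of a dodecad inside the dodecad stabiliser (order 72) is transitive on the complementary dodecad. -/
theorem result (d : Finset Cfsg.GolayPt) (hd : d ∈ Cfsg.dodecads) (p q r : Cfsg.GolayPt) (hp : p ∈ d) (hq : q ∈ d) (hr : r ∈ d) (hpq : p ≠ q) (hpr : p ≠ r) (hqr : q ≠ r) : Nat.card ↥(MulAction.stabilizer Cfsg.M24 d ⊓ MulAction.stabilizer Cfsg.M24 p ⊓ MulAction.stabilizer Cfsg.M24 q ⊓ MulAction.stabilizer Cfsg.M24 r) = 72 ∧ ∀ x ∉ d, ∀ y ∉ d, ∃ g ∈ (MulAction.stabilizer Cfsg.M24 d ⊓ MulAction.stabilizer Cfsg.M24 p ⊓ MulAction.stabilizer Cfsg.M24 q ⊓ MulAction.stabilizer Cfsg.M24 r), ((g : ↥Cfsg.M24) : Equiv.Perm Cfsg.GolayPt) x = y := by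
  obtain ⟨c, hc, h1, h2, h3, h4⟩ := exists_normal_M9 hd hp hq hr hpq hpr hqr
  refine ⟨card_J hc h1 h2 h3 h4, fun x hx y hy => ?_⟩
  have hmem : ∀ {a : GolayPt}, a ∉ d → c a ∉ (enc.finOf 340831 : Finset GolayPt) := by
    intro a ha h5
    rw [← h1] at h5
    obtain ⟨b, hb, e⟩ := Finset.mem_smul_finset.1 h5
    have : b = a := c.injective e
    exact ha (this ▸ hb)
  obtain ⟨e, he, he'⟩ := trans_base (hmem hx) (hmem hy)
  obtain ⟨hv, hM, hD, hp0, hp1, hp2⟩ := m9_el he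
  have hmul : c⁻¹ * ppm e * c ∈ M24 := M24.mul_mem (M24.mul_mem (M24.inv_mem hc) hM) hc
  have key : ∀ {a : GolayPt} {i : ℕ}, c a = pt i → ppm e (pt i) = pt i → (c⁻¹ * ppm e * c) a = a := by
    intro a i h5 h6
    show c⁻¹ (ppm e (c a)) = a
    rw [h5, h6, ← h5]
    simp
  refine ⟨⟨c⁻¹ * ppm e * c, hmul⟩, ⟨⟨⟨?_, ?_⟩, ?_⟩, ?_⟩, ?_⟩
  · show (c⁻¹ * ppm e * c) • d = d
    rw [mul_smul, mul_smul, h1, hD, ← h1, inv_smul_smul]
  · exact key h2 hp0
  · exact key h3 hp1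
  · exact key h4 hp2
  · show c⁻¹ (ppm e (c x)) = y
    rw [he']
    simp

end Cfsg.Agent.S1600
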