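import Cfsg.Statements.S1601
import Mathlib
import Cfsg.Agent.Lib.M24.Flag2
import Cfsg.Agent.Lib.M24.L11RowsData
import Cfsg.Agent.Lib.SmallSimple.Recognize

set_option autoImplicit false
open scoped Pointwise MatrixGroups
open Cfsg

namespace Cfsg.Agent.S1601

open Cfsg.Agent.Lib.Compute Cfsg.Agent.Lib.Golay Cfsg.Agent.Lib.M24

/-- A row of the table. -/
noncomputable abbrev rowL (k : ℕ) : ℕ := tbl120 ltL k
/-- Right multiplication. -/
noncomputable abbrev rowR (j k : ℕ) : ℕ := pget 10 1023 ltR (Nat.add (Nat.mul j 660) k)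
/-- The generators. -/
noncomputable abbrev sgen (j : ℕ) : ℕ := pget 10 1023 620787 j
/-- The matrix code of a row. -/
noncomputable abbrev psi (k : ℕ) : ℕ := pget 16 65535 ltPsi k

/-- An entry. -/
def cd11 (x : ℕ) : ZMod 11 := (⟨Nat.mod x 11, Nat.mod_lt _ (by norm_num)⟩ : Fin 11)

/-- A matrix from its code. -/
def slMat (c : ℕ) : Matrix (Fin 2) (Fin 2) (ZMod 11) :=
  Matrix.of fun i j => cd11 (Nat.land (Nat.shiftRight c (Nat.mul 4 (Nat.add (Nat.mul 2 i.val) j.val))) 15)

/-- An element of `SL(2, 11)` from its code. -/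
noncomputable def slOf (c : ℕ) : SL(2, ZMod 11) := if h : (slMat c).det = 1 then ⟨slMat c, h⟩ else 1

theorem coe_slOf {c : ℕ} (h : (slMat c).det = 1) : ((slOf c : SL(2, ZMod 11)) : Matrix (Fin 2) (Fin 2) (ZMod 11)) = slMat c := by
  have e : slOf c = (⟨slMat c, h⟩ : SL(2, ZMod 11)) := dif_pos h
  rw [e]

/-- The central element. -/
noncomputable def zz : SL(2, ZMod 11) := ⟨-1, by simp [Matrix.det_fin_two]⟩

theorem zz_mem : zz ∈ Subgroup.center SL(2, ZMod 11) := by
  rw [Matrix.SpecialLinearGroup.mem_center_iff]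
  refine ⟨-1, by simp, ?_⟩
  show Matrix.scalar (Fin 2) (-1 : ZMod 11) = (-1 : Matrix (Fin 2) (Fin 2) (ZMod 11))
  rw [map_neg, map_one]

/-- The class of a code. -/
noncomputable def phiC (c : ℕ) : Matrix.ProjectiveSpecialLinearGroup (Fin 2) (ZMod 11) := QuotientGroup.mk (slOf c)

theorem phiC_mul {a b c : ℕ} (ha : (slMat a).det = 1) (hb : (slMat b).det = 1) (hc : (slMat c).det = 1)
    (h : slMat a * slMat b = slMat c ∨ slMat a * slMat b = - slMat c) : phiC a * phiC b = phiC c := by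
  show (QuotientGroup.mk (slOf a * slOf b) : Matrix.ProjectiveSpecialLinearGroup (Fin 2) (ZMod 11)) = QuotientGroup.mk (slOf c)
  rw [QuotientGroup.eq]
  have h1 : ((slOf a * slOf b : SL(2, ZMod 11)) : Matrix (Fin 2) (Fin 2) (ZMod 11)) = slMat a * slMat b := by
    rw [Matrix.SpecialLinearGroup.coe_mul, coe_slOf ha, coe_slOf hb]
  rcases h with h | h
  · have h2 : slOf a * slOf b = slOf c := by
      apply Subtype.ext
      show ((slOf a * slOf b : SL(2, ZMod 11)) : Matrix (Fin 2) (Fin 2) (ZMod 11)) = _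
      rw [h1, h, ← coe_slOf hc]
    rw [h2, inv_mul_cancel]
    exact Subgroup.one_mem _
  · have h2 : slOf c = zz * (slOf a * slOf b) := by
      apply Subtype.ext
      show ((slOf c : SL(2, ZMod 11)) : Matrix (Fin 2) (Fin 2) (ZMod 11)) = (-1 : Matrix (Fin 2) (Fin 2) (ZMod 11)) * ((slOf a * slOf b : SL(2, ZMod 11)) : Matrix (Fin 2) (Fin 2) (ZMod 11))
      rw [h1, h, coe_slOf hc]
      simp
    rw [h2, (Subgroup.mem_center_iff.1 zz_mem _).symm, inv_mul_cancel_left]
    exact zz_mem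

theorem phiC_one {c : ℕ} (hc : (slMat c).det = 1) (h : slMat c = 1) : phiC c = 1 := by
  have h2 : slOf c = 1 := by
    apply Subtype.ext
    show ((slOf c : SL(2, ZMod 11)) : Matrix (Fin 2) (Fin 2) (ZMod 11)) = 1
    rw [coe_slOf hc, h]
  show (QuotientGroup.mk (slOf c) : Matrix.ProjectiveSpecialLinearGroup (Fin 2) (ZMod 11)) = 1
  rw [h2]
  rfl

theorem phiC_scalar {c : ℕ} (hc : (slMat c).det = 1) (h : phiC c = 1) : slMat c 0 1 = 0 ∧ slMat c 1 0 = 0 ∧ slMat c 0 0 = slMat c 1 1 := by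
  have h1 : slOf c ∈ Subgroup.center SL(2, ZMod 11) := (QuotientGroup.eq_one_iff _).1 h
  rw [Matrix.SpecialLinearGroup.mem_center_iff] at h1
  obtain ⟨r, -, hr⟩ := h1
  rw [coe_slOf hc] at hr
  rw [← hr]
  simp [Matrix.scalar_apply]

theorem card_PSL11 : Nat.card (Matrix.ProjectiveSpecialLinearGroup (Fin 2) (ZMod 11)) = 660 := by
  have : Fact (Nat.Prime 11) := ⟨by norm_num⟩
  have h := Lib.SmallSimple.card_psl_zmod (p := 11) (m := 5) (by norm_num)
  rw [h]

theorem rows_vld : allBelow (fun k => vld (rowL k)) 660 = true := by decide +kernel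

theorem rows_asc : allBelow (fun k => Nat.blt (keyOf (pc (rowL k))) (keyOf (pc (rowL (k + 1))))) (660 - 1) = true := by
  decide +kernel

theorem rows_mem : allBelow (fun k => Nat.beq (imgMask (pc (rowL k)) dM 24) dM && Nat.beq (pc (rowL k) 0) 0 && Nat.beq (pc (rowL k) 5) 5) 660 = true := by
  decide +kernel

theorem rows_id : rowId (pc (rowL 192)) = true := by decide +kernel

theorem rows_s : allBelow (fun j => Nat.blt (sgen j) 660) 2 = true := by decide +kernel

theorem rows_R : allBelow (fun j => allBelow (fun k => Nat.blt (rowR j k) 660 &&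
    rowMul (pc (rowL k)) (pc (rowL (sgen j))) (pc (rowL (rowR j k)))) 660) 2 = true := by decide +kernel

theorem rows_tree : allBelow (fun k => Nat.beq k 192 || (Nat.blt (pget 2 3 ltGen k) 2 &&
    Nat.blt (pget 10 1023 ltPar k) 660 && Nat.blt (pget 4 15 ltDist (pget 10 1023 ltPar k)) (pget 4 15 ltDist k) &&
    Nat.beq (rowR (pget 2 3 ltGen k) (pget 10 1023 ltPar k)) k)) 660 = true := by decide +kernel

theorem psi_det : allBelow (fun k => decide ((slMat (psi k)).det = 1)) 660 = true := by decide +kernel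

theorem psi_mul : allBelow (fun j => allBelow (fun k => decide (slMat (psi k) * slMat (psi (sgen j)) = slMat (psi (rowR j k)) ∨
    slMat (psi k) * slMat (psi (sgen j)) = - slMat (psi (rowR j k)))) 660) 2 = true := by
  decide +kernel

theorem psi_id : slMat (psi 192) = 1 := by decide +kernel

theorem psi_ns : allBelow (fun k => Nat.beq k 192 || decide (¬ (slMat (psi k) 0 1 = 0 ∧ slMat (psi k) 1 0 = 0 ∧ slMat (psi k) 0 0 = slMat (psi k) 1 1))) 660 = true := by
  decide +kernel

theorem rows_cov : ∀ σ : ↥L11B, ∃ k, k < 660 ∧ σ.1.1 = ppm (rowL k) := by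
  refine list_complete rows_vld ?_ rows_asc card_L11B
  intro k hk hv
  have h1 := (allBelow_iff _ _).1 rows_mem k hk
  simp only [Bool.and_eq_true] at h1
  obtain ⟨⟨h1, h2⟩, h3⟩ := h1
  refine ⟨⟨?_, ?_⟩, ?_⟩
  · show ppm (rowL k) • (enc.finOf dM : Finset GolayPt) = _
    rw [img_finOf (vld_code hv), Nat.eq_of_beq_eq_true h1]
  · show ppm (rowL k) (pt 0) = pt 0
    rw [code_pt (vld_code hv) (by norm_num), Nat.eq_of_beq_eq_true h2]
  · show ppm (rowL k) (pt 5) = pt 5
    rw [code_pt (vld_code hv) (by norm_num), Nat.eq_of_beq_eq_true h3]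

theorem psi_det' (k : ℕ) (hk : k < 660) : (slMat (psi k)).det = 1 := by
  simpa using (allBelow_iff _ _).1 psi_det k hk

theorem base_iso : Nonempty (↥L11B ≃* Matrix.ProjectiveSpecialLinearGroup (Fin 2) (ZMod 11)) := by
  have hRlt : ∀ j, j < 2 → ∀ k, k < 660 → rowR j k < 660 := by
    intro j hj k hk
    have h1 := (allBelow_iff _ _).1 ((allBelow_iff _ _).1 rows_R j hj) k hk
    simp only [Bool.and_eq_true] at h1
    simpa [Nat.blt_eq] using h1.1
  have hslt : ∀ j, j < 2 → sgen j < 660 := by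
    intro j hj
    have h1 := (allBelow_iff _ _).1 rows_s j hj
    simpa [Nat.blt_eq] using h1
  have : Finite (Matrix.ProjectiveSpecialLinearGroup (Fin 2) (ZMod 11)) := Nat.finite_of_card_ne_zero (by rw [card_PSL11]; norm_num)
  refine nonempty_equiv_of_rows (B := L11B) (φ := fun k => phiC (psi k)) (T := fun j => phiC (psi (sgen j))) rows_vld rows_asc rows_cov
    rows_id (by norm_num) rows_s rows_R rows_tree (phiC_one (psi_det' _ (by norm_num)) psi_id)
    (fun j hj k hk => phiC_mul (psi_det' _ hk) (psi_det' _ (hslt j hj)) (psi_det' _ (hRlt j hj k hk))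
      (by simpa using (allBelow_iff _ _).1 ((allBelow_iff _ _).1 psi_mul j hj) k hk)) ?_ (by rw [card_L11B, card_PSL11])
  intro k hk h
  have h1 := (allBelow_iff _ _).1 psi_ns k hk
  simp only [Bool.or_eq_true] at h1
  rcases h1 with h1 | h1
  · exact Nat.eq_of_beq_eq_true h1
  · exact absurd (phiC_scalar (psi_det' k hk) h) (of_decide_eq_true h1)

/-- In the 3-transitive action of the smallest Mathieu group on the complementary dodecad, a point stabiliser is isomorphic to PSL(2, 11). -/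
theorem result (d : Finset Cfsg.GolayPt) (hd : d ∈ Cfsg.dodecads) (p q : Cfsg.GolayPt) (hp : p ∈ d) (hq : q ∉ d) : Nonempty (↥(MulAction.stabilizer Cfsg.M24 d ⊓ MulAction.stabilizer Cfsg.M24 p ⊓ MulAction.stabilizer Cfsg.M24 q) ≃* Matrix.ProjectiveSpecialLinearGroup (Fin 2) (ZMod 11)) := by
  obtain ⟨q', hq', hq1, -⟩ := exists_third (S := dᶜ) (by rw [card_compl_dodecad hd]; norm_num) q q
  obtain ⟨c, h1, h2, h3, -⟩ := exists_pair_normal hd hp hq (Finset.mem_compl.1 hq') hq1.symm
  have hiff : ∀ x : ↥M24, x ∈ L11B ↔ c * x * c⁻¹ ∈ MulAction.stabilizer Cfsg.M24 d ⊓ MulAction.stabilizer Cfsg.M24 p ⊓ MulAction.stabilizer Cfsg.M24 q := by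
    intro x
    rw [← h1, ← h2, ← h3]
    show _ ↔ _ ∈ MulAction.stabilizer Cfsg.M24 (c • (enc.finOf dM : Finset GolayPt)) ⊓ MulAction.stabilizer Cfsg.M24 (c • pt 0) ⊓ MulAction.stabilizer Cfsg.M24 (c • pt 5)
    simp only [Subgroup.mem_inf, MulAction.mem_stabilizer_iff, mul_smul, inv_smul_smul, smul_left_cancel_iff]
  obtain ⟨e⟩ := base_iso
  exact ⟨(conjEquivS _ _ c hiff).symm.trans e⟩

end Cfsg.Agent.S1601
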