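import Cfsg.Statements.S1602
import Mathlib
import Cfsg.Agent.Lib.M24.Flag2
import Cfsg.Agent.Lib.M24.S5RowsData

set_option autoImplicit false
open scoped Pointwise
open Cfsg

namespace Cfsg.Agent.S1602

open Cfsg.Agent.Lib.Compute Cfsg.Agent.Lib.Golay Cfsg.Agent.Lib.M24

/-- A row of the table. -/
noncomputable abbrev rowL (k : ℕ) : ℕ := tbl120 s5L k
/-- Right multiplication. -/
noncomputable abbrev rowR (j k : ℕ) : ℕ := pget 7 127 s5R (Nat.add (Nat.mul j 120) k)
/-- The generators. -/
noncomputable abbrev sgen (j : ℕ) : ℕ := pget 7 127 9630 j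
/-- The permutation code of a row. -/
noncomputable abbrev psi (k : ℕ) : ℕ := pget 15 32767 s5Psi k

/-- A function from a code. -/
def permF (c : ℕ) (i : Fin 5) : Fin 5 :=
  ⟨Nat.mod (Nat.land (Nat.shiftRight c (Nat.mul 3 i.val)) 7) 5, Nat.mod_lt _ (by norm_num)⟩

/-- A permutation from a code. -/
noncomputable def permOf (c : ℕ) : Equiv.Perm (Fin 5) :=
  if h : Function.Bijective (permF c) then Equiv.ofBijective _ h else 1

theorem permOf_apply {c : ℕ} (h : Function.Bijective (permF c)) (i : Fin 5) : permOf c i = permF c i := by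
  unfold permOf
  rw [dif_pos h]
  rfl

theorem permOf_mul {a b c : ℕ} (ha : Function.Bijective (permF a)) (hb : Function.Bijective (permF b))
    (hc : Function.Bijective (permF c)) (h : ∀ i, permF a (permF b i) = permF c i) : permOf a * permOf b = permOf c := by
  ext i
  rw [Equiv.Perm.mul_apply, permOf_apply hb, permOf_apply ha, permOf_apply hc, h]

theorem rows_vld : allBelow (fun k => vld (rowL k)) 120 = true := by decide +kernel

theorem rows_asc : allBelow (fun k => Nat.blt (keyOf (pc (rowL k))) (keyOf (pc (rowL (k + 1))))) (120 - 1) = true := by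
  decide +kernel

theorem rows_mem : allBelow (fun k => Nat.beq (imgMask (pc (rowL k)) dM 24) dM && Nat.beq (pc (rowL k) 0) 0 && Nat.beq (imgMask (pc (rowL k)) 160 24) 160) 120 = true := by
  decide +kernel

theorem rows_id : rowId (pc (rowL 12)) = true := by decide +kernel

theorem rows_s : allBelow (fun j => Nat.blt (sgen j) 120) 2 = true := by decide +kernel

theorem rows_R : allBelow (fun j => allBelow (fun k => Nat.blt (rowR j k) 120 &&
    rowMul (pc (rowL k)) (pc (rowL (sgen j))) (pc (rowL (rowR j k)))) 120) 2 = true := by decide +kernel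

theorem rows_tree : allBelow (fun k => Nat.beq k 12 || (Nat.blt (pget 2 3 s5Gen k) 2 &&
    Nat.blt (pget 7 127 s5Par k) 120 && Nat.blt (pget 4 15 s5Dist (pget 7 127 s5Par k)) (pget 4 15 s5Dist k) &&
    Nat.beq (rowR (pget 2 3 s5Gen k) (pget 7 127 s5Par k)) k)) 120 = true := by decide +kernel

theorem psi_bij : allBelow (fun k => decide (Function.Bijective (permF (psi k)))) 120 = true := by decide +kernel

theorem psi_mul : allBelow (fun j => allBelow (fun k => decide (∀ i, permF (psi k) (permF (psi (sgen j)) i) = permF (psi (rowR j k)) i)) 120) 2 = true := by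
  decide +kernel

theorem psi_id : ∀ i, permF (psi 12) i = i := by decide +kernel

theorem psi_ns : allBelow (fun k => Nat.beq k 12 || decide (¬ ∀ i, permF (psi k) i = i)) 120 = true := by
  decide +kernel

theorem pair_mask : (enc.finOf 160 : Finset GolayPt) = {pt 5, pt 7} := by
  ext a
  obtain ⟨i, hi, rfl⟩ : ∃ i, i < 24 ∧ a = pt i := ⟨idx a, idx_lt a, (pt_idx a).symm⟩
  rw [mem_finOf_ptR hi]
  simp only [Finset.mem_insert, Finset.mem_singleton]
  have h5 : pt i = pt 5 ↔ i = 5 := ⟨fun h => pt_inj hi (by norm_num) h, fun h => by rw [h]⟩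
  have h7 : pt i = pt 7 ↔ i = 7 := ⟨fun h => pt_inj hi (by norm_num) h, fun h => by rw [h]⟩
  rw [h5, h7]
  revert i
  decide +kernel

theorem rows_cov : ∀ σ : ↥S5B, ∃ k, k < 120 ∧ σ.1.1 = ppm (rowL k) := by
  refine list_complete rows_vld ?_ rows_asc card_S5B
  intro k hk hv
  have h1 := (allBelow_iff _ _).1 rows_mem k hk
  simp only [Bool.and_eq_true] at h1
  obtain ⟨⟨h1, h2⟩, h3⟩ := h1
  refine ⟨⟨?_, ?_⟩, ?_⟩
  · show ppm (rowL k) • (enc.finOf dM : Finset GolayPt) = _
    rw [img_finOf (vld_code hv), Nat.eq_of_beq_eq_true h1]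
  · show ppm (rowL k) (pt 0) = pt 0
    rw [code_pt (vld_code hv) (by norm_num), Nat.eq_of_beq_eq_true h2]
  · show ppm (rowL k) • ({pt 5, pt 7} : Finset GolayPt) = _
    rw [← pair_mask, img_finOf (vld_code hv), Nat.eq_of_beq_eq_true h3]

theorem psi_bij' (k : ℕ) (hk : k < 120) : Function.Bijective (permF (psi k)) := by
  simpa using (allBelow_iff _ _).1 psi_bij k hk

theorem base_iso : Nonempty (↥S5B ≃* Equiv.Perm (Fin 5)) := by
  have hRlt : ∀ j, j < 2 → ∀ k, k < 120 → rowR j k < 120 := by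
    intro j hj k hk
    have h1 := (allBelow_iff _ _).1 ((allBelow_iff _ _).1 rows_R j hj) k hk
    simp only [Bool.and_eq_true] at h1
    simpa [Nat.blt_eq] using h1.1
  have hslt : ∀ j, j < 2 → sgen j < 120 := by
    intro j hj
    have h1 := (allBelow_iff _ _).1 rows_s j hj
    simpa [Nat.blt_eq] using h1
  have hc : Nat.card (Equiv.Perm (Fin 5)) = 120 := by
    rw [Nat.card_eq_fintype_card, Fintype.card_perm, Fintype.card_fin]
    rfl
  refine nonempty_equiv_of_rows (B := S5B) (φ := fun k => permOf (psi k)) (T := fun j => permOf (psi (sgen j))) rows_vld rows_asc rows_cov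
    rows_id (by norm_num) rows_s rows_R rows_tree ?_
    (fun j hj k hk => permOf_mul (psi_bij' _ hk) (psi_bij' _ (hslt j hj)) (psi_bij' _ (hRlt j hj k hk))
      (by simpa using (allBelow_iff _ _).1 ((allBelow_iff _ _).1 psi_mul j hj) k hk)) ?_ (by rw [card_S5B, hc])
  · ext i
    rw [permOf_apply (psi_bij' _ (by norm_num)), psi_id]
    rfl
  · intro k hk h
    have h1 := (allBelow_iff _ _).1 psi_ns k hk
    simp only [Bool.or_eq_true] at h1
    rcases h1 with h1 | h1
    · exact Nat.eq_of_beq_eq_true h1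
    · refine absurd (fun i => ?_) (of_decide_eq_true h1)
      rw [← permOf_apply (psi_bij' k hk), h]
      rfl

/-- In the 12-point action of the smallest Mathieu group the setwise stabiliser of a pair is isomorphic to the symmetric group of degree 5. -/
theorem result (d : Finset Cfsg.GolayPt) (hd : d ∈ Cfsg.dodecads) (p q q' : Cfsg.GolayPt) (hp : p ∈ d) (hq : q ∉ d) (hq' : q' ∉ d) (hqq' : q ≠ q') : Nonempty (↥(MulAction.stabilizer Cfsg.M24 d ⊓ MulAction.stabilizer Cfsg.M24 p ⊓ MulAction.stabilizer Cfsg.M24 ({q, q'} : Finset Cfsg.GolayPt)) ≃* Equiv.Perm (Fin 5)) := by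
  obtain ⟨c, h1, h2, h3, h4⟩ := exists_pair_normal hd hp hq hq' hqq'
  have h5 : c • ({pt 5, pt 7} : Finset GolayPt) = {q, q'} := by
    ext z
    simp only [Finset.mem_smul_finset, Finset.mem_insert, Finset.mem_singleton]
    constructor
    · rintro ⟨y, rfl | rfl, rfl⟩
      · exact Or.inl h3
      · exact Or.inr h4
    · rintro (rfl | rfl)
      · exact ⟨_, Or.inl rfl, h3⟩
      · exact ⟨_, Or.inr rfl, h4⟩
  have hiff : ∀ x : ↥M24, x ∈ S5B ↔ c * x * c⁻¹ ∈ MulAction.stabilizer Cfsg.M24 d ⊓ MulAction.stabilizer Cfsg.M24 p ⊓ MulAction.stabilizer Cfsg.M24 ({q, q'} : Finset Cfsg.GolayPt) := by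
    intro x
    rw [← h1, ← h2, ← h5]
    show _ ↔ _ ∈ MulAction.stabilizer Cfsg.M24 (c • (enc.finOf dM : Finset GolayPt)) ⊓ MulAction.stabilizer Cfsg.M24 (c • pt 0) ⊓ MulAction.stabilizer Cfsg.M24 (c • ({pt 5, pt 7} : Finset GolayPt))
    simp only [Subgroup.mem_inf, MulAction.mem_stabilizer_iff, mul_smul, inv_smul_smul, smul_left_cancel_iff]
  obtain ⟨e⟩ := base_iso
  exact ⟨(conjEquivS _ _ c hiff).symm.trans e⟩

end Cfsg.Agent.S1602
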