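import Cfsg.Statements.S1603
import Mathlib
import Cfsg.Agent.Lib.M24.Flag2
import Cfsg.Agent.Lib.M24.CzRowsData

set_option autoImplicit false
open scoped Pointwise
open Cfsg

namespace Cfsg.Agent.S1603

open Cfsg.Agent.Lib.Compute Cfsg.Agent.Lib.Golay Cfsg.Agent.Lib.M24

/-- A row of the table. -/
noncomputable abbrev rowL (k : ℕ) : ℕ := tbl120 czL k
/-- Right multiplication. -/
noncomputable abbrev rowR (j k : ℕ) : ℕ := pget 6 63 czR (Nat.add (Nat.mul j 48) k)
/-- The generators. -/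
noncomputable abbrev sgen (j : ℕ) : ℕ := pget 6 63 2455 j
/-- The matrix code of a row. -/
noncomputable abbrev psi (k : ℕ) : ℕ := pget 8 255 czPsi k

theorem rows_vld : allBelow (fun k => vld (rowL k)) 48 = true := by decide +kernel

theorem rows_asc : allBelow (fun k => Nat.blt (keyOf (pc (rowL k))) (keyOf (pc (rowL (k + 1))))) (48 - 1) = true := by
  decide +kernel

theorem rows_mem : allBelow (fun k => Nat.beq (imgMask (pc (rowL k)) dM 24) dM && Nat.beq (pc (rowL k) 0) 0 &&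
    eqF (fun i => pc czY (pc (rowL k) i)) (fun i => pc (rowL k) (pc czY i))) 48 = true := by
  decide +kernel

theorem rows_id : rowId (pc (rowL 2)) = true := by decide +kernel

theorem rows_s : allBelow (fun j => Nat.blt (sgen j) 48) 2 = true := by decide +kernel

theorem rows_R : allBelow (fun j => allBelow (fun k => Nat.blt (rowR j k) 48 &&
    rowMul (pc (rowL k)) (pc (rowL (sgen j))) (pc (rowL (rowR j k)))) 48) 2 = true := by decide +kernel

theorem rows_tree : allBelow (fun k => Nat.beq k 2 || (Nat.blt (pget 2 3 czGen k) 2 &&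
    Nat.blt (pget 6 63 czPar k) 48 && Nat.blt (pget 3 7 czDist (pget 6 63 czPar k)) (pget 3 7 czDist k) &&
    Nat.beq (rowR (pget 2 3 czGen k) (pget 6 63 czPar k)) k)) 48 = true := by decide +kernel

theorem psi_det : allBelow (fun k => decide ((glMat (psi k)).det ≠ 0)) 48 = true := by decide +kernel

theorem psi_mul : allBelow (fun j => allBelow (fun k => decide (glMat (psi k) * glMat (psi (sgen j)) = glMat (psi (rowR j k)))) 48) 2 = true := by
  decide +kernel

theorem psi_id : glMat (psi 2) = 1 := by decide +kernel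

theorem psi_ns : allBelow (fun k => Nat.beq k 2 || decide (glMat (psi k) ≠ 1)) 48 = true := by
  decide +kernel

theorem cov_chk : allBelow (fun u => allBelow (fun v => !(tb dM u && tb dM v && !(Nat.beq (pc czY u) u) && !(Nat.beq (pc czY v) v) && !(Nat.beq u v) && !(Nat.beq v (pc czY u))) ||
    anyBelow (fun k => Nat.beq (pc (rowL k) 1) u && Nat.beq (pc (rowL k) 3) v) 48) 24) 24 = true := by decide +kernel

theorem y_vld : vld czY = true := by decide +kernel

theorem y_vals : Nat.beq (imgMask (pc czY) dM 24) dM = true ∧ pc czY 0 = 0 ∧ pc czY 1 = 2 ∧ pc czY 2 = 1 ∧ pc czY 3 = 4 ∧ pc czY 4 = 3 := by decide +kernel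

/-- The base involution. -/
noncomputable def gY : ↥M24 := gOf y_vld

theorem gY_pt0 : gY.1 (pt 0) = pt 0 := by
  show ppm czY (pt 0) = pt 0
  rw [code_pt (vld_code y_vld) (by norm_num), y_vals.2.1]
theorem gY_pt1 : gY.1 (pt 1) = pt 2 := by
  show ppm czY (pt 1) = pt 2
  rw [code_pt (vld_code y_vld) (by norm_num), y_vals.2.2.1]
theorem gY_pt2 : gY.1 (pt 2) = pt 1 := by
  show ppm czY (pt 2) = pt 1
  rw [code_pt (vld_code y_vld) (by norm_num), y_vals.2.2.2.1]
theorem gY_pt3 : gY.1 (pt 3) = pt 4 := by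
  show ppm czY (pt 3) = pt 4
  rw [code_pt (vld_code y_vld) (by norm_num), y_vals.2.2.2.2.1]
theorem gY_pt4 : gY.1 (pt 4) = pt 3 := by
  show ppm czY (pt 4) = pt 3
  rw [code_pt (vld_code y_vld) (by norm_num), y_vals.2.2.2.2.2]

theorem gY_d : gY • (enc.finOf dM : Finset GolayPt) = enc.finOf dM := by
  show ppm czY • (enc.finOf dM : Finset GolayPt) = _
  rw [img_finOf (vld_code y_vld), Nat.eq_of_beq_eq_true y_vals.1]

theorem ptb_mem : ∀ i, i < 5 → pt i ∈ (enc.finOf dM : Finset GolayPt) := by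
  intro i hi
  refine pt_mem_finOf i dM (by omega) ?_
  revert i
  decide +kernel

/-- The base embedding. -/
noncomputable def xB : Fin 5 ↪ GolayPt := ⟨fun i => pt i.val, fun a b h => Fin.ext (pt_inj (by omega) (by omega) h)⟩

/-- Rigidity. -/
theorem rigid_base {σ τ : ↥M24} (hσ : σ • (enc.finOf dM : Finset GolayPt) = enc.finOf dM) (hτ : τ • (enc.finOf dM : Finset GolayPt) = enc.finOf dM)
    (h : ∀ i, i < 5 → σ.1 (pt i) = τ.1 (pt i)) : σ = τ := by
  have hin : ∀ a ∈ (enc.finOf dM : Finset GolayPt), τ.1 a ∈ (enc.finOf dM : Finset GolayPt) := by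
    intro a ha
    rw [← hτ]
    exact (mem_smul_iff τ a _).2 ha
  have key := sharply_five_transitive (d := enc.finOf dM) D0_mem xB (xB.trans τ.1.toEmbedding)
    (fun i => ptb_mem i.1 i.2) (fun i => hin _ (ptb_mem i.1 i.2))
  have := key.unique (y₁ := ⟨σ, hσ⟩) (y₂ := ⟨τ, hτ⟩) (fun i => h i.1 i.2) (fun i => rfl)
  exact congrArg Subtype.val this

theorem exists_five {s : Finset GolayPt} (hs : 5 ≤ s.card) : ∃ x : Fin 5 ↪ GolayPt, ∀ i, x i ∈ s := by
  have h : Fintype.card (Fin 5) ≤ Fintype.card ↥s := by simpa using hs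
  obtain ⟨e⟩ := Function.Embedding.nonempty_of_card_le h
  exact ⟨e.trans (Function.Embedding.subtype _), fun i => (e i).2⟩

theorem inj5 {α : Type*} {a0 a1 a2 a3 a4 : α} (h01 : a0 ≠ a1) (h02 : a0 ≠ a2) (h03 : a0 ≠ a3) (h04 : a0 ≠ a4) (h12 : a1 ≠ a2)
    (h13 : a1 ≠ a3) (h14 : a1 ≠ a4) (h23 : a2 ≠ a3) (h24 : a2 ≠ a4) (h34 : a3 ≠ a4) : Function.Injective ![a0, a1, a2, a3, a4] := by
  intro u v h
  fin_cases u <;> fin_cases v <;> first | rfl | (exfalso; simp at h; simp_all)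

/-- An involution fixing the base dodecad and the point is conjugate to the base involution. -/
theorem invol_normal {X : ↥M24} (h1 : X • (enc.finOf dM : Finset GolayPt) = enc.finOf dM) (h2 : X.1 (pt 0) = pt 0) (h3 : X * X = 1) (h4 : X ≠ 1) :
    ∃ g : ↥M24, g • (enc.finOf dM : Finset GolayPt) = enc.finOf dM ∧ g.1 (pt 0) = pt 0 ∧ g * X * g⁻¹ = gY := by
  classical
  have hin : ∀ (τ : ↥M24), τ • (enc.finOf dM : Finset GolayPt) = enc.finOf dM → ∀ a ∈ (enc.finOf dM : Finset GolayPt), τ.1 a ∈ (enc.finOf dM : Finset GolayPt) := by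
    intro τ hτ a ha
    rw [← hτ]
    exact (mem_smul_iff τ a _).2 ha
  have hXX : ∀ a, X.1 (X.1 a) = a := fun a => by
    have : (X * X).1 a = a := by rw [h3]; rfl
    exact this
  set D : Finset GolayPt := enc.finOf dM with hD
  have hcD : D.card = 12 := dM_card
  -- the fixed points
  have hF : (D.filter (fun a => X.1 a = a)).card < 5 := by
    by_contra hcon
    push Not at hcon
    obtain ⟨x, hx⟩ := exists_five hcon
    have hxD : ∀ i, x i ∈ D := fun i => (Finset.mem_filter.1 (hx i)).1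
    have hxF : ∀ i, X.1 (x i) = x i := fun i => (Finset.mem_filter.1 (hx i)).2
    have key := sharply_five_transitive (d := D) D0_mem x x hxD hxD
    have := key.unique (y₁ := ⟨X, h1⟩) (y₂ := ⟨1, by simp⟩) hxF (fun i => rfl)
    exact h4 (congrArg Subtype.val this)
  have hM : 8 ≤ (D.filter (fun a => ¬ X.1 a = a)).card := by
    have := Finset.card_filter_add_card_filter_not (s := D) (fun a => X.1 a = a)
    omega
  obtain ⟨a, ha⟩ : ∃ a, a ∈ D.filter (fun a => ¬ X.1 a = a) := Finset.card_pos.1 (by omega)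
  obtain ⟨b, hb, hba, hbXa⟩ := exists_third (S := D.filter (fun a => ¬ X.1 a = a)) (by omega) a (X.1 a)
  obtain ⟨haD, haX⟩ := Finset.mem_filter.1 ha
  obtain ⟨hbD, hbX⟩ := Finset.mem_filter.1 hb
  have hp0 : pt 0 ∈ D := pt0_mem
  have ha0 : a ≠ pt 0 := fun h => haX (by rw [h]; exact h2)
  have hb0 : b ≠ pt 0 := fun h => hbX (by rw [h]; exact h2)
  have hXa0 : X.1 a ≠ pt 0 := fun h => ha0 (by
    have := hXX a
    rw [h, h2] at this
    exact this.symm)
  have hXb0 : X.1 b ≠ pt 0 := fun h => hb0 (by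
    have := hXX b
    rw [h, h2] at this
    exact this.symm)
  have hXba : X.1 b ≠ a := fun h => hbXa (by rw [← h, hXX])
  have hXbXa : X.1 b ≠ X.1 a := fun h => hba (X.1.injective h)
  let x : Fin 5 ↪ GolayPt := ⟨![pt 0, a, X.1 a, b, X.1 b], inj5 ha0.symm hXa0.symm hb0.symm hXb0.symm (Ne.symm haX) hba.symm hXba.symm hbXa.symm hXbXa.symm (Ne.symm hbX)⟩
  obtain ⟨⟨g, hg⟩, hgx, -⟩ := sharply_five_transitive (d := D) D0_mem x xB
    (by
      intro i
      fin_cases i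
      · exact hp0
      · exact haD
      · exact hin X h1 _ haD
      · exact hbD
      · exact hin X h1 _ hbD) (fun i => ptb_mem i.1 i.2)
  have hg' : g • D = D := hg
  have e0 : g.1 (pt 0) = pt 0 := hgx 0
  have e1 : g.1 a = pt 1 := hgx 1
  have e2 : g.1 (X.1 a) = pt 2 := hgx 2
  have e3 : g.1 b = pt 3 := hgx 3
  have e4 : g.1 (X.1 b) = pt 4 := hgx 4
  refine ⟨g, hg', e0, ?_⟩
  have hconj : ∀ u v : GolayPt, g.1 u = v → (g * X * g⁻¹).1 v = g.1 (X.1 u) := by
    intro u v h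
    rw [← h]
    show g.1 (X.1 (g.1⁻¹ (g.1 u))) = _
    have e : g.1⁻¹ (g.1 u) = u := Equiv.symm_apply_apply _ _
    rw [e]
  apply rigid_base
  · rw [mul_smul, mul_smul, inv_smul_eq_iff.2 hg'.symm, h1, hg']
  · exact gY_d
  · intro i hi
    have : i = 0 ∨ i = 1 ∨ i = 2 ∨ i = 3 ∨ i = 4 := by omega
    rcases this with rfl | rfl | rfl | rfl | rfl
    · rw [hconj _ _ e0, h2, e0, gY_pt0]
    · rw [hconj _ _ e1, e2, gY_pt1]
    · rw [hconj _ _ e2, hXX, e1, gY_pt2]
    · rw [hconj _ _ e3, e4, gY_pt3]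
    · rw [hconj _ _ e4, hXX, e3, gY_pt4]

/-- The centraliser at the base. -/
noncomputable abbrev CB : Subgroup ↥M24 := Subgroup.centralizer {gY} ⊓ M11B

theorem psi_det' (k : ℕ) (hk : k < 48) : (glMat (psi k)).det ≠ 0 := by
  simpa using (allBelow_iff _ _).1 psi_det k hk

theorem row_props {k : ℕ} (hk : k < 48) : ∃ hv : vld (rowL k) = true, gOf hv ∈ CB := by
  have hv := (allBelow_iff _ _).1 rows_vld k hk
  have h1 := (allBelow_iff _ _).1 rows_mem k hk
  simp only [Bool.and_eq_true] at h1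
  obtain ⟨⟨h1, h2⟩, h3⟩ := h1
  refine ⟨hv, Subgroup.mem_centralizer_singleton_iff.2 ?_, ?_, ?_⟩
  · apply Subtype.ext
    exact ((eqF_iff (isCode_mul (vld_code y_vld) (vld_code hv)) (isCode_mul (vld_code hv) (vld_code y_vld))).1 h3).symm
  · show ppm (rowL k) • (enc.finOf dM : Finset GolayPt) = _
    rw [img_finOf (vld_code hv), Nat.eq_of_beq_eq_true h1]
  · show ppm (rowL k) (pt 0) = pt 0
    rw [code_pt (vld_code hv) (by norm_num), Nat.eq_of_beq_eq_true h2]

theorem rows_cov : ∀ σ : ↥CB, ∃ k, k < 48 ∧ σ.1.1 = ppm (rowL k) := by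
  rintro ⟨σ, hσ1, hσ2, hσ3⟩
  have hσd : σ • (enc.finOf dM : Finset GolayPt) = enc.finOf dM := hσ2
  have hσ0 : σ.1 (pt 0) = pt 0 := hσ3
  have hcomm : ∀ a, gY.1 (σ.1 a) = σ.1 (gY.1 a) := by
    intro a
    have h := Subgroup.mem_centralizer_singleton_iff.1 hσ1
    have h1 : (gY * σ).1 a = (σ * gY).1 a := by rw [h]
    exact h1
  have hin : ∀ a ∈ (enc.finOf dM : Finset GolayPt), σ.1 a ∈ (enc.finOf dM : Finset GolayPt) := by
    intro a ha
    rw [← hσd]
    exact (mem_smul_iff σ a _).2 ha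
  obtain ⟨u, hu, hu'⟩ : ∃ u, u < 24 ∧ σ.1 (pt 1) = pt u := ⟨idx (σ.1 (pt 1)), idx_lt _, (pt_idx _).symm⟩
  obtain ⟨v, hv, hv'⟩ : ∃ v, v < 24 ∧ σ.1 (pt 3) = pt v := ⟨idx (σ.1 (pt 3)), idx_lt _, (pt_idx _).symm⟩
  have hY : ∀ {w}, w < 24 → gY.1 (pt w) = pt (pc czY w) := fun hw => code_pt (vld_code y_vld) hw
  have hYlt : ∀ {w}, w < 24 → pc czY w < 24 := fun hw => code_lt (vld_code y_vld) hw
  have e2 : σ.1 (pt 2) = pt (pc czY u) := by
    rw [← gY_pt1, ← hcomm, hu', hY hu]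
  have e4 : σ.1 (pt 4) = pt (pc czY v) := by
    rw [← gY_pt3, ← hcomm, hv', hY hv]
  have hne : ∀ {i j}, i < 24 → j < 24 → i ≠ j → ∀ {a b}, a < 24 → b < 24 → σ.1 (pt i) = pt a → σ.1 (pt j) = pt b → a ≠ b := by
    intro i j hi hj hij a b ha hb h1 h2 e
    subst e
    exact hij (pt_inj hi hj (σ.1.injective (h1.trans h2.symm)))
  have c1 : tb dM u = true := (mem_finOf_ptR hu).1 (hu' ▸ hin _ (ptb_mem 1 (by norm_num)))
  have c2 : tb dM v = true := (mem_finOf_ptR hv).1 (hv' ▸ hin _ (ptb_mem 3 (by norm_num)))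
  have c3 : pc czY u ≠ u := (hne (i := 2) (j := 1) (by norm_num) (by norm_num) (by norm_num) (hYlt hu) hu e2 hu')
  have c4 : pc czY v ≠ v := (hne (i := 4) (j := 3) (by norm_num) (by norm_num) (by norm_num) (hYlt hv) hv e4 hv')
  have c5 : u ≠ v := (hne (i := 1) (j := 3) (by norm_num) (by norm_num) (by norm_num) hu hv hu' hv')
  have c6 : v ≠ pc czY u := (hne (i := 3) (j := 2) (by norm_num) (by norm_num) (by norm_num) hv (hYlt hu) hv' e2)
  have hb : ∀ {a b : ℕ}, a ≠ b → Nat.beq a b = false := by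
    intro a b hab
    cases h : Nat.beq a b
    · rfl
    · exact absurd (Nat.eq_of_beq_eq_true h) hab
  have h := (allBelow_iff _ _).1 ((allBelow_iff _ _).1 cov_chk u hu) v hv
  rw [c1, c2, hb c3, hb c4, hb c5, hb c6] at h
  simp only [Bool.and_true, Bool.not_false, Bool.not_true, Bool.false_or] at h
  obtain ⟨k, hk, hk'⟩ := (anyBelow_iff _ _).1 h
  simp only [Bool.and_eq_true] at hk'
  refine ⟨k, hk, ?_⟩
  obtain ⟨hv0, hmem⟩ := row_props hk
  have hτ := hmem
  obtain ⟨hτ1, hτ2, hτ3⟩ := hτ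
  have htd : gOf hv0 • (enc.finOf dM : Finset GolayPt) = enc.finOf dM := hτ2
  have ht0 : (gOf hv0).1 (pt 0) = pt 0 := hτ3
  have hcomm' : ∀ a, gY.1 ((gOf hv0).1 a) = (gOf hv0).1 (gY.1 a) := by
    intro a
    have h := Subgroup.mem_centralizer_singleton_iff.1 hτ1
    have h1 : (gY * gOf hv0).1 a = (gOf hv0 * gY).1 a := by rw [h]
    exact h1
  have t1 : (gOf hv0).1 (pt 1) = pt u := by
    show ppm (rowL k) (pt 1) = pt u
    rw [code_pt (vld_code hv0) (by norm_num), Nat.eq_of_beq_eq_true hk'.1]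
  have t3 : (gOf hv0).1 (pt 3) = pt v := by
    show ppm (rowL k) (pt 3) = pt v
    rw [code_pt (vld_code hv0) (by norm_num), Nat.eq_of_beq_eq_true hk'.2]
  have t2 : (gOf hv0).1 (pt 2) = pt (pc czY u) := by
    rw [← gY_pt1, ← hcomm', t1, hY hu]
  have t4 : (gOf hv0).1 (pt 4) = pt (pc czY v) := by
    rw [← gY_pt3, ← hcomm', t3, hY hv]
  have : σ = gOf hv0 := by
    apply rigid_base hσd htd
    intro i hi
    have : i = 0 ∨ i = 1 ∨ i = 2 ∨ i = 3 ∨ i = 4 := by omega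
    rcases this with rfl | rfl | rfl | rfl | rfl
    · rw [hσ0, ht0]
    · rw [hu', t1]
    · rw [e2, t2]
    · rw [hv', t3]
    · rw [e4, t4]
  show σ.1 = _
  rw [this]
  rfl

theorem base_iso : Nonempty (↥CB ≃* GL (Fin 2) (ZMod 3)) := by
  have hRlt : ∀ j, j < 2 → ∀ k, k < 48 → rowR j k < 48 := by
    intro j hj k hk
    have h1 := (allBelow_iff _ _).1 ((allBelow_iff _ _).1 rows_R j hj) k hk
    simp only [Bool.and_eq_true] at h1
    simpa [Nat.blt_eq] using h1.1
  have hslt : ∀ j, j < 2 → sgen j < 48 := by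
    intro j hj
    have h1 := (allBelow_iff _ _).1 rows_s j hj
    simpa [Nat.blt_eq] using h1
  have hc : Nat.card ↥CB = 48 := card_of_rows rows_vld rows_asc (fun k hk hv => (row_props hk).2) rows_cov
  refine nonempty_equiv_of_rows (B := CB) (φ := fun k => glOf (psi k)) (T := fun j => glOf (psi (sgen j))) rows_vld rows_asc rows_cov
    rows_id (by norm_num) rows_s rows_R rows_tree (glOf_one (psi_det' _ (by norm_num)) psi_id)
    (fun j hj k hk => glOf_mul (psi_det' _ hk) (psi_det' _ (hslt j hj)) (psi_det' _ (hRlt j hj k hk))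
      (by simpa using (allBelow_iff _ _).1 ((allBelow_iff _ _).1 psi_mul j hj) k hk)) ?_ (by rw [hc, card_GL23])
  intro k hk h
  have h1 := (allBelow_iff _ _).1 psi_ns k hk
  simp only [Bool.or_eq_true] at h1
  rcases h1 with h1 | h1
  · exact Nat.eq_of_beq_eq_true h1
  · refine absurd ?_ (of_decide_eq_true h1)
    rw [← coe_glOf (psi_det' k hk), h]
    rfl

/-- Conjugating a centraliser. -/
theorem centralizer_conj_equiv {G : Type*} [Group G] (H K : Subgroup G) (c : G) (x : ↥H) (y : G)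
    (hHK : ∀ z, z ∈ H ↔ c * z * c⁻¹ ∈ K) (hy : c * x.1 * c⁻¹ = y) :
    Nonempty (↥(Subgroup.centralizer ({x} : Set ↥H)) ≃* ↥(Subgroup.centralizer {y} ⊓ K)) := by
  have hcomm : ∀ z : G, y * z = z * y ↔ x.1 * (c⁻¹ * z * c) = (c⁻¹ * z * c) * x.1 := by
    intro z
    rw [← hy]
    constructor
    · intro h
      have h1 : c⁻¹ * ((c * x.1 * c⁻¹) * z) * c = c⁻¹ * (z * (c * x.1 * c⁻¹)) * c := by rw [h]
      have e1 : c⁻¹ * ((c * x.1 * c⁻¹) * z) * c = x.1 * (c⁻¹ * z * c) := by group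
      have e2 : c⁻¹ * (z * (c * x.1 * c⁻¹)) * c = (c⁻¹ * z * c) * x.1 := by group
      rw [← e1, ← e2, h1]
    · intro h
      have h1 : c * (x.1 * (c⁻¹ * z * c)) * c⁻¹ = c * ((c⁻¹ * z * c) * x.1) * c⁻¹ := by rw [h]
      have e1 : c * (x.1 * (c⁻¹ * z * c)) * c⁻¹ = (c * x.1 * c⁻¹) * z := by group
      have e2 : c * ((c⁻¹ * z * c) * x.1) * c⁻¹ = z * (c * x.1 * c⁻¹) := by group
      rw [← e1, ← e2, h1]
  have hback : ∀ z : G, z ∈ K → c⁻¹ * z * c ∈ H := by
    intro z hz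
    rw [hHK]
    have : c * (c⁻¹ * z * c) * c⁻¹ = z := by group
    rw [this]
    exact hz
  refine ⟨
    { toFun := fun z => ⟨c * z.1.1 * c⁻¹, ?_, (hHK _).1 z.1.2⟩
      invFun := fun w => ⟨⟨c⁻¹ * w.1 * c, hback _ w.2.2⟩, ?_⟩
      left_inv := fun z => ?_
      right_inv := fun w => ?_
      map_mul' := fun a b => ?_ }⟩
  · show c * z.1.1 * c⁻¹ ∈ Subgroup.centralizer {y}
    rw [Subgroup.mem_centralizer_singleton_iff, eq_comm, hcomm]
    have h := Subgroup.mem_centralizer_singleton_iff.1 z.2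
    have e : c⁻¹ * (c * z.1.1 * c⁻¹) * c = z.1.1 := by group
    rw [e]
    exact (congrArg Subtype.val h).symm
  · rw [Subgroup.mem_centralizer_singleton_iff]
    apply Subtype.ext
    exact ((hcomm _).1 (Subgroup.mem_centralizer_singleton_iff.1 (show w.1 ∈ Subgroup.centralizer {y} from w.2.1)).symm).symm
  · apply Subtype.ext
    apply Subtype.ext
    show c⁻¹ * (c * z.1.1 * c⁻¹) * c = z.1.1
    group
  · apply Subtype.ext
    show c * (c⁻¹ * w.1 * c) * c⁻¹ = w.1
    group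
  · apply Subtype.ext
    show c * (a.1.1 * b.1.1) * c⁻¹ = (c * a.1.1 * c⁻¹) * (c * b.1.1 * c⁻¹)
    group

/-- Involution centralisers in the smallest Mathieu group are isomorphic to GL(2, 3). -/
theorem result (d : Finset Cfsg.GolayPt) (hd : d ∈ Cfsg.dodecads) (p : Cfsg.GolayPt) (hp : p ∈ d) (x : ↥(MulAction.stabilizer Cfsg.M24 d ⊓ MulAction.stabilizer Cfsg.M24 p)) (hx : orderOf x = 2) : Nonempty (↥(Subgroup.centralizer ({x} : Set ↥(MulAction.stabilizer Cfsg.M24 d ⊓ MulAction.stabilizer Cfsg.M24 p))) ≃* GL (Fin 2) (ZMod 3)) := by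
  have hx2 : x * x = 1 := by
    have h := pow_orderOf_eq_one x
    rw [hx, pow_two] at h
    exact h
  have hx1 : x ≠ 1 := by
    rintro rfl
    rw [orderOf_one] at hx
    omega
  have hX2 : x.1 * x.1 = 1 := congrArg Subtype.val hx2
  have hX1 : x.1 ≠ 1 := fun h => hx1 (Subtype.ext h)
  obtain ⟨g, hg, hg1, hg2⟩ := exists_flag hd hp
  have hg1' : (⟨g, hg⟩ : ↥M24) • d = enc.finOf dM := hg1
  have hxd : x.1 • d = d := x.2.1
  have hxp : x.1.1 p = p := x.2.2
  set C : ↥M24 := ⟨g, hg⟩ with hC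
  have hCp : C.1 p = pt 0 := hg2
  have hCinv : C⁻¹.1 (pt 0) = p := by
    rw [← hCp]
    exact Equiv.symm_apply_apply _ _
  obtain ⟨g2, h1, h2, h3⟩ := invol_normal (X := C * x.1 * C⁻¹)
    (by
      rw [mul_smul, mul_smul, inv_smul_eq_iff.2 hg1'.symm, hxd, hg1'])
    (by
      show C.1 (x.1.1 (C⁻¹.1 (pt 0))) = pt 0
      rw [hCinv, hxp, hCp])
    (by
      have : C * x.1 * C⁻¹ * (C * x.1 * C⁻¹) = C * (x.1 * x.1) * C⁻¹ := by group
      rw [this, hX2]
      group)
    (by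
      intro h
      apply hX1
      have : x.1 = C⁻¹ * (C * x.1 * C⁻¹) * C := by group
      rw [this, h]
      group)
  have hHK : ∀ z : ↥M24, z ∈ MulAction.stabilizer Cfsg.M24 d ⊓ MulAction.stabilizer Cfsg.M24 p ↔ (g2 * C) * z * (g2 * C)⁻¹ ∈ M11B := by
    intro z
    have e1 : (enc.finOf dM : Finset GolayPt) = (g2 * C) • d := by rw [mul_smul, hg1', h1]
    have e2 : pt 0 = (g2 * C) • p := by
      show pt 0 = g2.1 (C.1 p)
      rw [hCp, h2]
    show _ ↔ _ ∈ MulAction.stabilizer ↥M24 (enc.finOf dM : Finset GolayPt) ⊓ MulAction.stabilizer ↥M24 (pt 0)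
    rw [e2, e1]
    generalize g2 * C = c
    simp only [Subgroup.mem_inf, MulAction.mem_stabilizer_iff, mul_smul, inv_smul_smul, smul_left_cancel_iff]
  have hy : (g2 * C) * x.1 * (g2 * C)⁻¹ = gY := by
    rw [← h3]
    group
  obtain ⟨e1⟩ := centralizer_conj_equiv _ _ _ x _ hHK hy
  obtain ⟨e2⟩ := base_iso
  exact ⟨e1.trans e2⟩

end Cfsg.Agent.S1603
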