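import Cfsg.Statements.S1606
import Mathlib
import Cfsg.Agent.Lib.GS1.M22Core

set_option autoImplicit false
open scoped Pointwise
open Cfsg

namespace Cfsg.Agent.S1606

/-- The stabiliser of two points in the group of the length-24 code has no subgroups of index 56 or 210. -/
theorem result (p q : Cfsg.GolayPt) (hpq : p ≠ q) (H : Subgroup ↥(MulAction.stabilizer Cfsg.M24 p ⊓ MulAction.stabilizer Cfsg.M24 q)) : H.index ≠ 56 ∧ H.index ≠ 210 := by
  classical
  have hcard := Cfsg.Agent.Lib.Golay.card_stabilizer_two hpq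
  have hmul := Subgroup.card_mul_index H
  rw [hcard] at hmul
  -- the conjugating element
  haveI := Cfsg.Agent.Lib.Golay.M24_isMultiplyPretransitive 2 (by norm_num)
  let x : Fin 2 ↪ Cfsg.GolayPt := ⟨![p, q], by
    intro i j h
    fin_cases i <;> fin_cases j <;> simp_all⟩
  let y : Fin 2 ↪ Cfsg.GolayPt := ⟨![none, some 0], by
    intro i j h
    fin_cases i <;> fin_cases j <;> simp_all⟩
  obtain ⟨g, hg⟩ := MulAction.exists_smul_eq (↥Cfsg.M24) x y
  have hg0 : (g : Equiv.Perm Cfsg.GolayPt) p = none := congrArg (fun e : Fin 2 ↪ Cfsg.GolayPt => e 0) hg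
  have hg1 : (g : Equiv.Perm Cfsg.GolayPt) q = some 0 := congrArg (fun e : Fin 2 ↪ Cfsg.GolayPt => e 1) hg
  -- the image
  let φ : ↥(MulAction.stabilizer Cfsg.M24 p ⊓ MulAction.stabilizer Cfsg.M24 q) →* Equiv.Perm Cfsg.GolayPt :=
    (MulAut.conj (g : Equiv.Perm Cfsg.GolayPt)).toMonoidHom.comp
      ((Cfsg.M24).subtype.comp (MulAction.stabilizer Cfsg.M24 p ⊓ MulAction.stabilizer Cfsg.M24 q).subtype)
  have hφ : Function.Injective φ := by
    intro a b hab
    apply Subtype.ext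
    apply Subtype.ext
    exact (MulAut.conj (g : Equiv.Perm Cfsg.GolayPt)).injective hab
  let T : Subgroup (Equiv.Perm Cfsg.GolayPt) := H.map φ
  have hcT : Nat.card T = Nat.card H := Subgroup.card_map_of_injective hφ
  have hT : ∀ σ ∈ T, Cfsg.Agent.Lib.GS1.M22.InM22 σ := by
    rintro σ ⟨a, -, rfl⟩
    have ha1 : ((a : ↥Cfsg.M24) : Equiv.Perm Cfsg.GolayPt) p = p := a.2.1
    have ha2 : ((a : ↥Cfsg.M24) : Equiv.Perm Cfsg.GolayPt) q = q := a.2.2
    have hinv1 : (g : Equiv.Perm Cfsg.GolayPt)⁻¹ none = p := by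
      rw [← hg0]
      simp
    have hinv2 : (g : Equiv.Perm Cfsg.GolayPt)⁻¹ (some 0) = q := by
      rw [← hg1]
      simp
    refine ⟨?_, ?_, ?_⟩
    · exact Cfsg.M24.mul_mem (Cfsg.M24.mul_mem g.2 (a : ↥Cfsg.M24).2) (Cfsg.M24.inv_mem g.2)
    · show (g : Equiv.Perm Cfsg.GolayPt) (((a : ↥Cfsg.M24) : Equiv.Perm Cfsg.GolayPt) ((g : Equiv.Perm Cfsg.GolayPt)⁻¹ none)) = none
      rw [hinv1, ha1, hg0]
    · show (g : Equiv.Perm Cfsg.GolayPt) (((a : ↥Cfsg.M24) : Equiv.Perm Cfsg.GolayPt) ((g : Equiv.Perm Cfsg.GolayPt)⁻¹ (some 0))) = some 0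
      rw [hinv2, ha2, hg1]
  constructor
  · intro h
    rw [h] at hmul
    have h1 : Nat.card H = 7920 := by omega
    have h2 := Cfsg.Agent.Lib.GS1.M22.core hT (by rw [hcT, h1]; norm_num)
    rw [hcT, h1] at h2
    norm_num at h2
  · intro h
    rw [h] at hmul
    have h1 : Nat.card H = 2112 := by omega
    have h2 := Cfsg.Agent.Lib.GS1.M22.core hT (by rw [hcT, h1]; norm_num)
    rw [hcT, h1] at h2
    norm_num at h2

end Cfsg.Agent.S1606
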