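import Cfsg.Statements.S1609
import Mathlib
import Cfsg.Agent.Lib.GS1.M24Idx

set_option autoImplicit false
open scoped Pointwise
open Cfsg

namespace Cfsg.Agent.S1609

open Cfsg.Agent.Lib.GS1.M24I

/-- Subgroups of index 253 in the Mathieu group of degree 23 are exactly the duad stabilisers and the heptad stabilisers. -/
theorem result (x : Cfsg.GolayPt) (H : Subgroup ↥(MulAction.stabilizer Cfsg.M24 x)) (hH : H.index = 253) : (∃ s : Finset Cfsg.GolayPt, s.card = 2 ∧ x ∉ s ∧ H = (MulAction.stabilizer Cfsg.M24 s).subgroupOf (MulAction.stabilizer Cfsg.M24 x)) ∨ ∃ o ∈ Cfsg.octads, x ∈ o ∧ H = (MulAction.stabilizer Cfsg.M24 o).subgroupOf (MulAction.stabilizer Cfsg.M24 x) := by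
  classical
  let f : ↥(MulAction.stabilizer Cfsg.M24 x) →* PG := Cfsg.M24.subtype.comp (MulAction.stabilizer Cfsg.M24 x).subtype
  have hf : Function.Injective f := by
    intro a b hab
    apply Subtype.ext
    apply Subtype.ext
    exact hab
  let T : Subgroup PG := H.map f
  have hcT : Nat.card T = Nat.card H := Subgroup.card_map_of_injective hf
  have hmul := H.card_mul_index
  rw [Cfsg.Agent.Lib.Golay.card_stabilizer_point, hH] at hmul
  have hc : Nat.card T = 40320 := by omega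
  have hT : T ≤ Cfsg.M24 := by
    rintro _ ⟨a, -, rfl⟩
    exact (a : ↥Cfsg.M24).2
  have hx : ∀ t ∈ T, t x = x := by
    rintro _ ⟨a, -, rfl⟩
    exact a.2
  rcases main_40320 hT hx hc with ⟨s, hs, hxs, hTs⟩ | ⟨o, ho, hxo, hTo⟩
  · left
    refine ⟨s, hs, hxs, ?_⟩
    apply Subgroup.eq_of_le_of_card_ge
    · intro a ha
      exact hTs ⟨a, ha, rfl⟩
    · rw [← hcT, hc]
      have h1 : ((MulAction.stabilizer Cfsg.M24 s).subgroupOf (MulAction.stabilizer Cfsg.M24 x)).map f ≤
          Cfsg.M24 ⊓ StS s ⊓ Stb x := by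
        rintro _ ⟨a, ha, rfl⟩
        exact ⟨⟨(a : ↥Cfsg.M24).2, ha⟩, a.2⟩
      have h2 := Subgroup.card_dvd_of_le h1
      rw [Subgroup.card_map_of_injective hf] at h2
      exact Nat.le_of_dvd (by norm_num) (h2.trans (card_pair_le hs hxs))
  · right
    refine ⟨o, ho, hxo, ?_⟩
    apply Subgroup.eq_of_le_of_card_ge
    · intro a ha
      exact hTo ⟨a, ha, rfl⟩
    · rw [← hcT, hc]
      have h1 : ((MulAction.stabilizer Cfsg.M24 o).subgroupOf (MulAction.stabilizer Cfsg.M24 x)).map f ≤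
          Cfsg.M24 ⊓ StS o ⊓ Stb x := by
        rintro _ ⟨a, ha, rfl⟩
        exact ⟨⟨(a : ↥Cfsg.M24).2, ha⟩, a.2⟩
      have h2 := Subgroup.card_dvd_of_le h1
      rw [Subgroup.card_map_of_injective hf, card_St_in ho hxo] at h2
      exact Nat.le_of_dvd (by norm_num) h2

end Cfsg.Agent.S1609
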