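import Cfsg.Statements.S1610
import Mathlib

set_option autoImplicit false
open Cfsg

namespace Cfsg.Agent.S1610


/-- Concrete addition on four symbols. -/
def addT : Fin 4 → Fin 4 → Fin 4 := ![![0,1,2,3],![1,0,3,2],![2,3,0,1],![3,2,1,0]]
/-- Concrete multiplication on four symbols. -/
def mulT : Fin 4 → Fin 4 → Fin 4 := ![![0,0,0,0],![0,1,2,3],![0,2,3,1],![0,3,1,2]]
def k1 : Fin 6 → Fin 4 := ![2,3,3,2,3,2]
def k2 : Fin 6 → Fin 4 := ![3,2,2,3,3,2]
def k3 : Fin 6 → Fin 4 := ![3,2,3,2,2,3]
/-- The concrete word. -/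
def cw (t : Fin 4 × Fin 4 × Fin 4) : Fin 6 → Fin 4 := fun i =>
  addT (addT (mulT t.1 (k1 i)) (mulT t.2.1 (k2 i))) (mulT t.2.2 (k3 i))

theorem cw_inj : Function.Injective cw := by decide +kernel

theorem cw_weights : ∀ t, t = (0, 0, 0) ∨ (Finset.univ.filter fun i => cw t i ≠ 0).card = 4 ∨
    (Finset.univ.filter fun i => cw t i ≠ 0).card = 6 := by decide +kernel

theorem cw_zero : ∀ i, cw (0, 0, 0) i = 0 := by decide +kernel

theorem cw_count4 : (Finset.univ.filter fun t => (Finset.univ.filter fun i => cw t i ≠ 0).card = 4).card = 45 := by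
  decide +kernel

theorem cw_count6 : (Finset.univ.filter fun t => (Finset.univ.filter fun i => cw t i ≠ 0).card = 6).card = 18 := by
  decide +kernel

section
variable {F : Type*} [Field F] (ω : F)

/-- Embedding of the four symbols. -/
def em : Fin 4 → F := ![0, 1, ω, ω ^ 2]

variable [Fintype F] {ω}

theorem two_eq (hF : Fintype.card F = 4) : (2 : F) = 0 := by
  have h : ((Fintype.card F : ℕ) : F) = 0 := FiniteField.cast_card_eq_zero F
  rw [hF] at h
  have : (2 : F) * 2 = 0 := by
    have e : (2 : F) * 2 = ((4 : ℕ) : F) := by norm_num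
    rw [e, h]
  simpa using this

theorem em_add (hF : Fintype.card F = 4) (hω : ω ^ 2 + ω + 1 = 0) (a b : Fin 4) :
    em ω (addT a b) = em ω a + em ω b := by
  have h2 := two_eq hF
  fin_cases a <;> fin_cases b <;> simp [em, addT] <;> grind

theorem em_mul (hF : Fintype.card F = 4) (hω : ω ^ 2 + ω + 1 = 0) (a b : Fin 4) :
    em ω (mulT a b) = em ω a * em ω b := by
  have h2 := two_eq hF
  fin_cases a <;> fin_cases b <;> simp [em, mulT] <;> grind

theorem em_inj (hF : Fintype.card F = 4) (hω : ω ^ 2 + ω + 1 = 0) : Function.Injective (em ω) := by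
  have h2 := two_eq hF
  have h1 : ω ≠ 0 := by
    rintro rfl
    simp at hω
  have h3 : ω ≠ 1 := by
    rintro rfl
    have : (1 : F) = 0 := by linear_combination hω - h2
    simp at this
  have h4 : ω ^ 2 ≠ 0 := pow_ne_zero _ h1
  have h5 : ω ^ 2 ≠ 1 := by
    intro h
    have : ω = 0 := by grind
    exact h1 this
  have h6 : ω ^ 2 ≠ ω := by
    intro h
    have : (1 : F) = 0 := by grind
    simp at this
  intro a b hab
  have h0 : (1 : F) ≠ 0 := one_ne_zero
  fin_cases a <;> fin_cases b <;> first | rfl | exact absurd hab h0 | exact absurd hab.symm h0 | exact absurd hab h1 | exact absurd hab.symm h1 | exact absurd hab h3 | exact absurd hab.symm h3 | exact absurd hab h4 | exact absurd hab.symm h4 | exact absurd hab h5 | exact absurd hab.symm h5 | exact absurd hab h6 | exact absurd hab.symm h6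

theorem em_surj (hF : Fintype.card F = 4) (hω : ω ^ 2 + ω + 1 = 0) : Function.Surjective (em ω) :=
  ((Fintype.bijective_iff_injective_and_card _).mpr ⟨em_inj hF hω, by simp [hF]⟩).2

theorem em_zero : em ω 0 = 0 := rfl

theorem em_ne_zero (hF : Fintype.card F = 4) (hω : ω ^ 2 + ω + 1 = 0) (a : Fin 4) :
    em ω a ≠ 0 ↔ a ≠ 0 := by
  rw [not_iff_not, ← em_zero (ω := ω)]
  exact (em_inj hF hω).eq_iff

end

/-- The hexacode has 64 words, minimum weight 4, and weight distribution 0^1 4^45 6^18. -/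
theorem result (F : Type*) [Field F] [Fintype F] [DecidableEq F] (hF : Fintype.card F = 4) (ω : F) (hω : ω ^ 2 + ω + 1 = 0) : Nat.card ↥(Cfsg.hexacode F ω) = 64 ∧ (∀ x ∈ Cfsg.hexacode F ω, x ≠ 0 → (Finset.univ.filter fun i => x i ≠ 0).card = 4 ∨ (Finset.univ.filter fun i => x i ≠ 0).card = 6) ∧ {x : Fin 6 → F | x ∈ Cfsg.hexacode F ω ∧ (Finset.univ.filter fun i => x i ≠ 0).card = 4}.ncard = 45 ∧ {x : Fin 6 → F | x ∈ Cfsg.hexacode F ω ∧ (Finset.univ.filter fun i => x i ≠ 0).card = 6}.ncard = 18 := by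
  classical
  have hmem : ∀ x : Fin 6 → F, x ∈ Cfsg.hexacode F ω ↔ ∃ t, x = fun i => em ω (cw t i) := by
    intro x
    unfold Cfsg.hexacode
    have hk : ∀ (a b c : Fin 4) (i : Fin 6), em ω (addT (addT (mulT a (k1 i)) (mulT b (k2 i))) (mulT c (k3 i))) =
        em ω a * em ω (k1 i) + em ω b * em ω (k2 i) + em ω c * em ω (k3 i) := by
      intro a b c i
      simp only [em_add hF hω, em_mul hF hω]
    have hv1 : (![ω, ω ^ 2, ω ^ 2, ω, ω ^ 2, ω] : Fin 6 → F) = fun i => em ω (k1 i) := by
      funext i; fin_cases i <;> rfl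
    have hv2 : (![ω ^ 2, ω, ω, ω ^ 2, ω ^ 2, ω] : Fin 6 → F) = fun i => em ω (k2 i) := by
      funext i; fin_cases i <;> rfl
    have hv3 : (![ω ^ 2, ω, ω ^ 2, ω, ω, ω ^ 2] : Fin 6 → F) = fun i => em ω (k3 i) := by
      funext i; fin_cases i <;> rfl
    rw [hv1, hv2, hv3, Submodule.mem_span_insert]
    constructor
    · rintro ⟨a, z, hz, rfl⟩
      obtain ⟨b, c, rfl⟩ := Submodule.mem_span_pair.mp hz
      obtain ⟨a', rfl⟩ := em_surj hF hω a
      obtain ⟨b', rfl⟩ := em_surj hF hω b
      obtain ⟨c', rfl⟩ := em_surj hF hω c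
      refine ⟨(a', b', c'), ?_⟩
      funext i
      simp only [cw, hk]
      simp only [Pi.add_apply, Pi.smul_apply, smul_eq_mul]
      ring
    · rintro ⟨⟨a, b, c⟩, rfl⟩
      refine ⟨em ω a, em ω b • (fun i => em ω (k2 i)) + em ω c • (fun i => em ω (k3 i)),
        Submodule.mem_span_pair.mpr ⟨_, _, rfl⟩, ?_⟩
      funext i
      simp only [cw, hk]
      simp only [Pi.add_apply, Pi.smul_apply, smul_eq_mul]
      ring
  let w : Fin 4 × Fin 4 × Fin 4 → (Fin 6 → F) := fun t i => em ω (cw t i)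
  have hwinj : Function.Injective w := by
    intro t t' h
    apply cw_inj
    funext i
    exact em_inj hF hω (congrFun h i)
  have hsupp : ∀ t, (Finset.univ.filter fun i => w t i ≠ 0) = (Finset.univ.filter fun i => cw t i ≠ 0) := by
    intro t
    ext i
    simp only [Finset.mem_filter, Finset.mem_univ, true_and]
    exact em_ne_zero hF hω _
  have hcount : ∀ n : ℕ, {x : Fin 6 → F | x ∈ Cfsg.hexacode F ω ∧ (Finset.univ.filter fun i => x i ≠ 0).card = n} =
      w '' ↑(Finset.univ.filter fun t => (Finset.univ.filter fun i => cw t i ≠ 0).card = n) := by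
    intro n
    ext x
    simp only [Set.mem_setOf_eq, Set.mem_image, Finset.coe_filter, Finset.mem_univ, true_and, hmem]
    constructor
    · rintro ⟨⟨t, rfl⟩, hc⟩
      refine ⟨t, ?_, rfl⟩
      rw [← hsupp t]
      exact hc
    · rintro ⟨t, hc, rfl⟩
      refine ⟨⟨t, rfl⟩, ?_⟩
      have := hsupp t
      simp only [w] at this
      rw [this]
      exact hc
  refine ⟨?_, ?_, ?_, ?_⟩
  · have hbij : Function.Bijective (fun t => (⟨w t, (hmem _).mpr ⟨t, rfl⟩⟩ : ↥(Cfsg.hexacode F ω))) := by
      constructor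
      · intro a b h
        exact hwinj (congrArg Subtype.val h)
      · rintro ⟨x, hx⟩
        obtain ⟨t, rfl⟩ := (hmem x).mp hx
        exact ⟨t, rfl⟩
    rw [← Nat.card_congr (Equiv.ofBijective _ hbij)]
    simp
  · intro x hx hne
    obtain ⟨t, rfl⟩ := (hmem x).mp hx
    rcases cw_weights t with h | h | h
    · subst h
      exfalso
      apply hne
      funext i
      rw [cw_zero]
      rfl
    · left
      have := hsupp t
      simp only [w] at this
      rw [this]
      exact h
    · right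
      have := hsupp t
      simp only [w] at this
      rw [this]
      exact h
  · rw [hcount 4, Set.ncard_image_of_injective _ hwinj, Set.ncard_coe_finset]
    exact cw_count4
  · rw [hcount 6, Set.ncard_image_of_injective _ hwinj, Set.ncard_coe_finset]
    exact cw_count6


end Cfsg.Agent.S1610
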