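import Cfsg.Statements.S1611
import Mathlib
import Cfsg.Agent.S1610
import Cfsg.Agent.Lib.GS1.Mono

set_option autoImplicit false
open Cfsg

namespace Cfsg.Agent.S1611

open Cfsg.Agent.S1610 Cfsg.Agent.Lib.GS1

/-- The concrete monomial image of a word. -/
def mw (σ : Equiv.Perm (Fin 6)) (u : Fin 6 → Fin 3) (w : Fin 6 → Fin 4) : Fin 6 → Fin 4 :=
  fun i => mulT (u i).succ (w (σ.symm i))

/-- Concrete code membership. -/
def inC (w : Fin 6 → Fin 4) : Prop := ∃ t, cw t = w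

instance : DecidablePred inC := fun _ => Fintype.decidableExistsFintype

/-- Preservation of the code, checked concretely on the generators. -/
def Check (σ : Equiv.Perm (Fin 6)) (u : Fin 6 → Fin 3) : Prop :=
  inC (mw σ u k1) ∧ inC (mw σ u k2) ∧ inC (mw σ u k3)

instance (σ : Equiv.Perm (Fin 6)) (u : Fin 6 → Fin 3) : Decidable (Check σ u) := by
  unfold Check
  infer_instance

theorem check_one : ∀ u : Fin 6 → Fin 3, Check 1 u → ∀ i j, u i = u j := by decide +kernel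

theorem check_swap : ∀ u : Fin 6 → Fin 3, ¬ Check (Equiv.swap 0 1) u := by decide +kernel

theorem check_pair : ∀ a b : Fin 6, a ≠ b → ∃ u : Fin 6 → Fin 3,
    Check (Equiv.swap a b * Equiv.swap 0 1) u := by decide +kernel

theorem cw_gens : (∀ i, cw (1, 0, 0) i = k1 i) ∧ (∀ i, cw (0, 1, 0) i = k2 i) ∧
    (∀ i, cw (0, 0, 1) i = k3 i) := by decide +kernel

section

variable {F : Type*} [Field F] {ω : F}

theorem hv1 : (![ω, ω ^ 2, ω ^ 2, ω, ω ^ 2, ω] : Fin 6 → F) = fun i => em ω (k1 i) := by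
  funext i; fin_cases i <;> rfl

theorem hv2 : (![ω ^ 2, ω, ω, ω ^ 2, ω ^ 2, ω] : Fin 6 → F) = fun i => em ω (k2 i) := by
  funext i; fin_cases i <;> rfl

theorem hv3 : (![ω ^ 2, ω, ω ^ 2, ω, ω, ω ^ 2] : Fin 6 → F) = fun i => em ω (k3 i) := by
  funext i; fin_cases i <;> rfl

variable [Fintype F]

theorem mem_hex_iff (hF : Fintype.card F = 4) (hω : ω ^ 2 + ω + 1 = 0) (x : Fin 6 → F) :
    x ∈ Cfsg.hexacode F ω ↔ ∃ t, x = fun i => em ω (cw t i) := by
  unfold Cfsg.hexacode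
  have hk : ∀ (a b c : Fin 4) (i : Fin 6), em ω (addT (addT (mulT a (k1 i)) (mulT b (k2 i))) (mulT c (k3 i))) =
      em ω a * em ω (k1 i) + em ω b * em ω (k2 i) + em ω c * em ω (k3 i) := by
    intro a b c i
    simp only [em_add hF hω, em_mul hF hω]
  rw [hv1, hv2, hv3, Submodule.mem_span_insert]
  constructor
  · rintro ⟨a, z, hz, rfl⟩
    obtain ⟨b, c, rfl⟩ := Submodule.mem_span_pair.mp hz
    obtain ⟨a', rfl⟩ := em_surj hF hω a
    obtain ⟨b', rfl⟩ := em_surj hF hω b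
    obtain ⟨c', rfl⟩ := em_surj hF hω c
    refine ⟨(a', b', c'), ?_⟩
    funext i
    simp only [cw, hk]
    simp only [Pi.add_apply, Pi.smul_apply, smul_eq_mul]
    ring
  · rintro ⟨⟨a, b, c⟩, rfl⟩
    refine ⟨em ω a, em ω b • (fun i => em ω (k2 i)) + em ω c • (fun i => em ω (k3 i)),
      Submodule.mem_span_pair.mpr ⟨_, _, rfl⟩, ?_⟩
    funext i
    simp only [cw, hk]
    simp only [Pi.add_apply, Pi.smul_apply, smul_eq_mul]
    ring

/-- The nonzero symbols as units. -/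
def uc (hF : Fintype.card F = 4) (hω : ω ^ 2 + ω + 1 = 0) (a : Fin 3) : Fˣ :=
  Units.mk0 (em ω a.succ) ((em_ne_zero hF hω _).mpr (Fin.succ_ne_zero a))

theorem mono_em (hF : Fintype.card F = 4) (hω : ω ^ 2 + ω + 1 = 0) (u : Fin 6 → Fin 3)
    (σ : Equiv.Perm (Fin 6)) (w : Fin 6 → Fin 4) :
    Cfsg.monomialMap σ (fun i => uc hF hω (u i)) (fun i => em ω (w i)) =
      fun i => em ω (mw σ u w i) := by
  funext i
  simp [Cfsg.monomialMap, mw, uc, em_mul hF hω]

theorem pres_iff (hF : Fintype.card F = 4) (hω : ω ^ 2 + ω + 1 = 0) (u : Fin 6 → Fin 3)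
    (σ : Equiv.Perm (Fin 6)) :
    Pres (Cfsg.hexacode F ω) σ (fun i => uc hF hω (u i)) ↔ Check σ u := by
  have hinC : ∀ w : Fin 6 → Fin 4, (fun i => em ω (w i)) ∈ Cfsg.hexacode F ω ↔ inC w := by
    intro w
    rw [mem_hex_iff hF hω]
    constructor
    · rintro ⟨t, ht⟩
      refine ⟨t, ?_⟩
      funext i
      exact (em_inj hF hω (congrFun ht i)).symm
    · rintro ⟨t, rfl⟩
      exact ⟨t, rfl⟩
  have hg1 : (fun i => em ω (k1 i)) ∈ Cfsg.hexacode F ω := (hinC k1).mpr ⟨_, funext cw_gens.1⟩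
  have hg2 : (fun i => em ω (k2 i)) ∈ Cfsg.hexacode F ω := (hinC k2).mpr ⟨_, funext cw_gens.2.1⟩
  have hg3 : (fun i => em ω (k3 i)) ∈ Cfsg.hexacode F ω := (hinC k3).mpr ⟨_, funext cw_gens.2.2⟩
  constructor
  · intro h
    refine ⟨(hinC _).mp ?_, (hinC _).mp ?_, (hinC _).mp ?_⟩
    · rw [← mono_em hF hω]; exact h _ hg1
    · rw [← mono_em hF hω]; exact h _ hg2
    · rw [← mono_em hF hω]; exact h _ hg3
  · rintro ⟨h1, h2, h3⟩
    unfold Cfsg.hexacode
    apply pres_span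
    rw [hv1, hv2, hv3]
    intro x hx
    change _ ∈ Submodule.span F _
    rw [← hv1, ← hv2, ← hv3]
    change _ ∈ Cfsg.hexacode F ω
    simp only [Set.mem_insert_iff, Set.mem_singleton_iff] at hx
    rcases hx with rfl | rfl | rfl
    · rw [mono_em hF hω]; exact (hinC _).mpr h1
    · rw [mono_em hF hω]; exact (hinC _).mpr h2
    · rw [mono_em hF hω]; exact (hinC _).mpr h3

theorem exists_u (hF : Fintype.card F = 4) (hω : ω ^ 2 + ω + 1 = 0) (c : Fin 6 → Fˣ) :
    ∃ u : Fin 6 → Fin 3, c = fun i => uc hF hω (u i) := by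
  have h : ∀ i, ∃ a : Fin 3, c i = uc hF hω a := by
    intro i
    obtain ⟨a, ha⟩ := em_surj hF hω (c i : F)
    have ha0 : a ≠ 0 := by
      intro h0
      rw [h0] at ha
      exact (Units.ne_zero (c i)) ha.symm
    obtain ⟨b, rfl⟩ := Fin.exists_succ_eq.mpr ha0
    refine ⟨b, ?_⟩
    apply Units.ext
    exact ha.symm
  choose u hu using h
  exact ⟨u, funext hu⟩

theorem odd_not_mem (hF : Fintype.card F = 4) (hω : ω ^ 2 + ω + 1 = 0) :
    Equiv.swap (0 : Fin 6) 1 ∉ monoImage (Cfsg.hexacode F ω) := by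
  rintro ⟨c, hc⟩
  obtain ⟨u, rfl⟩ := exists_u hF hω c
  exact check_swap u ((pres_iff hF hω u _).mp hc)

theorem monoImage_eq (hF : Fintype.card F = 4) (hω : ω ^ 2 + ω + 1 = 0) :
    monoImage (Cfsg.hexacode F ω) = alternatingGroup (Fin 6) := by
  have hsw : Equiv.Perm.sign (Equiv.swap (0 : Fin 6) 1) = -1 := Equiv.Perm.sign_swap (by decide)
  have hle : alternatingGroup (Fin 6) ≤ monoImage (Cfsg.hexacode F ω) := by
    apply alternating_le_of_swap_mul _ hsw (Equiv.swap_mul_self _ _)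
    intro a b hab
    obtain ⟨u, hu⟩ := check_pair a b hab
    exact ⟨_, (pres_iff hF hω u _).mpr hu⟩
  apply le_antisymm _ hle
  intro σ hσ
  rw [Equiv.Perm.mem_alternatingGroup]
  rcases Int.units_eq_one_or (Equiv.Perm.sign σ) with h | h
  · exact h
  · exfalso
    have h1 : σ * Equiv.swap (0 : Fin 6) 1 ∈ alternatingGroup (Fin 6) := by
      rw [Equiv.Perm.mem_alternatingGroup, map_mul, h, hsw]
      rfl
    have h2 := (monoImage (Cfsg.hexacode F ω)).mul_mem ((monoImage (Cfsg.hexacode F ω)).inv_mem hσ) (hle h1)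
    rw [inv_mul_cancel_left] at h2
    exact odd_not_mem hF hω h2

theorem diag_eq (hF : Fintype.card F = 4) (hω : ω ^ 2 + ω + 1 = 0) (c : Fin 6 → Fˣ)
    (h : Pres (Cfsg.hexacode F ω) 1 c) : ∀ i j, c i = c j := by
  obtain ⟨u, rfl⟩ := exists_u hF hω c
  have := check_one u ((pres_iff hF hω u _).mp h)
  intro i j
  change uc hF hω (u i) = uc hF hω (u j)
  rw [this i j]

theorem card_diag (hF : Fintype.card F = 4) (hω : ω ^ 2 + ω + 1 = 0) :
    Nat.card {d : Fin 6 → Fˣ // Pres (Cfsg.hexacode F ω) 1 d} = 3 := by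
  have e : {d : Fin 6 → Fˣ // Pres (Cfsg.hexacode F ω) 1 d} ≃ Fˣ :=
    { toFun := fun d => d.1 0
      invFun := fun l => ⟨fun _ => l, pres_const _ l⟩
      left_inv := by
        rintro ⟨d, hd⟩
        apply Subtype.ext
        funext i
        exact diag_eq hF hω d hd 0 i
      right_inv := fun l => rfl }
  rw [Nat.card_congr e, Nat.card_units, Nat.card_eq_fintype_card, hF]

end

/-- The monomial automorphism group of the hexacode has order 1080: its diagonal part is the scalars and its permutation parts form the alternating group of degree 6. -/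
theorem result (F : Type*) [Field F] [Fintype F] [DecidableEq F] (hF : Fintype.card F = 4) (ω : F) (hω : ω ^ 2 + ω + 1 = 0) : Nat.card {f : Equiv.Perm (Fin 6) × (Fin 6 → Fˣ) // (∀ x ∈ Cfsg.hexacode F ω, Cfsg.monomialMap f.1 f.2 x ∈ Cfsg.hexacode F ω)} = 1080 ∧ (∀ c : Fin 6 → Fˣ, (∀ x ∈ Cfsg.hexacode F ω, Cfsg.monomialMap 1 c x ∈ Cfsg.hexacode F ω) → ∀ i j, c i = c j) ∧ {σ : Equiv.Perm (Fin 6) | ∃ c : Fin 6 → Fˣ, (∀ x ∈ Cfsg.hexacode F ω, Cfsg.monomialMap σ c x ∈ Cfsg.hexacode F ω)} = (alternatingGroup (Fin 6) : Set (Equiv.Perm (Fin 6))) := by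
  have hV : ∀ f : Equiv.Perm (Fin 6) × (Fin 6 → Fˣ),
      (∀ x ∈ Cfsg.hexacode F ω, Cfsg.monomialMap f.1 f.2 x ∈ Cfsg.hexacode F ω) = Pres (Cfsg.hexacode F ω) f.1 f.2 :=
    fun _ => rfl
  have hIm := monoImage_eq hF hω
  refine ⟨?_, ?_, ?_⟩
  · have h1 := card_pres (Cfsg.hexacode F ω)
    rw [card_diag hF hω, hIm, nat_card_alternatingGroup] at h1
    simp only [Nat.card_eq_fintype_card, Fintype.card_fin] at h1
    refine Eq.trans ?_ (h1.trans (by decide))
    rfl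
  · intro c hc
    exact diag_eq hF hω c hc
  · rw [← hIm]
    rfl

end Cfsg.Agent.S1611
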