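import Cfsg.Statements.S1625
import Cfsg.Agent.Lib.KnownSimple.J3.Center

set_option autoImplicit false
open scoped MatrixGroups
open Cfsg

namespace Cfsg.Agent.S1625

/-- The matrix group over the field with 4 elements generated by the 9×9 matrices of the definitions (ω a root of ω² + ω + 1) has order 150698880 and centre of order 3; its central quotient is simple of order 50232960 = 2^7·3^5·5·17·19. -/
theorem result (F : Type) [Field F] [Fintype F] (hF : Fintype.card F = 4) (ω : F) (hω : ω ^ 2 + ω + 1 = 0) : Nat.card ↥(Subgroup.center ↥(Cfsg.Spor.threeJ3 F ω)) = 3 ∧ Nat.card ↥(Cfsg.Spor.threeJ3 F ω) = 150698880 ∧ Nat.card (Cfsg.Spor.J3 F ω) = 50232960 ∧ IsSimpleGroup (Cfsg.Spor.J3 F ω) := by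
  have hg := Cfsg.Agent.Lib.KnownSimple.J3.good_of_card hF hω
  exact ⟨Cfsg.Agent.Lib.KnownSimple.J3.card_center_three hF hg, Cfsg.Agent.Lib.KnownSimple.J3.card_three hF hg,
    Cfsg.Agent.Lib.KnownSimple.J3.card_J3 hg, Cfsg.Agent.Lib.KnownSimple.J3.simple_J3 hg⟩

end Cfsg.Agent.S1625
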