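import Cfsg.Statements.S1629
import Cfsg.Agent.Lib.ThreeT.OrthTv
import Cfsg.Agent.Lib.Classical.OrderForms

set_option autoImplicit false
open scoped MatrixGroups
open Cfsg

namespace Cfsg.Agent.S1629

/-- The orthogonal transvections of the plus-type orthogonal group in dimension 2m ≥ 6 over the field with two elements form a generating conjugacy class of 3-transpositions. -/
theorem result (m : ℕ) (hm : 3 ≤ m) : Cfsg.IsThreeTranspositionClass {g : ↥(Cfsg.isometryGroup (ZMod 2) (Cfsg.quadFormPlus m (ZMod 2))) | (((g : GL (Fin m ⊕ Fin m) (ZMod 2)) : Matrix (Fin m ⊕ Fin m) (Fin m ⊕ Fin m) (ZMod 2)) - 1).rank = 1} := by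
  exact Cfsg.Agent.Lib.ThreeT.OrthTv.threeT' (Q := Cfsg.Agent.Lib.Classical.Abs.Qplus m (ZMod 2))
    (Cfsg.Agent.Lib.Classical.Abs.Qplus_nondeg m) (by simp; omega) (Sum.inl ⟨0, by omega⟩) _
    (funext (Cfsg.Agent.Lib.Classical.Abs.Qplus_apply m))

end Cfsg.Agent.S1629
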