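import Cfsg.Statements.S1635
import Mathlib
import Cfsg.Agent.Lib.Cl.Punct

set_option autoImplicit false
open Cfsg

namespace Cfsg.Agent.S1635

/-- Coset leaders of the length-24 code: a coset contains a unique word of weight ≤ 3, or else exactly six words of weight 4 and none lighter. -/
theorem result (w : Cfsg.GolayPt → ZMod 2) : ({v : Cfsg.GolayPt → ZMod 2 | hammingNorm v ≤ 4 ∧ w - v ∈ Cfsg.golayCode}.ncard = 1 ∧ ∃ v : Cfsg.GolayPt → ZMod 2, hammingNorm v ≤ 3 ∧ w - v ∈ Cfsg.golayCode) ∨ ({v : Cfsg.GolayPt → ZMod 2 | hammingNorm v ≤ 4 ∧ w - v ∈ Cfsg.golayCode}.ncard = 6 ∧ ∀ v : Cfsg.GolayPt → ZMod 2, w - v ∈ Cfsg.golayCode → hammingNorm v ≤ 4 → hammingNorm v = 4) := by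
  open Cfsg.Agent.Lib.Cl.Punct Cfsg.Agent.Lib.Golay Cfsg.Agent.Lib.Compute in
  classical
  set V : Set (Cfsg.GolayPt → ZMod 2) := {v | hammingNorm v ≤ 4 ∧ w - v ∈ Cfsg.golayCode} with hV
  have hz2 : ∀ x y : Cfsg.GolayPt → ZMod 2, x - y = x + y := by
    intro x y
    funext a
    simp only [Pi.sub_apply, Pi.add_apply]
    have : ∀ p q : ZMod 2, p - q = p + q := by decide
    exact this _ _
  have hadd0 : ∀ x y : Cfsg.GolayPt → ZMod 2, x + y = 0 → x = y := by
    intro x y h
    funext a
    have := congrFun h a
    simp only [Pi.add_apply, Pi.zero_apply] at this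
    have key : ∀ p q : ZMod 2, p + q = 0 → p = q := by decide
    exact key _ _ this
  -- V is nonempty
  have hne : ∃ v, hammingNorm v ≤ 4 ∧ w - v ∈ Cfsg.golayCode := by
    obtain ⟨k, hk, hd⟩ := exists_near (fun x => w (some x))
    refine ⟨w - wordOf (word k), ?_, ?_⟩
    · -- norm at most 4: the extra position and the others
      have h1 : (Finset.univ.filter (fun a : Cfsg.GolayPt => (w - wordOf (word k)) a ≠ 0)) ⊆
          insert none ((Finset.univ.filter (fun x : ZMod 23 => (fun x => w (some x)) x ≠ pw k x)).image some) := by
        intro a ha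
        simp only [Finset.mem_filter, Finset.mem_univ, true_and, Pi.sub_apply] at ha
        cases a with
        | none => exact Finset.mem_insert_self _ _
        | some x =>
          apply Finset.mem_insert_of_mem
          apply Finset.mem_image_of_mem
          simp only [Finset.mem_filter, Finset.mem_univ, true_and]
          intro h
          apply ha
          rw [h]
          simp [pw]
      have h2 := Finset.card_le_card h1
      have h3 := Finset.card_insert_le (none : Cfsg.GolayPt)
        ((Finset.univ.filter (fun x : ZMod 23 => (fun x => w (some x)) x ≠ pw k x)).image some)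
      have h4 := Finset.card_image_le (s := Finset.univ.filter (fun x : ZMod 23 => (fun x => w (some x)) x ≠ pw k x))
        (f := (some : ZMod 23 → Cfsg.GolayPt))
      have h5 : (Finset.univ.filter (fun x : ZMod 23 => (fun x => w (some x)) x ≠ pw k x)).card =
          hammingDist (fun x => w (some x)) (pw k) := rfl
      have h6 : hammingNorm (w - wordOf (word k)) =
          (Finset.univ.filter (fun a : Cfsg.GolayPt => (w - wordOf (word k)) a ≠ 0)).card := rfl
      omega
    · have : w - (w - wordOf (word k)) = wordOf (word k) := by abel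
      rw [this]
      exact word_mem k
  -- two members
  have htwo : ∀ v ∈ V, ∀ v' ∈ V, v ≠ v' → 8 ≤ hammingNorm (v + v') := by
    rintro v ⟨_, hv⟩ v' ⟨_, hv'⟩ hvv
    have h1 : v + v' ∈ Cfsg.golayCode := by
      have : v + v' = (w - v') - (w - v) := by
        funext a
        simp only [Pi.add_apply, Pi.sub_apply]
        have key : ∀ p q r : ZMod 2, q + r = p - r - (p - q) := by decide
        exact key _ _ _
      rw [this]
      exact Submodule.sub_mem _ hv' hv
    have h2 : hammingNorm (v + v') ≠ 0 := by
      intro h0
      exact hvv (hadd0 _ _ (hammingNorm_eq_zero.1 h0))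
    rcases weight_cases h1 with h | h | h | h | h <;> omega
  have hle : ∀ x y : Cfsg.GolayPt → ZMod 2, hammingNorm (x + y) + 2 * (support₂ x ∩ support₂ y).card =
      hammingNorm x + hammingNorm y := by
    intro x y
    have := card_symmDiff_add (support₂ x) (support₂ y)
    rw [← support_add] at this
    exact this
  by_cases hsmall : ∃ v ∈ V, hammingNorm v ≤ 3
  · left
    obtain ⟨v, hv, hv3⟩ := hsmall
    refine ⟨?_, v, hv3, hv.2⟩
    have : V = {v} := by
      ext x
      simp only [Set.mem_singleton_iff]
      constructor
      · intro hx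
        by_contra hxv
        have h1 := htwo x hx v hv hxv
        have h2 := hle x v
        have h3 := hx.1
        omega
      · rintro rfl
        exact hv
    rw [this, Set.ncard_singleton]
  · right
    push Not at hsmall
    have h4 : ∀ v ∈ V, hammingNorm v = 4 := fun v hv => by
      have := hsmall v hv
      have := hv.1
      omega
    refine ⟨?_, fun v hv hn => h4 v ⟨hn, hv⟩⟩
    obtain ⟨v₀, hv₀⟩ := hne
    have hv₀V : v₀ ∈ V := hv₀
    -- cover
    have hcover : ∀ a : Cfsg.GolayPt, ∃ v ∈ V, a ∈ support₂ v := by
      intro a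
      by_cases ha : a ∈ support₂ v₀
      · exact ⟨v₀, hv₀V, ha⟩
      · have hc : (insert a (support₂ v₀)).card = 5 := by
          rw [Finset.card_insert_of_notMem ha]
          have := h4 v₀ hv₀V
          rw [hammingNorm_eq] at this
          omega
        obtain ⟨o, ho, hso⟩ := octads_exists _ hc
        obtain ⟨c, hc, rfl, hc8⟩ := exists_word_of_mem_octads ho
        have hT : support₂ v₀ ⊆ support₂ c := (Finset.subset_insert _ _).trans hso
        have hsupp : support₂ (v₀ + c) = support₂ c \ support₂ v₀ := by
          rw [support_add, symmDiff_comm, symmDiff_def, Finset.sup_eq_union,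
            Finset.sdiff_eq_empty_iff_subset.mpr hT, Finset.union_empty]
        refine ⟨v₀ + c, ⟨?_, ?_⟩, ?_⟩
        · rw [hammingNorm_eq, hsupp, Finset.card_sdiff_of_subset hT, hc8]
          have := h4 v₀ hv₀V
          rw [hammingNorm_eq] at this
          omega
        · have : w - (v₀ + c) = (w - v₀) - c := by abel
          rw [this]
          exact Submodule.sub_mem _ hv₀V.2 hc
        · rw [hsupp]
          exact Finset.mem_sdiff.mpr ⟨hso (Finset.mem_insert_self _ _), ha⟩
    have hfin : V.Finite := Set.toFinite V
    rw [Set.ncard_eq_toFinset_card V hfin]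
    have hU : hfin.toFinset.biUnion support₂ = Finset.univ := by
      ext a
      simp only [Finset.mem_biUnion, Set.Finite.mem_toFinset, Finset.mem_univ, iff_true]
      exact hcover a
    have hcard := Finset.card_biUnion (s := hfin.toFinset) (t := support₂) (by
      intro x hx y hy hxy
      replace hx : x ∈ V := hfin.mem_toFinset.mp hx
      replace hy : y ∈ V := hfin.mem_toFinset.mp hy
      have h1 := htwo x hx y hy hxy
      have h2 := hle x y
      have h3 := h4 x hx
      have h5 := h4 y hy
      have h6 : (support₂ x ∩ support₂ y).card = 0 := by omega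
      exact Finset.disjoint_iff_inter_eq_empty.mpr (Finset.card_eq_zero.mp h6))
    rw [hU] at hcard
    have h24 : (Finset.univ : Finset Cfsg.GolayPt).card = 24 := by decide +kernel
    rw [h24, Finset.sum_congr rfl (g := fun _ => 4) (fun x hx => by
      have := h4 x ((hfin.mem_toFinset).mp hx)
      rwa [hammingNorm_eq] at this), Finset.sum_const, smul_eq_mul] at hcard
    omega


end Cfsg.Agent.S1635
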