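import Cfsg.Statements.S1636
import Mathlib
import Cfsg.Agent.Lib.Cl.Punct

set_option autoImplicit false
open Cfsg

namespace Cfsg.Agent.S1636


open Cfsg.Agent.Lib.Cl.Punct Cfsg.Agent.Lib.Golay Cfsg.Agent.Lib.Compute in
private theorem ncard_aux (n : ℕ) :
    {u : ZMod 23 → ZMod 2 | u ∈ Cp ∧ hammingNorm u = n}.ncard =
      countBelow (fun k => Nat.beq (Enc.popAux (word k) 23) n) 4096 := by
  have : {u : ZMod 23 → ZMod 2 | u ∈ Cp ∧ hammingNorm u = n} =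
      pw '' ↑((Finset.range 4096).filter (fun k => Nat.beq (Enc.popAux (word k) 23) n = true)) := by
    ext u
    simp only [Set.mem_setOf_eq, Set.mem_image, Finset.coe_filter, Finset.mem_range]
    constructor
    · rintro ⟨hu, hn⟩
      obtain ⟨k, hk, rfl⟩ := mem_Cp_iff.1 hu
      rw [hammingNorm_pw] at hn
      exact ⟨k, ⟨hk, by rw [hn]; exact Nat.beq_refl n⟩, rfl⟩
    · rintro ⟨k, ⟨hk, hc⟩, rfl⟩
      refine ⟨mem_Cp_iff.2 ⟨k, hk, rfl⟩, ?_⟩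
      rw [hammingNorm_pw]
      exact Nat.eq_of_beq_eq_true hc
  rw [this, Set.ncard_image_of_injOn, Set.ncard_coe_finset, countBelow_eq]
  intro a ha b hb h
  simp only [Finset.coe_filter, Finset.mem_range, Set.mem_setOf_eq] at ha hb
  exact pw_injOn ha.1 hb.1 h

open Cfsg.Agent.Lib.Cl.Punct Cfsg.Agent.Lib.Golay Cfsg.Agent.Lib.Compute in
private theorem ncard_all : Cp.ncard = 4096 := by
  have : Cp = pw '' ↑(Finset.range 4096) := by
    ext u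
    simp only [Set.mem_image, Finset.coe_range, Set.mem_Iio]
    constructor
    · intro hu
      obtain ⟨k, hk, rfl⟩ := mem_Cp_iff.1 hu
      exact ⟨k, hk, rfl⟩
    · rintro ⟨k, hk, rfl⟩
      exact mem_Cp_iff.2 ⟨k, hk, rfl⟩
  rw [this, Set.ncard_image_of_injOn, Set.ncard_coe_finset]
  · simp
  · intro a ha b hb h
    simp only [Finset.coe_range, Set.mem_Iio] at ha hb
    exact pw_injOn ha hb h

/-- The punctured length-23 code has weight distribution 0^1 7^253 8^506 11^1288 12^1288 15^506 16^253 23^1. -/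
theorem result : {u : ZMod 23 → ZMod 2 | ∃ w ∈ Cfsg.golayCode, ∀ x : ZMod 23, u x = w (some x)}.ncard = 4096 ∧ {u : ZMod 23 → ZMod 2 | u ∈ {u : ZMod 23 → ZMod 2 | ∃ w ∈ Cfsg.golayCode, ∀ x : ZMod 23, u x = w (some x)} ∧ hammingNorm u = 7}.ncard = 253 ∧ {u : ZMod 23 → ZMod 2 | u ∈ {u : ZMod 23 → ZMod 2 | ∃ w ∈ Cfsg.golayCode, ∀ x : ZMod 23, u x = w (some x)} ∧ hammingNorm u = 8}.ncard = 506 ∧ {u : ZMod 23 → ZMod 2 | u ∈ {u : ZMod 23 → ZMod 2 | ∃ w ∈ Cfsg.golayCode, ∀ x : ZMod 23, u x = w (some x)} ∧ hammingNorm u = 11}.ncard = 1288 ∧ {u : ZMod 23 → ZMod 2 | u ∈ {u : ZMod 23 → ZMod 2 | ∃ w ∈ Cfsg.golayCode, ∀ x : ZMod 23, u x = w (some x)} ∧ hammingNorm u = 12}.ncard = 1288 ∧ {u : ZMod 23 → ZMod 2 | u ∈ {u : ZMod 23 → ZMod 2 | ∃ w ∈ Cfsg.golayCode, ∀ x : ZMod 23, u x = w (some x)} ∧ hammingNorm u = 15}.ncard = 506 ∧ {u : ZMod 23 → ZMod 2 | u ∈ {u : ZMod 23 → ZMod 2 | ∃ w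 ∈ Cfsg.golayCode, ∀ x : ZMod 23, u x = w (some x)} ∧ hammingNorm u = 16}.ncard = 253 ∧ ∀ u ∈ {u : ZMod 23 → ZMod 2 | ∃ w ∈ Cfsg.golayCode, ∀ x : ZMod 23, u x = w (some x)}, u ≠ 0 → 7 ≤ hammingNorm u := by
  open Cfsg.Agent.Lib.Cl.Punct Cfsg.Agent.Lib.Golay Cfsg.Agent.Lib.Compute in
  refine ⟨ncard_all, ?_, ?_, ?_, ?_, ?_, ?_, ?_⟩
  · rw [ncard_aux 7]; decide +kernel
  · rw [ncard_aux 8]; decide +kernel
  · rw [ncard_aux 11]; decide +kernel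
  · rw [ncard_aux 12]; decide +kernel
  · rw [ncard_aux 15]; decide +kernel
  · rw [ncard_aux 16]; decide +kernel
  · intro u hu hne
    obtain ⟨k, hk, rfl⟩ := mem_Cp_iff.1 hu
    exact seven_le hk hne


end Cfsg.Agent.S1636
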