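import Cfsg.Statements.S1637
import Mathlib
import Cfsg.Agent.Lib.Cl.Punct

set_option autoImplicit false
open Cfsg

namespace Cfsg.Agent.S1637

/-- The punctured length-23 code is a perfect 3-error-correcting code: each word of length 23 is within distance 3 of exactly one codeword. -/
theorem result (u : ZMod 23 → ZMod 2) : ∃! c : ZMod 23 → ZMod 2, c ∈ {u : ZMod 23 → ZMod 2 | ∃ w ∈ Cfsg.golayCode, ∀ x : ZMod 23, u x = w (some x)} ∧ hammingDist u c ≤ 3 := by
  open Cfsg.Agent.Lib.Cl.Punct in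
  obtain ⟨k, hk, hd⟩ := exists_near u
  refine ⟨pw k, ⟨mem_Cp_iff.2 ⟨k, hk, rfl⟩, hd⟩, ?_⟩
  rintro c ⟨hc, hdc⟩
  apply eq_of_dist_lt hc (mem_Cp_iff.2 ⟨k, hk, rfl⟩)
  have := hammingDist_triangle c u (pw k)
  rw [hammingDist_comm c u] at this
  omega


end Cfsg.Agent.S1637
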