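import Cfsg.Statements.S1638
import Mathlib
import Cfsg.Agent.Lib.M24.Flags

set_option autoImplicit false
open scoped Pointwise
open Cfsg

namespace Cfsg.Agent.S1638

open Cfsg.Agent.Lib.Compute Cfsg.Agent.Lib.Golay Cfsg.Agent.Lib.M24

/-- Generators of the stabiliser. -/
def aG : List ℕ := [968940291705983224811975700284770336, 975344642194136349789941773458605120, 982244300687823464770097918593303616, 984085346507332711729061765015308320, 971250062615488954382813322157885472]

/-- Parents. -/
def aPar : ℕ := 3063360814830072398067632743741992809648324051401775521352537724144689810870291068924931745290784328425575209791647006932407887851747270747814821722579728485054823343599923986283150790573838215442748418363951014014709481596909921249349855103193506609703388818364944701004223862527006849377415214733227322273700357174053088136812172660756036226693058803352344762796619496658828462576949279931703948224444525901488162786318165330594183499444244639295631567697161502850870667530284581850630585617378861731347595579738433832301595568793887497020990957465168225032315693694320537464063191587101143605841463176110678731897527187110877862228861240338837040878167991836453518476528261079424870342385205101325354513067914130647053317306906195957252993581056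

/-- Generator numbers. -/
def aGen : ℕ := 534991163171879310791872581645152961017930038143995472308184228571453486348022661684551839463050301814474217328276947997495177577000724792764730585000980475823910874853478809867288106533633488880133000745769713335055307294016298035553592107590615048

/-- Distances. -/
def aDist : ℕ := 479460567661198207969293610934053195685952869865274281239517146784876669416156938577311806338981748005388518460731333518731572154374455069454903796321911825201094734401097797137375360423944053497288019742002942244473581845013447965607954092179128328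

/-- Roots. -/
def aRoots : List ℕ := [0, 2, 3, 4, 9, 13, 253, 254, 256]

theorem a_gens : gensOK aG [23, 0] [6, 8388615] = true := by decide +kernel

theorem a_desc : descChk aG 276 (actM zs2) aRoots (pget 9 511 aPar) (pget 3 7 aGen) (pget 3 7 aDist) = true := by decide +kernel

/-- The mask of the points 23, 0, 1, 2. -/
abbrev X0 : ℕ := 8388615

/-- Kernel-friendly test for a common octad. -/
noncomputable def inOB (a b : ℕ) : Bool :=
  anyBelow (fun j => Nat.beq (Nat.land (ocT j) (Nat.lor a b)) (Nat.lor a b)) 759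

theorem inO_iff (b : ℕ) (hb : b < 2 ^ 24) : inO (enc.finOf X0) (enc.finOf b) ↔ inOB X0 b = true :=
  inO_table X0 b (by norm_num) hb

/-- The full invariant. -/
def invP (y : Finset GolayPt) : List ℕ × Prop := (invOf [23, 0] [6] y, inO (enc.finOf X0) y)

theorem invP_smul (σ : ↥M24) (hσ : σ ∈ fixSub [23, 0] [6, X0]) (z : Finset GolayPt) : invP (σ • z) = invP z := by
  have h1 : σ ∈ fixSub [23, 0] [6] :=
    ⟨hσ.1, fun m hm => hσ.2 m (by simp at hm; simp [hm])⟩
  have h2 : σ • (enc.finOf X0 : Finset GolayPt) = enc.finOf X0 := hσ.2 X0 (by simp)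
  have h3 : inO (enc.finOf X0) (σ • z) ↔ inO (enc.finOf X0) z := by
    rw [← inO_smul σ (enc.finOf X0) z, h2]
  unfold invP
  rw [invOf_smul h1, propext h3]

/-- Check of the roots. -/
noncomputable def rootsChk (roots : List ℕ) : Bool :=
  roots.all fun r => roots.all fun r' =>
    !(decide (invM [23, 0] [6] (zs2 r) = invM [23, 0] [6] (zs2 r'))) ||
    !(decide (inOB X0 (zs2 r) = inOB X0 (zs2 r'))) || Nat.beq r r'

theorem roots_ok : rootsChk aRoots = true := by decide +kernel

theorem zs2_lt (k : ℕ) : zs2 k < 2 ^ 24 := pget24_lt _ k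

theorem hdist : ∀ r ∈ aRoots, ∀ r' ∈ aRoots, (fun _ : List ℕ × Prop => True) (invP (enc.finOf (zs2 r))) →
    invP (enc.finOf (zs2 r)) = invP (enc.finOf (zs2 r')) → r = r' := by
  intro r hr r' hr' _ h
  have h3 := List.all_eq_true.1 (List.all_eq_true.1 roots_ok r hr) r' hr'
  unfold invP at h
  rw [Prod.mk.injEq, invOf_finOf (by simp), invOf_finOf (by simp)] at h
  obtain ⟨h1, h2⟩ := h
  have h4 : inOB X0 (zs2 r) = inOB X0 (zs2 r') := by
    have h5 := iff_of_eq h2
    rw [inO_iff _ (zs2_lt r), inO_iff _ (zs2_lt r')] at h5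
    cases h6 : inOB X0 (zs2 r) <;> cases h7 : inOB X0 (zs2 r') <;> simp_all
  simp only [Bool.or_eq_true, Bool.not_eq_true', decide_eq_false_iff_not] at h3
  rcases h3 with (h3 | h3) | h3
  · exact absurd h1 h3
  · exact absurd h4 h3
  · exact Nat.eq_of_beq_eq_true h3

theorem zs2_inj (a b : ℕ) (ha : a < 276) (hb : b < 276) (h : (enc.finOf (zs2 a) : Finset GolayPt) = enc.finOf (zs2 b)) : a = b :=
  zs2Table.inj a b ha hb h

/-- The count of pairs. -/
theorem ncard_pairs (c : ℕ) (b : Bool) :
    {y : Finset GolayPt | y ∈ {s : Finset GolayPt | s.card = 2} ∧ (invOf [23, 0] [6] y = [0, 0, c] ∧ (inO (enc.finOf X0) y ↔ b = true))}.ncard =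
      countBelow (fun k => decide (invM [23, 0] [6] (zs2 k) = [0, 0, c]) && decide (inOB X0 (zs2 k) = b)) 276 := by
  refine ncard_table_filter pairMaskTable zs2_inj _ (fun m => decide (invM [23, 0] [6] m = [0, 0, c]) && decide (inOB X0 m = b)) (fun k _ => ?_)
  rw [invOf_finOf (by simp), inO_iff _ (zs2_lt k)]
  simp only [Bool.and_eq_true, decide_eq_true_eq]
  refine and_congr_right fun _ => ?_
  cases inOB X0 (zs2 k) <;> cases b <;> simp

theorem count30 : countBelow (fun k => decide (invM [23, 0] [6] (zs2 k) = [0, 0, 0]) && decide (inOB X0 (zs2 k) = true)) 276 = 30 := by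
  decide +kernel

theorem count160 : countBelow (fun k => decide (invM [23, 0] [6] (zs2 k) = [0, 0, 0]) && decide (inOB X0 (zs2 k) = false)) 276 = 160 := by
  decide +kernel

theorem finOf_six : (enc.finOf 6 : Finset GolayPt) = {pt 1, pt 2} := by decide +kernel

theorem finOf_X0 : (enc.finOf X0 : Finset GolayPt) = {pt 23, pt 0, pt 1, pt 2} := by decide +kernel

/-- The normal form. -/
theorem normal_form {p q : GolayPt} (hpq : p ≠ q) {s : Finset GolayPt} (hs : s.card = 2 ∧ p ∉ s ∧ q ∉ s) :
    ∃ (g : ↥M24) (a b : GolayPt), s = {a, b} ∧ g.1 p = pt 23 ∧ g.1 q = pt 0 ∧ g.1 a = pt 1 ∧ g.1 b = pt 2 := by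
  obtain ⟨⟨a, b, hab, rfl⟩, hp, hq⟩ := (by
    obtain ⟨h1, h2, h3⟩ := hs
    exact ⟨Finset.card_eq_two.1 h1, h2, h3⟩ : (∃ a b, a ≠ b ∧ s = {a, b}) ∧ p ∉ s ∧ q ∉ s)
  have hpa : p ≠ a := fun h => hp (by simp [h])
  have hpb : p ≠ b := fun h => hp (by simp [h])
  have hqa : q ≠ a := fun h => hq (by simp [h])
  have hqb : q ≠ b := fun h => hq (by simp [h])
  have hT := M24_isMultiplyPretransitive 4 (by norm_num)
  let x : Fin 4 ↪ GolayPt := ⟨![p, q, a, b], by
    intro u v h
    fin_cases u <;> fin_cases v <;> simp_all⟩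
  let y : Fin 4 ↪ GolayPt := ⟨![pt 23, pt 0, pt 1, pt 2], by decide⟩
  obtain ⟨g, hg⟩ := MulAction.exists_smul_eq ↥M24 x y
  exact ⟨g, a, b, rfl, congrArg (fun e : Fin 4 ↪ GolayPt => e 0) hg, congrArg (fun e : Fin 4 ↪ GolayPt => e 1) hg,
    congrArg (fun e : Fin 4 ↪ GolayPt => e 2) hg, congrArg (fun e : Fin 4 ↪ GolayPt => e 3) hg⟩

/-- Fix two points p ≠ q and a pair s of two further points. Among the pairs avoiding p, q and disjoint from s, exactly 30 lie in an octad together with p, q and s and exactly 160 do not; and any two pairs other than s that meet s in equally many points and agree on that octad property are carried to one another by an element of the group of the length-24 code fixing p, q and s. -/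
theorem result (p q : Cfsg.GolayPt) (hpq : p ≠ q) (s : Finset Cfsg.GolayPt) (hs : (s.card = 2 ∧ p ∉ s ∧ q ∉ s)) : {t : Finset Cfsg.GolayPt | (t.card = 2 ∧ p ∉ t ∧ q ∉ t) ∧ Disjoint s t ∧ (∃ o ∈ Cfsg.octads, p ∈ o ∧ q ∈ o ∧ s ∪ t ⊆ o)}.ncard = 30 ∧ {t : Finset Cfsg.GolayPt | (t.card = 2 ∧ p ∉ t ∧ q ∉ t) ∧ Disjoint s t ∧ ¬ (∃ o ∈ Cfsg.octads, p ∈ o ∧ q ∈ o ∧ s ∪ t ⊆ o)}.ncard = 160 ∧ ∀ t t' : Finset Cfsg.GolayPt, (t.card = 2 ∧ p ∉ t ∧ q ∉ t) → (t'.card = 2 ∧ p ∉ t' ∧ q ∉ t') → t ≠ s → t' ≠ s → (s ∩ t).card = (s ∩ t').card → ((∃ o ∈ Cfsg.octads, p ∈ o ∧ q ∈ o ∧ s ∪ t ⊆ o) ↔ (∃ o ∈ Cfsg.octads, p ∈ o ∧ q ∈ o ∧ s ∪ t' ⊆ o)) → ∃ g : Equiv.Perm Cfsg.GolayPt, g ∈ Cfsg.M24 ∧ g p = p ∧ g q = q ∧ g • s = s ∧ g • t = t' := by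
  obtain ⟨g, a, b, rfl, hg, hg', ha, hb⟩ := normal_form hpq hs
  have hgs : g • ({a, b} : Finset GolayPt) = enc.finOf 6 := by
    rw [finOf_six]
    show g.1 • ({a, b} : Finset GolayPt) = _
    rw [Finset.smul_finset_insert, Finset.smul_finset_singleton]
    show ({g.1 a, g.1 b} : Finset GolayPt) = _
    rw [ha, hb]
  have hO : ∀ t : Finset GolayPt, (∃ o ∈ octads, p ∈ o ∧ q ∈ o ∧ ({a, b} : Finset GolayPt) ∪ t ⊆ o) ↔
      inO (enc.finOf X0) (g • t) := by
    intro t
    have key : ∀ o : Finset GolayPt, (p ∈ o ∧ q ∈ o ∧ ({a, b} : Finset GolayPt) ∪ t ⊆ o) ↔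
        (enc.finOf X0 : Finset GolayPt) ∪ g • t ⊆ g • o := by
      intro o
      rw [finOf_X0, Finset.union_subset_iff, Finset.union_subset_iff]
      have h1 : g • t ⊆ g • o ↔ t ⊆ o := Finset.smul_finset_subset_smul_finset_iff
      rw [h1]
      simp only [Finset.insert_subset_iff, Finset.singleton_subset_iff, pt_mem_smul_of g hg, pt_mem_smul_of g hg',
        pt_mem_smul_of g ha, pt_mem_smul_of g hb]
      tauto
    constructor
    · rintro ⟨o, ho, h⟩
      exact ⟨g • o, smul_mem_octads g.2 ho, (key o).1 h⟩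
    · rintro ⟨o, ho, h⟩
      have h2 : g • (g⁻¹ • o) = o := smul_inv_smul g o
      refine ⟨g⁻¹ • o, smul_mem_octads g⁻¹.2 ho, (key _).2 ?_⟩
      rw [h2]
      exact h
  have hinv : ∀ t : Finset GolayPt, invOf [23, 0] [6] (g • t) =
      [if p ∈ t then 1 else 0, if q ∈ t then 1 else 0, (({a, b} : Finset GolayPt) ∩ t).card] := by
    intro t
    simp only [invOf_two_one, pt_mem_smul_of g hg, pt_mem_smul_of g hg', inter_card_smul_of g hgs]
  have hcard : ∀ t : Finset GolayPt, (g • t).card = t.card := fun t => Finset.card_smul_finset g.1 t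
  have cnt : ∀ (c : Bool) (n : ℕ), countBelow (fun k => decide (invM [23, 0] [6] (zs2 k) = [0, 0, 0]) && decide (inOB X0 (zs2 k) = c)) 276 = n →
      {t : Finset GolayPt | (t.card = 2 ∧ p ∉ t ∧ q ∉ t) ∧ Disjoint ({a, b} : Finset GolayPt) t ∧ ((∃ o ∈ octads, p ∈ o ∧ q ∈ o ∧ ({a, b} : Finset GolayPt) ∪ t ⊆ o) ↔ c = true)}.ncard = n := by
    intro c n hn
    rw [← hn, ← ncard_pairs 0 c]
    apply ncard_eq_of_smul g
    intro y
    simp only [Set.mem_ofPred_eq, hinv, hcard, hO, Finset.disjoint_iff_inter_eq_empty, ← Finset.card_eq_zero]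
    by_cases h1 : p ∈ y <;> by_cases h2 : q ∈ y <;> simp [h1, h2]
  refine ⟨?_, ?_, ?_⟩
  · have := cnt true 30 count30
    simpa using this
  · have := cnt false 160 count160
    simpa using this
  · rintro t t' ⟨h1, h2, h3⟩ ⟨h1', h2', h3'⟩ _ _ h5 h6
    obtain ⟨σ, hσ, e⟩ := orbit_same (S := fixSub [23, 0] [6, X0]) (z := g • t) (z' := g • t') pairMaskTable
      (gensOK_spec a_gens (by simp)) a_desc invP invP_smul (fun _ => True) hdist
      (by rw [Set.mem_ofPred_eq, hcard, h1]) (by rw [Set.mem_ofPred_eq, hcard, h1']) trivial (by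
        unfold invP
        rw [hinv, hinv, if_neg h2, if_neg h3, if_neg h2', if_neg h3', h5, Prod.mk.injEq]
        exact ⟨rfl, propext (by rw [← hO, ← hO]; exact h6)⟩)
    exact ⟨(g⁻¹ * σ * g).1, (g⁻¹ * σ * g).2, conj_back_pt g σ hg (hσ.1 23 (by simp)), conj_back_pt g σ hg' (hσ.1 0 (by simp)),
      conj_back_set g σ hgs (hσ.2 _ (by simp)), conj_back_map g σ e⟩

end Cfsg.Agent.S1638
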