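import Cfsg.Statements.S1643
import Mathlib
import Cfsg.Agent.Lib.GS1.M22Max

set_option autoImplicit false
open scoped Pointwise
open Cfsg

namespace Cfsg.Agent.S1643

open Cfsg.Agent.Lib.GS1.M22 Cfsg.Agent.Lib.Golay Subgroup

theorem coatom_L : IsCoatom (LgS.subgroupOf Cfsg.M24) := by
  constructor
  · intro h
    have h1 : Cfsg.M24 ≤ LgS := (Subgroup.subgroupOf_eq_top).1 h
    have h2 := Nat.card_le_card_of_injective _ (Subgroup.inclusion_injective h1)
    rw [card_LgS, card_M24] at h2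
    omega
  · intro K hK
    have hinj : Function.Injective (Cfsg.M24.subtype) := Cfsg.M24.subtype_injective
    have hc : Nat.card (K.map Cfsg.M24.subtype) = Nat.card K := Subgroup.card_map_of_injective hinj
    have hle1 : K.map Cfsg.M24.subtype ≤ Cfsg.M24 := by
      rintro _ ⟨x, -, rfl⟩
      exact x.2
    have hle2 : LgS ≤ K.map Cfsg.M24.subtype := by
      intro σ hσ
      refine ⟨⟨σ, LgS_le_M24 hσ⟩, hK.le ?_, rfl⟩
      exact hσ
    rcases over_Lg hle1 hle2 with h | h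
    · exfalso
      have heq : K.map Cfsg.M24.subtype = LgS := by
        symm
        apply Subgroup.eq_of_le_of_card_ge hle2
        rw [h, card_LgS]
      apply hK.not_ge
      intro x hx
      show (x : Equiv.Perm Cfsg.GolayPt) ∈ LgS
      rw [← heq]
      exact ⟨x, hx, rfl⟩
    · apply Subgroup.eq_top_of_card_eq
      rw [← hc, h, card_M24]

theorem coatom_B : IsCoatom ((BgS.subgroupOf Cfsg.M24).subgroupOf (MulAction.stabilizer Cfsg.M24 (none : Cfsg.GolayPt))) := by
  constructor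
  · intro h
    have h1 : MulAction.stabilizer Cfsg.M24 (none : Cfsg.GolayPt) ≤ BgS.subgroupOf Cfsg.M24 :=
      (Subgroup.subgroupOf_eq_top).1 h
    have h2 : Nat.card ↥(MulAction.stabilizer Cfsg.M24 (none : Cfsg.GolayPt)) ≤ Nat.card BgS := by
      apply Nat.card_le_card_of_injective (fun m : ↥(MulAction.stabilizer Cfsg.M24 (none : Cfsg.GolayPt)) => (⟨((m : ↥Cfsg.M24) : Equiv.Perm Cfsg.GolayPt), h1 m.2⟩ : BgS))
      intro a b hab
      apply Subtype.ext
      apply Subtype.ext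
      have h3 := congrArg (fun x : BgS => (x : Equiv.Perm Cfsg.GolayPt)) hab
      exact h3
    rw [card_stabilizer_point, card_BgS] at h2
    omega
  · intro K hK
    let f : ↥(MulAction.stabilizer Cfsg.M24 (none : Cfsg.GolayPt)) →* Equiv.Perm Cfsg.GolayPt :=
      Cfsg.M24.subtype.comp (MulAction.stabilizer Cfsg.M24 (none : Cfsg.GolayPt)).subtype
    have hinj : Function.Injective f := by
      intro a b hab
      apply Subtype.ext
      apply Subtype.ext
      exact hab
    have hc : Nat.card (K.map f) = Nat.card K := Subgroup.card_map_of_injective hinj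
    have hle1 : K.map f ≤ Cfsg.M24 := by
      rintro _ ⟨x, -, rfl⟩
      exact (x : ↥Cfsg.M24).2
    have hfix : ∀ σ ∈ K.map f, σ none = none := by
      rintro _ ⟨x, -, rfl⟩
      exact x.2
    have hle2 : BgS ≤ K.map f := by
      intro σ hσ
      have h1 : σ ∈ Cfsg.M24 := BgS_le_M24 hσ
      have h2 : σ none = none := AffS_none (BgS_le_AffS hσ)
      refine ⟨⟨⟨σ, h1⟩, h2⟩, hK.le ?_, rfl⟩
      exact hσ
    rcases main_K hle1 hfix (hle2 tau_mem_BgS) (hle2 g0_mem_BgS) with h | h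
    · exfalso
      have heq : K.map f = BgS := by
        symm
        apply Subgroup.eq_of_le_of_card_ge hle2
        rw [h, card_BgS]
      apply hK.not_ge
      intro x hx
      show ((x : ↥Cfsg.M24) : Equiv.Perm Cfsg.GolayPt) ∈ BgS
      rw [← heq]
      exact ⟨x, hx, rfl⟩
    · apply Subgroup.eq_top_of_card_eq
      rw [← hc, h, card_stabilizer_point]

/-- PSL(2, 23) = ⟨t ↦ t+1, t ↦ u t (u square), t ↦ −1/t⟩ is maximal of order 6072 in the group of the length-24 code, and its point stabiliser 23:11 (order 253) is maximal in the Mathieu group of degree 23. -/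
theorem result : (Subgroup.closure ({Equiv.optionCongr (Equiv.addRight (1 : ZMod 23)), Cfsg.projInv} ∪ {g : Equiv.Perm Cfsg.GolayPt | ∃ u : (ZMod 23)ˣ, IsSquare u ∧ g = Equiv.optionCongr (Units.mulLeft u)}) ≤ Cfsg.M24 ∧ Nat.card ↥(Subgroup.closure ({Equiv.optionCongr (Equiv.addRight (1 : ZMod 23)), Cfsg.projInv} ∪ {g : Equiv.Perm Cfsg.GolayPt | ∃ u : (ZMod 23)ˣ, IsSquare u ∧ g = Equiv.optionCongr (Units.mulLeft u)})) = 6072 ∧ IsCoatom ((Subgroup.closure ({Equiv.optionCongr (Equiv.addRight (1 : ZMod 23)), Cfsg.projInv} ∪ {g : Equiv.Perm Cfsg.GolayPt | ∃ u : (ZMod 23)ˣ, IsSquare u ∧ g = Equiv.optionCongr (Units.mulLeft u)})).subgroupOf Cfsg.M24)) ∧ (Subgroup.closure ({Equiv.optionCongr (Equiv.addRight (1 : ZMod 23))} ∪ {g : Equiv.Perm Cfsg.GolayPt | ∃ u : (ZMod 23)ˣ, IsSquare u ∧ g = Equiv.optionCongr (Units.mulLeft u)}) ≤ Cfsg.M24 ⊓ MulAction.stabilizer (Equiv.Perm Cfsg.GolayPt) (none : Cfsg.GolayPt) ∧ Nat.card ↥(Subgroup.closure ({Equiv.optionCongr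 (Equiv.addRight (1 : ZMod 23))} ∪ {g : Equiv.Perm Cfsg.GolayPt | ∃ u : (ZMod 23)ˣ, IsSquare u ∧ g = Equiv.optionCongr (Units.mulLeft u)})) = 253 ∧ IsCoatom (((Subgroup.closure ({Equiv.optionCongr (Equiv.addRight (1 : ZMod 23))} ∪ {g : Equiv.Perm Cfsg.GolayPt | ∃ u : (ZMod 23)ˣ, IsSquare u ∧ g = Equiv.optionCongr (Units.mulLeft u)})).subgroupOf Cfsg.M24).subgroupOf (MulAction.stabilizer Cfsg.M24 (none : Cfsg.GolayPt)))) := by
  refine ⟨⟨LgS_le_M24, card_LgS, coatom_L⟩, ⟨?_, card_BgS, coatom_B⟩⟩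
  exact le_inf BgS_le_M24 (fun σ hσ => AffS_none (BgS_le_AffS hσ))

end Cfsg.Agent.S1643
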