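import Cfsg.Statements.S1691
import Mathlib

set_option autoImplicit false
open Cfsg

namespace Cfsg.Agent.S1691

open Cfsg.Spor Cfsg.Spor.Fi24

/-- All generators go to the element of order two. -/
def sgn : FreeGroup Gen →* Multiplicative (ZMod 2) :=
  FreeGroup.lift fun _ => Multiplicative.ofAdd 1

theorem sgn_of (x : Gen) : sgn (FreeGroup.of x) = Multiplicative.ofAdd 1 := FreeGroup.lift_apply_of

theorem sq_ofAdd : (Multiplicative.ofAdd (1 : ZMod 2)) * Multiplicative.ofAdd (1 : ZMod 2) = 1 := by decide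

theorem sgn_rels : ∀ r ∈ coxRelators edges ∪ {r | r ∈ extra}, sgn r = 1 := by
  rintro r (⟨x, _, y, _, rfl⟩ | hr)
  · rw [map_pow, map_mul, sgn_of, sgn_of, sq_ofAdd, one_pow]
  · have hr' : r ∈ extra := hr
    simp only [extra, List.mem_cons, List.not_mem_nil, or_false] at hr'
    rcases hr' with rfl | rfl
    · simp only [map_mul, map_inv, map_pow, sgn_of, Cfsg.Spor.Fi24.l, Cfsg.Spor.Fi24.a, Cfsg.Spor.Fi24.b, Cfsg.Spor.Fi24.c,
        Cfsg.Spor.Fi24.d, Cfsg.Spor.Fi24.e, Cfsg.Spor.Fi24.f, Cfsg.Spor.Fi24.h]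
      decide
    · simp only [map_mul, map_pow, sgn_of, Cfsg.Spor.Fi24.l, Cfsg.Spor.Fi24.a, Cfsg.Spor.Fi24.b, Cfsg.Spor.Fi24.c,
        Cfsg.Spor.Fi24.d, Cfsg.Spor.Fi24.e, Cfsg.Spor.Fi24.f, Cfsg.Spor.Fi24.h, Cfsg.Spor.Fi24.g, Cfsg.Spor.Fi24.i,
        Cfsg.Spor.Fi24.j, Cfsg.Spor.Fi24.k]
      decide

/-- The sign of the presented group. -/
noncomputable def sgnP : Cfsg.Spor.Fi24 →* Multiplicative (ZMod 2) :=
  PresentedGroup.toGroup (f := fun _ => Multiplicative.ofAdd 1) (by
    intro r hr
    exact sgn_rels r hr)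

theorem sgnP_of (x : Gen) : sgnP (PresentedGroup.of x) = Multiplicative.ofAdd 1 := PresentedGroup.toGroup.of _

theorem node_mem (x : Gen) : x ∈ coxNodes edges := by
  cases x <;> decide

/-- A node squares to one. -/
theorem of_sq (x : Gen) : (PresentedGroup.of x : Cfsg.Spor.Fi24) * PresentedGroup.of x = 1 := by
  have h : FreeGroup.of x * FreeGroup.of x ∈ coxRelators edges ∪ {r | r ∈ extra} := by
    refine Or.inl ⟨x, node_mem x, x, node_mem x, ?_⟩
    simp [coxLabel]
  have h1 := PresentedGroup.one_of_mem h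
  rw [map_mul] at h1
  exact h1

/-- Adjacent nodes are identified in the abelianization. -/
theorem adj_eq (x y : Gen) (h3 : coxLabel edges x y = 3) (q : Cfsg.Spor.Fi24 →* Cfsg.Spor.Fi24 ⧸ commutator Cfsg.Spor.Fi24) (hq : q = QuotientGroup.mk' _) :
    q (PresentedGroup.of x) = q (PresentedGroup.of y) := by
  have h : (FreeGroup.of x * FreeGroup.of y) ^ 3 ∈ coxRelators edges ∪ {r | r ∈ extra} := by
    refine Or.inl ⟨x, node_mem x, y, node_mem y, ?_⟩
    rw [h3]
  have h1 := PresentedGroup.one_of_mem h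
  rw [map_pow, map_mul] at h1
  have hcomm : ∀ a b : Cfsg.Spor.Fi24, q a * q b = q b * q a := by
    intro a b
    rw [hq]
    exact mul_comm (Abelianization.of a) (Abelianization.of b)
  have h2 := congrArg q h1
  rw [map_pow, map_mul, map_one] at h2
  have hx : q (PresentedGroup.of x) * q (PresentedGroup.of x) = 1 := by
    rw [← map_mul, of_sq, map_one]
  have hy : q (PresentedGroup.of y) * q (PresentedGroup.of y) = 1 := by
    rw [← map_mul, of_sq, map_one]
  set X := q (PresentedGroup.of x) with hX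
  set Y := q (PresentedGroup.of y) with hY
  have h4 : X * Y = 1 := by
    have h5 : (X * Y) ^ 2 = 1 := by
      rw [pow_two, mul_assoc, ← mul_assoc Y X Y, hcomm (PresentedGroup.of y) (PresentedGroup.of x), mul_assoc X Y Y, hy, mul_one, hx]
    have h6 : (X * Y) ^ 3 = (X * Y) ^ 2 * (X * Y) := pow_succ _ 2
    have h7 : (X * Y) ^ 3 = 1 := h2
    rw [h7, h5, one_mul] at h6
    exact h6.symm
  calc X = X * (Y * Y) := by rw [hy, mul_one]
    _ = X * Y * Y := by rw [mul_assoc]
    _ = Y := by rw [h4, one_mul]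

/-- The commutator subgroup of the presented group Fi₂₄ has index 2 (the presented group is Fi₂₄′:2 with Fi₂₄′ its derived subgroup). -/
theorem result : (commutator Cfsg.Spor.Fi24).index = 2 := by
  classical
  let q : Cfsg.Spor.Fi24 →* Cfsg.Spor.Fi24 ⧸ commutator Cfsg.Spor.Fi24 := QuotientGroup.mk' _
  have hq : q = QuotientGroup.mk' _ := rfl
  -- all nodes have the same image
  have hall : ∀ x : Gen, q (PresentedGroup.of x) = q (PresentedGroup.of Gen.a) := by
    have e1 := fun x y h => adj_eq x y h q hq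
    have hka := e1 Gen.k Gen.a (by decide)
    have hlk := e1 Gen.l Gen.k (by decide)
    have hba := e1 Gen.b Gen.a (by decide)
    have hcb := e1 Gen.c Gen.b (by decide)
    have hdc := e1 Gen.d Gen.c (by decide)
    have hed := e1 Gen.e Gen.d (by decide)
    have hfe := e1 Gen.f Gen.e (by decide)
    have hgf := e1 Gen.g Gen.f (by decide)
    have hjg := e1 Gen.j Gen.g (by decide)
    have hhd := e1 Gen.h Gen.d (by decide)
    have hih := e1 Gen.i Gen.h (by decide)
    intro x
    cases x
    · rw [hlk, hka]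
    · rw [hka]
    · rfl
    · rw [hba]
    · rw [hcb, hba]
    · rw [hdc, hcb, hba]
    · rw [hed, hdc, hcb, hba]
    · rw [hfe, hed, hdc, hcb, hba]
    · rw [hgf, hfe, hed, hdc, hcb, hba]
    · rw [hjg, hgf, hfe, hed, hdc, hcb, hba]
    · rw [hhd, hdc, hcb, hba]
    · rw [hih, hhd, hdc, hcb, hba]
  set t := q (PresentedGroup.of Gen.a) with ht
  have ht2 : t * t = 1 := by rw [ht, ← map_mul, of_sq, map_one]
  -- every element of the quotient is 1 or t
  have hel : ∀ g : Cfsg.Spor.Fi24, q g = 1 ∨ q g = t := by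
    intro g
    have hg : g ∈ Subgroup.closure (Set.range (PresentedGroup.of : Gen → Cfsg.Spor.Fi24)) := by
      rw [PresentedGroup.closure_range_of]
      trivial
    induction hg using Subgroup.closure_induction with
    | mem x hx =>
      obtain ⟨y, rfl⟩ := hx
      exact Or.inr (hall y)
    | one => exact Or.inl (map_one q)
    | mul a b _ _ ha hb =>
      rw [map_mul]
      rcases ha with ha | ha <;> rcases hb with hb | hb <;> rw [ha, hb]
      · exact Or.inl (one_mul 1)
      · exact Or.inr (one_mul t)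
      · exact Or.inr (mul_one t)
      · exact Or.inl ht2
    | inv a _ ha =>
      rw [map_inv]
      rcases ha with ha | ha <;> rw [ha]
      · exact Or.inl inv_one
      · exact Or.inr (inv_eq_of_mul_eq_one_left ht2)
  -- t is not trivial
  have hsgn : commutator Cfsg.Spor.Fi24 ≤ sgnP.ker := by
    exact Abelianization.commutator_subset_ker sgnP
  have ht1 : t ≠ 1 := by
    intro h
    have h1 : (PresentedGroup.of Gen.a : Cfsg.Spor.Fi24) ∈ commutator Cfsg.Spor.Fi24 := (QuotientGroup.eq_one_iff _).1 h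
    have h2 := hsgn h1
    rw [MonoidHom.mem_ker, sgnP_of] at h2
    exact absurd h2 (by decide)
  -- count
  show Nat.card (Cfsg.Spor.Fi24 ⧸ commutator Cfsg.Spor.Fi24) = 2
  have huniv : (Set.univ : Set (Cfsg.Spor.Fi24 ⧸ commutator Cfsg.Spor.Fi24)) = {1, t} := by
    ext y
    simp only [Set.mem_univ, Set.mem_insert_iff, Set.mem_singleton_iff, true_iff]
    obtain ⟨g, rfl⟩ := QuotientGroup.mk_surjective y
    exact hel g
  rw [← Set.ncard_univ, huniv, Set.ncard_pair (Ne.symm ht1)]

end Cfsg.Agent.S1691
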