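import Cfsg.Statements.S1696
import Mathlib
import Cfsg.Agent.Lib.TC.Data.Fi22Main

set_option autoImplicit false
open Cfsg

namespace Cfsg.Agent.S1696

/-- The presented Fischer group Fi22 is simple of the expected order (that is, it is a simple group of the order of the Fischer group Fi₂₂). -/
theorem result : Cfsg.IsFi22 Cfsg.Spor.Fi22 := by
  exact Cfsg.Agent.Lib.TC.Data.Fi22Main.main

end Cfsg.Agent.S1696
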