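import Cfsg.Statements.S1697
import Mathlib
import Cfsg.Agent.Lib.TC.Data.Fi23Main

set_option autoImplicit false
open Cfsg

namespace Cfsg.Agent.S1697

/-- The presented Fischer group Fi23 is simple of the expected order (that is, it is a simple group of the order of the Fischer group Fi₂₃). -/
theorem result : Cfsg.IsFi23 Cfsg.Spor.Fi23 := by
  exact Cfsg.Agent.Lib.TC.Data.Fi23Main.main

end Cfsg.Agent.S1697
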