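import Cfsg.Statements.S1717
import Mathlib

set_option autoImplicit false
open Cfsg

namespace Cfsg.Agent.S1717

abbrev M5 := Matrix (Fin 5) (Fin 5) (ZMod 2)
abbrev SL5 := Matrix.SpecialLinearGroup (Fin 5) (ZMod 2)

/-- flag position -/
def pos : Fin 5 → ℕ := ![0, 4, 1, 2, 3]

lemma pos_inj {i j : Fin 5} (h : pos i = pos j) : i = j := by
  revert h; revert i j; decide

lemma pos_le (i : Fin 5) : pos i ≤ 4 := by
  revert i; decide

def IsUT (A : M5) : Prop := (∀ i, A i i = 1) ∧ ∀ i j, pos j < pos i → A i j = 0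

lemma IsUT.mul {A B : M5} (hA : IsUT A) (hB : IsUT B) : IsUT (A * B) := by
  refine ⟨fun i => ?_, fun i j hij => ?_⟩
  · rw [Matrix.mul_apply, Finset.sum_eq_single i]
    · rw [hA.1, hB.1, one_mul]
    · intro k _ hk
      rcases lt_trichotomy (pos k) (pos i) with h | h | h
      · rw [hA.2 i k h, zero_mul]
      · exact absurd (pos_inj h) hk
      · rw [hB.2 k i h, mul_zero]
    · simp
  · rw [Matrix.mul_apply]
    refine Finset.sum_eq_zero fun k _ => ?_
    by_cases h : pos k < pos i
    · rw [hA.2 i k h, zero_mul]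
    · rw [hB.2 k j (by omega), mul_zero]

lemma isUT_one : IsUT (1 : M5) := by
  refine ⟨fun i => Matrix.one_apply_eq i, fun i j hij => Matrix.one_apply_ne ?_⟩
  rintro rfl; omega

/-- The group of unitriangular matrices for the flag. -/
def UU : Subgroup SL5 where
  carrier := {A | IsUT A.1}
  one_mem' := isUT_one
  mul_mem' := fun ha hb => IsUT.mul ha hb
  inv_mem' := by
    intro A hA
    have hpow : ∀ n : ℕ, IsUT ((A ^ n : SL5) : M5) := by
      intro n
      induction n with
      | zero => exact isUT_one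
      | succ n ih =>
        rw [pow_succ]
        exact IsUT.mul ih hA
    have h1 : A⁻¹ = A ^ (orderOf A - 1) := by
      apply inv_eq_of_mul_eq_one_right
      rw [← pow_succ', Nat.sub_add_cancel (orderOf_pos A), pow_orderOf_eq_one]
    show IsUT (A⁻¹ : SL5).1
    rw [h1]
    exact hpow _

lemma mem_UU {A : SL5} : A ∈ UU ↔ IsUT A.1 := Iff.rfl

lemma pow_eq_one_of_UT {A : M5} (hA : IsUT A) : A ^ 8 = 1 := by
  set N : M5 := A - 1 with hN
  have hNent : ∀ i j, pos j < pos i + 1 → N i j = 0 := by
    intro i j hij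
    rw [hN, Matrix.sub_apply]
    by_cases h : pos j < pos i
    · rw [hA.2 i j h, Matrix.one_apply_ne, sub_zero]
      rintro rfl; omega
    · have : i = j := pos_inj (by omega)
      subst this
      rw [hA.1, Matrix.one_apply_eq, sub_self]
  have hpow : ∀ m : ℕ, ∀ i j, pos j < pos i + m → (N ^ m) i j = 0 := by
    intro m
    induction m with
    | zero =>
      intro i j h
      rw [pow_zero, Matrix.one_apply_ne]
      rintro rfl; omega
    | succ m ih =>
      intro i j h
      rw [pow_succ, Matrix.mul_apply]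
      refine Finset.sum_eq_zero fun k _ => ?_
      by_cases hk : pos k < pos i + m
      · rw [ih i k hk, zero_mul]
      · rw [hNent k j (by omega), mul_zero]
  have hN5 : N ^ 5 = 0 := by
    ext i j
    rw [hpow 5 i j (by have := pos_le j; omega)]
    rfl
  have hN8 : N ^ 8 = 0 := by
    rw [show 8 = 5 + 3 by norm_num, pow_add, hN5, zero_mul]
  have hA' : A = 1 + N := by rw [hN]; abel
  have h2 : (1 + N) ^ (2 ^ 3) = 1 ^ (2 ^ 3) + N ^ (2 ^ 3) :=
    add_pow_char_pow_of_commute 2 3 (Commute.one_left N)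
  rw [hA']
  norm_num at h2
  rw [h2, hN8, add_zero]

lemma isP_UU : IsPGroup 2 UU := by
  intro g
  refine ⟨3, ?_⟩
  apply Subtype.ext
  apply Subtype.ext
  have := pow_eq_one_of_UT (mem_UU.1 g.2)
  show (((g : SL5) ^ (2 ^ 3 : ℕ) : SL5) : M5) = 1
  rw [Matrix.SpecialLinearGroup.coe_pow]
  simpa using this

/-- a transvection as element of SL -/
def tt (i j : Fin 5) (h : i ≠ j) : SL5 :=
  ⟨Matrix.transvection i j 1, Matrix.det_transvection_of_ne i j h 1⟩

lemma tt_mem {i j : Fin 5} (h : i ≠ j) (hp : pos i < pos j) : tt i j h ∈ UU := by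
  refine ⟨fun k => ?_, fun k l hkl => ?_⟩
  · show (Matrix.transvection i j (1 : ZMod 2)) k k = 1
    rw [Matrix.transvection, Matrix.add_apply, Matrix.one_apply_eq, Matrix.single_apply]
    simp only [ite_eq_right_iff, add_eq_left]
    rintro ⟨rfl, rfl⟩
    exact absurd rfl h
  · show (Matrix.transvection i j (1 : ZMod 2)) k l = 0
    have hkl' : k ≠ l := by rintro rfl; omega
    rw [Matrix.transvection, Matrix.add_apply, Matrix.one_apply_ne hkl', Matrix.single_apply, zero_add]
    rw [if_neg]
    rintro ⟨rfl, rfl⟩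
    omega

lemma comm_entries {y : M5} {i j : Fin 5} (h : y * Matrix.transvection i j 1 = Matrix.transvection i j 1 * y) :
    (∀ k, k ≠ i → y k i = 0) ∧ (∀ l, l ≠ j → y j l = 0) ∧ y i i = y j j := by
  have h1 : y * Matrix.single i j 1 = Matrix.single i j 1 * y := by
    rw [Matrix.transvection, mul_add, add_mul, mul_one, one_mul] at h
    exact add_left_cancel h
  refine ⟨fun k hk => ?_, fun l hl => ?_, ?_⟩
  · have := congrFun₂ h1 k j
    rw [Matrix.mul_single_apply_same, Matrix.single_mul_apply_of_ne _ _ _ _ _ hk, mul_one] at this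
    exact this
  · have := congrFun₂ h1 i l
    rw [Matrix.single_mul_apply_same, Matrix.mul_single_apply_of_ne _ _ _ _ _ hl, one_mul] at this
    exact this.symm
  · have := congrFun₂ h1 i j
    rw [Matrix.single_mul_apply_same, Matrix.mul_single_apply_same, one_mul, mul_one] at this
    exact this

lemma center_case {y s : SL5} (hs : (s : M5) = Matrix.transvection 0 1 1)
    (h1 : ∀ u ∈ UU, y * u = u * y) : y = 1 ∨ y = s := by
  have key : ∀ (i j : Fin 5) (h : i ≠ j), pos i < pos j →
      (∀ k, k ≠ i → y.1 k i = 0) ∧ (∀ l, l ≠ j → y.1 j l = 0) ∧ y.1 i i = y.1 j j := by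
    intro i j h hp
    apply comm_entries
    have := congrArg Subtype.val (h1 (tt i j h) (tt_mem h hp))
    exact this
  obtain ⟨a1, a2, a3⟩ := key 0 2 (by decide) (by decide)
  obtain ⟨b1, b2, b3⟩ := key 2 3 (by decide) (by decide)
  obtain ⟨c1, c2, c3⟩ := key 3 4 (by decide) (by decide)
  obtain ⟨d1, d2, d3⟩ := key 4 1 (by decide) (by decide)
  have hz2 : ∀ x : ZMod 2, x = 0 ∨ x = 1 := by decide
  have hl : y.1 0 0 = 1 := by
    rcases hz2 (y.1 0 0) with h | h
    · exfalso
      have hdet : y.1.det = 0 := by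
        apply Matrix.det_eq_zero_of_column_eq_zero (0 : Fin 5)
        intro i
        by_cases hi : i = 0
        · rw [hi, h]
        · exact a1 i hi
      rw [y.2] at hdet
      exact one_ne_zero hdet
    · exact h
  have hform : ∀ k l : Fin 5, y.1 k l = if k = l then 1 else if k = 0 ∧ l = 1 then y.1 0 1 else 0 := by
    intro k l
    have h00 := hl
    have h22 : y.1 2 2 = 1 := by rw [← a3]; exact hl
    have h33 : y.1 3 3 = 1 := by rw [← b3]; exact h22
    have h44 : y.1 4 4 = 1 := by rw [← c3]; exact h33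
    have h11 : y.1 1 1 = 1 := by rw [← d3]; exact h44
    fin_cases k <;> fin_cases l <;> simp <;> first
      | assumption
      | exact a1 _ (by decide)
      | exact a2 _ (by decide)
      | exact b1 _ (by decide)
      | exact b2 _ (by decide)
      | exact c1 _ (by decide)
      | exact c2 _ (by decide)
      | exact d1 _ (by decide)
      | exact d2 _ (by decide)
  rcases hz2 (y.1 0 1) with h | h
  · left
    apply Subtype.ext
    ext k l
    rw [hform, h]
    show _ = (1 : M5) k l
    by_cases hkl : k = l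
    · subst hkl; simp
    · rw [Matrix.one_apply_ne hkl]; simp [hkl]
  · right
    apply Subtype.ext
    ext k l
    rw [hs, hform, h, Matrix.transvection, Matrix.add_apply, Matrix.single_apply]
    by_cases hkl : k = l
    · subst hkl
      simp only [if_true, Matrix.one_apply_eq]
      rw [if_neg, add_zero]
      rintro ⟨rfl, h2⟩
      exact absurd h2 (by decide)
    · rw [Matrix.one_apply_ne hkl, zero_add, if_neg hkl]
      by_cases h3 : k = 0 ∧ l = 1
      · rw [if_pos h3, if_pos ⟨h3.1.symm, h3.2.symm⟩]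
      · rw [if_neg h3, if_neg (fun h4 => h3 ⟨h4.1.symm, h4.2.symm⟩)]

lemma UU_le_cent {s : SL5} (hs : (s : M5) = Matrix.transvection 0 1 1) :
    UU ≤ Subgroup.centralizer ({s} : Set SL5) := by
  intro A hA
  rw [Subgroup.mem_centralizer_singleton_iff]
  have hUT : IsUT A.1 := hA
  apply Subtype.ext
  show A.1 * s.1 = s.1 * A.1
  rw [hs, Matrix.transvection, mul_add, add_mul, mul_one, one_mul]
  congr 1
  ext k l
  by_cases hl : l = 1
  · subst hl
    rw [Matrix.mul_single_apply_same, mul_one]
    by_cases hk : k = 0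
    · subst hk
      rw [Matrix.single_mul_apply_same, one_mul, hUT.1, hUT.1]
    · rw [Matrix.single_mul_apply_of_ne _ _ _ _ _ hk, hUT.2 k 0 ?_]
      have : pos k ≠ pos 0 := fun h => hk (pos_inj h)
      have h0 : pos 0 = 0 := rfl
      omega
  · rw [Matrix.mul_single_apply_of_ne _ _ _ _ _ hl]
    by_cases hk : k = 0
    · subst hk
      rw [Matrix.single_mul_apply_same, one_mul, hUT.2 1 l ?_]
      have : pos l ≠ pos 1 := fun h => hl (pos_inj h)
      have h0 : pos 1 = 4 := rfl
      have := pos_le l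
      omega
    · rw [Matrix.single_mul_apply_of_ne _ _ _ _ _ hk]

lemma exists_normalizer_of_lt {G : Type*} [Group G] [Finite G] {P D : Subgroup G} (hP : IsPGroup 2 P) (hD : D < P) :
    ∃ a ∈ P, a ∉ D ∧ a ∈ Subgroup.normalizer (D : Set G) := by
  haveI : Fact (Nat.Prime 2) := ⟨Nat.prime_two⟩
  haveI : Group.IsNilpotent P := hP.isNilpotent
  have hlt : D.subgroupOf P < ⊤ := by
    refine lt_top_iff_ne_top.2 fun h => ?_
    rw [Subgroup.subgroupOf_eq_top] at h
    exact absurd h (not_le_of_gt hD)
  have h2 := normalizerCondition_of_isNilpotent (G := P) _ hlt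
  obtain ⟨a, ha, hna⟩ := SetLike.exists_of_lt h2
  refine ⟨a, a.2, hna, ?_⟩
  rw [Subgroup.mem_normalizer_iff] at ha ⊢
  intro x
  by_cases hx : x ∈ P
  · have := ha ⟨x, hx⟩
    simpa [Subgroup.mem_subgroupOf] using this
  · constructor
    · intro hxD; exact absurd (hD.le hxD) hx
    · intro hxD
      have h3 := hD.le hxD
      exfalso
      apply hx
      have : (a : G)⁻¹ * ((a : G) * x * (a : G)⁻¹) * (a : G) = x := by group
      rw [← this]
      exact P.mul_mem (P.mul_mem (P.inv_mem a.2) h3) a.2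

/-- Sylow conjugation: a 2-subgroup of `X` has a conjugate inside a given Sylow subgroup. -/
lemma exists_conj_le {X : Type*} [Group X] [Finite X] (T : Sylow 2 X) {A : Subgroup X} (hA : IsPGroup 2 A) :
    ∃ c : X, ∀ a ∈ A, c * a * c⁻¹ ∈ (T : Subgroup X) := by
  obtain ⟨Q, hQ⟩ := hA.exists_le_sylow
  obtain ⟨c, hc⟩ := MulAction.exists_smul_eq X Q T
  refine ⟨c, fun a ha => ?_⟩
  rw [← hc, Sylow.coe_subgroup_smul, Subgroup.mem_pointwise_smul_iff_inv_smul_mem]
  simpa [MulAut.smul_def, MulAut.conj_inv_apply, mul_assoc] using hQ ha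

theorem result_aux {G : Type*} [Group G] [Finite G] (s : SL5) (hs : (s : M5) = Matrix.transvection 0 1 1)
    (z : G) (hz : orderOf z = 2) (C : Subgroup G) (hCdef : C = Subgroup.centralizer ({z} : Set G))
    (D : Subgroup SL5) (hDdef : D = Subgroup.centralizer ({s} : Set SL5)) (e : C ≃* D) (T : Sylow 2 C) :
    ¬ 2 ∣ ((T : Subgroup C).map C.subtype).index := by
  classical
  intro hdvd
  have hzC : z ∈ C := by
    rw [hCdef, Subgroup.mem_centralizer_singleton_iff]
  let zc : C := ⟨z, hzC⟩
  have hzcen : ∀ t : C, zc * t = t * zc := by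
    intro t
    apply Subtype.ext
    have := Subgroup.mem_centralizer_singleton_iff.1 (show (t : G) ∈ Subgroup.centralizer ({z} : Set G) by rw [← hCdef]; exact t.2)
    exact this.symm
  -- the subgroup `UU` inside `D`, pulled back to `C`
  have hUD : UU ≤ D := hDdef ▸ UU_le_cent hs
  let U₁ : Subgroup C := ((UU.subgroupOf D).map e.symm.toMonoidHom)
  have hU₁ : IsPGroup 2 U₁ := (isP_UU.comap_of_injective D.subtype D.subtype_injective).map _
  -- the key: an element of `C` centralizing `T` is trivial or `e⁻¹ s`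
  let sD : D := ⟨s, by rw [hDdef, Subgroup.mem_centralizer_singleton_iff]⟩
  have hsD : ∀ t : D, sD * t = t * sD := by
    intro t
    apply Subtype.ext
    have := Subgroup.mem_centralizer_singleton_iff.1 (show (t : SL5) ∈ Subgroup.centralizer ({s} : Set SL5) by rw [← hDdef]; exact t.2)
    exact this.symm
  have hcenC : ∀ t : C, (∀ x ∈ (T : Subgroup C), x * t = t * x) → t = 1 ∨ t = e.symm sD := by
    intro t ht
    obtain ⟨c, hc⟩ := exists_conj_le T hU₁
    set y : D := e (c⁻¹ * t * c) with hy
    have h1 : ∀ u ∈ UU, (y : SL5) * u = u * y := by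
      intro u hu
      have hu' : u ∈ D := hUD hu
      have hmem : e.symm ⟨u, hu'⟩ ∈ U₁ := ⟨⟨u, hu'⟩, by simpa [Subgroup.mem_subgroupOf] using hu, rfl⟩
      have h2 := ht _ (hc _ hmem)
      have h3 : e.symm ⟨u, hu'⟩ * (c⁻¹ * t * c) = (c⁻¹ * t * c) * e.symm ⟨u, hu'⟩ := by
        have h4 : c⁻¹ * (c * e.symm ⟨u, hu'⟩ * c⁻¹ * t) * c = c⁻¹ * (t * (c * e.symm ⟨u, hu'⟩ * c⁻¹)) * c := by rw [h2]
        calc e.symm ⟨u, hu'⟩ * (c⁻¹ * t * c) = c⁻¹ * (c * e.symm ⟨u, hu'⟩ * c⁻¹ * t) * c := by group
          _ = c⁻¹ * (t * (c * e.symm ⟨u, hu'⟩ * c⁻¹)) * c := h4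
          _ = _ := by group
      have h5 := congrArg e h3
      rw [map_mul e (e.symm _) (c⁻¹ * t * c), map_mul e (c⁻¹ * t * c) (e.symm _), MulEquiv.apply_symm_apply] at h5
      have h6 := congrArg Subtype.val h5
      exact h6.symm
    rcases center_case hs h1 with h2 | h2
    · left
      have h3 : y = 1 := Subtype.ext h2
      have h4 : c⁻¹ * t * c = 1 := by
        have := congrArg e.symm h3
        rwa [hy, MulEquiv.symm_apply_apply, map_one] at this
      calc t = c * (c⁻¹ * t * c) * c⁻¹ := by group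
        _ = 1 := by rw [h4]; group
    · right
      have h3 : y = sD := Subtype.ext h2
      have h4 : c⁻¹ * t * c = e.symm sD := by
        have := congrArg e.symm h3
        rwa [hy, MulEquiv.symm_apply_apply] at this
      have h5 : ∀ w : C, e.symm sD * w = w * e.symm sD := by
        intro w
        have := congrArg e.symm (hsD (e w))
        simpa using this
      calc t = c * (c⁻¹ * t * c) * c⁻¹ := by group
        _ = c * e.symm sD * c⁻¹ := by rw [h4]
        _ = e.symm sD * c * c⁻¹ := by rw [← h5 c]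
        _ = e.symm sD := by group
  -- `z` lies in `T`
  have hzT : zc ∈ (T : Subgroup C) := by
    have hp : IsPGroup 2 (Subgroup.zpowers zc) := by
      refine IsPGroup.of_card (n := 1) ?_
      rw [Nat.card_zpowers]
      have : orderOf zc = 2 := by
        rw [← hz]
        exact Subgroup.orderOf_mk z hzC
      rw [this]; norm_num
    obtain ⟨c, hc⟩ := exists_conj_le T hp
    have := hc zc (Subgroup.mem_zpowers zc)
    rwa [hzcen c |>.symm, mul_assoc, mul_inv_cancel, mul_one] at this
  have hzne : zc ≠ 1 := by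
    intro h
    have h1 : z = 1 := congrArg Subtype.val h
    rw [h1, orderOf_one] at hz
    omega
  have hcomm_T : ∀ x ∈ (T : Subgroup C), x * zc = zc * x := fun x _ => (hzcen x).symm
  have hzs : zc = e.symm sD := (hcenC zc hcomm_T).resolve_left hzne
  set W : Subgroup G := ((T : Subgroup C)).map C.subtype with hW
  have hWp : IsPGroup 2 W := T.isPGroup'.map _
  obtain ⟨Q, hQ⟩ := hWp.exists_le_sylow
  have hne : W ≠ Q := by
    intro h
    rw [h] at hdvd
    exact Q.not_dvd_index hdvd
  have hlt : W < Q := lt_of_le_of_ne hQ hne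
  obtain ⟨a, haQ, haW, haN⟩ := exists_normalizer_of_lt Q.isPGroup' hlt
  -- `a` centralizes `z`
  have hzW : z ∈ W := ⟨zc, hzT, rfl⟩
  have haz : a * z * a⁻¹ = z := by
    have h1 : a * z * a⁻¹ ∈ W := (Subgroup.mem_normalizer_iff.1 haN z).1 hzW
    obtain ⟨t, ht, hte⟩ := h1
    have hcen : ∀ x ∈ (T : Subgroup C), x * t = t * x := by
      intro x hx
      apply Subtype.ext
      have hx' : (x : G) ∈ W := ⟨x, hx, rfl⟩
      have h2 : a⁻¹ * x * a⁻¹⁻¹ ∈ W := (Subgroup.mem_normalizer_iff.1 (Subgroup.inv_mem _ haN) x).1 hx'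
      obtain ⟨x', hx'T, hx'e⟩ := h2
      have h3 : x' * zc = zc * x' := hcomm_T x' hx'T
      have h4 : (x' : G) * z = z * x' := congrArg Subtype.val h3
      have hx'e' : (x' : G) = a⁻¹ * x * a := by simpa using hx'e
      have hte' : (t : G) = a * z * a⁻¹ := hte
      show (x : G) * t = t * x
      rw [hte']
      rw [hx'e'] at h4
      calc (x : G) * (a * z * a⁻¹) = a * ((a⁻¹ * x * a) * z) * a⁻¹ := by group
        _ = a * (z * (a⁻¹ * x * a)) * a⁻¹ := by rw [h4]
        _ = _ := by group
    rcases hcenC t hcen with h2 | h2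
    · exfalso
      have h3 : a * z * a⁻¹ = 1 := by rw [← hte, h2]; rfl
      have h4 : z = 1 := by
        have : z = a⁻¹ * (a * z * a⁻¹) * a := by group
        rw [this, h3]; group
      exact hzne (Subtype.ext h4)
    · rw [← hte, h2, ← hzs]
      rfl
  have haC : a ∈ C := by
    rw [hCdef, Subgroup.mem_centralizer_singleton_iff]
    calc a * z = a * z * a⁻¹ * a := by group
      _ = z * a := by rw [haz]
  -- maximality of `T`
  have hmax : (Q : Subgroup G).comap C.subtype = (T : Subgroup C) := by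
    apply T.is_maximal' (Q.isPGroup'.comap_of_injective _ C.subtype_injective)
    intro x hx
    exact hQ ⟨x, hx, rfl⟩
  have : (⟨a, haC⟩ : C) ∈ (T : Subgroup C) := by
    rw [← hmax]
    exact haQ
  exact haW ⟨_, this, rfl⟩


/-- Let G be a finite group with an involution z whose centraliser C is isomorphic to the centraliser of a transvection of SL(5, 2). Then a Sylow 2-subgroup of C, viewed in G, is a Sylow 2-subgroup of G (its index in G is odd). -/
theorem result {G : Type*} [Group G] [Finite G] (s : Matrix.SpecialLinearGroup (Fin 5) (ZMod 2)) (hs : (s : Matrix (Fin 5) (Fin 5) (ZMod 2)) = Matrix.transvection 0 1 1) (z : G) (hz : orderOf z = 2) (e : (Subgroup.centralizer ({z} : Set G)) ≃* Subgroup.centralizer ({s} : Set (Matrix.SpecialLinearGroup (Fin 5) (ZMod 2)))) (T : Sylow 2 (Subgroup.centralizer ({z} : Set G))) : ¬ 2 ∣ ((T : Subgroup (Subgroup.centralizer ({z} : Set G))).map (Subgroup.subtype (Subgroup.centralizer ({z} : Set G)))).index :=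
  result_aux s hs z hz _ rfl _ rfl e T

end Cfsg.Agent.S1717
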