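import Cfsg.Statements.S1753
import Mathlib

set_option autoImplicit false
universe u
open Cfsg

namespace Cfsg.Agent.S1753

/-- Let K be any property of groups. (1) If G is a minimal counterexample relative to K — a finite non-abelian simple group not satisfying K such that every finite non-abelian simple group of smaller order satisfies K — then every proper subgroup of G is a K-group (all its non-abelian simple sections satisfy K), since such sections have smaller order than G. (2) Consequently (induction on the order), if every finite non-abelian simple group all of whose proper subgroups are K-groups satisfies K, then every finite non-abelian simple group satisfies K. -/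
theorem result (K : ∀ (X : Type u) [Group X], Prop) :
    (∀ (G : Type u) [Group G], Cfsg.IsMinCounterexampleWith K G → Cfsg.IsKProperWith K G) ∧
      ((∀ (X : Type u) [Group X] [Finite X], IsSimpleGroup X → ¬ IsMulCommutative X → Cfsg.IsKProperWith K X → K X) →
        ∀ (G : Type u) [Group G] [Finite G], IsSimpleGroup G → ¬ IsMulCommutative G → K G) := by
  have h1 : ∀ (G : Type u) [Group G], Cfsg.IsMinCounterexampleWith K G → Cfsg.IsKProperWith K G := by
    intro G _ hG H hH H' N _ hs hn
    obtain ⟨hfin, hsimple, hnc, hnK, hmin⟩ := hG
    haveI := hfin
    apply hmin (↥H' ⧸ N) hs hn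
    calc Nat.card (↥H' ⧸ N) ≤ Nat.card H' :=
          Nat.le_of_dvd Nat.card_pos (Subgroup.card_quotient_dvd_card N)
      _ ≤ Nat.card H := Subgroup.card_le_card_group H'
      _ < Nat.card G := lt_of_le_of_ne (Subgroup.card_le_card_group H)
          (fun h => hH (Subgroup.eq_top_of_card_eq H h))
  refine ⟨h1, ?_⟩
  intro hX
  have key : ∀ (n : ℕ) (G : Type u) [Group G] [Finite G], Nat.card G = n →
      IsSimpleGroup G → ¬ IsMulCommutative G → K G := by
    intro n
    induction n using Nat.strong_induction_on with
    | _ n ih =>
      intro G _ _ hcard hs hn
      by_contra hK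
      apply hK
      apply hX G hs hn
      apply h1 G
      refine ⟨inferInstance, hs, hn, hK, ?_⟩
      intro X _ _ hXs hXn hc
      exact ih _ (hcard ▸ hc) X rfl hXs hXn
  intro G _ _ hs hn
  exact key _ G rfl hs hn

end Cfsg.Agent.S1753
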