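import Cfsg.Statements.S1754
import Mathlib
import Cfsg.Agent.Lib.FStar.Basic

set_option autoImplicit false
open Cfsg

namespace Cfsg.Agent.S1754

/-- Let A be a standard subgroup of the finite group G (A quasisimple, C_G(A) tightly embedded of even order, A commuting elementwise with no other conjugate of itself, and N_G(A) = N_G(C_G(A))), and let t be an involution of G centralizing A. Then the centralizer of t lies in the normalizer of A; in particular A, viewed inside C_G(t), is a component of C_G(t). -/
theorem result {G : Type*} [Group G] [Finite G]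
    (A : Subgroup G) (hA : Cfsg.IsStandardSubgroup A) (t : G) (ht : orderOf t = 2) (htA : t ∈ Subgroup.centralizer (A : Set G)) :
    Subgroup.centralizer ({t} : Set G) ≤ Subgroup.normalizer (A : Set G) ∧
      Cfsg.IsComponent (A.subgroupOf (Subgroup.centralizer ({t} : Set G))) := by
  obtain ⟨hq, ⟨hev, hte⟩, hc, hn⟩ := hA
  have h1 : Subgroup.centralizer ({t} : Set G) ≤ Subgroup.normalizer (A : Set G) := by
    intro g hg
    rw [hn]
    by_contra hgn
    have hodd := hte g hgn
    have hgt : g * t * g⁻¹ = t := by
      have := Subgroup.mem_centralizer_singleton_iff.mp hg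
      rw [this]; group
    have htK : t ∈ Subgroup.centralizer (A : Set G) ⊓
        (Subgroup.centralizer (A : Set G)).map (MulAut.conj g).toMonoidHom := by
      refine ⟨htA, ⟨t, htA, ?_⟩⟩
      simpa [MulAut.conj_apply] using hgt
    have hdvd : orderOf (⟨t, htK⟩ : ↥(Subgroup.centralizer (A : Set G) ⊓
        (Subgroup.centralizer (A : Set G)).map (MulAut.conj g).toMonoidHom)) ∣ Nat.card _ :=
      orderOf_dvd_natCard _
    rw [Subgroup.orderOf_mk, ht] at hdvd
    exact (Nat.not_even_iff_odd.mpr hodd) (even_iff_two_dvd.mpr hdvd)
  have hle : A ≤ Subgroup.centralizer ({t} : Set G) := by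
    intro a ha
    rw [Subgroup.mem_centralizer_singleton_iff]
    exact Subgroup.mem_centralizer_iff.mp htA a ha
  refine ⟨h1, ?_, ?_⟩
  · apply Subgroup.Normal.isSubnormal
    rw [Subgroup.normal_subgroupOf_iff_le_normalizer hle]
    exact h1
  · exact Cfsg.Agent.Lib.FStar.qs_of_mulEquiv (Subgroup.subgroupOfEquivOfLe hle).symm hq

end Cfsg.Agent.S1754
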