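import Cfsg.Statements.S1755
import Mathlib
import Cfsg.Agent.Lib.Cl.Symp

set_option autoImplicit false
open Cfsg

namespace Cfsg.Agent.S1755

open Subgroup Cfsg.Agent.Lib.Cl Cfsg.Agent.Lib.FStar

theorem aux {G : Type*} [Group G] [Finite G] (z : G) (hz : orderOf z = 2) (C : Subgroup G)
    (hC : C = centralizer ({z} : Set G)) (Fs : Subgroup ↥C) [Fs.Normal] (hzF : z ∈ Fs.map C.subtype)
    (hp : IsPGroup 2 ↥Fs)
    (hcyc : ∀ A : Subgroup ↥Fs, A.Characteristic → IsMulCommutative ↥A → IsCyclic ↥A)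
    (B : Subgroup ↥Fs) (hBc : B.Characteristic) (hBa : IsMulCommutative ↥B) (g : G) :
    ((B.map Fs.subtype).map C.subtype).map (MulAut.conj g).toMonoidHom = (B.map Fs.subtype).map C.subtype ∨
    ((B.map Fs.subtype).map C.subtype).map (MulAut.conj g).toMonoidHom ⊓ (B.map Fs.subtype).map C.subtype = ⊥ := by
  classical
  have hCle : ∀ x ∈ C, x * z = z * x := by
    intro x hx
    rw [hC] at hx
    exact mem_centralizer_singleton_iff.mp hx
  set B₁ : Subgroup ↥C := B.map Fs.subtype with hB₁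
  set B' : Subgroup G := B₁.map C.subtype with hB'
  have hBcyc : IsCyclic ↥B := hcyc B hBc hBa
  haveI : B₁.Normal := Cfsg.Agent.Lib.PGroup.map_subtype_normal_of_characteristic Fs B
  -- uniqueness of involutions in `B'`
  have huniq : ∀ u ∈ B', ∀ v ∈ B', orderOf u = 2 → orderOf v = 2 → u = v := by
    rintro _ ⟨_, ⟨u, hu, rfl⟩, rfl⟩ _ ⟨_, ⟨v, hv, rfl⟩, rfl⟩ h1 h2
    have h3 : orderOf u = 2 := by
      rw [← h1]
      exact ((Subgroup.orderOf_coe _).trans (Subgroup.orderOf_coe _)).symm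
    have h4 : orderOf v = 2 := by
      rw [← h2]
      exact ((Subgroup.orderOf_coe _).trans (Subgroup.orderOf_coe _)).symm
    rw [eq_of_orderOf_two_of_subgroup B hBcyc hu hv h3 h4]
  have hB'conj : ∀ x ∈ C, ∀ y ∈ B', x * y * x⁻¹ ∈ B' := by
    rintro x hx _ ⟨y, hy, rfl⟩
    exact ⟨⟨x, hx⟩ * y * (⟨x, hx⟩ : C)⁻¹, Subgroup.Normal.conj_mem inferInstance y hy _, rfl⟩
  have hconjC : ∀ x ∈ C, B'.map (MulAut.conj x).toMonoidHom = B' := by
    intro x hx
    apply le_antisymm
    · rintro _ ⟨y, hy, rfl⟩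
      exact hB'conj x hx y hy
    · intro y hy
      refine ⟨x⁻¹ * y * x⁻¹⁻¹, hB'conj x⁻¹ (C.inv_mem hx) y hy, ?_⟩
      simp [MulAut.conj_apply]
      group
  by_cases hbot : B'.map (MulAut.conj g).toMonoidHom ⊓ B' = ⊥
  · exact Or.inr hbot
  left
  obtain ⟨⟨x, hx⟩, hx1'⟩ := (Subgroup.ne_bot_iff_exists_ne_one.mp hbot)
  have hx1 : x ≠ 1 := fun h => hx1' (Subtype.ext h)
  have h2elt : ∀ y ∈ B', ∃ n : ℕ, orderOf y = 2 ^ n := by
    rintro _ ⟨_, ⟨u, hu, rfl⟩, rfl⟩
    obtain ⟨n, hn⟩ := IsPGroup.iff_orderOf.mp hp u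
    refine ⟨n, ?_⟩
    rw [← hn]
    exact ((Subgroup.orderOf_coe _).trans (Subgroup.orderOf_coe _))
  obtain ⟨w, hw, hw2⟩ := exists_orderOf_two_of_ne_one (B'.map (MulAut.conj g).toMonoidHom ⊓ B')
    (fun y hy => h2elt y hy.2) hx hx1
  -- `w` is fixed by `g`
  have hgw : g * w * g⁻¹ = w := by
    obtain ⟨w', hw', hw'e⟩ := hw.1
    have hw'2 : orderOf w' = 2 := by
      rw [← hw2, ← hw'e]
      exact (MulEquiv.orderOf_eq (MulAut.conj g) w').symm
    have h3 := huniq w' hw' w hw.2 hw'2 hw2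
    have h4 : g * w' * g⁻¹ = w := hw'e
    rwa [h3] at h4
  -- `w` and `z` lie in the centre of `Fs`
  have hwz : w = z := by
    obtain ⟨_, ⟨w₀, hw₀, rfl⟩, rfl⟩ := hw.2
    obtain ⟨z₀, hz₀, hz₀e⟩ := hzF
    have hcen : IsCyclic ↥(center ↥Fs) := hcyc (center ↥Fs) inferInstance inferInstance
    have hwo : orderOf w₀ = 2 := by
      rw [← hw2]
      exact ((Subgroup.orderOf_coe _).trans (Subgroup.orderOf_coe _)).symm
    have hzo : orderOf (⟨z₀, hz₀⟩ : Fs) = 2 := by
      rw [Subgroup.orderOf_mk, ← hz, ← hz₀e]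
      exact (Subgroup.orderOf_coe _).symm
    have hwc : w₀ ∈ center ↥Fs := by
      rw [mem_center_iff]
      intro f
      haveI : B.Normal := Subgroup.normal_of_characteristic B
      have h1 : f * w₀ * f⁻¹ ∈ B := Subgroup.Normal.conj_mem inferInstance w₀ hw₀ f
      have h2 : orderOf (f * w₀ * f⁻¹) = 2 := by
        rw [← hwo]
        exact MulEquiv.orderOf_eq (MulAut.conj f) w₀
      have h3 := eq_of_orderOf_two_of_subgroup B hBcyc h1 hw₀ h2 hwo
      calc f * w₀ = (f * w₀ * f⁻¹) * f := by group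
        _ = w₀ * f := by rw [h3]
    have hzc : (⟨z₀, hz₀⟩ : Fs) ∈ center ↥Fs := by
      rw [mem_center_iff]
      intro f
      apply Subtype.ext
      apply Subtype.ext
      have h2 := hCle _ (f : C).2
      have h3 : ((z₀ : C) : G) = z := hz₀e
      show ((f : C) : G) * ((z₀ : C) : G) = ((z₀ : C) : G) * ((f : C) : G)
      rw [h3]
      exact h2
    have h5 := eq_of_orderOf_two_of_subgroup (center ↥Fs) hcen hwc hzc hwo hzo
    rw [← hz₀e, h5]
    rfl
  have hgC : g ∈ C := by
    rw [hC, mem_centralizer_singleton_iff]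
    rw [hwz] at hgw
    calc g * z = (g * z * g⁻¹) * g := by group
      _ = z * g := by rw [hgw]
  exact hconjC g hgC

/-- Let G be a finite group and let z be an involution of G such that Q, the generalized Fitting subgroup of the centralizer C of z, is a 2-group of symplectic type (every characteristic abelian subgroup of Q is cyclic). Let B be a characteristic abelian subgroup of Q, viewed as a subgroup of G. Then for every g in G, the conjugate of B by g either equals B or meets B trivially. -/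
theorem result {G : Type*} [Group G] [Finite G] (z : G) (hz : orderOf z = 2) (hQ : Cfsg.IsOfSymplecticType ↥(Cfsg.generalizedFittingSubgroup ↥(Subgroup.centralizer ({z} : Set G))))
    (B : Subgroup ↥(Cfsg.generalizedFittingSubgroup ↥(Subgroup.centralizer ({z} : Set G)))) (hBc : B.Characteristic) (hBa : IsMulCommutative ↥B) (g : G) :
    ((B.map (Cfsg.generalizedFittingSubgroup ↥(Subgroup.centralizer ({z} : Set G))).subtype).map (Subgroup.centralizer ({z} : Set G)).subtype).map (MulAut.conj g).toMonoidHom =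
        (B.map (Cfsg.generalizedFittingSubgroup ↥(Subgroup.centralizer ({z} : Set G))).subtype).map (Subgroup.centralizer ({z} : Set G)).subtype ∨
      ((B.map (Cfsg.generalizedFittingSubgroup ↥(Subgroup.centralizer ({z} : Set G))).subtype).map (Subgroup.centralizer ({z} : Set G)).subtype).map (MulAut.conj g).toMonoidHom ⊓
        (B.map (Cfsg.generalizedFittingSubgroup ↥(Subgroup.centralizer ({z} : Set G))).subtype).map (Subgroup.centralizer ({z} : Set G)).subtype = ⊥ :=
  aux z hz _ rfl _ (self_mem_cQ z) hQ.1 hQ.2 B hBc hBa g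

end Cfsg.Agent.S1755
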