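import Cfsg.Statements.S1756
import Mathlib
import Cfsg.Agent.Lib.PGroup.Pairing
import Cfsg.Agent.Lib.FStar.Basic

set_option autoImplicit false
open Cfsg

namespace Cfsg.Agent.S1756

open Subgroup Cfsg.Agent.Lib.FStar
open scoped commutatorElement

theorem eq_of_card_two {G : Type*} [Group G] {Z : Subgroup G} (h : Nat.card Z = 2) {c z : G} (hc : c ∈ Z) (hc1 : c ≠ 1)
    (hz : z ∈ Z) : z = 1 ∨ z = c := by
  by_cases hz1 : z = 1
  · exact Or.inl hz1
  right
  obtain ⟨y, -, hy⟩ := (Nat.card_eq_two_iff' (1 : Z)).mp h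
  have h1 := hy ⟨c, hc⟩ (fun h2 => hc1 (congrArg Subtype.val h2))
  have h2 := hy ⟨z, hz⟩ (fun h2 => hz1 (congrArg Subtype.val h2))
  exact congrArg Subtype.val (h2.trans h1.symm)

/-- Let Q be an extraspecial 2-subgroup of the finite group G (special with centre of order 2) and t an involution of G normalizing Q such that the centralizer of t in Q has index at most 2 in Q. Then t lies in the product of Q with the centralizer of Q. -/
theorem result {G : Type*} [Group G] [Finite G] (Q : Subgroup G)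
    (hQ : Cfsg.IsExtraspecial 2 ↥Q) (t : G) (ht : orderOf t = 2) (htN : t ∈ Subgroup.normalizer (Q : Set G))
    (hi : (Subgroup.centralizer ({t} : Set G) ⊓ Q).relIndex Q ≤ 2) :
    t ∈ Q ⊔ Subgroup.centralizer (Q : Set G) := by
  classical
  haveI : Fact (Nat.Prime 2) := ⟨Nat.prime_two⟩
  obtain ⟨⟨hQp, hfr, hcomQ⟩, hZc⟩ := hQ
  have htt : t * t = 1 := by
    have := pow_orderOf_eq_one t
    rwa [ht, pow_two] at this
  have htinv : t⁻¹ = t := inv_eq_of_mul_eq_one_left htt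
  have htQ : ∀ q ∈ Q, t * q * t⁻¹ ∈ Q := fun q hq => (Subgroup.mem_normalizer_iff.mp htN q).mp hq
  by_cases hQt : Q ≤ Subgroup.centralizer ({t} : Set G)
  · apply Subgroup.mem_sup_right
    rw [Subgroup.mem_centralizer_iff]
    intro q hq
    exact Subgroup.mem_centralizer_singleton_iff.mp (hQt hq)
  obtain ⟨q₀, hq₀Q, hq₀⟩ := Set.not_subset.mp hQt
  set D : Subgroup G := Subgroup.centralizer ({t} : Set G) ⊓ Q with hD
  have hDQ : D ≤ Q := inf_le_right
  have hmemD : ∀ {q : G}, q ∈ Q → (q ∈ Subgroup.centralizer ({t} : Set G) ↔ q ∈ D) :=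
    fun hq => ⟨fun h => ⟨h, hq⟩, fun h => h.1⟩
  have hcomt : ∀ {q : G}, q ∈ D → t * q * t⁻¹ = q := by
    intro q hq
    have h1 : q * t = t * q := Subgroup.mem_centralizer_singleton_iff.mp hq.1
    rw [← h1]; group
  have hrel : D.relIndex Q = 2 := by
    have h1 : D.relIndex Q ≠ 1 := by
      intro h
      have h2 : Q ≤ D := Subgroup.relIndex_eq_one.mp h
      exact hq₀ (h2 hq₀Q).1
    have h2 : D.relIndex Q ≠ 0 := Subgroup.FiniteIndex.index_ne_zero
    omega
  have hidx : (D.subgroupOf Q).index = 2 := hrel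
  -- two elements outside `D`
  have hD2 : ∀ q ∈ Q, ∀ q' ∈ Q, q ∉ D → q' ∉ D → q⁻¹ * q' ∈ D := by
    intro q hq q' hq' h1 h2
    have h3 := (Subgroup.mul_mem_iff_of_index_two hidx (a := (⟨q, hq⟩ : Q)⁻¹) (b := ⟨q', hq'⟩)).mpr (by
      constructor
      · intro h4
        exfalso
        apply h1
        have h5 : (⟨q, hq⟩ : Q) ∈ D.subgroupOf Q := by
          have := Subgroup.inv_mem _ h4
          simpa using this
        exact h5
      · intro h4
        exact absurd h4 h2)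
    exact h3
  have hq₀D : q₀ ∉ D := fun h => hq₀ h.1
  set c : G := t * q₀ * t⁻¹ * q₀⁻¹ with hc
  have hcQ : c ∈ Q := Q.mul_mem (htQ q₀ hq₀Q) (Q.inv_mem hq₀Q)
  have hc1 : c ≠ 1 := by
    intro h
    apply hq₀
    show q₀ ∈ Subgroup.centralizer ({t} : Set G)
    rw [Subgroup.mem_centralizer_singleton_iff]
    have h1 : t * q₀ * t⁻¹ = q₀ := by
      calc t * q₀ * t⁻¹ = c * q₀ := by simp only [hc, inv_mul_cancel_right]
        _ = q₀ := by rw [h, one_mul]
    calc q₀ * t = (t * q₀ * t⁻¹) * t := by rw [h1]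
      _ = t * q₀ := by group
  have hcall : ∀ q ∈ Q, q ∉ D → t * q * t⁻¹ = c * q := by
    intro q hq hqD
    have hd := hD2 q₀ hq₀Q q hq hq₀D hqD
    have h1 := hcomt hd
    have h2 : q = q₀ * (q₀⁻¹ * q) := by group
    calc t * q * t⁻¹ = (t * q₀ * t⁻¹) * (t * (q₀⁻¹ * q) * t⁻¹) := by group
      _ = (t * q₀ * t⁻¹) * (q₀⁻¹ * q) := by rw [h1]
      _ = c * q := by simp only [hc]; group
  have htc : t * c * t⁻¹ = c⁻¹ := by
    simp only [hc, htinv]
    calc t * (t * q₀ * t * q₀⁻¹) * t = (t * t) * q₀ * t * q₀⁻¹ * t := by group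
      _ = q₀ * t * q₀⁻¹ * t := by rw [htt, one_mul]
      _ = (t * q₀ * t * q₀⁻¹)⁻¹ := by
        simp only [mul_inv_rev, inv_inv, htinv]
        group
  -- `c` is an involution centralized by `t`
  have hcD : c ∈ D := by
    by_contra hcD
    have h1 := hcall c hcQ hcD
    rw [htc] at h1
    have h2 : c ^ 3 = 1 := by
      have h3 : c * c * c = 1 := by
        calc c * c * c = c * (c * c) := by group
          _ = c⁻¹⁻¹ * (c * c) := by simp
          _ = (c * c)⁻¹ * (c * c) := by rw [← h1]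
          _ = 1 := by simp
      simpa [pow_succ, pow_two] using h3
    obtain ⟨n, hn⟩ := IsPGroup.iff_orderOf.mp hQp ⟨c, hcQ⟩
    rw [Subgroup.orderOf_mk] at hn
    have h4 : orderOf c ∣ 3 := orderOf_dvd_of_pow_eq_one h2
    rw [hn] at h4
    have h5 : n = 0 := by
      by_contra hn0
      have h6 : 2 ∣ 2 ^ n := dvd_pow_self 2 hn0
      have h7 := h6.trans h4
      omega
    rw [h5, pow_zero] at hn
    exact hc1 (orderOf_eq_one_iff.mp hn)
  have hcc : c⁻¹ = c := by rw [← htc, hcomt hcD]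
  -- `c` is central in `Q`
  have hcent1 : ∀ q ∈ Q, q ∉ D → q * c = c * q := by
    intro q hq hqD
    have hqinvD : q⁻¹ ∉ D := fun h => hqD (by simpa using D.inv_mem h)
    have h1 := hcall q hq hqD
    have h2 := hcall q⁻¹ (Q.inv_mem hq) hqinvD
    have h3 : t * q * t⁻¹ = q * c := by
      have h4 : t * q⁻¹ * t⁻¹ = (t * q * t⁻¹)⁻¹ := by group
      rw [h4] at h2
      have h5 := congrArg (·⁻¹) h2
      simp only [inv_inv, mul_inv_rev, hcc] at h5
      exact h5
    rw [← h3, h1]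
  have hcent : ∀ q ∈ Q, q * c = c * q := by
    intro q hq
    by_cases hqD : q ∈ D
    · have h1 : q * q₀ ∉ D := fun h => hq₀D (by
        have := D.mul_mem (D.inv_mem hqD) h
        simpa using this)
      have h2 := hcent1 (q * q₀) (Q.mul_mem hq hq₀Q) h1
      have h3 := hcent1 q₀ hq₀Q hq₀D
      calc q * c = (q * q₀) * (q₀⁻¹ * c) := by group
        _ = (q * q₀) * (c * q₀⁻¹) := by
          have h4 : q₀⁻¹ * c = c * q₀⁻¹ := by
            calc q₀⁻¹ * c = q₀⁻¹ * (c * q₀) * q₀⁻¹ := by group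
              _ = q₀⁻¹ * (q₀ * c) * q₀⁻¹ := by rw [h3]
              _ = c * q₀⁻¹ := by group
          rw [h4]
        _ = ((q * q₀) * c) * q₀⁻¹ := by group
        _ = (c * (q * q₀)) * q₀⁻¹ := by rw [h2]
        _ = c * q := by group
    · exact hcent1 q hq hqD
  -- the centre of `Q` inside `G`
  set Z : Subgroup G := Q ⊓ Subgroup.centralizer (Q : Set G) with hZ
  have hZmap : Z = (Subgroup.center Q).map Q.subtype := by
    ext z
    constructor
    · rintro ⟨hzQ, hzC⟩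
      refine ⟨⟨z, hzQ⟩, ?_, rfl⟩
      rw [SetLike.mem_coe, Subgroup.mem_center_iff]
      intro g
      apply Subtype.ext
      exact (Subgroup.mem_centralizer_iff.mp hzC g g.2)
    · rintro ⟨w, hw, rfl⟩
      refine ⟨w.2, ?_⟩
      show (w : G) ∈ Subgroup.centralizer (Q : Set G)
      rw [Subgroup.mem_centralizer_iff]
      intro g hg
      exact congrArg Subtype.val ((Subgroup.mem_center_iff.mp hw) ⟨g, hg⟩)
  have hZcard : Nat.card Z = 2 := by
    rw [← hZc, hZmap]
    exact Nat.card_congr (Subgroup.equivMapOfInjective _ _ Q.subtype_injective).toEquiv.symm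
  have hcZ : c ∈ Z := ⟨hcQ, Subgroup.mem_centralizer_iff.mpr hcent⟩
  have hZ2 : ∀ z ∈ Z, z = 1 ∨ z = c := fun z hz => eq_of_card_two hZcard hcZ hc1 hz
  have hZD : Z ≤ D := by
    intro z hz
    rcases hZ2 z hz with rfl | rfl
    · exact D.one_mem
    · exact hcD
  have hZcomm : ∀ z ∈ Z, ∀ q ∈ Q, z * q = q * z := fun z hz q hq =>
    (Subgroup.mem_centralizer_iff.mp hz.2 q hq).symm
  -- commutators of `Q` lie in `Z`
  have hcomZ : ∀ a ∈ Q, ∀ b ∈ Q, ⁅a, b⁆ ∈ Z := by
    intro a ha b hb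
    rw [hZmap]
    refine ⟨⁅(⟨a, ha⟩ : Q), (⟨b, hb⟩ : Q)⁆, ?_, rfl⟩
    rw [SetLike.mem_coe, ← hcomQ]
    exact Subgroup.commutator_mem_commutator (Subgroup.mem_top _) (Subgroup.mem_top _)
  -- decomposition of `Q`
  have hdec : ∀ q ∈ Q, q ∉ D → ∃ d ∈ D, q = q₀ * d := fun q hq hqD =>
    ⟨q₀⁻¹ * q, hD2 q₀ hq₀Q q hq hq₀D hqD, by group⟩
  have hQDle : ⁅Q, D⁆ ≤ Z := by
    rw [Subgroup.commutator_le]
    intro a ha b hb
    exact hcomZ a ha b (hDQ hb)
  have hcQD : c ∈ ⁅Q, D⁆ := by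
    by_contra hne
    have hbot : ∀ a ∈ Q, ∀ b ∈ D, a * b = b * a := by
      intro a ha b hb
      have h1 : ⁅a, b⁆ ∈ ⁅Q, D⁆ := Subgroup.commutator_mem_commutator ha hb
      rcases hZ2 _ (hQDle h1) with h2 | h2
      · exact commutatorElement_eq_one_iff_mul_comm.mp h2
      · exact absurd (h2 ▸ h1) hne
    have h1 : q₀ ∈ Z := by
      refine ⟨hq₀Q, Subgroup.mem_centralizer_iff.mpr ?_⟩
      intro q hq
      by_cases hqD : q ∈ D
      · exact (hbot q₀ hq₀Q q hqD).symm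
      · obtain ⟨d, hd, rfl⟩ := hdec q hq hqD
        have h2 := hbot q₀ hq₀Q d hd
        calc q₀ * d * q₀ = q₀ * (d * q₀) := by group
          _ = q₀ * (q₀ * d) := by rw [h2]
    exact hq₀D (hZD h1)
  have hQDeq : ⁅Q, D⁆ = Z := by
    apply le_antisymm hQDle
    intro z hz
    rcases hZ2 z hz with rfl | rfl
    · exact Subgroup.one_mem _
    · exact hcQD
  have hDCQ : D ⊓ Subgroup.centralizer (Q : Set G) = Z := by
    apply le_antisymm
    · exact fun x hx => ⟨hDQ hx.1, hx.2⟩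
    · exact fun x hx => ⟨hZD hx, hx.2⟩
  have hpair := Cfsg.Agent.Lib.PGroup.relIndex_centralizer_eq_of_central_commutator Q D
    (by rw [hQDeq, hZcard]; exact Nat.prime_two)
    (by rw [hQDeq]; exact hZcomm)
    (by rw [hQDeq]; exact fun z hz b hb => hZcomm z hz b (hDQ hb))
    (by rw [hQDeq]; exact fun x hx => hx.1)
  rw [hDCQ] at hpair
  have hQcard : Nat.card D * 2 = Nat.card Q := by
    have h1 := Cfsg.Agent.Lib.PGroup.card_inf_mul_relIndex D Q
    rwa [inf_eq_left.mpr hDQ, hrel] at h1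
  have h1 := Cfsg.Agent.Lib.PGroup.card_inf_mul_relIndex Z D
  rw [inf_eq_left.mpr hZD, hZcard] at h1
  have h2 := Cfsg.Agent.Lib.PGroup.card_inf_mul_relIndex (Q ⊓ Subgroup.centralizer (D : Set G)) Q
  rw [inf_eq_left.mpr inf_le_left, hpair] at h2
  have hDpos : 0 < Nat.card D := Nat.card_pos
  have hcard4 : Nat.card ↥(Q ⊓ Subgroup.centralizer (D : Set G)) = 4 := by
    have h3 : 0 < Z.relIndex D := by
      rcases Nat.eq_zero_or_pos (Z.relIndex D) with h | h
      · rw [h] at h1; omega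
      · exact h
    have h4 : Nat.card ↥(Q ⊓ Subgroup.centralizer (D : Set G)) * Z.relIndex D = 4 * Z.relIndex D := by
      rw [h2, ← hQcard, ← h1]; ring
    exact Nat.eq_of_mul_eq_mul_right h3 h4
  obtain ⟨a, ha, haZ⟩ : ∃ a ∈ Q ⊓ Subgroup.centralizer (D : Set G), a ∉ Z := by
    by_contra hcon
    push_neg at hcon
    have h3 : Nat.card ↥(Q ⊓ Subgroup.centralizer (D : Set G)) ≤ Nat.card Z := Subgroup.card_le_of_le hcon
    omega
  have haQ : a ∈ Q := ha.1
  have haD : ∀ d ∈ D, a * d = d * a := fun d hd => (Subgroup.mem_centralizer_iff.mp ha.2 d hd).symm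
  have haq₀ : ⁅a, q₀⁆ ≠ 1 := by
    intro h
    have h1 : a * q₀ = q₀ * a := commutatorElement_eq_one_iff_mul_comm.mp h
    apply haZ
    refine ⟨haQ, Subgroup.mem_centralizer_iff.mpr ?_⟩
    intro q hq
    by_cases hqD : q ∈ D
    · exact (haD q hqD).symm
    · obtain ⟨d, hd, rfl⟩ := hdec q hq hqD
      calc q₀ * d * a = q₀ * (d * a) := by group
        _ = q₀ * (a * d) := by rw [haD d hd]
        _ = (q₀ * a) * d := by group
        _ = (a * q₀) * d := by rw [h1]
        _ = a * (q₀ * d) := by group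
  have hac : ⁅a, q₀⁆ = c := by
    rcases hZ2 _ (hcomZ a haQ q₀ hq₀Q) with h | h
    · exact absurd h haq₀
    · exact h
  have haq₀' : a * q₀ * a⁻¹ = t * q₀ * t⁻¹ := by
    have h1 : a * q₀ * a⁻¹ * q₀⁻¹ = t * q₀ * t⁻¹ * q₀⁻¹ := hac
    exact mul_right_cancel h1
  have haall : ∀ q ∈ Q, a * q * a⁻¹ = t * q * t⁻¹ := by
    intro q hq
    have hD' : ∀ d ∈ D, a * d * a⁻¹ = d := fun d hd => by rw [haD d hd]; group
    by_cases hqD : q ∈ D
    · rw [hD' q hqD, hcomt hqD]
    · obtain ⟨d, hd, rfl⟩ := hdec q hq hqD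
      calc a * (q₀ * d) * a⁻¹ = (a * q₀ * a⁻¹) * (a * d * a⁻¹) := by group
        _ = (t * q₀ * t⁻¹) * (t * d * t⁻¹) := by rw [haq₀', hD' d hd, hcomt hd]
        _ = t * (q₀ * d) * t⁻¹ := by group
  have hmem : a⁻¹ * t ∈ Subgroup.centralizer (Q : Set G) := by
    rw [Subgroup.mem_centralizer_iff]
    intro q hq
    have h1 := haall q hq
    have h2 : q * (a⁻¹ * t) * t⁻¹ * a = (a⁻¹ * t) * q * t⁻¹ * a := by
      calc q * (a⁻¹ * t) * t⁻¹ * a = q := by group
        _ = a⁻¹ * (a * q * a⁻¹) * a := by group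
        _ = a⁻¹ * (t * q * t⁻¹) * a := by rw [h1]
        _ = (a⁻¹ * t) * q * t⁻¹ * a := by group
    exact mul_right_cancel (mul_right_cancel h2)
  have h3 : t = a * (a⁻¹ * t) := by group
  rw [h3]
  exact Subgroup.mul_mem_sup haQ hmem

end Cfsg.Agent.S1756
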