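import Cfsg.Statements.S1757
import Mathlib
import Cfsg.Agent.Lib.Cl.Basic

set_option autoImplicit false
open Cfsg

namespace Cfsg.Agent.S1757

/-- Let p be a prime and A, B p-subgroups of the finite group G, each of which meets every conjugate of itself other than itself trivially. Suppose the order of A is at most that of B, A and B intersect trivially, and B normalizes A. Then A and B commute elementwise. -/
theorem result {G : Type*} [Group G] [Finite G] (p : ℕ) [Fact p.Prime] (A B : Subgroup G)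
    (hA : IsPGroup p ↥A) (hB : IsPGroup p ↥B)
    (hAti : ∀ g : G, A.map (MulAut.conj g).toMonoidHom = A ∨ A.map (MulAut.conj g).toMonoidHom ⊓ A = ⊥)
    (hBti : ∀ g : G, B.map (MulAut.conj g).toMonoidHom = B ∨ B.map (MulAut.conj g).toMonoidHom ⊓ B = ⊥)
    (hle : Nat.card ↥A ≤ Nat.card ↥B) (hAB : A ⊓ B = ⊥) (hN : B ≤ Subgroup.normalizer (A : Set G)) : ⁅A, B⁆ = ⊥ := by
  classical
  by_cases hAN : A ≤ Subgroup.normalizer (B : Set G)
  · exact Cfsg.Agent.Lib.Cl.commutator_eq_bot_of_commute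
      (fun a ha b hb => Cfsg.Agent.Lib.Cl.commute_of_normalize_of_inf_eq_bot hAN hN hAB ha hb)
  exfalso
  have hBN : B ≤ Subgroup.normalizer (B : Set G) := Subgroup.le_normalizer
  have hmemA : ∀ b ∈ B, ∀ a ∈ A, b * a * b⁻¹ ∈ A := fun b hb a ha =>
    (Subgroup.mem_normalizer_iff.mp (hN hb) a).mp ha
  have hmemS : ∀ b ∈ B, ∀ a : G, a ∉ Subgroup.normalizer (B : Set G) →
      b * a * b⁻¹ ∉ Subgroup.normalizer (B : Set G) := by
    intro b hb a ha h
    apply ha
    have h1 := Subgroup.mul_mem _ (Subgroup.mul_mem _ (Subgroup.inv_mem _ (hBN hb)) h) (hBN hb)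
    have h2 : b⁻¹ * (b * a * b⁻¹) * b = a := by group
    rwa [h2] at h1
  let S := {a : A // (a : G) ∉ Subgroup.normalizer (B : Set G)}
  letI act : MulAction B S :=
    { smul := fun b a => ⟨⟨b * a.1 * (b : G)⁻¹, hmemA b b.2 a.1 a.1.2⟩, hmemS b b.2 a.1 a.2⟩
      one_smul := fun a => Subtype.ext (Subtype.ext (by
        show ((1 : B) : G) * (a.1 : G) * ((1 : B) : G)⁻¹ = a.1
        simp))
      mul_smul := fun b c a => Subtype.ext (Subtype.ext (by
        show ((b * c : B) : G) * (a.1 : G) * ((b * c : B) : G)⁻¹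
          = (b : G) * ((c : G) * (a.1 : G) * (c : G)⁻¹) * (b : G)⁻¹
        simp [mul_assoc])) }
  have hsmul : ∀ (b : B) (s : S), (((b • s : S).1 : A) : G) = (b : G) * (s.1 : G) * (b : G)⁻¹ :=
    fun _ _ => rfl
  have hfree : ∀ s : S, MulAction.stabilizer B s = ⊥ := by
    intro s
    rw [eq_bot_iff]
    intro b hb
    rw [Subgroup.mem_bot]
    by_contra hb1
    have h1 : (b : G) * (s.1 : G) * (b : G)⁻¹ = s.1 := by
      have : b • s = s := hb
      rw [← hsmul, this]
    have h2 : (s.1 : G) * (b : G) * (s.1 : G)⁻¹ = b := by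
      rw [mul_inv_eq_iff_eq_mul] at h1 ⊢
      exact h1.symm
    apply s.2
    apply Cfsg.Agent.Lib.Cl.ti_mem_normalizer hBti b.2 (fun h => hb1 (Subtype.ext h))
    rw [h2]
    exact b.2
  have hcard : Nat.card S = Nat.card (MulAction.orbitRel.Quotient B S) * Nat.card B := by
    rw [Nat.card_congr (MulAction.selfEquivOrbitsQuotientProd hfree), Nat.card_prod]
  -- the complement count
  let A₀ : Subgroup A := (Subgroup.normalizer (B : Set G)).subgroupOf A
  have hA₀ne : A₀ ≠ ⊤ := by
    intro h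
    apply hAN
    intro a ha
    have : (⟨a, ha⟩ : A) ∈ A₀ := by rw [h]; trivial
    exact this
  have hsum : Nat.card S + Nat.card A₀ = Nat.card A := by
    have e := Equiv.sumCompl (fun a : A => (a : G) ∈ Subgroup.normalizer (B : Set G))
    have h1 := Nat.card_congr e
    rw [Nat.card_sum] at h1
    rw [← h1, add_comm]
    rfl
  obtain ⟨α, hα⟩ := IsPGroup.iff_card.mp hA
  obtain ⟨γ, hγ⟩ := IsPGroup.iff_card.mp hB
  obtain ⟨β, hβ⟩ := IsPGroup.iff_card.mp (IsPGroup.to_subgroup hA A₀)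
  have hpp : 1 < p := (Fact.out : p.Prime).one_lt
  have hβα : β < α := by
    have h1 : Nat.card A₀ < Nat.card A := lt_of_le_of_ne (Subgroup.card_le_card_group A₀)
      (fun h => hA₀ne (Subgroup.eq_top_of_card_eq A₀ h))
    rw [hα, hβ] at h1
    exact (Nat.pow_lt_pow_iff_right hpp).mp h1
  have hγle : γ ≤ β := by
    by_contra hgt
    push Not at hgt
    have h1 : p ^ (β + 1) ∣ Nat.card S := by
      rw [hcard, hγ]
      exact Dvd.dvd.mul_left (pow_dvd_pow p hgt) _
    have h2 : p ^ (β + 1) ∣ Nat.card A := by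
      rw [hα]; exact pow_dvd_pow p hβα
    have h3 : p ^ (β + 1) ∣ Nat.card A₀ := by
      rw [← hsum] at h2
      exact (Nat.dvd_add_right h1).mp h2
    rw [hβ] at h3
    have := (Nat.pow_dvd_pow_iff_le_right hpp).mp h3
    omega
  have : p ^ γ < p ^ α := (Nat.pow_lt_pow_iff_right hpp).mpr (lt_of_le_of_lt hγle hβα)
  rw [hα, hγ] at hle
  omega

end Cfsg.Agent.S1757
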