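import Cfsg.Statements.S1774
import Mathlib
import Cfsg.Agent.Lib.Cl.SympConj

set_option autoImplicit false
open Cfsg

namespace Cfsg.Agent.S1774

open Subgroup Cfsg.Agent.Lib.Cl Cfsg.Agent.Lib.FStar
open scoped commutatorElement

theorem sympFacts_cQ {G : Type*} [Group G] [Finite G] (z : G) (hz : orderOf z = 2)
    (hQ : Cfsg.IsOfSymplecticType ↥(Cfsg.generalizedFittingSubgroup ↥(Subgroup.centralizer ({z} : Set G))))
    (h4 : ∀ q ∈ cQ z, q ^ 4 = 1) : SympFacts (cQ z) z := by
  classical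
  set z₀ : ↥(Cfsg.generalizedFittingSubgroup ↥(Subgroup.centralizer ({z} : Set G))) :=
    ⟨⟨z, self_mem_centralizer z⟩, self_mem_gen z⟩ with hz₀
  have hz₀o : orderOf z₀ = 2 := by
    rw [← hz, hz₀, Subgroup.orderOf_mk, Subgroup.orderOf_mk]
  have hz₀c : z₀ ∈ center ↥(Cfsg.generalizedFittingSubgroup ↥(Subgroup.centralizer ({z} : Set G))) := by
    rw [mem_center_iff]
    intro g
    apply Subtype.ext
    apply Subtype.ext
    exact mem_centralizer_singleton_iff.mp (g : ↥(Subgroup.centralizer ({z} : Set G))).2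
  have h4' : ∀ q : ↥(Cfsg.generalizedFittingSubgroup ↥(Subgroup.centralizer ({z} : Set G))), q ^ 4 = 1 := by
    intro q
    apply Subtype.ext
    apply Subtype.ext
    exact h4 _ ⟨_, q.2, rfl⟩
  obtain ⟨hcom, hsq, hcen⟩ := symp_exp4_facts hQ h4' hz₀o hz₀c
  -- the embedding
  let ι : ↥(Cfsg.generalizedFittingSubgroup ↥(Subgroup.centralizer ({z} : Set G))) →* G :=
    (Subgroup.centralizer ({z} : Set G)).subtype.comp (Cfsg.generalizedFittingSubgroup ↥(Subgroup.centralizer ({z} : Set G))).subtype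
  have hι : ι z₀ = z := rfl
  have hzp : ∀ c, c ∈ zpowers z₀ → ι c ∈ zpowers z := by
    intro c hc
    obtain ⟨n, rfl⟩ := mem_zpowers_iff.mp hc
    exact ⟨n, by simp [hι]⟩
  refine ⟨hz, self_mem_cQ z, fun q hq => comm_of_mem_cQ hq, ?_, ?_, ?_, ?_, ?_⟩
  · rintro _ ⟨a₀, ha₀, rfl⟩ _ ⟨b₀, hb₀, rfl⟩
    have := hzp _ (hcom ⟨a₀, ha₀⟩ ⟨b₀, hb₀⟩)
    simpa [ι, commutatorElement_def] using this
  · rintro _ ⟨a₀, ha₀, rfl⟩
    have := hzp _ (hsq ⟨a₀, ha₀⟩)
    simpa [ι] using this
  · rintro _ ⟨c₀, hc₀, rfl⟩ h1 h2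
    have h3 : (⟨c₀, hc₀⟩ : ↥(Cfsg.generalizedFittingSubgroup ↥(Subgroup.centralizer ({z} : Set G)))) ∈ center _ := by
      rw [mem_center_iff]
      intro g
      apply Subtype.ext
      apply Subtype.ext
      exact (h1 _ ⟨_, g.2, rfl⟩).symm
    have h5 : (⟨c₀, hc₀⟩ : ↥(Cfsg.generalizedFittingSubgroup ↥(Subgroup.centralizer ({z} : Set G)))) *
        ⟨c₀, hc₀⟩ = 1 := by
      apply Subtype.ext
      apply Subtype.ext
      exact h2
    rcases hcen _ h3 h5 with h6 | h6
    · left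
      exact (congrArg ι h6).trans (map_one ι)
    · right
      exact congrArg ι h6
  · intro c hc q hq
    exact conj_mem_cQ (mem_centralizer_singleton_iff.mpr hc) hq
  · intro c hc hcq
    have hcC : c ∈ Subgroup.centralizer ({z} : Set G) := mem_centralizer_singleton_iff.mpr hc
    have h1 : (⟨c, hcC⟩ : ↥(Subgroup.centralizer ({z} : Set G))) ∈ centralizer
        ((Cfsg.generalizedFittingSubgroup ↥(Subgroup.centralizer ({z} : Set G)) : Subgroup _) : Set _) := by
      rw [Subgroup.mem_centralizer_iff]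
      intro g hg
      apply Subtype.ext
      exact (hcq (g : G) ⟨g, hg, rfl⟩).symm
    exact ⟨_, centralizer_gen_le h1, rfl⟩

theorem pairs' {G : Type*} [Group G] {z x : G} (hzz : z * z = 1) (hxx : x * x = 1) (hzx : z * x = x * z) {u : G}
    (hu : u ∈ Subgroup.closure ({z, x} : Set G)) : u = 1 ∨ u = z ∨ u = x ∨ u = z * x := by
  have h1 : ∀ t : G, x * (z * t) = z * (x * t) := fun t => by rw [← mul_assoc, ← hzx, mul_assoc]
  have h2 : ∀ t : G, z * (z * t) = t := fun t => by rw [← mul_assoc, hzz, one_mul]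
  have h3 : ∀ t : G, x * (x * t) = t := fun t => by rw [← mul_assoc, hxx, one_mul]
  induction hu using Subgroup.closure_induction with
  | mem y hy =>
    rcases hy with rfl | rfl
    · simp
    · simp
  | one => simp
  | mul a b _ _ ha hb =>
    rcases ha with rfl | rfl | rfl | rfl <;> rcases hb with rfl | rfl | rfl | rfl <;>
      simp [mul_assoc, h1, h2, h3, hzz, hxx, ← hzx]
  | inv a _ ha =>
    have hz' : z⁻¹ = z := inv_eq_of_mul_eq_one_left hzz
    have hx' : x⁻¹ = x := inv_eq_of_mul_eq_one_left hxx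
    rcases ha with rfl | rfl | rfl | rfl
    · simp
    · simp [hz']
    · simp [hx']
    · simp [hz', hx', hzx]

theorem pairs {G : Type*} [Group G] {z x : G} (hzz : z * z = 1) (hxx : x * x = 1) (hzx : z * x = x * z) {u : G}
    (hu : u ∈ Subgroup.closure ({z, x} : Set G)) : 1 = u ∨ z = u ∨ x = u ∨ z * x = u := by
  rcases pairs' hzz hxx hzx hu with h | h | h | h
  · exact Or.inl h.symm
  · exact Or.inr (Or.inl h.symm)
  · exact Or.inr (Or.inr (Or.inl h.symm))
  · exact Or.inr (Or.inr (Or.inr h.symm))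

/-- Let G be a finite group and let z be an involution of G such that Q, the generalized Fitting subgroup of the centralizer C of z, is a 2-group of symplectic type (every characteristic abelian subgroup of Q is cyclic); suppose every element of Q has order dividing 4. Let g ∈ G with z' = g z g⁻¹ ≠ z and z' ∈ Q. Then z lies in the conjugate g Q g⁻¹, and the subgroup X generated by Q and g Q g⁻¹ induces every automorphism of the four-group generated by z and z': for any two distinct non-identity elements u, v of that four-group there is x ∈ X with x z x⁻¹ = u and x z' x⁻¹ = v. -/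
theorem result {G : Type*} [Group G] [Finite G] (z : G) (hz : orderOf z = 2) (hQ : Cfsg.IsOfSymplecticType ↥(Cfsg.generalizedFittingSubgroup ↥(Subgroup.centralizer ({z} : Set G))))
    (h4 : ∀ q ∈ (Cfsg.generalizedFittingSubgroup ↥(Subgroup.centralizer ({z} : Set G))).map (Subgroup.centralizer ({z} : Set G)).subtype, q ^ 4 = 1) (g : G) (hne : g * z * g⁻¹ ≠ z) (hin : g * z * g⁻¹ ∈ (Cfsg.generalizedFittingSubgroup ↥(Subgroup.centralizer ({z} : Set G))).map (Subgroup.centralizer ({z} : Set G)).subtype) :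
    z ∈ ((Cfsg.generalizedFittingSubgroup ↥(Subgroup.centralizer ({z} : Set G))).map (Subgroup.centralizer ({z} : Set G)).subtype).map (MulAut.conj g).toMonoidHom ∧
      ∀ u ∈ Subgroup.closure ({z, g * z * g⁻¹} : Set G), ∀ v ∈ Subgroup.closure ({z, g * z * g⁻¹} : Set G),
        u ≠ 1 → v ≠ 1 → u ≠ v →
          ∃ x ∈ (Cfsg.generalizedFittingSubgroup ↥(Subgroup.centralizer ({z} : Set G))).map (Subgroup.centralizer ({z} : Set G)).subtype ⊔ ((Cfsg.generalizedFittingSubgroup ↥(Subgroup.centralizer ({z} : Set G))).map (Subgroup.centralizer ({z} : Set G)).subtype).map (MulAut.conj g).toMonoidHom, x * z * x⁻¹ = u ∧ x * (g * z * g⁻¹) * x⁻¹ = v := by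
  
  classical
  have hF := sympFacts_cQ z hz hQ h4
  have hF' : SympFacts ((cQ z).map (MulAut.conj g).toMonoidHom) (g * z * g⁻¹) := hF.map (MulAut.conj g)
  have hconj : ∀ c : G, c * z * c⁻¹ = g * z * g⁻¹ → ∀ q ∈ cQ z, c * q * c⁻¹ ∈ (cQ z).map (MulAut.conj g).toMonoidHom := by
    intro c hc q hq
    have h1 : (g⁻¹ * c) * z = z * (g⁻¹ * c) := by
      have h2 : z = g⁻¹ * (c * z * c⁻¹) * g := by rw [hc]; group
      calc (g⁻¹ * c) * z = (g⁻¹ * (c * z * c⁻¹) * g) * (g⁻¹ * c) := by group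
        _ = z * (g⁻¹ * c) := by rw [← h2]
    refine ⟨_, hF.hnorm _ h1 q hq, ?_⟩
    simp [MulAut.conj_apply]
    group
  have hmain : z ∈ (cQ z).map (MulAut.conj g).toMonoidHom := self_mem_conj hF hF' hin hne hconj
  refine ⟨hmain, ?_⟩
  set x := g * z * g⁻¹ with hx
  intro u hu v hv hu1 hv1 huv
  have hzz := hF.zz
  have hxx := hF'.zz
  have hxzc : x * z = z * x := hF.hzc x hin
  obtain ⟨h, hhQ, hhx⟩ := hF.exists_swap hin hxx hF'.z_ne_one hne
  obtain ⟨y, hyQ, hyz⟩ := hF'.exists_swap hmain hzz hF.z_ne_one hne.symm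
  have hhz : h * z * h⁻¹ = z := by rw [hF.hzc h hhQ]; group
  have hyx : y * x * y⁻¹ = x := by rw [hF'.hzc y hyQ]; group
  have hh : h ∈ cQ z ⊔ (cQ z).map (MulAut.conj g).toMonoidHom := Subgroup.mem_sup_left hhQ
  have hy : y ∈ cQ z ⊔ (cQ z).map (MulAut.conj g).toMonoidHom := Subgroup.mem_sup_right hyQ
  have hzxz : z * x * z = x := by rw [← hxzc, mul_assoc, hzz, mul_one]
  have hxzx : x * z * x = z := by rw [hxzc, mul_assoc, hxx, mul_one]
  -- values of the three elements
  have t1 : h * (z * x) * h⁻¹ = x := by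
    calc h * (z * x) * h⁻¹ = (h * z * h⁻¹) * (h * x * h⁻¹) := by group
      _ = z * (z * x) := by rw [hhz, hhx]
      _ = x := by rw [← mul_assoc, hzz, one_mul]
  have t2 : y * (z * x) * y⁻¹ = z := by
    calc y * (z * x) * y⁻¹ = (y * z * y⁻¹) * (y * x * y⁻¹) := by group
      _ = x * z * x := by rw [hyz, hyx]
      _ = z := hxzx
  have hyz' : y * z * y⁻¹ = z * x := by rw [hyz, hxzc]
  have hconj2 : ∀ a b : G, (a * b) * z * (a * b)⁻¹ = a * (b * z * b⁻¹) * a⁻¹ ∧ (a * b) * x * (a * b)⁻¹ = a * (b * x * b⁻¹) * a⁻¹ := by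
    intro a b
    constructor <;> group
  rcases pairs hzz hxx hxzc.symm hu with rfl | rfl | rfl | rfl
  · exact absurd rfl hu1
  · rcases pairs hzz hxx hxzc.symm hv with rfl | rfl | rfl | rfl
    · exact absurd rfl hv1
    · exact absurd rfl huv
    · exact ⟨1, Subgroup.one_mem _, by group, by group⟩
    · exact ⟨h, hh, hhz, hhx⟩
  · rcases pairs hzz hxx hxzc.symm hv with rfl | rfl | rfl | rfl
    · exact absurd rfl hv1
    · -- `(x, z)`
      refine ⟨h * y * h, Subgroup.mul_mem _ (Subgroup.mul_mem _ hh hy) hh, ?_, ?_⟩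
      · calc (h * y * h) * z * (h * y * h)⁻¹ = h * (y * (h * z * h⁻¹) * y⁻¹) * h⁻¹ := by group
          _ = h * (z * x) * h⁻¹ := by rw [hhz, hyz']
          _ = x := t1
      · calc (h * y * h) * x * (h * y * h)⁻¹ = h * (y * (h * x * h⁻¹) * y⁻¹) * h⁻¹ := by group
          _ = h * (y * (z * x) * y⁻¹) * h⁻¹ := by rw [hhx]
          _ = h * z * h⁻¹ := by rw [t2]
          _ = z := hhz
    · exact absurd rfl huv
    · -- `(x, zx)`
      refine ⟨h * y, Subgroup.mul_mem _ hh hy, ?_, ?_⟩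
      · rw [(hconj2 h y).1, hyz', t1]
      · rw [(hconj2 h y).2, hyx, hhx]
  · rcases pairs hzz hxx hxzc.symm hv with rfl | rfl | rfl | rfl
    · exact absurd rfl hv1
    · -- `(zx, z)`
      refine ⟨y * h, Subgroup.mul_mem _ hy hh, ?_, ?_⟩
      · rw [(hconj2 y h).1, hhz, hyz']
      · rw [(hconj2 y h).2, hhx, t2]
    · -- `(zx, x)`
      exact ⟨y, hy, hyz', hyx⟩
    · exact absurd rfl huv

end Cfsg.Agent.S1774
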