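import Cfsg.Statements.S1775
import Mathlib
import Cfsg.Agent.Lib.LBal.Sec

set_option autoImplicit false
open Cfsg

namespace Cfsg.Agent.S1775

open Cfsg Subgroup Cfsg.Agent.Lib.FStar Cfsg.Agent.Lib.Core Cfsg.Agent.Lib.Cl Cfsg.Agent.Lib.LBal in
/-- `C_y` is a proper subgroup. -/
theorem centralizer_ne_top {G : Type*} [Group G] [Finite G]
    (hF : IsSimpleGroup ↥(Cfsg.generalizedFittingSubgroup G)) (hF' : ¬ IsMulCommutative ↥(Cfsg.generalizedFittingSubgroup G))
    {y : G} (hy : orderOf y = 2) : Subgroup.centralizer ({y} : Set G) ≠ ⊤ := by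
  intro htop
  have hyc : y ∈ Subgroup.center G := by
    rw [Subgroup.mem_center_iff]
    intro g
    have hg : g ∈ Subgroup.centralizer ({y} : Set G) := by rw [htop]; trivial
    exact Subgroup.mem_centralizer_singleton_iff.1 hg
  have hyF : y ∈ Cfsg.generalizedFittingSubgroup G := by
    apply Cfsg.Agent.Lib.FStar.centralizer_gen_le
    rw [Subgroup.mem_centralizer_iff]
    intro h _
    exact ((Subgroup.mem_center_iff.1 hyc) h)
  have hcen : Subgroup.center ↥(Cfsg.generalizedFittingSubgroup G) = ⊥ := by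
    rcases hF.eq_bot_or_eq_top_of_normal _ (inferInstance : (Subgroup.center ↥(Cfsg.generalizedFittingSubgroup G)).Normal) with h | h
    · exact h
    · exfalso
      apply hF'
      have h2 : ∀ a b : ↥(Cfsg.generalizedFittingSubgroup G), a * b = b * a := by
        intro a b
        have ha : a ∈ Subgroup.center ↥(Cfsg.generalizedFittingSubgroup G) := by rw [h]; trivial
        exact ((Subgroup.mem_center_iff.1 ha) b).symm
      exact ⟨⟨fun a b => h2 a b⟩⟩
  have : (⟨y, hyF⟩ : ↥(Cfsg.generalizedFittingSubgroup G)) ∈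
      Subgroup.center ↥(Cfsg.generalizedFittingSubgroup G) := by
    rw [Subgroup.mem_center_iff]
    intro g
    apply Subtype.ext
    exact (Subgroup.mem_center_iff.1 hyc) g
  rw [hcen, Subgroup.mem_bot] at this
  have h1 : y = 1 := congrArg Subtype.val this
  rw [h1, orderOf_one] at hy
  omega

/-- Let G be a finite group whose generalized Fitting subgroup is a non-abelian simple group and in which every proper section (every quotient H/N of a proper subgroup H, or of G by a nontrivial normal subgroup) has the B-property. Let x, y be commuting involutions, let D be the intersection of the 2-layer of C_G(x) with C_G(y), and let J be a 2-component of D. Write Q for the quotient of C_G(y) by its largest normal odd-order subgroup. Then (i) the image of J in Q is a component of the centralizer in Q of the image of x; and (ii) for every J-invariant subgroup E of odd order of C_G(x) ∩ C_G(y), the commutator subgroup [J, E] lies in the largest normal odd-order subgroup of C_G(y). -/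
theorem result {G : Type*} [Group G] [Finite G]
    (hF : IsSimpleGroup ↥(Cfsg.generalizedFittingSubgroup G)) (hF' : ¬ IsMulCommutative ↥(Cfsg.generalizedFittingSubgroup G))
    (hsec : ∀ (H : Subgroup G) (N : Subgroup ↥H) [N.Normal], (H ≠ ⊤ ∨ N ≠ ⊥) → Cfsg.HasBProperty (↥H ⧸ N))
    (x y : G) (hx : orderOf x = 2) (hy : orderOf y = 2) (hxy : x * y = y * x)
    (J : Subgroup ↥((Cfsg.pLayer 2 ↥(Subgroup.centralizer ({x} : Set G))).map (Subgroup.centralizer ({x} : Set G)).subtype ⊓ Subgroup.centralizer ({y} : Set G)))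
    (hJ : Cfsg.IsPComponent 2 J) :
    Cfsg.IsComponent
        ((((J.map (Subgroup.subtype _)).subgroupOf (Subgroup.centralizer ({y} : Set G))).map (QuotientGroup.mk' (Cfsg.oddCore ↥(Subgroup.centralizer ({y} : Set G))))).subgroupOf
          (Subgroup.centralizer ({(QuotientGroup.mk' (Cfsg.oddCore ↥(Subgroup.centralizer ({y} : Set G))) ⟨x, Subgroup.mem_centralizer_singleton_iff.mpr hxy⟩ : ↥(Subgroup.centralizer ({y} : Set G)) ⧸ Cfsg.oddCore ↥(Subgroup.centralizer ({y} : Set G)))} : Set _))) ∧
      ∀ E : Subgroup G, E ≤ Subgroup.centralizer ({x} : Set G) ⊓ Subgroup.centralizer ({y} : Set G) → Odd (Nat.card ↥E) →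
        (∀ j ∈ J.map (Subgroup.subtype _), ∀ e ∈ E, j * e * j⁻¹ ∈ E) →
          ⁅J.map (Subgroup.subtype _), E⁆ ≤ (Cfsg.oddCore ↥(Subgroup.centralizer ({y} : Set G))).map (Subgroup.centralizer ({y} : Set G)).subtype := by
  classical
  have h0 : ∀ (Dd : Subgroup G) (hD : Dd = (Cfsg.pLayer 2 ↥(Subgroup.centralizer ({x} : Set G))).map (Subgroup.centralizer ({x} : Set G)).subtype ⊓ Subgroup.centralizer ({y} : Set G))
      (J : Subgroup ↥Dd) (hJ : Cfsg.IsPComponent 2 J),
      Cfsg.IsPComponentOf 2 (J.map (Subgroup.subtype _)) (Subgroup.centralizer ({x} : Set G) ⊓ Subgroup.centralizer ({y} : Set G)) := by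
    rintro Dd rfl J hJ
    have hJ₁D : Cfsg.IsPComponentOf 2 (J.map (Subgroup.subtype _)) ((Cfsg.pLayer 2 ↥(Subgroup.centralizer ({x} : Set G))).map (Subgroup.centralizer ({x} : Set G)).subtype ⊓ Subgroup.centralizer ({y} : Set G)) := by
      refine ⟨Subgroup.map_subtype_le J, ?_⟩
      have : (J.map (Subgroup.subtype _)).subgroupOf ((Cfsg.pLayer 2 ↥(Subgroup.centralizer ({x} : Set G))).map (Subgroup.centralizer ({x} : Set G)).subtype ⊓ Subgroup.centralizer ({y} : Set G)) = J := by
        ext z
        simp [Subgroup.mem_subgroupOf]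
      rw [this]
      exact hJ
    refine hJ₁D.of_normal (inf_le_inf_right _ (Subgroup.map_subtype_le _)) ?_
    intro w hw
    apply Cfsg.Agent.Lib.Techniques.mem_normalizer_of_conj_le
    rintro z ⟨hz1, hz2⟩
    refine Subgroup.mem_inf.2 ⟨?_, Subgroup.mul_mem _ (Subgroup.mul_mem _ hw.2 hz2) (Subgroup.inv_mem _ hw.2)⟩
    obtain ⟨u, hu, rfl⟩ := hz1
    haveI : (Cfsg.pLayer 2 ↥(Subgroup.centralizer ({x} : Set G))).Normal := Cfsg.Agent.Lib.Techniques.pLayer_normal'
    exact ⟨(⟨w, hw.1⟩ : ↥(Subgroup.centralizer ({x} : Set G))) * u * (⟨w, hw.1⟩ : ↥(Subgroup.centralizer ({x} : Set G)))⁻¹, this.conj_mem u hu _, rfl⟩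
  have h1 := h0 _ rfl J hJ
  exact Cfsg.Agent.Lib.LBal.comp_of_double hx hxy (hsec _ _ (Or.inl (centralizer_ne_top hF hF' hy))) h1

end Cfsg.Agent.S1775
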