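import Cfsg.Statements.S1780
import Mathlib

set_option autoImplicit false
open Cfsg

namespace Cfsg.Agent.S1780

/-- Let A be a finite abelian 2-group and t an automorphism of A whose order is a power of 2. If every element of A fixed by t² is fixed by t, then t fixes every element of A. -/
theorem result {A : Type*} [CommGroup A] [Finite A]
    (hA : IsPGroup 2 A) (t : MulAut A) (ht : ∃ k : ℕ, orderOf t = 2 ^ k) (hC : ∀ a : A, t (t a) = a → t a = a) :
    ∀ a : A, t a = a := by
  classical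
  let C : Subgroup A :=
    { carrier := {a | t a = a}
      mul_mem' := fun {a b} (ha : t a = a) (hb : t b = b) => show t (a * b) = a * b by
        rw [map_mul, ha, hb]
      one_mem' := map_one t
      inv_mem' := fun {a} (ha : t a = a) => show t a⁻¹ = a⁻¹ by rw [map_inv, ha] }
  have hmem : ∀ a, a ∈ C ↔ t a = a := fun a => Iff.rfl
  have hmap : C = C.map t.toMonoidHom := by
    ext a
    constructor
    · intro ha
      exact ⟨a, ha, ha⟩
    · rintro ⟨b, hb, rfl⟩
      show t (t b) = t b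
      rw [show t b = b from hb, show t b = b from hb]
  by_contra hne
  push Not at hne
  obtain ⟨a₀, ha₀⟩ := hne
  let τ : (A ⧸ C) ≃* (A ⧸ C) := QuotientGroup.congr C C t hmap.symm
  have hτ : ∀ a : A, τ (a : A ⧸ C) = ((t a : A) : A ⧸ C) := fun a => rfl
  obtain ⟨k, hk⟩ := ht
  have hτk : τ ^ (2 ^ k) = 1 := by
    ext x
    obtain ⟨a, rfl⟩ := QuotientGroup.mk'_surjective C x
    have hpow : ∀ n : ℕ, ∀ a : A, (τ ^ n) (a : A ⧸ C) = (((t ^ n) a : A) : A ⧸ C) := by
      intro n
      induction n with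
      | zero => intro a; rfl
      | succ n ih =>
        intro a
        rw [pow_succ, pow_succ]
        show (τ ^ n) (τ (a : A ⧸ C)) = _
        rw [hτ, ih]
        rfl
    have h1 : (t ^ (2 ^ k)) = 1 := by rw [← hk]; exact pow_orderOf_eq_one t
    show (τ ^ (2 ^ k)) (a : A ⧸ C) = (a : A ⧸ C)
    rw [hpow, h1]
    rfl
  have hP : IsPGroup 2 (Subgroup.zpowers τ) := by
    apply IsPGroup.of_card (n := (orderOf τ).factorization 2)
    rw [Nat.card_zpowers]
    have hdvd : orderOf τ ∣ 2 ^ k := orderOf_dvd_of_pow_eq_one hτk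
    obtain ⟨j, -, hj⟩ := (Nat.dvd_prime_pow Nat.prime_two).mp hdvd
    rw [hj, Nat.Prime.factorization_pow Nat.prime_two]
    simp
  have hQ : IsPGroup 2 (A ⧸ C) := hA.to_quotient C
  have hnt : Nontrivial (A ⧸ C) := by
    refine ⟨⟨(a₀ : A ⧸ C), 1, ?_⟩⟩
    intro h
    apply ha₀
    exact (QuotientGroup.eq_one_iff a₀).mp h
  haveI : Fact (Nat.Prime 2) := ⟨Nat.prime_two⟩
  have hdvd : 2 ∣ Nat.card (A ⧸ C) := by
    obtain ⟨n, hn⟩ := IsPGroup.iff_card.mp hQ
    rw [hn]
    have : n ≠ 0 := by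
      rintro rfl
      have h1 : Nat.card (A ⧸ C) = 1 := by simpa using hn
      have := (Nat.card_eq_one_iff_unique.mp h1).1
      exact not_subsingleton _ this
    exact dvd_pow_self 2 this
  have hfix1 : (1 : A ⧸ C) ∈ MulAction.fixedPoints (Subgroup.zpowers τ) (A ⧸ C) := by
    intro g
    show (g : (A ⧸ C) ≃* (A ⧸ C)) 1 = 1
    exact map_one _
  obtain ⟨b, hb, hb1⟩ := hP.exists_fixed_point_of_prime_dvd_card_of_fixed_point (A ⧸ C) hdvd hfix1
  have hbf : τ b = b := hb ⟨τ, Subgroup.mem_zpowers τ⟩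
  -- pass to an element of order 2
  obtain ⟨j, hj⟩ := IsPGroup.iff_orderOf.mp hQ b
  have hj0 : j ≠ 0 := by
    rintro rfl
    apply hb1
    have : orderOf b = 1 := by simpa using hj
    exact (orderOf_eq_one_iff.mp this).symm
  obtain ⟨j', rfl⟩ := Nat.exists_eq_succ_of_ne_zero hj0
  set b' := b ^ (2 ^ j') with hb'
  have hb'2 : b' ^ 2 = 1 := by
    rw [hb', ← pow_mul, ← pow_succ, ← hj]
    exact pow_orderOf_eq_one b
  have hb'1 : b' ≠ 1 := by
    intro h
    have h1 : orderOf b ∣ 2 ^ j' := orderOf_dvd_of_pow_eq_one h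
    rw [hj] at h1
    have := Nat.le_of_dvd (by positivity) h1
    rw [Nat.succ_eq_add_one, pow_succ] at this
    have h2 : 0 < 2 ^ j' := by positivity
    omega
  have hb'f : τ b' = b' := by rw [hb', map_pow, hbf]
  obtain ⟨a, ha⟩ := QuotientGroup.mk'_surjective C b'
  have ha' : (a : A ⧸ C) = b' := ha
  have h1 : t a * a⁻¹ ∈ C := by
    have h2 : ((t a : A) : A ⧸ C) = (a : A ⧸ C) := by rw [← hτ, ha', hb'f]
    rw [← QuotientGroup.eq_one_iff]
    rw [QuotientGroup.mk_mul, QuotientGroup.mk_inv, h2]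
    simp
  have h2 : a ^ 2 ∈ C := by
    rw [← QuotientGroup.eq_one_iff, QuotientGroup.mk_pow, ha', hb'2]
  have h3 : t a * a ∈ C := by
    have : t a * a = (t a * a⁻¹) * a ^ 2 := by
      rw [pow_two]; group
    rw [this]
    exact C.mul_mem h1 h2
  have h4 : t (t a) = a := by
    have h5 : t (t a * a) = t a * a := h3
    rw [map_mul] at h5
    exact mul_left_cancel (a := t a) (by rw [mul_comm, h5])
  have h6 : t a = a := hC a h4
  apply hb'1
  rw [← ha']
  exact (QuotientGroup.eq_one_iff a).mpr h6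

end Cfsg.Agent.S1780
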