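import Cfsg.Statements.S1781
import Mathlib
import Cfsg.Agent.Lib.Cl.Basic
import Cfsg.Agent.S1780

set_option autoImplicit false
open Cfsg

namespace Cfsg.Agent.S1781

open Cfsg.Agent.Lib.Cl in
theorem key {G : Type*} [Group G] [Finite G] {X Y : Subgroup G}
    (hX2 : IsPGroup 2 X) (hYa : IsMulCommutative Y) (hY2 : IsPGroup 2 Y)
    (hXti : ∀ h : G, X.map (MulAut.conj h).toMonoidHom = X ∨ X.map (MulAut.conj h).toMonoidHom ⊓ X = ⊥)
    (hXY : X ⊓ Y = ⊥) {x : G} (hx : x ∈ X) (hx2 : x ^ 2 ≠ 1)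
    (hxN : x ∈ Subgroup.normalizer (Y : Set G)) :
    Y ≤ Subgroup.normalizer (X : Set G) := by
  classical
  letI : CommGroup Y := { (inferInstance : Group Y) with mul_comm := fun a b => mul_comm' a b }
  have hmem1 : ∀ y ∈ Y, x * y * x⁻¹ ∈ Y := fun y hy => (Subgroup.mem_normalizer_iff.mp hxN y).mp hy
  have hmem2 : ∀ y ∈ Y, x⁻¹ * y * x ∈ Y := fun y hy => by
    have := (Subgroup.mem_normalizer_iff.mp (Subgroup.inv_mem _ hxN) y).mp hy
    simpa using this
  let t : MulAut Y :=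
    { toFun := fun y => ⟨x * y * x⁻¹, hmem1 y y.2⟩
      invFun := fun y => ⟨x⁻¹ * y * x, hmem2 y y.2⟩
      left_inv := fun y => Subtype.ext (by simp [mul_assoc])
      right_inv := fun y => Subtype.ext (by simp [mul_assoc])
      map_mul' := fun a b => Subtype.ext (by simp [mul_assoc]) }
  have ht : ∀ y : Y, ((t y : Y) : G) = x * y * x⁻¹ := fun y => rfl
  have htpow : ∀ (n : ℕ) (y : Y), (((t ^ n) y : Y) : G) = x ^ n * y * (x ^ n)⁻¹ := by
    intro n
    induction n with
    | zero => intro y; simp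
    | succ n ih =>
      intro y
      rw [pow_succ]
      show (((t ^ n) (t y) : Y) : G) = _
      rw [ih, ht, pow_succ]
      group
  -- `x` has 2-power order
  obtain ⟨m, hm⟩ := IsPGroup.iff_orderOf.mp hX2 ⟨x, hx⟩
  have hxm : x ^ (2 ^ m) = 1 := by
    rw [← hm, Subgroup.orderOf_mk]; exact pow_orderOf_eq_one x
  have ht1 : t ^ (2 ^ m) = 1 := by
    ext y
    rw [htpow, hxm]
    simp
  have hord : ∃ k : ℕ, orderOf t = 2 ^ k := by
    obtain ⟨k, -, hk⟩ := (Nat.dvd_prime_pow Nat.prime_two).mp (orderOf_dvd_of_pow_eq_one ht1)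
    exact ⟨k, hk⟩
  have hfix : ∀ y : Y, t (t y) = y → t y = y := by
    intro y hy
    have h1 : x * (x * (y : G) * x⁻¹) * x⁻¹ = y := congrArg Subtype.val hy
    have h2 : (y : G) * x ^ 2 * (y : G)⁻¹ = x ^ 2 := by
      have : x ^ 2 * (y : G) = (y : G) * x ^ 2 := by
        rw [pow_two]
        calc x * x * (y : G) = (x * (x * (y : G) * x⁻¹) * x⁻¹) * (x * x) := by group
          _ = (y : G) * (x * x) := by rw [h1]
      rw [← this]
      simp
    have h3 : (y : G) ∈ Subgroup.normalizer (X : Set G) := by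
      apply ti_mem_normalizer hXti (X.pow_mem hx 2) hx2
      rw [h2]
      exact X.pow_mem hx 2
    have h4 : x * (y : G) = y * x := by
      -- `[x, y]` lies in `X ⊓ Y`
      have h5 : x * (y : G) * x⁻¹ * (y : G)⁻¹ ∈ X ⊓ Y := by
        refine ⟨?_, Y.mul_mem (hmem1 y y.2) (Y.inv_mem y.2)⟩
        have h6 : (y : G) * x⁻¹ * (y : G)⁻¹ ∈ X :=
          (Subgroup.mem_normalizer_iff.mp h3 x⁻¹).mp (X.inv_mem hx)
        have : x * (y : G) * x⁻¹ * (y : G)⁻¹ = x * ((y : G) * x⁻¹ * (y : G)⁻¹) := by group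
        rw [this]
        exact X.mul_mem hx h6
      rw [hXY, Subgroup.mem_bot] at h5
      rw [mul_inv_eq_one, mul_inv_eq_iff_eq_mul] at h5
      exact h5
    apply Subtype.ext
    rw [ht, h4]
    simp
  have hall : ∀ y : Y, t y = y := Cfsg.Agent.S1780.result hY2 t hord hfix
  intro y hy
  have h1 : y * x * y⁻¹ = x := by
    have h2 : x * y * x⁻¹ = y := congrArg Subtype.val (hall ⟨y, hy⟩)
    rw [mul_inv_eq_iff_eq_mul] at h2
    rw [← h2]
    simp
  apply ti_mem_normalizer hXti hx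
  · rintro rfl
    simp at hx2
  · rw [h1]; exact hx

/-- Let A be an abelian 2-subgroup of the finite group G such that every conjugate of A equals A or meets A trivially, and let g ∈ G with g A g⁻¹ ≠ A. Then either the subgroup of those elements of A that normalize g A g⁻¹ is an elementary abelian 2-group, or A and g A g⁻¹ commute elementwise. -/
theorem result {G : Type*} [Group G] [Finite G] (A : Subgroup G)
    (hA2 : IsPGroup 2 ↥A) (hAa : IsMulCommutative ↥A)
    (hti : ∀ h : G, A.map (MulAut.conj h).toMonoidHom = A ∨ A.map (MulAut.conj h).toMonoidHom ⊓ A = ⊥)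
    (g : G) (hg : A.map (MulAut.conj g).toMonoidHom ≠ A) :
    Cfsg.IsElementaryAbelian 2 (A ⊓ Subgroup.normalizer ((A.map (MulAut.conj g).toMonoidHom : Subgroup G) : Set G)) ∨
      ⁅A, A.map (MulAut.conj g).toMonoidHom⁆ = ⊥ := by
  classical
  have hB2 : IsPGroup 2 ↥(A.map (MulAut.conj g).toMonoidHom) := hA2.map _
  have hBa : IsMulCommutative ↥(A.map (MulAut.conj g).toMonoidHom) :=
    Cfsg.Agent.Lib.Cl.isMulCommutative_map hAa _
  have hAB : A ⊓ A.map (MulAut.conj g).toMonoidHom = ⊥ := by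
    rcases hti g with h | h
    · exact absurd h hg
    · rwa [inf_comm]
  by_cases hall : ∀ a ∈ A ⊓ Subgroup.normalizer ((A.map (MulAut.conj g).toMonoidHom : Subgroup G) : Set G), a ^ 2 = 1
  · left
    refine ⟨?_, hall⟩
    rw [Cfsg.Agent.Lib.Cl.isMulCommutative_iff_mem]
    intro a ha b hb
    exact Cfsg.Agent.Lib.Cl.mul_comm_of_mem hAa ha.1 hb.1
  · right
    push Not at hall
    obtain ⟨a, ⟨haA, haN⟩, ha2⟩ := hall
    have h1 : A.map (MulAut.conj g).toMonoidHom ≤ Subgroup.normalizer (A : Set G) :=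
      key hA2 hBa hB2 hti hAB haA ha2 haN
    have hx : g * a * g⁻¹ ∈ A.map (MulAut.conj g).toMonoidHom :=
      ⟨a, haA, by simp [MulAut.conj_apply]⟩
    have hx2 : (g * a * g⁻¹) ^ 2 ≠ 1 := by
      intro h
      apply ha2
      rw [conj_pow] at h
      have h' : a ^ 2 = g⁻¹ * (g * a ^ 2 * g⁻¹) * g := by group
      rw [h', h]
      group
    have h2 : A ≤ Subgroup.normalizer ((A.map (MulAut.conj g).toMonoidHom : Subgroup G) : Set G) :=
      key hB2 hAa hA2 (Cfsg.Agent.Lib.Cl.ti_conj hti g) (by rwa [inf_comm]) hx hx2 (h1 hx)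
    apply Cfsg.Agent.Lib.Cl.commutator_eq_bot_of_commute
    intro a' ha' b hb
    exact Cfsg.Agent.Lib.Cl.commute_of_normalize_of_inf_eq_bot h2 h1 hAB ha' hb

end Cfsg.Agent.S1781
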