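import Cfsg.Statements.S1782
import Mathlib
import Cfsg.Agent.Lib.Core.Basic
import Cfsg.Agent.Lib.FStar.Basic
import Cfsg.Agent.Lib.Cl.Embedded

set_option autoImplicit false

namespace Cfsg.Agent.S1782

open Subgroup

variable {S : Type*} [Group S]

theorem frattini_eq_bot_of_sq {A : Type*} [Group A] [Finite A] (h : ∀ a : A, a ^ 2 = 1) :
    frattini A = ⊥ := by
  classical
  have hinv : ∀ a : A, a⁻¹ = a := fun a => inv_eq_of_mul_eq_one_left (by simpa [pow_two] using h a)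
  have hcomm : ∀ a b : A, a * b = b * a := by
    intro a b
    have h1 := hinv (a * b)
    rw [mul_inv_rev, hinv, hinv] at h1
    exact h1.symm
  rw [eq_bot_iff]
  intro x hx
  by_contra hx1
  rw [Subgroup.mem_bot] at hx1
  let C : Set (Subgroup A) := {M | x ∉ M}
  have hC : C.Nonempty := ⟨⊥, by simpa [C, Subgroup.mem_bot] using hx1⟩
  obtain ⟨M, hM⟩ := (Set.toFinite C).exists_maximal hC
  have hxM : x ∉ M := hM.1
  have key : ∀ y : A, y ∈ M ∨ x * y ∈ M := by
    intro y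
    by_cases hy : y ∈ M
    · exact Or.inl hy
    right
    have hlt : M ≤ M ⊔ Subgroup.zpowers y := le_sup_left
    have hx' : x ∈ M ⊔ Subgroup.zpowers y := by
      by_contra hcon
      have h1 := hM.2 (y := M ⊔ Subgroup.zpowers y) hcon hlt
      exact hy (h1 (Subgroup.mem_sup_right (Subgroup.mem_zpowers y)))
    haveI : (Subgroup.zpowers y).Normal := ⟨fun n hn g => by rw [hcomm g n]; simpa using hn⟩
    obtain ⟨m, hm, z, hz, rfl⟩ := Subgroup.mem_sup_of_normal_right.mp hx'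
    obtain ⟨k, rfl⟩ := Subgroup.mem_zpowers_iff.mp hz
    rcases Int.even_or_odd' k with ⟨l, rfl | rfl⟩
    · exfalso
      apply hxM
      have : y ^ (2 * l) = 1 := by rw [zpow_mul]; simp [h y]
      rw [this, mul_one]
      exact hm
    · have h1 : y ^ (2 * l + 1) = y := by
        rw [zpow_add, zpow_mul]
        simp [h y]
      rw [h1, mul_assoc, ← pow_two, h y, mul_one]
      exact hm
  have hco : IsCoatom M := by
    refine ⟨fun h => hxM (h ▸ Subgroup.mem_top x), ?_⟩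
    intro N hN
    obtain ⟨y, hyN, hyM⟩ := SetLike.exists_of_lt hN
    have hxN : x ∈ N := by
      have h1 := (key y).resolve_left hyM
      have h2 := N.mul_mem (hN.le h1) (N.inv_mem hyN)
      simpa using h2
    rw [eq_top_iff]
    intro g _
    rcases key g with h1 | h1
    · exact hN.le h1
    · have h2 := N.mul_mem (N.inv_mem hxN) (hN.le h1)
      simpa using h2
  exact hxM (frattini_le_coatom hco hx)

/-- The conjugate `g A g⁻¹`. -/
abbrev cj (g : S) (A : Subgroup S) : Subgroup S := A.map (MulAut.conj g).toMonoidHom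

theorem mem_cj {g : S} {A : Subgroup S} {a : S} (ha : a ∈ A) : g * a * g⁻¹ ∈ cj g A :=
  ⟨a, ha, rfl⟩

theorem cj_eq_of_mem_normalizer {g : S} {A : Subgroup S} (h : g ∈ normalizer (A : Set S)) : cj g A = A := by
  ext x
  constructor
  · rintro ⟨a, ha, rfl⟩
    exact (Subgroup.mem_normalizer_iff.mp h a).mp ha
  · intro hx
    have h1 : g⁻¹ ∈ normalizer (A : Set S) := Subgroup.inv_mem _ h
    have h2 := (Subgroup.mem_normalizer_iff.mp h1 x).mp hx
    refine ⟨_, h2, ?_⟩
    simp [MulAut.conj_apply]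
    group

theorem mem_normalizer_of_cj_eq {g : S} {A : Subgroup S} (h : cj g A = A) : g ∈ normalizer (A : Set S) := by
  rw [Subgroup.mem_normalizer_iff]
  intro x
  constructor
  · intro hx
    rw [← h]
    exact mem_cj hx
  · intro hx
    rw [← h] at hx
    obtain ⟨a, ha, hax⟩ := hx
    have : a = x := by
      have h3 : g * a * g⁻¹ = g * x * g⁻¹ := by simpa [MulAut.conj_apply] using hax
      exact mul_left_cancel (mul_right_cancel h3)
    rwa [← this]

theorem conj_mem_of_mem_normalizer {g : S} {A : Subgroup S} (h : g ∈ normalizer (A : Set S)) {a : S}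
    (ha : a ∈ A) : g * a * g⁻¹ ∈ A := (Subgroup.mem_normalizer_iff.mp h a).mp ha

/-- An element commuting with `A` normalizes `A`. -/
theorem mem_normalizer_of_comm {g : S} {A : Subgroup S} (h : ∀ a ∈ A, a * g = g * a) :
    g ∈ normalizer (A : Set S) := by
  rw [Subgroup.mem_normalizer_iff]
  intro x
  constructor
  · intro hx
    rw [← h x hx]
    simpa using hx
  · intro hx
    by_cases hg : x ∈ A
    · exact hg
    · have h1 := h _ hx
      have h2 : g * x * g⁻¹ * g = g * (g * x * g⁻¹) := h1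
      have h3 : g * x = g * (g * x * g⁻¹) := by
        calc g * x = g * x * g⁻¹ * g := by group
          _ = _ := h2
      have h4 : x = g * x * g⁻¹ := mul_left_cancel h3
      rw [← h4] at hx
      exact absurd hx hg

/-- The hypotheses of the key lemma for an ordered pair. -/
structure Pair (R T : Subgroup S) : Prop where
  inf : R ⊓ T = ⊥
  tR : ∀ t ∈ T, cj t R ≠ R → cj t R ⊓ R = ⊥ ∧ ∀ a ∈ R, ∀ b ∈ cj t R, a * b = b * a
  rT : ∀ r ∈ R, cj r T ≠ T → cj r T ⊓ T = ⊥ ∧ ∀ a ∈ T, ∀ b ∈ cj r T, a * b = b * a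

theorem Pair.symm {R T : Subgroup S} (h : Pair R T) : Pair T R :=
  ⟨by rw [inf_comm]; exact h.inf, h.rT, h.tR⟩

theorem cj_ne_of_not_mem {g : S} {A : Subgroup S} (h : g ∉ normalizer (A : Set S)) : cj g A ≠ A :=
  fun h1 => h (mem_normalizer_of_cj_eq h1)

/-- The case `R ≤ N(T)`, `T ≰ N(R)` is impossible for equal orders. -/
theorem card_case [Finite S] {R T : Subgroup S} (h : Pair R T) (hcard : Nat.card R = Nat.card T)
    (hRN : ∀ r ∈ R, r ∈ normalizer (T : Set S)) {t : S} (htT : t ∈ T) (ht : t ∉ normalizer (R : Set S)) : False := by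
  classical
  obtain ⟨hti, hcomm⟩ := h.tR t htT (cj_ne_of_not_mem ht)
  let T₀ : Subgroup S := T ⊓ normalizer (R : Set S)
  have hf : ∀ r : R, (r : S)⁻¹ * (t * r * t⁻¹) ∈ T₀ := by
    intro r
    constructor
    · have h1 : (r : S)⁻¹ * t * ((r : S)⁻¹)⁻¹ ∈ T :=
        conj_mem_of_mem_normalizer (Subgroup.inv_mem _ (hRN r r.2)) htT
      have h2 : (r : S)⁻¹ * (t * r * t⁻¹) = ((r : S)⁻¹ * t * ((r : S)⁻¹)⁻¹) * t⁻¹ := by group
      rw [h2]
      exact T.mul_mem h1 (T.inv_mem htT)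
    · refine Subgroup.mul_mem _ (Subgroup.inv_mem _ (Subgroup.le_normalizer r.2)) ?_
      exact mem_normalizer_of_comm (fun a ha => hcomm a ha _ (mem_cj r.2))
  let f : R → T₀ := fun r => ⟨_, hf r⟩
  have hinj : Function.Injective f := by
    intro r₁ r₂ h12
    have h1 : (r₁ : S)⁻¹ * (t * r₁ * t⁻¹) = (r₂ : S)⁻¹ * (t * r₂ * t⁻¹) := congrArg Subtype.val h12
    -- `r₂ r₁⁻¹` is fixed by conjugation with `t`
    have h2 : t * ((r₂ : S) * (r₁ : S)⁻¹) * t⁻¹ = (r₂ : S) * (r₁ : S)⁻¹ := by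
      have h3 : (t * r₁ * t⁻¹) * (r₁ : S)⁻¹ = (r₁ : S)⁻¹ * (t * r₁ * t⁻¹) :=
        (hcomm _ (R.inv_mem r₁.2) _ (mem_cj r₁.2)).symm
      have h4 : (t * r₂ * t⁻¹) = (r₂ : S) * ((r₁ : S)⁻¹ * (t * r₁ * t⁻¹)) := by
        rw [h1]; group
      calc t * ((r₂ : S) * (r₁ : S)⁻¹) * t⁻¹ = (t * r₂ * t⁻¹) * (t * r₁ * t⁻¹)⁻¹ := by group
        _ = (r₂ : S) * ((r₁ : S)⁻¹ * (t * r₁ * t⁻¹)) * (t * r₁ * t⁻¹)⁻¹ := by rw [← h4]
        _ = (r₂ : S) * (r₁ : S)⁻¹ := by group
    have h5 : (r₂ : S) * (r₁ : S)⁻¹ ∈ cj t R ⊓ R := by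
      refine ⟨?_, R.mul_mem r₂.2 (R.inv_mem r₁.2)⟩
      rw [← h2]
      exact mem_cj (R.mul_mem r₂.2 (R.inv_mem r₁.2))
    rw [hti, Subgroup.mem_bot, mul_inv_eq_one] at h5
    exact Subtype.ext h5.symm
  have h1 : Nat.card R ≤ Nat.card T₀ := Nat.card_le_card_of_injective f hinj
  have h2 : T₀ = T := Subgroup.eq_of_le_of_card_ge inf_le_left (by rw [← hcard]; exact h1)
  apply ht
  have : t ∈ T₀ := by rw [h2]; exact htT
  exact this.2

/-- The central computation. -/
theorem sq_eq_one_aux {R T : Subgroup S} (h : Pair R T) {r t : S} (hrR : r ∈ R)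
    (hr : r ∉ normalizer (T : Set S)) (htT : t ∈ T) (ht : t ∉ normalizer (R : Set S))
    (ht2 : t * t ∈ normalizer (R : Set S)) : r * r = 1 := by
  obtain ⟨hti, hcomm⟩ := h.tR t htT (cj_ne_of_not_mem ht)
  obtain ⟨-, hcomm'⟩ := h.rT r hrR (cj_ne_of_not_mem hr)
  set c : S := r * t * r⁻¹ * t⁻¹ with hc
  have hrc : r * c = c * r := by
    have h1 : r * (t * r⁻¹ * t⁻¹) = (t * r⁻¹ * t⁻¹) * r := hcomm r hrR _ (mem_cj (R.inv_mem hrR))
    calc r * c = r * (r * (t * r⁻¹ * t⁻¹)) := by simp only [hc]; group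
      _ = r * ((t * r⁻¹ * t⁻¹) * r) := by rw [h1]
      _ = c * r := by simp only [hc]; group
  have htc : t * c = c * t := by
    have h1 : t * (r * t * r⁻¹) = (r * t * r⁻¹) * t := hcomm' t htT _ (mem_cj htT)
    calc t * c = t * (r * t * r⁻¹) * t⁻¹ := by simp only [hc]; group
      _ = (r * t * r⁻¹) * t * t⁻¹ := by rw [h1]
      _ = c * t := by simp only [hc]; group
  have hkey : t * r * t⁻¹ = c⁻¹ * r := by simp only [hc]; group
  have htc' : t * c⁻¹ = c⁻¹ * t := by
    have := (Commute.inv_right (show Commute t c from htc)).eq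
    exact this
  have hrc' : r * c⁻¹ = c⁻¹ * r := (Commute.inv_right (show Commute r c from hrc)).eq
  have h2 : (t * t) * r * (t * t)⁻¹ = c⁻¹ * c⁻¹ * r := by
    calc (t * t) * r * (t * t)⁻¹ = t * (t * r * t⁻¹) * t⁻¹ := by group
      _ = t * (c⁻¹ * r) * t⁻¹ := by rw [hkey]
      _ = (t * c⁻¹) * r * t⁻¹ := by group
      _ = (c⁻¹ * t) * r * t⁻¹ := by rw [htc']
      _ = c⁻¹ * (t * r * t⁻¹) := by group
      _ = c⁻¹ * (c⁻¹ * r) := by rw [hkey]
      _ = c⁻¹ * c⁻¹ * r := by group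
  have h3 : c⁻¹ * c⁻¹ ∈ R := by
    have h4 := conj_mem_of_mem_normalizer ht2 hrR
    rw [h2] at h4
    have h5 := R.mul_mem h4 (R.inv_mem hrR)
    simpa using h5
  have h6 : t * (r * r) * t⁻¹ = c⁻¹ * c⁻¹ * (r * r) := by
    calc t * (r * r) * t⁻¹ = (t * r * t⁻¹) * (t * r * t⁻¹) := by group
      _ = (c⁻¹ * r) * (c⁻¹ * r) := by rw [hkey]
      _ = c⁻¹ * (r * c⁻¹) * r := by group
      _ = c⁻¹ * (c⁻¹ * r) * r := by rw [hrc']
      _ = c⁻¹ * c⁻¹ * (r * r) := by group
  have h7 : t * (r * r) * t⁻¹ ∈ cj t R ⊓ R := by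
    refine ⟨mem_cj (R.mul_mem hrR hrR), ?_⟩
    rw [h6]
    exact R.mul_mem h3 (R.mul_mem hrR hrR)
  rw [hti, Subgroup.mem_bot] at h7
  have h8 : r * r = t⁻¹ * (t * (r * r) * t⁻¹) * t := by group
  rw [h8, h7]
  group

/-- All elements of `R` outside `N(T)` are involutions, when `T ≰ N(R)`. -/
theorem sq_eq_one [Finite S] (hS : IsPGroup 2 S) {R T : Subgroup S} (h : Pair R T) {r t : S} (hrR : r ∈ R)
    (hr : r ∉ normalizer (T : Set S)) (htT : t ∈ T) (ht : t ∉ normalizer (R : Set S)) : r * r = 1 := by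
  classical
  obtain ⟨n, hn⟩ := hS t
  have hex : ∃ k, t ^ 2 ^ k ∈ normalizer (R : Set S) := ⟨n, by rw [hn]; exact Subgroup.one_mem _⟩
  have hk := Nat.find_spec hex
  have hmin := fun m => Nat.find_min hex (m := m)
  set k := Nat.find hex with hkdef
  have hk0 : k ≠ 0 := by
    intro h0
    rw [h0] at hk
    simp only [pow_zero, pow_one] at hk
    exact ht hk
  obtain ⟨m, hm⟩ := Nat.exists_eq_succ_of_ne_zero hk0
  have h1 : t ^ 2 ^ m ∉ normalizer (R : Set S) := hmin m (by omega)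
  refine sq_eq_one_aux h hrR hr (T.pow_mem htT _) h1 ?_
  rw [hm, Nat.succ_eq_add_one, pow_succ, pow_mul, pow_two] at hk
  exact hk

theorem mem_normalizer_of_conj_le [Finite S] {g : S} {A : Subgroup S} (h : ∀ a ∈ A, g * a * g⁻¹ ∈ A) :
    g ∈ normalizer (A : Set S) := by
  apply mem_normalizer_of_cj_eq
  apply Subgroup.eq_of_le_of_card_ge
  · rintro _ ⟨a, ha, rfl⟩
    exact h a ha
  · have e : Nat.card (cj g A) = Nat.card A :=
      Nat.card_congr (A.equivMapOfInjective _ (MulAut.conj g).injective).symm.toEquiv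
    rw [e]

/-- `r` normalizes `N_R(T) N_T(R)`. -/
theorem conj_mem_sup_aux [Finite S] {R T : Subgroup S} (h : Pair R T) {r : S} (hrR : r ∈ R)
    (hr : r ∉ normalizer (T : Set S))
    (hinvR : ∀ u ∈ R ⊓ normalizer (T : Set S), r * u * r⁻¹ = u⁻¹)
    (hcomm : ∀ v ∈ R ⊓ normalizer (T : Set S), ∀ u ∈ T ⊓ normalizer (R : Set S), v * u = u * v) :
    r ∈ normalizer (((R ⊓ normalizer (T : Set S)) ⊔ (T ⊓ normalizer (R : Set S)) : Subgroup S) : Set S) := by
  apply mem_normalizer_of_conj_le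
  intro x hx
  obtain ⟨v, hv, u, hu, rfl⟩ := Cfsg.Agent.Lib.FStar.mem_sup_of_commuting hcomm hx
  obtain ⟨-, hcomm'⟩ := h.rT r hrR (cj_ne_of_not_mem hr)
  have hd : r * u * r⁻¹ * u⁻¹ ∈ R ⊓ normalizer (T : Set S) := by
    constructor
    · have h1 : r * u * r⁻¹ * u⁻¹ = r * (u * r⁻¹ * u⁻¹) := by group
      rw [h1]
      exact R.mul_mem hrR (conj_mem_of_mem_normalizer hu.2 (R.inv_mem hrR))
    · refine Subgroup.mul_mem _ ?_ (Subgroup.inv_mem _ (Subgroup.le_normalizer hu.1))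
      exact mem_normalizer_of_comm (fun a ha => hcomm' a ha _ (mem_cj hu.1))
  have h2 : r * (v * u) * r⁻¹ = v⁻¹ * (r * u * r⁻¹ * u⁻¹) * u := by
    have h3 := hinvR v hv
    calc r * (v * u) * r⁻¹ = (r * v * r⁻¹) * (r * u * r⁻¹ * u⁻¹) * u := by group
      _ = _ := by rw [h3]
  rw [h2]
  exact Subgroup.mul_mem _ (Subgroup.mem_sup_left (Subgroup.mul_mem _ (Subgroup.inv_mem _ hv) hd))
    (Subgroup.mem_sup_right hu)

/-- Neither normalizing the other is impossible. -/
theorem both_case [Finite S] (hS : IsPGroup 2 S) {R T : Subgroup S} (h : Pair R T)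
    (hΦ : frattini ↥R ≠ ⊥) {r t : S} (hrR : r ∈ R) (hr : r ∉ normalizer (T : Set S))
    (htT : t ∈ T) (ht : t ∉ normalizer (R : Set S)) : False := by
  classical
  haveI : Fact (Nat.Prime 2) := ⟨Nat.prime_two⟩
  have hRinv : ∀ a ∈ R, a ∉ normalizer (T : Set S) → a * a = 1 :=
    fun a ha ha' => sq_eq_one hS h ha ha' htT ht
  have hTinv : ∀ a ∈ T, a ∉ normalizer (R : Set S) → a * a = 1 :=
    fun a ha ha' => sq_eq_one hS h.symm ha ha' hrR hr
  have hr2 := hRinv r hrR hr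
  have ht2 := hTinv t htT ht
  have hrinv : r⁻¹ = r := inv_eq_of_mul_eq_one_left hr2
  have htinv : t⁻¹ = t := inv_eq_of_mul_eq_one_left ht2
  have inv_aux : ∀ {A C : Subgroup S} {a : S}, a * a = 1 → a ∉ normalizer (C : Set S) → a ∈ A →
      (∀ x ∈ A, x ∉ normalizer (C : Set S) → x * x = 1) →
      ∀ u ∈ A ⊓ normalizer (C : Set S), a * u * a⁻¹ = u⁻¹ := by
    intro A C a ha2 ha haA hA u hu
    have h1 : u * a ∉ normalizer (C : Set S) := fun h2 => ha (by
      have := Subgroup.mul_mem _ (Subgroup.inv_mem _ hu.2) h2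
      simpa using this)
    have h3 := hA (u * a) (A.mul_mem hu.1 haA) h1
    have h4 : u * (a * u * a) = 1 := by
      rw [← h3]; group
    rw [inv_eq_of_mul_eq_one_left ha2]
    exact eq_inv_of_mul_eq_one_right h4
  have hinvR := inv_aux hr2 hr hrR hRinv
  have hinvT := inv_aux ht2 ht htT hTinv
  have hcomm : ∀ v ∈ R ⊓ normalizer (T : Set S), ∀ u ∈ T ⊓ normalizer (R : Set S), v * u = u * v := by
    intro v hv u hu
    have h1 : v * u * v⁻¹ * u⁻¹ ∈ R ⊓ T := by
      constructor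
      · have h2 : v * u * v⁻¹ * u⁻¹ = v * (u * v⁻¹ * u⁻¹) := by group
        rw [h2]
        exact R.mul_mem hv.1 (conj_mem_of_mem_normalizer hu.2 (R.inv_mem hv.1))
      · exact T.mul_mem (conj_mem_of_mem_normalizer hv.2 hu.1) (T.inv_mem hu.1)
    rw [h.inf, Subgroup.mem_bot] at h1
    have h2 : v * u * v⁻¹ = u := by
      calc v * u * v⁻¹ = v * u * v⁻¹ * u⁻¹ * u := by group
        _ = u := by rw [h1, one_mul]
    calc v * u = v * u * v⁻¹ * v := by group
      _ = u * v := by rw [h2]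
  set R₀ : Subgroup S := R ⊓ normalizer (T : Set S) with hR₀
  set T₀ : Subgroup S := T ⊓ normalizer (R : Set S) with hT₀
  set B : Subgroup S := R₀ ⊔ T₀ with hB
  have hrB : r ∈ normalizer (B : Set S) := conj_mem_sup_aux h hrR hr hinvR hcomm
  have htB : t ∈ normalizer (B : Set S) := by
    have h1 := conj_mem_sup_aux h.symm htT ht hinvT (fun v hv u hu => (hcomm u hu v hv).symm)
    rwa [sup_comm] at h1
  have hR₀ne : R₀ ≠ ⊥ := by
    intro h0
    apply hΦ
    apply frattini_eq_bot_of_sq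
    intro a
    have h1 : (a : S) * a = 1 := by
      by_cases ha : (a : S) ∈ normalizer (T : Set S)
      · have h2 : (a : S) ∈ R₀ := ⟨a.2, ha⟩
        rw [h0, Subgroup.mem_bot] at h2
        rw [h2, one_mul]
      · exact hRinv a a.2 ha
    apply Subtype.ext
    simpa [pow_two] using h1
  -- a central involution of `P = ⟨B, r, t⟩` in `B`
  let P : Subgroup S := B ⊔ Subgroup.closure {r, t}
  have hBP : B ≤ P := le_sup_left
  have hPN : P ≤ normalizer (B : Set S) := by
    apply sup_le (Subgroup.le_normalizer)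
    rw [Subgroup.closure_le]
    rintro x (rfl | rfl)
    · exact hrB
    · exact htB
  have hrP : r ∈ P := Subgroup.mem_sup_right (Subgroup.subset_closure (by simp))
  have htP : t ∈ P := Subgroup.mem_sup_right (Subgroup.subset_closure (by simp))
  have hPp : IsPGroup 2 P := hS.to_subgroup P
  haveI hnil : Group.IsNilpotent P := hPp.isNilpotent
  haveI hBn : (B.subgroupOf P).Normal := Subgroup.normal_subgroupOf_of_le_normalizer hPN
  have hB'ne : B.subgroupOf P ≠ ⊥ := by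
    intro h0
    apply hR₀ne
    rw [eq_bot_iff]
    intro x hx
    have h1 : (⟨x, hBP (Subgroup.mem_sup_left hx)⟩ : P) ∈ B.subgroupOf P :=
      Subgroup.mem_subgroupOf.mpr (Subgroup.mem_sup_left hx)
    rw [h0, Subgroup.mem_bot] at h1
    rw [Subgroup.mem_bot]
    exact congrArg Subtype.val h1
  have hQ := Cfsg.Agent.Lib.Core.normal_inf_center_ne_bot (B.subgroupOf P) hB'ne
  have hQp : IsPGroup 2 ↥(B.subgroupOf P ⊓ center P) := hPp.to_subgroup _
  obtain ⟨w, hwQ, hwo, -⟩ := Cfsg.Agent.Lib.Cl.exists_central_of_order_prime hQp hQ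
  have hw2 : (w : S) * w = 1 := by
    have h1 := pow_orderOf_eq_one w
    rw [hwo, pow_two] at h1
    exact congrArg Subtype.val h1
  have hw1 : (w : S) ≠ 1 := by
    intro h1
    have h2 : w = 1 := Subtype.ext h1
    rw [h2, orderOf_one] at hwo
    omega
  have hwB : (w : S) ∈ B := hwQ.1
  have hwc : ∀ p ∈ P, p * (w : S) = w * p := fun p hp =>
    congrArg Subtype.val (Subgroup.mem_center_iff.mp hwQ.2 ⟨p, hp⟩)
  obtain ⟨v, hv, u, hu, hvu⟩ := Cfsg.Agent.Lib.FStar.mem_sup_of_commuting hcomm hwB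
  have huv := hcomm v hv u hu
  -- `u` and `v` are involutions
  have hsq : v * v = (u * u)⁻¹ := by
    have h1 : (v * v) * (u * u) = 1 := by
      calc (v * v) * (u * u) = v * (v * u) * u := by group
        _ = v * (u * v) * u := by rw [huv]
        _ = (v * u) * (v * u) := by group
        _ = 1 := by rw [hvu, hw2]
    exact eq_inv_of_mul_eq_one_left h1
  have hvv : v * v = 1 := by
    have h1 : v * v ∈ R ⊓ T := by
      refine ⟨R.mul_mem hv.1 hv.1, ?_⟩
      rw [hsq]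
      exact T.inv_mem (T.mul_mem hu.1 hu.1)
    rwa [h.inf, Subgroup.mem_bot] at h1
  have hvinv : v⁻¹ = v := inv_eq_of_mul_eq_one_left hvv
  have huu : u * u = 1 := by
    have h1 := hsq
    rw [hvv] at h1
    exact inv_eq_one.mp h1.symm
  -- `r` fixes `w`
  have h1 : r * (v * u) * r⁻¹ = v * u := by
    rw [hvu, hwc r hrP]
    group
  have h2 : r * u * r⁻¹ = u := by
    have h3 : r * (v * u) * r⁻¹ = (r * v * r⁻¹) * (r * u * r⁻¹) := by group
    rw [h3, hinvR v hv, hvinv] at h1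
    exact mul_left_cancel h1
  obtain ⟨hti', -⟩ := h.rT r hrR (cj_ne_of_not_mem hr)
  have hu1 : u = 1 := by
    have h3 : u ∈ cj r T ⊓ T := by
      refine ⟨?_, hu.1⟩
      rw [← h2]
      exact mem_cj hu.1
    rwa [hti', Subgroup.mem_bot] at h3
  rw [hu1, mul_one] at hvu
  -- `t` fixes `w = v`
  have h3 : t * v * t⁻¹ = v := by
    rw [hvu, hwc t htP]
    group
  obtain ⟨hti, -⟩ := h.tR t htT (cj_ne_of_not_mem ht)
  have hv1 : v = 1 := by
    have h4 : v ∈ cj t R ⊓ R := by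
      refine ⟨?_, hv.1⟩
      rw [← h3]
      exact mem_cj hv.1
    rwa [hti, Subgroup.mem_bot] at h4
  exact hw1 (hvu ▸ hv1)

/-- The key lemma for a pair. -/
theorem core [Finite S] (hS : IsPGroup 2 S) {R T : Subgroup S} (h : Pair R T)
    (hΦ : frattini ↥R ≠ ⊥) (hcard : Nat.card R = Nat.card T) : ⁅R, T⁆ = ⊥ := by
  by_cases hRN : ∀ r ∈ R, r ∈ normalizer (T : Set S)
  · by_cases hTN : ∀ t ∈ T, t ∈ normalizer (R : Set S)
    · rw [eq_bot_iff, ← h.inf, Subgroup.commutator_le]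
      intro a ha b hb
      rw [commutatorElement_def]
      constructor
      · have h1 : a * b * a⁻¹ * b⁻¹ = a * (b * a⁻¹ * b⁻¹) := by group
        rw [h1]
        exact R.mul_mem ha (conj_mem_of_mem_normalizer (hTN b hb) (R.inv_mem ha))
      · exact T.mul_mem (conj_mem_of_mem_normalizer (hRN a ha) hb) (T.inv_mem hb)
    · push_neg at hTN
      obtain ⟨t, htT, ht⟩ := hTN
      exact (card_case h hcard hRN htT ht).elim
  · push_neg at hRN
    obtain ⟨r, hrR, hr⟩ := hRN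
    by_cases hTN : ∀ t ∈ T, t ∈ normalizer (R : Set S)
    · exact (card_case h.symm hcard.symm hTN hrR hr).elim
    · push_neg at hTN
      obtain ⟨t, htT, ht⟩ := hTN
      exact (both_case hS h hΦ hrR hr htT ht).elim

/-- A proper subgroup of a `2`-group lies in a proper normal subgroup. -/
theorem exists_normal_proper [Finite S] (hS : IsPGroup 2 S) {A P : Subgroup S} (h : A < P) :
    ∃ M : Subgroup S, A ≤ M ∧ M < P ∧ ∀ p ∈ P, ∀ m ∈ M, p * m * p⁻¹ ∈ M := by
  classical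
  haveI : Fact (Nat.Prime 2) := ⟨Nat.prime_two⟩
  have hPp : IsPGroup 2 P := hS.to_subgroup P
  haveI hnil : Group.IsNilpotent P := hPp.isNilpotent
  have hA' : A.subgroupOf P ≠ ⊤ := by
    intro h1
    exact (not_le_of_gt h) (Subgroup.subgroupOf_eq_top.mp h1)
  obtain ⟨M', hM', hAM'⟩ := (eq_top_or_exists_le_coatom (A.subgroupOf P)).resolve_left hA'
  have hn : M'.Normal := NormalizerCondition.normal_of_coatom M' normalizerCondition_of_isNilpotent hM'
  refine ⟨M'.map P.subtype, ?_, ?_, ?_⟩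
  · intro a ha
    exact ⟨⟨a, h.le ha⟩, hAM' (Subgroup.mem_subgroupOf.mpr ha), rfl⟩
  · refine lt_of_le_of_ne (Subgroup.map_subtype_le _) ?_
    intro h1
    apply hM'.1
    rw [eq_top_iff]
    intro x _
    have h2 : (x : S) ∈ M'.map P.subtype := by rw [h1]; exact x.2
    obtain ⟨y, hy, hyx⟩ := h2
    have : y = x := Subtype.ext hyx
    rwa [← this]
  · rintro p hp _ ⟨m, hm, rfl⟩
    exact ⟨⟨p, hp⟩ * m * ⟨p, hp⟩⁻¹, hn.conj_mem m hm ⟨p, hp⟩, rfl⟩

/-- Let S be a finite 2-group and Δ a set of subgroups of S closed under conjugation by S, all of the same order, each with nontrivial Frattini subgroup, and such that two distinct members of Δ meet trivially. Then any two distinct members of Δ commute elementwise. -/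
theorem result {S : Type*} [Group S] [Finite S] (hS : IsPGroup 2 S)
    (Δ : Set (Subgroup S)) (hinv : ∀ s : S, ∀ R ∈ Δ, R.map (MulAut.conj s).toMonoidHom ∈ Δ)
    (hΦ : ∀ R ∈ Δ, frattini ↥R ≠ ⊥) (hord : ∀ R ∈ Δ, ∀ T ∈ Δ, Nat.card ↥R = Nat.card ↥T)
    (hti : ∀ R ∈ Δ, ∀ T ∈ Δ, R = T ∨ R ⊓ T = ⊥) :
    ∀ R ∈ Δ, ∀ T ∈ Δ, R ≠ T → ⁅R, T⁆ = ⊥ := by
  classical
  suffices key : ∀ n : ℕ, ∀ R ∈ Δ, ∀ T ∈ Δ, R ≠ T → Nat.card ↥(R ⊔ T) = n → ⁅R, T⁆ = ⊥ by
    intro R hR T hT hne
    exact key _ R hR T hT hne rfl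
  intro n
  induction n using Nat.strong_induction_on with
  | _ n ih =>
    intro R hR T hT hne hn
    -- a step: conjugates of `A` under `A ⊔ C` commute with `A`
    have step : ∀ {A C : Subgroup S}, A ∈ Δ → C ∈ Δ → A ≠ C → Nat.card ↥(A ⊔ C) = n → ∀ c ∈ C, cj c A ≠ A →
        cj c A ⊓ A = ⊥ ∧ ∀ a ∈ A, ∀ b ∈ cj c A, a * b = b * a := by
      intro A C hA hC hne' hn' c hc hcA
      have h1 : cj c A ∈ Δ := hinv c A hA
      refine ⟨(hti _ h1 _ hA).resolve_left hcA, ?_⟩
      have hlt : A < A ⊔ C := by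
        refine lt_of_le_of_ne le_sup_left ?_
        intro h2
        have h3 : C ≤ A := by rw [h2]; exact le_sup_right
        exact hne' (Subgroup.eq_of_le_of_card_ge h3 (hord A hA C hC).le).symm
      obtain ⟨M, hAM, hMlt, hMn⟩ := exists_normal_proper hS hlt
      have h2 : A ⊔ cj c A ≤ M := by
        apply sup_le hAM
        rintro _ ⟨a, ha, rfl⟩
        exact hMn c (Subgroup.mem_sup_right hc) a (hAM ha)
      have h3 : Nat.card ↥(A ⊔ cj c A) < n := by
        rw [← hn']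
        exact lt_of_le_of_lt (Subgroup.card_le_of_le h2) (lt_of_le_of_ne (Subgroup.card_le_of_le hMlt.le)
          (fun e => hMlt.ne (Subgroup.eq_of_le_of_card_ge hMlt.le e.ge)))
      have h4 := ih _ h3 A hA _ h1 hcA.symm rfl
      exact Cfsg.Agent.Lib.FStar.commutator_eq_bot_iff_forall.mp h4
    have hP : Pair R T := by
      refine ⟨(hti R hR T hT).resolve_left hne, ?_, ?_⟩
      · exact step hR hT hne hn
      · exact step hT hR hne.symm (by rw [sup_comm]; exact hn)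
    exact core hS hP (hΦ R hR) (hord R hR T hT)

end Cfsg.Agent.S1782
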