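import Cfsg.Statements.S1783
import Mathlib
import Cfsg.Agent.S1782
import Cfsg.Agent.Lib.Core.Frattini
import Cfsg.Agent.Lib.PGroup.Basic
import Cfsg.Agent.Lib.FStar.GenFitting
import Cfsg.Agent.Lib.Cl.PComp

set_option autoImplicit false
open Cfsg

namespace Cfsg.Agent.S1783

open Subgroup Cfsg.Agent.Lib.Core Cfsg.Agent.Lib.FStar Cfsg.Agent.Lib.Cl

theorem sq_mem_frattini {P : Type*} [Group P] [Finite P] (h : IsPGroup 2 P) (a : P) : a ^ 2 ∈ frattini P := by
  haveI : Fact (Nat.Prime 2) := ⟨Nat.prime_two⟩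
  rw [mem_frattini_iff]
  intro M hM
  exact Subgroup.sq_mem_of_index_two (Cfsg.Agent.Lib.PGroup.index_eq_prime_of_isCoatom h hM) a

variable {X : Type*} [Group X] [Finite X]

/-- The ambient form of the commuting lemma. -/
theorem ambient_commute (P : Subgroup X) (hP : IsPGroup 2 P) (Δ : Set (Subgroup X)) (hle : ∀ R ∈ Δ, R ≤ P)
    (hinv : ∀ p ∈ P, ∀ R ∈ Δ, R.map (MulAut.conj p).toMonoidHom ∈ Δ) (hsq : ∀ R ∈ Δ, ∃ r ∈ R, r ^ 2 ≠ 1)
    (hord : ∀ R ∈ Δ, ∀ T ∈ Δ, Nat.card R = Nat.card T) (hti : ∀ R ∈ Δ, ∀ T ∈ Δ, R = T ∨ R ⊓ T = ⊥) :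
    ∀ R ∈ Δ, ∀ T ∈ Δ, R ≠ T → ⁅R, T⁆ = ⊥ := by
  classical
  let Δ' : Set (Subgroup P) := {R' | R'.map P.subtype ∈ Δ}
  have hcard : ∀ R' : Subgroup P, Nat.card (R'.map P.subtype) = Nat.card R' := fun R' =>
    Nat.card_congr (R'.equivMapOfInjective _ P.subtype_injective).symm.toEquiv
  have hmap : ∀ R ∈ Δ, (R.subgroupOf P).map P.subtype = R := fun R hR =>
    Subgroup.map_subgroupOf_eq_of_le (hle R hR)
  have key := Cfsg.Agent.S1782.result hP Δ' ?_ ?_ ?_ ?_
  · intro R hR T hT hne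
    have h1 : R.subgroupOf P ∈ Δ' := by
      show (R.subgroupOf P).map P.subtype ∈ Δ
      rw [hmap R hR]; exact hR
    have h2 : T.subgroupOf P ∈ Δ' := by
      show (T.subgroupOf P).map P.subtype ∈ Δ
      rw [hmap T hT]; exact hT
    have h3 : R.subgroupOf P ≠ T.subgroupOf P := by
      intro h
      apply hne
      rw [← hmap R hR, ← hmap T hT, h]
    have h4 := key _ h1 _ h2 h3
    have h5 := congrArg (Subgroup.map P.subtype) h4
    rw [Subgroup.map_commutator, hmap R hR, hmap T hT, Subgroup.map_bot] at h5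
    exact h5
  · intro s R' hR'
    show (R'.map (MulAut.conj s).toMonoidHom).map P.subtype ∈ Δ
    have h1 := hinv s s.2 _ hR'
    convert h1 using 1
    ext x
    constructor
    · rintro ⟨_, ⟨r, hr, rfl⟩, rfl⟩
      exact ⟨_, ⟨r, hr, rfl⟩, by simp [MulAut.conj_apply]⟩
    · rintro ⟨_, ⟨r, hr, rfl⟩, rfl⟩
      exact ⟨_, ⟨r, hr, rfl⟩, by simp [MulAut.conj_apply]⟩
  · intro R' hR'
    obtain ⟨r, hr, hr2⟩ := hsq _ hR'
    obtain ⟨r', hr', rfl⟩ := hr
    intro hbot
    have hR'p : IsPGroup 2 R' := hP.to_subgroup R'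
    have h1 := sq_mem_frattini hR'p ⟨r', hr'⟩
    rw [hbot, Subgroup.mem_bot] at h1
    apply hr2
    have h2 := congrArg (fun z : R' => ((z : P) : X)) h1
    simpa using h2
  · intro R' hR' T' hT'
    have h1 := hord _ hR' _ hT'
    rwa [hcard, hcard] at h1
  · intro R' hR' T' hT'
    rcases hti _ hR' _ hT' with h | h
    · exact Or.inl (Subgroup.map_injective P.subtype_injective h)
    · right
      rw [← Subgroup.map_inf _ _ _ P.subtype_injective] at h
      exact (Subgroup.map_eq_bot_iff_of_injective _ P.subtype_injective).mp h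

/-- The conjugates of an abelian TI subgroup in a `2`-subgroup, if the subgroup is not elementary abelian, commute. -/
theorem conj_family (A : Subgroup X) (hA2 : IsPGroup 2 ↥A)
    (hti : ∀ h : X, A.map (MulAut.conj h).toMonoidHom = A ∨ A.map (MulAut.conj h).toMonoidHom ⊓ A = ⊥)
    (hsq : ∃ a ∈ A, a ^ 2 ≠ 1) (P : Subgroup X) (hP : IsPGroup 2 P) (hAP : A ≤ P) :
    ∀ x y : X, A.map (MulAut.conj x).toMonoidHom ≤ P → A.map (MulAut.conj y).toMonoidHom ≤ P →
      A.map (MulAut.conj x).toMonoidHom ≠ A.map (MulAut.conj y).toMonoidHom →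
      ⁅A.map (MulAut.conj x).toMonoidHom, A.map (MulAut.conj y).toMonoidHom⁆ = ⊥ := by
  classical
  let Δ : Set (Subgroup X) := {D | D ≤ P ∧ ∃ x : X, D = A.map (MulAut.conj x).toMonoidHom}
  have hcard : ∀ x : X, Nat.card (A.map (MulAut.conj x).toMonoidHom) = Nat.card A := fun x =>
    Nat.card_congr (A.equivMapOfInjective _ (MulAut.conj x).injective).symm.toEquiv
  have hcomp : ∀ x y : X, (A.map (MulAut.conj y).toMonoidHom).map (MulAut.conj x).toMonoidHom =
      A.map (MulAut.conj (x * y)).toMonoidHom := by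
    intro x y
    rw [Subgroup.map_map]
    congr 1
    ext a
    simp [MulAut.conj_apply, mul_assoc]
  have key := ambient_commute P hP Δ (fun R hR => hR.1) ?_ ?_ ?_ ?_
  · intro x y hx hy hne
    exact key _ ⟨hx, x, rfl⟩ _ ⟨hy, y, rfl⟩ hne
  · rintro p hp _ ⟨hR, x, rfl⟩
    refine ⟨?_, p * x, hcomp p x⟩
    rintro _ ⟨z, hz, rfl⟩
    exact P.mul_mem (P.mul_mem hp (hR hz)) (P.inv_mem hp)
  · rintro _ ⟨hR, x, rfl⟩
    obtain ⟨a, ha, ha2⟩ := hsq
    refine ⟨MulAut.conj x a, ⟨a, ha, rfl⟩, ?_⟩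
    intro h
    apply ha2
    rw [← map_pow] at h
    exact (map_eq_one_iff (MulAut.conj x) (MulAut.conj x).injective).mp h
  · rintro _ ⟨-, x, rfl⟩ _ ⟨-, y, rfl⟩
    rw [hcard, hcard]
  · rintro _ ⟨-, x, rfl⟩ _ ⟨-, y, rfl⟩
    rcases hti (y⁻¹ * x) with h | h
    · left
      rw [← hcomp, ] at h
      have h1 := congrArg (Subgroup.map (MulAut.conj y).toMonoidHom) h
      rw [hcomp, hcomp] at h1
      simpa using h1
    · right
      rw [← hcomp] at h
      have h1 := congrArg (Subgroup.map (MulAut.conj y).toMonoidHom) h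
      rw [Subgroup.map_inf _ _ _ (MulAut.conj y).injective, hcomp, hcomp, Subgroup.map_bot] at h1
      simpa using h1

/-- An element whose square acts trivially modulo the Frattini subgroup lies in the `2`-core: the key step. -/
theorem mem_pCore_of_quadratic (hX : generalizedFittingSubgroup X = pCore 2 X) {a : X}
    (ha : ∀ q ∈ pCore 2 X, a * (a * q * a⁻¹ * q⁻¹) = (a * q * a⁻¹ * q⁻¹) * a) : a ^ 2 ∈ pCore 2 X := by
  classical
  haveI : Fact (Nat.Prime 2) := ⟨Nat.prime_two⟩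
  set Q : Subgroup X := pCore 2 X with hQdef
  have hQp : IsPGroup 2 Q := pCore_isPGroup 2 X
  have hCQ : Subgroup.centralizer (Q : Set X) ≤ Q := by
    have := centralizer_gen_le (G := X)
    rwa [hX] at this
  set Φ : Subgroup X := (frattini ↥Q).map Q.subtype with hΦ
  haveI hΦn : Φ.Normal := Cfsg.Agent.Lib.PGroup.map_subtype_normal_of_characteristic Q _
  have hΦp : IsPGroup 2 Φ := IsPGroup.to_le hQp (Subgroup.map_subtype_le _)
  -- the stability group
  let C : Subgroup X :=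
    { carrier := {g | ∀ q ∈ Q, g * q * g⁻¹ * q⁻¹ ∈ Φ}
      one_mem' := by
        intro q _
        simp
      mul_mem' := by
        intro g h hg hh q hq
        have h1 := hg q hq
        have h2 := hh q hq
        have h3 := hΦn.conj_mem _ h2 g
        have e : g * h * q * (g * h)⁻¹ * q⁻¹ = (g * (h * q * h⁻¹ * q⁻¹) * g⁻¹) * (g * q * g⁻¹ * q⁻¹) := by group
        rw [e]
        exact Φ.mul_mem h3 h1
      inv_mem' := by
        intro g hg q hq
        have hq' : g⁻¹ * q⁻¹ * g⁻¹⁻¹ ∈ Q := (inferInstance : Q.Normal).conj_mem _ (Q.inv_mem hq) g⁻¹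
        have h1 := hg _ hq'
        have h2 : g * (g⁻¹ * q⁻¹ * g⁻¹⁻¹) * g⁻¹ * (g⁻¹ * q⁻¹ * g⁻¹⁻¹)⁻¹ = q⁻¹ * (g⁻¹ * q⁻¹ * g⁻¹⁻¹)⁻¹ := by group
        rw [h2] at h1
        have h3 := hΦn.conj_mem _ h1 q
        have e : q * (q⁻¹ * (g⁻¹ * q⁻¹ * g⁻¹⁻¹)⁻¹) * q⁻¹ = (g⁻¹ * q * g⁻¹⁻¹ * q⁻¹) := by group
        rw [e] at h3
        simpa using h3 }
  have hCn : C.Normal := by
    refine ⟨fun g hg x q hq => ?_⟩
    have hq' : x⁻¹ * q * x⁻¹⁻¹ ∈ Q := (inferInstance : Q.Normal).conj_mem _ hq x⁻¹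
    have h1 := hg _ hq'
    have h2 := hΦn.conj_mem _ h1 x
    have e : x * (g * (x⁻¹ * q * x⁻¹⁻¹) * g⁻¹ * (x⁻¹ * q * x⁻¹⁻¹)⁻¹) * x⁻¹ = x * g * x⁻¹ * q * (x * g * x⁻¹)⁻¹ * q⁻¹ := by group
    rwa [e] at h2
  -- `C` is a `2`-group
  have hCp : IsPGroup 2 C := by
    apply IsPGroup.of_card (n := (Nat.card C).primeFactorsList.length)
    apply Nat.eq_prime_pow_of_unique_prime_dvd Nat.card_pos.ne'
    intro r hr hrd
    haveI : Fact r.Prime := ⟨hr⟩
    obtain ⟨g, hg⟩ := exists_prime_orderOf_dvd_card' r hrd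
    by_contra hr2
    have hgo : orderOf (g : X) = r := by rw [← hg, Subgroup.orderOf_coe]
    -- `g` centralizes `Q`
    have hcent : (g : X) ∈ Subgroup.centralizer (Q : Set X) := by
      let H : Subgroup ↥Q := (Q ⊓ Subgroup.centralizer ({(g : X)} : Set X)).subgroupOf Q
      have hsup : H ⊔ frattini ↥Q = ⊤ := by
        rw [eq_top_iff]
        rintro ⟨k, hk⟩ -
        have hΦc : (Nat.card Φ).Coprime r := by
          obtain ⟨n, hn⟩ := IsPGroup.iff_card.mp hΦp
          rw [hn]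
          exact Nat.Coprime.pow_left n ((Nat.coprime_primes Nat.prime_two hr).mpr (Ne.symm hr2))
        have hg1 := g.2 k⁻¹ (Q.inv_mem hk)
        have hk' : k⁻¹ * (g : X) * k * (g : X)⁻¹ ∈ Φ := by
          have e : k⁻¹ * (g : X) * k * (g : X)⁻¹ = ((g : X) * k⁻¹ * (g : X)⁻¹ * k⁻¹⁻¹)⁻¹ := by group
          rw [e]
          exact Φ.inv_mem hg1
        obtain ⟨o, ho, hgo'⟩ := exists_fixed_in_coset hΦc (y := (g : X)) (by rw [← hgo]; exact pow_orderOf_eq_one _)
          (fun o ho => hΦn.conj_mem o ho g) k hk'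
        obtain ⟨o₀, ho₀, rfl⟩ := ho
        have hmem : k * (o₀ : X) ∈ Q := Q.mul_mem hk o₀.2
        have h1 : (⟨k * (o₀ : X), hmem⟩ : Q) ∈ H := by
          rw [Subgroup.mem_subgroupOf]
          refine ⟨hmem, ?_⟩
          show k * (o₀ : X) ∈ Subgroup.centralizer ({(g : X)} : Set X)
          rw [Subgroup.mem_centralizer_singleton_iff]
          exact hgo'.symm
        have h2 : (⟨k, hk⟩ : Q) = ⟨k * (o₀ : X), hmem⟩ * o₀⁻¹ := by
          apply Subtype.ext
          simp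
        rw [h2]
        exact Subgroup.mul_mem_sup h1 (Subgroup.inv_mem _ ho₀)
      have htop : H = ⊤ := frattini_nongenerating hsup
      rw [Subgroup.mem_centralizer_iff]
      intro q hq
      have h1 : (⟨q, hq⟩ : Q) ∈ H := by rw [htop]; trivial
      have h2 : q ∈ Subgroup.centralizer ({(g : X)} : Set X) := h1.2
      exact Subgroup.mem_centralizer_singleton_iff.mp h2
    have hgQ := hCQ hcent
    obtain ⟨n, hn⟩ := IsPGroup.iff_orderOf.mp hQp ⟨g, hgQ⟩
    rw [Subgroup.orderOf_mk, hgo] at hn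
    have h3 : r ∣ 2 ^ n := by rw [hn]
    exact hr2 ((Nat.prime_dvd_prime_iff_eq hr Nat.prime_two).mp (hr.dvd_of_dvd_pow h3))
  have hCQ' : C ≤ Q := le_pCore hCn hCp
  apply hCQ'
  intro q hq
  have hu : a * q * a⁻¹ * q⁻¹ ∈ Q :=
    Q.mul_mem ((inferInstance : Q.Normal).conj_mem q hq a) (Q.inv_mem hq)
  have hcomm := ha q hq
  set u : X := a * q * a⁻¹ * q⁻¹ with hu'
  have hconj : a * q * a⁻¹ = u * q := by simp only [hu']; group
  have hau : a * u * a⁻¹ = u := by rw [hcomm]; group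
  have e : a ^ 2 * q * (a ^ 2)⁻¹ * q⁻¹ = u ^ 2 := by
    calc a ^ 2 * q * (a ^ 2)⁻¹ * q⁻¹ = a * (a * q * a⁻¹) * a⁻¹ * q⁻¹ := by rw [pow_two]; group
      _ = a * (u * q) * a⁻¹ * q⁻¹ := by rw [hconj]
      _ = (a * u * a⁻¹) * (a * q * a⁻¹) * q⁻¹ := by group
      _ = u * (u * q) * q⁻¹ := by rw [hau, hconj]
      _ = u ^ 2 := by rw [pow_two]; simp [mul_assoc]
  rw [e]
  exact ⟨(⟨u, hu⟩ : Q) ^ 2, sq_mem_frattini hQp _, by simp⟩

/-- Let X be a finite group whose generalized Fitting subgroup equals its largest normal 2-subgroup Q, and let A be an abelian 2-subgroup of X such that every conjugate of A equals A or meets A trivially. Let B be the subgroup generated by the squares of the elements of A. Then B lies in Q, and if B is not an elementary abelian 2-group then the normal closure of B in X is commutative. -/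
theorem result {X : Type*} [Group X] [Finite X]
    (hX : Cfsg.generalizedFittingSubgroup X = Cfsg.pCore 2 X) (A : Subgroup X) (hA2 : IsPGroup 2 ↥A) (hAa : IsMulCommutative ↥A)
    (hti : ∀ h : X, A.map (MulAut.conj h).toMonoidHom = A ∨ A.map (MulAut.conj h).toMonoidHom ⊓ A = ⊥) :
    Subgroup.closure ((fun a : X => a ^ 2) '' (A : Set X)) ≤ Cfsg.pCore 2 X ∧
      (¬ Cfsg.IsElementaryAbelian 2 (Subgroup.closure ((fun a : X => a ^ 2) '' (A : Set X))) →
        IsMulCommutative ↥(Subgroup.normalClosure ((fun a : X => a ^ 2) '' (A : Set X)))) := by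
  classical
  haveI : Fact (Nat.Prime 2) := ⟨Nat.prime_two⟩
  have hAc : ∀ a ∈ A, ∀ b ∈ A, a * b = b * a := fun a ha b hb =>
    congrArg Subtype.val (hAa.is_comm.comm (⟨a, ha⟩ : A) ⟨b, hb⟩)
  set Q : Subgroup X := pCore 2 X with hQdef
  have hQp : IsPGroup 2 Q := pCore_isPGroup 2 X
  by_cases hsq : ∃ a ∈ A, a ^ 2 ≠ 1
  swap
  · push_neg at hsq
    have hB : Subgroup.closure ((fun a : X => a ^ 2) '' (A : Set X)) = ⊥ := by
      rw [eq_bot_iff, Subgroup.closure_le]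
      rintro _ ⟨a, ha, rfl⟩
      simp [hsq a ha]
    refine ⟨by rw [hB]; exact bot_le, fun h => ?_⟩
    exfalso
    apply h
    rw [hB]
    refine ⟨⟨⟨fun x y => Subsingleton.elim _ _⟩⟩, ?_⟩
    intro a ha
    rw [Subgroup.mem_bot] at ha
    simp [ha]
  -- the Sylow subgroup through `A`
  obtain ⟨S, hAS⟩ := hA2.exists_le_sylow
  have hQS : Q ≤ S := pCore_le_sylow S
  have hfam := conj_family A hA2 hti hsq S S.isPGroup' hAS
  have hconj1 : A.map (MulAut.conj (1 : X)).toMonoidHom = A := by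
    have h0 : (MulAut.conj (1 : X)).toMonoidHom = MonoidHom.id X := by
      ext y
      simp [MulAut.conj_apply]
    rw [h0, Subgroup.map_id]
  have hAQ : ∀ q ∈ Q, ∀ a ∈ A, ∀ b ∈ A, a * (q * b * q⁻¹) = (q * b * q⁻¹) * a := by
    intro q hq a ha b hb
    have hqb : q * b * q⁻¹ ∈ A.map (MulAut.conj q).toMonoidHom := ⟨b, hb, rfl⟩
    by_cases hcase : A.map (MulAut.conj q).toMonoidHom = A
    · rw [hcase] at hqb
      exact hAc a ha _ hqb
    · have hqS : A.map (MulAut.conj q).toMonoidHom ≤ S := by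
        rintro _ ⟨z, hz, rfl⟩
        exact S.mul_mem (S.mul_mem (hQS hq) (hAS hz)) (S.inv_mem (hQS hq))
      have h1 := hfam 1 q (by rw [hconj1]; exact hAS) hqS (by rw [hconj1]; exact Ne.symm hcase)
      rw [hconj1] at h1
      exact commutator_eq_bot_iff_forall.mp h1 a ha _ hqb
  have hsqQ : ∀ a ∈ A, a ^ 2 ∈ Q := by
    intro a ha
    apply mem_pCore_of_quadratic hX
    intro q hq
    have h1 := hAQ q hq a ha a⁻¹ (A.inv_mem ha)
    have e : a * q * a⁻¹ * q⁻¹ = a * (q * a⁻¹ * q⁻¹) := by group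
    rw [e]
    calc a * (a * (q * a⁻¹ * q⁻¹)) = a * ((q * a⁻¹ * q⁻¹) * a) := by rw [h1]
      _ = a * (q * a⁻¹ * q⁻¹) * a := by group
  set B : Subgroup X := Subgroup.closure ((fun a : X => a ^ 2) '' (A : Set X)) with hB
  have hBQ : B ≤ Q := by
    rw [hB, Subgroup.closure_le]
    rintro _ ⟨a, ha, rfl⟩
    exact hsqQ a ha
  have hBA : B ≤ A := by
    rw [hB, Subgroup.closure_le]
    rintro _ ⟨a, ha, rfl⟩
    exact A.pow_mem ha 2
  refine ⟨hBQ, fun hnot => ?_⟩
  have hbsq : ∃ b ∈ B, b ^ 2 ≠ 1 := by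
    by_contra hcon
    push_neg at hcon
    apply hnot
    exact ⟨⟨⟨fun x y => Subtype.ext (hAc x (hBA x.2) y (hBA y.2))⟩⟩, hcon⟩
  -- `B` is TI
  have hBmap : ∀ z : X, B.map (MulAut.conj z).toMonoidHom =
      Subgroup.closure ((fun a : X => a ^ 2) '' ((A.map (MulAut.conj z).toMonoidHom : Subgroup X) : Set X)) := by
    intro z
    rw [hB, MonoidHom.map_closure]
    congr 1
    ext y
    constructor
    · rintro ⟨_, ⟨a, ha, rfl⟩, rfl⟩
      exact ⟨MulAut.conj z a, ⟨a, ha, rfl⟩, by simp⟩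
    · rintro ⟨_, ⟨a, ha, rfl⟩, rfl⟩
      exact ⟨a ^ 2, ⟨a, ha, rfl⟩, by simp⟩
  have hBti : ∀ h : X, B.map (MulAut.conj h).toMonoidHom = B ∨ B.map (MulAut.conj h).toMonoidHom ⊓ B = ⊥ := by
    intro h
    rcases hti h with h1 | h1
    · left
      rw [hBmap, h1]
    · right
      rw [eq_bot_iff, ← h1]
      exact inf_le_inf (Subgroup.map_mono hBA) hBA
  have hBfam := conj_family B (IsPGroup.to_le hA2 hBA) hBti hbsq Q hQp hBQ
  have hBconj : ∀ g : X, B.map (MulAut.conj g).toMonoidHom ≤ Q := by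
    rintro g _ ⟨z, hz, rfl⟩
    exact (inferInstance : Q.Normal).conj_mem z (hBQ hz) g
  have hsets : ∀ x ∈ Group.conjugatesOfSet ((fun a : X => a ^ 2) '' (A : Set X)),
      ∃ g : X, x ∈ B.map (MulAut.conj g).toMonoidHom := by
    intro x hx
    rw [Group.mem_conjugatesOfSet_iff] at hx
    obtain ⟨s, hs, hsx⟩ := hx
    obtain ⟨g, rfl⟩ := isConj_iff.mp hsx
    exact ⟨g, s, Subgroup.subset_closure hs, rfl⟩
  have hBabel : ∀ g : X, ∀ x ∈ B.map (MulAut.conj g).toMonoidHom, ∀ y ∈ B.map (MulAut.conj g).toMonoidHom,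
      x * y = y * x := by
    rintro g _ ⟨a, ha, rfl⟩ _ ⟨b, hb, rfl⟩
    have h1 := hAc a (hBA ha) b (hBA hb)
    simp only [MonoidHom.coe_coe, ← map_mul]
    show (MulAut.conj g) (a * b) = (MulAut.conj g) (b * a)
    rw [h1]
  unfold Subgroup.normalClosure
  apply Subgroup.isMulCommutative_closure
  intro x hx y hy
  obtain ⟨g, hg⟩ := hsets x hx
  obtain ⟨h, hh⟩ := hsets y hy
  by_cases hcase : B.map (MulAut.conj g).toMonoidHom = B.map (MulAut.conj h).toMonoidHom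
  · rw [← hcase] at hh
    exact hBabel g x hg y hh
  · exact commutator_eq_bot_iff_forall.mp (hBfam g h (hBconj g) (hBconj h) hcase) x hg y hh

end Cfsg.Agent.S1783
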