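import Cfsg.Statements.S1784
import Mathlib
import Cfsg.Agent.Lib.Cl.Extraspecial

set_option autoImplicit false
open Cfsg

namespace Cfsg.Agent.S1784

open Subgroup Cfsg.Agent.Lib.Cl Cfsg.Agent.Lib.FStar

/-- Let G be a finite group and let z be an involution of G such that Q, the generalized Fitting subgroup of the centralizer C of z, is a 2-group of symplectic type (every characteristic abelian subgroup of Q is cyclic); suppose Q is extraspecial, and view Q inside G. Let α be an involution of C that is not in Q, and let Q₀ be the subgroup of those q ∈ Q whose commutator with α lies in the subgroup generated by z. Then (a) the subgroup generated by the commutators α q α⁻¹ q⁻¹, q ∈ Q, equals the centre of Q₀; and (b) if Q₀ is not contained in the product of the centralizer of α in Q with the subgroup generated by z, then some element of Q conjugates α to α z. -/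
theorem result {G : Type*} [Group G] [Finite G] (z : G) (hz : orderOf z = 2) (hQ : Cfsg.IsOfSymplecticType ↥(Cfsg.generalizedFittingSubgroup ↥(Subgroup.centralizer ({z} : Set G)))) (hE : Cfsg.IsExtraspecial 2 ↥(Cfsg.generalizedFittingSubgroup ↥(Subgroup.centralizer ({z} : Set G))))
    (α : G) (hα : orderOf α = 2) (hαC : α ∈ Subgroup.centralizer ({z} : Set G)) (hαQ : α ∉ (Cfsg.generalizedFittingSubgroup ↥(Subgroup.centralizer ({z} : Set G))).map (Subgroup.centralizer ({z} : Set G)).subtype)
    (Q₀ : Subgroup G) (hQ₀ : ∀ q : G, q ∈ Q₀ ↔ (q ∈ (Cfsg.generalizedFittingSubgroup ↥(Subgroup.centralizer ({z} : Set G))).map (Subgroup.centralizer ({z} : Set G)).subtype ∧ α * q * α⁻¹ * q⁻¹ ∈ Subgroup.zpowers z)) :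
    Subgroup.closure ((fun q : G => α * q * α⁻¹ * q⁻¹) '' ((Cfsg.generalizedFittingSubgroup ↥(Subgroup.centralizer ({z} : Set G))).map (Subgroup.centralizer ({z} : Set G)).subtype : Set G)) = (Subgroup.center ↥Q₀).map Q₀.subtype ∧
      (¬ Q₀ ≤ ((Cfsg.generalizedFittingSubgroup ↥(Subgroup.centralizer ({z} : Set G))).map (Subgroup.centralizer ({z} : Set G)).subtype ⊓ Subgroup.centralizer ({α} : Set G)) ⊔ Subgroup.zpowers z →
        ∃ q ∈ (Cfsg.generalizedFittingSubgroup ↥(Subgroup.centralizer ({z} : Set G))).map (Subgroup.centralizer ({z} : Set G)).subtype, q * α * q⁻¹ = α * z) := by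
  
  classical
  have hαα : α * α = 1 := by
    have := pow_orderOf_eq_one α
    rwa [hα, pow_two] at this
  have hαz : α * z = z * α := mem_centralizer_singleton_iff.mp hαC
  have hF := extraFacts_of_map (centralizer ({z} : Set G)).subtype (centralizer ({z} : Set G)).subtype_injective _ hE hz
    (self_mem_cQ z) (fun q hq => comm_of_mem_cQ hq)
  have hαQ' : ∀ q ∈ cQ z, α * q * α⁻¹ ∈ cQ z := fun q hq => conj_mem_cQ hαC hq
  have hne : ∃ q ∈ cQ z, α * q * α⁻¹ * q⁻¹ ≠ 1 := by
    by_contra hcon
    push_neg at hcon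
    apply hαQ
    have h1 : (⟨α, hαC⟩ : centralizer ({z} : Set G)) ∈ centralizer
        ((generalizedFittingSubgroup ↥(centralizer ({z} : Set G)) : Subgroup _) : Set _) := by
      rw [Subgroup.mem_centralizer_iff]
      intro g hg
      apply Subtype.ext
      have h2 := hcon (g : G) ⟨g, hg, rfl⟩
      have h3 : α * (g : G) * α⁻¹ = g := by
        rwa [mul_inv_eq_one] at h2
      show (g : G) * α = α * g
      rw [mul_inv_eq_iff_eq_mul] at h3
      exact h3.symm
    exact ⟨_, centralizer_gen_le h1, rfl⟩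
  refine ⟨closure_comm_eq_center hF hαα hαz hαQ' hne hQ₀, ?_⟩
  intro hnot
  obtain ⟨q, hq₀, hqn⟩ := Set.not_subset.mp hnot
  obtain ⟨hqQ, hqz⟩ := (hQ₀ q).mp hq₀
  have hq1 : α * q * α⁻¹ * q⁻¹ ≠ 1 := by
    intro h1
    apply hqn
    apply Subgroup.mem_sup_left
    refine ⟨hqQ, ?_⟩
    show q ∈ centralizer ({α} : Set G)
    rw [mem_centralizer_singleton_iff]
    rw [mul_inv_eq_one, mul_inv_eq_iff_eq_mul] at h1
    exact h1.symm
  rcases hF.eq_one_or hqz with h1 | h1
  · exact absurd h1 hq1
  · refine ⟨q⁻¹, (cQ z).inv_mem hqQ, ?_⟩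
    have h2 : q * z = z * q := comm_of_mem_cQ hqQ
    have h3 : α * q = z * q * α := by
      rw [← h1]; group
    calc q⁻¹ * α * q⁻¹⁻¹ = q⁻¹ * (α * q) := by group
      _ = q⁻¹ * (z * q * α) := by rw [h3]
      _ = q⁻¹ * (q * z * α) := by rw [h2]
      _ = z * α := by group
      _ = α * z := hαz.symm

end Cfsg.Agent.S1784
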