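import Cfsg.Statements.S1785
import Mathlib
import Cfsg.Agent.Lib.Cl.Klein
import Cfsg.Agent.Lib.Core.Basic
import Cfsg.Agent.Lib.FStar.Basic

set_option autoImplicit false
open Cfsg

namespace Cfsg.Agent.S1785

open Subgroup Cfsg.Agent.Lib.Cl Cfsg

variable {X : Type*} [Group X]

theorem ea_comm {A : Subgroup X} (hA : IsElementaryAbelian 2 A) {a b : X} (ha : a ∈ A) (hb : b ∈ A) :
    a * b = b * a :=
  congrArg Subtype.val (hA.1.is_comm.comm (⟨a, ha⟩ : A) ⟨b, hb⟩)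

theorem le_centralizer_of_ea {A : Subgroup X} (hA : IsElementaryAbelian 2 A) {U : Subgroup X} (h : U ≤ A) :
    U ≤ Subgroup.centralizer (A : Set X) := by
  intro u hu
  rw [Subgroup.mem_centralizer_iff]
  intro a ha
  exact ea_comm hA ha (h hu)

theorem mem_centralizer_of_comm {A : Subgroup X} {x : X} (h : ∀ a ∈ A, a * x = x * a) :
    x ∈ Subgroup.centralizer (A : Set X) := Subgroup.mem_centralizer_iff.mpr h

/-- The chain relation. -/
def Rel (C D : Subgroup X) : Prop :=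
  IsElementaryAbelian 2 C ∧ Nat.card ↥C = 8 ∧ IsElementaryAbelian 2 D ∧ Nat.card ↥D = 8 ∧ ⁅C, D⁆ = ⊥

theorem Rel.symm' {C D : Subgroup X} (h : Rel C D) : Rel D C :=
  ⟨h.2.2.1, h.2.2.2.1, h.1, h.2.1, by rw [Subgroup.commutator_comm]; exact h.2.2.2.2⟩

theorem Rel.of_le {C D : Subgroup X} (hC : IsElementaryAbelian 2 C) (hC8 : Nat.card ↥C = 8)
    (hD : IsElementaryAbelian 2 D) (hD8 : Nat.card ↥D = 8) (h : C ≤ Subgroup.centralizer (D : Set X)) : Rel C D :=
  ⟨hC, hC8, hD, hD8, Subgroup.commutator_eq_bot_iff_le_centralizer.mpr h⟩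

/-- Let X be a finite 2-group having a normal elementary abelian subgroup of order at least 32. Then (a) for any two elementary abelian subgroups A, B of X of order 8 there is a chain A = A₁, A₂, …, Aₙ = B of elementary abelian subgroups of order 8 in which consecutive members commute elementwise; and (b) every elementary abelian subgroup of X of order 4 is contained in an elementary abelian subgroup of order 8. -/
theorem result {X : Type*} [Group X] [Finite X]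
    (hX : IsPGroup 2 X) (E : Subgroup X) [E.Normal] (hE : Cfsg.IsElementaryAbelian 2 E) (hE32 : 32 ≤ Nat.card ↥E) :
    (∀ A B : Subgroup X, Cfsg.IsElementaryAbelian 2 A → Nat.card ↥A = 8 → Cfsg.IsElementaryAbelian 2 B → Nat.card ↥B = 8 →
        Relation.ReflTransGen
          (fun C D : Subgroup X => Cfsg.IsElementaryAbelian 2 C ∧ Nat.card ↥C = 8 ∧ Cfsg.IsElementaryAbelian 2 D ∧ Nat.card ↥D = 8 ∧ ⁅C, D⁆ = ⊥)
          A B) ∧
      (∀ V : Subgroup X, Cfsg.IsElementaryAbelian 2 V → Nat.card ↥V = 4 →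
        ∃ A : Subgroup X, V ≤ A ∧ Cfsg.IsElementaryAbelian 2 A ∧ Nat.card ↥A = 8) := by
  classical
  haveI : Fact (Nat.Prime 2) := ⟨Nat.prime_two⟩
  haveI nil : Group.IsNilpotent X := hX.isNilpotent
  have hEne : E ≠ ⊥ := by
    rintro rfl
    simp at hE32
  have hEc : ∀ {a b : X}, a ∈ E → b ∈ E → a * b = b * a := fun ha hb => ea_comm hE ha hb
  have hE2 := hE.2
  obtain ⟨w, hw, hwne⟩ : ∃ w ∈ E ⊓ Subgroup.center X, w ≠ 1 :=
    (Subgroup.bot_or_exists_ne_one _).resolve_left (Cfsg.Agent.Lib.Core.normal_inf_center_ne_bot E hEne)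
  have hwE : w ∈ E := hw.1
  have hwc : ∀ g : X, g * w = w * g := fun g => (Subgroup.mem_center_iff.mp hw.2) g
  have hw2 : w ^ 2 = 1 := hE2 w hwE
  -- centralizers in `E`
  have hC1 : ∀ a : X, a ^ 2 = 1 → 6 ≤ Nat.card ↥(E ⊓ Subgroup.centralizer ({a} : Set X)) := by
    intro a ha
    have h1 := card_le_card_inf_centralizer_sq hE.1 hE2
      (fun e he => (inferInstance : E.Normal).conj_mem e he a) ha
    by_contra hlt
    have h3 : Nat.card ↥(E ⊓ Subgroup.centralizer ({a} : Set X)) ≤ 5 := by omega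
    have h4 : Nat.card ↥(E ⊓ Subgroup.centralizer ({a} : Set X)) ^ 2 ≤ 5 ^ 2 := Nat.pow_le_pow_left h3 2
    omega
  have hC2 : ∀ a b : X, a ^ 2 = 1 → b ^ 2 = 1 → a * b = b * a →
      3 ≤ Nat.card ↥((E ⊓ Subgroup.centralizer ({a} : Set X)) ⊓ Subgroup.centralizer ({b} : Set X)) := by
    intro a b ha hb hab
    have h0 := hC1 a ha
    have hc : IsMulCommutative ↥(E ⊓ Subgroup.centralizer ({a} : Set X)) := by
      refine ⟨⟨fun x y => Subtype.ext (hEc x.2.1 y.2.1)⟩⟩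
    have h1 := card_le_card_inf_centralizer_sq (E := E ⊓ Subgroup.centralizer ({a} : Set X)) (v := b) hc
      (fun e he => hE2 e he.1)
      (fun e he => by
        refine ⟨(inferInstance : E.Normal).conj_mem e he.1 b, ?_⟩
        have h5 : e * a = a * e := Subgroup.mem_centralizer_singleton_iff.mp he.2
        show b * e * b⁻¹ ∈ Subgroup.centralizer ({a} : Set X)
        rw [Subgroup.mem_centralizer_singleton_iff]
        calc b * e * b⁻¹ * a = b * e * (b⁻¹ * a) := by group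
          _ = b * e * (a * b⁻¹) := by
              have h6 : b⁻¹ * a = a * b⁻¹ := by
                have := (Commute.inv_left (show Commute b a from hab.symm)).eq
                exact this
              rw [h6]
          _ = b * (e * a) * b⁻¹ := by group
          _ = b * (a * e) * b⁻¹ := by rw [h5]
          _ = (b * a) * e * b⁻¹ := by group
          _ = (a * b) * e * b⁻¹ := by rw [hab]
          _ = a * (b * e * b⁻¹) := by group) hb
    by_contra hlt
    have h3 : Nat.card ↥((E ⊓ Subgroup.centralizer ({a} : Set X)) ⊓ Subgroup.centralizer ({b} : Set X)) ≤ 2 := by omega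
    have h4 : Nat.card ↥((E ⊓ Subgroup.centralizer ({a} : Set X)) ⊓ Subgroup.centralizer ({b} : Set X)) ^ 2 ≤ 2 ^ 2 :=
      Nat.pow_le_pow_left h3 2
    omega
  -- `⟨w⟩`
  obtain ⟨B₁, hwB₁, hB₁, hB₁c, hB₁S⟩ := exists_ea_two hw2 hwne
  have hB₁E : B₁ ≤ E := hB₁S E hwE
  -- every element of order 8 is connected to a subgroup of `E`
  have key : ∀ A : Subgroup X, IsElementaryAbelian 2 A → Nat.card ↥A = 8 → ∃ W : Subgroup X,
      IsElementaryAbelian 2 W ∧ Nat.card ↥W = 8 ∧ W ≤ E ∧ Relation.ReflTransGen Rel A W := by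
    intro A hA hA8
    -- step 0: pass to a subgroup containing `w`
    obtain ⟨U₁, hU₁, hU₁8, hwU₁, hAU₁⟩ : ∃ U : Subgroup X, IsElementaryAbelian 2 U ∧ Nat.card ↥U = 8 ∧ w ∈ U ∧
        Relation.ReflTransGen Rel A U := by
      by_cases hwA : w ∈ A
      · exact ⟨A, hA, hA8, hwA, Relation.ReflTransGen.refl⟩
      obtain ⟨a₁, ha₁A, ha₁⟩ := exists_mem_not_mem_of_card_lt (H := A) (A := ⊥) (by simp [hA8])
      rw [Subgroup.mem_bot] at ha₁
      obtain ⟨V₁, ha₁V₁, hV₁, hV₁c, hV₁S⟩ := exists_ea_two (hA.2 a₁ ha₁A) ha₁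
      obtain ⟨a₂, ha₂A, ha₂⟩ := exists_mem_not_mem_of_card_lt (H := A) (A := V₁) (by omega)
      obtain ⟨V₂, hV₁V₂, ha₂V₂, hV₂, hV₂c, hV₂S⟩ := exists_ea_extend hV₁ (hA.2 a₂ ha₂A) ha₂
        (fun a ha => ea_comm hA (hV₁S A ha₁A ha) ha₂A)
      have hV₂A : V₂ ≤ A := hV₂S A (hV₁S A ha₁A) ha₂A
      have hwV₂ : w ∉ V₂ := fun h => hwA (hV₂A h)
      obtain ⟨U, hV₂U, hwU, hU, hUc, hUS⟩ := exists_ea_extend hV₂ hw2 hwV₂ (fun a _ => hwc a)
      have hU8 : Nat.card ↥U = 8 := by rw [hUc, hV₂c, hV₁c]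
      refine ⟨U, hU, hU8, hwU, Relation.ReflTransGen.single ?_⟩
      apply Rel.symm'
      apply Rel.of_le hU hU8 hA hA8
      apply hUS
      · exact le_centralizer_of_ea hA hV₂A
      · exact mem_centralizer_of_comm (fun a _ => hwc a)
    -- step 1: a second element of `E`
    obtain ⟨U₂, hU₂, hU₂8, hwU₂, w₂, hw₂U₂, hw₂E, hw₂B, hU₁U₂⟩ : ∃ U : Subgroup X, IsElementaryAbelian 2 U ∧
        Nat.card ↥U = 8 ∧ w ∈ U ∧ ∃ w₂ ∈ U, w₂ ∈ E ∧ w₂ ∉ B₁ ∧ Relation.ReflTransGen Rel U₁ U := by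
      by_cases hcase : ∃ w₂ ∈ U₁, w₂ ∈ E ∧ w₂ ∉ B₁
      · obtain ⟨w₂, h1, h2, h3⟩ := hcase
        exact ⟨U₁, hU₁, hU₁8, hwU₁, w₂, h1, h2, h3, Relation.ReflTransGen.refl⟩
      push_neg at hcase
      have hB₁U₁ : B₁ ≤ U₁ := hB₁S U₁ hwU₁
      obtain ⟨a, haU, ha⟩ := exists_mem_not_mem_of_card_lt (H := U₁) (A := B₁) (by omega)
      obtain ⟨B₂, hB₁B₂, haB₂, hB₂, hB₂c, hB₂S⟩ := exists_ea_extend hB₁ (hU₁.2 a haU) ha
        (fun x hx => ea_comm hU₁ (hB₁U₁ hx) haU)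
      have hB₂U₁ : B₂ ≤ U₁ := hB₂S U₁ hB₁U₁ haU
      obtain ⟨b, hbU, hb⟩ := exists_mem_not_mem_of_card_lt (H := U₁) (A := B₂) (by omega)
      obtain ⟨B₃, hB₂B₃, hbB₃, hB₃, hB₃c, hB₃S⟩ := exists_ea_extend hB₂ (hU₁.2 b hbU) hb
        (fun x hx => ea_comm hU₁ (hB₂U₁ hx) hbU)
      have hB₃U₁ : B₃ = U₁ := Subgroup.eq_of_le_of_card_ge (hB₃S U₁ hB₂U₁ hbU) (by omega)
      have hcard3 := hC2 a b (hU₁.2 a haU) (hU₁.2 b hbU) (ea_comm hU₁ haU hbU)
      obtain ⟨w₂, hw₂, hw₂B⟩ := exists_mem_not_mem_of_card_lt (A := B₁) (H := (E ⊓ Subgroup.centralizer ({a} : Set X)) ⊓ Subgroup.centralizer ({b} : Set X)) (by omega)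
      have hw₂E : w₂ ∈ E := hw₂.1.1
      have hw₂a : w₂ * a = a * w₂ := Subgroup.mem_centralizer_singleton_iff.mp hw₂.1.2
      have hw₂b : w₂ * b = b * w₂ := Subgroup.mem_centralizer_singleton_iff.mp hw₂.2
      have hw₂U₁ : w₂ ∉ U₁ := fun h => hw₂B (hcase w₂ h hw₂E)
      have hw₂B₂ : w₂ ∉ B₂ := fun h => hw₂U₁ (hB₂U₁ h)
      have hB₂C : B₂ ≤ Subgroup.centralizer ({w₂} : Set X) := by
        apply hB₂S
        · apply hB₁S
          rw [Subgroup.mem_centralizer_singleton_iff]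
          exact hwc w₂ |>.symm
        · rw [Subgroup.mem_centralizer_singleton_iff]
          exact hw₂a.symm
      obtain ⟨U, hB₂U, hw₂U, hU, hUc, hUS⟩ := exists_ea_extend hB₂ (hE2 w₂ hw₂E) hw₂B₂
        (fun x hx => Subgroup.mem_centralizer_singleton_iff.mp (hB₂C hx))
      have hU8 : Nat.card ↥U = 8 := by rw [hUc, hB₂c, hB₁c]
      refine ⟨U, hU, hU8, hB₂U (hB₁B₂ hwB₁), w₂, hw₂U, hw₂E, hw₂B, Relation.ReflTransGen.single ?_⟩
      apply Rel.symm'
      apply Rel.of_le hU hU8 hU₁ hU₁8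
      apply hUS
      · exact le_centralizer_of_ea hU₁ hB₂U₁
      · apply mem_centralizer_of_comm
        rw [← hB₃U₁]
        intro x hx
        have hcen : B₃ ≤ Subgroup.centralizer ({w₂} : Set X) := by
          apply hB₃S _ hB₂C
          rw [Subgroup.mem_centralizer_singleton_iff]
          exact hw₂b.symm
        exact Subgroup.mem_centralizer_singleton_iff.mp (hcen hx)
    -- step 2: into `E`
    have hB₁U₂ : B₁ ≤ U₂ := hB₁S U₂ hwU₂
    obtain ⟨B₂, hB₁B₂, hw₂B₂, hB₂, hB₂c, hB₂S⟩ := exists_ea_extend hB₁ (hE2 w₂ hw₂E) hw₂B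
      (fun x hx => hEc (hB₁E hx) hw₂E)
    have hB₂U₂ : B₂ ≤ U₂ := hB₂S U₂ hB₁U₂ hw₂U₂
    have hB₂E : B₂ ≤ E := hB₂S E hB₁E hw₂E
    by_cases hU₂E : U₂ ≤ E
    · exact ⟨U₂, hU₂, hU₂8, hU₂E, hAU₁.trans hU₁U₂⟩
    obtain ⟨a, haU, haE⟩ := Set.not_subset.mp hU₂E
    have haB₂ : a ∉ B₂ := fun h => haE (hB₂E h)
    obtain ⟨B₃, hB₂B₃, haB₃, hB₃, hB₃c, hB₃S⟩ := exists_ea_extend hB₂ (hU₂.2 a haU) haB₂
      (fun x hx => ea_comm hU₂ (hB₂U₂ hx) haU)
    have hB₃U₂ : B₃ = U₂ := Subgroup.eq_of_le_of_card_ge (hB₃S U₂ hB₂U₂ haU) (by omega)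
    have hcard6 := hC1 a (hU₂.2 a haU)
    obtain ⟨w₃, hw₃, hw₃B⟩ := exists_mem_not_mem_of_card_lt (A := B₂) (H := E ⊓ Subgroup.centralizer ({a} : Set X)) (by omega)
    have hw₃E : w₃ ∈ E := hw₃.1
    have hw₃a : w₃ * a = a * w₃ := Subgroup.mem_centralizer_singleton_iff.mp hw₃.2
    obtain ⟨W, hB₂W, hw₃W, hW, hWc, hWS⟩ := exists_ea_extend hB₂ (hE2 w₃ hw₃E) hw₃B
      (fun x hx => hEc (hB₂E hx) hw₃E)
    have hW8 : Nat.card ↥W = 8 := by rw [hWc, hB₂c, hB₁c]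
    refine ⟨W, hW, hW8, hWS E hB₂E hw₃E, (hAU₁.trans hU₁U₂).tail ?_⟩
    apply Rel.symm'
    apply Rel.of_le hW hW8 hU₂ hU₂8
    apply hWS
    · exact le_centralizer_of_ea hU₂ hB₂U₂
    · apply mem_centralizer_of_comm
      rw [← hB₃U₂]
      intro x hx
      have hcen : B₃ ≤ Subgroup.centralizer ({w₃} : Set X) := by
        apply hB₃S
        · intro y hy
          rw [Subgroup.mem_centralizer_singleton_iff]
          exact hEc (hB₂E hy) hw₃E
        · rw [Subgroup.mem_centralizer_singleton_iff]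
          exact hw₃a.symm
      exact Subgroup.mem_centralizer_singleton_iff.mp (hcen hx)
  refine ⟨?_, ?_⟩
  · intro A B hA hA8 hB hB8
    obtain ⟨W₁, hW₁, hW₁8, hW₁E, h₁⟩ := key A hA hA8
    obtain ⟨W₂, hW₂, hW₂8, hW₂E, h₂⟩ := key B hB hB8
    haveI hsymm : Std.Symm (Rel (X := X)) := ⟨fun C D h => h.symm'⟩
    have h₂' : Relation.ReflTransGen Rel W₂ B := (Relation.ReflTransGen.symmetric (r := Rel (X := X))).symm B W₂ h₂
    have h12 : Rel W₁ W₂ := Rel.of_le hW₁ hW₁8 hW₂ hW₂8 (by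
      intro x hx
      rw [Subgroup.mem_centralizer_iff]
      intro y hy
      exact hEc (hW₂E hy) (hW₁E hx))
    exact (h₁.tail h12).trans h₂'
  · intro V hV hV4
    obtain ⟨a, haV, ha⟩ := exists_mem_not_mem_of_card_lt (H := V) (A := ⊥) (by simp [hV4])
    rw [Subgroup.mem_bot] at ha
    obtain ⟨V₁, haV₁, hV₁, hV₁c, hV₁S⟩ := exists_ea_two (hV.2 a haV) ha
    obtain ⟨b, hbV, hb⟩ := exists_mem_not_mem_of_card_lt (H := V) (A := V₁) (by omega)
    obtain ⟨V₂, hV₁V₂, hbV₂, hV₂, hV₂c, hV₂S⟩ := exists_ea_extend hV₁ (hV.2 b hbV) hb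
      (fun x hx => ea_comm hV (hV₁S V haV hx) hbV)
    have hV₂V : V₂ = V := Subgroup.eq_of_le_of_card_ge (hV₂S V (hV₁S V haV) hbV) (by omega)
    -- an element of `C_E(V)` outside `V`
    obtain ⟨c, hc, hcV⟩ : ∃ c ∈ (E ⊓ Subgroup.centralizer ({a} : Set X)) ⊓ Subgroup.centralizer ({b} : Set X), c ∉ V := by
      by_contra hcon
      push_neg at hcon
      have hle : (E ⊓ Subgroup.centralizer ({a} : Set X)) ⊓ Subgroup.centralizer ({b} : Set X) ≤ V ⊓ E :=
        fun x hx => ⟨hcon x hx, hx.1.1⟩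
      have h1 := Subgroup.card_le_of_le hle
      have h2 := hC2 a b (hV.2 a haV) (hV.2 b hbV) (ea_comm hV haV hbV)
      have h3 : Nat.card ↥(V ⊓ E) ∣ 4 := by
        rw [← hV4]; exact Subgroup.card_dvd_of_le inf_le_left
      have h4 : Nat.card ↥(V ⊓ E) = 4 := by
        have h5 : Nat.card ↥(V ⊓ E) ≤ 4 := Nat.le_of_dvd (by norm_num) h3
        have h6 : 3 ≤ Nat.card ↥(V ⊓ E) := by omega
        interval_cases h7 : Nat.card ↥(V ⊓ E)
        · omega
        · rfl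
      have h8 : V ⊓ E = V := Subgroup.eq_of_le_of_card_ge inf_le_left (by omega)
      have hVE : V ≤ E := inf_eq_left.mp h8
      -- then `E` centralizes `V`
      have h9 : E ≤ V ⊓ E := by
        intro x hx
        apply hle
        refine ⟨⟨hx, ?_⟩, ?_⟩
        · exact Subgroup.mem_centralizer_singleton_iff.mpr (hEc hx (hVE haV))
        · exact Subgroup.mem_centralizer_singleton_iff.mpr (hEc hx (hVE hbV))
      have h10 := Subgroup.card_le_of_le h9
      omega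
    have hcE : c ∈ E := hc.1.1
    have hca : c * a = a * c := Subgroup.mem_centralizer_singleton_iff.mp hc.1.2
    have hcb : c * b = b * c := Subgroup.mem_centralizer_singleton_iff.mp hc.2
    have hVC : V ≤ Subgroup.centralizer ({c} : Set X) := by
      rw [← hV₂V]
      apply hV₂S
      · apply hV₁S
        rw [Subgroup.mem_centralizer_singleton_iff]
        exact hca.symm
      · rw [Subgroup.mem_centralizer_singleton_iff]
        exact hcb.symm
    obtain ⟨A, hVA, hcA, hA, hAc, -⟩ := exists_ea_extend hV (hE2 c hcE) hcV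
      (fun x hx => Subgroup.mem_centralizer_singleton_iff.mp (hVC hx))
    exact ⟨A, hVA, hA, by rw [hAc, hV4]⟩


end Cfsg.Agent.S1785
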