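import Cfsg.Statements.S1850
import Mathlib
import Cfsg.Agent.Lib.Cl.CharTwo

set_option autoImplicit false
open Cfsg

namespace Cfsg.Agent.S1850

/-- Let G be a non-abelian finite simple QTKE-group and T a Sylow 2-subgroup of G. If U is a nontrivial 2-subgroup of G with U ∩ Z(T) ≠ 1, then F*(N_G(U)) = O₂(N_G(U)). -/
theorem result {G : Type*} [Group G] [Finite G] [IsSimpleGroup G]
    (hG : ¬ IsMulCommutative G) (hQ : Cfsg.IsQTKE G) (T : Sylow 2 G) (U : Subgroup G)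
    (hU : IsPGroup 2 ↥U) (hZ : U ⊓ ((T : Subgroup G) ⊓ Subgroup.centralizer ((T : Subgroup G) : Set G)) ≠ ⊥) :
    Subgroup.normalizer (U : Set G) ∈ Cfsg.calHe G := by
  classical
  haveI : Fact (Nat.Prime 2) := ⟨Nat.prime_two⟩
  set W₀ := U ⊓ ((T : Subgroup G) ⊓ Subgroup.centralizer ((T : Subgroup G) : Set G)) with hW₀
  have hW₀p : IsPGroup 2 W₀ := hU.to_le inf_le_left
  obtain ⟨z, hz, hz2, -⟩ := Cfsg.Agent.Lib.Cl.exists_central_of_order_prime hW₀p hZ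
  have hzU : z ∈ U := hz.1
  have hzC : z ∈ Subgroup.centralizer ((T : Subgroup G) : Set G) := hz.2.2
  set Z₀ := Subgroup.zpowers z with hZ₀
  have hZ₀U : Z₀ ≤ U := Subgroup.zpowers_le.2 hzU
  have hZ₀p : IsPGroup 2 Z₀ := hU.to_le hZ₀U
  have hZ₀1 : Z₀ ≠ ⊥ := by
    intro h
    rw [hZ₀, Subgroup.zpowers_eq_bot] at h
    rw [h, orderOf_one] at hz2
    omega
  have hTL : IsTwoLocal (Subgroup.normalizer (Z₀ : Set G)) := ⟨Z₀, hZ₀p, hZ₀1, rfl⟩
  have hTle : (T : Subgroup G) ≤ Subgroup.normalizer (Z₀ : Set G) := by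
    refine le_trans ?_ (Subgroup.centralizer_le_normalizer _)
    intro t ht
    rw [Subgroup.mem_centralizer_iff]
    intro y hy
    obtain ⟨k, rfl⟩ := Subgroup.mem_zpowers_iff.1 hy
    have h1 : z * t = t * z := (Subgroup.mem_centralizer_iff.1 hzC) t ht |>.symm
    exact ((Commute.zpow_left h1 k)).symm.eq.symm ▸ rfl
  have hchar := hQ.2.2 _ hTL ⟨T, hTle⟩
  have hF := Cfsg.Agent.Lib.Cl.gen_eq_of_charTwo hchar
  exact Cfsg.Agent.Lib.Cl.gen_normalizer_tower hU _ Z₀ hZ₀U rfl hF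

end Cfsg.Agent.S1850
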