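import Cfsg.Statements.S1851
import Mathlib
import Cfsg.Agent.Lib.Cl.Qtke

set_option autoImplicit false
open Cfsg

namespace Cfsg.Agent.S1851

/-- Let G be a non-abelian finite simple QTKE-group and T a Sylow 2-subgroup of G, and let L be a member of ℒ_f(G, T) (a member of ℒ(G, T) that lies in 𝒳 — L ≠ 1, L = O²(L), F*(L) = O₂(L) — and acts nontrivially on Ω₁(Z(O₂(L)))). Then (1) every member K of ℒ(G, T) containing L is again in ℒ_f(G, T) (a sharper form of (1) also compares the modules [Ω₁(Z(R)), L] and [Ω₁(Z(R')), K] for suitable 2-subgroups R, R'; that comparison is not included); and (2) if L is maximal under inclusion among the members of ℒ_f(G, T), then L is a maximal member of ℒ(G, T), hence a member of ℒ_f*(G, T). -/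
theorem result {G : Type*} [Group G] [Finite G] [IsSimpleGroup G]
    (hG : ¬ IsMulCommutative G) (hQ : Cfsg.IsQTKE G) (T : Sylow 2 G) (L : Subgroup G)
    (hL : L ∈ Cfsg.calLf (T : Subgroup G)) :
    (∀ K ∈ Cfsg.calL (T : Subgroup G), L ≤ K → K ∈ Cfsg.calLf (T : Subgroup G)) ∧
    ((∀ K ∈ Cfsg.calLf (T : Subgroup G), L ≤ K → K = L) → L ∈ Cfsg.calLfMax (T : Subgroup G)) := by
  have key : ∀ K ∈ Cfsg.calL (T : Subgroup G), L ≤ K → K ∈ Cfsg.calLf (T : Subgroup G) := by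
    intro K hK hLK
    refine ⟨hK, ⟨⟨?_, ?_, ?_⟩, ?_⟩⟩
    · rintro rfl
      exact hL.2.1.1 (le_bot_iff.1 hLK)
    · exact Cfsg.Agent.Lib.Cl.oddGenerated_eq_of_perfect
        (Cfsg.Agent.Lib.Cl.perfect_of_subgroupOf le_sup_left hK.1.2.1)
    · exact Cfsg.Agent.Lib.Cl.mem_calHe_of_mem_calL T hQ.2.2 hK
    · exact Cfsg.Agent.Lib.Cl.moduleV_ne_bot_of_le T hQ.2.2 hL hK hLK
  exact ⟨key, fun hmax => ⟨⟨hL.1, fun K hK hLK => hmax K (key K hK hLK) hLK⟩, hL.2⟩⟩

end Cfsg.Agent.S1851
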