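import Cfsg.Statements.S1961
import Mathlib
import Cfsg.Agent.Lib.Techniques.Control

set_option autoImplicit false
open Cfsg

namespace Cfsg.Agent.S1961

open Cfsg.Agent.Lib.Techniques


/-- Local-to-global control of strong fusion through well-placed subgroups. Let p be a prime, G a finite group with Sylow p-subgroup S, and W a conjugacy functor for p on G. If W controls strong fusion in N_G(T) for every nonidentity subgroup T of S that is well placed in S with respect to W, then W controls strong fusion in G. -/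
theorem result {G : Type*} [Group G] [Finite G] {p : ℕ} [Fact p.Prime] (S : Sylow p G) (W : Subgroup G → Subgroup G) (hW : Cfsg.IsConjugacyFunctor p W) (hloc : ∀ T : Subgroup G, T ≠ ⊥ → Cfsg.IsWellPlaced p W (S : Subgroup G) T → Cfsg.ControlsStrongFusionIn p W (Subgroup.normalizer ((T : Subgroup G) : Set G))) : Cfsg.ControlsStrongFusionIn p W ⊤ := by
  classical
  have hS : SylowIn p (S : Subgroup G) ⊤ := sylowIn_top_of_sylow S
  set S₀ : Subgroup G := (S : Subgroup G) with hS₀
  -- the groupoid of conjugations induced by `N(W S)`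
  let Good : Set G → G → Prop := fun A g =>
    ∃ x ∈ Subgroup.normalizer ((W S₀ : Subgroup G) : Set G), ∀ a ∈ A, x * a * x⁻¹ = g * a * g⁻¹
  have hG : IsConjGroupoid Good := by
    refine ⟨?_, ?_, ?_⟩
    · rintro A B g hAB ⟨x, hx, hxa⟩
      exact ⟨x, hx, fun a ha => hxa a (hAB ha)⟩
    · rintro A g h ⟨x, hx, hxa⟩ ⟨y, hy, hya⟩
      refine ⟨y * x, Subgroup.mul_mem _ hy hx, fun a ha => ?_⟩
      have h1 := hya (g * a * g⁻¹) ⟨a, ha, rfl⟩
      calc y * x * a * (y * x)⁻¹ = y * (x * a * x⁻¹) * y⁻¹ := by group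
        _ = y * (g * a * g⁻¹) * y⁻¹ := by rw [hxa a ha]
        _ = h * (g * a * g⁻¹) * h⁻¹ := h1
        _ = h * g * a * (h * g)⁻¹ := by group
    · rintro A g ⟨x, hx, hxa⟩
      refine ⟨x⁻¹, Subgroup.inv_mem _ hx, ?_⟩
      rintro _ ⟨a, ha, rfl⟩
      show x⁻¹ * (g * a * g⁻¹) * x⁻¹⁻¹ = g⁻¹ * (g * a * g⁻¹) * g⁻¹⁻¹
      calc x⁻¹ * (g * a * g⁻¹) * x⁻¹⁻¹ = x⁻¹ * (x * a * x⁻¹) * x⁻¹⁻¹ := by rw [hxa a ha]
        _ = a := by group
        _ = g⁻¹ * (g * a * g⁻¹) * g⁻¹⁻¹ := by group
  -- the well-placed induction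
  have key : ∀ (n : ℕ) (U : Subgroup G), U ≠ ⊥ → IsWellPlaced p W S₀ U →
      Nat.card S₀ - Nat.card (S₀ ⊓ Subgroup.normalizer (U : Set G) : Subgroup G) = n →
      ∀ (A : Set G) (y : G), y ∈ Subgroup.normalizer (U : Set G) →
        A ⊆ (S₀ ⊓ Subgroup.normalizer (U : Set G) : Subgroup G) →
        lconj y A ⊆ (S₀ ⊓ Subgroup.normalizer (U : Set G) : Subgroup G) → Good A y := by
    intro n
    induction n using Nat.strong_induction_on with
    | _ n ih =>
      intro U hU0 hwp hn A y hy hA hA'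
      have hfn : FullyNorm p S₀ U := IsWellPlaced.fullyNorm hwp hS.2.1
      obtain ⟨x, ⟨hxN, hxW⟩, hxa⟩ := ctrlAt_of_controls hW (hloc U hU0 hwp) hfn A y hy hA hA'
      set Q : Subgroup G := S₀ ⊓ Subgroup.normalizer (U : Set G) with hQ
      have hQp : IsPGroup p Q := hS.2.1.to_le inf_le_left
      by_cases hQS : Q = S₀
      · refine ⟨x, ?_, hxa⟩
        rw [hQS] at hxW
        exact hxW
      · have hlt : Q < S₀ := lt_of_le_of_ne inf_le_left hQS
        have hlt2 := lt_inf_normalizer_functor hS.2.1 hW hlt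
        have hUQ : U ≤ Q := le_inf hwp.1 Subgroup.le_normalizer
        have hQ0 : Q ≠ ⊥ := by
          intro h0
          apply hU0
          rw [eq_bot_iff, ← h0]
          exact hUQ
        have hW0 : W Q ≠ ⊥ := (hW Q hQp).2.1 hQ0
        have hwp2 : IsWellPlaced p W S₀ (W Q) := IsWellPlaced.shift hwp hW hS.2.1
        have hc1 := card_lt_of_lt' hlt2
        have hc2 : Nat.card (S₀ ⊓ Subgroup.normalizer ((W Q : Subgroup G) : Set G) : Subgroup G) ≤ Nat.card S₀ :=
          Subgroup.card_le_of_le inf_le_left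
        have e : lconj x A = lconj y A := lconj_congr hxa
        obtain ⟨x', hx', hx'a⟩ := ih _ (by omega) (W Q) hW0 hwp2 rfl A x hxW
          (hA.trans (fun z hz => hlt2.le hz))
          (by rw [e]; exact hA'.trans (fun z hz => hlt2.le hz))
        refine ⟨x', hx', fun a ha => ?_⟩
        rw [hx'a a ha, hxa a ha]
  -- every conjugation is good
  have main := good_main hS hG 0 (by
    intro T hT _
    obtain ⟨g, hg, -⟩ := exists_wellPlaced_conj hS hW T hT
    refine ⟨_, g, hg.1, rfl, IsWellPlaced.fullyNorm hg hS.2.1, ?_⟩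
    intro y hy
    by_cases hU0 : conjS g T = ⊥
    · refine ⟨1, Subgroup.one_mem _, ?_⟩
      intro a ha
      have h1 : a = 1 := by
        have : a ∈ (⊥ : Subgroup G) := by rw [← hU0]; exact ha
        simpa using this
      simp [h1]
    · refine key _ _ hU0 hg rfl _ y hy ?_ ?_
      · intro a ha
        exact ⟨hg.1 ha, Subgroup.le_normalizer ha⟩
      · rw [lconj_coe, mem_normalizer_iff_conjS.1 hy]
        intro a ha
        exact ⟨hg.1 ha, Subgroup.le_normalizer ha⟩)
  refine ⟨S₀, le_top, hS.2.1, hS.2.2, ?_⟩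
  intro A h _ hA hA'
  have hT : Subgroup.closure A ≤ S₀ := (Subgroup.closure_le _).2 hA
  have hT' : conjS h (Subgroup.closure A) ≤ S₀ := by
    rw [conjS_le_iff, Subgroup.closure_le]
    intro a ha
    have := hA' ⟨a, ha, rfl⟩
    rw [SetLike.mem_coe, mem_conjS]
    simpa using this
  obtain ⟨x, hx, hxa⟩ := main _ hT Nat.card_pos h hT'
  exact ⟨x, ⟨trivial, hx⟩, fun a ha => hxa a (Subgroup.subset_closure ha)⟩


end Cfsg.Agent.S1961
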