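import Cfsg.Statements.S1962
import Mathlib
import Cfsg.Agent.Lib.Techniques.Control

set_option autoImplicit false
open Cfsg

namespace Cfsg.Agent.S1962

open Cfsg.Agent.Lib.Techniques


/-- Local-to-global control of transfer through well-placed subgroups. Let p be a prime, G a finite group with Sylow p-subgroup S, and W a conjugacy functor for p on G. If W controls transfer in N_G(T) for every nonidentity subgroup T of S that is well placed in S with respect to W, then W controls transfer in G: S ∩ G' = S ∩ (N_G(W(S)))'. -/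
theorem result {G : Type*} [Group G] [Finite G] {p : ℕ} [Fact p.Prime] (S : Sylow p G) (W : Subgroup G → Subgroup G) (hW : Cfsg.IsConjugacyFunctor p W) (hloc : ∀ T : Subgroup G, T ≠ ⊥ → Cfsg.IsWellPlaced p W (S : Subgroup G) T → Cfsg.ControlsTransferIn p W (Subgroup.normalizer ((T : Subgroup G) : Set G))) : Cfsg.ControlsTransferIn p W ⊤ := by
  classical
  have hS : SylowIn p (S : Subgroup G) ⊤ := sylowIn_top_of_sylow S
  set S₀ : Subgroup G := (S : Subgroup G) with hS₀
  set K : Subgroup G := (⊤ : Subgroup G) ⊓ Subgroup.normalizer ((W S₀ : Subgroup G) : Set G) with hK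
  set T₀ : Subgroup G := S₀ ⊓ ⁅K, K⁆ with hT₀
  have hSK : S₀ ≤ K := le_inf le_top
    (Subgroup.le_normalizer.trans (normalizer_le_normalizer_functor hW hS.2.1))
  have hT₀S : T₀ ≤ S₀ := inf_le_left
  have hT₀G : T₀ ≤ ⁅(⊤ : Subgroup G), ⊤⁆ := inf_le_right.trans (Subgroup.commutator_mono le_top le_top)
  have hSn : S₀ ≤ Subgroup.normalizer (T₀ : Set G) := by
    intro s hs
    apply mem_normalizer_of_conjS_le
    rw [hT₀, conjS_inf, conjS_commutator, conjS_eq_of_mem (hSK hs), conjS_eq_of_mem hs]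
  have hcomm : ⁅S₀, S₀⁆ ≤ T₀ := le_inf (Subgroup.commutator_le.2 (fun a ha b hb => S₀.mul_mem (S₀.mul_mem (S₀.mul_mem ha hb) (S₀.inv_mem ha)) (S₀.inv_mem hb))) (Subgroup.commutator_mono hSK hSK)
  let Good : Set G → G → Prop := fun A g => ∀ a ∈ A, g * a * g⁻¹ * a⁻¹ ∈ T₀
  have hG : IsConjGroupoid Good := by
    refine ⟨?_, ?_, ?_⟩
    · rintro A B g hAB hx a ha
      exact hx a (hAB ha)
    · rintro A g h hg hh a ha
      have h1 := hh (g * a * g⁻¹) ⟨a, ha, rfl⟩
      have h2 := hg a ha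
      have e : h * g * a * (h * g)⁻¹ * a⁻¹ =
          (h * (g * a * g⁻¹) * h⁻¹ * (g * a * g⁻¹)⁻¹) * (g * a * g⁻¹ * a⁻¹) := by group
      rw [e]
      exact T₀.mul_mem h1 h2
    · rintro A g hg _ ⟨a, ha, rfl⟩
      have h2 := T₀.inv_mem (hg a ha)
      have e : g⁻¹ * (g * a * g⁻¹) * g⁻¹⁻¹ * (g * a * g⁻¹)⁻¹ = (g * a * g⁻¹ * a⁻¹)⁻¹ := by group
      show g⁻¹ * (g * a * g⁻¹) * g⁻¹⁻¹ * (g * a * g⁻¹)⁻¹ ∈ T₀
      rw [e]
      exact h2
  have key : ∀ (n : ℕ) (U : Subgroup G), U ≠ ⊥ → IsWellPlaced p W S₀ U →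
      Nat.card S₀ - Nat.card (S₀ ⊓ Subgroup.normalizer (U : Set G) : Subgroup G) = n →
      (S₀ ⊓ Subgroup.normalizer (U : Set G)) ⊓ ⁅Subgroup.normalizer (U : Set G), Subgroup.normalizer (U : Set G)⁆ ≤ T₀ := by
    intro n
    induction n using Nat.strong_induction_on with
    | _ n ih =>
      intro U hU0 hwp hn
      have hfn : FullyNorm p S₀ U := IsWellPlaced.fullyNorm hwp hS.2.1
      rw [ctrlTransfer_at hW (hloc U hU0 hwp) hfn]
      set Q : Subgroup G := S₀ ⊓ Subgroup.normalizer (U : Set G) with hQ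
      have hQp : IsPGroup p Q := hS.2.1.to_le inf_le_left
      by_cases hQS : Q = S₀
      · rw [hQS]
        refine inf_le_inf_left _ (Subgroup.commutator_mono ?_ ?_) <;> exact inf_le_inf_right _ le_top
      · have hlt : Q < S₀ := lt_of_le_of_ne inf_le_left hQS
        have hlt2 := lt_inf_normalizer_functor hS.2.1 hW hlt
        have hUQ : U ≤ Q := le_inf hwp.1 Subgroup.le_normalizer
        have hQ0 : Q ≠ ⊥ := by
          intro h0
          apply hU0
          rw [eq_bot_iff, ← h0]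
          exact hUQ
        have hW0 : W Q ≠ ⊥ := (hW Q hQp).2.1 hQ0
        have hwp2 : IsWellPlaced p W S₀ (W Q) := IsWellPlaced.shift hwp hW hS.2.1
        have hc1 := card_lt_of_lt' hlt2
        have hc2 : Nat.card (S₀ ⊓ Subgroup.normalizer ((W Q : Subgroup G) : Set G) : Subgroup G) ≤ Nat.card S₀ :=
          Subgroup.card_le_of_le inf_le_left
        refine le_trans ?_ (ih _ (by omega) (W Q) hW0 hwp2 rfl)
        intro z hz
        exact ⟨hlt2.le hz.1, Subgroup.commutator_mono inf_le_right inf_le_right hz.2⟩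
  have main := good_main hS hG 0 (by
    intro T hT _
    obtain ⟨g, hg, -⟩ := exists_wellPlaced_conj hS hW T hT
    refine ⟨_, g, hg.1, rfl, IsWellPlaced.fullyNorm hg hS.2.1, ?_⟩
    intro y hy a ha
    by_cases hU0 : conjS g T = ⊥
    · have h1 : a = 1 := by
        have : a ∈ (⊥ : Subgroup G) := by rw [← hU0]; exact ha
        simpa using this
      simp [h1, T₀.one_mem]
    · have hUN : conjS g T ≤ S₀ ⊓ Subgroup.normalizer ((conjS g T : Subgroup G) : Set G) :=
        le_inf hg.1 Subgroup.le_normalizer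
      refine key _ _ hU0 hg rfl ⟨hUN ?_, ?_⟩
      · refine Subgroup.mul_mem _ ?_ (Subgroup.inv_mem _ ha)
        exact (Subgroup.mem_normalizer_iff.1 hy a).1 ha
      · exact Subgroup.commutator_mem_commutator hy (Subgroup.le_normalizer ha))
  have hfocal := focal_le hS T₀ hT₀S hSn hcomm (by
    intro x hx g hg
    have hT : Subgroup.closure {x} ≤ S₀ := (Subgroup.closure_le _).2 (by simpa using hx)
    have hT' : conjS g (Subgroup.closure {x}) ≤ S₀ := by
      rw [conjS_le_iff, Subgroup.closure_le]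
      intro a ha
      have ha' : a = x := by simpa using ha
      rw [ha', SetLike.mem_coe, mem_conjS]
      simpa using hg
    exact main _ hT Nat.card_pos g hT' x (Subgroup.subset_closure rfl))
  exact ⟨S₀, le_top, hS.2.1, hS.2.2, le_antisymm hfocal (le_inf hT₀S hT₀G)⟩


end Cfsg.Agent.S1962
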