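import Cfsg.Statements.S1963
import Mathlib
import Cfsg.Agent.Lib.Techniques.Tower

set_option autoImplicit false
open Cfsg

namespace Cfsg.Agent.S1963

/-- Let p be a prime, G a finite group with Sylow p-subgroup S, W a conjugacy functor for p on G and T a subgroup of S. Then some G-conjugate of T is well placed in S with respect to W. -/
theorem result {G : Type*} [Group G] [Finite G] {p : ℕ} [Fact p.Prime] (S : Sylow p G) (W : Subgroup G → Subgroup G) (hW : Cfsg.IsConjugacyFunctor p W) (T : Subgroup G) (hT : T ≤ (S : Subgroup G)) : ∃ g : G, Cfsg.IsWellPlaced p W (S : Subgroup G) (T.map (MulAut.conj g).toMonoidHom) := by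
  obtain ⟨g, hg, -⟩ := Cfsg.Agent.Lib.Techniques.exists_wellPlaced_conj (Cfsg.Agent.Lib.Techniques.sylowIn_top_of_sylow S) hW T hT
  exact ⟨g, hg⟩

end Cfsg.Agent.S1963
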