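import Cfsg.Statements.S1965
import Mathlib
import Cfsg.Agent.Lib.Techniques.ConjFamily

set_option autoImplicit false
open Cfsg

namespace Cfsg.Agent.S1965

open Cfsg.Agent.Lib.Techniques

/-- Let p be a prime, G a finite group with Sylow p-subgroup S and 𝓕 a set of subgroups of S. Suppose that every subgroup T of S is G-conjugate to some member U of 𝓕 for which N_S(U) is a Sylow p-subgroup of N_G(U). Then 𝓕 is a conjugation family for S in G. -/
theorem result {G : Type*} [Group G] [Finite G] {p : ℕ} [Fact p.Prime] (S : Sylow p G) (𝓕 : Set (Subgroup G)) (h𝓕 : ∀ U ∈ 𝓕, U ≤ (S : Subgroup G)) (h : ∀ T : Subgroup G, T ≤ (S : Subgroup G) → ∃ U ∈ 𝓕, (∃ g : G, T.map (MulAut.conj g).toMonoidHom = U) ∧ ¬ p ∣ ((S : Subgroup G) ⊓ Subgroup.normalizer ((U : Subgroup G) : Set G)).relIndex (Subgroup.normalizer ((U : Subgroup G) : Set G))) : Cfsg.IsConjugationFamily 𝓕 (S : Subgroup G) := by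
  refine ⟨h𝓕, ?_⟩
  intro A g hA hAS hAg
  let R : Subgroup G → G → Prop := fun T x => T ∈ 𝓕 ∧ x ∈ Subgroup.normalizer (T : Set G)
  have hRinv : ∀ T x, R T x → x ∈ Subgroup.normalizer (T : Set G) ∧ R T x⁻¹ :=
    fun T x h => ⟨h.2, h.1, Subgroup.inv_mem _ h.2⟩
  have key := chain_main (R := R) (sylowIn_top_of_sylow S) hRinv (fun T hT => by
    obtain ⟨U, hU, ⟨a, ha⟩, hnd⟩ := h T hT
    refine ⟨U, a⁻¹, h𝓕 U hU, by rw [inv_inv]; exact ha, ?_, fun y hy => ⟨hU, hy⟩⟩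
    exact ⟨inf_le_right, S.isPGroup'.to_le inf_le_left, hnd⟩)
  have hcl : Subgroup.closure A ≤ (S : Subgroup G) := (Subgroup.closure_le _).2 hAS
  have c := key _ hcl g (conjS_closure_le hAg)
  have c2 := c.mono_set (Subgroup.subset_closure)
  obtain ⟨n, T, x, h1, h2, h3, h4⟩ := c2.exists_fin
  exact ⟨n, T, x, h1, fun i => (h2 i).1, fun i => (h2 i).2, h3, h4⟩


end Cfsg.Agent.S1965
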