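import Cfsg.Statements.S1966
import Mathlib
import Cfsg.Agent.Lib.Core.Basic

set_option autoImplicit false
open Cfsg

namespace Cfsg.Agent.S1966

/-- Let p be a prime, G a finite group with Sylow p-subgroup S and 𝓕 a conjugation family for S in G. Then the members of 𝓕 containing O_p(G) still form a conjugation family for S in G. -/
theorem result {G : Type*} [Group G] [Finite G] {p : ℕ} [Fact p.Prime] (S : Sylow p G) (𝓕 : Set (Subgroup G)) (h : Cfsg.IsConjugationFamily 𝓕 (S : Subgroup G)) : Cfsg.IsConjugationFamily {T : Subgroup G | T ∈ 𝓕 ∧ Cfsg.pCore p G ≤ T} (S : Subgroup G) := by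
  classical
  obtain ⟨h1, h2⟩ := h
  refine ⟨fun T hT => h1 T hT.1, ?_⟩
  intro A g hA hAS hgA
  have hO : (Cfsg.pCore p G : Subgroup G) ≤ (S : Subgroup G) := Cfsg.Agent.Lib.Core.pCore_le_sylow S
  have hnorm : ∀ (w c : G), c ∈ Cfsg.pCore p G → w * c * w⁻¹ ∈ Cfsg.pCore p G := fun w c hc =>
    (inferInstance : (Cfsg.pCore p G).Normal).conj_mem c hc w
  obtain ⟨n, T, x, hprod, hT, hx, h0, hs⟩ := h2 (A ∪ (Cfsg.pCore p G : Subgroup G)) g
    (hA.mono Set.subset_union_left)
    (Set.union_subset hAS hO)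
    (by
      rintro _ ⟨a, ha | ha, rfl⟩
      · exact hgA ⟨a, ha, rfl⟩
      · apply hO
        have := hnorm g⁻¹ a ha
        simpa using this)
  refine ⟨n, T, x, hprod, ?_, hx, ?_, ?_⟩
  · intro i
    refine ⟨hT i, ?_⟩
    intro c hc
    rcases Nat.eq_zero_or_pos i.val with hi | hi
    · have hpos : 0 < n := by have := i.2; omega
      have heq : i = ⟨0, hpos⟩ := Fin.ext hi
      rw [heq]
      exact h0 hpos (Or.inr hc)
    · have hi1 : (i.val - 1) + 1 < n := by have := i.2; omega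
      have heq : i = ⟨(⟨i.val - 1, by have := i.2; omega⟩ : Fin n).val + 1, hi1⟩ := Fin.ext (by simp; omega)
      rw [heq]
      apply hs ⟨i.val - 1, by have := i.2; omega⟩ hi1
      set w := ((List.ofFn x).take ((⟨i.val - 1, by have := i.2; omega⟩ : Fin n).val + 1)).prod with hw
      refine ⟨w * c * w⁻¹, Or.inr (hnorm w c hc), ?_⟩
      show w⁻¹ * (w * c * w⁻¹) * w = c
      group
  · intro hpos c hc
    exact h0 hpos (Or.inl hc)
  · intro i hi
    rintro _ ⟨a, ha, rfl⟩
    exact hs i hi ⟨a, Or.inl ha, rfl⟩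

end Cfsg.Agent.S1966
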