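import Cfsg.Statements.S1967
import Mathlib
import Cfsg.Agent.Lib.Techniques.Tower

set_option autoImplicit false
open Cfsg

namespace Cfsg.Agent.S1967

open Cfsg.Agent.Lib.Techniques

/-- Let p be a prime, G a finite group with Sylow p-subgroup S and W a conjugacy functor for p on G. Then W controls strong fusion in G if and only if, whenever T ≤ S and g ∈ G satisfy gTg⁻¹ ≤ S, one can write g = n c with n ∈ N_G(W(S)) and c ∈ C_G(T). -/
theorem result {G : Type*} [Group G] [Finite G] {p : ℕ} [Fact p.Prime] (S : Sylow p G) (W : Subgroup G → Subgroup G) (hW : Cfsg.IsConjugacyFunctor p W) : Cfsg.ControlsStrongFusionIn p W ⊤ ↔ ∀ (T : Subgroup G) (g : G), T ≤ (S : Subgroup G) → T.map (MulAut.conj g).toMonoidHom ≤ (S : Subgroup G) → ∃ n ∈ Subgroup.normalizer ((W (S : Subgroup G) : Subgroup G) : Set G), ∃ c ∈ Subgroup.centralizer (T : Set G), g = n * c := by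
  have hSs := sylowIn_top_of_sylow S
  constructor
  · rintro ⟨T', -, hT'p, hT'i, hctl⟩ T g hT hg
    have hT's : SylowIn p T' ⊤ := ⟨le_top, hT'p, hT'i⟩
    obtain ⟨b, -, hb⟩ := hT's.exists_conj_eq hSs
    have hbS : conjS b⁻¹ (S : Subgroup G) = T' := by
      rw [← hb, conjS_inv_conjS]
    obtain ⟨x, hx, hxa⟩ := hctl (conjS b⁻¹ T : Set G) (b⁻¹ * g * b) trivial
      (by rw [← hbS]; exact conjS_mono _ hT)
      (by
        rintro _ ⟨a, ha, rfl⟩
        obtain ⟨t, ht, rfl⟩ := ha
        have ht' : g * t * g⁻¹ ∈ (S : Subgroup G) := hg ⟨t, ht, rfl⟩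
        rw [← hbS]
        show _ ∈ conjS b⁻¹ (S : Subgroup G)
        rw [mem_conjS]
        have : b⁻¹⁻¹ * (b⁻¹ * g * b * ((MulAut.conj b⁻¹).toMonoidHom t) * (b⁻¹ * g * b)⁻¹) * b⁻¹ = g * t * g⁻¹ := by
          simp only [MulEquiv.toMonoidHom_eq_coe, MonoidHom.coe_coe, MulAut.conj_apply]
          group
        rw [this]
        exact ht')
    have hxW : x ∈ Subgroup.normalizer ((W T' : Subgroup G) : Set G) := hx.2
    refine ⟨b * x * b⁻¹, ?_, (b * x * b⁻¹)⁻¹ * g, ?_, by group⟩
    · rw [mem_normalizer_iff_conjS] at hxW ⊢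
      have e : (S : Subgroup G) = conjS b T' := hb.symm
      rw [e, isConj_functor_conj hW hT'p, ← conjS_mul]
      have e3 : b * x * b⁻¹ * b = b * x := by group
      rw [e3, conjS_mul, hxW]
    · rw [Subgroup.mem_centralizer_iff]
      intro t ht
      have := hxa (b⁻¹ * t * b) ⟨t, ht, by simp⟩
      set n := b * x * b⁻¹ with hn
      have e1 : n * t * n⁻¹ = g * t * g⁻¹ := by
        calc n * t * n⁻¹ = b * (x * (b⁻¹ * t * b) * x⁻¹) * b⁻¹ := by rw [hn]; group
          _ = b * (b⁻¹ * g * b * (b⁻¹ * t * b) * (b⁻¹ * g * b)⁻¹) * b⁻¹ := by rw [this]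
          _ = _ := by group
      calc t * (n⁻¹ * g) = n⁻¹ * (n * t * n⁻¹) * g := by group
        _ = n⁻¹ * (g * t * g⁻¹) * g := by rw [e1]
        _ = _ := by group
  · intro H
    refine ⟨S, le_top, S.isPGroup', by rw [Subgroup.relIndex_top_right]; exact S.not_dvd_index, ?_⟩
    intro A h _ hA hAh
    have hcl : Subgroup.closure A ≤ (S : Subgroup G) := (Subgroup.closure_le _).2 hA
    have h2 : (Subgroup.closure A).map (MulAut.conj h).toMonoidHom ≤ (S : Subgroup G) := by
      have := conjS_closure_le (S := (S : Subgroup G)) (A := A) (g := h⁻¹) (by simpa only [inv_inv] using hAh)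
      rw [inv_inv] at this
      exact this
    obtain ⟨n, hn, c, hc, hnc⟩ := H _ h hcl h2
    refine ⟨n, ⟨trivial, hn⟩, fun a ha => ?_⟩
    have hca : c * a = a * c := (Subgroup.mem_centralizer_iff.1 hc a (Subgroup.subset_closure ha)).symm
    rw [hnc]
    calc n * a * n⁻¹ = n * (c * a * c⁻¹) * n⁻¹ := by rw [hca]; group
      _ = _ := by group

end Cfsg.Agent.S1967
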