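import Cfsg.Statements.S1968
import Mathlib
import Cfsg.Agent.Lib.Techniques.Control

set_option autoImplicit false
open Cfsg

namespace Cfsg.Agent.S1968

open Cfsg.Agent.Lib.Techniques


/-- Let p be a prime, G a finite group with Sylow p-subgroup S and W a conjugacy functor for p on G with Z(P) ≤ W(P) for every p-subgroup P. Let A be a subgroup of Z(S) normalized by N_G(W(S)) that is not weakly closed in S with respect to G. Then there is a subgroup T of S, well placed in S with respect to W, such that: A ≤ T; N_G(W(N_S(T))) normalizes A; N_S(T) is a Sylow p-subgroup of N_G(T); A ≤ Z(N_S(T)); and A is not weakly closed in N_S(T) with respect to N_G(T), that is, some N_G(T)-conjugate of A other than A lies in N_S(T). -/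
theorem result {G : Type*} [Group G] [Finite G] {p : ℕ} [Fact p.Prime] (S : Sylow p G) (W : Subgroup G → Subgroup G) (hW : Cfsg.IsConjugacyFunctor p W) (hWZ : ∀ P : Subgroup G, IsPGroup p ↥P → P ⊓ Subgroup.centralizer (P : Set G) ≤ W P) (A : Subgroup G) (hAZ : A ≤ (S : Subgroup G) ⊓ Subgroup.centralizer ((S : Subgroup G) : Set G)) (hAN : Subgroup.normalizer ((W (S : Subgroup G) : Subgroup G) : Set G) ≤ Subgroup.normalizer ((A : Subgroup G) : Set G)) (hnwc : ¬ Cfsg.IsWeaklyClosed A (S : Subgroup G)) : ∃ T : Subgroup G, Cfsg.IsWellPlaced p W (S : Subgroup G) T ∧ A ≤ T ∧ Subgroup.normalizer ((W ((S : Subgroup G) ⊓ Subgroup.normalizer ((T : Subgroup G) : Set G)) : Subgroup G) : Set G) ≤ Subgroup.normalizer ((A : Subgroup G) : Set G) ∧ ¬ p ∣ ((S : Subgroup G) ⊓ Subgroup.normalizer ((T : Subgroup G) : Set G)).relIndex (Subgroup.normalizer ((T : Subgroup G) : Set G)) ∧ A ≤ Subgroup.centralizer (((S : Subgroup G) ⊓ Subgroup.normalizer ((T : Subgroup G) : Set G) : Subgroup G) : Set G) ∧ ∃ g ∈ Subgroup.normalizer ((T : Subgroup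 G) : Set G), A.map (MulAut.conj g).toMonoidHom ≤ (S : Subgroup G) ⊓ Subgroup.normalizer ((T : Subgroup G) : Set G) ∧ A.map (MulAut.conj g).toMonoidHom ≠ A := by
  classical
  have hS : SylowIn p (S : Subgroup G) ⊤ := sylowIn_top_of_sylow S
  set S₀ : Subgroup G := (S : Subgroup G) with hS₀
  have hAS : A ≤ S₀ := hAZ.trans inf_le_left
  -- the pool of candidates
  let Pool : Subgroup G → Prop := fun U => IsWellPlaced p W S₀ U ∧ A ≤ U ∧
    ∃ y ∈ Subgroup.normalizer (U : Set G), conjS y A ≤ S₀ ⊓ Subgroup.normalizer (U : Set G) ∧ conjS y A ≠ A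
  -- the pool is not empty
  have hne : ∃ U, Pool U := by
    by_contra hcon
    have hall : ∀ U : Subgroup G, IsWellPlaced p W S₀ U → A ≤ U → ∀ y ∈ Subgroup.normalizer (U : Set G),
        conjS y A ≤ S₀ ⊓ Subgroup.normalizer (U : Set G) → conjS y A = A := by
      intro U h1 h2 y hy h3
      by_contra h4
      exact hcon ⟨U, h1, h2, y, hy, h3, h4⟩
    let R : Subgroup G → G → Prop := fun U y => IsWellPlaced p W S₀ U ∧ y ∈ Subgroup.normalizer (U : Set G)
    have hch := chain_main (R := R) hS (fun T x hx => ⟨hx.2, hx.1, Subgroup.inv_mem _ hx.2⟩) (by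
      intro T hT
      obtain ⟨g, hg, -⟩ := exists_wellPlaced_conj hS hW T hT
      exact ⟨_, g⁻¹, hg.1, by rw [inv_inv], IsWellPlaced.fullyNorm hg hS.2.1, fun y hy => ⟨hg, hy⟩⟩)
    have hind : ∀ (B : Set G) (g : G), CChain R B g → B = (A : Set G) → rconj g B = (A : Set G) := by
      intro B g h
      induction h with
      | nil B => intro hB; rw [rconj_one]; exact hB
      | @cons B T x g hR hB _ ih =>
        intro hBA
        subst hBA
        have hAT : A ≤ T := hB
        have h1 : conjS x⁻¹ A = A := by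
          refine hall T hR.1 hAT x⁻¹ (Subgroup.inv_mem _ hR.2) ?_
          have h2 : conjS x⁻¹ A ≤ T := by
            have := conjS_mono x⁻¹ hAT
            rwa [mem_normalizer_iff_conjS.1 (Subgroup.inv_mem _ hR.2)] at this
          exact le_inf (h2.trans hR.1.1) (h2.trans Subgroup.le_normalizer)
        have h2 : rconj x (A : Set G) = (A : Set G) := by
          rw [rconj_coe, h1]
        rw [rconj_mul]
        exact ih h2
    apply hnwc
    refine ⟨hAS, ?_⟩
    intro g hg
    have h1 : CChain R (A : Set G) g⁻¹ := hch A hAS g⁻¹ (by rw [inv_inv]; exact hg)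
    have h2 := hind _ _ h1 rfl
    rw [rconj_coe, inv_inv] at h2
    exact SetLike.coe_injective h2
  -- enlarge until the normalizer condition holds
  have key : ∀ (n : ℕ) (U : Subgroup G), Pool U →
      Nat.card S₀ - Nat.card (S₀ ⊓ Subgroup.normalizer (U : Set G) : Subgroup G) = n →
      ∃ T : Subgroup G, Pool T ∧ Subgroup.normalizer ((W (S₀ ⊓ Subgroup.normalizer (T : Set G)) : Subgroup G) : Set G) ≤
        Subgroup.normalizer (A : Set G) := by
    intro n
    induction n using Nat.strong_induction_on with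
    | _ n ih =>
      intro U hU hn
      by_cases hN : Subgroup.normalizer ((W (S₀ ⊓ Subgroup.normalizer (U : Set G)) : Subgroup G) : Set G) ≤
          Subgroup.normalizer (A : Set G)
      · exact ⟨U, hU, hN⟩
      · obtain ⟨z, hz, hzA⟩ := Set.not_subset.1 hN
        set Q : Subgroup G := S₀ ⊓ Subgroup.normalizer (U : Set G) with hQ
        have hQp : IsPGroup p Q := hS.2.1.to_le inf_le_left
        have hQS : Q ≠ S₀ := by
          intro he
          rw [he] at hN
          exact hN hAN
        have hlt : Q < S₀ := lt_of_le_of_ne inf_le_left hQS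
        have hlt2 := lt_inf_normalizer_functor hS.2.1 hW hlt
        have hAQ : A ≤ Q := le_inf hAS (hU.2.1.trans Subgroup.le_normalizer)
        have hAW : A ≤ W Q := by
          refine le_trans (le_inf hAQ ?_) (hWZ Q hQp)
          intro a ha
          rw [Subgroup.mem_centralizer_iff]
          intro q hq
          exact ((Subgroup.mem_centralizer_iff.1 (hAZ ha).2) q ((inf_le_left : Q ≤ S₀) hq))
        have hP : Pool (W Q) := by
          refine ⟨IsWellPlaced.shift hU.1 hW hS.2.1, hAW, z, hz, ?_, ?_⟩
          · have h2 : conjS z A ≤ W Q := by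
              have := conjS_mono z hAW
              rwa [mem_normalizer_iff_conjS.1 hz] at this
            exact le_inf (h2.trans ((hW Q hQp).1.trans inf_le_left)) (h2.trans Subgroup.le_normalizer)
          · intro he
            exact hzA (mem_normalizer_iff_conjS.2 he)
        have hc1 := card_lt_of_lt' hlt2
        have hc2 : Nat.card (S₀ ⊓ Subgroup.normalizer ((W Q : Subgroup G) : Set G) : Subgroup G) ≤ Nat.card S₀ :=
          Subgroup.card_le_of_le inf_le_left
        exact ih _ (by omega) (W Q) hP rfl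
  obtain ⟨U, hU⟩ := hne
  obtain ⟨T, ⟨hT1, hT2, y, hy, hy1, hy2⟩, hT3⟩ := key _ U hU rfl
  refine ⟨T, hT1, hT2, hT3, hT1.2 0, ?_, y, hy, hy1, hy2⟩
  intro a ha
  rw [Subgroup.mem_centralizer_iff]
  intro q hq
  exact (Subgroup.mem_centralizer_iff.1 (hAZ ha).2) q ((inf_le_left : S₀ ⊓ _ ≤ S₀) hq)


end Cfsg.Agent.S1968
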