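import Cfsg.Statements.S1970
import Mathlib
import Cfsg.Agent.Lib.Techniques.MinFailInd

set_option autoImplicit false
universe u
open Cfsg

namespace Cfsg.Agent.S1970

open Cfsg.Agent.Lib.Techniques


/-- Let p be a prime, G a finite group and W an isomorphism-invariant p-group functor (W assigns to every group Q a subgroup W(Q), nontrivial whenever Q is a nontrivial finite p-group, and every isomorphism from a finite p-group Q onto a group R carries W(Q) onto W(R)). Suppose that for every section G* = K/R of G with C_{G*}(O_p(G*)) ≤ O_p(G*) and every Sylow p-subgroup S* of G*, one has O_p(G*) ∩ (G*)' = O_p(G*) ∩ (N_{G*}(W(S*)))'. Then W controls transfer in every section G* of G: S* ∩ (G*)' = S* ∩ (N_{G*}(W(S*)))' for a Sylow p-subgroup S* of G*. -/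
theorem result {G : Type u} [Group G] [Finite G] {p : ℕ} [Fact p.Prime] (W : ∀ (Q : Type u) [Group Q], Subgroup Q) (hW : Cfsg.IsCharPFunctor.{u} p W) (hloc : ∀ (K R : Subgroup G) [hR : (R.subgroupOf K).Normal], Subgroup.centralizer ((Cfsg.pCore p (↥K ⧸ R.subgroupOf K) : Subgroup (↥K ⧸ R.subgroupOf K)) : Set (↥K ⧸ R.subgroupOf K)) ≤ Cfsg.pCore p (↥K ⧸ R.subgroupOf K) → ∀ T : Sylow p (↥K ⧸ R.subgroupOf K), Cfsg.pCore p (↥K ⧸ R.subgroupOf K) ⊓ commutator (↥K ⧸ R.subgroupOf K) = Cfsg.pCore p (↥K ⧸ R.subgroupOf K) ⊓ ⁅Subgroup.normalizer ((Cfsg.inducedFunctor (G := (↥K ⧸ R.subgroupOf K)) W ((T : Subgroup (↥K ⧸ R.subgroupOf K))) : Subgroup (↥K ⧸ R.subgroupOf K)) : Set (↥K ⧸ R.subgroupOf K)), Subgroup.normalizer ((Cfsg.inducedFunctor (G := (↥K ⧸ R.subgroupOf K)) W ((T : Subgroup (↥K ⧸ R.subgroupOf K))) : Subgroup (↥K ⧸ R.subgroupOf K)) : Set (↥K ⧸ R.subgroupOf K))⁆) : ∀ (K R : Subgroup G) [hR : (R.subgroupOf K).Normal], Cfsg.ControlsTransferIn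 p (Cfsg.inducedFunctor (G := (↥K ⧸ R.subgroupOf K)) W) ⊤ := by
  classical
  intro K R hR
  refine section_induction (P := fun K R _ => ControlsTransferIn p (inducedFunctor (G := (↥K ⧸ R.subgroupOf K)) W) ⊤) ?_ K R
  intro K R hR ih
  by_contra hnot
  have hW' : ∀ W' ∈ ({W} : Set (∀ (Q : Type u) [Group Q], Subgroup Q)), IsCharPFunctor.{u} p W' := by
    intro W' hW''
    rw [Set.mem_singleton_iff.1 hW'']
    exact hW
  have hmf : MinFail p ({W} : Set (∀ (Q : Type u) [Group Q], Subgroup Q)) (↥K ⧸ R.subgroupOf K) := by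
    refine minFail_of_IH hW' K R ?_ ?_
    · intro K' R' hR' hlt
      exact familyControls_singleton_iff.2 (ih K' R' hlt)
    · exact fun h => hnot (familyControls_singleton_iff.1 h)
  have hne : ({W} : Set (∀ (Q : Type u) [Group Q], Subgroup Q)).Nonempty := Set.singleton_nonempty _
  obtain ⟨S⟩ : Nonempty (Sylow p (↥K ⧸ R.subgroupOf K)) := inferInstance
  have hS := sylowIn_top_of_sylow S
  have hc := hmf.centralizer_pCore_le hW' hne hS
  have h2 := hloc K R hc S
  obtain ⟨q, hqQ, hqc, hqT⟩ := hmf.exists_q hW' hne hS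
  apply hqT
  have hq1 : q ∈ pCore p (↥K ⧸ R.subgroupOf K) ⊓ commutator (↥K ⧸ R.subgroupOf K) := ⟨hqQ, hqc⟩
  rw [h2] at hq1
  have h1 := le_famT (𝓦 := ({W} : Set (∀ (Q : Type u) [Group Q], Subgroup Q))) (S := (S : Subgroup (↥K ⧸ R.subgroupOf K))) (W := W) rfl
  exact h1 ⟨pCore_le_of_sylowIn hS hq1.1, hq1.2⟩


end Cfsg.Agent.S1970
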