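import Cfsg.Statements.S1982
import Mathlib
import Cfsg.Agent.Lib.Techniques.QuadMain

set_option autoImplicit false
universe u
open Cfsg

namespace Cfsg.Agent.S1982

open Cfsg.Agent.Lib.Techniques
open scoped commutatorElement


/-- Let p be a prime, G a finite group with Sylow p-subgroup S, T = O_p(G), and A a characteristic subgroup of T with A/Z(A) elementary abelian, [T, A] ≤ Z(A), C_T(A) = Z(A), and such that every automorphism of T of order prime to p fixing A elementwise is trivial (a critical subgroup of T). Suppose that the lower or the upper K-infinity subgroup of S is not normal in G. Then there is an element g of S outside T with [A, g, g, g] ≤ Z(A) and [Z(A), g, g] = 1, and such that if moreover C_G(T) ≤ T then some chief factor X/Y of G with X ≤ A satisfies [X, g, g] ≤ Y but [X, g] ≰ Y. -/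
theorem result {G : Type u} [Group G] [Finite G] {p : ℕ} [Fact p.Prime] (S : Sylow p G) (A : Subgroup G) (hAT : A ≤ (Cfsg.pCore p G)) (hAchar : (A.subgroupOf (Cfsg.pCore p G)).Characteristic) (hA1 : ∀ a ∈ A, a ^ p ∈ A ⊓ Subgroup.centralizer ((A : Subgroup G) : Set G)) (hA2 : ⁅A, A⁆ ≤ Subgroup.centralizer ((A : Subgroup G) : Set G)) (hA3 : ⁅(Cfsg.pCore p G), A⁆ ≤ A ⊓ Subgroup.centralizer ((A : Subgroup G) : Set G)) (hA4 : (Cfsg.pCore p G) ⊓ Subgroup.centralizer ((A : Subgroup G) : Set G) = A ⊓ Subgroup.centralizer ((A : Subgroup G) : Set G)) (hA5 : ∀ φ : MulAut ↥(Cfsg.pCore p G), (orderOf φ).Coprime p → (∀ a : ↥(Cfsg.pCore p G), (a : G) ∈ A → φ a = a) → φ = 1) (hK : ¬ (Cfsg.inducedFunctor Cfsg.kInfLower (S : Subgroup G)).Normal ∨ ¬ (Cfsg.inducedFunctor Cfsg.kInfUpper (S : Subgroup G)).Normal) : ∃ g : G, g ∈ (S : Subgroup G) ∧ g ∉ (Cfsg.pCore p G) ∧ Cfsg.iterCommutator A (Subgroup.zpowers g) 3 ≤ A ⊓ Subgroup.centralizer ((A : Subgroup G) : Set G) ∧ ⁅⁅A ⊓ Subgroup.centralizer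 ((A : Subgroup G) : Set G), (Subgroup.zpowers g)⁆, (Subgroup.zpowers g)⁆ = ⊥ ∧ (Subgroup.centralizer (((Cfsg.pCore p G) : Subgroup G) : Set G) ≤ (Cfsg.pCore p G) → ∃ U V : Subgroup G, Cfsg.IsChiefFactor U V ∧ U ≤ A ∧ ⁅⁅U, (Subgroup.zpowers g)⁆, (Subgroup.zpowers g)⁆ ≤ V ∧ ¬ ⁅U, (Subgroup.zpowers g)⁆ ≤ V) := by
  classical
  set T : Subgroup G := Cfsg.pCore p G with hT
  haveI hTn : T.Normal := Cfsg.Agent.Lib.Core.pCore_normal p G
  have hTp : IsPGroup p T := Cfsg.Agent.Lib.Core.pCore_isPGroup p G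
  have hAn : A.Normal := by
    constructor
    intro a ha g
    let φ : MulAut ↥T := MulAut.conjNormal (H := T) g
    have h1 : (⟨a, hAT ha⟩ : ↥T) ∈ A.subgroupOf T := ha
    have h2 := hAchar.fixed φ
    rw [← h2] at h1
    have h3 : (φ ⟨a, hAT ha⟩ : G) ∈ A := h1
    simpa [φ, MulAut.conjNormal_apply] using h3
  by_cases hC : Subgroup.centralizer (T : Set G) ≤ T
  · have hcrit : ∀ x : G, (orderOf x).Coprime p → (∀ a ∈ A, ⁅x, a⁆ = 1) → x = 1 := by
      intro x hx hxA
      let φ : MulAut ↥T := MulAut.conjNormal (H := T) x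
      have h1 : (orderOf φ).Coprime p := by
        have h2 : orderOf φ ∣ orderOf x := orderOf_map_dvd (MulAut.conjNormal (H := T)) x
        exact Nat.Coprime.coprime_dvd_left h2 hx
      have h2 : φ = 1 := by
        apply hA5 φ h1
        intro a ha
        refine Subtype.ext ?_
        have h3 := hxA _ ha
        have h4 : x * (a : G) * x⁻¹ = a := by
          have := commutatorElement_eq_one_iff_mul_comm.1 h3
          rw [this]
          group
        simpa [φ, MulAut.conjNormal_apply] using h4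
      have hxC : x ∈ Subgroup.centralizer (T : Set G) := by
        rw [Subgroup.mem_centralizer_iff]
        intro t ht
        have h3 : φ ⟨t, ht⟩ = ⟨t, ht⟩ := by rw [h2]; rfl
        have h4 : x * t * x⁻¹ = t := by
          have := congrArg Subtype.val h3
          simpa [φ, MulAut.conjNormal_apply] using this
        exact (mul_inv_eq_iff_eq_mul.1 h4).symm
      obtain ⟨m, hm⟩ := hTp ⟨x, hC hxC⟩
      have hm' : x ^ (p ^ m) = 1 := by
        have := congrArg Subtype.val hm
        simpa using this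
      have h6 : orderOf x ∣ p ^ m := orderOf_dvd_of_pow_eq_one hm'
      have h7 : (orderOf x).Coprime (p ^ m) := Nat.Coprime.pow_right m hx
      exact orderOf_eq_one_iff.1 (Nat.eq_one_of_dvd_coprimes h7 dvd_rfl h6)
    obtain ⟨g, h1, h2, h3, h4, U, V, hc, hUA, hq, hm⟩ := exists_g_quad S hAn hAT hA2 hA3 hcrit hK
    exact ⟨g, h1, h2, h3, h4, fun _ => ⟨U, V, hc, hUA, hq, hm⟩⟩
  · obtain ⟨g, h1, h2, h3, h4⟩ := exists_g_of_kInf_not_normal S hAn hAT hA2 hA3 hK
    exact ⟨g, h1, h2, h3, h4, fun h => absurd h hC⟩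

end Cfsg.Agent.S1982
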