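import Cfsg.Statements.S1983
import Mathlib
import Cfsg.Agent.Lib.Techniques.QuadMain
import Cfsg.Agent.Lib.Techniques.KFour

set_option autoImplicit false
universe u
open Cfsg

namespace Cfsg.Agent.S1983

open Cfsg.Agent.Lib.Techniques
open scoped commutatorElement


/-- Let p be a prime, G a finite group with Sylow p-subgroup S and T = O_p(G). Suppose that the lower or the upper K-infinity subgroup of S is not normal in G. Then there is an element g of S outside T such that [X, g, g, g, g] ≤ Y for every chief factor X/Y of G with X ≤ T, and [Z(T), g, g] = 1; and if moreover C_G(T) ≤ T then some quotient group of G is not p-stable (in the normalizer form: some quadratically acting element of a normalizer fails to map into O_p of the automizer). -/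
theorem result {G : Type u} [Group G] [Finite G] {p : ℕ} [Fact p.Prime] (S : Sylow p G) (hK : ¬ (Cfsg.inducedFunctor Cfsg.kInfLower (S : Subgroup G)).Normal ∨ ¬ (Cfsg.inducedFunctor Cfsg.kInfUpper (S : Subgroup G)).Normal) : ∃ g : G, g ∈ (S : Subgroup G) ∧ g ∉ (Cfsg.pCore p G) ∧ (∀ U V : Subgroup G, Cfsg.IsChiefFactor U V → U ≤ (Cfsg.pCore p G) → Cfsg.iterCommutator U (Subgroup.zpowers g) 4 ≤ V) ∧ ⁅⁅((Cfsg.pCore p G) ⊓ Subgroup.centralizer (((Cfsg.pCore p G) : Subgroup G) : Set G)), (Subgroup.zpowers g)⁆, (Subgroup.zpowers g)⁆ = ⊥ ∧ (Subgroup.centralizer (((Cfsg.pCore p G) : Subgroup G) : Set G) ≤ (Cfsg.pCore p G) → ∃ (N : Subgroup G) (_ : N.Normal), ¬ Cfsg.IsNormalizerPStable p (G ⧸ N)) := by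
  classical
  obtain ⟨g, h1, h2, h3, h4⟩ := exists_g_four S hK
  refine ⟨g, h1, h2, h3, h4, fun hC => ?_⟩
  set T : Subgroup G := Cfsg.pCore p G with hT
  haveI hTn : T.Normal := Cfsg.Agent.Lib.Core.pCore_normal p G
  have hTp : IsPGroup p T := Cfsg.Agent.Lib.Core.pCore_isPGroup p G
  obtain ⟨A, hAn, hAT, hTA, hCA⟩ := Cfsg.Agent.Lib.Geo.exists_critical T hTn hTp.isNilpotent
  haveI := hAn
  have hTA' : ⁅T, A⁆ ≤ A ⊓ Subgroup.centralizer (A : Set G) := by
    rw [Subgroup.commutator_le]
    exact hTA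
  have hcl : ⁅A, A⁆ ≤ Subgroup.centralizer (A : Set G) :=
    (Subgroup.commutator_mono hAT le_rfl).trans (hTA'.trans inf_le_right)
  have hcrit := hcrit_of_critical hAn hTA' hCA hC
  obtain ⟨g', -, -, -, -, U, V, hc, hUA, hq, hm⟩ := exists_g_quad S hAn hAT hcl hTA' hcrit hK
  haveI := hc.2.2.1
  exact ⟨V, inferInstance, not_stable_of_quad_chief hc (hTp.to_le (hUA.trans hAT)) hq hm⟩

end Cfsg.Agent.S1983
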