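import Cfsg.Statements.S1989
import Mathlib
import Cfsg.Agent.Lib.Techniques.QdFail
import Cfsg.Agent.Lib.Techniques.LocalSL2
import Cfsg.Agent.Lib.Techniques.KStable

set_option autoImplicit false
universe u
open Cfsg

namespace Cfsg.Agent.S1989

/-- Let p be an odd prime and G a finite group. Then Qd(p) (the natural semidirect product of an elementary abelian group of order p² by SL₂(p)) is not involved in G if and only if, in every section K/R of G and for every Sylow p-subgroup T of K/R, the lower K-infinity subgroup of T controls strong fusion in K/R. -/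
theorem result {G : Type u} [Group G] [Finite G] {p : ℕ} [Fact p.Prime] (hp : p ≠ 2) : ¬ Cfsg.Involves ↥(Cfsg.qd p) G ↔ ∀ (K R : Subgroup G) [hR : (R.subgroupOf K).Normal], ∀ T : Sylow p (↥K ⧸ R.subgroupOf K), Cfsg.ControlsStrongFusion p (Cfsg.inducedFunctor (G := (↥K ⧸ R.subgroupOf K)) Cfsg.kInfLower (T : Subgroup (↥K ⧸ R.subgroupOf K))) := by
  open Cfsg.Agent.Lib.Techniques Cfsg.Agent.Lib.PLocal.Qd in
  constructor
  · intro hfree K R hR T
    have hNo : NoQd p G := by
      intro K' L hL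
      exact ⟨fun iso => hfree ⟨K', L, hL, ⟨iso⟩⟩⟩
    have hNoΓ : NoQd p (↥K ⧸ R.subgroupOf K) := (hNo.subgroup K).quotient _
    exact (kInf_controls_strong (fun K' R' hR' => by
      haveI := hR'
      exact isNormalizerPStable_of_noQd hp ((hNoΓ.subgroup K').quotient _)) T).1
  · rintro hc ⟨K, R, hR, ⟨φ⟩⟩
    haveI := hR
    obtain ⟨T⟩ : Nonempty (Sylow p (↥K ⧸ R.subgroupOf K)) := inferInstance
    have hT := sylowIn_top_of_sylow T
    obtain ⟨Z, v₁, v₂, g, hv, hv₂, hv₁, hg, hN⟩ := QdF.qd_data φ hT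
    obtain ⟨T', hU, hctl⟩ := hc K R T
    have hT' := sylowIn_top_of_sylow T'
    obtain ⟨h1, h2⟩ := hv _ hT'
    obtain ⟨x, hx, hxe⟩ := (hctl {v₁} (Set.singleton_subset_iff.2 h1)).2 g (by
      rintro _ ⟨a, ha, rfl⟩
      have ha' : a = v₁ := ha
      rw [ha']
      show g * v₁ * g⁻¹ ∈ _
      rw [hg]
      exact h2)
    have hxZ := hN kInfLower isCharPFunctor_kInfLower hx
    have h3 : x * v₁ * x⁻¹ = v₂ := by
      rw [← hg]
      exact (hxe v₁ rfl).symm
    apply hv₁
    rw [Subgroup.mem_normalizer_iff] at hxZ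
    rw [hxZ, h3]
    exact hv₂

end Cfsg.Agent.S1989
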