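import Cfsg.Statements.S1992
import Mathlib
import Cfsg.Agent.Lib.Techniques.NormalIndex
import Cfsg.Agent.S1991
import Cfsg.Agent.Lib.Char.Burnside
import Cfsg.Agent.Lib.Techniques.Goldschmidt

set_option autoImplicit false
open Cfsg

namespace Cfsg.Agent.S1992

open Cfsg.Agent.Lib.Techniques


/-- Let G be a finite group in which, for every prime q dividing the order of G, every Sylow q-subgroup is its own normalizer. Then the order of G is a power of a single prime (G is a q-group for some prime q; for G trivial any prime works). -/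
theorem result {G : Type*} [Group G] [Finite G] (h : ∀ q : ℕ, q.Prime → q ∣ Nat.card G → ∀ Q : Sylow q G, Subgroup.normalizer ((Q : Subgroup G) : Set G) = Q) : ∃ q : ℕ, q.Prime ∧ IsPGroup q G := by
  classical
  -- normal subgroup of prime index forces prime-power order
  have key : ∀ (q : ℕ) (hq : q.Prime) (N : Subgroup G), N.Normal → N.index = q → IsPGroup q G := by
    intro q hq N hNn hNi
    haveI hNn' := hNn
    have hcard0 : Nat.card G ≠ 0 := Nat.card_pos.ne'
    have huniq : ∀ {d : ℕ}, d.Prime → d ∣ Nat.card G → d = q := by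
      intro r hr hrd
      by_contra hrq
      haveI : Fact r.Prime := ⟨hr⟩
      obtain ⟨R⟩ : Nonempty (Sylow r G) := inferInstance
      have hRN : (R : Subgroup G) ≤ N := by
        intro x hx
        obtain ⟨k, hk⟩ := R.isPGroup' ⟨x, hx⟩
        have hk' : x ^ r ^ k = 1 := by simpa using congrArg Subtype.val hk
        have h1 : (x : G ⧸ N) ^ r ^ k = 1 := by
          rw [← QuotientGroup.mk_pow, hk']
          rfl
        have h2 : orderOf (x : G ⧸ N) ∣ r ^ k := orderOf_dvd_of_pow_eq_one h1
        have h3 : orderOf (x : G ⧸ N) ∣ Nat.card (G ⧸ N) := orderOf_dvd_natCard _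
        rw [← Subgroup.index_eq_card, hNi] at h3
        have h4 : (r ^ k).Coprime q := Nat.Coprime.pow_left k ((Nat.coprime_primes hr hq).2 hrq)
        have h5 := Nat.eq_one_of_dvd_coprimes h4 h2 h3
        have h6 : (x : G ⧸ N) = 1 := orderOf_eq_one_iff.1 h5
        exact (QuotientGroup.eq_one_iff x).1 h6
      have hsy : SylowIn r (R : Subgroup G) N := (sylowIn_top_of_sylow R).of_le hRN le_top
      have htop : N = ⊤ := by
        rw [eq_top_iff]
        intro g _
        obtain ⟨k, hk, hkn⟩ := frattini_in hsy (conjS_of_normal g N)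
        rw [h r hr hrd R] at hkn
        have e : g = k * (k⁻¹ * g) := by group
        rw [e]
        exact N.mul_mem hk (hRN hkn)
      rw [htop, Subgroup.index_top] at hNi
      exact hq.one_lt.ne hNi
    exact IsPGroup.of_card (Nat.eq_prime_pow_of_unique_prime_dvd hcard0 huniq)
  by_cases h1 : Nat.card G = 1
  · exact ⟨2, Nat.prime_two, IsPGroup.of_card (n := 0) (by simpa using h1)⟩
  by_cases hperf : ⁅(⊤ : Subgroup G), (⊤ : Subgroup G)⁆ = ⊤
  · -- a prime at least five
    have h5 : ∃ p : ℕ, p.Prime ∧ 5 ≤ p ∧ p ∣ Nat.card G := by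
      by_contra hcon
      push Not at hcon
      have hprimes : ∀ d : ℕ, d.Prime → d ∣ Nat.card G → d = 2 ∨ d = 3 := by
        intro d hd hdd
        have hlt : d < 5 := by
          by_contra hge
          exact hcon d hd (not_lt.1 hge) hdd
        have h2 := hd.two_le
        interval_cases d
        · exact Or.inl rfl
        · exact Or.inr rfl
        · exact absurd hd (by norm_num)
      obtain ⟨a, m, hm, e⟩ := Nat.exists_eq_two_pow_mul_odd (Nat.card_pos (α := G)).ne'
      have hm0 : m ≠ 0 := by
        rintro rfl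
        simp at hm
      have hm3 : m = 3 ^ m.primeFactorsList.length := by
        apply Nat.eq_prime_pow_of_unique_prime_dvd hm0
        intro d hd hdm
        rcases hprimes d hd (e ▸ Dvd.dvd.mul_left hdm _) with rfl | rfl
        · exact absurd (hdm) (by
            intro h2
            have := hm.not_two_dvd_nat
            exact this h2)
        · rfl
      have hc : Nat.card G = 2 ^ a * 3 ^ m.primeFactorsList.length := by
        rw [e]
        congr 1
      have hsol := Cfsg.Agent.Lib.Char.isSolvable_of_card (G := G) 2 3 a m.primeFactorsList.length Nat.prime_two Nat.prime_three hc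
      haveI hnt : Nontrivial G := (Finite.one_lt_card_iff_nontrivial).1 (by
        have := Nat.card_pos (α := G)
        omega)
      exact (IsSolvable.commutator_lt_top_of_nontrivial G).ne hperf
    obtain ⟨p, hp, hp5, hpd⟩ := h5
    haveI : Fact p.Prime := ⟨hp⟩
    obtain ⟨S⟩ : Nonempty (Sylow p G) := inferInstance
    have hS : (S : Subgroup G) ≠ ⊥ := S.ne_bot_of_dvd_card hpd
    have hN : ∀ g ∈ Subgroup.normalizer (((S : Subgroup G) : Subgroup G) : Set G), (orderOf g).Coprime p →
        g ∈ Subgroup.centralizer (((S : Subgroup G) : Subgroup G) : Set G) := by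
      intro g hg hcop
      rw [h p hp hpd S] at hg
      have hg1 : g = 1 := by
        have h2 := eq_one_of_mem_isPGroup_of_mem_coprime (D := Subgroup.zpowers g) S.isPGroup'
          (by rwa [Nat.card_zpowers]) hg (Subgroup.mem_zpowers g)
        exact h2
      rw [hg1]
      exact Subgroup.one_mem _
    obtain ⟨N, hNn, hNi⟩ := Cfsg.Agent.S1991.result hp5 S hS hN
    exact ⟨p, hp, key p hp N hNn hNi⟩
  · -- a prime dividing the index of the derived subgroup
    have hi : (⁅(⊤ : Subgroup G), (⊤ : Subgroup G)⁆).index ≠ 1 := by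
      intro h2
      exact hperf (Subgroup.index_eq_one.1 h2)
    obtain ⟨q, hq, hqd⟩ := Nat.exists_prime_and_dvd hi
    haveI : Fact q.Prime := ⟨hq⟩
    obtain ⟨Q⟩ : Nonempty (Sylow q G) := inferInstance
    have hQ : ¬ (Q : Subgroup G) ≤ ⁅(⊤ : Subgroup G), (⊤ : Subgroup G)⁆ := by
      intro hle
      exact Q.not_dvd_index (hqd.trans (Subgroup.index_dvd_of_le hle))
    obtain ⟨N, hNn, hNi⟩ := exists_normal_index_of_not_le Q hQ
    exact ⟨q, hq, key q hq N hNn hNi⟩


end Cfsg.Agent.S1992
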