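import Cfsg.Statements.S1997
import Mathlib
import Cfsg.Agent.Lib.Techniques.TripleFac

set_option autoImplicit false
universe u
open Cfsg

namespace Cfsg.Agent.S1997

/-- Let p be a prime, G a finite group with Sylow p-subgroup S, and W₁, W₂ two isomorphism-invariant p-group functors (W assigns to every group Q a subgroup W(Q), nontrivial whenever Q is a nontrivial finite p-group, and every isomorphism from a finite p-group Q onto a group R carries W(Q) onto W(R)). Suppose that G* = C_{G*}(Ω₁Z(S*)) N_{G*}(W₁(S*)) = C_{G*}(Ω₁Z(S*)) N_{G*}(W₂(S*)) = N_{G*}(W₁(S*)) N_{G*}(W₂(S*)) whenever G* = K/R is a section of G with C_{G*}(O_p(G*)) ≤ O_p(G*) and S* is a Sylow p-subgroup of G*, where Ω₁Z denotes the subgroup generated by the elements of order dividing p in the centre. Suppose also Ω₁Z(S) ≤ W₁(S) ∩ W₂(S), and let A be the normal closure of Ω₁Z(S) in N_G(W₁(S)). Then A is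 an elementary abelian subgroup of S, strongly closed in S with respect to G, and A controls strong fusion in G. -/
theorem result {G : Type u} [Group G] [Finite G] {p : ℕ} [Fact p.Prime] (S : Sylow p G) (W₁ W₂ : ∀ (Q : Type u) [Group Q], Subgroup Q) (hW₁ : Cfsg.IsCharPFunctor.{u} p W₁) (hW₂ : Cfsg.IsCharPFunctor.{u} p W₂) (hfac : ∀ (K R : Subgroup G) [hR : (R.subgroupOf K).Normal], Subgroup.centralizer ((Cfsg.pCore p (↥K ⧸ R.subgroupOf K) : Subgroup (↥K ⧸ R.subgroupOf K)) : Set (↥K ⧸ R.subgroupOf K)) ≤ Cfsg.pCore p (↥K ⧸ R.subgroupOf K) → ∀ T : Sylow p (↥K ⧸ R.subgroupOf K), (∀ x : (↥K ⧸ R.subgroupOf K), ∃ a ∈ Subgroup.centralizer ((Cfsg.omegaOne p ((T : Subgroup (↥K ⧸ R.subgroupOf K)) ⊓ Subgroup.centralizer (((T : Subgroup (↥K ⧸ R.subgroupOf K)) : Subgroup (↥K ⧸ R.subgroupOf K)) : Set (↥K ⧸ R.subgroupOf K))) : Subgroup (↥K ⧸ R.subgroupOf K)) : Set (↥K ⧸ R.subgroupOf K)),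 ∃ b ∈ Subgroup.normalizer ((Cfsg.inducedFunctor (G := (↥K ⧸ R.subgroupOf K)) W₁ (T : Subgroup (↥K ⧸ R.subgroupOf K)) : Subgroup (↥K ⧸ R.subgroupOf K)) : Set (↥K ⧸ R.subgroupOf K)), x = a * b) ∧ (∀ x : (↥K ⧸ R.subgroupOf K), ∃ a ∈ Subgroup.centralizer ((Cfsg.omegaOne p ((T : Subgroup (↥K ⧸ R.subgroupOf K)) ⊓ Subgroup.centralizer (((T : Subgroup (↥K ⧸ R.subgroupOf K)) : Subgroup (↥K ⧸ R.subgroupOf K)) : Set (↥K ⧸ R.subgroupOf K))) : Subgroup (↥K ⧸ R.subgroupOf K)) : Set (↥K ⧸ R.subgroupOf K)), ∃ b ∈ Subgroup.normalizer ((Cfsg.inducedFunctor (G := (↥K ⧸ R.subgroupOf K)) W₂ (T : Subgroup (↥K ⧸ R.subgroupOf K)) : Subgroup (↥K ⧸ R.subgroupOf K)) : Set (↥K ⧸ R.subgroupOf K)), x = a * b) ∧ (∀ x : (↥K ⧸ R.subgroupOf K), ∃ a ∈ Subgroup.normalizer ((Cfsg.inducedFunctor (G := (↥K ⧸ R.subgroupOf K)) W₁ (T : Subgroup (↥K ⧸ R.subgroupOf K)) : Subgroup (↥K ⧸ R.subgroupOf K)) : Set (↥K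 ⧸ R.subgroupOf K)), ∃ b ∈ Subgroup.normalizer ((Cfsg.inducedFunctor (G := (↥K ⧸ R.subgroupOf K)) W₂ (T : Subgroup (↥K ⧸ R.subgroupOf K)) : Subgroup (↥K ⧸ R.subgroupOf K)) : Set (↥K ⧸ R.subgroupOf K)), x = a * b)) (hZ : Cfsg.omegaOne p ((S : Subgroup G) ⊓ Subgroup.centralizer (((S : Subgroup G) : Subgroup G) : Set G)) ≤ Cfsg.inducedFunctor (G := G) W₁ (S : Subgroup G) ⊓ Cfsg.inducedFunctor (G := G) W₂ (S : Subgroup G)) (N₁ : Subgroup G) (hN₁ : N₁ = Subgroup.normalizer ((Cfsg.inducedFunctor (G := G) W₁ (S : Subgroup G) : Subgroup G) : Set G)) (A : Subgroup G) (hA : A = (Subgroup.normalClosure (((Cfsg.omegaOne p ((S : Subgroup G) ⊓ Subgroup.centralizer (((S : Subgroup G) : Subgroup G) : Set G))).subgroupOf N₁ : Subgroup ↥N₁) : Set ↥N₁)).map N₁.subtype) : A ≤ (S : Subgroup G) ∧ Cfsg.IsElementaryAbelian p A ∧ Cfsg.IsStronglyClosed A (S : Subgroup G) ∧ Cfsg.ControlsStrongFusion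 p A := by
  classical
  have hSp : IsPGroup p (S : Subgroup G) := S.isPGroup'
  obtain ⟨Z, hZd⟩ : ∃ Z : Subgroup G, Z = Cfsg.omegaOne p ((S : Subgroup G) ⊓ Subgroup.centralizer (((S : Subgroup G) : Subgroup G) : Set G)) := ⟨_, rfl⟩
  obtain ⟨V₁, hV₁⟩ : ∃ V₁ : Subgroup G, V₁ = Cfsg.inducedFunctor (G := G) W₁ (S : Subgroup G) := ⟨_, rfl⟩
  obtain ⟨V₂, hV₂⟩ : ∃ V₂ : Subgroup G, V₂ = Cfsg.inducedFunctor (G := G) W₂ (S : Subgroup G) := ⟨_, rfl⟩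
  obtain ⟨N₂, hN₂⟩ : ∃ N₂ : Subgroup G, N₂ = Subgroup.normalizer ((V₂ : Subgroup G) : Set G) := ⟨_, rfl⟩
  rw [← hZd, ← hV₁, ← hV₂] at hZ
  rw [← hZd] at hA
  have hV₁S : V₁ ≤ (S : Subgroup G) := by
    rw [hV₁]
    exact ((Cfsg.Agent.Lib.Techniques.isConjugacyFunctor_induced hW₁) _ hSp).1
  have hV₂S : V₂ ≤ (S : Subgroup G) := by
    rw [hV₂]
    exact ((Cfsg.Agent.Lib.Techniques.isConjugacyFunctor_induced hW₂) _ hSp).1
  have hSN₁ : (S : Subgroup G) ≤ N₁ := by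
    rw [hN₁]
    exact Cfsg.Agent.Lib.Techniques.le_normW hW₁ hSp
  have hSN₂ : (S : Subgroup G) ≤ N₂ := by
    rw [hN₂, hV₂]
    exact Cfsg.Agent.Lib.Techniques.le_normW hW₂ hSp
  have hN₁V : N₁ ≤ Subgroup.normalizer ((V₁ : Subgroup G) : Set G) := by
    rw [hN₁, hV₁]
  have hN₂V : N₂ ≤ Subgroup.normalizer ((V₂ : Subgroup G) : Set G) := by
    rw [hN₂]
  -- elements of `Z`
  have hZmem : ∀ z ∈ Z, z ∈ (S : Subgroup G) ∧ (∀ s ∈ (S : Subgroup G), s * z = z * s) ∧ z ^ p = 1 := by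
    intro z hz
    rw [hZd] at hz
    induction hz using Subgroup.closure_induction with
    | mem x hx =>
      refine ⟨hx.1.1, ?_, hx.2⟩
      intro s hs
      exact Subgroup.mem_centralizer_iff.1 hx.1.2 s hs
    | one => exact ⟨Subgroup.one_mem _, by simp, by simp⟩
    | mul x y _ _ hx hy =>
      refine ⟨Subgroup.mul_mem _ hx.1 hy.1, ?_, ?_⟩
      · intro s hs
        rw [← mul_assoc, hx.2.1 s hs, mul_assoc, hy.2.1 s hs, mul_assoc]
      · have hc : Commute x y := (hx.2.1 y hy.1).symm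
        rw [hc.mul_pow, hx.2.2, hy.2.2, one_mul]
    | inv x _ hx =>
      refine ⟨Subgroup.inv_mem _ hx.1, ?_, by rw [inv_pow, hx.2.2, inv_one]⟩
      intro s hs
      have h1 := hx.2.1 s hs
      calc s * x⁻¹ = x⁻¹ * (x * s) * x⁻¹ := by group
        _ = x⁻¹ * (s * x) * x⁻¹ := by rw [h1]
        _ = x⁻¹ * s := by group
  have hZV₁ : Z ≤ V₁ := hZ.trans inf_le_left
  have hZV₂ : Z ≤ V₂ := hZ.trans inf_le_right
  -- the closure
  have hAgen : ∀ n ∈ N₁, ∀ z ∈ Z, n * z * n⁻¹ ∈ A := by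
    intro n hn z hz
    rw [hA]
    have h1 : (⟨z, hSN₁ (hZmem z hz).1⟩ : ↥N₁) ∈ Subgroup.normalClosure (((Z.subgroupOf N₁ : Subgroup ↥N₁) : Set ↥N₁)) :=
      Subgroup.subset_normalClosure (by
        show (⟨z, hSN₁ (hZmem z hz).1⟩ : ↥N₁) ∈ Z.subgroupOf N₁
        exact Subgroup.mem_subgroupOf.2 hz)
    have h2 := (Subgroup.normalClosure_normal (s := ((Z.subgroupOf N₁ : Subgroup ↥N₁) : Set ↥N₁))).conj_mem _ h1 ⟨n, hn⟩
    exact ⟨_, h2, rfl⟩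
  have hAle : ∀ B : Subgroup G, (∀ n ∈ N₁, ∀ z ∈ Z, n * z * n⁻¹ ∈ B) → A ≤ B := by
    intro B hB
    rw [hA, Subgroup.map_le_iff_le_comap]
    refine (Subgroup.closure_le _).2 ?_
    intro x hx
    obtain ⟨a, ha, hax⟩ := Group.mem_conjugatesOfSet_iff.1 hx
    obtain ⟨c, rfl⟩ := isConj_iff.1 hax
    have ha' : (a : G) ∈ Z := Subgroup.mem_subgroupOf.1 ha
    have h1 := hB c c.2 a ha'
    exact h1
  -- elementary abelian
  let E : Subgroup G :=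
    { carrier := {x | x ∈ V₁ ∧ x ∈ Subgroup.centralizer ((V₁ : Subgroup G) : Set G) ∧ x ^ p = 1}
      mul_mem' := by
        rintro x y ⟨h1, h2, h3⟩ ⟨h4, h5, h6⟩
        refine ⟨V₁.mul_mem h1 h4, Subgroup.mul_mem _ h2 h5, ?_⟩
        have hc : Commute x y := (Subgroup.mem_centralizer_iff.1 h5 x h1)
        rw [hc.mul_pow, h3, h6, one_mul]
      one_mem' := ⟨V₁.one_mem, Subgroup.one_mem _, by simp⟩
      inv_mem' := by
        rintro x ⟨h1, h2, h3⟩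
        exact ⟨V₁.inv_mem h1, Subgroup.inv_mem _ h2, by rw [inv_pow, h3, inv_one]⟩ }
  have hAE : A ≤ E := by
    refine hAle E fun n hn z hz => ?_
    obtain ⟨h1, h2, h3⟩ := hZmem z hz
    refine ⟨(Subgroup.mem_normalizer_iff.1 (hN₁V hn) z).1 (hZV₁ hz), ?_, ?_⟩
    · rw [Subgroup.mem_centralizer_iff]
      intro v hv
      have hv' : n⁻¹ * v * n ∈ V₁ := by
        have h4 := (Subgroup.mem_normalizer_iff.1 (Subgroup.inv_mem _ (hN₁V hn)) v).1 hv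
        simpa using h4
      have h5 := h2 _ (hV₁S hv')
      calc v * (n * z * n⁻¹) = n * ((n⁻¹ * v * n) * z) * n⁻¹ := by group
        _ = n * (z * (n⁻¹ * v * n)) * n⁻¹ := by rw [h5]
        _ = _ := by group
    · rw [conj_pow, h3]
      simp
  have hAS : A ≤ (S : Subgroup G) := fun a ha => hV₁S (hAE ha).1
  have hAel : Cfsg.IsElementaryAbelian p A := by
    refine ⟨⟨⟨fun x y => Subtype.ext ?_⟩⟩, fun a ha => (hAE ha).2.2⟩
    exact Subgroup.mem_centralizer_iff.1 (hAE y.2).2.1 x (hAE x.2).1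
  -- the two factorizations
  have hL₁ : ∀ n ∈ N₁, ∀ z ∈ Z, ∃ m ∈ N₁ ⊓ N₂, n * z * n⁻¹ = m * z * m⁻¹ := by
    intro n hn z hz
    obtain ⟨h1, h2, h3⟩ := hZmem z hz
    have hV₁p : IsPGroup p V₁ := hSp.to_le hV₁S
    obtain ⟨m, hm, hme⟩ := Cfsg.Agent.Lib.Techniques.conj_in_normalizer_of_fac hW₂ S
      (fun K R hR hcon T x => (@hfac K R hR hcon T).2.1 x) h1 h2 h3 _ N₁ V₁ rfl hSN₁ (hV₁S.trans hSN₁) hN₁V hV₁p
      (hZV₁ hz) n hn
    refine ⟨m, ⟨hm.1, ?_⟩, hme⟩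
    rw [hN₂, hV₂]
    exact hm.2
  have hL₂ : ∀ n ∈ N₂, ∀ z ∈ Z, ∃ m ∈ N₂ ⊓ N₁, n * z * n⁻¹ = m * z * m⁻¹ := by
    intro n hn z hz
    obtain ⟨h1, h2, h3⟩ := hZmem z hz
    have hV₂p : IsPGroup p V₂ := hSp.to_le hV₂S
    obtain ⟨m, hm, hme⟩ := Cfsg.Agent.Lib.Techniques.conj_in_normalizer_of_fac hW₁ S
      (fun K R hR hcon T x => (@hfac K R hR hcon T).1 x) h1 h2 h3 _ N₂ V₂ rfl hSN₂ (hV₂S.trans hSN₂) hN₂V hV₂p
      (hZV₂ hz) n hn
    refine ⟨m, ⟨hm.1, ?_⟩, hme⟩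
    rw [hN₁]
    exact hm.2
  have hN₁A : N₁ ≤ Subgroup.normalizer ((A : Subgroup G) : Set G) := by
    intro n₁ hn₁
    apply Cfsg.Agent.Lib.FrobThm.mem_normalizer_of_forall_conj_mem
    have hle : A ≤ A.comap (MulAut.conj n₁).toMonoidHom := by
      refine hAle _ fun n hn z hz => ?_
      show n₁ * (n * z * n⁻¹) * n₁⁻¹ ∈ A
      have e : n₁ * (n * z * n⁻¹) * n₁⁻¹ = (n₁ * n) * z * (n₁ * n)⁻¹ := by group
      rw [e]
      exact hAgen _ (N₁.mul_mem hn₁ hn) z hz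
    exact fun a ha => hle ha
  have hN₂A : N₂ ≤ Subgroup.normalizer ((A : Subgroup G) : Set G) := by
    intro n₂ hn₂
    apply Cfsg.Agent.Lib.FrobThm.mem_normalizer_of_forall_conj_mem
    have hle : A ≤ A.comap (MulAut.conj n₂).toMonoidHom := by
      refine hAle _ fun n hn z hz => ?_
      show n₂ * (n * z * n⁻¹) * n₂⁻¹ ∈ A
      obtain ⟨m, hm, hme⟩ := hL₁ n hn z hz
      obtain ⟨m', hm', hme'⟩ := hL₂ (n₂ * m) (N₂.mul_mem hn₂ hm.2) z hz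
      have e : n₂ * (n * z * n⁻¹) * n₂⁻¹ = (n₂ * m) * z * (n₂ * m)⁻¹ := by
        rw [hme]
        group
      rw [e, hme']
      exact hAgen _ hm'.2 z hz
    exact fun a ha => hle ha
  -- family control
  have h𝓦 : ∀ W ∈ ({W₁, W₂} : Set (∀ (Q : Type u) [Group Q], Subgroup Q)), Cfsg.IsCharPFunctor.{u} p W := by
    rintro W (rfl | rfl)
    · exact hW₁
    · exact hW₂
  have hfc := Cfsg.Agent.Lib.Techniques.strong_control_global (p := p) (G := G) h𝓦 (by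
    intro K R hR hcon
    obtain ⟨T⟩ : Nonempty (Sylow p (↥K ⧸ R.subgroupOf K)) := inferInstance
    exact Cfsg.Agent.Lib.Techniques.family_of_product hW₁ hW₂ T (fun x => (@hfac K R hR hcon T).2.2 x))
  have hctl : ∀ (B : Set G) (g : G), B ⊆ (S : Subgroup G) → (fun a => g * a * g⁻¹) '' B ⊆ (S : Subgroup G) →
      ∃ x ∈ Subgroup.normalizer ((A : Subgroup G) : Set G), ∀ a ∈ B, g * a * g⁻¹ = x * a * x⁻¹ := by
    intro B g hB hg
    obtain ⟨x, hx, hxa⟩ := Cfsg.Agent.Lib.Techniques.famAt_of_controls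
      (Cfsg.Agent.Lib.Techniques.forall_isConjugacyFunctor h𝓦) hfc (Cfsg.Agent.Lib.Techniques.sylowIn_top_of_sylow S) B g trivial hB hg
    refine ⟨x, hx.mem_subgroup ?_, fun a ha => (hxa a ha).symm⟩
    rintro y ⟨_, ⟨W, hW, rfl⟩, -, hy⟩
    rcases hW with rfl | rfl
    · apply hN₁A
      rw [hN₁]
      exact hy
    · apply hN₂A
      rw [hN₂, hV₂]
      exact hy
  refine ⟨hAS, hAel, ⟨hAS, ?_⟩, ⟨S, hAS, fun B hB => ⟨hB, fun g hg => hctl B g hB hg⟩⟩⟩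
  intro x hx g hg
  obtain ⟨y, hy, hye⟩ := hctl {x} g (by
    rintro _ rfl
    exact hAS hx) (by
    rintro _ ⟨_, rfl, rfl⟩
    exact hg)
  rw [hye x rfl]
  exact (Subgroup.mem_normalizer_iff.1 hy x).1 hx


end Cfsg.Agent.S1997
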