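import Cfsg.Statements.S2004
import Mathlib
import Cfsg.Agent.Lib.Techniques.LocalSL2

set_option autoImplicit false
open Cfsg

namespace Cfsg.Agent.S2004

/-- Let p be an odd prime and G a finite group such that SL₂(p) is not involved in N_G(P) for any nonidentity p-subgroup P of G. Then every section of G is p-stable in the normalizer form: in each section, whenever an element of the normalizer of a p-subgroup Q acts quadratically on Q, its image in N(Q)/C(Q) lies in O_p(N(Q)/C(Q)). -/
theorem result {G : Type*} [Group G] [Finite G] {p : ℕ} [Fact p.Prime] (hp : p ≠ 2) (h : ∀ P : Subgroup G, IsPGroup p ↥P → P ≠ ⊥ → ¬ Cfsg.Involves (Matrix.SpecialLinearGroup (Fin 2) (ZMod p)) ↥(Subgroup.normalizer ((P : Subgroup G) : Set G))) : ∀ (K R : Subgroup G) [hR : (R.subgroupOf K).Normal], Cfsg.IsNormalizerPStable p (↥K ⧸ R.subgroupOf K) := by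
  intro K R hR
  refine Cfsg.Agent.Lib.Techniques.isNormalizerPStable_of_on fun P hP hP0 => ?_
  set π : ↥K →* (↥K ⧸ R.subgroupOf K) := QuotientGroup.mk' _ with hπd
  have hπ : Function.Surjective π := QuotientGroup.mk'_surjective _
  obtain ⟨T, hTp, hTP, hTN⟩ := Cfsg.Agent.Lib.Techniques.exists_local_lift π hπ hP
  set T₀ : Subgroup G := T.map K.subtype with hT₀
  have hT₀p : IsPGroup p T₀ := hTp.map _
  have hT₀ne : T₀ ≠ ⊥ := by
    intro h
    apply hP0
    have h1 : T = ⊥ := (Subgroup.map_eq_bot_iff_of_injective _ K.subtype_injective).1 h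
    rw [← hTP, h1, Subgroup.map_bot]
  have hno : Cfsg.Agent.Lib.PLocal.QuadMat.NoSL2 p ↥(Subgroup.normalizer (T₀ : Set G)) := by
    intro K' L hL
    refine ⟨fun iso => ?_⟩
    exact h T₀ hT₀p hT₀ne ⟨K', L, hL, ⟨iso⟩⟩
  let ι : ↥(Subgroup.normalizer (T : Set ↥K)) →* ↥(Subgroup.normalizer (T₀ : Set G)) :=
    (K.subtype.comp (Subgroup.normalizer (T : Set ↥K)).subtype).codRestrict _
      (fun x => Subgroup.le_normalizer_map K.subtype ⟨x.1, x.2, rfl⟩)
  have hι : Function.Injective ι := by
    intro a b e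
    have := congrArg Subtype.val e
    exact Subtype.ext (Subtype.ext this)
  have hno₁ := Cfsg.Agent.Lib.Techniques.noSL2_of_injective hno ι hι
  let φ : ↥(Subgroup.normalizer (T : Set ↥K)) →* ↥(Subgroup.normalizer (P : Set (↥K ⧸ R.subgroupOf K))) :=
    (π.comp (Subgroup.normalizer (T : Set ↥K)).subtype).codRestrict _
      (fun x => by
        rw [← hTN]
        exact ⟨x.1, x.2, rfl⟩)
  have hφ : Function.Surjective φ := by
    rintro ⟨y, hy⟩
    rw [← hTN] at hy
    obtain ⟨x, hx, e⟩ := hy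
    exact ⟨⟨x, hx⟩, Subtype.ext e⟩
  have hno₂ := hno₁.of_surjective φ hφ
  exact @Cfsg.Agent.Lib.PLocal.QuadMat.isPStableOn_pgroup_of_noSL2 _ _ _ p _ hp hno₂ _ Subgroup.normal_in_normalizer
    (hP.comap_of_injective _ (Subgroup.subtype_injective _))

end Cfsg.Agent.S2004
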