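import Cfsg.Statements.S2007
import Mathlib
import Cfsg.Agent.Lib.Techniques.Complement

set_option autoImplicit false
open Cfsg

namespace Cfsg.Agent.S2007

open Cfsg.Agent.Lib.Techniques

/-- Let p be a prime, G a finite group with Sylow p-subgroup S, and T a normal subgroup of S containing C_S(T). If N_G(T)/C_G(T) is a p-group (every element of N_G(T) of order prime to p centralizes T), then N_G(T) has a normal p-complement. -/
theorem result {G : Type*} [Group G] [Finite G] {p : ℕ} [Fact p.Prime] (S : Sylow p G) (T : Subgroup G) (hTS : T ≤ (S : Subgroup G)) (hTn : (S : Subgroup G) ≤ Subgroup.normalizer ((T : Subgroup G) : Set G)) (hC : (S : Subgroup G) ⊓ Subgroup.centralizer ((T : Subgroup G) : Set G) ≤ T) (hN : ∀ g ∈ Subgroup.normalizer ((T : Subgroup G) : Set G), (orderOf g).Coprime p → g ∈ Subgroup.centralizer ((T : Subgroup G) : Set G)) : Cfsg.HasNormalPComplement p ↥(Subgroup.normalizer ((T : Subgroup G) : Set G)) := by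
  set N := Subgroup.normalizer ((T : Subgroup G) : Set G) with hNdef
  set C := Subgroup.centralizer ((T : Subgroup G) : Set G) with hCdef
  have hCN : C ≤ N := Subgroup.centralizer_le_normalizer _
  have hCn : N ≤ Subgroup.normalizer (C : Set G) := by
    intro x hx
    rw [mem_normalizer_iff_conjS, hCdef, ← conj_centralizer_subgroup, mem_normalizer_iff_conjS.1 hx]
  have hSs : SylowIn p (S : Subgroup G) N := (sylowIn_top_of_sylow S).of_le hTn le_top
  have hZs : SylowIn p ((S : Subgroup G) ⊓ C) C := hSs.inf_of_normal hCN hCn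
  have hZc : ∀ c ∈ C, ∀ z ∈ (S : Subgroup G) ⊓ C, c * z = z * c := by
    intro c hc z hz
    exact (Subgroup.mem_centralizer_iff.1 hc z (hC hz)).symm
  have hP : Subgroup.normalizer ((hZs.toSylow : Subgroup C) : Set C) ≤
      Subgroup.centralizer ((hZs.toSylow : Subgroup C) : Set C) := by
    intro x _
    rw [Subgroup.mem_centralizer_iff]
    intro z hz
    have hz' : (z : G) ∈ (S : Subgroup G) ⊓ C := hz
    exact Subtype.ext (hZc x.1 x.2 z.1 hz').symm
  obtain ⟨K₀, -, -, hK₀⟩ := exists_ker_of_normalizer_le_centralizer hZs.toSylow hP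
  refine hasNormalPComplement_of_subgroup ((K₀.map C.subtype).comap N.subtype) ?_
  intro y
  constructor
  · rintro ⟨z, hz, hzy⟩
    have := (hK₀ z).1 hz
    have e : orderOf (y : G) = orderOf z := by
      rw [← Subgroup.orderOf_coe z]
      simp only [Subgroup.subtype_apply] at hzy
      rw [hzy]
    rw [← Subgroup.orderOf_coe y, e]
    exact this
  · intro hy
    have hy' : (orderOf (y : G)).Coprime p := by rwa [Subgroup.orderOf_coe]
    have hyC : (y : G) ∈ C := hN y y.2 hy'
    refine ⟨⟨y, hyC⟩, (hK₀ _).2 ?_, rfl⟩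
    rwa [Subgroup.orderOf_mk]

end Cfsg.Agent.S2007
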