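import Cfsg.Statements.S2008
import Mathlib
import Cfsg.Agent.Lib.Techniques.FourGroup

set_option autoImplicit false
open Cfsg

namespace Cfsg.Agent.S2008


/-- Data extracted from the Klein four-group. -/
theorem exists_u2 {H : Type*} [Group H] [Finite H] {E : Subgroup H} (hE : IsKleinFour ↥E) {z : H} (hz1 : z ≠ 1) (hzE : z ∈ E) :
    ∃ u ∈ E, u ≠ 1 ∧ u ≠ z ∧ z * u ≠ 1 := by
  classical
  have hcard : Nat.card E = 4 := IsKleinFour.card_four
  haveI : Fintype E := Fintype.ofFinite E
  have hexp : ∀ x : E, x * x = 1 := fun x => by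
    have := IsKleinFour.exponent_two (G := E)
    have h2 : x ^ 2 = 1 := by rw [← this]; exact Monoid.pow_exponent_eq_one x
    rwa [pow_two] at h2
  have hlt : ({1, ⟨z, hzE⟩} : Finset E).card < Fintype.card E := by
    rw [← Nat.card_eq_fintype_card, hcard]
    exact lt_of_le_of_lt (Finset.card_le_two) (by norm_num)
  obtain ⟨u, hu⟩ := Finset.exists_mem_notMem_of_card_lt_card (s := ({1, ⟨z, hzE⟩} : Finset E)) (t := Finset.univ) (by simpa using hlt)
  simp only [Finset.mem_insert, Finset.mem_singleton, not_or] at hu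
  refine ⟨u, u.2, ?_, ?_, ?_⟩
  · intro h; exact hu.2.1 (Subtype.ext h)
  · intro h; exact hu.2.2 (Subtype.ext h)
  · intro h
    have : z = (u : H)⁻¹ := eq_inv_of_mul_eq_one_left h
    have h2 : (u : H)⁻¹ = u := by
      have := congrArg Subtype.val (hexp u)
      exact inv_eq_of_mul_eq_one_left this
    rw [h2] at this
    exact hu.2.2 (Subtype.ext this.symm)


/-- Let H be a finite group and z an involution such that every proper normal subgroup of H meets the centralizer of z trivially, and suppose z lies in a Klein four-subgroup E of H all three of whose involutions are conjugate to z in H. Then H has no non-trivial abelian normal subgroup. -/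
theorem result {H : Type*} [Group H] [Finite H] (z : H) (hz : orderOf z = 2) (hN : ∀ N : Subgroup H, N.Normal → N ≠ ⊤ → N ⊓ Subgroup.centralizer ({z} : Set H) = ⊥) (E : Subgroup H) (hE : IsKleinFour ↥E) (hzE : z ∈ E) (hc : ∀ e ∈ E, e ≠ 1 → IsConj z e) (N : Subgroup H) [N.Normal] (hab : IsMulCommutative ↥N) : N = ⊥ := by
  have hz1 : z ≠ 1 := by
    intro h; rw [h, orderOf_one] at hz; omega
  obtain ⟨u, huE, hu1, huz, hzu⟩ := exists_u2 hE hz1 hzE
  by_cases h : N = ⊤
  · exfalso
    subst h
    obtain ⟨c, hcu⟩ := isConj_iff.1 (hc u huE hu1)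
    apply huz
    have := hab.is_comm.comm (⟨c, trivial⟩ : (⊤ : Subgroup H)) (⟨z, trivial⟩ : (⊤ : Subgroup H))
    have h2 : c * z = z * c := by simpa using congrArg Subtype.val this
    rw [← hcu, h2]; group
  · exact Cfsg.Agent.Lib.Techniques.normal_eq_bot_of_four hz hN (hc u huE hu1) (hc _ (E.mul_mem hzE huE) hzu) N h

end Cfsg.Agent.S2008
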