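import Cfsg.Statements.S2039
import Cfsg.Agent.Lib.KnownSimple.J1.Mult

set_option autoImplicit false
open Cfsg

namespace Cfsg.Agent.S2039

/-- The Schur multiplier of the Janko group J₁ (the group generated by two explicit 7 × 7 matrices over the integers modulo 11) is trivial; here the Schur multiplier is described through stem extensions, as in the definitions: surjective homomorphisms onto the group from a finite group, whose kernel is central in that finite group and contained in that finite group's commutator subgroup. -/
theorem result : Cfsg.HasCyclicSchurMultiplier ↥Cfsg.Spor.J1 1 :=
  Cfsg.Agent.Lib.KnownSimple.J1.multiplier_J1

end Cfsg.Agent.S2039
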