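import Cfsg.Statements.S2100
import Mathlib
import Cfsg.Agent.Lib.St.Schur
import Cfsg.Agent.Lib.Chev.SmithAll

set_option autoImplicit false
open Cfsg

namespace Cfsg.Agent.S2100

open Cfsg.Agent.Lib.St Cfsg.Agent.Lib.Chev

/-- Schur multipliers of the Chevalley groups of type G₂: over a field with q ≥ 5 elements the Schur multiplier of G₂(q) is trivial (here the Schur multiplier is described through stem extensions, as in the definitions); the cases q = 3 and q = 4 are exceptional and q = 2 gives a non-simple group. -/
theorem result {F : Type*} [Field F] [Fintype F] (hF : 5 ≤ Fintype.card F) : Cfsg.HasCyclicSchurMultiplier ↥(Cfsg.Lie.chevG2.group F) 1 := by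
  have hK5 : ∃ s : Finset F, 4 < s.card := ⟨Finset.univ, by rw [Finset.card_univ]; omega⟩
  let S := canSys (K := F) good3G2 (Cfsg.Lie.chevG2.steinbergRelsAB F) subset_rfl (lift_relAB good3G2)
  have hfin : Finite ↥(Cfsg.Lie.chevG2.group F) := inferInstance
  refine schur_one hfin S.θG S.θG_surj ?_ ?_
  · intro z hz
    have h1 : S.θ z = 1 := congrArg Subtype.val hz
    exact cover_ker_trivial good3G2 stHypG2 rank1G2 smithG2 S h1
  · intro Γ _ σ hσ
    exact (univ_main hK5 (by simp) σ hσ.1 hσ.2.1 S.θG).exists

end Cfsg.Agent.S2100
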