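import Cfsg.Statements.S2101
import Cfsg.Agent.Lib.KnownSimple.MultM.G23L.Main

set_option autoImplicit false
open Cfsg

namespace Cfsg.Agent.S2101

/-- Exceptional Schur multiplier: over the field with 3 elements the Chevalley group of type G₂ has Schur multiplier cyclic of order 3 (here the Schur multiplier is described through stem extensions, as in the definitions). -/
theorem result {F : Type*} [Field F] [Fintype F] (hF : Fintype.card F = 3) : Cfsg.HasCyclicSchurMultiplier ↥(Cfsg.Lie.chevG2.group F) 3 :=
  Cfsg.Agent.Lib.KnownSimple.MultM.G23L.mult hF

end Cfsg.Agent.S2101
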