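import Cfsg.Statements.S2103
import Mathlib
import Cfsg.Agent.Lib.St.Schur
import Cfsg.Agent.Lib.St.GU4
import Cfsg.Agent.Lib.Chev.SmithAll

set_option autoImplicit false
open Cfsg

namespace Cfsg.Agent.S2103

open Cfsg.Agent.Lib.St Cfsg.Agent.Lib.Chev

/-- Schur multipliers of the Chevalley groups of type F₄: over a finite field with more than 2 elements the Schur multiplier of F₄(q) is trivial (here the Schur multiplier is described through stem extensions, as in the definitions); q = 2 is exceptional. -/
theorem result {F : Type*} [Field F] [Fintype F] (hF : 3 ≤ Fintype.card F) : Cfsg.HasCyclicSchurMultiplier ↥(Cfsg.Lie.chevF4.group F) 1 := by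
  classical
  have hK : ∃ x : F, x ≠ 0 ∧ x ≠ 1 := by
    by_contra h
    push_neg at h
    have h1 : (Finset.univ : Finset F) ⊆ {0, 1} := fun x _ => by
      by_cases hx : x = 0
      · simp [hx]
      · simp [h x hx]
    have h2 := Finset.card_le_card h1
    rw [Finset.card_univ] at h2
    have h3 : ({0, 1} : Finset F).card ≤ 2 := Finset.card_le_two
    omega
  let S := canSys (K := F) good3F4 (Cfsg.Lie.chevF4.steinbergRelsAB F) subset_rfl (lift_relAB good3F4)
  have hfin : Finite ↥(Cfsg.Lie.chevF4.group F) := inferInstance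
  refine schur_one hfin S.θG S.θG_surj ?_ ?_
  · intro z hz
    have h1 : S.θ z = 1 := congrArg Subtype.val hz
    exact cover_ker_trivial good3F4 stHypF4 rank1F4 smithF4 S h1
  · intro Γ _ σ hσ
    exact f4_lift hK σ hσ.1 hσ.2.1 S.θG

end Cfsg.Agent.S2103
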