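import Cfsg.Statements.S2106
import Mathlib
import Cfsg.Agent.Lib.St.Minu5
import Cfsg.Agent.Lib.St.MinuT
import Cfsg.Agent.Lib.Chev.SmithAll

set_option autoImplicit false
open Cfsg

namespace Cfsg.Agent.S2106

open Cfsg.Agent.Lib.St Cfsg.Agent.Lib.Chev

/-- Schur multipliers of the (adjoint, simple) Chevalley groups of type E₇: over a field with q elements the Schur multiplier is cyclic of order gcd(2, q − 1) (here the Schur multiplier is described through stem extensions, as in the definitions). -/
theorem result {F : Type*} [Field F] [Fintype F] {q : ℕ} (hF : Fintype.card F = q) : Cfsg.HasCyclicSchurMultiplier ↥(Cfsg.Lie.chevE7.group F) (Nat.gcd 2 (q - 1)) := by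
  subst hF
  exact schur_minu (m := 6) (a := 1) (b := 2) (by simp) good3E7 stHypE7 rank1E7 repE7 v0E7 smithE7 (by decide)
    (fun i _ h => if_neg h) (by decide +kernel) hwE7

end Cfsg.Agent.S2106
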