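import Cfsg.Statements.S2107
import Mathlib
import Cfsg.Agent.Lib.St.Schur
import Cfsg.Agent.Lib.St.HWMain
import Cfsg.Agent.Lib.Chev.SmithAll

set_option autoImplicit false
open Cfsg

namespace Cfsg.Agent.S2107

open Cfsg.Agent.Lib.St Cfsg.Agent.Lib.Chev

/-- Schur multipliers of the Chevalley groups of type E₈: over every finite field the Schur multiplier of E₈(q) is trivial (here the Schur multiplier is described through stem extensions, as in the definitions). -/
theorem result {F : Type*} [Field F] [Fintype F] : Cfsg.HasCyclicSchurMultiplier ↥(Cfsg.Lie.chevE8.group F) 1 := by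
  let S := canSys (K := F) good3E8 (Cfsg.Lie.chevE8.steinbergRelsAB F) subset_rfl (lift_relAB good3E8)
  have hfin : Finite ↥(Cfsg.Lie.chevE8.group F) := inferInstance
  refine schur_one hfin S.θG S.θG_surj ?_ ?_
  · intro z hz
    have h1 : S.θ z = 1 := congrArg Subtype.val hz
    exact cover_ker_trivial good3E8 stHypE8 rank1E8 smithE8 S h1
  · intro Γ _ σ hσ
    exact (closure_main (by simp) σ hσ.1 hσ.2.1 S.θG).exists

end Cfsg.Agent.S2107
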