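import Cfsg.Statements.S2118
import Cfsg.Agent.Lib.SchurLocal.SL29

set_option autoImplicit false
open Cfsg

namespace Cfsg.Agent.S2118

/-- For the field with 9 elements, the special linear group SL₂ has Schur multiplier cyclic of order 3 (here the Schur multiplier is described through stem extensions, as in the definitions). -/
theorem result {F : Type*} [Field F] [Fintype F] (hF : Fintype.card F = 9) : Cfsg.HasCyclicSchurMultiplier (Matrix.SpecialLinearGroup (Fin 2) F) 3 := by
  exact Cfsg.Agent.Lib.SchurLocal.SL29.hasCyclic hF

end Cfsg.Agent.S2118
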