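import Cfsg.Statements.S2126
import Mathlib
import Cfsg.Agent.Lib.Sz.Aut
import Cfsg.Agent.Lib.Sz.Bridge

set_option autoImplicit false
open Cfsg

namespace Cfsg.Agent.S2126


open Cfsg.Agent.SzT

theorem card_out_congr' {G H : Type*} [Group G] [Group H] (e : G ≃* H) :
    Nat.card (Out G) = Nat.card (Out H) := by
  have h1 : (Inn G).map (MulAut.congr e).toMonoidHom = Inn H := by
    ext φ
    constructor
    · rintro ⟨_, ⟨g, rfl⟩, rfl⟩
      refine ⟨e g, ?_⟩
      ext x
      simp [MulAut.congr, MulAut.conj_apply]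
    · rintro ⟨h, rfl⟩
      refine ⟨_, ⟨e.symm h, rfl⟩, ?_⟩
      ext x
      simp [MulAut.congr, MulAut.conj_apply]
  exact Nat.card_congr (QuotientGroup.congr (Inn G) (Inn H) (MulAut.congr e) h1).toEquiv


/-- Outer automorphisms of the Suzuki groups: for q = 2^(2m+1) with m ≥ 1 the outer automorphism group of Sz(q) has order 2m + 1 (field automorphisms only). -/
theorem result {F : Type*} [Field F] [Fintype F] {m : ℕ} (hm : 1 ≤ m) (hF : Fintype.card F = 2 ^ (2 * m + 1)) : Nat.card (Cfsg.Out ↥(Cfsg.Lie.Sz F (2 ^ (m + 1)))) = 2 * m + 1 := by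

  haveI hS : SzF F (2 ^ (m + 1)) := szF_of_card hm hF
  haveI : Fact (Nat.Prime 2) := ⟨Nat.prime_two⟩
  haveI : CharP F 2 := char2' (s := 2 ^ (m + 1))
  rw [card_out_congr' (szEquiv (2 ^ (m + 1)) F).symm, card_out_GG,
    Cfsg.Agent.Lib.Chev.card_ringAut 2 (2 * m + 1) hF]


end Cfsg.Agent.S2126
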