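import Cfsg.Statements.S2128
import Mathlib
import Cfsg.Agent.Lib.ReeAut.F4c

set_option autoImplicit false
open Cfsg

namespace Cfsg.Agent.S2128

/-- Outer automorphisms of the large Ree groups: for q = 2^(2m+1) with m ≥ 1 the outer automorphism group of ²F₄(q) has order 2m + 1 (field automorphisms only). -/
theorem result {K : Type*} [Field K] [Fintype K] {m : ℕ} (hm : 1 ≤ m) (hK : Fintype.card K = 2 ^ (2 * m + 1)) : Nat.card (Cfsg.Out ↥(Cfsg.Lie.twistedF4 K (2 ^ m))) = 2 * m + 1 := by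
  haveI : CharP K 2 := Cfsg.Agent.Lib.Chev.charF4 hK
  obtain ⟨hperf, φ, hq, hφ, e⟩ := Cfsg.Agent.Lib.Chev.setupF4 hK
  letI : Cfsg.Agent.Lib.ReeAut.FCtx K :=
    { m := m, hm := hm, hK := hK, hperf := hperf, φ := φ, hq := hq, hφ := hφ }
  haveI : Fact (Nat.Prime 2) := ⟨Nat.prime_two⟩
  rw [e]
  exact (Cfsg.Agent.Lib.ReeAut.card_out_GF (K := K)).trans (Cfsg.Agent.Lib.Chev.card_ringAut 2 (2 * m + 1) hK)

end Cfsg.Agent.S2128
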