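import Cfsg.Statements.S2149
import Cfsg.Agent.Lib.U35.Main

set_option autoImplicit false
open Cfsg

namespace Cfsg.Agent.S2149

/-- Minimal index of a proper subgroup of PSU₃(5), realised over the field with 25 elements: every proper subgroup has index at least 50, and that index is attained. -/
theorem result {F : Type*} [Field F] [Fintype F] (hF : Fintype.card F = 25) : (∀ H : Subgroup (Cfsg.PSU 3 F 5), H ≠ ⊤ → 50 ≤ H.index) ∧ (∃ H : Subgroup (Cfsg.PSU 3 F 5), H.index = 50) := by
  obtain ⟨e⟩ := Cfsg.Agent.Lib.U35.exists_equiv_F25 hF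
  let E := Cfsg.Agent.Lib.Classical.RC.psuCongr e 3 5
  constructor
  · intro H hH
    have h1 : (H.comap E.symm.toMonoidHom).index = H.index :=
      Subgroup.index_comap_of_surjective _ E.symm.surjective
    rw [← h1]
    apply Cfsg.Agent.Lib.U35.lower
    intro h
    apply hH
    rw [eq_top_iff]
    intro g _
    have h2 : E g ∈ H.comap E.symm.toMonoidHom := by
      rw [h]
      exact Subgroup.mem_top _
    have h3 : E.symm (E g) ∈ H := h2
    rwa [MulEquiv.symm_apply_apply] at h3
  · refine ⟨Cfsg.Agent.Lib.U35.H0.comap E.toMonoidHom, ?_⟩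
    have h1 : (Cfsg.Agent.Lib.U35.H0.comap E.toMonoidHom).index = Cfsg.Agent.Lib.U35.H0.index :=
      Subgroup.index_comap_of_surjective _ E.surjective
    rw [h1]
    exact Cfsg.Agent.Lib.U35.index_H0

end Cfsg.Agent.S2149
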