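import Cfsg.Statements.S2155
import Mathlib
import Cfsg.Agent.Lib.BNSt.Cent
import Cfsg.Agent.Lib.Techniques.TransvF2

set_option autoImplicit false
open Cfsg

namespace Cfsg.Agent.S2155

/-- In a Chevalley group of type G₂, B₂, D₄, F₄, E₆, E₇ or E₈ over a finite field of characteristic p (for types G₂ and B₂ the field is assumed to have at least 3 elements, so that the group is simple), the generalized Fitting subgroup of every proper standard parabolic subgroup P_J is a p-group (P_J is p-constrained with trivial largest normal subgroup of order prime to p). -/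
theorem result {F : Type*} [Field F] [Fintype F] (p : ℕ) [Fact p.Prime] [CharP F p] (D : Cfsg.Lie.ChevalleyDatum) (hD : D ∈ [Cfsg.Lie.chevG2, Cfsg.Lie.chevB2, Cfsg.Lie.chevD4, Cfsg.Lie.chevF4, Cfsg.Lie.chevE6, Cfsg.Lie.chevE7, Cfsg.Lie.chevE8]) (hq : (D = Cfsg.Lie.chevG2 ∨ D = Cfsg.Lie.chevB2) → 3 ≤ Fintype.card F) (J : Set ℕ) (hJ : ∃ i, i < D.rank ∧ i ∉ J) : IsPGroup p ↥(Cfsg.generalizedFittingSubgroup ↥(D.parabolicSubgroup F J)) := by
  classical
  obtain ⟨T, hG⟩ := Cfsg.Agent.Lib.Chev.exists_good3 hD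
  obtain ⟨k, hk, hkJ⟩ := hJ
  set J' : Finset ℕ := (Finset.range D.rank).filter (· ∈ J) with hJ'
  have hmem : ∀ i, i < D.rank → (i ∈ (J' : Set ℕ) ↔ i ∈ J) := by
    intro i hi
    simp [hJ', hi]
  have eP : D.parabolicSubgroup F J = D.parabolicSubgroup F (J' : Set ℕ) := by
    unfold Cfsg.Lie.ChevalleyDatum.parabolicSubgroup
    congr 2
    ext g
    constructor
    · rintro ⟨j, h1, h2, h3⟩
      exact ⟨j, (hmem j h2).2 h1, h2, h3⟩
    · rintro ⟨j, h1, h2, h3⟩
      exact ⟨j, (hmem j h2).1 h1, h2, h3⟩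
  have eS : ∀ r, D.InRootSub J r ↔ D.InRootSub (J' : Set ℕ) r := by
    intro r
    unfold Cfsg.Lie.ChevalleyDatum.InRootSub
    constructor
    · rintro ⟨h1, h2⟩
      exact ⟨h1, fun i hi hiJ => h2 i hi (fun h => hiJ ((hmem i hi).2 h))⟩
    · rintro ⟨h1, h2⟩
      exact ⟨h1, fun i hi hiJ => h2 i hi (fun h => hiJ ((hmem i hi).1 h))⟩
  rw [eP]
  have hkJ' : k ∉ J' := by
    intro h
    exact hkJ ((hmem k hk).1 h)
  have hJs : J' ⊆ Finset.range D.rank := Finset.filter_subset _ _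
  haveI : Finite ↥(D.group F) := inferInstance
  set PJ := D.parabolicSubgroup F (J' : Set ℕ) with hPJ
  set Q : Subgroup ↥PJ := (D.unipotentRadical F (J' : Set ℕ)).subgroupOf PJ with hQ
  have hQn : Q.Normal := by
    constructor
    intro n hn g
    rw [hQ, Subgroup.mem_subgroupOf] at hn ⊢
    exact (Subgroup.mem_normalizer_iff.1 (hG.parabolic_le_normalizer (J' : Set ℕ) g.2) _).1 hn
  have hsub : D.unipotentRadical F (J' : Set ℕ) ≤ D.posUnipotent F := by
    refine (Subgroup.closure_le _).2 ?_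
    rintro g ⟨r, t, hr, _, hg⟩
    exact Subgroup.subset_closure ⟨r, t, hr, hg⟩
  have hsubP : D.unipotentRadical F (J' : Set ℕ) ≤ PJ :=
    hsub.trans (Cfsg.Agent.Lib.Chev.Tbl.Good2.le_borel_U.trans (Cfsg.Agent.Lib.Chev.Tbl.Good2.B_le_parabolic hG.toGood2 _))
  have hUp : IsPGroup p ↥(D.posUnipotent F) := by
    obtain ⟨n, hpr, hn⟩ := FiniteField.card F p
    refine IsPGroup.of_card (n := n.val * (D.nroots / 2)) ?_
    rw [hG.card_U, Nat.card_eq_fintype_card, hn, pow_mul]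
  have hQp : IsPGroup p Q := by
    intro x
    obtain ⟨m, hm⟩ := hUp ⟨(x : ↥PJ), hsub (Subgroup.mem_subgroupOf.1 x.2)⟩
    refine ⟨m, ?_⟩
    apply Subtype.ext
    apply Subtype.ext
    have := congrArg Subtype.val hm
    simpa using this
  have hQc : Subgroup.centralizer (Q : Set ↥PJ) ≤ Q := by
    intro g hg
    rw [Subgroup.mem_centralizer_iff] at hg
    have h1 : (g : GL D.Idx F) ∈ Cfsg.Agent.Lib.BNSt.centY D F (J' : Set ℕ) := by
      rw [Cfsg.Agent.Lib.BNSt.mem_centY]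
      refine ⟨fun u hu => ?_, g.2⟩
      have h2 := hg ⟨u, hsubP hu⟩ (Subgroup.mem_subgroupOf.2 hu)
      exact congrArg Subtype.val h2
    exact Subgroup.mem_subgroupOf.2 (Cfsg.Agent.Lib.BNSt.centY_le hG hJs hk hkJ' h1)
  rw [Cfsg.Agent.Lib.Techniques.gen_eq_pCore_of_selfCentralizing hQn hQp hQc]
  exact Cfsg.Agent.Lib.Core.pCore_isPGroup p _

end Cfsg.Agent.S2155
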