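import Cfsg.Statements.S2156
import Mathlib
import Cfsg.Agent.Lib.ChevAut.TauT

set_option autoImplicit false
open Cfsg

namespace Cfsg.Agent.S2156

/-- Over a finite field, every automorphism of the Chevalley group of type G₂, B₂, D₄, F₄, E₆, E₇ or E₈ is the composite of a field automorphism, a graph automorphism, a diagonal automorphism and an inner automorphism: `θ y = x · d(g(f y)) · x⁻¹` for some group element `x`, diagonal `d`, graph `g` and field `f` (each possibly the identity; diagonal here includes conjugation by elements of the diagonal subgroup H). -/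
theorem result {F : Type*} [Field F] [Finite F] (D : Cfsg.Lie.ChevalleyDatum) (hD : D ∈ [Cfsg.Lie.chevG2, Cfsg.Lie.chevB2, Cfsg.Lie.chevD4, Cfsg.Lie.chevF4, Cfsg.Lie.chevE6, Cfsg.Lie.chevE7, Cfsg.Lie.chevE8]) (θ : ↥(D.group F) ≃* ↥(D.group F)) :
    ∃ (x : ↥(D.group F)) (d g f : ↥(D.group F) ≃* ↥(D.group F)),
      D.IsDiagonalAut d ∧ D.IsGraphAut g ∧ D.IsFieldAut f ∧ ∀ y : ↥(D.group F), θ y = x * d (g (f y)) * x⁻¹ := by
  simp only [List.mem_cons, List.not_mem_nil, or_false] at hD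
  rcases hD with rfl | rfl | rfl | rfl | rfl | rfl | rfl
  · exact Cfsg.Agent.Lib.Chev.good3G2.exists_decomp Cfsg.Agent.Lib.Chev.rank1G2 Cfsg.Agent.Lib.Chev.w0sG2
      (fun _ _ _ _ h => Cfsg.Agent.Lib.Chev.tauG2 _ h) θ
  · exact Cfsg.Agent.Lib.Chev.good3B2.exists_decomp Cfsg.Agent.Lib.Chev.rank1B2 Cfsg.Agent.Lib.Chev.w0sB2
      (fun _ _ _ _ h => Cfsg.Agent.Lib.Chev.tauB2 _ h) θ
  · exact Cfsg.Agent.Lib.Chev.good3D4.exists_decomp Cfsg.Agent.Lib.Chev.rank1D4 Cfsg.Agent.Lib.Chev.w0sD4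
      (fun _ _ _ _ h => Cfsg.Agent.Lib.Chev.tauD4 _ h) θ
  · exact Cfsg.Agent.Lib.Chev.good3F4.exists_decomp Cfsg.Agent.Lib.Chev.rank1F4 Cfsg.Agent.Lib.Chev.w0sF4
      (fun _ _ _ _ h => Cfsg.Agent.Lib.Chev.tauF4 _ h) θ
  · exact Cfsg.Agent.Lib.Chev.good3E6.exists_decomp Cfsg.Agent.Lib.Chev.rank1E6 Cfsg.Agent.Lib.Chev.w0sE6
      (fun _ _ _ _ h => Cfsg.Agent.Lib.Chev.tauE6 _ h) θ
  · exact Cfsg.Agent.Lib.Chev.good3E7.exists_decomp Cfsg.Agent.Lib.Chev.rank1E7 Cfsg.Agent.Lib.Chev.w0sE7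
      (fun _ _ _ _ h => Cfsg.Agent.Lib.Chev.tauE7 _ h) θ
  · exact Cfsg.Agent.Lib.Chev.good3E8.exists_decomp Cfsg.Agent.Lib.Chev.rank1E8 Cfsg.Agent.Lib.Chev.w0sE8
      (fun _ _ _ _ h => Cfsg.Agent.Lib.Chev.tauE8 _ h) θ

end Cfsg.Agent.S2156
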