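import Cfsg.Statements.S2157
import Mathlib
import Cfsg.Agent.Lib.KnownSimple.ChevChain

set_option autoImplicit false
open Cfsg

namespace Cfsg.Agent.S2157

open Cfsg.Lie Cfsg.Agent.Lib.KnownSimple

theorem sum_weight {F : Type*} [Field F] (a b w t : F) (l : List (ℕ × ℤ)) (h : ∀ km ∈ l, a * b = w ^ km.1) :
    a * (l.map fun km => ((km.2 : ℤ) : F) * t ^ km.1).sum * b = (l.map fun km => ((km.2 : ℤ) : F) * (w * t) ^ km.1).sum := by
  induction l with
  | nil => simp
  | cons hd tl ih =>
    simp only [List.map_cons, List.sum_cons]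
    have h1 := ih (fun km hkm => h km (List.mem_cons_of_mem _ hkm))
    have h2 := h hd List.mem_cons_self
    rw [← h1, mul_add, add_mul, mul_pow, ← h2]
    ring

/-- In a Chevalley group of type G₂, B₂, D₄, F₄, E₆, E₇ or E₈, for every character `χ` of the root lattice with values in `Fˣ` the diagonal matrix `ĥ(χ)` (identity on the coroot coordinates, `χ(s)` on the coordinate of `e_s`) conjugates each root element `x_r(t)` to `x_r(χ(r) t)`: `ĥ(χ) x_r(t) ĥ(χ)⁻¹ = x_r(χ(r) t)` as matrices, with `ĥ(χ)⁻¹` written as `ĥ(χ⁻¹)`. -/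
theorem result {F : Type*} [Field F] (D : Cfsg.Lie.ChevalleyDatum) (hD : D ∈ [Cfsg.Lie.chevG2, Cfsg.Lie.chevB2, Cfsg.Lie.chevD4, Cfsg.Lie.chevF4, Cfsg.Lie.chevE6, Cfsg.Lie.chevE7, Cfsg.Lie.chevE8]) (χ : ℕ → Fˣ) (hχ : D.IsRootCharacter χ) (r : ℕ) (hr : r < D.nroots) (t : F) :
    D.charDiag F χ * D.x F r t * D.charDiag F (fun s => (χ s)⁻¹) = D.x F r ((χ r : F) * t) := by
  classical
  have hok := chainOK_of_mem hD
  have hu : ∀ s : ℕ, ((χ s : Fˣ) : F) * (((χ s)⁻¹ : Fˣ) : F) = 1 := fun s => by simp
  rw [ChevalleyDatum.x, ChevalleyDatum.x, dif_pos hr, dif_pos hr]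
  ext row col
  simp only [ChevalleyDatum.charDiag, Matrix.diagonal_mul, Matrix.mul_diagonal]
  rcases col with i | s
  · rcases row with i' | u
    · simp [ChevalleyDatum.xMat]
    · simp only [ChevalleyDatum.xMat, Matrix.of_apply, Sum.elim_inl, Sum.elim_inr, mul_one]
      by_cases h : u = ⟨r, hr⟩
      · simp [h]; ring
      · simp [h]
  · rcases row with i' | u
    · simp only [ChevalleyDatum.xMat, Matrix.of_apply, Sum.elim_inl, Sum.elim_inr, one_mul]
      by_cases h1 : s = ⟨r, hr⟩
      · simp [h1]
      · rw [if_neg h1, if_neg h1]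
        by_cases h2 : s.val = D.negIdx.getD r 0
        · rw [if_pos h2, if_pos h2]
          have h3 : χ s.val = (χ r)⁻¹ := by
            rw [h2]; exact hχ.1 r hr
          rw [h3]
          simp; ring
        · rw [if_neg h2, if_neg h2]
          simp
    · simp only [ChevalleyDatum.xMat, Matrix.of_apply, Sum.elim_inl, Sum.elim_inr]
      by_cases h1 : s = ⟨r, hr⟩
      · subst h1
        by_cases h : u = ⟨r, hr⟩
        · subst h
          simp
        · simp [h]
      · rw [if_neg h1, if_neg h1]
        by_cases h2 : s.val = D.negIdx.getD r 0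
        · rw [if_pos h2, if_pos h2]
          have h3 : χ s.val = (χ r)⁻¹ := by
            rw [h2]; exact hχ.1 r hr
          by_cases h4 : u = s
          · subst h4
            simp
          · rw [if_neg h4, if_neg h4]
            by_cases h5 : u = ⟨r, hr⟩
            · subst h5
              simp [h3]
              ring
            · rw [if_neg h5, if_neg h5]
              simp
        · rw [if_neg h2, if_neg h2]
          -- the chain terms
          have hweight : ∀ km ∈ D.chainCoeff r s.val u.val, χ u.val = χ r ^ km.1 * χ s.val :=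
            fun km hkm => chainCoeff_weight hok χ hχ hr km hkm
          have hab : ∀ km ∈ D.chainCoeff r s.val u.val, ((χ u.val : Fˣ) : F) * (((χ s.val)⁻¹ : Fˣ) : F) = ((χ r : Fˣ) : F) ^ km.1 := by
            intro km hkm
            rw [hweight km hkm]
            simp
          have hsum := sum_weight _ _ _ t _ hab
          rw [mul_add, add_mul, hsum]
          congr 1
          by_cases h4 : u = s
          · subst h4
            simp
          · simp [h4]

end Cfsg.Agent.S2157
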