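import Cfsg.Statements.S2160
import Mathlib
import Cfsg.Agent.Lib.Chev.All3
import Cfsg.Agent.Lib.ChevAut.DiagMem

set_option autoImplicit false
open Cfsg

namespace Cfsg.Agent.S2160

/-- In a Chevalley group of type G₂, B₂, D₄, F₄, E₆, E₇ or E₈ over a finite field, every field automorphism commutes with every graph automorphism. -/
theorem result {F : Type*} [Field F] [Finite F] (D : Cfsg.Lie.ChevalleyDatum) (hD : D ∈ [Cfsg.Lie.chevG2, Cfsg.Lie.chevB2, Cfsg.Lie.chevD4, Cfsg.Lie.chevF4, Cfsg.Lie.chevE6, Cfsg.Lie.chevE7, Cfsg.Lie.chevE8]) (f g : ↥(D.group F) ≃* ↥(D.group F))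
    (hf : D.IsFieldAut f) (hg : D.IsGraphAut g) (y : ↥(D.group F)) : f (g y) = g (f y) := by
  obtain ⟨T, hT⟩ := Cfsg.Agent.Lib.Chev.exists_good3 hD
  obtain ⟨σ, hσ⟩ := hf
  obtain ⟨π, -, hπ⟩ := hg
  have hG := hT.toGood2
  have hfx : ∀ {r : ℕ}, r < D.nroots → ∀ t : F, f (hG.xT r t) = hG.xT r (σ t) := fun {r} hr t =>
    hG.eq_xT (hσ _ r t hr (hG.xT_coe r t))
  have key := hG.hom_ext (f.toMonoidHom.comp g.toMonoidHom) (g.toMonoidHom.comp f.toMonoidHom) ?_ ?_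
  · exact DFunLike.congr_fun key y
  · intro i t
    show f (g _) = g (f _)
    rw [hfx (hG.simple_lt i.2), hG.eq_xT ((hπ _ i t).1 (hG.xT_coe _ t)), hG.eq_xT ((hπ _ i (σ t)).1 (hG.xT_coe _ _)),
      hfx (hG.simple_lt (π i).2), map_pow]
  · intro i t
    show f (g _) = g (f _)
    rw [hfx (hG.neg_lt (hG.simple_lt i.2)), hG.eq_xT ((hπ _ i t).2 (hG.xT_coe _ t)),
      hG.eq_xT ((hπ _ i (σ t)).2 (hG.xT_coe _ _)), hfx (hG.neg_lt (hG.simple_lt (π i).2)), map_pow]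

end Cfsg.Agent.S2160
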