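import Cfsg.Statements.S2298
import Mathlib
import Cfsg.Agent.Lib.KS2.GLTable

set_option autoImplicit false
open Cfsg

namespace Cfsg.Agent.S2298

open Cfsg.Agent.Lib.KS2.RK Matrix
open scoped MatrixGroups

/-- Over a finite field F with q elements, every irreducible complex character of GL₂ has degree 1, q − 1, q or q + 1; and when q ≥ 3 (so that these four numbers are distinct) there are exactly q − 1 irreducible characters of degree 1, exactly q − 1 of degree q, exactly (q − 1)(q − 2)/2 of degree q + 1 and exactly q(q − 1)/2 of degree q − 1. -/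
theorem result {F : Type*} [Field F] [Fintype F] :
    (∀ χ : Matrix.GeneralLinearGroup (Fin 2) F → ℂ, Cfsg.IsIrrCharacter (Matrix.GeneralLinearGroup (Fin 2) F) χ →
      χ 1 = 1 ∨ χ 1 = (Fintype.card F : ℂ) - 1 ∨ χ 1 = (Fintype.card F : ℂ) ∨ χ 1 = (Fintype.card F : ℂ) + 1) ∧
    (3 ≤ Fintype.card F →
      Nat.card {χ : Cfsg.IrrCharacter (Matrix.GeneralLinearGroup (Fin 2) F) // (χ : Matrix.GeneralLinearGroup (Fin 2) F → ℂ) 1 = 1} = Fintype.card F - 1 ∧
      Nat.card {χ : Cfsg.IrrCharacter (Matrix.GeneralLinearGroup (Fin 2) F) // (χ : Matrix.GeneralLinearGroup (Fin 2) F → ℂ) 1 = (Fintype.card F : ℂ)} = Fintype.card F - 1 ∧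
      Nat.card {χ : Cfsg.IrrCharacter (Matrix.GeneralLinearGroup (Fin 2) F) // (χ : Matrix.GeneralLinearGroup (Fin 2) F → ℂ) 1 = (Fintype.card F : ℂ) + 1} = (Fintype.card F - 1) * (Fintype.card F - 2) / 2 ∧
      Nat.card {χ : Cfsg.IrrCharacter (Matrix.GeneralLinearGroup (Fin 2) F) // (χ : Matrix.GeneralLinearGroup (Fin 2) F → ℂ) 1 = (Fintype.card F : ℂ) - 1} = Fintype.card F * (Fintype.card F - 1) / 2) := by
  classical
  letI : Fintype (GL (Fin 2) F) := Fintype.ofFinite _
  constructor
  · intro χ hχ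
    rcases gl_classify ⟨χ, hχ⟩ with ⟨a, ha⟩ | ⟨a, ha⟩ | ⟨a, ha⟩ | ⟨a, ha⟩
    · left
      have := (glCx F).deg_E1 a
      rw [ha] at this
      exact this
    · right; right; left
      have := (glCx F).deg_E2 a
      rw [ha] at this
      exact this
    · right; right; right
      have := (glCx F).deg_E3 a
      rw [ha] at this
      exact this
    · right; left
      have := (glCx F).deg_E4 a
      rw [ha] at this
      exact this
  · intro h3
    have hdeg1 : ∀ a, ((glCx F).E1 a : GL (Fin 2) F → ℂ) 1 = 1 := (glCx F).deg_E1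
    have hdeg2 : ∀ a, ((glCx F).E2 a : GL (Fin 2) F → ℂ) 1 = (Fintype.card F : ℂ) := (glCx F).deg_E2
    have hdeg3 : ∀ a, ((glCx F).E3 a : GL (Fin 2) F → ℂ) 1 = (Fintype.card F : ℂ) + 1 := (glCx F).deg_E3
    have hdeg4 : ∀ a, ((glCx F).E4 a : GL (Fin 2) F → ℂ) 1 = (Fintype.card F : ℂ) - 1 := (glCx F).deg_E4
    refine ⟨?_, ?_, ?_, ?_⟩
    · rw [card_subtype_eq_ncard _ (Set.range (glCx F).E1), gl_ncard_E1]
      intro χ
      constructor
      · intro h
        rcases gl_classify χ with ha | ⟨a, rfl⟩ | ⟨a, rfl⟩ | ⟨a, rfl⟩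
        · exact ha
        · rw [hdeg2] at h
          exact absurd h.symm (one_ne_q)
        · rw [hdeg3] at h
          exact absurd h.symm (one_ne_succ)
        · rw [hdeg4] at h
          exact absurd h.symm (one_ne_pred h3)
      · rintro ⟨a, rfl⟩
        exact hdeg1 a
    · rw [card_subtype_eq_ncard _ (Set.range (glCx F).E2), gl_ncard_E2]
      intro χ
      constructor
      · intro h
        rcases gl_classify χ with ⟨a, rfl⟩ | ha | ⟨a, rfl⟩ | ⟨a, rfl⟩
        · rw [hdeg1] at h
          exact absurd h (one_ne_q)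
        · exact ha
        · rw [hdeg3] at h
          exact absurd h.symm (q_ne_succ)
        · rw [hdeg4] at h
          exact absurd h.symm (q_ne_pred)
      · rintro ⟨a, rfl⟩
        exact hdeg2 a
    · rw [card_subtype_eq_ncard _ (Set.range (glCx F).E3), gl_ncard_E3]
      intro χ
      constructor
      · intro h
        rcases gl_classify χ with ⟨a, rfl⟩ | ⟨a, rfl⟩ | ha | ⟨a, rfl⟩
        · rw [hdeg1] at h
          exact absurd h (one_ne_succ)
        · rw [hdeg2] at h
          exact absurd h (q_ne_succ)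
        · exact ha
        · rw [hdeg4] at h
          exact absurd h.symm (succ_ne_pred)
      · rintro ⟨a, rfl⟩
        exact hdeg3 a
    · rw [card_subtype_eq_ncard _ (Set.range (glCx F).E4), gl_ncard_E4]
      intro χ
      constructor
      · intro h
        rcases gl_classify χ with ⟨a, rfl⟩ | ⟨a, rfl⟩ | ⟨a, rfl⟩ | ha
        · rw [hdeg1] at h
          exact absurd h (one_ne_pred h3)
        · rw [hdeg2] at h
          exact absurd h (q_ne_pred)
        · rw [hdeg3] at h
          exact absurd h (succ_ne_pred)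
        · exact ha
      · rintro ⟨a, rfl⟩
        exact hdeg4 a

end Cfsg.Agent.S2298
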