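import Cfsg.Statements.S2299
import Mathlib
import Cfsg.Agent.Lib.KS2.SLOdd

set_option autoImplicit false
open Cfsg

namespace Cfsg.Agent.S2299

open Cfsg.Agent.Lib.KS2.RK Matrix
open scoped MatrixGroups

/-- Over a finite field F with q elements, q odd, every irreducible complex character of SL₂ has degree 1, q, q + 1, q − 1, (q + 1)/2 or (q − 1)/2; and when q ≥ 5 (so that these six numbers are distinct) there are exactly one irreducible character of degree 1, one of degree q, (q − 3)/2 of degree q + 1, (q − 1)/2 of degree q − 1, two of degree (q + 1)/2 and two of degree (q − 1)/2. -/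
theorem result {F : Type*} [Field F] [Fintype F] (hodd : Odd (Fintype.card F)) :
    (∀ χ : Matrix.SpecialLinearGroup (Fin 2) F → ℂ, Cfsg.IsIrrCharacter (Matrix.SpecialLinearGroup (Fin 2) F) χ →
      χ 1 = 1 ∨ χ 1 = (Fintype.card F : ℂ) ∨ χ 1 = (Fintype.card F : ℂ) + 1 ∨ χ 1 = (Fintype.card F : ℂ) - 1 ∨
        χ 1 = (((Fintype.card F + 1) / 2 : ℕ) : ℂ) ∨ χ 1 = (((Fintype.card F - 1) / 2 : ℕ) : ℂ)) ∧
    (5 ≤ Fintype.card F →
      Nat.card {χ : Cfsg.IrrCharacter (Matrix.SpecialLinearGroup (Fin 2) F) // (χ : Matrix.SpecialLinearGroup (Fin 2) F → ℂ) 1 = 1} = 1 ∧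
      Nat.card {χ : Cfsg.IrrCharacter (Matrix.SpecialLinearGroup (Fin 2) F) // (χ : Matrix.SpecialLinearGroup (Fin 2) F → ℂ) 1 = (Fintype.card F : ℂ)} = 1 ∧
      Nat.card {χ : Cfsg.IrrCharacter (Matrix.SpecialLinearGroup (Fin 2) F) // (χ : Matrix.SpecialLinearGroup (Fin 2) F → ℂ) 1 = (Fintype.card F : ℂ) + 1} = (Fintype.card F - 3) / 2 ∧
      Nat.card {χ : Cfsg.IrrCharacter (Matrix.SpecialLinearGroup (Fin 2) F) // (χ : Matrix.SpecialLinearGroup (Fin 2) F → ℂ) 1 = (Fintype.card F : ℂ) - 1} = (Fintype.card F - 1) / 2 ∧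
      Nat.card {χ : Cfsg.IrrCharacter (Matrix.SpecialLinearGroup (Fin 2) F) // (χ : Matrix.SpecialLinearGroup (Fin 2) F → ℂ) 1 = (((Fintype.card F + 1) / 2 : ℕ) : ℂ)} = 2 ∧
      Nat.card {χ : Cfsg.IrrCharacter (Matrix.SpecialLinearGroup (Fin 2) F) // (χ : Matrix.SpecialLinearGroup (Fin 2) F → ℂ) 1 = (((Fintype.card F - 1) / 2 : ℕ) : ℂ)} = 2) := by
  classical
  letI : Fintype (SL(2, F)) := Fintype.ofFinite _
  have h2 : (2 : F) ≠ 0 := Cfsg.Agent.Lib.KS2.SL2.two_ne_zero_of_odd hodd
  obtain ⟨P⟩ := exists_oddPack (F := F) h2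
  have hq3 := sl_q_three h2
  have hq1 := sl_q_odd h2
  constructor
  · intro χ hχ
    rcases P.hclass ⟨χ, hχ⟩ with ⟨a, ha⟩ | ⟨a, ha⟩ | ⟨a, ha⟩ | ⟨a, ha⟩ | ha | ha | ha | ha
    · left
      have := (slCx F).deg_E1 a
      rw [ha] at this
      exact this
    · right; left
      have := (slCx F).deg_E2 a
      rw [ha] at this
      exact this
    · right; right; left
      have := (slCx F).deg_E3 a
      rw [ha] at this
      exact this
    · right; right; right; left
      have := (slCx F).deg_E4 a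
      rw [ha] at this
      exact this
    · right; right; right; right; left
      have := P.dξ₁
      rw [← ha] at this
      exact this
    · right; right; right; right; left
      have := P.dξ₂
      rw [← ha] at this
      exact this
    · right; right; right; right; right
      have := P.dη₁
      rw [← ha] at this
      exact this
    · right; right; right; right; right
      have := P.dη₂
      rw [← ha] at this
      exact this
  · intro hq5
    set q := Fintype.card F with hq
    let A : Fin 6 → Set (Cfsg.IrrCharacter SL(2, F)) := ![Set.range (slCx F).E1, Set.range (slCx F).E2,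
      Set.range (slCx F).E3, Set.range (slCx F).E4, {P.ξ₁, P.ξ₂}, {P.η₁, P.η₂}]
    let d : Fin 6 → ℕ := ![1, q, q + 1, q - 1, (q + 1) / 2, (q - 1) / 2]
    have hcover : ∀ χ : Cfsg.IrrCharacter SL(2, F), ∃ i, χ ∈ A i := by
      intro χ
      rcases P.hclass χ with h | h | h | h | h | h | h | h
      · exact ⟨0, h⟩
      · exact ⟨1, h⟩
      · exact ⟨2, h⟩
      · exact ⟨3, h⟩
      · exact ⟨4, Or.inl h⟩
      · exact ⟨4, Or.inr h⟩
      · exact ⟨5, Or.inl h⟩
      · exact ⟨5, Or.inr h⟩
    have hdeg : ∀ i, ∀ χ ∈ A i, (χ : SL(2, F) → ℂ) 1 = (d i : ℂ) := by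
      intro i χ hχ
      fin_cases i
      · obtain ⟨a, rfl⟩ := hχ
        simpa [d] using (slCx F).deg_E1 a
      · obtain ⟨a, rfl⟩ := hχ
        simpa [d] using (slCx F).deg_E2 a
      · obtain ⟨a, rfl⟩ := hχ
        simpa [d] using (slCx F).deg_E3 a
      · obtain ⟨a, rfl⟩ := hχ
        have := (slCx F).deg_E4 a
        rw [this]
        show _ = ((q - 1 : ℕ) : ℂ)
        rw [hq, Cx.qsub_cast]
      · rcases hχ with rfl | rfl
        · exact P.dξ₁
        · exact P.dξ₂
      · rcases hχ with rfl | rfl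
        · exact P.dη₁
        · exact P.dη₂
    have hinj : Function.Injective d := by
      intro i j h
      fin_cases i <;> fin_cases j <;> simp [d] at h ⊢ <;> omega
    have key : ∀ i, Nat.card {χ : Cfsg.IrrCharacter SL(2, F) // (χ : SL(2, F) → ℂ) 1 = (d i : ℂ)} = (A i).ncard := by
      intro i
      exact card_subtype_eq_ncard _ _ (fun χ => deg_set_eq A (fun χ : Cfsg.IrrCharacter SL(2, F) => (χ : SL(2, F) → ℂ) 1) d hcover hdeg hinj i χ)
    have k0 := key 0
    have k1 := key 1
    have k2 := key 2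
    have k3 := key 3
    have k4 := key 4
    have k5 := key 5
    have e3 : ((q - 1 : ℕ) : ℂ) = (q : ℂ) - 1 := by rw [hq, Cx.qsub_cast]
    refine ⟨?_, ?_, ?_, ?_, ?_, ?_⟩
    · simpa [d, A, sl_ncard_E1] using k0
    · simpa [d, A, sl_ncard_E2] using k1
    · have := sl_ncard_E3_odd (F := F) h2
      simpa [d, A, this] using k2
    · have := sl_ncard_E4_odd (F := F) h2
      have h5 : (A 3).ncard = (q - 1) / 2 := this
      have e : (d 3 : ℂ) = (q : ℂ) - 1 := e3
      rw [e] at k3
      exact k3.trans h5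
    · have h5 : (A 4).ncard = 2 := Set.ncard_pair P.hξ
      exact k4.trans h5
    · have h5 : (A 5).ncard = 2 := Set.ncard_pair P.hη
      exact k5.trans h5

end Cfsg.Agent.S2299
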