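import Cfsg.Statements.S2300
import Mathlib
import Cfsg.Agent.Lib.KS2.SLTable

set_option autoImplicit false
open Cfsg

namespace Cfsg.Agent.S2300

open Cfsg.Agent.Lib.KS2.RK Matrix
open scoped MatrixGroups

/-- Over a finite field F with q elements, q even, every irreducible complex character of SL₂ has degree 1, q − 1, q or q + 1; and when q ≥ 4 (so that these four numbers are distinct) there are exactly one irreducible character of degree 1, one of degree q, (q − 2)/2 of degree q + 1 and q/2 of degree q − 1. -/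
theorem result {F : Type*} [Field F] [Fintype F] [CharP F 2] :
    (∀ χ : Matrix.SpecialLinearGroup (Fin 2) F → ℂ, Cfsg.IsIrrCharacter (Matrix.SpecialLinearGroup (Fin 2) F) χ →
      χ 1 = 1 ∨ χ 1 = (Fintype.card F : ℂ) - 1 ∨ χ 1 = (Fintype.card F : ℂ) ∨ χ 1 = (Fintype.card F : ℂ) + 1) ∧
    (4 ≤ Fintype.card F →
      Nat.card {χ : Cfsg.IrrCharacter (Matrix.SpecialLinearGroup (Fin 2) F) // (χ : Matrix.SpecialLinearGroup (Fin 2) F → ℂ) 1 = 1} = 1 ∧
      Nat.card {χ : Cfsg.IrrCharacter (Matrix.SpecialLinearGroup (Fin 2) F) // (χ : Matrix.SpecialLinearGroup (Fin 2) F → ℂ) 1 = (Fintype.card F : ℂ)} = 1 ∧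
      Nat.card {χ : Cfsg.IrrCharacter (Matrix.SpecialLinearGroup (Fin 2) F) // (χ : Matrix.SpecialLinearGroup (Fin 2) F → ℂ) 1 = (Fintype.card F : ℂ) + 1} = (Fintype.card F - 2) / 2 ∧
      Nat.card {χ : Cfsg.IrrCharacter (Matrix.SpecialLinearGroup (Fin 2) F) // (χ : Matrix.SpecialLinearGroup (Fin 2) F → ℂ) 1 = (Fintype.card F : ℂ) - 1} = Fintype.card F / 2) := by
  classical
  letI : Fintype (SL(2, F)) := Fintype.ofFinite _
  have h2 : (2 : F) = 0 := by
    have := CharP.cast_eq_zero F 2
    exact_mod_cast this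
  constructor
  · intro χ hχ
    rcases sl_classify_even h2 ⟨χ, hχ⟩ with ⟨a, ha⟩ | ⟨a, ha⟩ | ⟨a, ha⟩ | ⟨a, ha⟩
    · left
      have := (slCx F).deg_E1 a
      rw [ha] at this
      exact this
    · right; right; left
      have := (slCx F).deg_E2 a
      rw [ha] at this
      exact this
    · right; right; right
      have := (slCx F).deg_E3 a
      rw [ha] at this
      exact this
    · right; left
      have := (slCx F).deg_E4 a
      rw [ha] at this
      exact this
  · intro h4
    obtain ⟨h5, h6, h7, h8⟩ := (slCx F).counts (sl_classify_even h2) (by omega)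
    refine ⟨?_, ?_, ?_, ?_⟩
    · exact h5.trans sl_ncard_E1
    · exact h6.trans sl_ncard_E2
    · exact h7.trans (sl_ncard_E3_even h2)
    · exact h8.trans (sl_ncard_E4_even h2)

end Cfsg.Agent.S2300
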