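import Cfsg.Statements.S2301
import Mathlib
import Cfsg.Agent.Lib.KS2.SL2Unip

set_option autoImplicit false
open Cfsg

namespace Cfsg.Agent.S2301

/-- Over a finite field with q elements of odd characteristic p, the elements of order p of SL₂ (the non-identity unipotent elements) fall into exactly two conjugacy classes, each of size (q² − 1)/2; two upper unitriangular matrices with non-zero off-diagonal entries b and b′ are conjugate exactly when bb′ is a square. -/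
theorem result {F : Type*} [Field F] [Fintype F] (p : ℕ) [Fact p.Prime] [CharP F p] (hp : p ≠ 2) :
    Nat.card {C : ConjClasses (Matrix.SpecialLinearGroup (Fin 2) F) // ∃ g : Matrix.SpecialLinearGroup (Fin 2) F, orderOf g = p ∧ ConjClasses.mk g = C} = 2 ∧
    (∀ g : Matrix.SpecialLinearGroup (Fin 2) F, orderOf g = p → Nat.card (ConjClasses.mk g).carrier = (Fintype.card F ^ 2 - 1) / 2) ∧
    ∀ g h : Matrix.SpecialLinearGroup (Fin 2) F, (g : Matrix (Fin 2) (Fin 2) F) 0 0 = 1 → (g : Matrix (Fin 2) (Fin 2) F) 1 1 = 1 → (g : Matrix (Fin 2) (Fin 2) F) 1 0 = 0 → (g : Matrix (Fin 2) (Fin 2) F) 0 1 ≠ 0 →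
      (h : Matrix (Fin 2) (Fin 2) F) 0 0 = 1 → (h : Matrix (Fin 2) (Fin 2) F) 1 1 = 1 → (h : Matrix (Fin 2) (Fin 2) F) 1 0 = 0 → (h : Matrix (Fin 2) (Fin 2) F) 0 1 ≠ 0 →
      (IsConj g h ↔ IsSquare ((g : Matrix (Fin 2) (Fin 2) F) 0 1 * (h : Matrix (Fin 2) (Fin 2) F) 0 1)) := by
  classical
  open Cfsg.Agent.Lib.KS2.SL2 in
  have hch : ringChar F = p := ringChar.eq F p
  open Cfsg.Agent.Lib.KS2.SL2 in
  have hch2 : ringChar F ≠ 2 := by rw [hch]; exact hp
  have h2' : (2 : F) ≠ 0 := Ring.two_ne_zero hch2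
  set q := Fintype.card F with hq
  -- any element of order p
  have hord : ∀ g : Matrix.SpecialLinearGroup (Fin 2) F, orderOf g = p →
      ∃ (b : F) (hb : b ≠ 0), IsConj g (Cfsg.Agent.Lib.KS2.SL2.ux (1 : F) b (by ring)) := by
    intro g hg
    have hg1 : g ≠ 1 := by
      rintro rfl
      rw [orderOf_one] at hg
      exact (Fact.out : p.Prime).one_lt.ne hg
    have hgp : g ^ (p ^ 1) = 1 := by rw [pow_one, ← hg]; exact pow_orderOf_eq_one g
    obtain ⟨h1, h2⟩ := Cfsg.Agent.Lib.KS2.SL2.sl2_tr_of_pow g p 1 hgp hg1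
    obtain ⟨b, hb, P, hP⟩ := Cfsg.Agent.Lib.KS2.SL2.exists_conj_ux g h2 (1 : F) (by ring) (by rw [h1]; ring)
    exact ⟨b, hb, isConj_iff.mpr ⟨P, hP⟩⟩
  obtain ⟨s, hs⟩ := FiniteField.exists_nonsquare hch2
  have hs0 : s ≠ 0 := by
    rintro rfl
    exact hs (IsSquare.zero)
  have hχs : quadraticChar F s = -1 := quadraticChar_neg_one_iff_not_isSquare.mpr hs
  have hclass : ∀ b : F, b ≠ 0 → IsSquare b ∨ IsSquare (b * s) := by
    intro b hb
    by_cases h : IsSquare b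
    · exact Or.inl h
    · right
      rw [← quadraticChar_one_iff_isSquare (mul_ne_zero hb hs0), map_mul, hχs,
        quadraticChar_neg_one_iff_not_isSquare.mpr h]
      norm_num
  refine ⟨?_, ?_, ?_⟩
  · -- two classes
    have hset : {C : ConjClasses (Matrix.SpecialLinearGroup (Fin 2) F) | ∃ g : Matrix.SpecialLinearGroup (Fin 2) F, orderOf g = p ∧ ConjClasses.mk g = C} =
        {ConjClasses.mk (Cfsg.Agent.Lib.KS2.SL2.ux (1 : F) 1 (by ring)), ConjClasses.mk (Cfsg.Agent.Lib.KS2.SL2.ux (1 : F) s (by ring))} := by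
      ext C
      simp only [Set.mem_ofPred_eq, Set.mem_insert_iff, Set.mem_singleton_iff]
      constructor
      · rintro ⟨g, hg, rfl⟩
        obtain ⟨b, hb, hc⟩ := hord g hg
        rcases hclass b hb with h | h
        · left
          rw [ConjClasses.mk_eq_mk_iff_isConj]
          refine hc.trans ((Cfsg.Agent.Lib.KS2.SL2.ux_conj_iff 1 b 1 _ hb one_ne_zero).mpr ?_)
          simpa using h
        · right
          rw [ConjClasses.mk_eq_mk_iff_isConj]
          exact hc.trans ((Cfsg.Agent.Lib.KS2.SL2.ux_conj_iff 1 b s _ hb hs0).mpr h)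
      · rintro (rfl | rfl)
        · exact ⟨_, Cfsg.Agent.Lib.KS2.SL2.orderOf_ux_one p 1 one_ne_zero, rfl⟩
        · exact ⟨_, Cfsg.Agent.Lib.KS2.SL2.orderOf_ux_one p s hs0, rfl⟩
    have hne : ConjClasses.mk (Cfsg.Agent.Lib.KS2.SL2.ux (1 : F) 1 (by ring)) ≠ ConjClasses.mk (Cfsg.Agent.Lib.KS2.SL2.ux (1 : F) s (by ring)) := by
      intro h
      rw [ConjClasses.mk_eq_mk_iff_isConj, Cfsg.Agent.Lib.KS2.SL2.ux_conj_iff 1 1 s _ one_ne_zero hs0] at h
      simp only [one_mul] at h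
      exact hs h
    have : Nat.card {C : ConjClasses (Matrix.SpecialLinearGroup (Fin 2) F) // ∃ g : Matrix.SpecialLinearGroup (Fin 2) F, orderOf g = p ∧ ConjClasses.mk g = C} =
        Nat.card ({C : ConjClasses (Matrix.SpecialLinearGroup (Fin 2) F) | ∃ g : Matrix.SpecialLinearGroup (Fin 2) F, orderOf g = p ∧ ConjClasses.mk g = C} : Set _) := rfl
    rw [this, hset, Nat.card_coe_set_eq, Set.ncard_pair hne]
  · intro g hg
    obtain ⟨b, hb, hc⟩ := hord g hg
    have h1 := Cfsg.Agent.Lib.KS2.SL2.card_class_mul_card_centralizer (Cfsg.Agent.Lib.KS2.SL2.ux (1 : F) b (by ring))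
    rw [Cfsg.Agent.Lib.KS2.SL2.card_centralizer_ux _ _ _ hb, Cfsg.Agent.Lib.KS2.SL2.card_roots1_odd hch2,
      Cfsg.Agent.Lib.KS2.SL2.card_SL2, ← hq] at h1
    rw [ConjClasses.mk_eq_mk_iff_isConj.mpr hc]
    have hqpos : 0 < q := Fintype.card_pos
    have h3 : Nat.card (ConjClasses.mk (Cfsg.Agent.Lib.KS2.SL2.ux (1 : F) b (by ring))).carrier * 2 = q ^ 2 - 1 := by
      apply Nat.eq_of_mul_eq_mul_left hqpos
      rw [← h1]; ring
    omega
  · intro g h hg0 hg1 hg2 hg3 hh0 hh1 hh2 hh3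
    rw [Cfsg.Agent.Lib.KS2.SL2.eq_ux_of_entries g hg0 hg1 hg2, Cfsg.Agent.Lib.KS2.SL2.eq_ux_of_entries h hh0 hh1 hh2]
    rw [Cfsg.Agent.Lib.KS2.SL2.ux_conj_iff 1 _ _ _ (by simpa using hg3) (by simpa using hh3)]
    simp

end Cfsg.Agent.S2301
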