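import Cfsg.Statements.S2302
import Mathlib
import Cfsg.Agent.Lib.KS2.SL2Unip

set_option autoImplicit false
open Cfsg

namespace Cfsg.Agent.S2302

/-- Over a finite field with q elements of characteristic 2, the involutions of SL₂ (the non-identity unipotent elements) form a single conjugacy class, of size q² − 1. -/
theorem result {F : Type*} [Field F] [Fintype F] [CharP F 2] (g h : Matrix.SpecialLinearGroup (Fin 2) F) (hg : orderOf g = 2) (hh : orderOf h = 2) :
    IsConj g h ∧ Nat.card (ConjClasses.mk g).carrier = Fintype.card F ^ 2 - 1 := by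
  classical
  have hch2 : ringChar F = 2 := ringChar.eq F 2
  have hord : ∀ g : Matrix.SpecialLinearGroup (Fin 2) F, orderOf g = 2 →
      ∃ (b : F) (hb : b ≠ 0), IsConj g (Cfsg.Agent.Lib.KS2.SL2.ux (1 : F) b (by ring)) := by
    intro g hg
    have hg1 : g ≠ 1 := by
      rintro rfl
      rw [orderOf_one] at hg
      omega
    have hgp : g ^ (2 ^ 1) = 1 := by
      have := pow_orderOf_eq_one g
      rw [hg] at this
      simpa using this
    have : Fact (Nat.Prime 2) := ⟨Nat.prime_two⟩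
    obtain ⟨h1, h2⟩ := Cfsg.Agent.Lib.KS2.SL2.sl2_tr_of_pow g 2 1 hgp hg1
    obtain ⟨b, hb, P, hP⟩ := Cfsg.Agent.Lib.KS2.SL2.exists_conj_ux g h2 (1 : F) (by ring) (by rw [h1]; ring)
    exact ⟨b, hb, isConj_iff.mpr ⟨P, hP⟩⟩
  obtain ⟨b, hb, hc⟩ := hord g hg
  obtain ⟨b', hb', hc'⟩ := hord h hh
  constructor
  · refine hc.trans (IsConj.trans ?_ hc'.symm)
    rw [Cfsg.Agent.Lib.KS2.SL2.ux_conj_iff 1 _ _ _ hb hb']
    exact FiniteField.isSquare_of_char_two hch2 _
  · have h1 := Cfsg.Agent.Lib.KS2.SL2.card_class_mul_card_centralizer (Cfsg.Agent.Lib.KS2.SL2.ux (1 : F) b (by ring))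
    rw [Cfsg.Agent.Lib.KS2.SL2.card_centralizer_ux _ _ _ hb, Cfsg.Agent.Lib.KS2.SL2.card_roots1_two hch2,
      Cfsg.Agent.Lib.KS2.SL2.card_SL2] at h1
    rw [ConjClasses.mk_eq_mk_iff_isConj.mpr hc]
    have hqpos : 0 < Fintype.card F := Fintype.card_pos
    apply Nat.eq_of_mul_eq_mul_left hqpos
    rw [← h1]; ring

end Cfsg.Agent.S2302
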