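import Cfsg.Statements.S2304
import Mathlib
import Cfsg.Agent.Lib.KS2.GLikeInst

set_option autoImplicit false
open Cfsg

namespace Cfsg.Agent.S2304

open Cfsg.Agent.Lib.KS2.RK

/-- The statement's function as `R`. -/
lemma ind_eq {F : Type*} [Field F] [Fintype F] [Fintype (Matrix.GeneralLinearGroup (Fin 2) F)] (α β : MulChar F ℂ) :
    Cfsg.indFun (Cfsg.upperTriangularGL 2 F)
      (fun b => α (((b : Matrix.GeneralLinearGroup (Fin 2) F) : Matrix (Fin 2) (Fin 2) F) 0 0) *
        β (((b : Matrix.GeneralLinearGroup (Fin 2) F) : Matrix (Fin 2) (Fin 2) F) 1 1)) =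
    (glLike F).R (glLab α β) := by
  show Cfsg.indFun (glLike F).H _ = Cfsg.indFun (glLike F).H _
  congr 1
  funext b
  rw [glLab_val]
  exact congrArg₂ (· * ·) (congrArg α ((glLike F).dgHom00 b).symm) (congrArg β ((glLike F).dgHom11 b).symm)


/-- Over a finite field F with q elements, for multiplicative characters α ≠ β of F, the function induced to GL₂ from the linear character b ↦ α(b₁₁) β(b₂₂) of the upper triangular subgroup B is an irreducible character (of degree q + 1). -/
theorem result {F : Type*} [Field F] [Fintype F] [DecidableEq F] (α β : MulChar F ℂ) (hαβ : α ≠ β) :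
    Cfsg.IsIrrCharacter (Matrix.GeneralLinearGroup (Fin 2) F) (Cfsg.indFun (Cfsg.upperTriangularGL 2 F) (fun b => α (((b : Matrix.GeneralLinearGroup (Fin 2) F) : Matrix (Fin 2) (Fin 2) F) 0 0) * β (((b : Matrix.GeneralLinearGroup (Fin 2) F) : Matrix (Fin 2) (Fin 2) F) 1 1))) := by
  rw [ind_eq]
  apply (glLike F).R_irr
  rw [glLab_sg]
  intro h
  rw [glLab_inj] at h
  exact hαβ h.1

end Cfsg.Agent.S2304
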