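import Cfsg.Statements.S2305
import Mathlib
import Cfsg.Agent.Lib.KS2.GLikeInst

set_option autoImplicit false
open Cfsg

namespace Cfsg.Agent.S2305

open Cfsg.Agent.Lib.KS2.RK

/-- The statement's function as `R`. -/
lemma ind_eq {F : Type*} [Field F] [Fintype F] [Fintype (Matrix.GeneralLinearGroup (Fin 2) F)] (α β : MulChar F ℂ) :
    Cfsg.indFun (Cfsg.upperTriangularGL 2 F)
      (fun b => α (((b : Matrix.GeneralLinearGroup (Fin 2) F) : Matrix (Fin 2) (Fin 2) F) 0 0) *
        β (((b : Matrix.GeneralLinearGroup (Fin 2) F) : Matrix (Fin 2) (Fin 2) F) 1 1)) =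
    (glLike F).R (glLab α β) := by
  show Cfsg.indFun (glLike F).H _ = Cfsg.indFun (glLike F).H _
  congr 1
  funext b
  rw [glLab_val]
  exact congrArg₂ (· * ·) (congrArg α ((glLike F).dgHom00 b).symm) (congrArg β ((glLike F).dgHom11 b).symm)


/-- Over a finite field F, for multiplicative characters α, β, α′, β′ of F, the characters of GL₂ induced from the linear characters b ↦ α(b₁₁) β(b₂₂) and b ↦ α′(b₁₁) β′(b₂₂) of the upper triangular subgroup coincide exactly when {α, β} = {α′, β′} as unordered pairs. -/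
theorem result {F : Type*} [Field F] [Fintype F] [DecidableEq F] (α β α' β' : MulChar F ℂ) :
    Cfsg.indFun (Cfsg.upperTriangularGL 2 F) (fun b => α (((b : Matrix.GeneralLinearGroup (Fin 2) F) : Matrix (Fin 2) (Fin 2) F) 0 0) * β (((b : Matrix.GeneralLinearGroup (Fin 2) F) : Matrix (Fin 2) (Fin 2) F) 1 1)) = Cfsg.indFun (Cfsg.upperTriangularGL 2 F) (fun b => α' (((b : Matrix.GeneralLinearGroup (Fin 2) F) : Matrix (Fin 2) (Fin 2) F) 0 0) * β' (((b : Matrix.GeneralLinearGroup (Fin 2) F) : Matrix (Fin 2) (Fin 2) F) 1 1)) ↔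
      (α = α' ∧ β = β') ∨ (α = β' ∧ β = α') := by
  classical
  rw [ind_eq, ind_eq]
  constructor
  · intro h
    have h1 := (glLike F).classInner_R (glLab α β) (glLab α' β')
    rw [← h, (glLike F).classInner_R_self] at h1
    by_cases h2 : glLab α β = glLab α' β'
    · left
      exact (glLab_inj _ _ _ _).mp h2
    · by_cases h3 : glLab α β = (glLab α' β').comp (glLike F).sg
      · right
        rw [glLab_sg, glLab_inj] at h3
        exact h3
      · rw [if_neg h2, if_neg h3] at h1
        exfalso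
        split_ifs at h1 <;> norm_num at h1
  · rintro (⟨rfl, rfl⟩ | ⟨rfl, rfl⟩)
    · rfl
    · rw [← glLab_sg, (glLike F).R_comp_sg]

end Cfsg.Agent.S2305
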