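import Cfsg.Statements.S2306
import Mathlib
import Cfsg.Agent.Lib.KS2.GLikeInst

set_option autoImplicit false
open Cfsg

namespace Cfsg.Agent.S2306

open Cfsg.Agent.Lib.KS2.RK

/-- The statement's function as `R`. -/
lemma ind_eq {F : Type*} [Field F] [Fintype F] [Fintype (Matrix.SpecialLinearGroup (Fin 2) F)] (α : MulChar F ℂ) :
    Cfsg.indFun ((Cfsg.upperTriangularGL 2 F).comap Matrix.SpecialLinearGroup.toGL)
      (fun b => α (((b : Matrix.SpecialLinearGroup (Fin 2) F) : Matrix (Fin 2) (Fin 2) F) 0 0)) =
    (slLike F).R (slLab α) := by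
  show Cfsg.indFun (slLike F).H _ = Cfsg.indFun (slLike F).H _
  congr 1
  funext b
  rw [slLab_val]
  exact congrArg α ((slLike F).dgHom00 b).symm


/-- Over a finite field F, for a multiplicative character α of F, the function induced to SL₂ from the linear character b ↦ α(b₁₁) of the upper triangular subgroup is an irreducible character if and only if α² ≠ 1. -/
theorem result {F : Type*} [Field F] [Fintype F] [DecidableEq F] (α : MulChar F ℂ) :
    Cfsg.IsIrrCharacter (Matrix.SpecialLinearGroup (Fin 2) F) (Cfsg.indFun ((Cfsg.upperTriangularGL 2 F).comap Matrix.SpecialLinearGroup.toGL) (fun b => α (((b : Matrix.SpecialLinearGroup (Fin 2) F) : Matrix (Fin 2) (Fin 2) F) 0 0))) ↔ α ^ 2 ≠ 1 := by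
  classical
  rw [ind_eq]
  constructor
  · intro hi h2
    apply (slLike F).R_not_irr (slLab α) _ hi
    rw [slLab_sg, slLab_inj]
    exact (eq_inv_iff_mul_eq_one.mpr (by rw [← pow_two]; exact h2))
  · intro h2
    apply (slLike F).R_irr
    rw [slLab_sg]
    intro h
    rw [slLab_inj] at h
    apply h2
    rw [pow_two]
    exact eq_inv_iff_mul_eq_one.mp h

end Cfsg.Agent.S2306
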