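import Cfsg.Statements.S2307
import Mathlib
import Cfsg.Agent.Lib.KS2.SLPack

set_option autoImplicit false
open Cfsg

namespace Cfsg.Agent.S2307

open Cfsg.Agent.Lib.KS2 Cfsg.Agent.Lib.KS2.RK Matrix
open scoped MatrixGroups


/-- Over a finite field F with q elements, q odd, let α be the multiplicative character of F of order 2. The character of SL₂ induced from the linear character b ↦ α(b₁₁) of the upper triangular subgroup is the sum of two distinct irreducible characters, each of degree (q + 1)/2, which are conjugate under GL₂: some fixed element of GL₂ conjugates the one into the other. -/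
theorem result {F : Type*} [Field F] [Fintype F] [DecidableEq F] (hodd : Odd (Fintype.card F)) (α : MulChar F ℂ)
    (hα : α ^ 2 = 1) (hα1 : α ≠ 1) :
    ∃ χ₁ χ₂ : Matrix.SpecialLinearGroup (Fin 2) F → ℂ, Cfsg.IsIrrCharacter (Matrix.SpecialLinearGroup (Fin 2) F) χ₁ ∧ Cfsg.IsIrrCharacter (Matrix.SpecialLinearGroup (Fin 2) F) χ₂ ∧ χ₁ ≠ χ₂ ∧
      Cfsg.indFun ((Cfsg.upperTriangularGL 2 F).comap Matrix.SpecialLinearGroup.toGL) (fun b => α (((b : Matrix.SpecialLinearGroup (Fin 2) F) : Matrix (Fin 2) (Fin 2) F) 0 0)) = χ₁ + χ₂ ∧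
      χ₁ 1 = (((Fintype.card F + 1) / 2 : ℕ) : ℂ) ∧ χ₂ 1 = (((Fintype.card F + 1) / 2 : ℕ) : ℂ) ∧
      ∃ x : Matrix.GeneralLinearGroup (Fin 2) F, ∀ g h : Matrix.SpecialLinearGroup (Fin 2) F,
        Matrix.SpecialLinearGroup.toGL h = x * Matrix.SpecialLinearGroup.toGL g * x⁻¹ → χ₂ h = χ₁ g := by
  classical
  have h2 : (2 : F) ≠ 0 := Cfsg.Agent.Lib.KS2.SL2.two_ne_zero_of_odd hodd
  obtain ⟨P⟩ := exists_oddPack (F := F) h2
  obtain ⟨ν₀, hν, h0⟩ := exists_nonsq h2
  refine ⟨P.ξ₂, P.ξ₁, P.ξ₂.2, P.ξ₁.2, ?_, ?_, P.dξ₂, P.dξ₁, x0 ν₀ h0, ?_⟩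
  · intro e
    exact P.hξ (Subtype.ext e).symm
  · have hinv : α⁻¹ = α := by
      have : α * α = 1 := by rw [← pow_two]; exact hα
      exact (eq_inv_of_mul_eq_one_left this).symm
    have hfix : slLab α = (slLab α).comp (slLike F).sg := by
      rw [slLab_sg, hinv]
    have h1 : slLab α ≠ 1 := by
      intro e
      apply hα1
      ext a
      have := congrArg (fun l : (slLike F).D →* ℂˣ => ((l (slDiag a) : ℂˣ) : ℂ)) e
      simpa only [slLab_val, MonoidHom.one_apply, Units.val_one, slDiag00, MulChar.one_apply_coe] using this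
    have h3 : slLab α = P.l₀ := by
      rcases P.hl₀u (slLab α) hfix with h | h
      · exact absurd h h1
      · exact h
    have h4 : Cfsg.indFun ((Cfsg.upperTriangularGL 2 F).comap Matrix.SpecialLinearGroup.toGL)
        (fun b => α (((b : Matrix.SpecialLinearGroup (Fin 2) F) : Matrix (Fin 2) (Fin 2) F) 0 0)) =
        (slLike F).R (slLab α) := by
      show Cfsg.indFun (slLike F).H _ = Cfsg.indFun (slLike F).H _
      congr 1
      funext b
      rw [slLab_val]
      exact congrArg α ((slLike F).dgHom00 b).symm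
    refine Eq.trans h4 ?_
    rw [h3, add_comm]
    exact P.hΨ
  · intro g h he
    rw [eq_cx_of_toGL he]
    exact P.xi_swap h2 hν h0 g

end Cfsg.Agent.S2307
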