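import Cfsg.Statements.S2308
import Mathlib
import Cfsg.Agent.Lib.KS2.GLikeInst

set_option autoImplicit false
open Cfsg

namespace Cfsg.Agent.S2308

open Cfsg.Agent.Lib.KS2.RK Matrix

/-- Values of the permutation character of GL₂ over a finite field F with q elements on the cosets of its upper triangular subgroup (equivalently, the number of lines of F² that an element maps to themselves): q + 1 at a scalar matrix, 2 at a diagonal matrix with two different diagonal entries, 0 at an element with no eigenvector in F², and 1 at an upper triangular matrix with equal diagonal entries and non-zero upper right entry. -/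
theorem result {F : Type*} [Field F] [Fintype F] (g : Matrix.GeneralLinearGroup (Fin 2) F) :
    ((∃ a : F, (g : Matrix (Fin 2) (Fin 2) F) = a • (1 : Matrix (Fin 2) (Fin 2) F)) → Cfsg.fixedPointCharacter (Cfsg.upperTriangularGL 2 F) g = Fintype.card F + 1) ∧
    ((g : Matrix (Fin 2) (Fin 2) F) 0 1 = 0 → (g : Matrix (Fin 2) (Fin 2) F) 1 0 = 0 → (g : Matrix (Fin 2) (Fin 2) F) 0 0 ≠ (g : Matrix (Fin 2) (Fin 2) F) 1 1 →
      Cfsg.fixedPointCharacter (Cfsg.upperTriangularGL 2 F) g = 2) ∧
    ((∀ (c : F) (v : Fin 2 → F), v ≠ 0 → (g : Matrix (Fin 2) (Fin 2) F).mulVec v ≠ c • v) → Cfsg.fixedPointCharacter (Cfsg.upperTriangularGL 2 F) g = 0) ∧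
    ((g : Matrix (Fin 2) (Fin 2) F) 1 0 = 0 → (g : Matrix (Fin 2) (Fin 2) F) 0 0 = (g : Matrix (Fin 2) (Fin 2) F) 1 1 → (g : Matrix (Fin 2) (Fin 2) F) 0 1 ≠ 0 →
      Cfsg.fixedPointCharacter (Cfsg.upperTriangularGL 2 F) g = 1) := by
  classical
  letI : Fintype (GL (Fin 2) F) := Fintype.ofFinite _
  have key : Cfsg.fixedPointCharacter (Cfsg.upperTriangularGL 2 F) g = (glLike F).R 1 g := by
    have h := Cfsg.Agent.Lib.Char.indFun_one_apply_eq_fixedBy (G := GL (Fin 2) F)
      (X := GL (Fin 2) F ⧸ Cfsg.upperTriangularGL 2 F) ((1 : GL (Fin 2) F) : GL (Fin 2) F ⧸ Cfsg.upperTriangularGL 2 F) g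
    rw [MulAction.stabilizer_quotient] at h
    rw [Cfsg.fixedPointCharacter, h]
    simp [GLike.R]
    rfl
  rw [key]
  refine ⟨?_, ?_, ?_, ?_⟩
  · rintro ⟨a, ha⟩
    have h01 : (glLike F).e g 0 1 = 0 := by simp [ha]
    have h10 : (glLike F).e g 1 0 = 0 := by simp [ha]
    have h3 : (glLike F).e g 0 0 = (glLike F).e g 1 1 := by simp [ha]
    rw [(glLike F).R_scalar 1 ((glLike F).mem_H.mpr h10) h3 h01]
    simp
  · intro h01 h10 h3
    rw [(glLike F).R_reg 1 ((glLike F).mem_H.mpr h10) h3]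
    norm_num
  · intro h
    exact (glLike F).R_no_eig 1 (no_eig_conv _ h)
  · intro h10 h3 h01
    rw [(glLike F).R_unip 1 ((glLike F).mem_H.mpr h10) h3 h01]
    simp

end Cfsg.Agent.S2308
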