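import Cfsg.Statements.S2309
import Mathlib
import Cfsg.Agent.Lib.KS2.GLTable

set_option autoImplicit false
open Cfsg

namespace Cfsg.Agent.S2309

open Cfsg.Agent.Lib.KS2.RK Matrix
open scoped MatrixGroups

/-- Over a finite field F with q elements: every irreducible complex character of GL₂ of degree q − 1 vanishes at every diagonal matrix with two distinct entries, and every irreducible complex character of degree q + 1 vanishes at every element with no eigenvector in F². -/
theorem result {F : Type*} [Field F] [Fintype F] (χ : Matrix.GeneralLinearGroup (Fin 2) F → ℂ) (hχ : Cfsg.IsIrrCharacter (Matrix.GeneralLinearGroup (Fin 2) F) χ) (g : Matrix.GeneralLinearGroup (Fin 2) F) :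
    (χ 1 = (Fintype.card F : ℂ) - 1 → (g : Matrix (Fin 2) (Fin 2) F) 0 1 = 0 → (g : Matrix (Fin 2) (Fin 2) F) 1 0 = 0 → (g : Matrix (Fin 2) (Fin 2) F) 0 0 ≠ (g : Matrix (Fin 2) (Fin 2) F) 1 1 → χ g = 0) ∧
    (χ 1 = (Fintype.card F : ℂ) + 1 → (∀ (c : F) (v : Fin 2 → F), v ≠ 0 → (g : Matrix (Fin 2) (Fin 2) F).mulVec v ≠ c • v) → χ g = 0) := by
  classical
  letI : Fintype (GL (Fin 2) F) := Fintype.ofFinite _
  have hq2 : 2 ≤ Fintype.card F := Fintype.one_lt_card
  constructor
  · intro hd h01 h10 h3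
    -- `t`
    have ht : g ∈ (glCx F).D := ⟨h01, h10⟩
    have htz : g ∉ (glCx F).Z := fun h => h3 h.2.2
    rcases gl_classify ⟨χ, hχ⟩ with ⟨a, ha⟩ | ⟨a, ha⟩ | ⟨a, ha⟩ | ⟨a, ha⟩
    · exfalso
      have h1 := (glCx F).deg_E1 a
      rw [ha] at h1
      have hq : Fintype.card F = 2 := by
        have h2 : (1 : ℂ) = (Fintype.card F : ℂ) - 1 := by
          rw [← hd]
          exact h1.symm
        have h3 : (Fintype.card F : ℂ) = 2 := by linear_combination -h2
        exact_mod_cast h3
      have ha0 : (g : Matrix (Fin 2) (Fin 2) F) 0 0 ≠ 0 := (glCx F).e00_ne_of_mem h10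
      have ha1 : (g : Matrix (Fin 2) (Fin 2) F) 1 1 ≠ 0 := (glCx F).e11_ne_of_mem h10
      have hu : ∀ x : F, x ≠ 0 → x = 1 := by
        intro x hx
        have h5 := FiniteField.pow_card_sub_one_eq_one x hx
        rw [hq] at h5
        simpa using h5
      exact h3 ((hu _ ha0).trans (hu _ ha1).symm)
    · exfalso
      have h1 := (glCx F).deg_E2 a
      rw [ha] at h1
      exact q_ne_pred (h1.symm.trans hd)
    · exfalso
      have h1 := (glCx F).deg_E3 a
      rw [ha] at h1
      exact succ_ne_pred (h1.symm.trans hd)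
    · have e : χ = (glCx F).chi ((glCx F).lab a.1) a.1 := (congrArg Subtype.val ha).symm
      rw [e]
      exact (glCx F).chi_diag ⟨g, ht⟩ htz
  · intro hd hne
    rcases gl_classify ⟨χ, hχ⟩ with ⟨a, ha⟩ | ⟨a, ha⟩ | ⟨a, ha⟩ | ⟨a, ha⟩
    · exfalso
      have h1 := (glCx F).deg_E1 a
      rw [ha] at h1
      exact one_ne_succ (h1.symm.trans hd)
    · exfalso
      have h1 := (glCx F).deg_E2 a
      rw [ha] at h1
      exact q_ne_succ (h1.symm.trans hd)
    · have e : χ = (glCx F).R a.1 := (congrArg Subtype.val ha).symm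
      rw [e]
      exact (glCx F).R_no_eig _ (no_eig_conv _ hne)
    · exfalso
      have h1 := (glCx F).deg_E4 a
      rw [ha] at h1
      exact succ_ne_pred (hd.symm.trans h1)

end Cfsg.Agent.S2309
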