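import Cfsg.Statements.S2310
import Mathlib
import Cfsg.Agent.Lib.KS2.GLTable

set_option autoImplicit false
open Cfsg

namespace Cfsg.Agent.S2310

open Cfsg.Agent.Lib.KS2.RK Matrix
open scoped MatrixGroups

/-- Over a finite field F with q ≥ 3 elements, let u be the upper unitriangular matrix of GL₂ with off-diagonal entry 1. An irreducible complex character χ of GL₂ takes at u the value 1 if χ has degree 1 or q + 1, the value −1 if χ has degree q − 1, and the value 0 if χ has degree q. -/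
theorem result {F : Type*} [Field F] [Fintype F] (hq : 3 ≤ Fintype.card F) (χ : Matrix.GeneralLinearGroup (Fin 2) F → ℂ) (hχ : Cfsg.IsIrrCharacter (Matrix.GeneralLinearGroup (Fin 2) F) χ)
    (u : Matrix.GeneralLinearGroup (Fin 2) F) (hu : (u : Matrix (Fin 2) (Fin 2) F) = !![1, 1; 0, 1]) :
    (χ 1 = 1 → χ u = 1) ∧ (χ 1 = (Fintype.card F : ℂ) + 1 → χ u = 1) ∧
    (χ 1 = (Fintype.card F : ℂ) - 1 → χ u = -1) ∧ (χ 1 = (Fintype.card F : ℂ) → χ u = 0) := by
  classical
  letI : Fintype (GL (Fin 2) F) := Fintype.ofFinite _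
  have hu1 : u = (glCx F).u 1 := by
    apply (glCx F).ext' <;> simp [GLike.u00, GLike.u01, GLike.u10, GLike.u11, hu]
  have hc : (1 : F) ≠ 0 := one_ne_zero
  rcases gl_classify ⟨χ, hχ⟩ with ⟨a, ha⟩ | ⟨a, ha⟩ | ⟨a, ha⟩ | ⟨a, ha⟩
  · have e : χ = fun g => ((a.1 g : ℂˣ) : ℂ) := (congrArg Subtype.val ha).symm
    have h1 := (glCx F).deg_E1 a
    rw [ha] at h1
    have h1' : χ 1 = 1 := h1
    refine ⟨fun _ => ?_, fun h => ?_, fun h => ?_, fun h => ?_⟩
    · rw [e, hu1]
      simp [a.2 1]
    · exact absurd (h1'.symm.trans h) one_ne_succ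
    · exact absurd (h1'.symm.trans h) (one_ne_pred hq)
    · exact absurd (h1'.symm.trans h) one_ne_q
  · have e : χ = (glCx F).St a.1 := (congrArg Subtype.val ha).symm
    have h1 := (glCx F).deg_E2 a
    rw [ha] at h1
    have h1' : χ 1 = (Fintype.card F : ℂ) := h1
    refine ⟨fun h => ?_, fun h => ?_, fun h => ?_, fun _ => ?_⟩
    · exact absurd (h1'.symm.trans h).symm one_ne_q
    · exact absurd (h1'.symm.trans h) q_ne_succ
    · exact absurd (h1'.symm.trans h) q_ne_pred
    · rw [e, hu1]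
      exact (glCx F).St_u a.2 hc
  · have e : χ = (glCx F).R a.1 := (congrArg Subtype.val ha).symm
    have h1 := (glCx F).deg_E3 a
    rw [ha] at h1
    have h1' : χ 1 = (Fintype.card F : ℂ) + 1 := h1
    refine ⟨fun _ => ?_, fun _ => ?_, fun h => ?_, fun h => ?_⟩
    · rw [e, hu1]
      exact (glCx F).R_u _ hc
    · rw [e, hu1]
      exact (glCx F).R_u _ hc
    · exact absurd (h1'.symm.trans h) succ_ne_pred
    · exact absurd (h1'.symm.trans h).symm q_ne_succ
  · have e : χ = (glCx F).chi ((glCx F).lab a.1) a.1 := (congrArg Subtype.val ha).symm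
    have h1 := (glCx F).deg_E4 a
    rw [ha] at h1
    have h1' : χ 1 = (Fintype.card F : ℂ) - 1 := h1
    refine ⟨fun h => ?_, fun h => ?_, fun _ => ?_, fun h => ?_⟩
    · exact absurd (h1'.symm.trans h).symm (one_ne_pred hq)
    · exact absurd (h1'.symm.trans h).symm succ_ne_pred
    · rw [e, hu1]
      exact (glCx F).chi_u ((glCx F).lab_comp a.1) hc
    · exact absurd (h1'.symm.trans h).symm q_ne_pred

end Cfsg.Agent.S2310
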