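import Cfsg.Statements.S2328
import Mathlib
import Cfsg.Agent.Lib.BNSt.Chev
import Cfsg.Agent.Lib.BNSt.Order
import Cfsg.Agent.Lib.Char.DefectZero
import Cfsg.Agent.S2311

set_option autoImplicit false
open Cfsg

namespace Cfsg.Agent.S2328

/-- In a Chevalley group of type G₂, B₂, D₄, F₄, E₆, E₇ or E₈ over a finite field of characteristic p, the Steinberg character vanishes at every element whose order is divisible by p (every element that is not semisimple). -/
theorem result {F : Type*} [Field F] [Fintype F] (p : ℕ) [Fact p.Prime] [CharP F p] (D : Cfsg.Lie.ChevalleyDatum) (hD : D ∈ [Cfsg.Lie.chevG2, Cfsg.Lie.chevB2, Cfsg.Lie.chevD4, Cfsg.Lie.chevF4, Cfsg.Lie.chevE6, Cfsg.Lie.chevE7, Cfsg.Lie.chevE8]) (g : ↥(D.group F)) (hg : p ∣ orderOf g) :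
    D.steinbergCharacter F g = 0 := by
  obtain ⟨T, hT⟩ := Cfsg.Agent.Lib.Chev.exists_good3 hD
  have hirr := Cfsg.Agent.S2311.result (F := F) D hD
  have hone := Cfsg.Agent.Lib.BNSt.steinberg_one (F := F) hT
  have hdeg : Cfsg.charDegree (D.steinbergCharacter F) = Fintype.card F ^ (D.nroots / 2) := by
    unfold Cfsg.charDegree
    rw [hone, Nat.card_eq_fintype_card]
    have : ((Fintype.card F : ℂ) ^ (D.nroots / 2)).re = ((Fintype.card F ^ (D.nroots / 2) : ℕ) : ℝ) := by
      rw [← Nat.cast_pow, Complex.natCast_re]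
    rw [this, Nat.floor_natCast]
  exact Cfsg.Agent.Lib.Char.irr_eq_zero_of_full_ppart ⟨_, hirr⟩ p Fact.out
    (by rw [hdeg]; exact Cfsg.Agent.Lib.BNSt.ppart_dvd p hD) hg

end Cfsg.Agent.S2328
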