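import Cfsg.Statements.S2316
import Mathlib
import Cfsg.Agent.Lib.KS2.SpC9

set_option autoImplicit false
open Cfsg

namespace Cfsg.Agent.S2316




/-- Steinberg's count of unipotent elements for the symplectic group: over a finite field with q elements of characteristic p, the number of elements of Sp_{2m} of p-power order is q^(2m²). -/
theorem result {F : Type*} [Field F] [Fintype F] (p : ℕ) [Fact p.Prime] [CharP F p] (m : ℕ) :
    Nat.card {g : ↥(Matrix.symplecticGroup (Fin m) F) // ∃ k : ℕ, orderOf g = p ^ k} = Fintype.card F ^ (2 * m ^ 2) := by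
  exact Cfsg.Agent.Lib.KS2.SpC.card_unip_matrix p m

end Cfsg.Agent.S2316
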