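import Cfsg.Statements.S2318
import Mathlib
import Cfsg.Agent.Lib.BNSt.DefZero
import Cfsg.Agent.S2311

set_option autoImplicit false
open Cfsg

namespace Cfsg.Agent.S2318

/-- In a Chevalley group of type G₂, B₂, D₄, F₄, E₆, E₇ or E₈ over a finite field of characteristic p (for types G₂ and B₂ the field is assumed to have at least 3 elements, so that the group is perfect), the Steinberg character is the only irreducible complex character whose degree is divisible by the full power of p dividing the group order (the only irreducible character of p-defect zero). -/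
theorem result {F : Type*} [Field F] [Fintype F] (p : ℕ) [Fact p.Prime] [CharP F p] (D : Cfsg.Lie.ChevalleyDatum) (hD : D ∈ [Cfsg.Lie.chevG2, Cfsg.Lie.chevB2, Cfsg.Lie.chevD4, Cfsg.Lie.chevF4, Cfsg.Lie.chevE6, Cfsg.Lie.chevE7, Cfsg.Lie.chevE8]) (hq : (D = Cfsg.Lie.chevG2 ∨ D = Cfsg.Lie.chevB2) → 3 ≤ Fintype.card F)
    (χ : ↥(D.group F) → ℂ) (hχ : Cfsg.IsIrrCharacter ↥(D.group F) χ)
    (hdeg : ∃ d : ℕ, χ 1 = (d : ℂ) ∧ p ^ (Nat.card ↥(D.group F)).factorization p ∣ d) :
    χ = D.steinbergCharacter F := by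
  classical
  obtain ⟨T, hT⟩ := Cfsg.Agent.Lib.Chev.exists_good3 hD
  haveI : Fintype ↥(D.group F) := Fintype.ofFinite _
  obtain ⟨d, hd1, hd2⟩ := hdeg
  obtain ⟨n, σ, hσ, rfl⟩ := hχ
  have hn : d = n := by
    have h1 := Representation.char_one σ
    rw [hd1] at h1
    simp only [Module.finrank_fintype_fun_eq_card, Fintype.card_fin] at h1
    exact_mod_cast h1
  subst hn
  by_contra hne
  have hSt := Cfsg.Agent.S2311.result (F := F) D hD
  have h0 := Cfsg.Agent.Lib.Char.classInner_irr_of_ne ⟨_, σ, hσ, rfl⟩ hSt hne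
  exact Cfsg.Agent.Lib.BNSt.classInner_steinberg_ne hT p σ hσ hd2 h0

end Cfsg.Agent.S2318
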