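import Cfsg.Statements.S2320
import Mathlib
import Cfsg.Agent.Lib.KS2.GLTable

set_option autoImplicit false
open Cfsg

namespace Cfsg.Agent.S2320

open Cfsg.Agent.Lib.KS2.RK Matrix
open scoped MatrixGroups

/-- Over a finite field F with q elements, every irreducible complex character of GL₂ of degree q takes a value of absolute value 1 at every diagonal matrix with two different diagonal entries and at every element with no eigenvector in F². -/
theorem result {F : Type*} [Field F] [Fintype F] (χ : Matrix.GeneralLinearGroup (Fin 2) F → ℂ) (hχ : Cfsg.IsIrrCharacter (Matrix.GeneralLinearGroup (Fin 2) F) χ) (hdeg : χ 1 = (Fintype.card F : ℂ)) (g : Matrix.GeneralLinearGroup (Fin 2) F) :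
    ((g : Matrix (Fin 2) (Fin 2) F) 0 1 = 0 → (g : Matrix (Fin 2) (Fin 2) F) 1 0 = 0 → (g : Matrix (Fin 2) (Fin 2) F) 0 0 ≠ (g : Matrix (Fin 2) (Fin 2) F) 1 1 → ‖χ g‖ = 1) ∧
    ((∀ (c : F) (v : Fin 2 → F), v ≠ 0 → (g : Matrix (Fin 2) (Fin 2) F).mulVec v ≠ c • v) → ‖χ g‖ = 1) := by
  classical
  letI : Fintype (GL (Fin 2) F) := Fintype.ofFinite _
  rcases gl_classify ⟨χ, hχ⟩ with ⟨a, ha⟩ | ⟨a, ha⟩ | ⟨a, ha⟩ | ⟨a, ha⟩
  · exfalso
    have h1 := (glCx F).deg_E1 a
    rw [ha] at h1
    exact one_ne_q (h1.symm.trans hdeg)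
  · have e : χ = (glCx F).St a.1 := (congrArg Subtype.val ha).symm
    constructor
    · intro h01 h10 h3
      rw [e]
      have := (glCx F).St_diag (ν := a.1) ⟨g, h01, h10⟩ (fun h => h3 h.2.2)
      rw [this]
      exact hom_val_norm a.1 g
    · intro hne
      rw [e, (glCx F).St_no_eig (no_eig_conv _ hne), norm_neg]
      exact hom_val_norm a.1 g
  · exfalso
    have h1 := (glCx F).deg_E3 a
    rw [ha] at h1
    exact q_ne_succ (hdeg.symm.trans h1)
  · exfalso
    have h1 := (glCx F).deg_E4 a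
    rw [ha] at h1
    exact q_ne_pred (hdeg.symm.trans h1)

end Cfsg.Agent.S2320
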