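import Cfsg.Statements.S2321
import Mathlib
import Cfsg.Agent.Lib.KS2.SLPack

set_option autoImplicit false
open Cfsg

namespace Cfsg.Agent.S2321

open Cfsg.Agent.Lib.KS2 Cfsg.Agent.Lib.KS2.RK Matrix
open scoped MatrixGroups


/-- Over a finite field F with q elements, an irreducible complex character of SL₂ of degree q (the Steinberg character) takes the value 1 at every diagonal matrix whose diagonal entry a has a² ≠ 1, the value −1 at every element with no eigenvector in F², and the value 0 at every upper triangular matrix with equal diagonal entries and non-zero upper right entry. -/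
theorem result {F : Type*} [Field F] [Fintype F] (χ : Matrix.SpecialLinearGroup (Fin 2) F → ℂ) (hχ : Cfsg.IsIrrCharacter (Matrix.SpecialLinearGroup (Fin 2) F) χ) (hdeg : χ 1 = (Fintype.card F : ℂ)) (g : Matrix.SpecialLinearGroup (Fin 2) F) :
    ((g : Matrix (Fin 2) (Fin 2) F) 0 1 = 0 → (g : Matrix (Fin 2) (Fin 2) F) 1 0 = 0 → (g : Matrix (Fin 2) (Fin 2) F) 0 0 ^ 2 ≠ 1 → χ g = 1) ∧
    ((∀ (c : F) (v : Fin 2 → F), v ≠ 0 → (g : Matrix (Fin 2) (Fin 2) F).mulVec v ≠ c • v) → χ g = -1) ∧
    ((g : Matrix (Fin 2) (Fin 2) F) 1 0 = 0 → (g : Matrix (Fin 2) (Fin 2) F) 0 0 = (g : Matrix (Fin 2) (Fin 2) F) 1 1 → (g : Matrix (Fin 2) (Fin 2) F) 0 1 ≠ 0 → χ g = 0) := by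
  classical
  letI : Fintype (SL(2, F)) := Fintype.ofFinite _
  have hcase : ∃ a, (⟨χ, hχ⟩ : IrrCharacter SL(2, F)) = (slCx F).E2 a := by
    by_cases h2 : (2 : F) = 0
    · rcases sl_classify_even h2 ⟨χ, hχ⟩ with ⟨a, ha⟩ | ha | ⟨a, ha⟩ | ⟨a, ha⟩
      · exfalso
        have h1 := (slCx F).deg_E1 a
        rw [ha] at h1
        exact one_ne_q (h1.symm.trans hdeg)
      · obtain ⟨a, ha⟩ := ha
        exact ⟨a, ha.symm⟩
      · exfalso
        have h1 := (slCx F).deg_E3 a
        rw [ha] at h1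
        exact q_ne_succ (hdeg.symm.trans h1)
      · exfalso
        have h1 := (slCx F).deg_E4 a
        rw [ha] at h1
        exact q_ne_pred (hdeg.symm.trans h1)
    · obtain ⟨P⟩ := exists_oddPack (F := F) h2
      have hq1 := sl_q_odd h2
      have hq3 := sl_q_three h2
      have hhalf : ∀ n : ℕ, n ≠ Fintype.card F → (n : ℂ) ≠ (Fintype.card F : ℂ) := fun n hn e =>
        hn (by exact_mod_cast e)
      have hn1 : (Fintype.card F + 1) / 2 ≠ Fintype.card F := by omega
      have hn2 : (Fintype.card F - 1) / 2 ≠ Fintype.card F := by omega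
      rcases P.hclass ⟨χ, hχ⟩ with ⟨a, ha⟩ | ha | ⟨a, ha⟩ | ⟨a, ha⟩ | ha | ha | ha | ha
      · exfalso
        have h1 := (slCx F).deg_E1 a
        rw [ha] at h1
        exact one_ne_q (h1.symm.trans hdeg)
      · obtain ⟨a, ha⟩ := ha
        exact ⟨a, ha.symm⟩
      · exfalso
        have h1 := (slCx F).deg_E3 a
        rw [ha] at h1
        exact q_ne_succ (hdeg.symm.trans h1)
      · exfalso
        have h1 := (slCx F).deg_E4 a
        rw [ha] at h1
        exact q_ne_pred (hdeg.symm.trans h1)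
      · exfalso
        have h1 := P.dξ₁
        rw [← ha] at h1
        exact hhalf _ hn1 (h1.symm.trans hdeg)
      · exfalso
        have h1 := P.dξ₂
        rw [← ha] at h1
        exact hhalf _ hn1 (h1.symm.trans hdeg)
      · exfalso
        have h1 := P.dη₁
        rw [← ha] at h1
        exact hhalf _ hn2 (h1.symm.trans hdeg)
      · exfalso
        have h1 := P.dη₂
        rw [← ha] at h1
        exact hhalf _ hn2 (h1.symm.trans hdeg)
  obtain ⟨a, ha⟩ := hcase
  have e : χ = (slCx F).St a.1 := congrArg Subtype.val ha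
  have hone := nu_eq_one a
  rw [hone] at e
  refine ⟨?_, ?_, ?_⟩
  · intro h01 h10 h3
    rw [e]
    have ht : g ∉ (slCx F).Z := by
      intro hz
      apply h3
      have hd := SL2.det_rel g
      rw [h01, h10] at hd
      have hz3 : (g : Matrix (Fin 2) (Fin 2) F) 0 0 = (g : Matrix (Fin 2) (Fin 2) F) 1 1 := hz.2.2
      rw [← hz3] at hd
      rw [pow_two]
      linear_combination hd
    have := (slCx F).St_diag (ν := 1) ⟨g, h01, h10⟩ ht
    rw [this]
    simp
  · intro hne
    rw [e, (slCx F).St_no_eig (no_eig_conv _ hne)]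
    simp
  · intro h10 h3 h01
    have hd := SL2.det_rel g
    rw [h10, ← h3] at hd
    have hε : (g : Matrix (Fin 2) (Fin 2) F) 0 0 * (g : Matrix (Fin 2) (Fin 2) F) 0 0 = 1 := by
      linear_combination hd
    set ε := (g : Matrix (Fin 2) (Fin 2) F) 0 0 with hεd
    have hg : g = SL2.ux ε (ε * (g : Matrix (Fin 2) (Fin 2) F) 0 1) hε := by
      apply SL2.ext4
      · simp [SL2.ux00, hεd]
      · rw [SL2.ux01, ← mul_assoc, hε, one_mul]
      · rw [SL2.ux10, h10]
      · rw [SL2.ux11, ← h3]
    have hb : ε * (g : Matrix (Fin 2) (Fin 2) F) 0 1 ≠ 0 := by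
      apply mul_ne_zero _ h01
      intro h0
      rw [h0] at hε
      simp at hε
    rw [e, Cx.St_apply, hg, ux_eq_zu, (slCx F).R_zu _ _ hb]
    simp [νD_one]

end Cfsg.Agent.S2321
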