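import Cfsg.Statements.S2322
import Mathlib
import Cfsg.Agent.Lib.KS2.SLValues

set_option autoImplicit false
open Cfsg

namespace Cfsg.Agent.S2322

open Cfsg.Agent.Lib.KS2 Cfsg.Agent.Lib.KS2.RK Matrix
open scoped MatrixGroups


/-- Over a finite field F with q elements, q odd: every irreducible complex character of SL₂ of degree q − 1 or (q − 1)/2 vanishes at every diagonal matrix whose diagonal entry a has a² ≠ 1, and every irreducible complex character of degree q + 1 or (q + 1)/2 vanishes at every element with no eigenvector in F². -/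
theorem result {F : Type*} [Field F] [Fintype F] (hodd : Odd (Fintype.card F)) (χ : Matrix.SpecialLinearGroup (Fin 2) F → ℂ) (hχ : Cfsg.IsIrrCharacter (Matrix.SpecialLinearGroup (Fin 2) F) χ) (g : Matrix.SpecialLinearGroup (Fin 2) F) :
    ((χ 1 = (Fintype.card F : ℂ) - 1 ∨ χ 1 = (((Fintype.card F - 1) / 2 : ℕ) : ℂ)) →
      (g : Matrix (Fin 2) (Fin 2) F) 0 1 = 0 → (g : Matrix (Fin 2) (Fin 2) F) 1 0 = 0 → (g : Matrix (Fin 2) (Fin 2) F) 0 0 ^ 2 ≠ 1 → χ g = 0) ∧
    ((χ 1 = (Fintype.card F : ℂ) + 1 ∨ χ 1 = (((Fintype.card F + 1) / 2 : ℕ) : ℂ)) →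
      (∀ (c : F) (v : Fin 2 → F), v ≠ 0 → (g : Matrix (Fin 2) (Fin 2) F).mulVec v ≠ c • v) → χ g = 0) := by
  classical
  letI : Fintype (SL(2, F)) := Fintype.ofFinite _
  have h2 : (2 : F) ≠ 0 := Cfsg.Agent.Lib.KS2.SL2.two_ne_zero_of_odd hodd
  obtain ⟨P⟩ := exists_oddPack (F := F) h2
  have hq1 := sl_q_odd h2
  have hq3 := sl_q_three h2
  obtain ⟨n, hn, h⟩ := P.cases_deg ⟨χ, hχ⟩
  change χ 1 = _ at hn
  have hE : ∀ a : (slCx F).Q, χ = ((slCx F).E4 a : SL(2, F) → ℂ) → χ = (slCx F).chi ((slCx F).lab a.1) a.1 := fun a h => h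
  constructor
  · intro hd h01 h10 h3
    have hqn : Fintype.card F ≠ 3 := by
      intro h5
      apply h3
      have h0 : (g : Matrix (Fin 2) (Fin 2) F) 0 0 ≠ 0 := by
        intro h0
        have hdet := SL2.det_rel g
        rw [h0, h01] at hdet
        simp at hdet
      have := FiniteField.pow_card_sub_one_eq_one _ h0
      rw [h5] at this
      exact this
    have ht : g ∉ (slCx F).Z := by
      intro hz
      apply h3
      have hd := SL2.det_rel g
      rw [h01, h10] at hd
      have hz3 : (g : Matrix (Fin 2) (Fin 2) F) 0 0 = (g : Matrix (Fin 2) (Fin 2) F) 1 1 := hz.2.2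
      rw [← hz3] at hd
      rw [pow_two]
      linear_combination hd
    have hdiag : ∀ {l : (slCx F).D →* ℂˣ} {θ : (slCx F).T →* ℂˣ}, (slCx F).chi l θ g = 0 := fun {l θ} =>
      (slCx F).chi_diag (l := l) (θ := θ) ⟨g, h01, h10⟩ ht
    have hnt := tr_sq_ne_of_diag h01 h10 h3
    have hval : n = Fintype.card F - 1 ∨ n = (Fintype.card F - 1) / 2 := by
      rcases hd with hd | hd
      · left
        rw [pred_cast, hn] at hd
        exact_mod_cast hd
      · right
        rw [hn] at hd
        exact_mod_cast hd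
    rcases h with h | h | h | h | h | h
    · omega
    · omega
    · omega
    · obtain ⟨_, a, ha⟩ := h
      have e : χ = (slCx F).chi ((slCx F).lab a.1) a.1 := (congrArg Subtype.val ha).symm
      rw [e]
      exact hdiag
    · omega
    · rcases h.2 with h5 | h5
      · have e : χ = P.η₁ := congrArg Subtype.val h5
        rw [e, P.eta₁_half h2 hnt, hdiag]
        simp
      · have e : χ = P.η₂ := congrArg Subtype.val h5
        rw [e, P.eta₂_half h2 hnt, hdiag]
        simp
  · intro hd hne
    have hNE : (slCx F).NE g := no_eig_conv _ hne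
    have hnt := tr_sq_ne_of_NE h2 hNE
    have hval : n = Fintype.card F + 1 ∨ n = (Fintype.card F + 1) / 2 := by
      rcases hd with hd | hd
      · left
        rw [succ_cast, hn] at hd
        exact_mod_cast hd
      · right
        rw [hn] at hd
        exact_mod_cast hd
    rcases h with h | h | h | h | h | h
    · omega
    · omega
    · obtain ⟨_, a, ha⟩ := h
      have e : χ = (slCx F).R a.1 := (congrArg Subtype.val ha).symm
      rw [e]
      exact (slCx F).R_no_eig _ hNE
    · obtain ⟨h6, a, ha⟩ := h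
      have e : χ = (slCx F).chi ((slCx F).lab a.1) a.1 := (congrArg Subtype.val ha).symm
      have h53 : Fintype.card F = 3 := by omega
      obtain ⟨t, ht, -, hv⟩ := chi_of_NE (l := (slCx F).lab a.1) (θ := a.1) hNE
      rw [e, hv]
      have h7 := theta_sq_q3 h53 a.2 h2 t ht
      have h8 : (((a.1 t)⁻¹ : ℂˣ) : ℂ) * ((a.1 t : ℂˣ) : ℂ) = 1 := by
        rw [← Units.val_mul, inv_mul_cancel, Units.val_one]
      have h9 : (((a.1 t)⁻¹ : ℂˣ) : ℂ) = - ((a.1 t : ℂˣ) : ℂ) := by
        have h10 : ((a.1 t : ℂˣ) : ℂ) ≠ 0 := Units.ne_zero _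
        apply mul_right_cancel₀ h10
        rw [h8]
        linear_combination h7
      rw [h9]
      ring
    · rcases h.2 with h5 | h5
      · have e : χ = P.ξ₁ := congrArg Subtype.val h5
        rw [e, P.xi₁_half h2 hnt, (slCx F).R_no_eig _ hNE]
        simp
      · have e : χ = P.ξ₂ := congrArg Subtype.val h5
        rw [e, P.xi₂_half h2 hnt, (slCx F).R_no_eig _ hNE]
        simp
    · omega

end Cfsg.Agent.S2322
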