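import Cfsg.Statements.S2323
import Mathlib
import Cfsg.Agent.Lib.KS2.SLValues

set_option autoImplicit false
open Cfsg

namespace Cfsg.Agent.S2323

open Cfsg.Agent.Lib.KS2 Cfsg.Agent.Lib.KS2.RK Matrix
open scoped MatrixGroups


/-- Over a finite field F with q ≥ 4 elements, let u be the upper unitriangular matrix of SL₂ with off-diagonal entry 1. An irreducible complex character of SL₂ takes at u the value 1 if its degree is q + 1 and the value −1 if its degree is q − 1. -/
theorem result {F : Type*} [Field F] [Fintype F] (hq : 4 ≤ Fintype.card F) (χ : Matrix.SpecialLinearGroup (Fin 2) F → ℂ) (hχ : Cfsg.IsIrrCharacter (Matrix.SpecialLinearGroup (Fin 2) F) χ)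
    (u : Matrix.SpecialLinearGroup (Fin 2) F) (hu : (u : Matrix (Fin 2) (Fin 2) F) = !![1, 1; 0, 1]) :
    (χ 1 = (Fintype.card F : ℂ) + 1 → χ u = 1) ∧ (χ 1 = (Fintype.card F : ℂ) - 1 → χ u = -1) := by
  classical
  letI : Fintype (SL(2, F)) := Fintype.ofFinite _
  have hu' : u = (slCx F).u 1 := by
    apply SL2.ext4
    · rw [slu00, hu]; rfl
    · rw [slu01, hu]; rfl
    · rw [slu10, hu]; rfl
    · rw [slu11, hu]; rfl
  obtain ⟨h3, h4⟩ := deg_succ_pred hq ⟨χ, hχ⟩
  constructor
  · intro hd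
    obtain ⟨a, ha⟩ := h3 hd
    have e : χ = (slCx F).R a.1 := (congrArg Subtype.val ha).symm
    rw [e, hu', (slCx F).R_u _ one_ne_zero]
  · intro hd
    obtain ⟨a, ha⟩ := h4 hd
    have e : χ = (slCx F).chi ((slCx F).lab a.1) a.1 := (congrArg Subtype.val ha).symm
    rw [e, hu', (slCx F).chi_u ((slCx F).lab_comp a.1) one_ne_zero]

end Cfsg.Agent.S2323
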