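import Cfsg.Statements.S2324
import Mathlib
import Cfsg.Agent.Lib.KS2.SLGauss

set_option autoImplicit false
open Cfsg

namespace Cfsg.Agent.S2324

open Cfsg.Agent.Lib.KS2 Cfsg.Agent.Lib.KS2.RK Matrix
open scoped MatrixGroups


/-- Over a finite field F with q elements, q odd and q ≥ 5, let u be the upper unitriangular matrix of SL₂ with off-diagonal entry 1 and let δ = (−1)^((q−1)/2). Every irreducible complex character χ of SL₂ of degree (q + 1)/2 satisfies (2χ(u) − 1)² = δq, and every irreducible complex character χ of degree (q − 1)/2 satisfies (2χ(u) + 1)² = δq; that is, χ(u) = (1 ± √(δq))/2 in the first case and χ(u) = (−1 ± √(δq))/2 in the second. Moreover two different irreducible characters of degree (q + 1)/2 take the two different values (their values at u add up to 1), and likewise for degree (q − 1)/2 (values adding up to −1). -/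
theorem result {F : Type*} [Field F] [Fintype F] (hodd : Odd (Fintype.card F)) (hq : 5 ≤ Fintype.card F)
    (u : Matrix.SpecialLinearGroup (Fin 2) F) (hu : (u : Matrix (Fin 2) (Fin 2) F) = !![1, 1; 0, 1]) :
    (∀ χ : Matrix.SpecialLinearGroup (Fin 2) F → ℂ, Cfsg.IsIrrCharacter (Matrix.SpecialLinearGroup (Fin 2) F) χ → χ 1 = (((Fintype.card F + 1) / 2 : ℕ) : ℂ) → (2 * χ u - 1) ^ 2 = (-1 : ℂ) ^ ((Fintype.card F - 1) / 2) * (Fintype.card F : ℂ)) ∧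
    (∀ χ : Matrix.SpecialLinearGroup (Fin 2) F → ℂ, Cfsg.IsIrrCharacter (Matrix.SpecialLinearGroup (Fin 2) F) χ → χ 1 = (((Fintype.card F - 1) / 2 : ℕ) : ℂ) → (2 * χ u + 1) ^ 2 = (-1 : ℂ) ^ ((Fintype.card F - 1) / 2) * (Fintype.card F : ℂ)) ∧
    (∀ χ₁ χ₂ : Matrix.SpecialLinearGroup (Fin 2) F → ℂ, Cfsg.IsIrrCharacter (Matrix.SpecialLinearGroup (Fin 2) F) χ₁ → Cfsg.IsIrrCharacter (Matrix.SpecialLinearGroup (Fin 2) F) χ₂ → χ₁ ≠ χ₂ →
      χ₁ 1 = (((Fintype.card F + 1) / 2 : ℕ) : ℂ) → χ₂ 1 = (((Fintype.card F + 1) / 2 : ℕ) : ℂ) → χ₁ u + χ₂ u = 1) ∧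
    (∀ χ₁ χ₂ : Matrix.SpecialLinearGroup (Fin 2) F → ℂ, Cfsg.IsIrrCharacter (Matrix.SpecialLinearGroup (Fin 2) F) χ₁ → Cfsg.IsIrrCharacter (Matrix.SpecialLinearGroup (Fin 2) F) χ₂ → χ₁ ≠ χ₂ →
      χ₁ 1 = (((Fintype.card F - 1) / 2 : ℕ) : ℂ) → χ₂ 1 = (((Fintype.card F - 1) / 2 : ℕ) : ℂ) → χ₁ u + χ₂ u = -1) := by
  classical
  letI : Fintype (SL(2, F)) := Fintype.ofFinite _
  have h2 : (2 : F) ≠ 0 := Cfsg.Agent.Lib.KS2.SL2.two_ne_zero_of_odd hodd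
  obtain ⟨P⟩ := exists_oddPack (F := F) h2
  have hu' := u_one_eq hu
  subst hu'
  have hS := P.xi_swapPair h2
  have hT := P.eta_swapPair h2
  have hsumξ : (P.ξ₁ : SL(2, F) → ℂ) ((slCx F).u 1) + (P.ξ₂ : SL(2, F) → ℂ) ((slCx F).u 1) = 1 := by
    rw [← P.R_eq, (slCx F).R_u _ one_ne_zero]
  have hsumη : (P.η₁ : SL(2, F) → ℂ) ((slCx F).u 1) + (P.η₂ : SL(2, F) → ℂ) ((slCx F).u 1) = -1 := by
    rw [← P.chi_eq, (slCx F).chi_u ((slCx F).lab_comp _) one_ne_zero]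
  refine ⟨?_, ?_, ?_, ?_⟩
  · intro χ hχ hd
    rw [← hS.del_sq, del]
    rcases P.deg_half_succ h2 hq ⟨χ, hχ⟩ hd with h | h
    · have e : χ = P.ξ₁ := congrArg Subtype.val h
      rw [e]
      linear_combination (2 * (P.ξ₁ : SL(2, F) → ℂ) ((slCx F).u 1) - 1 + (P.ξ₁ : SL(2, F) → ℂ) ((slCx F).u 1) - (P.ξ₂ : SL(2, F) → ℂ) ((slCx F).u 1)) * hsumξ
    · have e : χ = P.ξ₂ := congrArg Subtype.val h
      rw [e]
      linear_combination (2 * (P.ξ₂ : SL(2, F) → ℂ) ((slCx F).u 1) - 1 - (P.ξ₁ : SL(2, F) → ℂ) ((slCx F).u 1) + (P.ξ₂ : SL(2, F) → ℂ) ((slCx F).u 1)) * hsumξ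
  · intro χ hχ hd
    rw [← hT.del_sq, del]
    rcases P.deg_half_pred h2 hq ⟨χ, hχ⟩ hd with h | h
    · have e : χ = P.η₁ := congrArg Subtype.val h
      rw [e]
      linear_combination (2 * (P.η₁ : SL(2, F) → ℂ) ((slCx F).u 1) + 1 + (P.η₁ : SL(2, F) → ℂ) ((slCx F).u 1) - (P.η₂ : SL(2, F) → ℂ) ((slCx F).u 1)) * hsumη
    · have e : χ = P.η₂ := congrArg Subtype.val h
      rw [e]
      linear_combination (2 * (P.η₂ : SL(2, F) → ℂ) ((slCx F).u 1) + 1 - (P.η₁ : SL(2, F) → ℂ) ((slCx F).u 1) + (P.η₂ : SL(2, F) → ℂ) ((slCx F).u 1)) * hsumη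
  · intro χ₁ χ₂ h₁ h₂ hne d₁ d₂
    have hc1 := P.deg_half_succ h2 hq ⟨χ₁, h₁⟩ d₁
    have hc2 := P.deg_half_succ h2 hq ⟨χ₂, h₂⟩ d₂
    rcases hc1 with a1 | a1 <;> rcases hc2 with a2 | a2
    · exact absurd ((congrArg Subtype.val a1).trans (congrArg Subtype.val a2).symm) hne
    · have e1 : χ₁ = P.ξ₁ := congrArg Subtype.val a1
      have e2 : χ₂ = P.ξ₂ := congrArg Subtype.val a2
      rw [e1, e2]
      exact hsumξ
    · have e1 : χ₁ = P.ξ₂ := congrArg Subtype.val a1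
      have e2 : χ₂ = P.ξ₁ := congrArg Subtype.val a2
      rw [e1, e2, add_comm]
      exact hsumξ
    · exact absurd ((congrArg Subtype.val a1).trans (congrArg Subtype.val a2).symm) hne
  · intro χ₁ χ₂ h₁ h₂ hne d₁ d₂
    have hc1 := P.deg_half_pred h2 hq ⟨χ₁, h₁⟩ d₁
    have hc2 := P.deg_half_pred h2 hq ⟨χ₂, h₂⟩ d₂
    rcases hc1 with a1 | a1 <;> rcases hc2 with a2 | a2
    · exact absurd ((congrArg Subtype.val a1).trans (congrArg Subtype.val a2).symm) hne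
    · have e1 : χ₁ = P.η₁ := congrArg Subtype.val a1
      have e2 : χ₂ = P.η₂ := congrArg Subtype.val a2
      rw [e1, e2]
      exact hsumη
    · have e1 : χ₁ = P.η₂ := congrArg Subtype.val a1
      have e2 : χ₂ = P.η₁ := congrArg Subtype.val a2
      rw [e1, e2, add_comm]
      exact hsumη
    · exact absurd ((congrArg Subtype.val a1).trans (congrArg Subtype.val a2).symm) hne

end Cfsg.Agent.S2324
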