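import Cfsg.Statements.S2329
import Mathlib
import Cfsg.Agent.Lib.KS2.GL2Basic

set_option autoImplicit false
open Cfsg

namespace Cfsg.Agent.S2329

/-- Over a finite field of characteristic p, any two elements of order p of GL₂ are conjugate: there is a single conjugacy class of non-identity unipotent elements. -/
theorem result {F : Type*} [Field F] [Fintype F] (p : ℕ) [Fact p.Prime] [CharP F p] (g h : Matrix.GeneralLinearGroup (Fin 2) F)
    (hg : orderOf g = p) (hh : orderOf h = p) : IsConj g h := by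
  have hp1 := (Fact.out : p.Prime).one_lt
  have hg1 : g ≠ 1 := by
    rintro rfl
    rw [orderOf_one] at hg
    omega
  have hh1 : h ≠ 1 := by
    rintro rfl
    rw [orderOf_one] at hh
    omega
  have hgp : g ^ (p ^ 1) = 1 := by rw [pow_one, ← hg]; exact pow_orderOf_eq_one g
  have hhp : h ^ (p ^ 1) = 1 := by rw [pow_one, ← hh]; exact pow_orderOf_eq_one h
  have h1 := Cfsg.Agent.Lib.KS2.GL2.tr_dt_of_pow g p 1 hgp
  have h2 := Cfsg.Agent.Lib.KS2.GL2.tr_dt_of_pow h p 1 hhp
  exact Cfsg.Agent.Lib.KS2.GL2.isConj_of_tr_dt g h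
    (Cfsg.Agent.Lib.KS2.GL2.not_scalar_of_pow g p 1 hgp hg1)
    (Cfsg.Agent.Lib.KS2.GL2.not_scalar_of_pow h p 1 hhp hh1)
    (h1.1.trans h2.1.symm) (h1.2.trans h2.2.symm)

end Cfsg.Agent.S2329
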