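import Cfsg.Statements.S2363
import Mathlib
import Cfsg.Agent.Lib.OrdBound.Fam

set_option autoImplicit false
open Cfsg

namespace Cfsg.Agent.S2363

/-- Let G be a finite simple group of Lie type in characteristic p and let p^k be the exact power of p dividing the order of G. Then the order of G is less than p^(3k); and unless G is isomorphic to PSL(2, F) for the field F with p^k elements, the cube of the order of G is less than p^(8k) (that is, the order is below p^(8k/3)). -/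
theorem result {G : Type*} [Group G] [Finite G] (p : ℕ) (hp : p.Prime) (hG : Cfsg.IsLieTypeChar p G) :
    Nat.card G < p ^ (3 * (Nat.card G).factorization p) ∧
      ((¬ ∃ (F : Type) (_ : Field F) (_ : Fintype F), Fintype.card F = p ^ (Nat.card G).factorization p ∧
          Nonempty (G ≃* Matrix.ProjectiveSpecialLinearGroup (Fin 2) F)) →
        Nat.card G ^ 3 < p ^ (8 * (Nat.card G).factorization p)) := by
  have key : Cfsg.Agent.Lib.OrdBound.Good p (Nat.card G) ∨
      ∃ (F : Type) (_ : Field F) (_ : Fintype F), Fintype.card F = p ^ (Nat.card G).factorization p ∧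
        Nonempty (G ≃* Matrix.ProjectiveSpecialLinearGroup (Fin 2) F) ∧ Nat.card G < p ^ (3 * (Nat.card G).factorization p) := by
    rcases hG with ⟨F, _, _, _, n, hn, hn2, ⟨e⟩⟩ | ⟨F, _, _, _, m, hm, hm2, ⟨e⟩⟩ | ⟨F, _, _, _, n, q, hq, hn, hn2, ⟨e⟩⟩ |
        ⟨F, _, _, _, m, hm, hodd, ⟨e⟩⟩ | ⟨F, _, _, _, m, hm, ⟨e⟩⟩ | ⟨F, _, _, _, m, a, b, hm, hab, ⟨e⟩⟩ |
        ⟨F, _, _, _, ⟨_, ⟨e⟩⟩ | ⟨e⟩ | ⟨e⟩ | ⟨e⟩ | ⟨e⟩⟩ | ⟨K, _, _, _, q, hq, ⟨hK, ⟨e⟩⟩ | ⟨hK, ⟨e⟩⟩⟩ |
        ⟨rfl, K, _, _, m, hm, hK, ⟨e⟩⟩ | ⟨rfl, K, _, _, m, hm, hK, ⟨e⟩⟩ | ⟨rfl, K, _, _, m, hm, hK, ⟨e⟩⟩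
    · obtain h | h : n = 2 ∨ 3 ≤ n := by omega
      · subst h
        obtain ⟨f, hF, hfac, hlt⟩ := Cfsg.Agent.Lib.OrdBound.psl2_bound (F := F) hp
        have hc : Nat.card G = Nat.card (Matrix.ProjectiveSpecialLinearGroup (Fin 2) F) := Nat.card_congr e.toEquiv
        right
        refine ⟨F, inferInstance, inferInstance, ?_, ⟨e⟩, ?_⟩
        · rw [hc, hfac, hF]
        · rw [hc]
          exact hlt
      · left
        rw [Nat.card_congr e.toEquiv]
        exact Cfsg.Agent.Lib.OrdBound.good_psl hp n h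
    · left
      rw [Nat.card_congr e.toEquiv]
      exact Cfsg.Agent.Lib.OrdBound.good_psp hp m hm
    · left
      rw [Nat.card_congr e.toEquiv]
      exact Cfsg.Agent.Lib.OrdBound.good_psu hp n q hq hn
    · left
      rw [Nat.card_congr e.toEquiv]
      exact Cfsg.Agent.Lib.OrdBound.good_oOdd hp hodd m hm
    · left
      rw [Nat.card_congr e.toEquiv]
      exact Cfsg.Agent.Lib.OrdBound.good_oPlus hp m hm
    · left
      rw [Nat.card_congr e.toEquiv]
      exact Cfsg.Agent.Lib.OrdBound.good_oMinus hp m hm a b hab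
    · left
      rw [Nat.card_congr e.toEquiv]
      exact Cfsg.Agent.Lib.OrdBound.good_G2 hp
    · left
      obtain ⟨e⟩ := e
      rw [Nat.card_congr e.toEquiv]
      exact Cfsg.Agent.Lib.OrdBound.good_F4 hp
    · left
      obtain ⟨e⟩ := e
      rw [Nat.card_congr e.toEquiv]
      exact Cfsg.Agent.Lib.OrdBound.good_E6 hp
    · left
      obtain ⟨e⟩ := e
      rw [Nat.card_congr e.toEquiv]
      exact Cfsg.Agent.Lib.OrdBound.good_E7 hp
    · left
      obtain ⟨e⟩ := e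
      rw [Nat.card_congr e.toEquiv]
      exact Cfsg.Agent.Lib.OrdBound.good_E8 hp
    · left
      rw [Nat.card_congr e.toEquiv]
      exact Cfsg.Agent.Lib.OrdBound.good_2E6 hp q hq hK
    · left
      rw [Nat.card_congr e.toEquiv]
      exact Cfsg.Agent.Lib.OrdBound.good_3D4 hp q hq hK
    · left
      rw [Nat.card_congr e.toEquiv]
      exact Cfsg.Agent.Lib.OrdBound.good_Sz hm hK
    · left
      rw [Nat.card_congr e.toEquiv]
      exact Cfsg.Agent.Lib.OrdBound.good_2F4 hK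
    · left
      rw [Nat.card_congr e.toEquiv]
      exact Cfsg.Agent.Lib.OrdBound.good_2G2 hK
  rcases key with h | ⟨F, i1, i2, h1, h2, h3⟩
  · exact ⟨h.1, fun _ => h.2⟩
  · exact ⟨h3, fun hn => absurd ⟨F, i1, i2, h1, h2⟩ hn⟩

end Cfsg.Agent.S2363
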