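import Cfsg.Statements.S2364
import Mathlib
import Cfsg.Agent.Lib.KS2.PGraphP
import Cfsg.Agent.Lib.Classical.Basic

set_option autoImplicit false
open Cfsg

namespace Cfsg.Agent.S2364




/-- Let F be a finite field of characteristic p, n ≥ 4, and let a, b be commuting elements of PSL(n, F) with a of order p. Then every prime divisor of the order of b divides the order of SL(n − 2, F). -/
theorem result {F : Type*} [Field F] [Fintype F] (p : ℕ) [Fact p.Prime] [CharP F p] (n : ℕ) (hn : 4 ≤ n)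
    (a b : Matrix.ProjectiveSpecialLinearGroup (Fin n) F) (ha : orderOf a = p) (hab : Commute a b) :
    (orderOf b).primeFactors ⊆ (Nat.card (Matrix.SpecialLinearGroup (Fin (n - 2)) F)).primeFactors := by

  classical
  intro s hs
  have hsp := Nat.prime_of_mem_primeFactors hs
  have hsb := Nat.dvd_of_mem_primeFactors hs
  set q := Fintype.card F with hq
  have hq2 : 2 ≤ q := Fintype.one_lt_card
  have hpp : p.Prime := Fact.out
  haveI : Fact s.Prime := ⟨hsp⟩
  obtain ⟨A, hA⟩ := FiniteField.card F p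
  have hq' : q = p ^ (A : ℕ) := hA.2
  have hpq : p ∣ q := by
    rw [hq']; exact dvd_pow_self _ A.ne_zero
  have hpq1 : ¬ p ∣ q - 1 := by
    intro h
    have h1 : p ∣ q - (q - 1) := Nat.dvd_sub hpq h
    have h2 : q - (q - 1) = 1 := by omega
    rw [h2] at h1
    exact hpp.one_lt.ne' (Nat.dvd_one.mp h1)
  obtain ⟨m, rfl⟩ : ∃ m, n = m + 2 := ⟨n - 2, by omega⟩
  have hm : 2 ≤ m := by omega
  change s ∈ (Nat.card (Matrix.SpecialLinearGroup (Fin m) F)).primeFactors
  have hSL0 : Nat.card (Matrix.SpecialLinearGroup (Fin m) F) ≠ 0 := Nat.card_pos.ne'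
  rw [Nat.mem_primeFactors]
  refine ⟨hsp, ?_, hSL0⟩
  have hcard := Cfsg.Agent.Lib.Classical.card_SL (F := F) (q := q) rfl m (by omega)
  rw [Fin.prod_univ_eq_prod_range (fun i => q ^ m - q ^ i) m] at hcard
  set P := ∏ i ∈ Finset.range m, (q ^ m - q ^ i) with hP
  have hfactor : ∀ l, 1 ≤ l → l ≤ m → q ^ l - 1 ∣ P := by
    intro l hl1 hlm
    have hmem : m - l ∈ Finset.range m := Finset.mem_range.mpr (by omega)
    have h1 := Finset.dvd_prod_of_mem (fun i => q ^ m - q ^ i) hmem
    refine Dvd.dvd.trans ?_ h1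
    have h2 : q ^ m - q ^ (m - l) = q ^ (m - l) * (q ^ l - 1) := by
      rw [Nat.mul_sub, mul_one, ← pow_add]
      congr 2
      omega
    simp only [h2]
    exact Dvd.intro_left _ rfl
  have hdvdSL : ∀ t, t.Prime → ¬ t ∣ q - 1 → t ∣ P → t ∣ Nat.card (Matrix.SpecialLinearGroup (Fin m) F) := by
    intro t ht h1 h2
    rw [← hcard] at h2
    exact ((Nat.Prime.dvd_mul ht).mp h2).resolve_left h1
  by_cases hsq : s ∣ q - 1
  · -- `(q - 1) ^ 2` divides `P`
    have h1 : (q - 1) * (q - 1) ∣ P := by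
      obtain ⟨m', rfl⟩ : ∃ m', m = m' + 2 := ⟨m - 2, by omega⟩
      rw [hP, Finset.prod_range_succ', Finset.prod_range_succ']
      simp only [zero_add, pow_zero, pow_one]
      have h2 : q - 1 ∣ q ^ (m' + 2) - 1 := by
        have := Nat.sub_dvd_pow_sub_pow q 1 (m' + 2)
        simpa using this
      have h3 : q - 1 ∣ q ^ (m' + 2) - q := by
        have h4 : q ^ (m' + 2) - q = q * (q ^ (m' + 1) - 1) := by
          rw [Nat.mul_sub, mul_one, pow_succ' q (m' + 1)]
        rw [h4]
        have := Nat.sub_dvd_pow_sub_pow q 1 (m' + 1)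
        exact Dvd.dvd.mul_left (by simpa using this) _
      rw [mul_assoc]
      apply Dvd.dvd.mul_left
      exact mul_dvd_mul h3 h2
    rw [← hcard] at h1
    have h2 : q - 1 ∣ Nat.card (Matrix.SpecialLinearGroup (Fin m) F) :=
      Nat.dvd_of_mul_dvd_mul_left (by omega) h1
    exact hsq.trans h2
  apply hdvdSL s hsp hsq
  by_cases hsp' : s = p
  · subst hsp'
    have h1 : q ∣ P := by
      have hmem : 1 ∈ Finset.range m := Finset.mem_range.mpr (by omega)
      have h2 := Finset.dvd_prod_of_mem (fun i => q ^ m - q ^ i) hmem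
      refine Dvd.dvd.trans ?_ h2
      simp only [pow_one]
      obtain ⟨m', rfl⟩ : ∃ m', m = m' + 1 := ⟨m - 1, by omega⟩
      have h4 : q ^ (m' + 1) - q = q * (q ^ m' - 1) := by
        rw [Nat.mul_sub, mul_one, pow_succ' q m']
      rw [h4]
      exact Dvd.intro _ rfl
    exact hpq.trans h1
  -- the multiplicative order
  set l := orderOf ((q : ℕ) : ZMod s) with hl
  have hsd : ∀ d, s ∣ q ^ d - 1 ↔ l ∣ d := by
    intro d
    rw [hl]
    exact Cfsg.Agent.Lib.KS2.PGraph.prime_dvd_iff hsp (by omega) d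
  have hsnq : ¬ s ∣ q := by
    intro h
    rw [hq'] at h
    exact hsp' ((Nat.prime_dvd_prime_iff_eq hsp hpp).mp (hsp.dvd_of_dvd_pow h))
  have hl0 : l ≠ 0 := by
    intro h0
    have h1 : ((q : ℕ) : ZMod s) ≠ 0 := by
      rw [Ne, ZMod.natCast_eq_zero_iff]
      exact hsnq
    have h2 := ZMod.pow_card_sub_one_eq_one h1
    have h3 := orderOf_dvd_of_pow_eq_one h2
    rw [← hl, h0] at h3
    have h4 := Nat.eq_zero_of_zero_dvd h3
    have := hsp.two_le
    omega
  have hl1 : l ≠ 1 := by
    intro h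
    have h1 : s ∣ q ^ 1 - 1 := (hsd 1).mpr (by rw [h])
    apply hsq
    simpa using h1
  have hsF : (s : F) ≠ 0 := by
    intro h
    exact hsp' ((Nat.prime_dvd_prime_iff_eq hpp hsp).mp ((CharP.cast_eq_zero_iff F p s).mp h)).symm
  -- the elements
  have hb0 : orderOf b ≠ 0 := by
    rw [orderOf_ne_zero_iff]
    exact isOfFinOrder_of_finite b
  have hb'ord : orderOf (b ^ (orderOf b / s)) = s := orderOf_pow_orderOf_div hb0 hsb
  have hab' : Commute a (b ^ (orderOf b / s)) := hab.pow_right _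
  have hbound := Cfsg.Agent.Lib.KS2.PGraphP.plus_two_of_commute (F := F) (l := l) (by omega) hsp hsF (by omega)
    (fun d hd h => Nat.le_of_dvd (by omega) ((hsd d).mp h)) hsq a _ ha hb'ord hab'
  have h1 := hfactor l (by omega) (by omega)
  exact ((hsd l).mpr dvd_rfl).trans h1

end Cfsg.Agent.S2364
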