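import Cfsg.Statements.S2365
import Mathlib
import Cfsg.Agent.S0277
import Cfsg.Agent.Lib.KS2.SUComm2
import Cfsg.Agent.Lib.Known3.PSUOrders

set_option autoImplicit false
open Cfsg

namespace Cfsg.Agent.S2365




open Cfsg.Agent.Lib.Classical Cfsg.Agent.Lib.KS2.SUComm Cfsg.Agent.Lib.Known3.PSUOrders

/-- Lifting an element of prime order coprime to the exponent of the centre. -/
lemma lift_prime {G : Type*} [Group G] {e l : ℕ} (hZ : ∀ z ∈ Subgroup.center G, z ^ e = 1) (hc : Nat.Coprime e l) (hl1 : 1 < l)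
    (x : G) (hx : ((x : G ⧸ Subgroup.center G)) ^ l = 1) :
    ∃ y : G, ((y : G ⧸ Subgroup.center G)) = (x : G ⧸ Subgroup.center G) ∧ y ^ l = 1 := by
  obtain ⟨u, hu⟩ := Nat.exists_mul_mod_eq_one_of_coprime hc hl1
  refine ⟨x ^ (e * u), ?_, ?_⟩
  · rw [QuotientGroup.mk_pow]
    conv_lhs => rw [← Nat.div_add_mod (e * u) l, hu.2, pow_add, pow_mul, hx, one_pow, one_mul, pow_one]
  · have h1 : x ^ l ∈ Subgroup.center G := by
      rw [← QuotientGroup.eq_one_iff, QuotientGroup.mk_pow]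
      exact hx
    have h2 := hZ _ h1
    have h3 : (x ^ (e * u)) ^ l = ((x ^ l) ^ e) ^ u := by
      rw [← pow_mul, ← pow_mul, ← pow_mul]
      congr 1
      ring
    rw [h3, h2, one_pow]

lemma comm_of_lift {G : Type*} [Group G] {e l : ℕ} (hZ : ∀ z ∈ Subgroup.center G, z ^ e = 1) (hc : Nat.Coprime e l)
    (A C : G) (hAl : A ^ l = 1) (hcomm : Commute ((A : G ⧸ Subgroup.center G)) ((C : G ⧸ Subgroup.center G))) :
    A * C = C * A := by
  set w := A * C * A⁻¹ * C⁻¹ with hw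
  have hwc : w ∈ Subgroup.center G := by
    rw [← QuotientGroup.eq_one_iff, hw]
    simp only [QuotientGroup.mk_mul, QuotientGroup.mk_inv]
    rw [hcomm.eq]
    group
  have hw1 : A * C * A⁻¹ = w * C := by
    rw [hw]
    group
  have hpow : ∀ n : ℕ, A ^ n * C * (A ^ n)⁻¹ = w ^ n * C := by
    intro n
    induction n with
    | zero => simp
    | succ n ih =>
      have e1 : A ^ (n + 1) * C * (A ^ (n + 1))⁻¹ = A * (A ^ n * C * (A ^ n)⁻¹) * A⁻¹ := by
        rw [pow_succ']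
        group
      have hcw : ∀ g : G, g * w = w * g := fun g => (Subgroup.mem_center_iff.mp hwc g)
      rw [e1, ih, pow_succ]
      have e2 : A * (w ^ n * C) * A⁻¹ = w ^ n * (A * C * A⁻¹) := by
        have : A * w ^ n = w ^ n * A := ((show Commute A w from hcw A).pow_right n).eq
        rw [← mul_assoc, this]
        group
      rw [e2, hw1]
      group
  have hl := hpow l
  rw [hAl] at hl
  simp only [one_mul, inv_one, mul_one] at hl
  have hwl : w ^ l = 1 := by
    have : w ^ l * C = 1 * C := by rw [← hl, one_mul]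
    exact mul_right_cancel this
  have hwe : w ^ e = 1 := hZ w hwc
  have hw1' : w = 1 := by
    have := pow_gcd_eq_one.mpr ⟨hwe, hwl⟩
    rw [hc.gcd_eq_one, pow_one] at this
    exact this
  have : A * C * A⁻¹ = C := by
    rw [hw1, hw1', one_mul]
  calc A * C = (A * C * A⁻¹) * A := by group
    _ = C * A := by rw [this]

variable {F : Type*} [Field F] [Fintype F] {q : ℕ}

lemma center_pow_su (hF : Fintype.card F = q ^ 2) {n : ℕ} (hn : 1 ≤ n) (g : Cfsg.SU n F q)
    (hg : g ∈ Subgroup.center (Cfsg.SU n F q)) : g ^ (q + 1) = 1 := by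
  obtain ⟨c, hc⟩ := (mem_center_iff hF hn g).mp hg
  have h1 := g.2 (Pi.single ⟨0, hn⟩ 1) (Pi.single ⟨0, hn⟩ 1)
  have h2 : ∀ v : Fin n → F, (g : Matrix.SpecialLinearGroup (Fin n) F).1.mulVec v = c • v := by
    intro v
    have : (g : Matrix.SpecialLinearGroup (Fin n) F).1 = c • (1 : Matrix (Fin n) (Fin n) F) := hc
    rw [this, Matrix.smul_mulVec, Matrix.one_mulVec]
  have h3 : Cfsg.hermForm n F q (c • (Pi.single ⟨0, hn⟩ 1 : Fin n → F)) (c • (Pi.single ⟨0, hn⟩ 1 : Fin n → F))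
      = Cfsg.hermForm n F q (Pi.single ⟨0, hn⟩ 1 : Fin n → F) (Pi.single ⟨0, hn⟩ 1 : Fin n → F) := by
    rw [← h2]
    exact h1
  rw [hermForm_smul_left, hermForm_smul_right] at h3
  have h4 : Cfsg.hermForm n F q (Pi.single ⟨0, hn⟩ 1 : Fin n → F) (Pi.single ⟨0, hn⟩ 1 : Fin n → F) = 1 := by
    rw [hermForm_single_left]
    simp
  rw [h4, mul_one] at h3
  have h5 : c ^ (q + 1) = 1 := by
    rw [pow_succ, mul_comm]
    exact h3
  apply su_ext
  rw [sm_pow, hc, smul_pow, h5, one_smul, one_pow]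
  rfl

lemma dvd_card_SU (hF : Fintype.card F = q ^ 2) {n : ℕ} (hn : 2 ≤ n) {i : ℕ} (hi : i < n) :
    (if Even i then q ^ (i + 1) + 1 else q ^ (i + 1) - 1) ∣ Nat.card (Cfsg.SU n F q) := by
  have hq := one_lt_q hF
  obtain ⟨k, rfl⟩ : ∃ k, n = k + 1 := ⟨n - 1, by omega⟩
  have h1 := Cfsg.Agent.S0277.result hF (k + 1)
  rw [card_GU_eq hF (by omega), Finset.prod_range_succ'] at h1
  have hf0 : (if Even 0 then q ^ (0 + 1) + 1 else q ^ (0 + 1) - 1) = q + 1 := by simp
  rw [hf0] at h1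
  have h2 : Nat.card (Cfsg.SU (k + 1) F q) = q ^ ((k + 1) * (k + 1 - 1) / 2) * ∏ i ∈ Finset.range k, (if Even (i + 1) then q ^ (i + 1 + 1) + 1 else q ^ (i + 1 + 1) - 1) := by
    have : (q + 1) * Nat.card (Cfsg.SU (k + 1) F q) = (q + 1) * (q ^ ((k + 1) * (k + 1 - 1) / 2) * ∏ i ∈ Finset.range k, (if Even (i + 1) then q ^ (i + 1 + 1) + 1 else q ^ (i + 1 + 1) - 1)) := by
      rw [h1]
      ring
    exact Nat.eq_of_mul_eq_mul_left (by omega) this
  have hfac : ∀ j, j < k → (if Even (j + 1) then q ^ (j + 1 + 1) + 1 else q ^ (j + 1 + 1) - 1) ∣ Nat.card (Cfsg.SU (k + 1) F q) := by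
    intro j hj
    rw [h2]
    exact Dvd.dvd.mul_left (Finset.dvd_prod_of_mem (fun i => (if Even (i + 1) then q ^ (i + 1 + 1) + 1 else q ^ (i + 1 + 1) - 1)) (Finset.mem_range.mpr hj)) _
  rcases i with _ | i
  · have := hfac 0 (by omega)
    rw [hf0]
    have e : (if Even (0 + 1) then q ^ (0 + 1 + 1) + 1 else q ^ (0 + 1 + 1) - 1) = q ^ 2 - 1 := by simp
    rw [e] at this
    refine dvd_trans ?_ this
    exact ⟨q - 1, (q_add_one_mul hq).symm⟩
  · exact hfac i (by omega)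

lemma prime_dvd_SU (hF : Fintype.card F = q ^ 2) {n w r : ℕ} (hn : 2 ≤ n) (hw : w ≤ n) (hr : r.Prime) (hrq : ¬ r ∣ q)
    (h : r ∣ Nat.card (Cfsg.GU w F q)) : r ∣ Nat.card (Cfsg.SU n F q) := by
  rw [Cfsg.Agent.S0277.result hF w] at h
  rcases (Nat.Prime.dvd_mul hr).mp h with h | h
  · exact absurd (hr.dvd_of_dvd_pow h) hrq
  · obtain ⟨i, hi, hd⟩ := (Prime.dvd_finsetProd_iff hr.prime _).mp h
    exact dvd_trans hd (dvd_card_SU hF hn (by have := Finset.mem_range.mp hi; omega))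


/-- Let q be a power of the prime p, F the field with q² elements, m ≥ 4, and let a, b be commuting elements of PSU(m, q) with a of order p. Then every prime divisor of the order of b divides the order of SU(m − 2, q). -/
theorem result {F : Type*} [Field F] [Fintype F] (p : ℕ) [Fact p.Prime] [CharP F p] (m q : ℕ) (hm : 4 ≤ m) (hF : Fintype.card F = q ^ 2)
    (a b : Cfsg.PSU m F q) (ha : orderOf a = p) (hab : Commute a b) :
    (orderOf b).primeFactors ⊆ (Nat.card ↥(Cfsg.SU (m - 2) F q)).primeFactors := by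
  classical
  have hq := one_lt_q hF
  have hm1 : 1 ≤ m := by omega
  have hpp := (Fact.out : p.Prime)
  -- `p` divides `q`
  have hpq : p ∣ q := by
    obtain ⟨n, hn⟩ := FiniteField.card F p
    have h1 : p ∣ q ^ 2 := by
      rw [← hF, hn.2]
      exact dvd_pow_self _ n.ne_zero
    exact hpp.dvd_of_dvd_pow h1
  have hZ : ∀ z ∈ Subgroup.center (Cfsg.SU m F q), z ^ (q + 1) = 1 := fun z hz => center_pow_su hF hm1 z hz
  have hm2 : 2 ≤ m - 2 := by omega
  intro r hr0
  rw [Nat.mem_primeFactors] at hr0 ⊢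
  obtain ⟨hr, hrb, hb0⟩ := hr0
  refine ⟨hr, ?_, Nat.card_pos.ne'⟩
  -- easy cases
  by_cases hrp : r = p
  · subst hrp
    have h2 := Cfsg.Agent.S0277.result hF (m - 2)
    rw [card_GU_eq hF (by omega)] at h2
    have hcop1 : Nat.Coprime r (q + 1) := by
      rw [Nat.Prime.coprime_iff_not_dvd hpp]
      intro h
      have h2 : r ∣ 1 := (Nat.dvd_add_right hpq).mp h
      exact hpp.one_lt.ne' (Nat.dvd_one.mp h2)
    apply hcop1.dvd_of_dvd_mul_left
    rw [h2]
    apply Dvd.dvd.mul_right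
    apply dvd_trans hpq
    apply dvd_pow_self
    have h3 : 2 * 1 ≤ (m - 2) * (m - 2 - 1) := Nat.mul_le_mul hm2 (by omega)
    have h4 : 1 ≤ (m - 2) * (m - 2 - 1) / 2 := (Nat.le_div_iff_mul_le (by norm_num)).mpr (by omega)
    omega
  by_cases hrq1 : r ∣ q + 1
  · have h1 := dvd_card_SU hF hm2 (i := 0) (by omega)
    have hf0 : (if Even 0 then q ^ (0 + 1) + 1 else q ^ (0 + 1) - 1) = q + 1 := by simp
    rw [hf0] at h1
    exact dvd_trans hrq1 h1
  have hrq : ¬ r ∣ q := by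
    intro h
    obtain ⟨n, hn⟩ := FiniteField.card F p
    have h1 : r ∣ p ^ (n : ℕ) := by
      rw [← hn.2, hF]
      exact dvd_pow h (by norm_num)
    exact hrp ((Nat.prime_dvd_prime_iff_eq hr hpp).mp (hr.dvd_of_dvd_pow h1))
  -- lifting
  have hcop1 : Nat.Coprime (q + 1) p := by
    rw [Nat.coprime_comm, Nat.Prime.coprime_iff_not_dvd hpp]
    intro h
    have h2 : p ∣ 1 := by
      have := (Nat.dvd_add_right hpq).mp h
      exact this
    exact hpp.one_lt.ne' (Nat.dvd_one.mp h2)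
  have hcop2 : Nat.Coprime (q + 1) r := by
    rw [Nat.coprime_comm, Nat.Prime.coprime_iff_not_dvd hr]
    exact hrq1
  obtain ⟨A₀, rfl⟩ := QuotientGroup.mk_surjective a
  obtain ⟨B₀, rfl⟩ := QuotientGroup.mk_surjective b
  obtain ⟨A, hA, hAp⟩ := lift_prime hZ hcop1 hpp.one_lt A₀ (by rw [← ha]; exact pow_orderOf_eq_one _)
  set c : Cfsg.PSU m F q := ((B₀ : Cfsg.SU m F q) : Cfsg.PSU m F q) ^ (orderOf ((B₀ : Cfsg.SU m F q) : Cfsg.PSU m F q) / r) with hc
  have hcr : orderOf c = r := orderOf_pow_orderOf_div hb0 hrb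
  have hcm : c = ((B₀ ^ (orderOf ((B₀ : Cfsg.SU m F q) : Cfsg.PSU m F q) / r) : Cfsg.SU m F q) : Cfsg.PSU m F q) := by
    rw [hc, QuotientGroup.mk_pow]
  obtain ⟨C, hC, hCr⟩ := lift_prime hZ hcop2 hr.one_lt (B₀ ^ (orderOf ((B₀ : Cfsg.SU m F q) : Cfsg.PSU m F q) / r)) (by
    rw [← hcm, ← hcr]; exact pow_orderOf_eq_one _)
  have hAC : A * C = C * A := by
    apply comm_of_lift hZ hcop1 A C hAp
    rw [hA, hC, ← hcm, hc]
    exact hab.pow_right _
  let Φ := (Matrix.toLinAlgEquiv' : Matrix (Fin m) (Fin m) F ≃ₐ[F] _)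
  have hΦpow : ∀ (g : Cfsg.SU m F q) (k : ℕ), Φ (sm g) ^ k = Φ (sm (g ^ k)) := by
    intro g k
    rw [sm_pow, map_pow]
  have hΦone : ∀ g : Cfsg.SU m F q, Φ (sm g) = 1 → g = 1 := by
    intro g hg
    apply su_ext
    have : sm g = 1 := by
      apply Φ.injective
      rw [hg, map_one]
    rw [this, sm_one]
  have hiso : ∀ (g : Cfsg.SU m F q) (u v : Fin m → F), Cfsg.hermForm m F q (Φ (sm g) u) (Φ (sm g) v) = Cfsg.hermForm m F q u v := by
    intro g u v
    exact g.2 u v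
  obtain ⟨w, hw, hd⟩ := exists_GU hF p hr hrp hm (Φ (sm A)) (Φ (sm C)) (hiso A) (hiso C)
    (by rw [← map_mul, ← map_mul, ← sm_mul, ← sm_mul, hAC])
    (by rw [hΦpow, hAp, sm_one, map_one]) (by rw [hΦpow, hCr, sm_one, map_one])
    (by
      intro h
      have h1 := hΦone A h
      rw [h1] at hA
      rw [← hA] at ha
      have : orderOf ((1 : Cfsg.SU m F q) : Cfsg.PSU m F q) = 1 := by
        rw [QuotientGroup.mk_one, orderOf_one]
      rw [this] at ha
      exact hpp.one_lt.ne ha)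
    (by
      intro h
      have h1 := hΦone C h
      rw [h1] at hC
      rw [← hC] at hcm
      rw [hcm] at hcr
      have : orderOf ((1 : Cfsg.SU m F q) : Cfsg.PSU m F q) = 1 := by
        rw [QuotientGroup.mk_one, orderOf_one]
      rw [this] at hcr
      exact hr.one_lt.ne hcr)
  exact prime_dvd_SU hF hm2 hw hr hrq hd

end Cfsg.Agent.S2365
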