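import Cfsg.Statements.S2367
import Mathlib

set_option autoImplicit false
open Cfsg

namespace Cfsg.Agent.S2367




/-- sum of exponents. -/
def fsum (L : List (ℕ × ℕ)) (p : ℕ) : ℕ := (L.map fun x => if x.1 = p then x.2 else 0).sum

/-- product of prime powers. -/
def pprod (L : List (ℕ × ℕ)) : ℕ := (L.map fun x => x.1 ^ x.2).prod

lemma pprod_ne_zero (L : List (ℕ × ℕ)) (hL : ∀ x ∈ L, x.1.Prime) : pprod L ≠ 0 := by
  induction L with
  | nil => simp [pprod]
  | cons a l ih =>
    simp only [pprod, List.map_cons, List.prod_cons]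
    apply mul_ne_zero
    · exact pow_ne_zero _ (hL a (by simp)).ne_zero
    · exact ih (fun x hx => hL x (by simp [hx]))

lemma fact_pprod (L : List (ℕ × ℕ)) (hL : ∀ x ∈ L, x.1.Prime) (p : ℕ) : (pprod L).factorization p = fsum L p := by
  induction L with
  | nil => simp [pprod, fsum]
  | cons a l ih =>
    have h1 : a.1.Prime := hL a (by simp)
    have h2 : pprod l ≠ 0 := pprod_ne_zero l (fun x hx => hL x (by simp [hx]))
    have h3 : a.1 ^ a.2 ≠ 0 := pow_ne_zero _ h1.ne_zero
    have h4 := ih (fun x hx => hL x (by simp [hx]))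
    show (a.1 ^ a.2 * pprod l).factorization p = (if a.1 = p then a.2 else 0) + fsum l p
    rw [Nat.factorization_mul h3 h2, Finsupp.add_apply, h1.factorization_pow, Finsupp.single_apply, h4]

lemma fsum_of_not_mem (L : List (ℕ × ℕ)) (p : ℕ) (hp : p ∉ L.map Prod.fst) : fsum L p = 0 := by
  induction L with
  | nil => simp [fsum]
  | cons a l ih =>
    simp only [List.map_cons, List.mem_cons, not_or] at hp
    show (if a.1 = p then a.2 else 0) + fsum l p = 0
    rw [if_neg (Ne.symm hp.1), zero_add]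
    exact ih hp.2

/-- the check. -/
def chk (L : List (ℕ × ℕ)) : Bool :=
  (L.all fun x => decide x.1.Prime) && ((L.map Prod.fst).all fun p => decide (p = 2) || decide (fsum L p ≠ 3) || decide (p ^ 3 < 2 ^ fsum L 2))

lemma of_chk (L : List (ℕ × ℕ)) (h : chk L = true) {N : ℕ} (hN : N = pprod L) (p : ℕ) (hodd : p ≠ 2)
    (h3 : N.factorization p = 3) : p ^ 3 < 2 ^ N.factorization 2 := by
  simp only [chk, Bool.and_eq_true, List.all_eq_true, decide_eq_true_eq, Bool.or_eq_true] at h
  obtain ⟨hpr, h2⟩ := h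
  have hprime : ∀ x ∈ L, x.1.Prime := hpr
  subst hN
  rw [fact_pprod L hprime] at h3 ⊢
  by_cases hm : p ∈ L.map Prod.fst
  · rcases h2 p hm with (h4 | h4) | h4
    · exact absurd h4 hodd
    · exact absurd h3 h4
    · exact h4
  · rw [fsum_of_not_mem L p hm] at h3
    omega

lemma card_alt_two (n : ℕ) (hn : 5 ≤ n) : 2 * Nat.card (alternatingGroup (Fin n)) = n.factorial := by
  haveI : Nontrivial (Fin n) := Fin.nontrivial_iff_two_le.mpr (by omega)
  rw [Nat.card_eq_fintype_card, two_mul_card_alternatingGroup, Fintype.card_perm, Fintype.card_fin]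

lemma two_pow_big (m : ℕ) (hm : 15 ≤ m) : 4 * m ^ 4 < 27 * 2 ^ m := by
  induction m, hm using Nat.le_induction with
  | base => norm_num
  | succ m hm ih =>
    have h1 : (m + 1) ^ 4 ≤ 2 * m ^ 4 := by
      have : 15 ≤ m := hm
      nlinarith [sq_nonneg (m ^ 2 : ℕ), pow_pos (show 0 < m by omega) 3, pow_pos (show 0 < m by omega) 2,
        show (m + 1) ^ 4 = m ^ 4 + 4 * m ^ 3 + 6 * m ^ 2 + 4 * m + 1 by ring,
        show m ^ 4 = m * m ^ 3 by ring, show m ^ 3 = m * m ^ 2 by ring, show m ^ 2 = m * m by ring]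
    rw [pow_succ 2 m]
    omega

lemma alt_case (n p : ℕ) (hp : p.Prime) (hodd : p ≠ 2) (N : ℕ) (hN : 2 * N = n.factorial) (h3 : N.factorization p = 3) :
    p ^ 3 < 2 ^ N.factorization 2 := by
  have hN0 : N ≠ 0 := by
    rintro rfl
    have := Nat.factorial_pos n
    omega
  have hfac : ∀ q, n.factorial.factorization q = (2 : ℕ).factorization q + N.factorization q := by
    intro q
    rw [← hN, Nat.factorization_mul (by norm_num) hN0]
    rfl
  have hv2 : n.factorial.factorization 2 = N.factorization 2 + 1 := by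
    rw [hfac 2, Nat.prime_two.factorization_self]
    omega
  have hvp : n.factorial.factorization p = 3 := by
    rw [hfac p, h3, Nat.factorization_eq_zero_of_not_dvd]
    intro h
    exact hodd ((Nat.prime_dvd_prime_iff_eq hp Nat.prime_two).mp h)
  have hdvd : p ^ 3 ∣ n.factorial := by
    rw [hp.pow_dvd_iff_le_factorization (Nat.factorial_ne_zero n), hvp]
  have hndvd : ¬ p ^ 4 ∣ n.factorial := by
    rw [hp.pow_dvd_iff_le_factorization (Nat.factorial_ne_zero n), hvp]
    omega
  have hp3 : 3 ≤ p := by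
    have := hp.two_le
    omega
  by_cases h33 : p = 3
  · subst h33
    exfalso
    by_cases h9 : n < 9
    · apply absurd hdvd
      interval_cases n <;> decide
    · apply hndvd
      exact dvd_trans (by decide) (Nat.factorial_dvd_factorial (not_lt.mp h9))
  have hp5 : 5 ≤ p := by
    rcases (show p = 3 ∨ p = 4 ∨ 5 ≤ p by omega) with h | h | h
    · exact absurd h h33
    · exfalso; subst h; exact absurd hp (by decide)
    · exact h
  have hn3p : 3 * p ≤ n := by
    by_contra hlt
    have hlt' : n < 3 * p := by omega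
    have hnp2 : n < p ^ 2 := by nlinarith
    have hlog : Nat.log p n < 2 := Nat.log_lt_of_lt_pow' (by norm_num) hnp2
    have h4 := (hp.pow_dvd_factorial_iff (r := 3) (n := n) (b := 2) hlog).mp hdvd
    have h5 : ∑ i ∈ Finset.Ico 1 2, n / p ^ i = n / p := by simp
    rw [h5] at h4
    have h6 : n / p < 3 := by
      apply Nat.div_lt_of_lt_mul
      linarith
    omega
  -- 2-part
  set m := 3 * p with hm
  have hm15 : 15 ≤ m := by omega
  have h7 : m.factorial.factorization 2 ≤ n.factorial.factorization 2 :=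
    (Nat.factorization_le_iff_dvd (Nat.factorial_ne_zero _) (Nat.factorial_ne_zero _)).mpr (Nat.factorial_dvd_factorial hn3p) 2
  -- Legendre
  have h8 := sub_one_mul_padicValNat_factorial (p := 2) (n := m)
  have h9 : (Nat.digits 2 m).sum ≤ (Nat.digits 2 m).length := by
    have h10 : ∀ l : List ℕ, (∀ d ∈ l, d < 2) → l.sum ≤ l.length := by
      intro l hl
      induction l with
      | nil => simp
      | cons a t ih =>
        simp only [List.sum_cons, List.length_cons]
        have h11 := hl a (by simp)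
        have h12 := ih (fun d hd => hl d (by simp [hd]))
        omega
    exact h10 _ (fun d hd => Nat.digits_lt_base (by norm_num) hd)
  have h10 : (Nat.digits 2 m).length = Nat.log 2 m + 1 := Nat.length_digits 2 m (by norm_num) (by omega)
  have h11 : 2 ^ Nat.log 2 m ≤ m := Nat.pow_log_le_self 2 (by omega)
  have hv : m.factorial.factorization 2 = padicValNat 2 m.factorial := by
    rw [Nat.factorization_def _ Nat.prime_two]
  rw [hv] at h7
  have h12 : m ≤ padicValNat 2 m.factorial + Nat.log 2 m + 1 := by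
    simp only [Nat.add_one_sub_one, one_mul] at h8
    omega
  have h13 : N.factorization 2 + Nat.log 2 m + 2 ≥ m := by omega
  have h14 : 2 ^ m ≤ 2 ^ N.factorization 2 * (4 * m) := by
    calc 2 ^ m ≤ 2 ^ (N.factorization 2 + Nat.log 2 m + 2) := Nat.pow_le_pow_right (by norm_num) h13
      _ = 2 ^ N.factorization 2 * 2 ^ Nat.log 2 m * 4 := by rw [pow_add, pow_add]; norm_num
      _ ≤ 2 ^ N.factorization 2 * m * 4 := by gcongr
      _ = _ := by ring
  have h15 := two_pow_big m hm15
  -- `p^3 < 2^v`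
  by_contra hcon
  have h16 : 2 ^ N.factorization 2 ≤ p ^ 3 := by omega
  have h17 : 27 * 2 ^ m ≤ 27 * (p ^ 3 * (4 * m)) := by
    have : 2 ^ N.factorization 2 * (4 * m) ≤ p ^ 3 * (4 * m) := Nat.mul_le_mul_right _ h16
    omega
  have h18 : 27 * (p ^ 3 * (4 * m)) = 4 * m ^ 4 := by
    rw [hm]; ring
  omega


/-- Let G be an alternating group of degree at least 5 or a simple group with the order of one of the 26 sporadic groups, and let p be an odd prime such that p³ is the exact power of p dividing the order of G. Then p³ is less than the 2-part of the order of G. -/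
theorem result {G : Type*} [Group G] [Finite G] (hG : Cfsg.IsAlternating G ∨ Cfsg.IsSporadic G)
    (p : ℕ) (hp : p.Prime) (hodd : p ≠ 2) (h3 : (Nat.card G).factorization p = 3) :
    p ^ 3 < 2 ^ (Nat.card G).factorization 2 := by

  rcases hG with ⟨n, hn, ⟨e⟩⟩ | hS
  · have h1 : Nat.card G = Nat.card (alternatingGroup (Fin n)) := Nat.card_congr e.toEquiv
    exact alt_case n p hp hodd (Nat.card G) (by rw [h1]; exact card_alt_two n hn) h3
  · simp only [IsSporadic] at hS
    rcases hS with ⟨-, h⟩ | ⟨-, h⟩ | ⟨-, h⟩ | ⟨-, h⟩ | ⟨-, h⟩ | ⟨-, h⟩ | ⟨-, h⟩ | ⟨-, h⟩ | ⟨-, h⟩ | ⟨-, h⟩ | ⟨-, h⟩ | ⟨-, h⟩ | ⟨-, h⟩ | ⟨-, h⟩ | ⟨-, h⟩ | ⟨-, h⟩ | ⟨-, h⟩ | ⟨-, h⟩ | ⟨-, h⟩ | ⟨-, h⟩ | ⟨-, h⟩ | ⟨-, h⟩ | ⟨-, h⟩ | ⟨-, h⟩ | ⟨-, h⟩ | ⟨-, h⟩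
    · exact of_chk [(2, 4), (3, 2), (5, 1), (11, 1)] (by decide +kernel) (by rw [h]; decide +kernel) p hodd h3
    · exact of_chk [(2, 6), (3, 3), (5, 1), (11, 1)] (by decide +kernel) (by rw [h]; decide +kernel) p hodd h3
    · exact of_chk [(2, 7), (3, 2), (5, 1), (7, 1), (11, 1)] (by decide +kernel) (by rw [h]; decide +kernel) p hodd h3
    · exact of_chk [(2, 7), (3, 2), (5, 1), (7, 1), (11, 1), (23, 1)] (by decide +kernel) (by rw [h]; decide +kernel) p hodd h3
    · exact of_chk [(2, 10), (3, 3), (5, 1), (7, 1), (11, 1), (23, 1)] (by decide +kernel) (by rw [h]; decide +kernel) p hodd h3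
    · exact of_chk [(2, 3), (3, 1), (5, 1), (7, 1), (11, 1), (19, 1)] (by decide +kernel) (by rw [h]; decide +kernel) p hodd h3
    · exact of_chk [(2, 7), (3, 3), (5, 2), (7, 1)] (by decide +kernel) (by rw [h]; decide +kernel) p hodd h3
    · exact of_chk [(2, 7), (3, 5), (5, 1), (17, 1), (19, 1)] (by decide +kernel) (by rw [h]; decide +kernel) p hodd h3
    · exact of_chk [(2, 21), (3, 3), (5, 1), (7, 1), (11, 3), (23, 1), (29, 1), (31, 1), (37, 1), (43, 1)] (by decide +kernel) (by rw [h]; decide +kernel) p hodd h3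
    · exact of_chk [(2, 21), (3, 9), (5, 4), (7, 2), (11, 1), (13, 1), (23, 1)] (by decide +kernel) (by rw [h]; decide +kernel) p hodd h3
    · exact of_chk [(2, 18), (3, 6), (5, 3), (7, 1), (11, 1), (23, 1)] (by decide +kernel) (by rw [h]; decide +kernel) p hodd h3
    · exact of_chk [(2, 10), (3, 7), (5, 3), (7, 1), (11, 1), (23, 1)] (by decide +kernel) (by rw [h]; decide +kernel) p hodd h3
    · exact of_chk [(2, 17), (3, 9), (5, 2), (7, 1), (11, 1), (13, 1)] (by decide +kernel) (by rw [h]; decide +kernel) p hodd h3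
    · exact of_chk [(2, 18), (3, 13), (5, 2), (7, 1), (11, 1), (13, 1), (17, 1), (23, 1)] (by decide +kernel) (by rw [h]; decide +kernel) p hodd h3
    · exact of_chk [(2, 21), (3, 16), (5, 2), (7, 3), (11, 1), (13, 1), (17, 1), (23, 1), (29, 1)] (by decide +kernel) (by rw [h]; decide +kernel) p hodd h3
    · exact of_chk [(2, 9), (3, 2), (5, 3), (7, 1), (11, 1)] (by decide +kernel) (by rw [h]; decide +kernel) p hodd h3
    · exact of_chk [(2, 7), (3, 6), (5, 3), (7, 1), (11, 1)] (by decide +kernel) (by rw [h]; decide +kernel) p hodd h3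
    · exact of_chk [(2, 10), (3, 3), (5, 2), (7, 3), (17, 1)] (by decide +kernel) (by rw [h]; decide +kernel) p hodd h3
    · exact of_chk [(2, 14), (3, 3), (5, 3), (7, 1), (13, 1), (29, 1)] (by decide +kernel) (by rw [h]; decide +kernel) p hodd h3
    · exact of_chk [(2, 13), (3, 7), (5, 2), (7, 1), (11, 1), (13, 1)] (by decide +kernel) (by rw [h]; decide +kernel) p hodd h3
    · exact of_chk [(2, 9), (3, 4), (5, 1), (7, 3), (11, 1), (19, 1), (31, 1)] (by decide +kernel) (by rw [h]; decide +kernel) p hodd h3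
    · exact of_chk [(2, 14), (3, 6), (5, 6), (7, 1), (11, 1), (19, 1)] (by decide +kernel) (by rw [h]; decide +kernel) p hodd h3
    · exact of_chk [(2, 8), (3, 7), (5, 6), (7, 1), (11, 1), (31, 1), (37, 1), (67, 1)] (by decide +kernel) (by rw [h]; decide +kernel) p hodd h3
    · exact of_chk [(2, 15), (3, 10), (5, 3), (7, 2), (13, 1), (19, 1), (31, 1)] (by decide +kernel) (by rw [h]; decide +kernel) p hodd h3
    · exact of_chk [(2, 41), (3, 13), (5, 6), (7, 2), (11, 1), (13, 1), (17, 1), (19, 1), (23, 1), (31, 1), (47, 1)] (by decide +kernel) (by rw [h]; decide +kernel) p hodd h3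
    · exact of_chk [(2, 46), (3, 20), (5, 9), (7, 6), (11, 2), (13, 3), (17, 1), (19, 1), (23, 1), (29, 1), (31, 1), (41, 1), (47, 1), (59, 1), (71, 1)] (by decide +kernel) (by rw [h]; decide +kernel) p hodd h3

end Cfsg.Agent.S2367
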