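import Cfsg.Statements.S2368
import Mathlib

set_option autoImplicit false
open Cfsg

namespace Cfsg.Agent.S2368



lemma pow_card_zero {F : Type*} [Field F] {m : ℕ} (N : Matrix (Fin m) (Fin m) F) (h : IsNilpotent N) : N ^ m = 0 := by
  have h1 : IsNilpotent (Matrix.toLinAlgEquiv' N) := h.map (Matrix.toLinAlgEquiv' (R := F) (n := Fin m))
  have h2 := LinearMap.isNilpotent_iff_charpoly (Matrix.toLinAlgEquiv' N) |>.mp h1
  have h3 := LinearMap.aeval_self_charpoly (Matrix.toLinAlgEquiv' N)
  rw [h2] at h3
  simp only [Module.finrank_fin_fun, Polynomial.aeval_X_pow] at h3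
  rw [← map_pow] at h3
  exact (map_eq_zero_iff _ (Matrix.toLinAlgEquiv' (R := F) (n := Fin m)).injective).mp h3


/-- Let F be a finite field of characteristic p and m ≥ 1. Every element of GL(m, F) of p-power order has order less than p·m, and GL(m, F) has an element of p-power order at least m; so the largest order of a p-element of GL(m, F) is the least power of p that is at least m. -/
theorem result {F : Type*} [Field F] [Fintype F] (p : ℕ) [Fact p.Prime] [CharP F p] (m : ℕ) (hm : 1 ≤ m) :
    (∀ g : Matrix.GeneralLinearGroup (Fin m) F, (∃ j : ℕ, orderOf g = p ^ j) → orderOf g < p * m) ∧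
      ∃ g : Matrix.GeneralLinearGroup (Fin m) F, (∃ j : ℕ, orderOf g = p ^ j) ∧ m ≤ orderOf g := by
  haveI : NeZero m := ⟨by omega⟩
  have hpp : p.Prime := Fact.out
  constructor
  · rintro g ⟨j, hj⟩
    by_contra hlt
    push Not at hlt
    have hj0 : j ≠ 0 := by
      rintro rfl
      simp only [pow_zero] at hj
      have : 2 ≤ p * m := by
        have := hpp.two_le
        nlinarith
      omega
    obtain ⟨i, rfl⟩ : ∃ i, j = i + 1 := ⟨j - 1, by omega⟩
    have hm' : m ≤ p ^ i := by
      have h1 : p * m ≤ p * p ^ i := by
        rw [← pow_succ', ← hj]; exact hlt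
      exact Nat.le_of_mul_le_mul_left h1 hpp.pos
    have h1 : (g : Matrix (Fin m) (Fin m) F) ^ (p ^ (i + 1)) = 1 := by
      have := pow_orderOf_eq_one g
      rw [hj] at this
      have h2 := congrArg (fun x : Matrix.GeneralLinearGroup (Fin m) F => (x : Matrix (Fin m) (Fin m) F)) this
      simpa using h2
    have hnil : IsNilpotent ((g : Matrix (Fin m) (Fin m) F) - 1) := by
      refine ⟨p ^ (i + 1), ?_⟩
      rw [sub_pow_char_pow_of_commute p (i + 1) (Commute.one_right _), h1]
      simp
    have h0 := pow_card_zero _ hnil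
    have h3 : ((g : Matrix (Fin m) (Fin m) F) - 1) ^ (p ^ i) = 0 := by
      obtain ⟨k, hk⟩ := Nat.exists_eq_add_of_le hm'
      rw [hk, pow_add, h0, zero_mul]
    rw [sub_pow_char_pow_of_commute p i (Commute.one_right _)] at h3
    simp only [one_pow, sub_eq_zero] at h3
    have h4 : g ^ (p ^ i) = 1 := by
      apply Units.ext
      simpa using h3
    have h5 := orderOf_dvd_of_pow_eq_one h4
    rw [hj] at h5
    have h6 : i + 1 ≤ i := (Nat.pow_dvd_pow_iff_le_right hpp.one_lt).mp h5
    omega
  · set N : Matrix (Fin m) (Fin m) F := Matrix.of (fun a b => if b.val = a.val + 1 then 1 else 0) with hN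
    have hpow : ∀ (i : ℕ) (a b : Fin m), (N ^ i) a b = if b.val = a.val + i then 1 else 0 := by
      intro i
      induction i with
      | zero =>
        intro a b
        simp only [pow_zero, Matrix.one_apply, add_zero, Fin.ext_iff]
        by_cases h : a.val = b.val
        · simp [h]
        · have : ¬ b.val = a.val := fun h' => h h'.symm
          simp [h, this]
      | succ i ih =>
        intro a b
        rw [pow_succ, Matrix.mul_apply]
        have hNe : ∀ c d : Fin m, N c d = if d.val = c.val + 1 then 1 else 0 := fun _ _ => rfl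
        simp only [ih, hNe, mul_ite, mul_one, mul_zero]
        by_cases h : b.val = a.val + (i + 1)
        · have hlt : a.val + i < m := by have := b.2; omega
          rw [Finset.sum_eq_single (⟨a.val + i, hlt⟩ : Fin m)]
          · simp [h, add_assoc]
          · intro c _ hc
            have : ¬ c.val = a.val + i := fun h' => hc (Fin.ext h')
            simp [this]
          · simp
        · rw [if_neg h]
          apply Finset.sum_eq_zero
          intro c _
          by_cases h1 : b.val = c.val + 1
          · have : ¬ c.val = a.val + i := by omega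
            simp [h1, this]
          · simp [h1]
    have hNm : N ^ m = 0 := by
      ext a b
      rw [hpow]
      have : ¬ b.val = a.val + m := by have := b.2; omega
      simp [this]
    have hnil : IsNilpotent N := ⟨m, hNm⟩
    have hunit : IsUnit (1 + N) := hnil.isUnit_one_add
    refine ⟨hunit.unit, ?_⟩
    have hval : ((hunit.unit : Matrix.GeneralLinearGroup (Fin m) F) : Matrix (Fin m) (Fin m) F) = 1 + N := rfl
    have hp' : ∀ k : ℕ, ((hunit.unit : Matrix.GeneralLinearGroup (Fin m) F) ^ (p ^ k) = 1 ↔ N ^ (p ^ k) = 0) := by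
      intro k
      have h1 : (1 + N) ^ (p ^ k) = 1 + N ^ (p ^ k) := by
        rw [add_pow_char_pow_of_commute p k (Commute.one_left _), one_pow]
      constructor
      · intro h
        have h2 := congrArg (fun x : Matrix.GeneralLinearGroup (Fin m) F => (x : Matrix (Fin m) (Fin m) F)) h
        simp only [Units.val_pow_eq_pow_val, hval, Units.val_one] at h2
        rw [h1] at h2
        simpa using h2
      · intro h
        apply Units.ext
        simp only [Units.val_pow_eq_pow_val, hval, Units.val_one]
        rw [h1, h, add_zero]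
    have hex : ∃ k, m ≤ p ^ k := ⟨m, (Nat.lt_pow_self hpp.one_lt).le⟩
    obtain ⟨k, hk⟩ := hex
    have hone : (hunit.unit : Matrix.GeneralLinearGroup (Fin m) F) ^ (p ^ k) = 1 := by
      rw [hp']
      obtain ⟨l, hl⟩ := Nat.exists_eq_add_of_le hk
      rw [hl, pow_add, hNm, zero_mul]
    obtain ⟨j, _, hj⟩ := (Nat.dvd_prime_pow hpp).mp (orderOf_dvd_of_pow_eq_one hone)
    refine ⟨⟨j, hj⟩, ?_⟩
    rw [hj]
    by_contra hlt
    push Not at hlt
    have hone' : (hunit.unit : Matrix.GeneralLinearGroup (Fin m) F) ^ (p ^ j) = 1 := by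
      rw [← hj]; exact pow_orderOf_eq_one _
    have h0 : N ^ (p ^ j) = 0 := (hp' j).mp hone'
    have hz := congrFun (congrFun h0 (⟨0, by omega⟩ : Fin m)) (⟨p ^ j, hlt⟩ : Fin m)
    rw [hpow] at hz
    simp at hz

end Cfsg.Agent.S2368
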