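import Cfsg.Statements.S2369
import Mathlib
import Cfsg.Agent.Lib.Coll.ReeCent

set_option autoImplicit false
open Cfsg

namespace Cfsg.Agent.S2369

/-- Let q = 2^(2m+1) with m ≥ 1 and let a, b be commuting elements of the large Ree group ²F₄(q) with a an involution. Then every prime divisor of the order of b divides q(q⁴ − 1). -/
theorem result {K : Type*} [Field K] [Fintype K] (m : ℕ) (hm : 1 ≤ m) (hK : Fintype.card K = 2 ^ (2 * m + 1))
    (a b : ↥(Cfsg.Lie.twistedF4 K (2 ^ m))) (ha : orderOf a = 2) (hab : Commute a b) :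
    (orderOf b).primeFactors ⊆ (2 ^ (2 * m + 1) * ((2 ^ (2 * m + 1)) ^ 4 - 1)).primeFactors := by
  haveI := Cfsg.Agent.Lib.Chev.charF4 hK
  obtain ⟨hperf, φ, hq, hφ, heq⟩ := Cfsg.Agent.Lib.Chev.setupF4 hK
  have key : ∀ H : Subgroup (GL Cfsg.Lie.chevF4.Idx K), H = (Cfsg.Agent.Lib.Chev.twF4 hperf φ).fix →
      ∀ a b : ↥H, orderOf a = 2 → Commute a b →
        (orderOf b).primeFactors ⊆ (2 ^ (2 * m + 1) * ((2 ^ (2 * m + 1)) ^ 4 - 1)).primeFactors := by
    rintro H rfl a b ha hab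
    exact Cfsg.Agent.Lib.Chev.centr_primes_F4 hperf φ hK hφ a b ha hab
  exact key _ heq a b ha hab

end Cfsg.Agent.S2369
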