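import Cfsg.Statements.S2385
import Mathlib
import Cfsg.Agent.Lib.KS2.IsoGroup

set_option autoImplicit false
open Cfsg

namespace Cfsg.Agent.S2385




/-- In the symplectic group `Sp_{2n}(q)`, `q` a power of the prime `p`, the number of conjugacy classes of elements of order prime to `p` is `q^n`. -/
theorem result {F : Type*} [Field F] [Fintype F] {q : ℕ} (hq : Fintype.card F = q) (p : ℕ) [Fact p.Prime] [CharP F p] (n : ℕ) :
    Nat.card {c : ConjClasses ↥(Matrix.symplecticGroup (Fin n) F) //
      ∃ g : ↥(Matrix.symplecticGroup (Fin n) F), ConjClasses.mk g = c ∧ (orderOf g).Coprime p} = q ^ n := by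
  exact Cfsg.Agent.Lib.KS2.IsoCl.card_classes_sp hq p n

end Cfsg.Agent.S2385
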