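import Cfsg.Statements.S2391
import Mathlib

set_option autoImplicit false
open Cfsg

namespace Cfsg.Agent.S2391



variable {F : Type*} [Field F] {n : ℕ}

/-- One step of the ascending chain: vectors moved into `W` by `U`. -/
def step (U : Subgroup (Matrix.SpecialLinearGroup (Fin n) F)) (W : Submodule F (Fin n → F)) : Submodule F (Fin n → F) where
  carrier := {v | ∀ u ∈ U, (u : Matrix (Fin n) (Fin n) F).mulVec v - v ∈ W}
  add_mem' := by
    intro a b ha hb u hu
    have h := W.add_mem (ha u hu) (hb u hu)
    have e : (u : Matrix (Fin n) (Fin n) F).mulVec (a + b) - (a + b) =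
        ((u : Matrix (Fin n) (Fin n) F).mulVec a - a) + ((u : Matrix (Fin n) (Fin n) F).mulVec b - b) := by
      rw [Matrix.mulVec_add]; abel
    rw [e]; exact h
  zero_mem' := by
    intro u _
    simp
  smul_mem' := by
    intro c a ha u hu
    have h := W.smul_mem c (ha u hu)
    have e : (u : Matrix (Fin n) (Fin n) F).mulVec (c • a) - c • a = c • ((u : Matrix (Fin n) (Fin n) F).mulVec a - a) := by
      rw [Matrix.mulVec_smul, smul_sub]
    rw [e]; exact h

/-- The ascending chain. -/
def chain (U : Subgroup (Matrix.SpecialLinearGroup (Fin n) F)) : ℕ → Submodule F (Fin n → F)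
  | 0 => ⊥
  | i + 1 => step U (chain U i)

lemma chain_inv (U : Subgroup (Matrix.SpecialLinearGroup (Fin n) F)) (g : Matrix.SpecialLinearGroup (Fin n) F)
    (hg : g ∈ Subgroup.normalizer (U : Set (Matrix.SpecialLinearGroup (Fin n) F))) (i : ℕ) (v : Fin n → F)
    (hv : v ∈ chain U i) : (g : Matrix (Fin n) (Fin n) F).mulVec v ∈ chain U i := by
  induction i generalizing v with
  | zero =>
    have : v = 0 := hv
    subst this
    simp [chain]
  | succ i ih =>
    intro u hu
    have hu' : g⁻¹ * u * g ∈ U := by
      have h1 := (Subgroup.mem_normalizer_iff.mp (Subgroup.inv_mem _ hg) u).mp hu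
      simpa using h1
    have h2 := ih _ (hv _ hu')
    have e : (g : Matrix (Fin n) (Fin n) F).mulVec (((g⁻¹ * u * g : Matrix.SpecialLinearGroup (Fin n) F) : Matrix (Fin n) (Fin n) F).mulVec v - v) =
        (u : Matrix (Fin n) (Fin n) F).mulVec ((g : Matrix (Fin n) (Fin n) F).mulVec v) - (g : Matrix (Fin n) (Fin n) F).mulVec v := by
      rw [Matrix.mulVec_sub, Matrix.mulVec_mulVec, Matrix.mulVec_mulVec]
      congr 2
      have : g * (g⁻¹ * u * g) = u * g := by group
      have h3 := congrArg Subtype.val this
      simpa using h3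
    rw [← e]
    exact h2

lemma chain_mono_succ (U : Subgroup (Matrix.SpecialLinearGroup (Fin n) F)) (i : ℕ) : chain U i ≤ chain U (i + 1) := by
  intro v hv u hu
  exact (chain U i).sub_mem (chain_inv U u (Subgroup.le_normalizer hu) i v hv) hv

lemma chain_le_succ_mono (U : Subgroup (Matrix.SpecialLinearGroup (Fin n) F)) : Monotone (chain U) :=
  monotone_nat_of_le_succ (chain_mono_succ U)

/-- The action on the quotient. -/
@[instance_reducible] noncomputable def qAct (U : Subgroup (Matrix.SpecialLinearGroup (Fin n) F)) (i : ℕ) :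
    MulAction U ((Fin n → F) ⧸ chain U i) where
  smul u x := Submodule.mapQ (chain U i) (chain U i) (Matrix.mulVecLin (u.1 : Matrix (Fin n) (Fin n) F))
    (fun v hv => chain_inv U u.1 (Subgroup.le_normalizer u.2) i v hv) x
  one_smul := by
    intro x
    induction x using Submodule.Quotient.induction_on with
    | H v =>
      show (Submodule.Quotient.mk (((1 : U).1 : Matrix (Fin n) (Fin n) F).mulVec v) : (Fin n → F) ⧸ chain U i) = Submodule.Quotient.mk v
      simp
  mul_smul := by
    intro a b x
    induction x using Submodule.Quotient.induction_on with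
    | H v =>
      show (Submodule.Quotient.mk (((a * b).1 : Matrix (Fin n) (Fin n) F).mulVec v) : (Fin n → F) ⧸ chain U i) =
        Submodule.Quotient.mk ((a.1 : Matrix (Fin n) (Fin n) F).mulVec ((b.1 : Matrix (Fin n) (Fin n) F).mulVec v))
      simp [Matrix.mulVec_mulVec]

lemma chain_lt [Fintype F] (p : ℕ) [Fact p.Prime] [CharP F p] (U : Subgroup (Matrix.SpecialLinearGroup (Fin n) F))
    (hU : IsPGroup p ↥U) (i : ℕ) (hne : chain U i ≠ ⊤) : chain U i < chain U (i + 1) := by
  classical
  refine lt_of_le_of_ne (chain_mono_succ U i) ?_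
  intro heq
  letI := qAct U i
  have hnontriv : Nontrivial ((Fin n → F) ⧸ chain U i) := Submodule.Quotient.nontrivial_iff.mpr hne
  obtain ⟨x, hx⟩ := exists_ne (0 : (Fin n → F) ⧸ chain U i)
  haveI : Finite ((Fin n → F) ⧸ chain U i) := inferInstance
  have hpd : p ∣ Nat.card ((Fin n → F) ⧸ chain U i) := by
    have hpx : p • x = 0 := by
      induction x using Submodule.Quotient.induction_on with
      | H v =>
        rw [← Submodule.Quotient.mk_smul]
        have : p • v = 0 := by
          ext j
          simp
        rw [this]; simp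
    have h1 : addOrderOf x = p := addOrderOf_eq_prime hpx hx
    rw [← h1]
    exact addOrderOf_dvd_natCard x
  have h0 : (0 : (Fin n → F) ⧸ chain U i) ∈ MulAction.fixedPoints U ((Fin n → F) ⧸ chain U i) := by
    intro u
    exact map_zero _
  obtain ⟨b, hb, hb2⟩ := hU.exists_fixed_point_of_prime_dvd_card_of_fixed_point _ hpd h0
  induction b using Submodule.Quotient.induction_on with
  | H v =>
    have hv1 : v ∉ chain U i := by
      intro h
      apply hb2
      rw [eq_comm, Submodule.Quotient.mk_eq_zero]
      exact h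
    apply hv1
    rw [heq]
    intro u hu
    have h2 := hb ⟨u, hu⟩
    have h3 : Submodule.Quotient.mk ((u : Matrix (Fin n) (Fin n) F).mulVec v) = (Submodule.Quotient.mk v : (Fin n → F) ⧸ chain U i) := by
      exact h2
    exact (Submodule.Quotient.eq _).mp h3


/-- The Borel–Tits property of `SL_n(q)` in flag form: for a field `F` of characteristic `p` with finitely many elements and a non-trivial `p`-subgroup `U` of `SL_n(F)`, there is a flag `0 = V₀ < V₁ < ⋯ < V_{k+1} = F^n` with at least one proper non-zero member such that every element of the normaliser of `U` maps each `V_i` onto itself and every element of `U` acts trivially on each quotient `V_{i+1}/V_i` (so the normaliser lies in the parabolic subgroup of the flag and `U` in its unipotent radical). -/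
theorem result {F : Type*} [Field F] [Fintype F] (p : ℕ) [Fact p.Prime] [CharP F p] (n : ℕ)
    (U : Subgroup (Matrix.SpecialLinearGroup (Fin n) F)) (hU : IsPGroup p ↥U) (hne : U ≠ ⊥) :
    ∃ (k : ℕ) (V : Fin (k + 2) → Submodule F (Fin n → F)), 1 ≤ k ∧ StrictMono V ∧ V 0 = ⊥ ∧ V (Fin.last (k + 1)) = ⊤ ∧
      (∀ g ∈ Subgroup.normalizer (U : Set (Matrix.SpecialLinearGroup (Fin n) F)), ∀ i, (V i).map (Matrix.mulVecLin (g : Matrix (Fin n) (Fin n) F)) = V i) ∧
      (∀ u ∈ U, ∀ i : Fin (k + 1), ∀ v ∈ V i.succ, (u : Matrix (Fin n) (Fin n) F).mulVec v - v ∈ V (Fin.castSucc i)) := by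
  classical
  have hfin : ∃ i, chain U i = ⊤ := by
    by_contra hne'
    push Not at hne'
    have hlow : ∀ i, i ≤ Module.finrank F (chain U i) := by
      intro i
      induction i with
      | zero => exact Nat.zero_le _
      | succ i ih =>
        have hlt := chain_lt p U hU i (hne' i)
        have := Submodule.finrank_lt_finrank_of_lt hlt
        omega
    have h1 := hlow (n + 1)
    have h2 := Submodule.finrank_le (chain U (n + 1))
    simp only [Module.finrank_fin_fun] at h2
    omega
  have h1ne : chain U 1 ≠ ⊤ := by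
    intro h
    apply hne
    rw [eq_bot_iff]
    intro u hu
    rw [Subgroup.mem_bot]
    apply Subtype.ext
    apply Matrix.ext_of_mulVec_single
    intro j
    have hmem : (Pi.single j 1 : Fin n → F) ∈ chain U 1 := by rw [h]; exact Submodule.mem_top
    have h2 := hmem u hu
    have h3 : (u : Matrix (Fin n) (Fin n) F).mulVec (Pi.single j 1) - Pi.single j 1 = 0 := by simpa [chain] using h2
    rw [sub_eq_zero] at h3
    rw [h3]
    simp only [Matrix.SpecialLinearGroup.coe_one, Matrix.one_mulVec]
  let K := Nat.find hfin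
  have hK : chain U K = ⊤ := Nat.find_spec hfin
  have hmin : ∀ i, i < K → chain U i ≠ ⊤ := fun i hi => Nat.find_min hfin hi
  have hK2 : 2 ≤ K := by
    by_contra hlt
    have hle : K ≤ 1 := by omega
    have : chain U 1 = ⊤ := by
      have hm := chain_le_succ_mono U
      rw [eq_top_iff, ← hK]
      exact hm hle
    exact h1ne this
  obtain ⟨k, hk⟩ : ∃ k, K = k + 1 := ⟨K - 1, by omega⟩
  have hk1 : 1 ≤ k := by omega
  refine ⟨k, fun i => chain U i.val, hk1, ?_, rfl, ?_, ?_, ?_⟩
  · apply Fin.strictMono_iff_lt_succ.mpr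
    intro i
    exact chain_lt p U hU i.val (hmin i.val (by have := i.2; omega))
  · simp only [Fin.val_last]
    rw [← hk]
    exact hK
  · intro g hg i
    apply le_antisymm
    · rintro _ ⟨v, hv, rfl⟩
      exact chain_inv U g hg i.val v hv
    · intro v hv
      have hg' : g⁻¹ ∈ Subgroup.normalizer (U : Set (Matrix.SpecialLinearGroup (Fin n) F)) := Subgroup.inv_mem _ hg
      refine ⟨(g⁻¹ : Matrix.SpecialLinearGroup (Fin n) F).1.mulVec v, chain_inv U g⁻¹ hg' i.val v hv, ?_⟩
      show (g : Matrix (Fin n) (Fin n) F).mulVec ((g⁻¹ : Matrix.SpecialLinearGroup (Fin n) F).1.mulVec v) = v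
      rw [Matrix.mulVec_mulVec]
      have : (g : Matrix (Fin n) (Fin n) F) * (g⁻¹ : Matrix.SpecialLinearGroup (Fin n) F).1 = 1 :=
        congrArg Subtype.val (mul_inv_cancel g)
      rw [this, Matrix.one_mulVec]
  · intro u hu i v hv
    exact hv u hu

end Cfsg.Agent.S2391
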