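import Cfsg.Statements.S2394
import Mathlib
import Cfsg.Agent.S0245
import Cfsg.Agent.Lib.Amalgam.Zsig

set_option autoImplicit false
open scoped MatrixGroups
open Cfsg

namespace Cfsg.Agent.S2394




/-- The smallest degree of a faithful representation of the symplectic group `Sp_{2n}(q)` over its own field `F_q` is `2n`: every injective homomorphism from `Sp_{2n}(F)` to `GL_d(F)`, `F` the field with `q` elements, has `d ≥ 2n`. -/
theorem result {F : Type*} [Field F] [Fintype F] (n : ℕ) {d : ℕ}
    (ρ : ↥(Matrix.symplecticGroup (Fin n) F) →* GL (Fin d) F) (hρ : Function.Injective ρ) : 2 * n ≤ d := by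

  classical
  set q := Fintype.card F with hq
  have hq2 : 2 ≤ q := Fintype.one_lt_card
  have hdvd : Nat.card (Matrix.symplecticGroup (Fin n) F) ∣ Nat.card (GL (Fin d) F) :=
    Subgroup.card_dvd_of_injective ρ hρ
  rw [Cfsg.Agent.S0245.result (q := q) rfl n, Matrix.card_GL_field, ← hq, Fin.prod_univ_eq_prod_range (fun i => q ^ d - q ^ i) d] at hdvd
  -- the generic case
  have key : ∀ r : ℕ, r.Prime → r ∣ q ^ (2 * n) - 1 → (∀ k : ℕ, 0 < k → k < 2 * n → ¬ r ∣ q ^ k - 1) →
      1 ≤ n → 2 * n ≤ d := by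
    intro r hr hr1 hr2 hn1
    have hrq : ¬ r ∣ q := by
      intro h
      have h1 : r ∣ q ^ (2 * n) := dvd_pow h (by omega)
      have h2 : r ∣ 1 := by
        have h3 : 1 = q ^ (2 * n) - (q ^ (2 * n) - 1) := by
          have : 1 ≤ q ^ (2 * n) := Nat.one_le_pow _ _ (by omega)
          omega
        rw [h3]
        exact Nat.dvd_sub h1 hr1
      exact hr.one_lt.ne' (Nat.dvd_one.mp h2)
    have h1 : r ∣ ∏ i ∈ Finset.range n, (q ^ (2 * (i + 1)) - 1) := by
      have hmem : n - 1 ∈ Finset.range n := Finset.mem_range.mpr (by omega)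
      have h2 := Finset.dvd_prod_of_mem (fun i => q ^ (2 * (i + 1)) - 1) hmem
      refine Dvd.dvd.trans ?_ h2
      have : 2 * (n - 1 + 1) = 2 * n := by omega
      simpa [this] using hr1
    have h2 : r ∣ ∏ i ∈ Finset.range d, (q ^ d - q ^ i) := (h1.trans (Nat.dvd_mul_left _ _)).trans hdvd
    obtain ⟨i, hi, hri⟩ := (Prime.dvd_finset_prod_iff hr.prime _).mp h2
    have hid : i < d := Finset.mem_range.mp hi
    have h3 : q ^ d - q ^ i = q ^ i * (q ^ (d - i) - 1) := by
      rw [Nat.mul_sub, mul_one, ← pow_add]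
      congr 2
      omega
    rw [h3] at hri
    rcases (Nat.Prime.dvd_mul hr).mp hri with h4 | h4
    · exact absurd (hr.dvd_of_dvd_pow h4) hrq
    · by_contra hcon
      exact hr2 (d - i) (by omega) (by omega) h4
  rcases Nat.lt_or_ge n 1 with hn0 | hn1
  · omega
  rcases Nat.eq_or_lt_of_le hn1 with hn1' | hn2
  · -- the case n = 1
    subst hn1'
    by_contra hcon
    have hd : d = 0 ∨ d = 1 := by omega
    have hq3 : (q ^ 2 - 1) ≠ 0 := by
      have : 4 ≤ q ^ 2 := by nlinarith
      omega
    rcases hd with rfl | rfl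
    · simp at hdvd
      omega
    · simp at hdvd
      have h1 := Nat.le_of_dvd (by omega) hdvd
      have h2 : q ^ 2 = q * q := by ring
      have h3 : q - 1 ≤ q * q - 1 := by
        have : q ≤ q * q := by nlinarith
        omega
      have h4 : q * (q * q - 1) ≤ q - 1 := by
        rw [h2] at h1
        exact h1
      have h5 : 1 ≤ q * q - 1 := by
        have : 4 ≤ q * q := by nlinarith
        omega
      have h6 : q * 1 ≤ q * (q * q - 1) := Nat.mul_le_mul_left _ h5
      omega
  · by_cases hex : q = 2 ∧ 2 * n = 6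
    · -- the exceptional case
      obtain ⟨hq', hn'⟩ := hex
      have hn3 : n = 3 := by omega
      subst hn3
      rw [hq'] at hdvd
      by_contra hcon
      have hd : d ≤ 5 := by omega
      interval_cases d <;> simp [Finset.prod_range_succ] at hdvd <;> omega
    · obtain ⟨r, hr, hr1, hr2⟩ := Cfsg.Agent.Lib.Amalgam.Zsig.main_ge_three q (2 * n) hq2 (by omega) hex
      exact key r hr hr1 hr2 hn1

end Cfsg.Agent.S2394
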