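import Cfsg.Statements.S2399
import Mathlib
import Cfsg.Agent.Lib.St.Small

set_option autoImplicit false
open scoped MatrixGroups
open Cfsg

namespace Cfsg.Agent.S2399

open Cfsg.Agent.Lib.St Cfsg.Agent.Lib.Chev

/-- Projective representations in the natural characteristic lift: for each of the types G₂, B₂, D₄, F₄, E₆, E₇, E₈ over any field `K` (for types B₂ and G₂ the field must have more than two elements — the cases where the Chevalley group is not simple are set aside), every homomorphism from the Chevalley group to `PGL_n(L) = GL_n(L)/Z`, `L` a field of the same characteristic as `K`, lifts uniquely to a homomorphism from the group Δ presented by (R1), (R2) to `GL_n(L)`, compatibly with the projection Δ → Chevalley group sending x̄_r(t) to x_r(t). -/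
theorem result {K : Type*} [Field K] (D : Cfsg.Lie.ChevalleyDatum) (hD : D ∈ [Cfsg.Lie.chevG2, Cfsg.Lie.chevB2, Cfsg.Lie.chevD4, Cfsg.Lie.chevF4, Cfsg.Lie.chevE6, Cfsg.Lie.chevE7, Cfsg.Lie.chevE8]) (hK : D ∈ [Cfsg.Lie.chevB2, Cfsg.Lie.chevG2] → ∃ x : K, x ≠ 0 ∧ x ≠ 1)
    (θ : D.SteinbergCover K →* ↥(D.group K))
    (hθ : ∀ (r : ℕ) (t : K), r < D.nroots → ((θ (D.scGen K r t) : GL D.Idx K) : Matrix D.Idx D.Idx K) = D.x K r t)
    {L : Type*} [Field L] (hL : ringChar L = ringChar K) {n : ℕ}
    (φ : ↥(D.group K) →* GL (Fin n) L ⧸ Subgroup.center (GL (Fin n) L)) :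
    ∃! ψ : D.SteinbergCover K →* GL (Fin n) L, (QuotientGroup.mk' (Subgroup.center (GL (Fin n) L))).comp ψ = φ.comp θ := by
  classical
  by_cases hK5 : ∃ s : Finset K, 4 < s.card
  · exact univ_main hK5 hD (QuotientGroup.mk' _) (QuotientGroup.mk'_surjective _) (by rw [QuotientGroup.ker_mk']) (φ.comp θ)
  · haveI : Finite K := by
      by_contra h
      haveI := not_finite_iff_infinite.1 h
      obtain ⟨s, hs⟩ := Infinite.exists_subset_card_eq K 5
      exact hK5 ⟨s, by omega⟩
    haveI := Fintype.ofFinite K
    obtain ⟨p, hp⟩ := CharP.exists K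
    haveI := hp
    haveI hpp : Fact p.Prime := ⟨CharP.char_is_prime K p⟩
    have hpL : CharP L p := by
      have h1 : ringChar K = p := ringChar.eq K p
      have h2 := ringChar.charP L
      rwa [hL, h1] at h2
    refine small_main hD hK (QuotientGroup.mk' _) (QuotientGroup.mk'_surjective _) (by rw [QuotientGroup.ker_mk']) ?_ (φ.comp θ)
    intro z hz h
    rw [QuotientGroup.ker_mk'] at hz
    obtain ⟨a, ha⟩ := Matrix.GeneralLinearGroup.mem_center_iff_val_mem_range_scalar.1 hz
    cases isEmpty_or_nonempty (Fin n) with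
    | inl h0 =>
      apply Units.ext
      exact Subsingleton.elim _ _
    | inr h0 =>
      have h1 : (z : Matrix (Fin n) (Fin n) L) ^ p = 1 := by
        have := congrArg (fun g : GL (Fin n) L => (g : Matrix (Fin n) (Fin n) L)) h
        simpa using this
      rw [← ha, ← map_pow, ← map_one (Matrix.scalar (Fin n))] at h1
      have h2 : a ^ p = 1 := Matrix.scalar_inj.1 h1
      have h3 : (a - 1) ^ p = 0 := by
        rw [sub_pow_char, h2, one_pow, sub_self]
      have h4 : a = 1 := sub_eq_zero.1 (pow_eq_zero_iff hpp.out.ne_zero |>.1 h3)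
      apply Units.ext
      rw [← ha, h4, map_one]
      rfl

end Cfsg.Agent.S2399
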