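import Cfsg.Statements.S2400
import Mathlib
import Cfsg.Agent.Lib.St.GV5
import Cfsg.Agent.Lib.St.Schur
import Cfsg.Agent.Lib.St.HWMain
import Cfsg.Agent.Lib.St.Small

set_option autoImplicit false
open Cfsg

namespace Cfsg.Agent.S2400

open Cfsg.Agent.Lib.St Cfsg.Agent.Lib.Chev Cfsg.Lie

section Fields

variable {K : Type*} [Field K] [Fintype K]

lemma facts3 (h : Fintype.card K = 3) :
    (∀ u : K, u = 0 ∨ u = 1 ∨ u = -1) ∧ (1 : K) + 1 + 1 = 0 ∧ (-1 : K) ≠ 1 := by
  classical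
  have h3 : (1 : K) + 1 + 1 = 0 := by
    have h1 := FiniteField.cast_card_eq_zero K
    rw [h] at h1
    have : ((3 : ℕ) : K) = 1 + 1 + 1 := by norm_num
    rwa [this] at h1
  have hm : (-1 : K) ≠ 1 := by
    intro h4
    have h5 : (1 : K) + 1 = 0 := by linear_combination -h4
    apply one_ne_zero (α := K)
    linear_combination h3 - h5
  refine ⟨?_, h3, hm⟩
  have hcard : ({0, 1, -1} : Finset K).card = Fintype.card K := by
    rw [h, Finset.card_eq_three]
    refine ⟨0, 1, -1, zero_ne_one, (neg_ne_zero.2 one_ne_zero).symm, hm.symm, rfl⟩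
  have huniv := Finset.eq_univ_of_card _ hcard
  intro u
  have hu : u ∈ ({0, 1, -1} : Finset K) := by
    rw [huniv]
    exact Finset.mem_univ u
  simpa using hu

lemma facts4 (h : Fintype.card K = 4) : (2 : K) = 0 ∧ ∃ x : K, x ≠ 0 ∧ x ≠ 1 := by
  classical
  have h2 : (2 : K) = 0 := by
    have h1 := FiniteField.cast_card_eq_zero K
    rw [h] at h1
    have h3 : ((4 : ℕ) : K) = 2 * 2 := by norm_num
    rw [h3] at h1
    exact mul_self_eq_zero.1 h1
  refine ⟨h2, ?_⟩
  have hlt : ({0, 1} : Finset K).card < (Finset.univ : Finset K).card := by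
    rw [Finset.card_univ, h]
    exact lt_of_le_of_lt (Finset.card_le_two) (by norm_num)
  obtain ⟨x, -, hx⟩ := Finset.exists_mem_notMem_of_card_lt_card hlt
  refine ⟨x, fun h0 => hx (by simp [h0]), fun h1 => hx (by simp [h1])⟩

end Fields

/-- Lifting for the types B₂, D₄ over more than two elements. -/
theorem lift_small {K : Type*} [Field K] [Fintype K] {D : ChevalleyDatum} (hD : D = chevB2 ∨ D = chevD4)
    (hK : Fintype.card K ≠ 2) {G₁ E : Type*} [Group G₁] [Group E]
    (π₁ : E →* G₁) (hπ : Function.Surjective π₁) (hc : π₁.ker ≤ Subgroup.center E) (σ : D.SteinbergCover K →* G₁) :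
    ∃ τ : D.SteinbergCover K →* E, π₁.comp τ = σ := by
  classical
  have h2 : 1 < Fintype.card K := Fintype.one_lt_card
  by_cases h5 : 5 ≤ Fintype.card K
  · have hK5 : ∃ s : Finset K, 4 < s.card := ⟨Finset.univ, by rw [Finset.card_univ]; omega⟩
    have hD' : D ∈ [chevG2, chevB2, chevD4, chevF4, chevE6, chevE7, chevE8] := by
      rcases hD with rfl | rfl <;> simp
    exact (univ_main hK5 hD' π₁ hπ hc σ).exists
  · have h34 : Fintype.card K = 3 ∨ Fintype.card K = 4 := by omega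
    rcases h34 with h3 | h4
    · obtain ⟨hK3, h3', hm⟩ := facts3 h3
      rcases hD with rfl | rfl
      · exact lift_via π₁ hπ hc σ fun p f hf hcp => sec_B2F3 stHypB2 hK3 h3' hm p f hf hcp
      · exact lift_via π₁ hπ hc σ fun p f hf hcp =>
          sec_F3 good3D4 stHypD4 swD4 u2D4 u3D4 abD4 hK3 h3' hm p f hf hcp
    · obtain ⟨h2', x, hx0, hx1⟩ := facts4 h4
      rcases hD with rfl | rfl
      · exact lift_via π₁ hπ hc σ fun p f hf hcp => sec_B2char2 stHypB2 h2' hx0 hx1 p f hf hcp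
      · exact lift_via π₁ hπ hc σ fun p f hf hcp =>
          sec_char2 good3D4 stHypD4 u1D4 u2D4 u3D4 abD4 p2D4 h2' hx0 hx1 p f hf hcp

/-- A trivial Schur multiplier, from a lifting property. -/
theorem schur_of_iso.{u} {G C : Type u} [Group G] [Group C] [Finite C] (e : C ≃* G)
    (hU : ∀ (Γ : Type u) [Group Γ] (σ : Γ →* G), Cfsg.IsStemExtension σ → ∃ τ : C →* Γ, σ.comp τ = e.toMonoidHom) :
    Cfsg.HasCyclicSchurMultiplier G 1 := by
  haveI : Finite G := Finite.of_equiv C e.toEquiv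
  refine ⟨⟨G, inferInstance, inferInstance, MonoidHom.id G, ⟨fun g => ⟨g, rfl⟩, ?_, ?_⟩, ?_⟩, ?_⟩
  · intro z hz
    have : z = 1 := hz
    rw [this]
    exact Subgroup.one_mem _
  · intro z hz
    have : z = 1 := hz
    rw [this]
    exact Subgroup.one_mem _
  · haveI : Unique (MonoidHom.id G).ker := ⟨⟨1⟩, fun z => Subtype.ext z.2⟩
    exact ⟨MulEquiv.ofUnique⟩
  · intro Γ _ _ σ hσ
    obtain ⟨τ, hτ⟩ := hU Γ σ hσ
    refine ⟨1, ?_⟩
    rintro ⟨x, hx⟩
    obtain ⟨g, hg, rfl⟩ := stem_ker_image hσ (θ := e.toMonoidHom) e.surjective hτ hx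
    have hg1 : g = 1 := e.injective (by rw [map_one]; exact hg)
    refine ⟨1, Subtype.ext ?_⟩
    subst hg1
    simp

/-- Over a finite field `K`, the group presented by Steinberg's relators (R1)–(R3) (the universal Chevalley group) of type E₆ or E₇, or of type B₂ or D₄ with `K` of more than two elements, has trivial Schur multiplier: every finite stem extension of it is an isomorphism (Schur multiplier described through stem extensions as in the definitions). Types G₂, F₄ and E₈ are not covered here. -/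
theorem result {K : Type*} [Field K] [Fintype K] (e : Cfsg.Lie.ChevalleyDatum × ℕ)
    (he : e ∈ [(Cfsg.Lie.chevE6, 0), (Cfsg.Lie.chevE7, 0), (Cfsg.Lie.chevB2, 2), (Cfsg.Lie.chevD4, 2)]) (hK : Fintype.card K ≠ e.2) :
    Cfsg.HasCyclicSchurMultiplier (e.1.SteinbergGroup K) 1 := by
  classical
  obtain ⟨D, n⟩ := e
  simp only [List.mem_cons, List.not_mem_nil, or_false, Prod.mk.injEq] at he
  have hD : D ∈ [chevG2, chevB2, chevD4, chevF4, chevE6, chevE7, chevE8] := by
    rcases he with ⟨rfl, -⟩ | ⟨rfl, -⟩ | ⟨rfl, -⟩ | ⟨rfl, -⟩ <;> simp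
  let e₁ : D.SteinbergCover K ≃* D.SteinbergGroup K := QuotientGroup.quotientMulEquivOfEq (cover_normalClosure hD K)
  have hfin : Finite (D.SteinbergCover K) := by
    rcases he with ⟨rfl, -⟩ | ⟨rfl, -⟩ | ⟨rfl, -⟩ | ⟨rfl, -⟩
    · exact cover_finite good3E6 stHypE6 rank1E6
    · exact cover_finite good3E7 stHypE7 rank1E7
    · exact cover_finite good3B2 stHypB2 rank1B2
    · exact cover_finite good3D4 stHypD4 rank1D4
  refine schur_of_iso e₁ ?_
  intro Γ _ σ hσ
  rcases he with ⟨rfl, rfl⟩ | ⟨rfl, rfl⟩ | ⟨rfl, rfl⟩ | ⟨rfl, rfl⟩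
  · exact (closure_main (by simp) σ hσ.1 hσ.2.1 e₁.toMonoidHom).exists
  · exact (closure_main (by simp) σ hσ.1 hσ.2.1 e₁.toMonoidHom).exists
  · exact lift_small (Or.inl rfl) hK σ hσ.1 hσ.2.1 e₁.toMonoidHom
  · exact lift_small (Or.inr rfl) hK σ hσ.1 hσ.2.1 e₁.toMonoidHom

end Cfsg.Agent.S2400
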