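import Cfsg.Statements.S2416
import Mathlib
import Cfsg.Agent.Lib.ChevAut.RootGenT

set_option autoImplicit false
open scoped MatrixGroups
open Cfsg

namespace Cfsg.Agent.S2416

/-- A Chevalley group of type G₂, B₂, D₄, F₄, E₆, E₇ or E₈ over a finite field lies in (indeed equals) the subgroup generated by its monomial subgroup `N` and a single fundamental root subgroup `X_p`, where `p` is a short fundamental root if there are two root lengths (any fundamental root otherwise), provided the characteristic is not 2 for types B₂, F₄ and not 3 for type G₂ (and the field has more than two elements for B₂, G₂). -/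
theorem result {K : Type*} [Field K] [Finite K] (D : Cfsg.Lie.ChevalleyDatum) (hD : D ∈ [Cfsg.Lie.chevG2, Cfsg.Lie.chevB2, Cfsg.Lie.chevD4, Cfsg.Lie.chevF4, Cfsg.Lie.chevE6, Cfsg.Lie.chevE7, Cfsg.Lie.chevE8])
    (hK : D ∈ [Cfsg.Lie.chevB2, Cfsg.Lie.chevG2] → ∃ x : K, x ≠ 0 ∧ x ≠ 1)
    (h2 : D ∈ [Cfsg.Lie.chevB2, Cfsg.Lie.chevF4] → ringChar K ≠ 2) (h3 : D = Cfsg.Lie.chevG2 → ringChar K ≠ 3)
    (i : ℕ) (hi : i < D.rank) (hshort : D.isLong (D.simple i) = false) :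
    D.group K ≤ D.monomialSubgroup K ⊔ D.rootSubgroup K (D.simple i) := by
  have key : ∀ (D : Cfsg.Lie.ChevalleyDatum) (T : Cfsg.Agent.Lib.Chev.Tbl) (hG : T.Good2 D) (base : ℕ → ℕ)
      (w : ℕ → List ℕ) (r₀ r₁ : ℕ)
      (hw : ∀ r, r < D.nroots → (∀ i ∈ w r, i < D.rank) ∧ base r < D.nroots ∧ Cfsg.Agent.Lib.Chev.wperm T (w r) (base r) = r)
      (hs : ∀ i, i < D.rank → D.isLong (D.simple i) = false → base (D.simple i) = r₀)
      (hv : ∀ r, r < D.nroots → base r = r₀ ∨ base r = r₁)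
      (h10 : D.rootSubgroup K r₀ ≤ D.monomialSubgroup K ⊔ D.rootSubgroup K (D.simple i) → D.rootSubgroup K r₁ ≤ D.monomialSubgroup K ⊔ D.rootSubgroup K (D.simple i))
      (hshort : D.isLong (D.simple i) = false) (hi : i < D.rank),
      D.group K ≤ D.monomialSubgroup K ⊔ D.rootSubgroup K (D.simple i) := by
    intro D T hG base w r₀ r₁ hw hs hv h10 hshort hi
    have hN : D.monomialSubgroup K ≤ D.monomialSubgroup K ⊔ D.rootSubgroup K (D.simple i) := le_sup_left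
    have h0 : D.rootSubgroup K r₀ ≤ D.monomialSubgroup K ⊔ D.rootSubgroup K (D.simple i) := by
      obtain ⟨h1, h2, h3⟩ := hw _ (hG.simple_lt hi)
      rw [hs i hi hshort] at h2 h3
      refine hG.root_move_back hN h1 h2 ?_
      rw [h3]
      exact le_sup_right
    refine hG.group_le_of_base hN base w hw fun r hr => ?_
    rcases hv r hr with e | e <;> rw [e]
    · exact h0
    · exact h10 h0
  have key2 : ∀ (D : Cfsg.Lie.ChevalleyDatum) (T : Cfsg.Agent.Lib.Chev.Tbl) (hG : T.Good2 D) (base : ℕ → ℕ)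
      (w : ℕ → List ℕ) (r₀ r₁ a b : ℕ) (c : ℤ)
      (hw : ∀ r, r < D.nroots → (∀ i ∈ w r, i < D.rank) ∧ base r < D.nroots ∧ Cfsg.Agent.Lib.Chev.wperm T (w r) (base r) = r)
      (hc : D.commTerms a b = [(r₁, c, 1, 1)] ∧ base a = r₀ ∧ base b = r₀ ∧ a < D.nroots ∧ b < D.nroots ∧ b ≠ a ∧ b ≠ D.neg a)
      (hlt : r₀ < D.nroots ∧ r₁ < D.nroots) (hc0 : (c : K) ≠ 0) (L : Subgroup (GL D.Idx K))
      (hN : D.monomialSubgroup K ≤ L) (h0 : D.rootSubgroup K r₀ ≤ L), D.rootSubgroup K r₁ ≤ L := by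
    intro D T hG base w r₀ r₁ a b c hw hc hlt hc0 L hN h0
    obtain ⟨h1, h2, h3, h4, h5, h6, h7⟩ := hc
    have ha : D.rootSubgroup K a ≤ L := by
      obtain ⟨e1, e2, e3⟩ := hw a h4
      have := hG.root_move hN e1 e2 (by rw [h2]; exact h0)
      rwa [e3] at this
    have hb : D.rootSubgroup K b ≤ L := by
      obtain ⟨e1, e2, e3⟩ := hw b h5
      have := hG.root_move hN e1 e2 (by rw [h3]; exact h0)
      rwa [e3] at this
    exact hG.root_of_comm h4 h5 hlt.2 h6 h7 h1 hc0 ha hb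
  simp only [List.mem_cons, List.not_mem_nil, or_false] at hD
  have h2' : (2 : K) ≠ 0 → True := fun _ => trivial
  rcases hD with rfl | rfl | rfl | rfl | rfl | rfl | rfl
  · have hc3 : (((-3 : ℤ)) : K) ≠ 0 ∨ ((3 : ℤ) : K) ≠ 0 := by
      right
      intro e
      have e' : ((3 : ℕ) : K) = 0 := by exact_mod_cast e
      have := (CharP.cast_eq_zero_iff K (ringChar K) 3).1 e'
      rcases (Nat.dvd_prime Nat.prime_three).1 this with h | h
      · exact (CharP.ringChar_ne_one (R := K)) h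
      · exact h3 rfl h
    have hc0 : ∀ c : ℤ, (c = 3 ∨ c = -3) → (c : K) ≠ 0 := by
      rintro c (rfl | rfl)
      · rcases hc3 with h | h
        · intro e
          apply h
          simpa using e
        · exact h
      · rcases hc3 with h | h
        · exact h
        · intro e
          apply h
          have e' : (3 : K) = 0 := by simpa using e
          simpa using e'
    exact key _ _ Cfsg.Agent.Lib.Chev.good2G2 Cfsg.Agent.Lib.Chev.genBaseG2 (fun r => Cfsg.Agent.Lib.Chev.genWordsG2.getD r []) _ _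
      Cfsg.Agent.Lib.Chev.genWordsG2_spec Cfsg.Agent.Lib.Chev.genBaseG2_short Cfsg.Agent.Lib.Chev.genBaseG2_val
      (fun h0 => key2 _ _ Cfsg.Agent.Lib.Chev.good2G2 Cfsg.Agent.Lib.Chev.genBaseG2 (fun r => Cfsg.Agent.Lib.Chev.genWordsG2.getD r []) _ _ _ _ _
        Cfsg.Agent.Lib.Chev.genWordsG2_spec Cfsg.Agent.Lib.Chev.genCommG2 Cfsg.Agent.Lib.Chev.genLtG2 (hc0 _ (by decide)) _ le_sup_left h0) hshort hi
  · have hc0 : ∀ c : ℤ, (c = 2 ∨ c = -2) → (c : K) ≠ 0 := by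
      have h20 : (2 : K) ≠ 0 := Ring.two_ne_zero (h2 (by simp))
      rintro c (rfl | rfl)
      · simpa using h20
      · simpa using h20
    exact key _ _ Cfsg.Agent.Lib.Chev.good2B2 Cfsg.Agent.Lib.Chev.genBaseB2 (fun r => Cfsg.Agent.Lib.Chev.genWordsB2.getD r []) _ _
      Cfsg.Agent.Lib.Chev.genWordsB2_spec Cfsg.Agent.Lib.Chev.genBaseB2_short Cfsg.Agent.Lib.Chev.genBaseB2_val
      (fun h0 => key2 _ _ Cfsg.Agent.Lib.Chev.good2B2 Cfsg.Agent.Lib.Chev.genBaseB2 (fun r => Cfsg.Agent.Lib.Chev.genWordsB2.getD r []) _ _ _ _ _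
        Cfsg.Agent.Lib.Chev.genWordsB2_spec Cfsg.Agent.Lib.Chev.genCommB2 Cfsg.Agent.Lib.Chev.genLtB2 (hc0 _ (by decide)) _ le_sup_left h0) hshort hi
  · exact key _ _ Cfsg.Agent.Lib.Chev.good2D4 Cfsg.Agent.Lib.Chev.genBaseD4 (fun r => Cfsg.Agent.Lib.Chev.genWordsD4.getD r []) _ _
      Cfsg.Agent.Lib.Chev.genWordsD4_spec Cfsg.Agent.Lib.Chev.genBaseD4_short Cfsg.Agent.Lib.Chev.genBaseD4_val id hshort hi
  · have hc0 : ∀ c : ℤ, (c = 2 ∨ c = -2) → (c : K) ≠ 0 := by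
      have h20 : (2 : K) ≠ 0 := Ring.two_ne_zero (h2 (by simp))
      rintro c (rfl | rfl)
      · simpa using h20
      · simpa using h20
    exact key _ _ Cfsg.Agent.Lib.Chev.good2F4 Cfsg.Agent.Lib.Chev.genBaseF4 (fun r => Cfsg.Agent.Lib.Chev.genWordsF4.getD r []) _ _
      Cfsg.Agent.Lib.Chev.genWordsF4_spec Cfsg.Agent.Lib.Chev.genBaseF4_short Cfsg.Agent.Lib.Chev.genBaseF4_val
      (fun h0 => key2 _ _ Cfsg.Agent.Lib.Chev.good2F4 Cfsg.Agent.Lib.Chev.genBaseF4 (fun r => Cfsg.Agent.Lib.Chev.genWordsF4.getD r []) _ _ _ _ _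
        Cfsg.Agent.Lib.Chev.genWordsF4_spec Cfsg.Agent.Lib.Chev.genCommF4 Cfsg.Agent.Lib.Chev.genLtF4 (hc0 _ (by decide)) _ le_sup_left h0) hshort hi
  · exact key _ _ Cfsg.Agent.Lib.Chev.good2E6 Cfsg.Agent.Lib.Chev.genBaseE6 (fun r => Cfsg.Agent.Lib.Chev.genWordsE6.getD r []) _ _
      Cfsg.Agent.Lib.Chev.genWordsE6_spec Cfsg.Agent.Lib.Chev.genBaseE6_short Cfsg.Agent.Lib.Chev.genBaseE6_val id hshort hi
  · exact key _ _ Cfsg.Agent.Lib.Chev.good2E7 Cfsg.Agent.Lib.Chev.genBaseE7 (fun r => Cfsg.Agent.Lib.Chev.genWordsE7.getD r []) _ _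
      Cfsg.Agent.Lib.Chev.genWordsE7_spec Cfsg.Agent.Lib.Chev.genBaseE7_short Cfsg.Agent.Lib.Chev.genBaseE7_val id hshort hi
  · exact key _ _ Cfsg.Agent.Lib.Chev.good2E8 Cfsg.Agent.Lib.Chev.genBaseE8 (fun r => Cfsg.Agent.Lib.Chev.genWordsE8.getD r []) _ _
      Cfsg.Agent.Lib.Chev.genWordsE8_spec Cfsg.Agent.Lib.Chev.genBaseE8_short Cfsg.Agent.Lib.Chev.genBaseE8_val id hshort hi

end Cfsg.Agent.S2416
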