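import Cfsg.Statements.S2417
import Mathlib
import Cfsg.Agent.Lib.ChevAut.RootGenT

set_option autoImplicit false
open scoped MatrixGroups
open Cfsg

namespace Cfsg.Agent.S2417

/-- In the characteristics with an exceptional graph symmetry — type B₂ or F₄ in characteristic 2 (field of more than two elements for B₂) and type G₂ in characteristic 3 — the Chevalley group lies in the subgroup generated by its monomial subgroup `N` and the two fundamental root subgroups `X_a`, `X_b` of a short root `a` and a long root `b` joined in the Dynkin diagram. -/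
theorem result {K : Type*} [Field K] [Finite K] (e : Cfsg.Lie.ChevalleyDatum × ℕ)
    (he : e ∈ [(Cfsg.Lie.chevB2, 2), (Cfsg.Lie.chevF4, 2), (Cfsg.Lie.chevG2, 3)]) [CharP K e.2]
    (hK : e.1 = Cfsg.Lie.chevB2 → ∃ x : K, x ≠ 0 ∧ x ≠ 1)
    (i j : ℕ) (hi : i < e.1.rank) (hj : j < e.1.rank) (hshort : e.1.isLong (e.1.simple i) = false)
    (hlong : e.1.isLong (e.1.simple j) = true) (hbond : e.1.bonds i j ≠ 0) :
    e.1.group K ≤ e.1.monomialSubgroup K ⊔ e.1.rootSubgroup K (e.1.simple i) ⊔ e.1.rootSubgroup K (e.1.simple j) := by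
  have key : ∀ (D : Cfsg.Lie.ChevalleyDatum) (T : Cfsg.Agent.Lib.Chev.Tbl) (hG : T.Good2 D) (base : ℕ → ℕ)
      (w : ℕ → List ℕ) (r₀ r₁ : ℕ)
      (hw : ∀ r, r < D.nroots → (∀ i ∈ w r, i < D.rank) ∧ base r < D.nroots ∧ Cfsg.Agent.Lib.Chev.wperm T (w r) (base r) = r)
      (hs : ∀ i, i < D.rank → D.isLong (D.simple i) = false → base (D.simple i) = r₀)
      (hl : ∀ i, i < D.rank → D.isLong (D.simple i) = true → base (D.simple i) = r₁)
      (hv : ∀ r, r < D.nroots → base r = r₀ ∨ base r = r₁)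
      (i j : ℕ) (hi : i < D.rank) (hj : j < D.rank) (hshort : D.isLong (D.simple i) = false)
      (hlong : D.isLong (D.simple j) = true),
      D.group K ≤ D.monomialSubgroup K ⊔ D.rootSubgroup K (D.simple i) ⊔ D.rootSubgroup K (D.simple j) := by
    intro D T hG base w r₀ r₁ hw hs hl hv i j hi hj hshort hlong
    have hN : D.monomialSubgroup K ≤ D.monomialSubgroup K ⊔ D.rootSubgroup K (D.simple i) ⊔ D.rootSubgroup K (D.simple j) :=
      le_sup_of_le_left le_sup_left
    have h0 : D.rootSubgroup K r₀ ≤ D.monomialSubgroup K ⊔ D.rootSubgroup K (D.simple i) ⊔ D.rootSubgroup K (D.simple j) := by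
      obtain ⟨h1, h2, h3⟩ := hw _ (hG.simple_lt hi)
      rw [hs i hi hshort] at h2 h3
      refine hG.root_move_back hN h1 h2 ?_
      rw [h3]
      exact le_sup_of_le_left le_sup_right
    have h1 : D.rootSubgroup K r₁ ≤ D.monomialSubgroup K ⊔ D.rootSubgroup K (D.simple i) ⊔ D.rootSubgroup K (D.simple j) := by
      obtain ⟨h1, h2, h3⟩ := hw _ (hG.simple_lt hj)
      rw [hl j hj hlong] at h2 h3
      refine hG.root_move_back hN h1 h2 ?_
      rw [h3]
      exact le_sup_right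
    refine hG.group_le_of_base hN base w hw fun r hr => ?_
    rcases hv r hr with e | e <;> rw [e]
    · exact h0
    · exact h1
  obtain ⟨D, p⟩ := e
  simp only [List.mem_cons, List.not_mem_nil, or_false, Prod.mk.injEq] at he
  rcases he with ⟨rfl, rfl⟩ | ⟨rfl, rfl⟩ | ⟨rfl, rfl⟩
  · exact key _ _ Cfsg.Agent.Lib.Chev.good2B2 Cfsg.Agent.Lib.Chev.genBaseB2 (fun r => Cfsg.Agent.Lib.Chev.genWordsB2.getD r []) _ _
      Cfsg.Agent.Lib.Chev.genWordsB2_spec Cfsg.Agent.Lib.Chev.genBaseB2_short Cfsg.Agent.Lib.Chev.genBaseB2_long Cfsg.Agent.Lib.Chev.genBaseB2_val i j hi hj hshort hlong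
  · exact key _ _ Cfsg.Agent.Lib.Chev.good2F4 Cfsg.Agent.Lib.Chev.genBaseF4 (fun r => Cfsg.Agent.Lib.Chev.genWordsF4.getD r []) _ _
      Cfsg.Agent.Lib.Chev.genWordsF4_spec Cfsg.Agent.Lib.Chev.genBaseF4_short Cfsg.Agent.Lib.Chev.genBaseF4_long Cfsg.Agent.Lib.Chev.genBaseF4_val i j hi hj hshort hlong
  · exact key _ _ Cfsg.Agent.Lib.Chev.good2G2 Cfsg.Agent.Lib.Chev.genBaseG2 (fun r => Cfsg.Agent.Lib.Chev.genWordsG2.getD r []) _ _
      Cfsg.Agent.Lib.Chev.genWordsG2_spec Cfsg.Agent.Lib.Chev.genBaseG2_short Cfsg.Agent.Lib.Chev.genBaseG2_long Cfsg.Agent.Lib.Chev.genBaseG2_val i j hi hj hshort hlong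

end Cfsg.Agent.S2417
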