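import Cfsg.Statements.S2419
import Mathlib
import Cfsg.Agent.Lib.KS2.Cox3

set_option autoImplicit false
open Cfsg

namespace Cfsg.Agent.S2419




/-- The Coxeter groups of types B₂, G₂, E₆, E₇, E₈ are generated by the Coxeter element `s₁ s₂ ⋯ s_l` together with one suitable reflection (a conjugate of a simple reflection); for types D₄ and F₄ the Coxeter element together with two suitable reflections suffices. -/
theorem result (c : (Σ n : ℕ, CoxeterMatrix (Fin n)) × ℕ)
    (hc : c ∈ [(⟨2, CoxeterMatrix.B 2⟩, 1), (⟨2, CoxeterMatrix.G₂⟩, 1), (⟨4, Cfsg.Lie.coxeterD4⟩, 2), (⟨4, CoxeterMatrix.F₄⟩, 2),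
      (⟨6, CoxeterMatrix.E₆⟩, 1), (⟨7, CoxeterMatrix.E₇⟩, 1), (⟨8, CoxeterMatrix.E₈⟩, 1)]) :
    ∃ T : Finset c.1.2.Group, T.card = c.2 ∧ (∀ t ∈ T, ∃ (g : c.1.2.Group) (i : Fin c.1.1), t = g * c.1.2.simple i * g⁻¹) ∧
      Subgroup.closure (({((List.finRange c.1.1).map c.1.2.simple).prod} : Set c.1.2.Group) ∪ ↑T) = ⊤ := by

  classical
  simp only [List.mem_cons, List.not_mem_nil, or_false] at hc
  have key1 : ∀ {n : ℕ} {M : CoxeterMatrix (Fin n)} (i : Fin n),
      (∃ (g : M.Group) (i' : Fin n), M.simple i = g * M.simple i' * g⁻¹) := fun {n M} i => ⟨1, i, by simp⟩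
  rcases hc with rfl | rfl | rfl | rfl | rfl | rfl | rfl
  · refine ⟨{CoxeterMatrix.simple _ 0}, by simp, ?_, ?_⟩
    · intro t ht
      rw [Finset.mem_singleton] at ht
      rw [ht]
      exact key1 _
    · exact Cfsg.Agent.Lib.KS2.Cox.gen_B2 _ (Subgroup.subset_closure (Or.inl rfl)) (Subgroup.subset_closure (Or.inr (by simp)))
  · refine ⟨{CoxeterMatrix.simple _ 0}, by simp, ?_, ?_⟩
    · intro t ht
      rw [Finset.mem_singleton] at ht
      rw [ht]
      exact key1 _
    · exact Cfsg.Agent.Lib.KS2.Cox.gen_G2 _ (Subgroup.subset_closure (Or.inl rfl)) (Subgroup.subset_closure (Or.inr (by simp)))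
  · refine ⟨{CoxeterMatrix.simple _ 0, CoxeterMatrix.simple _ 2}, Finset.card_pair Cfsg.Agent.Lib.KS2.Cox.ne_D4, ?_, ?_⟩
    · intro t ht
      rw [Finset.mem_insert, Finset.mem_singleton] at ht
      rcases ht with rfl | rfl
      · exact key1 _
      · exact key1 _
    · exact Cfsg.Agent.Lib.KS2.Cox.gen_D4 _ (Subgroup.subset_closure (Or.inl rfl)) (Subgroup.subset_closure (Or.inr (by simp))) (Subgroup.subset_closure (Or.inr (by simp)))
  · refine ⟨{CoxeterMatrix.simple _ 0, CoxeterMatrix.simple _ 2}, Finset.card_pair Cfsg.Agent.Lib.KS2.Cox.ne_F4, ?_, ?_⟩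
    · intro t ht
      rw [Finset.mem_insert, Finset.mem_singleton] at ht
      rcases ht with rfl | rfl
      · exact key1 _
      · exact key1 _
    · exact Cfsg.Agent.Lib.KS2.Cox.gen_F4 _ (Subgroup.subset_closure (Or.inl rfl)) (Subgroup.subset_closure (Or.inr (by simp))) (Subgroup.subset_closure (Or.inr (by simp)))
  · refine ⟨{CoxeterMatrix.simple _ 0}, by simp, ?_, ?_⟩
    · intro t ht
      rw [Finset.mem_singleton] at ht
      rw [ht]
      exact key1 _
    · exact Cfsg.Agent.Lib.KS2.Cox.gen_E6 _ (Subgroup.subset_closure (Or.inl rfl)) (Subgroup.subset_closure (Or.inr (by simp)))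
  · refine ⟨{CoxeterMatrix.simple _ 3}, by simp, ?_, ?_⟩
    · intro t ht
      rw [Finset.mem_singleton] at ht
      rw [ht]
      exact key1 _
    · exact Cfsg.Agent.Lib.KS2.Cox.gen_E7 _ (Subgroup.subset_closure (Or.inl rfl)) (Subgroup.subset_closure (Or.inr (by simp)))
  · refine ⟨{CoxeterMatrix.simple _ 3}, by simp, ?_, ?_⟩
    · intro t ht
      rw [Finset.mem_singleton] at ht
      rw [ht]
      exact key1 _
    · exact Cfsg.Agent.Lib.KS2.Cox.gen_E8 _ (Subgroup.subset_closure (Or.inl rfl)) (Subgroup.subset_closure (Or.inr (by simp)))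

end Cfsg.Agent.S2419
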