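import Cfsg.Statements.S2427
import Mathlib

set_option autoImplicit false
set_option maxRecDepth 1000000
open Cfsg

namespace Cfsg.Agent.S2427

open Matrix
open scoped MatrixGroups

/-- The quaternion subgroup of `SL₂(3)`. -/
def qS : Subgroup (SL(2, ZMod 3)) where
  carrier := {g | (g : Matrix (Fin 2) (Fin 2) (ZMod 3)) 0 0 + (g : Matrix (Fin 2) (Fin 2) (ZMod 3)) 1 1 = 0 ∨ g = 1 ∨ g = -1}
  mul_mem' := by
    intro a b
    revert a b
    decide
  one_mem' := Or.inr (Or.inl rfl)
  inv_mem' := by
    intro a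
    revert a
    decide

instance : DecidablePred (· ∈ qS) := fun g => by
  show Decidable (_ ∨ _ ∨ _)
  infer_instance

lemma q_comm : ∀ g h : SL(2, ZMod 3), g * h * g⁻¹ * h⁻¹ ∈ qS := by decide

lemma q_is_comm : ∀ x : SL(2, ZMod 3), x ∈ qS → ∃ a b : SL(2, ZMod 3), x = a * b * a⁻¹ * b⁻¹ := by decide

lemma q_step1 : ∀ g : SL(2, ZMod 3), g ∉ qS → ∃ x : SL(2, ZMod 3),
    ((g⁻¹ * (x * g * x⁻¹) : SL(2, ZMod 3)) : Matrix (Fin 2) (Fin 2) (ZMod 3)) 0 0 +
      ((g⁻¹ * (x * g * x⁻¹) : SL(2, ZMod 3)) : Matrix (Fin 2) (Fin 2) (ZMod 3)) 1 1 = 0 := by decide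

lemma q_step2 : ∀ g : SL(2, ZMod 3), g ∉ qS → ∀ w : SL(2, ZMod 3), w ∈ qS ∨ g⁻¹ * w ∈ qS ∨ g⁻¹ * (g⁻¹ * w) ∈ qS := by decide

lemma q_step3 : ∀ z w : SL(2, ZMod 3),
    (z : Matrix (Fin 2) (Fin 2) (ZMod 3)) 0 0 + (z : Matrix (Fin 2) (Fin 2) (ZMod 3)) 1 1 = 0 → w ∈ qS →
    (∃ x : SL(2, ZMod 3), w = x * z * x⁻¹) ∨ w = z * z ∨ w = 1 := by decide

lemma q_le_of_tr0 (N : Subgroup (SL(2, ZMod 3))) (hN : N.Normal) (z : SL(2, ZMod 3)) (hz : z ∈ N)
    (h0 : (z : Matrix (Fin 2) (Fin 2) (ZMod 3)) 0 0 + (z : Matrix (Fin 2) (Fin 2) (ZMod 3)) 1 1 = 0) : qS ≤ N := by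
  intro w hw
  rcases q_step3 z w h0 hw with ⟨x, rfl⟩ | rfl | rfl
  · exact hN.conj_mem z hz x
  · exact N.mul_mem hz hz
  · exact N.one_mem

/-- The elements `i` and `j`. -/
def qI : SL(2, ZMod 3) := ⟨!![0, 1; -1, 0], by decide⟩
def qJ : SL(2, ZMod 3) := ⟨!![1, 1; 1, -1], by decide⟩

/-- The map from the quaternion group. -/
def qF : QuaternionGroup 2 → SL(2, ZMod 3)
  | QuaternionGroup.a i => qI ^ i.val
  | QuaternionGroup.xa i => qJ * qI ^ i.val

lemma qF_mul : ∀ x y : QuaternionGroup 2, qF (x * y) = qF x * qF y := by decide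

lemma qF_inj : Function.Injective qF := by
  unfold Function.Injective
  decide

lemma qF_mem : ∀ x : QuaternionGroup 2, qF x ∈ qS := by decide

lemma qF_surj : ∀ g : SL(2, ZMod 3), g ∈ qS → ∃ x : QuaternionGroup 2, qF x = g := by decide

/-- The isomorphism. -/
noncomputable def qIso : qS ≃* QuaternionGroup 2 :=
  (MulEquiv.ofBijective
    (MonoidHom.mk' (fun x : QuaternionGroup 2 => (⟨qF x, qF_mem x⟩ : qS))
      (fun x y => Subtype.ext (qF_mul x y)))
    ⟨fun a b h => qF_inj (congrArg Subtype.val h), fun g => by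
      obtain ⟨x, hx⟩ := qF_surj g.1 g.2
      exact ⟨x, Subtype.ext hx⟩⟩).symm


/-- The group SL₂ over the field with 3 elements has order 24 and centre of order 2; its commutator subgroup has order 8, is isomorphic to the quaternion group of order 8 and is complemented by every Sylow 3-subgroup (so the group is a semidirect product of a quaternion group of order 8 by a cyclic group of order 3); and its only normal subgroups besides the trivial subgroup and the whole group are the centre and the commutator subgroup. -/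
theorem result :
    Nat.card (Matrix.SpecialLinearGroup (Fin 2) (ZMod 3)) = 24 ∧
    Nat.card (Subgroup.center (Matrix.SpecialLinearGroup (Fin 2) (ZMod 3))) = 2 ∧
    Nat.card (commutator (Matrix.SpecialLinearGroup (Fin 2) (ZMod 3))) = 8 ∧
    Nonempty (commutator (Matrix.SpecialLinearGroup (Fin 2) (ZMod 3)) ≃* QuaternionGroup 2) ∧
    (∀ P : Sylow 3 (Matrix.SpecialLinearGroup (Fin 2) (ZMod 3)),
      Subgroup.IsComplement' (commutator (Matrix.SpecialLinearGroup (Fin 2) (ZMod 3)))
        (P : Subgroup (Matrix.SpecialLinearGroup (Fin 2) (ZMod 3)))) ∧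
    ∀ N : Subgroup (Matrix.SpecialLinearGroup (Fin 2) (ZMod 3)), N.Normal →
      N = ⊥ ∨ N = ⊤ ∨ N = Subgroup.center (Matrix.SpecialLinearGroup (Fin 2) (ZMod 3)) ∨
        N = commutator (Matrix.SpecialLinearGroup (Fin 2) (ZMod 3)) := by
  have hcardG : Nat.card (SL(2, ZMod 3)) = 24 := by
    rw [Nat.card_eq_fintype_card]
    decide
  have hcenter : ∀ g : SL(2, ZMod 3), g ∈ Subgroup.center (SL(2, ZMod 3)) ↔ g = 1 ∨ g = -1 := by
    intro g
    rw [Subgroup.mem_center_iff]
    revert g
    decide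
  have hQcomm : commutator (SL(2, ZMod 3)) = qS := by
    rw [commutator_def]
    apply le_antisymm
    · rw [Subgroup.commutator_le]
      intro a _ b _
      rw [commutatorElement_def]
      exact q_comm a b
    · intro x hx
      obtain ⟨a, b, rfl⟩ := q_is_comm x hx
      rw [← commutatorElement_def]
      exact Subgroup.commutator_mem_commutator trivial trivial
  have hcQ : Nat.card qS = 8 := by
    rw [Nat.card_eq_fintype_card, Fintype.card_subtype]
    decide
  refine ⟨hcardG, ?_, ?_, ?_, ?_, ?_⟩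
  · rw [Nat.card_eq_two_iff]
    refine ⟨⟨1, (hcenter 1).mpr (Or.inl rfl)⟩, ⟨-1, (hcenter (-1)).mpr (Or.inr rfl)⟩, ?_, ?_⟩
    · intro h
      have : (1 : SL(2, ZMod 3)) = -1 := congrArg Subtype.val h
      exact absurd this (by decide)
    · ext x
      simp only [Set.mem_insert_iff, Set.mem_singleton_iff, Set.mem_univ, iff_true]
      rcases (hcenter x.1).mp x.2 with h | h
      · left; exact Subtype.ext h
      · right; exact Subtype.ext h
  · rw [hQcomm]
    exact hcQ
  · rw [hQcomm]
    exact ⟨qIso⟩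
  · intro P
    rw [hQcomm]
    have hP : Nat.card P = 3 := by
      obtain ⟨k, hk⟩ := IsPGroup.iff_card.mp P.isPGroup'
      have h1 := Subgroup.card_mul_index (P : Subgroup (SL(2, ZMod 3)))
      have h2 := P.not_dvd_index
      rw [hcardG] at h1
      have hk' : Nat.card (P : Subgroup (SL(2, ZMod 3))) = 3 ^ k := hk
      rw [hk'] at h1
      have hk2 : k < 2 := by
        by_contra hge
        have : (3 : ℕ) ^ 2 ∣ 3 ^ k := pow_dvd_pow 3 (by omega)
        have h5 : (3 : ℕ) ^ 2 ∣ 24 := this.trans ⟨_, h1.symm⟩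
        norm_num at h5
      interval_cases k
      · exfalso
        apply h2
        rw [pow_zero, one_mul] at h1
        rw [h1]
        norm_num
      · simpa using hk'
    apply Subgroup.isComplement'_of_coprime
    · rw [hcQ, hP, hcardG]
    · rw [hcQ, hP]
      norm_num
  · intro N hN
    rw [hQcomm]
    by_cases h1 : ∃ g ∈ N, g ∉ qS
    · obtain ⟨g, hg, hgQ⟩ := h1
      right; left
      obtain ⟨x, hx⟩ := q_step1 g hgQ
      have hz : g⁻¹ * (x * g * x⁻¹) ∈ N := N.mul_mem (N.inv_mem hg) (hN.conj_mem g hg x)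
      have hle := q_le_of_tr0 N hN _ hz hx
      rw [eq_top_iff]
      intro w _
      rcases q_step2 g hgQ w with hw | hw | hw
      · exact hle hw
      · have := N.mul_mem hg (hle hw)
        simpa using this
      · have := N.mul_mem hg (N.mul_mem hg (hle hw))
        simpa [mul_assoc] using this
    · push Not at h1
      by_cases h2 : ∃ z ∈ N, ((z : SL(2, ZMod 3)) : Matrix (Fin 2) (Fin 2) (ZMod 3)) 0 0 + ((z : SL(2, ZMod 3)) : Matrix (Fin 2) (Fin 2) (ZMod 3)) 1 1 = 0
      · obtain ⟨z, hz, hz0⟩ := h2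
        right; right; right
        exact le_antisymm h1 (q_le_of_tr0 N hN z hz hz0)
      · push Not at h2
        have h3 : ∀ z ∈ N, z = 1 ∨ z = -1 := by
          intro z hz
          rcases h1 z hz with h | h | h
          · exact absurd h (h2 z hz)
          · exact Or.inl h
          · exact Or.inr h
        by_cases h4 : (-1 : SL(2, ZMod 3)) ∈ N
        · right; right; left
          ext z
          rw [hcenter]
          constructor
          · exact h3 z
          · rintro (rfl | rfl)
            · exact N.one_mem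
            · exact h4
        · left
          rw [eq_bot_iff]
          intro z hz
          rcases h3 z hz with h | h
          · exact h
          · rw [h] at hz
            exact absurd hz h4

end Cfsg.Agent.S2427
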