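import Cfsg.Statements.S2434
import Mathlib
import Cfsg.Agent.Lib.KS2.SLCusp

set_option autoImplicit false
open Cfsg

namespace Cfsg.Agent.S2434

open Cfsg.Agent.Lib.KS2 Cfsg.Agent.Lib.KS2.RK Matrix
open scoped MatrixGroups


/-- Let F be a finite field with q elements, q odd, and C a cyclic subgroup of order q + 1 of SL₂ over F (a non-split torus; it contains the centre). For every homomorphism θ from C to the non-zero complex numbers with θ² ≠ 1 there is an irreducible complex character χ of degree q − 1 such that χ(c) = −θ(c) − θ(c)⁻¹ for every non-central c in C, χ(zg) = θ(z)χ(g) for central z in C, χ vanishes at diagonal elements with entry a, a² ≠ 1, and χ takes the value −1 at every upper unitriangular element other than 1. Conversely every irreducible character of degree q − 1 has, for some such θ, the values −θ(c) − θ(c)⁻¹ at the non-central elements c of C (for q ≥ 5 these are exactly the cuspidal characters of degree q − 1). -/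
theorem result {F : Type*} [Field F] [Fintype F] (hodd : Odd (Fintype.card F))
    (C : Subgroup (Matrix.SpecialLinearGroup (Fin 2) F)) (hC : IsCyclic C) (hcard : Nat.card C = Fintype.card F + 1) :
    (∀ θ : C →* ℂˣ, (∃ c : C, θ c ^ 2 ≠ 1) →
      ∃ χ : Matrix.SpecialLinearGroup (Fin 2) F → ℂ, Cfsg.IsIrrCharacter (Matrix.SpecialLinearGroup (Fin 2) F) χ ∧ χ 1 = (Fintype.card F : ℂ) - 1 ∧
        (∀ c : C, (c : Matrix.SpecialLinearGroup (Fin 2) F) ∉ Subgroup.center (Matrix.SpecialLinearGroup (Fin 2) F) → χ c = -((θ c).val + (θ c)⁻¹.val)) ∧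
        (∀ c : C, (c : Matrix.SpecialLinearGroup (Fin 2) F) ∈ Subgroup.center (Matrix.SpecialLinearGroup (Fin 2) F) → ∀ g : Matrix.SpecialLinearGroup (Fin 2) F, χ ((c : Matrix.SpecialLinearGroup (Fin 2) F) * g) = (θ c).val * χ g) ∧
        (∀ g : Matrix.SpecialLinearGroup (Fin 2) F, (g : Matrix (Fin 2) (Fin 2) F) 0 1 = 0 → (g : Matrix (Fin 2) (Fin 2) F) 1 0 = 0 → (g : Matrix (Fin 2) (Fin 2) F) 0 0 ^ 2 ≠ 1 → χ g = 0) ∧
        (∀ g : Matrix.SpecialLinearGroup (Fin 2) F, (g : Matrix (Fin 2) (Fin 2) F) 1 0 = 0 → (g : Matrix (Fin 2) (Fin 2) F) 0 0 = 1 → (g : Matrix (Fin 2) (Fin 2) F) 1 1 = 1 → (g : Matrix (Fin 2) (Fin 2) F) 0 1 ≠ 0 → χ g = -1)) ∧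
    (∀ χ : Matrix.SpecialLinearGroup (Fin 2) F → ℂ, Cfsg.IsIrrCharacter (Matrix.SpecialLinearGroup (Fin 2) F) χ → χ 1 = (Fintype.card F : ℂ) - 1 →
      ∃ θ : C →* ℂˣ, (∃ c : C, θ c ^ 2 ≠ 1) ∧
        ∀ c : C, (c : Matrix.SpecialLinearGroup (Fin 2) F) ∉ Subgroup.center (Matrix.SpecialLinearGroup (Fin 2) F) → χ c = -((θ c).val + (θ c)⁻¹.val)) := by
  classical
  letI : Fintype (SL(2, F)) := Fintype.ofFinite _
  letI : Fintype (slCx F).Z := Fintype.ofFinite _
  have h2 : (2 : F) ≠ 0 := Cfsg.Agent.Lib.KS2.SL2.two_ne_zero_of_odd hodd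
  have hq1 := sl_q_odd h2
  have hq3 := sl_q_three h2
  obtain ⟨x, φ, hφ⟩ := exists_torus_iso h2 C hC hcard
  have hcl : ∀ {f : SL(2, F) → ℂ}, IsClassFunction SL(2, F) f → ∀ c : C, f ((φ c : (slCx F).T) : SL(2, F)) = f c := by
    intro f hf c
    rw [hφ c]
    have := hf c x⁻¹
    rwa [inv_inv] at this
  have hZ : ∀ c : C, (c : SL(2, F)) ∈ Subgroup.center SL(2, F) ↔ ((φ c : (slCx F).T) : SL(2, F)) ∈ (slCx F).Z := by
    intro c
    rw [← mem_Z_iff_center, hφ c]
    constructor
    · intro h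
      rw [(slCx F).Z_conj h x]
      exact h
    · intro h
      have h3 := (slCx F).Z_conj h x⁻¹
      have h4 : (x⁻¹)⁻¹ * (x⁻¹ * (c : SL(2, F)) * x) * x⁻¹ = c := by group
      rw [h4] at h3
      rw [h3]
      exact h
  have hsq : ∀ θ : (slCx F).T →* ℂˣ, θ = θ.comp (slCx F).sgT ↔ ∀ t, θ t ^ 2 = 1 := by
    intro θ
    constructor
    · intro h t
      have h3 : θ ((slCx F).sgT t) = θ t := (congrArg (fun l : (slCx F).T →* ℂˣ => l t) h).symm
      rw [sgT_eq_inv, map_inv] at h3
      rw [pow_two]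
      nth_rewrite 1 [← h3]
      exact inv_mul_cancel _
    · intro h
      ext t
      rw [MonoidHom.comp_apply, sgT_eq_inv, map_inv]
      congr 1
      exact eq_inv_of_mul_eq_one_left (by rw [← pow_two]; exact h t)
  constructor
  · rintro θ ⟨c₁, hc₁⟩
    set θ' : (slCx F).T →* ℂˣ := θ.comp φ.symm.toMonoidHom with hθ'
    have hθ'φ : ∀ c : C, θ' (φ c) = θ c := by
      intro c
      simp [hθ']
    have hne : θ' ≠ θ'.comp (slCx F).sgT := by
      intro h
      apply hc₁
      rw [← hθ'φ]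
      exact (hsq θ').mp h _
    have hl := (slCx F).lab_comp θ'
    refine ⟨(slCx F).chi ((slCx F).lab θ') θ', (slCx F).chi_irr hl hne, (slCx F).chi_one hl, ?_, ?_, ?_, ?_⟩
    · intro c hc
      rw [← hcl ((slCx F).chi_isClass _ _) c]
      have hz : ((φ c : (slCx F).T) : SL(2, F)) ∉ (slCx F).Z := fun h => hc ((hZ c).mpr h)
      have := (slCx F).chi_T (l := (slCx F).lab θ') (θ := θ') (φ c) hz
      rw [this, sgT_eq_inv, map_inv, hθ'φ]
      ring
    · intro c hc g
      have hz : (c : SL(2, F)) ∈ (slCx F).Z := mem_Z_iff_center.mpr hc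
      have h1 := chi_central hl hne ⟨c, hz⟩ g
      have h3 : (slCx F).zT ⟨c, hz⟩ = φ c := by
        apply Subtype.ext
        rw [hφ c, (slCx F).Z_conj hz x]
        rfl
      rw [h3, hθ'φ] at h1
      exact h1
    · intro g h01 h10 h3
      have ht : g ∉ (slCx F).Z := by
        intro hz
        apply h3
        have hd := SL2.det_rel g
        rw [h01, h10] at hd
        have hz3 : (g : Matrix (Fin 2) (Fin 2) F) 0 0 = (g : Matrix (Fin 2) (Fin 2) F) 1 1 := hz.2.2
        rw [← hz3] at hd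
        rw [pow_two]
        linear_combination hd
      exact (slCx F).chi_diag (l := (slCx F).lab θ') (θ := θ') ⟨g, h01, h10⟩ ht
    · intro g h10 h00 h11 h01
      have hg : g = (slCx F).u ((g : Matrix (Fin 2) (Fin 2) F) 0 1) := by
        apply SL2.ext4
        · rw [slu00, h00]
        · rw [slu01]
        · rw [slu10, h10]
        · rw [slu11, h11]
      rw [hg]
      exact (slCx F).chi_u hl h01
  · intro χ hχ hd
    obtain ⟨P⟩ := exists_oddPack (F := F) h2
    obtain ⟨n, hn, h⟩ := P.cases_deg ⟨χ, hχ⟩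
    change χ 1 = _ at hn
    have hd' : n = Fintype.card F - 1 := by
      rw [pred_cast, hn] at hd
      exact_mod_cast hd
    have hfromQ : ∀ a : (slCx F).Q, ∃ c : C, (a.1.comp φ.toMonoidHom) c ^ 2 ≠ 1 := by
      intro a
      have h3 : ¬ ∀ t, a.1 t ^ 2 = 1 := fun h5 => a.2 ((hsq a.1).mpr h5)
      push Not at h3
      obtain ⟨t, ht⟩ := h3
      refine ⟨φ.symm t, ?_⟩
      simpa using ht
    have hfromE4 : ∀ a : (slCx F).Q, χ = (slCx F).chi ((slCx F).lab a.1) a.1 → ∃ θ : C →* ℂˣ, (∃ c : C, θ c ^ 2 ≠ 1) ∧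
        ∀ c : C, (c : SL(2, F)) ∉ Subgroup.center SL(2, F) → χ c = -((θ c).val + (θ c)⁻¹.val) := by
      intro a e
      refine ⟨a.1.comp φ.toMonoidHom, hfromQ a, ?_⟩
      intro c hc
      rw [e, ← hcl ((slCx F).chi_isClass _ _) c]
      have hz : ((φ c : (slCx F).T) : SL(2, F)) ∉ (slCx F).Z := fun h => hc ((hZ c).mpr h)
      have := (slCx F).chi_T (l := (slCx F).lab a.1) (θ := a.1) (φ c) hz
      rw [this, sgT_eq_inv, map_inv]
      simp only [MonoidHom.comp_apply, MulEquiv.coe_toMonoidHom]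
      ring
    rcases h with h | h | h | h | h | h
    · omega
    · omega
    · omega
    · obtain ⟨_, a, ha⟩ := h
      exact hfromE4 a (congrArg Subtype.val ha).symm
    · -- `q = 3`
      have h53 : Fintype.card F = 3 := by omega
      have hQ : Nonempty (slCx F).Q := by
        have hc := (slCx F).card_Q
        have hz := sl_card_Z_odd h2
        have ht := card_T_sl (F := F)
        apply Nat.card_pos_iff.mp ?_ |>.1
        omega
      obtain ⟨a⟩ := hQ
      refine ⟨a.1.comp φ.toMonoidHom, hfromQ a, ?_⟩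
      intro c hc
      have hz : ((φ c : (slCx F).T) : SL(2, F)) ∉ (slCx F).Z := fun h => hc ((hZ c).mpr h)
      have hNE := NE_of_T (φ c).2 hz
      have hnt := tr_sq_ne_of_NE h2 hNE
      have h7 := theta_sq_q3 h53 a.2 h2 (φ c) hz
      have hval : -((a.1 (φ c)).val + (a.1 (φ c))⁻¹.val) = 0 := by
        have h8 : (((a.1 (φ c))⁻¹ : ℂˣ) : ℂ) * ((a.1 (φ c) : ℂˣ) : ℂ) = 1 := by
          rw [← Units.val_mul, inv_mul_cancel, Units.val_one]
        have h9 : (((a.1 (φ c))⁻¹ : ℂˣ) : ℂ) = - ((a.1 (φ c) : ℂˣ) : ℂ) := by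
          have h10 : ((a.1 (φ c) : ℂˣ) : ℂ) ≠ 0 := Units.ne_zero _
          apply mul_right_cancel₀ h10
          rw [h8]
          linear_combination h7
        rw [h9]
        ring
      have hval' : -(((a.1.comp φ.toMonoidHom) c).val + ((a.1.comp φ.toMonoidHom) c)⁻¹.val) = 0 := hval
      rw [hval']
      have hisC : IsClassFunction SL(2, F) χ := Cfsg.Agent.Lib.Char.IsCharacter.isClassFunction (Cfsg.Agent.Lib.Char.IsIrrCharacter.isCharacter hχ)
      rw [← hcl hisC c]
      rcases h.2 with h5 | h5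
      · have e : χ = P.ξ₁ := congrArg Subtype.val h5
        rw [e, P.xi₁_half h2 hnt, (slCx F).R_no_eig _ hNE]
        simp
      · have e : χ = P.ξ₂ := congrArg Subtype.val h5
        rw [e, P.xi₂_half h2 hnt, (slCx F).R_no_eig _ hNE]
        simp
    · omega

end Cfsg.Agent.S2434
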