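import Cfsg.Statements.S2435
import Mathlib
import Cfsg.Agent.Lib.KS2.SLQuad

set_option autoImplicit false
open Cfsg

namespace Cfsg.Agent.S2435

open Cfsg.Agent.Lib.KS2 Cfsg.Agent.Lib.KS2.RK Matrix
open scoped MatrixGroups


/-- Let F be a finite field with q elements, q odd and q ≥ 5, and χ an irreducible complex character of SL₂ over F. If χ has degree (q + 1)/2, then at a diagonal element with entry a, a² ≠ 1, χ takes the value 1 when a is a square in F and −1 otherwise. If χ has degree (q − 1)/2, then at an element g with no eigenvector in F² (so g has order dividing q + 1), χ takes the value −1 when g raised to the power (q + 1)/2 is the identity and the value 1 otherwise. -/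
theorem result {F : Type*} [Field F] [Fintype F] (hodd : Odd (Fintype.card F)) (hq : 5 ≤ Fintype.card F)
    (χ : Matrix.SpecialLinearGroup (Fin 2) F → ℂ) (hχ : Cfsg.IsIrrCharacter (Matrix.SpecialLinearGroup (Fin 2) F) χ) (g : Matrix.SpecialLinearGroup (Fin 2) F) :
    (χ 1 = (((Fintype.card F + 1) / 2 : ℕ) : ℂ) → (g : Matrix (Fin 2) (Fin 2) F) 0 1 = 0 → (g : Matrix (Fin 2) (Fin 2) F) 1 0 = 0 → (g : Matrix (Fin 2) (Fin 2) F) 0 0 ^ 2 ≠ 1 →
      (IsSquare ((g : Matrix (Fin 2) (Fin 2) F) 0 0) → χ g = 1) ∧ (¬ IsSquare ((g : Matrix (Fin 2) (Fin 2) F) 0 0) → χ g = -1)) ∧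
    (χ 1 = (((Fintype.card F - 1) / 2 : ℕ) : ℂ) → (∀ (c : F) (v : Fin 2 → F), v ≠ 0 → (g : Matrix (Fin 2) (Fin 2) F).mulVec v ≠ c • v) →
      (((g ^ ((Fintype.card F + 1) / 2)) : Matrix (Fin 2) (Fin 2) F) = 1 → χ g = -1) ∧ (((g ^ ((Fintype.card F + 1) / 2)) : Matrix (Fin 2) (Fin 2) F) ≠ 1 → χ g = 1)) := by
  classical
  letI : Fintype (SL(2, F)) := Fintype.ofFinite _
  have h2 : (2 : F) ≠ 0 := Cfsg.Agent.Lib.KS2.SL2.two_ne_zero_of_odd hodd
  obtain ⟨P⟩ := exists_oddPack (F := F) h2
  constructor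
  · intro hd h01 h10 h3
    have hv := P.xi_diag h2 h01 h10 h3
    have hl := P.l₀_val h2 ⟨g, h01, h10⟩
    rcases P.deg_half_succ h2 hq ⟨χ, hχ⟩ hd with h5 | h5
    · have e : χ = P.ξ₁ := congrArg Subtype.val h5
      rw [e, hv.1]
      exact hl
    · have e : χ = P.ξ₂ := congrArg Subtype.val h5
      rw [e, hv.2]
      exact hl
  · intro hd hne
    have hNE : (slCx F).NE g := no_eig_conv _ hne
    obtain ⟨t, hc, hv1, hv2⟩ := P.eta_NE h2 hNE
    have hval := P.θ₀_val h2 t
    have hiff : ((g ^ ((Fintype.card F + 1) / 2) : SL(2, F)) = 1) ↔ t ^ ((Fintype.card F + 1) / 2) = 1 := by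
      have h1 : IsConj (g ^ ((Fintype.card F + 1) / 2)) ((t : SL(2, F)) ^ ((Fintype.card F + 1) / 2)) := hc.pow _
      constructor
      · intro h
        rw [h] at h1
        apply Subtype.ext
        rw [Subgroup.coe_pow, Subgroup.coe_one]
        exact isConj_one_right.mp h1
      · intro h
        have h3 : (t : SL(2, F)) ^ ((Fintype.card F + 1) / 2) = 1 := by
          have := congrArg Subtype.val h
          simpa using this
        rw [h3] at h1
        exact isConj_one_right.mp h1.symm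
    have hmat : (((g : Matrix (Fin 2) (Fin 2) F) ^ ((Fintype.card F + 1) / 2) : Matrix (Fin 2) (Fin 2) F) = 1) ↔ ((g ^ ((Fintype.card F + 1) / 2) : SL(2, F)) = 1) := by
      rw [← Matrix.SpecialLinearGroup.coe_pow]
      constructor
      · intro h
        apply Subtype.ext
        exact h
      · intro h
        rw [h]
        rfl
    have hvalχ : χ g = -((P.θ₀ t : ℂˣ) : ℂ) := by
      rcases P.deg_half_pred h2 hq ⟨χ, hχ⟩ hd with h5 | h5
      · have e : χ = P.η₁ := congrArg Subtype.val h5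
        rw [e, hv1]
      · have e : χ = P.η₂ := congrArg Subtype.val h5
        rw [e, hv2]
    constructor
    · intro h
      rw [hvalχ, hval.1 (hiff.mp (hmat.mp h))]
      simp
    · intro h
      rw [hvalχ, hval.2 (fun h5 => h (hmat.mpr (hiff.mpr h5)))]
      simp

end Cfsg.Agent.S2435
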