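import Cfsg.Statements.S2436
import Mathlib
import Cfsg.Agent.Lib.KS2.McKayP

set_option autoImplicit false
open Cfsg

namespace Cfsg.Agent.S2436

open Cfsg.Agent.Lib.KS2 Cfsg.Agent.Lib.KS2.RK Matrix
open scoped MatrixGroups


/-- Let F be a finite field with q elements, q odd, ℓ any prime and S a Sylow ℓ-subgroup of SL₂ over F with normaliser N. Then SL₂ and N have the same number of irreducible complex characters of degree not divisible by ℓ (the McKay equality holds for SL₂ over F at every prime). -/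
theorem result {F : Type*} [Field F] [Fintype F] (hodd : Odd (Fintype.card F)) (ℓ : ℕ) [Fact ℓ.Prime] (S : Sylow ℓ (Matrix.SpecialLinearGroup (Fin 2) F)) :
    Nat.card {χ : Cfsg.IrrCharacter (Matrix.SpecialLinearGroup (Fin 2) F) // ¬ ℓ ∣ Cfsg.charDegree (χ : Matrix.SpecialLinearGroup (Fin 2) F → ℂ)} =
      Nat.card {ψ : Cfsg.IrrCharacter (Subgroup.normalizer ((S : Subgroup (Matrix.SpecialLinearGroup (Fin 2) F)) : Set (Matrix.SpecialLinearGroup (Fin 2) F))) //
        ¬ ℓ ∣ Cfsg.charDegree (ψ : Subgroup.normalizer ((S : Subgroup (Matrix.SpecialLinearGroup (Fin 2) F)) : Set (Matrix.SpecialLinearGroup (Fin 2) F)) → ℂ)} := by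
  classical
  letI : Fintype (SL(2, F)) := Fintype.ofFinite _
  have h2 : (2 : F) ≠ 0 := Cfsg.Agent.Lib.KS2.SL2.two_ne_zero_of_odd hodd
  obtain ⟨P⟩ := exists_oddPack (F := F) h2
  have hq1 := sl_q_odd h2
  have hq3 := sl_q_three h2
  have hform := P.cnt_formula h2 ℓ
  have hp : ℓ.Prime := Fact.out
  have hcardG : Nat.card SL(2, F) = Fintype.card F * (Fintype.card F - 1) * (Fintype.card F + 1) := by
    rw [SL2.card_SL2]
    have key : ∀ q : ℕ, 2 ≤ q → q * (q ^ 2 - 1) = q * (q - 1) * (q + 1) := by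
      intro q hq
      obtain ⟨k, rfl⟩ : ∃ k, q = k + 1 := ⟨q - 1, by omega⟩
      simp only [Nat.add_sub_cancel]
      have : (k + 1) ^ 2 - 1 = k * (k + 1 + 1) := by
        have : (k + 1) ^ 2 = k * (k + 1 + 1) + 1 := by ring
        omega
      rw [this]; ring
    exact key _ (by omega)
  have h2r : ringChar F ≠ 2 := fun h => h2 (two_eq_zero_iff.mpr h)
  obtain ⟨a, r, s, ha, hrs, hf, hD⟩ := SL2.exists_nonsplit (F := F) h2r
  have hct := SL2.card_torus 0 (-a) hf
  have hcd := SL2.card_dtor (F := F)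
  have hidxT : (SL2.torus 0 (-a)).index = Fintype.card F * (Fintype.card F - 1) := by
    have h1 := Subgroup.card_mul_index (SL2.torus 0 (-a))
    rw [hct, hcardG] at h1
    have : (Fintype.card F + 1) * (SL2.torus 0 (-a)).index = (Fintype.card F + 1) * (Fintype.card F * (Fintype.card F - 1)) := by
      rw [h1]; ring
    exact Nat.eq_of_mul_eq_mul_left (by omega) this
  have hidxD : (SL2.dtor F).index = Fintype.card F * (Fintype.card F + 1) := by
    have h1 := Subgroup.card_mul_index (SL2.dtor F)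
    rw [hcd, hcardG] at h1
    have : (Fintype.card F - 1) * (SL2.dtor F).index = (Fintype.card F - 1) * (Fintype.card F * (Fintype.card F + 1)) := by
      rw [h1]; ring
    exact Nat.eq_of_mul_eq_mul_left (by omega) this
  change cntL ℓ SL(2, F) = cntL ℓ _
  by_cases hℓ2 : ℓ = 2
  · subst hℓ2
    have h2q : ¬ 2 ∣ Fintype.card F := by omega
    have b0 : BL 2 1 = 1 := BL_one (by norm_num)
    have b1 : BL 2 (Fintype.card F) = 1 := BL_one h2q
    have b2 : BL 2 (Fintype.card F + 1) = 0 := BL_zero (by omega)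
    have b3 : BL 2 (Fintype.card F - 1) = 0 := BL_zero (by omega)
    rw [hform, b0, b1, b2, b3]
    by_cases h14 : Fintype.card F % 4 = 1
    · have b4 : BL 2 ((Fintype.card F + 1) / 2) = 1 := BL_one (by omega)
      have b5 : BL 2 ((Fintype.card F - 1) / 2) = 0 := BL_zero (by omega)
      rw [b4, b5]
      have hni : ¬ 4 ∣ (SL2.dtor F).index := by
        rw [hidxD]
        intro hd
        have h5 : (Fintype.card F * (Fintype.card F + 1)) % 4 = 0 := Nat.mod_eq_zero_of_dvd hd
        rw [Nat.mul_mod, Nat.add_mod, h14] at h5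
        norm_num at h5
      rw [cnt_two_main (SL2.isDic_dtor h2) SL2.isCyclic_dtor (by rw [hcd]; omega) hni S]
      simp
    · have h34 : Fintype.card F % 4 = 3 := by omega
      have b4 : BL 2 ((Fintype.card F + 1) / 2) = 0 := BL_zero (by omega)
      have b5 : BL 2 ((Fintype.card F - 1) / 2) = 1 := BL_one (by omega)
      rw [b4, b5]
      have hni : ¬ 4 ∣ (SL2.torus 0 (-a)).index := by
        rw [hidxT]
        intro hd
        obtain ⟨m, hm⟩ : ∃ m, Fintype.card F = 4 * m + 3 := ⟨Fintype.card F / 4, by omega⟩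
        have h5 : Fintype.card F * (Fintype.card F - 1) = 4 * (4 * m * m + 5 * m + 1) + 2 := by
          rw [hm, show 4 * m + 3 - 1 = 4 * m + 2 by omega]; ring
        rw [h5] at hd
        omega
      rw [cnt_two_main hD (SL2.torus_isCyclic 0 (-a) hf) (by rw [hct]; omega) hni S]
      simp
  have hnot2 : ¬ ℓ ∣ 2 := fun e => hℓ2 ((Nat.prime_dvd_prime_iff_eq hp Nat.prime_two).mp e)
  have hnot1 : ¬ ℓ ∣ 1 := fun e => hp.one_lt.ne' (Nat.dvd_one.mp e)
  have b0 : BL ℓ 1 = 1 := BL_one hnot1
  have hhalf : ∀ m n : ℕ, 2 * m = n → (ℓ ∣ n ↔ ℓ ∣ m) := by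
    intro m n hmn
    constructor
    · intro h
      rw [← hmn] at h
      exact (Nat.Prime.dvd_mul hp).mp h |>.resolve_left hnot2
    · intro h
      rw [← hmn]
      exact h.mul_left 2
  have hhp := hhalf ((Fintype.card F + 1) / 2) (Fintype.card F + 1) (by omega)
  have hhm := hhalf ((Fintype.card F - 1) / 2) (Fintype.card F - 1) (by omega)
  by_cases hℓq : ℓ ∣ Fintype.card F
  · have h1 : ¬ ℓ ∣ Fintype.card F + 1 := fun e => hnot1 (by
      have := Nat.dvd_sub e hℓq
      rwa [show Fintype.card F + 1 - Fintype.card F = 1 by omega] at this)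
    have h3 : ¬ ℓ ∣ Fintype.card F - 1 := fun e => hnot1 (by
      have := Nat.dvd_sub hℓq e
      rwa [show Fintype.card F - (Fintype.card F - 1) = 1 by omega] at this)
    rw [hform, cnt_p h2 ℓ hℓq S, b0, BL_zero hℓq, BL_one h1, BL_one h3,
      BL_one (fun e => h1 (hhp.mpr e)), BL_one (fun e => h3 (hhm.mpr e))]
    omega
  by_cases hℓm : ℓ ∣ Fintype.card F - 1
  · have h1 : ¬ ℓ ∣ Fintype.card F + 1 := fun e => hnot2 (by
      have := Nat.dvd_sub e hℓm
      rwa [show Fintype.card F + 1 - (Fintype.card F - 1) = 2 by omega] at this)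
    have hnd : ¬ ℓ ∣ (SL2.dtor F).index := by
      rw [hidxD]
      intro e
      rcases (Nat.Prime.dvd_mul hp).mp e with e | e
      · exact hℓq e
      · exact h1 e
    have hN := IsDic_cnt (SL2.isDic_dtor h2) ℓ hℓ2 (by rw [hcd]; exact hℓm) hnd S
    rw [hcd] at hN
    rw [hform, b0, BL_one hℓq, BL_one h1, BL_zero hℓm, BL_one (fun e => h1 (hhp.mpr e)), BL_zero (hhm.mp hℓm)]
    omega
  by_cases hℓp : ℓ ∣ Fintype.card F + 1
  · have hnd : ¬ ℓ ∣ (SL2.torus 0 (-a)).index := by
      rw [hidxT]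
      intro e
      rcases (Nat.Prime.dvd_mul hp).mp e with e | e
      · exact hℓq e
      · exact hℓm e
    have hN := IsDic_cnt hD ℓ hℓ2 (by rw [hct]; exact hℓp) hnd S
    rw [hct] at hN
    rw [hform, b0, BL_one hℓq, BL_zero hℓp, BL_one hℓm, BL_zero (hhp.mp hℓp), BL_one (fun e => hℓm (hhm.mpr e))]
    omega
  · have hnd : ¬ ℓ ∣ Nat.card SL(2, F) := by
      rw [hcardG]
      intro e
      rcases (Nat.Prime.dvd_mul hp).mp e with e | e
      · rcases (Nat.Prime.dvd_mul hp).mp e with e | e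
        · exact hℓq e
        · exact hℓm e
      · exact hℓp e
    exact (cnt_none ℓ hnd S).symm

end Cfsg.Agent.S2436
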