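import Cfsg.Statements.S2438
import Mathlib
import Cfsg.Agent.Lib.KS2.SLSum

set_option autoImplicit false
open Cfsg

namespace Cfsg.Agent.S2438

open Cfsg.Agent.Lib.KS2 Cfsg.Agent.Lib.KS2.RK Matrix
open scoped MatrixGroups


/-- Let F be a finite field with q elements, q odd, q ≥ 5, U the upper unitriangular subgroup of SL₂ over F, and χ an irreducible complex character. The sum of the values of χ over U equals 2q, q, 0, q, 0 according as the degree of χ is q + 1, q, q − 1, (q + 1)/2, (q − 1)/2; so among these five degrees the sum vanishes exactly for the degrees q − 1 and (q − 1)/2, i.e. the irreducible characters of those two degrees are the ones whose restriction to U does not contain the trivial character (the cuspidal characters), while those of degree q + 1, q and (q + 1)/2 are not cuspidal. -/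
theorem result {F : Type*} [Field F] [Fintype F] [DecidableEq F] (hodd : Odd (Fintype.card F)) (hq : 5 ≤ Fintype.card F)
    (χ : Matrix.SpecialLinearGroup (Fin 2) F → ℂ) (hχ : Cfsg.IsIrrCharacter (Matrix.SpecialLinearGroup (Fin 2) F) χ) :
    (χ 1 = (Fintype.card F : ℂ) + 1 →
      (∑ g : Matrix.SpecialLinearGroup (Fin 2) F, if (g : Matrix (Fin 2) (Fin 2) F) 1 0 = 0 ∧ (g : Matrix (Fin 2) (Fin 2) F) 0 0 = 1 ∧ (g : Matrix (Fin 2) (Fin 2) F) 1 1 = 1 then χ g else 0) = 2 * (Fintype.card F : ℂ)) ∧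
    (χ 1 = (Fintype.card F : ℂ) →
      (∑ g : Matrix.SpecialLinearGroup (Fin 2) F, if (g : Matrix (Fin 2) (Fin 2) F) 1 0 = 0 ∧ (g : Matrix (Fin 2) (Fin 2) F) 0 0 = 1 ∧ (g : Matrix (Fin 2) (Fin 2) F) 1 1 = 1 then χ g else 0) = (Fintype.card F : ℂ)) ∧
    (χ 1 = (Fintype.card F : ℂ) - 1 →
      (∑ g : Matrix.SpecialLinearGroup (Fin 2) F, if (g : Matrix (Fin 2) (Fin 2) F) 1 0 = 0 ∧ (g : Matrix (Fin 2) (Fin 2) F) 0 0 = 1 ∧ (g : Matrix (Fin 2) (Fin 2) F) 1 1 = 1 then χ g else 0) = 0) ∧
    (χ 1 = (((Fintype.card F + 1) / 2 : ℕ) : ℂ) →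
      (∑ g : Matrix.SpecialLinearGroup (Fin 2) F, if (g : Matrix (Fin 2) (Fin 2) F) 1 0 = 0 ∧ (g : Matrix (Fin 2) (Fin 2) F) 0 0 = 1 ∧ (g : Matrix (Fin 2) (Fin 2) F) 1 1 = 1 then χ g else 0) = (Fintype.card F : ℂ)) ∧
    (χ 1 = (((Fintype.card F - 1) / 2 : ℕ) : ℂ) →
      (∑ g : Matrix.SpecialLinearGroup (Fin 2) F, if (g : Matrix (Fin 2) (Fin 2) F) 1 0 = 0 ∧ (g : Matrix (Fin 2) (Fin 2) F) 0 0 = 1 ∧ (g : Matrix (Fin 2) (Fin 2) F) 1 1 = 1 then χ g else 0) = 0) := by
  classical
  have h2 : (2 : F) ≠ 0 := Cfsg.Agent.Lib.KS2.SL2.two_ne_zero_of_odd hodd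
  obtain ⟨P⟩ := exists_oddPack (F := F) h2
  have hq1 := sl_q_odd h2
  obtain ⟨n, hn, h⟩ := P.cases_deg ⟨χ, hχ⟩
  change χ 1 = _ at hn
  have hS := P.xi_swapPair h2
  have hT := P.eta_swapPair h2
  have hhalf1 := sum_half h2 hS (A := (Fintype.card F : ℂ)) (by
    simp only [← P.R_eq]
    rw [sum_u_const (fun c hc => (slCx F).R_u _ hc), (slCx F).R_one]
    ring)
  have hhalf2 := sum_half h2 hT (A := 0) (by
    simp only [← P.chi_eq]
    rw [sum_u_const (fun c hc => (slCx F).chi_u ((slCx F).lab_comp _) hc), (slCx F).chi_one ((slCx F).lab_comp _)]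
    ring)
  simp only [sum_U]
  refine ⟨?_, ?_, ?_, ?_, ?_⟩
  · intro hd
    rw [succ_cast, hn] at hd
    have hd' : n = Fintype.card F + 1 := by exact_mod_cast hd
    rcases h with h | h | h | h | h | h
    · omega
    · omega
    · obtain ⟨_, a, ha⟩ := h
      have e : χ = (slCx F).R a.1 := (congrArg Subtype.val ha).symm
      rw [e, sum_u_const (fun c hc => (slCx F).R_u _ hc), (slCx F).R_one]
      ring
    · omega
    · omega
    · omega
  · intro hd
    rw [hn] at hd
    have hd' : n = Fintype.card F := by exact_mod_cast hd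
    rcases h with h | h | h | h | h | h
    · omega
    · obtain ⟨_, a, ha⟩ := h
      have e : χ = (slCx F).St a.1 := (congrArg Subtype.val ha).symm
      rw [e, sum_u_const (fun c hc => (slCx F).St_u a.2 hc), (slCx F).St_one]
      ring
    · omega
    · omega
    · omega
    · omega
  · intro hd
    rw [pred_cast, hn] at hd
    have hd' : n = Fintype.card F - 1 := by exact_mod_cast hd
    rcases h with h | h | h | h | h | h
    · omega
    · omega
    · omega
    · obtain ⟨_, a, ha⟩ := h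
      have e : χ = (slCx F).chi ((slCx F).lab a.1) a.1 := (congrArg Subtype.val ha).symm
      rw [e, sum_u_const (fun c hc => (slCx F).chi_u ((slCx F).lab_comp _) hc), (slCx F).chi_one ((slCx F).lab_comp _)]
      ring
    · omega
    · omega
  · intro hd
    rcases P.deg_half_succ h2 hq ⟨χ, hχ⟩ hd with h5 | h5
    · have e : χ = P.ξ₁ := congrArg Subtype.val h5
      rw [e]
      exact hhalf1.1
    · have e : χ = P.ξ₂ := congrArg Subtype.val h5
      rw [e]
      exact hhalf1.2
  · intro hd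
    rcases P.deg_half_pred h2 hq ⟨χ, hχ⟩ hd with h5 | h5
    · have e : χ = P.η₁ := congrArg Subtype.val h5
      rw [e]
      exact hhalf2.1
    · have e : χ = P.η₂ := congrArg Subtype.val h5
      rw [e]
      exact hhalf2.2

end Cfsg.Agent.S2438
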