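import Cfsg.Statements.S2439
import Mathlib
import Cfsg.Agent.Lib.SLn.Block
import Cfsg.Agent.Lib.Char.Complete
import Cfsg.Agent.Lib.Block.SubAlg

set_option autoImplicit false
open Cfsg

namespace Cfsg.Agent.S2439

open Cfsg.Agent.Lib.SLn Cfsg.Agent.Lib.Block

section

variable {G : Type*} [Group G] [Finite G]

/-- A central involution acts by a sign. -/
lemma irr_sign {z : G} (hz : z ∈ Subgroup.center G) (hz2 : z * z = 1) (χ : IrrCharacter G) :
    (χ : G → ℂ) z = (χ : G → ℂ) 1 ∨ (χ : G → ℂ) z = -(χ : G → ℂ) 1 := by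
  obtain ⟨f, m, ρ, hρ, rfl⟩ := χ
  show ρ.character z = ρ.character 1 ∨ ρ.character z = -ρ.character 1
  obtain ⟨c, hc⟩ := Cfsg.Agent.Lib.Char.schur_scalar ρ hρ (ρ z) (by
    intro g v
    rw [← Module.End.mul_apply, ← Module.End.mul_apply, ← map_mul, ← map_mul, (Subgroup.mem_center_iff.1 hz g).symm])
  have h1 : c * c = 1 := by
    have h2 : ρ z * ρ z = 1 := by
      rw [← map_mul, hz2, map_one]
    rw [hc] at h2
    have hnt := Cfsg.Agent.Lib.Char.nontrivial_of_irr hρ
    obtain ⟨v, hv⟩ := exists_ne (0 : Fin m → ℂ)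
    have h3 := congrArg (fun T : Module.End ℂ (Fin m → ℂ) => T v) h2
    simp only [Module.End.mul_apply, LinearMap.smul_apply, Module.End.one_apply, map_smul, smul_smul] at h3
    exact smul_left_injective ℂ hv (by simpa using h3)
  have h4 : c = 1 ∨ c = -1 := by
    have h5 : (c - 1) * (c + 1) = 0 := by
      linear_combination h1
    rcases mul_eq_zero.1 h5 with h6 | h6
    · left
      linear_combination h6
    · right
      linear_combination h6
  have h7 : ρ.character z = c * ρ.character 1 := by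
    unfold Representation.character
    rw [hc, map_one, map_smul, smul_eq_mul]
  rcases h4 with rfl | rfl
  · left
    rw [h7, one_mul]
  · right
    rw [h7]
    ring

lemma central_index {z : G} (hz : z ∈ Subgroup.center G) : (Subgroup.centralizer ({z} : Set G)).index = 1 := by
  rw [Subgroup.index_eq_one, eq_top_iff]
  intro g _
  rw [Subgroup.mem_centralizer_iff]
  rintro h rfl
  exact (Subgroup.mem_center_iff.1 hz g).symm

lemma irr_one_ne (χ : IrrCharacter G) : (χ : G → ℂ) 1 ≠ 0 := by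
  obtain ⟨f, m, ρ, hρ, rfl⟩ := χ
  show ρ.character 1 ≠ 0
  rw [Representation.char_one]
  have := Cfsg.Agent.Lib.Char.finrank_pos_of_irr hρ
  exact_mod_cast this.ne'

lemma not_mem_two {p : ℕ} {M : Ideal AlgInt} (hM : IsPModular p M) (hp2 : p ≠ 2) : (2 : AlgInt) ∉ M := by
  intro h
  have hpp : p.Prime := hM.1
  obtain ⟨k, hk⟩ := hpp.odd_of_ne_two hp2
  have h1 : (p : AlgInt) ∈ M := hM.2.2
  have h2 : (1 : AlgInt) ∈ M := by
    have e : (1 : AlgInt) = (p : AlgInt) - 2 * (k : AlgInt) := by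
      rw [hk]
      push_cast
      ring
    rw [e]
    exact M.sub_mem h1 (M.mul_mem_right _ h)
  exact hM.2.1.ne_top ((Ideal.eq_top_iff_one M).2 h2)

lemma not_memLocal_two {p : ℕ} {M : Ideal AlgInt} (hM : IsPModular p M) (hp2 : p ≠ 2) {c : ℂ} (hc : c = 2 ∨ c = -2) :
    ¬ MemLocalIdeal M c := by
  rintro ⟨a, b, ha, hb, e⟩
  have hprime := isPModular_isPrime hM
  have h20 : ((2 : AlgInt) : ℂ) = 2 := map_ofNat (Subalgebra.val (integralClosure ℤ ℂ)) 2
  have hb0 : (b : ℂ) ≠ 0 := by
    intro h0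
    apply hb
    have : b = 0 := Subtype.ext h0
    rw [this]
    exact M.zero_mem
  have h1 : (a : ℂ) = c * b := by
    rw [← e]
    field_simp
  have h2 : (2 : AlgInt) * b ∈ M := by
    rcases hc with rfl | rfl
    · have : a = 2 * b := by
        apply Subtype.ext
        rw [h1]
        simp [h20]
      rw [← this]
      exact ha
    · have : -a = 2 * b := by
        apply Subtype.ext
        have e2 : ((-a : AlgInt) : ℂ) = -(a : ℂ) := rfl
        rw [e2, h1]
        simp [h20]
      rw [← this]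
      exact M.neg_mem ha
  rcases hprime.mem_or_mem h2 with h3 | h3
  · exact not_mem_two hM hp2 h3
  · exact hb h3

/-- Characters in the same block have the same sign at a central involution. -/
lemma sign_of_block {p : ℕ} {M : Ideal AlgInt} (hM : IsPModular p M) (hp2 : p ≠ 2) {z : G} (hz : z ∈ Subgroup.center G)
    {χ ψ : IrrCharacter G} (h : ψ ∈ blockOf M (χ : G → ℂ))
    (hzz : (χ : G → ℂ) z = (χ : G → ℂ) 1 ∧ (ψ : G → ℂ) z = -(ψ : G → ℂ) 1 ∨
      (χ : G → ℂ) z = -(χ : G → ℂ) 1 ∧ (ψ : G → ℂ) z = (ψ : G → ℂ) 1) : False := by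
  have h1 := h z
  unfold centralChar at h1
  rw [central_index hz] at h1
  have hχ := irr_one_ne χ
  have hψ := irr_one_ne ψ
  rcases hzz with ⟨e1, e2⟩ | ⟨e1, e2⟩
  · rw [e1, e2] at h1
    refine not_memLocal_two hM hp2 (Or.inl ?_) h1
    simp only [Nat.cast_one]
    field_simp
    ring
  · rw [e1, e2] at h1
    refine not_memLocal_two hM hp2 (Or.inr ?_) h1
    simp only [Nat.cast_one]
    field_simp
    ring

end

/-- Let F be a finite field with q elements of odd characteristic p, and M a maximal ideal of the algebraic integers containing p. Then SL₂ over F has exactly three p-blocks relative to M: the irreducible character of degree q (the Steinberg character) alone; the other irreducible characters taking the same value at −1 as at 1 (the principal block); and the irreducible characters χ with χ(−1) = −χ(1). Every Sylow p-subgroup is a defect group of each of the last two blocks. -/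
theorem result {F : Type*} [Field F] [Fintype F] (p : ℕ) [Fact p.Prime] [CharP F p] (hp : p ≠ 2)
    (M : Ideal Cfsg.AlgInt) (hM : Cfsg.IsPModular p M) :
    (∀ B : Set (Cfsg.IrrCharacter (Matrix.SpecialLinearGroup (Fin 2) F)), Cfsg.IsPBlock M B ↔
      (B = {χ : Cfsg.IrrCharacter (Matrix.SpecialLinearGroup (Fin 2) F) | (χ : Matrix.SpecialLinearGroup (Fin 2) F → ℂ) 1 = (Fintype.card F : ℂ)} ∨
       B = {χ : Cfsg.IrrCharacter (Matrix.SpecialLinearGroup (Fin 2) F) | (χ : Matrix.SpecialLinearGroup (Fin 2) F → ℂ) (-1) = (χ : Matrix.SpecialLinearGroup (Fin 2) F → ℂ) 1 ∧ (χ : Matrix.SpecialLinearGroup (Fin 2) F → ℂ) 1 ≠ (Fintype.card F : ℂ)} ∨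
       B = {χ : Cfsg.IrrCharacter (Matrix.SpecialLinearGroup (Fin 2) F) | (χ : Matrix.SpecialLinearGroup (Fin 2) F → ℂ) (-1) = -(χ : Matrix.SpecialLinearGroup (Fin 2) F → ℂ) 1})) ∧
    Nat.card {B : Set (Cfsg.IrrCharacter (Matrix.SpecialLinearGroup (Fin 2) F)) // Cfsg.IsPBlock M B} = 3 ∧
    ∀ P : Sylow p (Matrix.SpecialLinearGroup (Fin 2) F),
      Cfsg.IsDefectGroup p M {χ : Cfsg.IrrCharacter (Matrix.SpecialLinearGroup (Fin 2) F) | (χ : Matrix.SpecialLinearGroup (Fin 2) F → ℂ) (-1) = (χ : Matrix.SpecialLinearGroup (Fin 2) F → ℂ) 1 ∧ (χ : Matrix.SpecialLinearGroup (Fin 2) F → ℂ) 1 ≠ (Fintype.card F : ℂ)} (P : Subgroup (Matrix.SpecialLinearGroup (Fin 2) F)) ∧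
      Cfsg.IsDefectGroup p M {χ : Cfsg.IrrCharacter (Matrix.SpecialLinearGroup (Fin 2) F) | (χ : Matrix.SpecialLinearGroup (Fin 2) F → ℂ) (-1) = -(χ : Matrix.SpecialLinearGroup (Fin 2) F → ℂ) 1} (P : Subgroup (Matrix.SpecialLinearGroup (Fin 2) F)) := by
  classical
  have hpp : p.Prime := Fact.out
  haveI := isPModular_isPrime hM
  set G := Matrix.SpecialLinearGroup (Fin 2) F with hG
  letI : Fintype G := Fintype.ofFinite _
  have hn2 : 2 ≤ 2 := le_rfl
  have hn0 : 0 < 2 := by norm_num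
  set q := Fintype.card F with hq
  obtain ⟨f, _, hf⟩ := FiniteField.card F p
  have hq1 : 1 ≤ q := Fintype.card_pos
  have hodd : Odd q := by
    rw [hq, hf]
    exact (hpp.odd_of_ne_two hp).pow
  have hq3 : 3 ≤ q := by
    have h1 : 1 < q := Fintype.one_lt_card
    obtain ⟨k, hk⟩ := hodd
    omega
  -- the central involution
  set z : G := -1 with hz
  have hzc : z ∈ Subgroup.center G := by
    rw [Subgroup.mem_center_iff]
    intro g
    rw [hz, mul_neg, neg_mul, mul_one, one_mul]
  have hz2 : z * z = 1 := by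
    rw [hz, neg_mul_neg, one_mul]
  have hz1 : z ≠ 1 := by
    intro h
    have h1 : (-1 : Matrix (Fin 2) (Fin 2) F) 0 0 = (1 : Matrix (Fin 2) (Fin 2) F) 0 0 := congrArg (fun g : G => g.1 0 0) h
    simp only [Matrix.neg_apply, Matrix.one_apply_eq] at h1
    have h2 : ((2 : ℕ) : F) = 0 := by
      push_cast
      linear_combination -h1
    have h3 := (CharP.cast_eq_zero_iff F p 2).1 h2
    exact hp ((Nat.prime_dvd_prime_iff_eq hpp Nat.prime_two).1 h3)
  -- the Steinberg character
  let St : IrrCharacter G := StI hn0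
  have hSt1 : (St : G → ℂ) 1 = (q : ℂ) := by
    have h := StI_one (n := 2) (F := F) hn0
    simpa using h
  have hStz : (St : G → ℂ) z = (St : G → ℂ) 1 := by
    show Cfsg.Agent.Lib.GLFlag.unipotentPSL F 2 (fun _ => 1) (Cfsg.Agent.Lib.GLFlag.pSL z) =
      Cfsg.Agent.Lib.GLFlag.unipotentPSL F 2 (fun _ => 1) (Cfsg.Agent.Lib.GLFlag.pSL 1)
    congr 1
    rw [map_one]
    exact (QuotientGroup.eq_one_iff z).2 hzc
  have hSt : ∀ χ : IrrCharacter G, p ^ (Nat.card G).factorization p ∣ charDegree (χ : G → ℂ) → χ = St :=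
    fun χ hχ => St_unique hn2 p χ hχ
  have hStdeg : p ^ (Nat.card G).factorization p ∣ charDegree (St : G → ℂ) := ppart_SL p _ (StI_deg hn0)
  have hR : ∀ D₀ : Subgroup G, IsPGroup p D₀ → D₀ ≠ ⊥ →
      (∀ Q : Subgroup (Subgroup.normalizer (D₀ : Set G)), Q.Normal → IsPGroup p Q → Q ≤ D₀.subgroupOf (Subgroup.normalizer (D₀ : Set G))) →
      ∀ x ∈ Subgroup.centralizer (D₀ : Set G), ¬ p ∣ orderOf x → x ∈ Subgroup.center G :=
    fun D₀ h1 h2 h3 x h4 h5 => rad_sl hn0 p D₀ h1 h2 h3 x h4 h5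
  have hS1 : ∀ χ : IrrCharacter G, (χ : G → ℂ) 1 = (q : ℂ) ↔ χ = St := by
    intro χ
    constructor
    · intro h
      apply hSt
      have h1 : charDegree (χ : G → ℂ) = q := Cfsg.Agent.Lib.Char.charDegree_natCast h
      rw [h1]
      exact ppart_SL p q (by simp [hq])
    · rintro rfl
      exact hSt1
  have hsing : blockOf M (St : G → ℂ) = {St} := by
    apply blockOf_eq_singleton_of_not_dvd hM
    rw [not_dvd_card_div_iff hpp (Cfsg.Agent.Lib.Char.charDegree_dvd_card St.2)]
    exact hStdeg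
  -- the characters
  let one : IrrCharacter G := oneIrr G
  have hone1 : (one : G → ℂ) z = (one : G → ℂ) 1 := rfl
  have hone : one ≠ St := by
    intro h
    have h1 := hSt1
    rw [← h] at h1
    have h2 : (1 : ℂ) = (q : ℂ) := h1
    have h3 : 1 = q := by exact_mod_cast h2
    omega
  obtain ⟨χm, hχm⟩ : ∃ χ : IrrCharacter G, (χ : G → ℂ) z = -(χ : G → ℂ) 1 := by
    have h1 : ¬ IsConj z 1 := by
      intro h
      exact hz1 (isConj_one_left.1 h)
    rw [Cfsg.Agent.Lib.Char.isConj_iff_forall_irr] at h1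
    push Not at h1
    obtain ⟨χ, hχ⟩ := h1
    exact ⟨χ, (irr_sign hzc hz2 χ).resolve_left hχ⟩
  have hχmSt : χm ≠ St := by
    rintro rfl
    rw [hStz] at hχm
    have h1 := irr_one_ne St
    apply h1
    linear_combination hχm / 2
  -- the number of blocks
  have hgcd : Nat.gcd 2 (q - 1) = 2 := by
    apply Nat.gcd_eq_left
    obtain ⟨k, hk⟩ := hodd
    exact ⟨k, by omega⟩
  have hcard : Nat.card {B : Set (IrrCharacter G) // IsPBlock M B} = 3 := by
    have h := card_blocks_SL (n := 2) (F := F) hn2 p M hM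
    rw [← hq, hgcd] at h
    exact h
  -- three blocks
  have hsame : ∀ {χ ψ : IrrCharacter G}, ψ ∈ blockOf M (χ : G → ℂ) → (χ : G → ℂ) z = (χ : G → ℂ) 1 →
      (ψ : G → ℂ) z = (ψ : G → ℂ) 1 := by
    intro χ ψ h e
    rcases irr_sign hzc hz2 ψ with h1 | h1
    · exact h1
    · exact (sign_of_block hM hp hzc h (Or.inl ⟨e, h1⟩)).elim
  have hsame' : ∀ {χ ψ : IrrCharacter G}, ψ ∈ blockOf M (χ : G → ℂ) → (χ : G → ℂ) z = -(χ : G → ℂ) 1 →
      (ψ : G → ℂ) z = -(ψ : G → ℂ) 1 := by
    intro χ ψ h e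
    rcases irr_sign hzc hz2 ψ with h1 | h1
    · exact (sign_of_block hM hp hzc h (Or.inr ⟨e, h1⟩)).elim
    · exact h1
  have hsgn : ∀ χ : IrrCharacter G, (χ : G → ℂ) z = (χ : G → ℂ) 1 → (χ : G → ℂ) z = -(χ : G → ℂ) 1 → False := by
    intro χ h1 h2
    apply irr_one_ne χ
    rw [h1] at h2
    linear_combination h2 / 2
  let B₁ : Set (IrrCharacter G) := blockOf M (St : G → ℂ)
  let B₂ : Set (IrrCharacter G) := blockOf M (one : G → ℂ)
  let B₃ : Set (IrrCharacter G) := blockOf M (χm : G → ℂ)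
  have hB₁ : IsPBlock M B₁ := isPBlock_blockOf St
  have hB₂ : IsPBlock M B₂ := isPBlock_blockOf one
  have hB₃ : IsPBlock M B₃ := isPBlock_blockOf χm
  have hne12 : B₁ ≠ B₂ := by
    intro h
    have h1 : one ∈ B₁ := h ▸ mem_blockOf_self one
    have h2 : one ∈ blockOf M (St : G → ℂ) := h1
    rw [hsing] at h2
    exact hone h2
  have hne13 : B₁ ≠ B₃ := by
    intro h
    have h1 : χm ∈ B₁ := h ▸ mem_blockOf_self χm
    have h2 : χm ∈ blockOf M (St : G → ℂ) := h1
    rw [hsing] at h2
    exact hχmSt h2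
  have hne23 : B₂ ≠ B₃ := by
    intro h
    have h1 : χm ∈ B₂ := h ▸ mem_blockOf_self χm
    exact hsgn χm (hsame h1 hone1) hχm
  have hall : ∀ B, IsPBlock M B → B = B₁ ∨ B = B₂ ∨ B = B₃ := by
    intro B hB
    have hfin : Finite {B : Set (IrrCharacter G) // IsPBlock M B} := by
      apply Nat.finite_of_card_ne_zero
      rw [hcard]
      norm_num
    letI := Fintype.ofFinite {B : Set (IrrCharacter G) // IsPBlock M B}
    let t₁ : {B : Set (IrrCharacter G) // IsPBlock M B} := ⟨B₁, hB₁⟩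
    let t₂ : {B : Set (IrrCharacter G) // IsPBlock M B} := ⟨B₂, hB₂⟩
    let t₃ : {B : Set (IrrCharacter G) // IsPBlock M B} := ⟨B₃, hB₃⟩
    have h12 : t₁ ≠ t₂ := fun e => hne12 (congrArg Subtype.val e)
    have h13 : t₁ ≠ t₃ := fun e => hne13 (congrArg Subtype.val e)
    have h23 : t₂ ≠ t₃ := fun e => hne23 (congrArg Subtype.val e)
    have hc : ({t₁, t₂, t₃} : Finset {B : Set (IrrCharacter G) // IsPBlock M B}).card = 3 := by
      rw [Finset.card_insert_of_notMem (by simp [h12, h13]), Finset.card_insert_of_notMem (by simp [h23]), Finset.card_singleton]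
    have hu : ({t₁, t₂, t₃} : Finset {B : Set (IrrCharacter G) // IsPBlock M B}) = Finset.univ := by
      apply Finset.eq_univ_of_card
      rw [hc, ← Nat.card_eq_fintype_card, hcard]
    have hm : (⟨B, hB⟩ : {B : Set (IrrCharacter G) // IsPBlock M B}) ∈ ({t₁, t₂, t₃} : Finset {B : Set (IrrCharacter G) // IsPBlock M B}) := by
      rw [hu]
      exact Finset.mem_univ _
    simp only [Finset.mem_insert, Finset.mem_singleton] at hm
    rcases hm with h | h | h
    · exact Or.inl (congrArg Subtype.val h)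
    · exact Or.inr (Or.inl (congrArg Subtype.val h))
    · exact Or.inr (Or.inr (congrArg Subtype.val h))
  have hwhere : ∀ χ : IrrCharacter G, χ = St ∨ χ ∈ B₂ ∨ χ ∈ B₃ := by
    intro χ
    rcases hall _ (isPBlock_blockOf χ) with h | h | h
    · left
      have h1 : χ ∈ blockOf M (St : G → ℂ) := by
        have := mem_blockOf_self (M := M) χ
        rw [h] at this
        exact this
      rw [hsing] at h1
      exact h1
    · right
      left
      have := mem_blockOf_self (M := M) χ
      rw [h] at this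
      exact this
    · right
      right
      have := mem_blockOf_self (M := M) χ
      rw [h] at this
      exact this
  have hE₁ : B₁ = {χ : IrrCharacter G | (χ : G → ℂ) 1 = (q : ℂ)} := by
    show blockOf M (St : G → ℂ) = _
    rw [hsing]
    ext χ
    exact (hS1 χ).symm
  have hStB₂ : St ∉ B₂ := by
    intro h
    have h1 : B₂ = B₁ := (blockOf_eq_of_mem hB₂ h)
    exact hne12 h1.symm
  have hStB₃ : St ∉ B₃ := by
    intro h
    have h1 : B₃ = B₁ := (blockOf_eq_of_mem hB₃ h)
    exact hne13 h1.symm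
  have hE₂ : B₂ = {χ : IrrCharacter G | (χ : G → ℂ) z = (χ : G → ℂ) 1 ∧ (χ : G → ℂ) 1 ≠ (q : ℂ)} := by
    ext χ
    constructor
    · intro h
      refine ⟨hsame h hone1, fun e => ?_⟩
      rw [(hS1 χ).1 e] at h
      exact hStB₂ h
    · rintro ⟨h1, h2⟩
      rcases hwhere χ with h3 | h3 | h3
      · exact absurd ((hS1 χ).2 h3) h2
      · exact h3
      · exact (hsgn χ h1 (hsame' h3 hχm)).elim
  have hE₃ : B₃ = {χ : IrrCharacter G | (χ : G → ℂ) z = -(χ : G → ℂ) 1} := by
    ext χ
    constructor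
    · intro h
      exact hsame' h hχm
    · intro h1
      rcases hwhere χ with h3 | h3 | h3
      · rw [h3] at h1
        exact (hsgn St hStz h1).elim
      · exact (hsgn χ (hsame h3 hone1) h1).elim
      · exact h3
  refine ⟨fun B => ?_, hcard, fun P => ?_⟩
  · constructor
    · intro hB
      rcases hall B hB with h | h | h
      · exact Or.inl (h.trans hE₁)
      · exact Or.inr (Or.inl (h.trans hE₂))
      · exact Or.inr (Or.inr (h.trans hE₃))
    · rintro (h | h | h)
      · rw [h, ← hE₁]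
        exact hB₁
      · rw [h, ← hE₂]
        exact hB₂
      · rw [h, ← hE₃]
        exact hB₃
  · constructor
    · rw [← hE₂]
      obtain ⟨S, hS⟩ := Cfsg.Agent.Lib.BNSt.exists_sylow_defect hM hSt hR hB₂ hStB₂
      exact Cfsg.Agent.Lib.BNSt.defect_of_sylow hS P
    · rw [← hE₃]
      obtain ⟨S, hS⟩ := Cfsg.Agent.Lib.BNSt.exists_sylow_defect hM hSt hR hB₃ hStB₃
      exact Cfsg.Agent.Lib.BNSt.defect_of_sylow hS P

end Cfsg.Agent.S2439
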