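import Cfsg.Statements.S2531
import Mathlib
import Cfsg.Agent.Lib.Known3.Sharp

set_option autoImplicit false
open Cfsg

namespace Cfsg.Agent.S2531

/-- Let `F` be a finite field and `n ≥ 3`. No set of permutations of the points of the projective space of `Fⁿ`, each induced by an invertible semilinear transformation of `Fⁿ` (so a subset of the full projective semilinear group), is sharply 2-transitive on the points: it is impossible that for all pairs of distinct points `(a, b)` and `(c, d)` exactly one member of the set sends `a` to `c` and `b` to `d`. -/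
theorem result {F : Type*} [Field F] [Finite F]
    (n : ℕ) (hn : 3 ≤ n) (S : Set (Equiv.Perm (Projectivization F (Fin n → F))))
    (hS : ∀ s ∈ S, ∃ (σ : F ≃+* F) (f : (Fin n → F) →ₛₗ[(σ : F →+* F)] (Fin n → F)) (hf : Function.Injective f),
      ∀ x, s x = Projectivization.map f hf x) :
    ¬ (∀ a b c d : Projectivization F (Fin n → F), a ≠ b → c ≠ d →
        ∃! s, s ∈ S ∧ s a = c ∧ s b = d) := by
  intro hsharp
  obtain ⟨d, rfl⟩ : ∃ d, n = d + 3 := ⟨n - 3, by omega⟩
  let φ : (Fin (d + 3) → F) →ₗ[F] F := LinearMap.proj 0
  have hsurj : LinearMap.range φ = ⊤ := LinearMap.range_eq_top.2 (LinearMap.proj_surjective 0)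
  have h1 := LinearMap.finrank_range_add_finrank_ker φ
  rw [hsurj, finrank_top, Module.finrank_self, Module.finrank_fintype_fun_eq_card, Fintype.card_fin] at h1
  have hH : Module.finrank F (LinearMap.ker φ) = (d + 1) + 1 := by omega
  refine Cfsg.Agent.Lib.Known3.Sharp.no_sharp (d := d + 1) (by omega) (by simp) (LinearMap.ker φ) hH (Pi.single 0 1) ?_ S hS hsharp
  simp [φ]

end Cfsg.Agent.S2531
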