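import Cfsg.Statements.S2532
import Mathlib
import Cfsg.Agent.Lib.Known3.AltCent

set_option autoImplicit false
open Cfsg

namespace Cfsg.Agent.S2532

/-- There is a function `f` of two natural-number arguments such that, whenever `m ≥ f(n, r)`, every subgroup of order `n` of the alternating group of degree `m` centralizes some subgroup of that alternating group isomorphic to the alternating group of degree `r`. -/
theorem result :
    ∃ f : ℕ → ℕ → ℕ, ∀ (m r : ℕ) (H : Subgroup ↥(alternatingGroup (Fin m))), f (Nat.card H) r ≤ m →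
      ∃ K : Subgroup ↥(alternatingGroup (Fin m)), Nonempty (↥K ≃* ↥(alternatingGroup (Fin r))) ∧
        K ≤ Subgroup.centralizer (H : Set ↥(alternatingGroup (Fin m))) := by
  open Cfsg.Agent.Lib.Known3.AltCent in
  refine ⟨fun n r => n * (2 ^ n * r), ?_⟩
  intro m r H hle
  let G : Subgroup (Equiv.Perm (Fin m)) := H.map (alternatingGroup (Fin m)).subtype
  have hcard : Nat.card G = Nat.card H := by
    exact Nat.card_congr (Subgroup.equivMapOfInjective H _ (Subgroup.subtype_injective _)).symm.toEquiv
  have hle' : Nat.card G * (2 ^ Nat.card G * r) ≤ Fintype.card (Fin m) := by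
    rw [hcard, Fintype.card_fin]
    exact hle
  obtain ⟨ψ, hψ, hcomm⟩ := exists_hom G r hle'
  let ψ' : ↥(alternatingGroup (Fin r)) →* ↥(alternatingGroup (Fin m)) :=
    MonoidHom.codRestrict (ψ.comp (alternatingGroup (Fin r)).subtype) (alternatingGroup (Fin m)) (fun σ => by
      rw [Equiv.Perm.mem_alternatingGroup]
      exact sign_eq_one ψ σ.1 (Equiv.Perm.mem_alternatingGroup.1 σ.2))
  have hinj : Function.Injective ψ' := by
    intro a b hab
    apply Subtype.ext
    apply hψ
    exact congrArg Subtype.val hab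
  refine ⟨ψ'.range, ⟨(MonoidHom.ofInjective hinj).symm⟩, ?_⟩
  rintro _ ⟨σ, rfl⟩
  rw [Subgroup.mem_centralizer_iff]
  intro h hh
  apply Subtype.ext
  exact hcomm h.1 ⟨h, hh, rfl⟩ σ.1

end Cfsg.Agent.S2532
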