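import Cfsg.Statements.S2537
import Mathlib
import Cfsg.Agent.Lib.Classical.Dick.Min
import Cfsg.Agent.Lib.Classical.Dick.NV2
import Cfsg.Agent.Lib.Classical.Dick.TorN
import Cfsg.Agent.Lib.Hall.Basic

set_option autoImplicit false
open Cfsg

namespace Cfsg.Agent.S2537

open Cfsg.Agent.Lib.Classical.Dick Cfsg.Agent.Lib.KS2.SL2

lemma decomp_23 (m : ℕ) (hm : m ≠ 0) : ∃ m', m = 2 ^ (m.factorization 2) * 3 ^ (m.factorization 3) * m' ∧
    ¬ 2 ∣ m' ∧ ¬ 3 ∣ m' := by
  have h1 := Nat.ordProj_mul_ordCompl_eq_self m 2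
  have h2 : ¬ 2 ∣ m / 2 ^ m.factorization 2 := Nat.not_dvd_ordCompl Nat.prime_two hm
  set n := m / 2 ^ m.factorization 2 with hn
  have hn0 : n ≠ 0 := by
    rintro h
    rw [h] at h2
    exact h2 (dvd_zero _)
  have h3 := Nat.ordProj_mul_ordCompl_eq_self n 3
  have h4 : ¬ 3 ∣ n / 3 ^ n.factorization 3 := Nat.not_dvd_ordCompl Nat.prime_three hn0
  have h5 : n.factorization 3 = m.factorization 3 := by
    rw [hn, Nat.factorization_ordCompl]
    simp
  rw [h5] at h3 h4
  refine ⟨n / 3 ^ m.factorization 3, ?_, ?_, h4⟩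
  · nth_rewrite 1 [← h1, ← h3]
    ring
  · intro h
    apply h2
    exact h.trans (Nat.div_dvd_of_dvd (by
      rw [← h3]
      exact Dvd.intro _ rfl))

section

variable {F : Type*} [Field F] [Fintype F]

local notation "PP" => Matrix.ProjectiveSpecialLinearGroup (Fin 2) F
open scoped MatrixGroups

/-- The subgroup attached to a torus. -/
lemma hall_of_torus {q : ℕ} (hq : Fintype.card F = q) (hc2 : ringChar F ≠ 2) (h3q : ¬ 3 ∣ q) (hoq : ¬ 2 ∣ q)
    (x : SL(2, F)) (hτ : (tr x) ^ 2 ≠ 4) (d w : ℕ)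
    (hd : 2 * Nat.card (CP (pi x) : Subgroup PP) = d) (hm : q ^ 2 - 1 = d * (2 * w)) (h2w : ¬ 2 ∣ w) (h3w : ¬ 3 ∣ w) :
    ∃ H : Subgroup PP, Cfsg.IsPiHall ({2, 3} : Set ℕ) H := by
  classical
  set N := Subgroup.normalizer ((CP (pi x) : Subgroup PP) : Set PP) with hN
  have hcN : Nat.card N = d := by
    rw [hN, card_normalizer_torus x hτ, hd]
  obtain ⟨i⟩ := normalizer_dihedral x hτ
  have hsol : Group.IsSolvable N := by
    haveI := solvable_dihedral (Nat.card (CP (pi x) : Subgroup PP))
    exact solvable_of_surjective (f := i.symm.toMonoidHom) i.symm.surjective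
  have hd0 : d ≠ 0 := by
    intro h
    have : 0 < Nat.card N := Nat.card_pos
    omega
  obtain ⟨v, hv, h2v, h3v⟩ := decomp_23 d hd0
  set u := 2 ^ d.factorization 2 * 3 ^ d.factorization 3 with hu
  have hcop : u.Coprime v := by
    apply Nat.Coprime.mul_left
    · exact Nat.Coprime.pow_left _ ((Nat.Prime.coprime_iff_not_dvd Nat.prime_two).mpr h2v)
    · exact Nat.Coprime.pow_left _ ((Nat.Prime.coprime_iff_not_dvd Nat.prime_three).mpr h3v)
  obtain ⟨K, hK⟩ := Cfsg.Agent.Lib.Hall.exists_card_eq_of_solvable (G := N) u v (by rw [hcN]; exact hv) hcop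
  refine ⟨K.map N.subtype, ?_, ?_⟩
  · intro r hr hrd
    have hc : Nat.card (K.map N.subtype) = u := by
      rw [← hK]
      exact Nat.card_congr (Subgroup.equivMapOfInjective K N.subtype N.subtype_injective).symm.toEquiv
    rw [hc, hu] at hrd
    rcases (Nat.Prime.dvd_mul hr).mp hrd with h | h
    · left
      exact (Nat.prime_dvd_prime_iff_eq hr Nat.prime_two).mp (hr.dvd_of_dvd_pow h)
    · right
      exact (Nat.prime_dvd_prime_iff_eq hr Nat.prime_three).mp (hr.dvd_of_dvd_pow h)
  · intro r hr hrπ hrd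
    have hc : Nat.card (K.map N.subtype) = u := by
      rw [← hK]
      exact Nat.card_congr (Subgroup.equivMapOfInjective K N.subtype N.subtype_injective).symm.toEquiv
    have h1 := Subgroup.card_mul_index (K.map N.subtype)
    rw [hc] at h1
    have hP := card_PP_eq (F := F)
    rw [card_roots1_odd hc2, hq, hm, hv, ← h1] at hP
    have hupos : 0 < u := by
      rw [hu]; positivity
    have hidx : (K.map N.subtype).index = q * v * w := by
      apply Nat.eq_of_mul_eq_mul_left (show 0 < 2 * u by omega)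
      calc 2 * u * (K.map N.subtype).index = 2 * (u * (K.map N.subtype).index) := by ring
        _ = q * (u * v * (2 * w)) := hP
        _ = 2 * u * (q * v * w) := by ring
    rw [hidx] at hrd
    have hr' : r = 2 ∨ r = 3 := hrπ
    rcases hr' with rfl | rfl
    · rcases (Nat.Prime.dvd_mul hr).mp hrd with h | h
      · rcases (Nat.Prime.dvd_mul hr).mp h with h | h
        · exact hoq h
        · exact h2v h
      · exact h2w h
    · rcases (Nat.Prime.dvd_mul hr).mp hrd with h | h
      · rcases (Nat.Prime.dvd_mul hr).mp h with h | h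
        · exact h3q h
        · exact h3v h
      · exact h3w h

/-- A subgroup of order `c` with `2c = D`. -/
lemma hall_of_card {q : ℕ} (hq : Fintype.card F = q) (hc2 : ringChar F ≠ 2) (h3q : ¬ 3 ∣ q) (hoq : ¬ 2 ∣ q)
    (H : Subgroup PP) (c m' : ℕ) (hH : Nat.card H = c) (hc : c = 12 ∨ c = 24)
    (hm : q ^ 2 - 1 = 2 * c * m') (h2 : ¬ 2 ∣ m') (h3 : ¬ 3 ∣ m') : Cfsg.IsPiHall ({2, 3} : Set ℕ) H := by
  refine ⟨?_, ?_⟩
  · intro r hr hrd
    rw [hH] at hrd
    have h4 : r ∣ 2 ^ 3 * 3 := by
      rcases hc with rfl | rfl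
      · exact hrd.trans (by norm_num)
      · exact hrd
    rcases (Nat.Prime.dvd_mul hr).mp h4 with h | h
    · left
      exact (Nat.prime_dvd_prime_iff_eq hr Nat.prime_two).mp (hr.dvd_of_dvd_pow h)
    · right
      exact (Nat.prime_dvd_prime_iff_eq hr Nat.prime_three).mp h
  · intro r hr hrπ hrd
    have h1 := Subgroup.card_mul_index H
    rw [hH] at h1
    have hP := card_PP_eq (F := F)
    rw [card_roots1_odd hc2, hq, hm, ← h1] at hP
    have hcpos : 0 < c := by
      rcases hc with rfl | rfl <;> norm_num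
    have hidx : H.index = q * m' := by
      apply Nat.eq_of_mul_eq_mul_left (show 0 < 2 * c by omega)
      calc 2 * c * H.index = 2 * (c * H.index) := by ring
        _ = q * (2 * c * m') := hP
        _ = 2 * c * (q * m') := by ring
    rw [hidx] at hrd
    have hr' : r = 2 ∨ r = 3 := hrπ
    rcases hr' with rfl | rfl
    · rcases (Nat.Prime.dvd_mul hr).mp hrd with h | h
      · exact hoq h
      · exact h2 h
    · rcases (Nat.Prime.dvd_mul hr).mp hrd with h | h
      · exact h3q h
      · exact h3 h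

end

/-- Let `F` be a finite field with `q` elements of characteristic `p ≥ 5`, and `ε = 1` if `q ≡ 1 (mod 4)`, `ε = -1` otherwise. Then `PSL(2, F)` has a Hall `{2, 3}`-subgroup if and only if `3` divides `q − ε`, or the `{2,3}`-part of `q² − 1` is 24, or the `{2,3}`-part of `q² − 1` is 48 (the `{2,3}`-part of `m` being the largest divisor of `m` with no prime factor other than 2 and 3). -/
theorem result {F : Type*} [Field F] [Fintype F] {p : ℕ} [Fact p.Prime] [CharP F p]
    (hp : 5 ≤ p) (q : ℕ) (hq : Fintype.card F = q) :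
    (∃ H : Subgroup (Matrix.ProjectiveSpecialLinearGroup (Fin 2) F), Cfsg.IsPiHall ({2, 3} : Set ℕ) H) ↔
      (3 ∣ q - 1 ∧ q % 4 = 1) ∨ (3 ∣ q + 1 ∧ q % 4 = 3) ∨
        2 ^ (q ^ 2 - 1).factorization 2 * 3 ^ (q ^ 2 - 1).factorization 3 = 24 ∨
        2 ^ (q ^ 2 - 1).factorization 2 * 3 ^ (q ^ 2 - 1).factorization 3 = 48 := by
  classical
  have hp1 : p.Prime := Fact.out
  have hc2 : ringChar F ≠ 2 := by
    rw [ringChar.eq F p]
    omega
  have h22 : (2 : F) ≠ 0 := Ring.two_ne_zero hc2
  obtain ⟨⟨n, hn⟩, -⟩ : (∃ n : ℕ+, p.Prime ∧ q = p ^ (n : ℕ)) ∧ True := by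
    obtain ⟨n, h, h'⟩ := FiniteField.card F p
    exact ⟨⟨n, h, by rw [← hq]; exact h'⟩, trivial⟩
  have hqp := hn.2
  have hoq : ¬ 2 ∣ q := by
    intro h
    rw [hqp] at h
    have := (Nat.prime_dvd_prime_iff_eq Nat.prime_two hp1).mp (Nat.prime_two.dvd_of_dvd_pow h)
    omega
  have h3q : ¬ 3 ∣ q := by
    intro h
    rw [hqp] at h
    have := (Nat.prime_dvd_prime_iff_eq Nat.prime_three hp1).mp (Nat.prime_three.dvd_of_dvd_pow h)
    omega
  have hq5 : 5 ≤ q := by
    rw [hqp]
    calc 5 ≤ p := hp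
      _ = p ^ 1 := (pow_one p).symm
      _ ≤ p ^ (n : ℕ) := Nat.pow_le_pow_right hp1.pos n.2
  have hm1 : q ^ 2 - 1 = (q - 1) * (q + 1) := sq_sub_one_eq q (by omega)
  have hm0 : q ^ 2 - 1 ≠ 0 := by
    rw [hm1]
    exact Nat.mul_ne_zero (by omega) (by omega)
  obtain ⟨m', hm', h2m', h3m'⟩ := decomp_23 (q ^ 2 - 1) hm0
  set a := (q ^ 2 - 1).factorization 2 with ha
  set b := (q ^ 2 - 1).factorization 3 with hb
  set D := 2 ^ a * 3 ^ b with hD
  have hR : Nat.card (Roots1 F) = 2 := card_roots1_odd hc2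
  have hP := card_PP_eq (F := F)
  rw [hR, hq, hm'] at hP
  -- `8 ∣ D`, `3 ∣ D`
  have h8q : 8 ∣ q ^ 2 - 1 := by
    rw [hm1]
    obtain ⟨r, rfl⟩ : ∃ r, q = 2 * r + 1 := ⟨q / 2, by omega⟩
    have e1 : 2 * r + 1 - 1 = 2 * r := by omega
    have e2 : 2 * r + 1 + 1 = 2 * (r + 1) := by ring
    rw [e1, e2]
    have : 2 ∣ r * (r + 1) := (Nat.even_mul_succ_self r).two_dvd
    obtain ⟨t, ht⟩ := this
    exact ⟨t, by
      calc 2 * r * (2 * (r + 1)) = 4 * (r * (r + 1)) := by ring
        _ = 8 * t := by rw [ht]; ring⟩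
  have h3q' : 3 ∣ q ^ 2 - 1 := by
    rw [hm1]
    have : q % 3 = 1 ∨ q % 3 = 2 := by omega
    rcases this with h | h
    · exact Dvd.dvd.mul_right (by omega) _
    · exact Dvd.dvd.mul_left (by omega) _
  have hcop8 : Nat.Coprime 8 (3 ^ b * m') := by
    apply Nat.Coprime.mul_right
    · exact Nat.Coprime.pow_right _ (by norm_num)
    · have : Nat.Coprime 2 m' := (Nat.Prime.coprime_iff_not_dvd Nat.prime_two).mpr h2m'
      exact Nat.Coprime.pow_left 3 this
  have h8D : 8 ∣ 2 ^ a := by
    have h1 : 8 ∣ 2 ^ a * (3 ^ b * m') := by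
      rw [← mul_assoc]
      rw [← hm']
      exact h8q
    exact hcop8.dvd_of_dvd_mul_right h1
  have h8DD : 8 ∣ D := Dvd.dvd.mul_right h8D _
  have h3D : 3 ∣ D := by
    have h1 : 3 ∣ 2 ^ a * (3 ^ b * m') := by
      rw [← mul_assoc, ← hm']
      exact h3q'
    rcases (Nat.Prime.dvd_mul Nat.prime_three).mp h1 with h | h
    · exact absurd (Nat.prime_three.dvd_of_dvd_pow h) (by norm_num)
    · rcases (Nat.Prime.dvd_mul Nat.prime_three).mp h with h | h
      · exact Dvd.dvd.mul_left h _
      · exact absurd h h3m'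
  -- a power of `2` bound
  have hnot : ∀ x y : ℕ, x * y = q ^ 2 - 1 → 2 ∣ y → ¬ D ∣ x := by
    intro x y hxy hy hx
    have h1 : 2 ^ a ∣ x := (Dvd.intro _ rfl : 2 ^ a ∣ D).trans hx
    have h2 : 2 ^ (a + 1) ∣ q ^ 2 - 1 := by
      rw [← hxy, pow_succ]
      exact mul_dvd_mul h1 hy
    exact Nat.pow_succ_factorization_not_dvd hm0 Nat.prime_two h2
  have hnot1 : ¬ D ∣ q - 1 := hnot _ _ hm1.symm (by omega)
  have hnot2 : ¬ D ∣ q + 1 := hnot _ _ (by rw [hm1, mul_comm]) (by omega)
  constructor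
  · rintro ⟨H, hH1, hH2⟩
    obtain ⟨c, hc⟩ : ∃ c, Nat.card H = c := ⟨_, rfl⟩
    -- `2 * c = D`
    have hcop1 : ∀ y : ℕ, ¬ 2 ∣ y → ¬ 3 ∣ y → (2 * c).Coprime y := by
      intro y h2y h3y
      apply Nat.coprime_of_dvd
      intro r hr hr1 hr2
      have hr3 : r = 2 ∨ r = 3 := by
        rcases (Nat.Prime.dvd_mul hr).mp hr1 with h | h
        · left
          exact (Nat.prime_dvd_prime_iff_eq hr Nat.prime_two).mp h
        · rw [← hc] at h
          exact hH1 r hr h
      rcases hr3 with rfl | rfl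
      · exact h2y hr2
      · exact h3y hr2
    have hI := Subgroup.card_mul_index H
    rw [hc] at hI
    have hprod : 2 * c * H.index = D * (q * m') := by
      calc 2 * c * H.index = 2 * (c * H.index) := by ring
        _ = q * (D * m') := by rw [hI]; exact hP
        _ = D * (q * m') := by ring
    have hcopQ : ¬ 2 ∣ q * m' ∧ ¬ 3 ∣ q * m' := by
      constructor
      · intro h
        rcases (Nat.Prime.dvd_mul Nat.prime_two).mp h with h | h
        · exact hoq h
        · exact h2m' h
      · intro h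
        rcases (Nat.Prime.dvd_mul Nat.prime_three).mp h with h | h
        · exact h3q h
        · exact h3m' h
    have hd1 : 2 * c ∣ D := by
      have := Dvd.intro _ hprod
      exact (hcop1 _ hcopQ.1 hcopQ.2).dvd_of_dvd_mul_right this
    have hd2 : D ∣ 2 * c := by
      have h1 : D ∣ 2 * c * H.index := Dvd.intro _ hprod.symm
      have h2 : D.Coprime H.index := by
        apply Nat.Coprime.mul_left
        · exact Nat.Coprime.pow_left _ ((Nat.Prime.coprime_iff_not_dvd Nat.prime_two).mpr (hH2 2 Nat.prime_two (by simp)))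
        · exact Nat.Coprime.pow_left _ ((Nat.Prime.coprime_iff_not_dvd Nat.prime_three).mpr (hH2 3 Nat.prime_three (by simp)))
      exact h2.dvd_of_dvd_mul_right h1
    have hDc : D = 2 * c := Nat.dvd_antisymm hd2 hd1
    have hg : Nat.gcd 2 (q - 1) = 2 := Nat.gcd_eq_left (by omega)
    have hq' : Fintype.card F = q := hq
    rcases dickson_main hq' p H with ⟨k, hk, hcase⟩ | ⟨Q, hQ⟩ | ⟨⟨i⟩⟩ | ⟨⟨i⟩⟩ | ⟨⟨i⟩⟩ | ⟨S, hS, -, -⟩
    · rw [hg] at hk
      rcases hcase with ⟨-, hk2⟩ | ⟨⟨i⟩⟩
      · exfalso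
        have hck : c = k := by rw [← hc, hk2]
        subst hck
        rcases hk with h | h
        · apply hnot2
          rw [hDc]
          have := mul_dvd_mul_left 2 h
          rwa [Nat.mul_div_cancel' (by omega)] at this
        · apply hnot1
          rw [hDc]
          have := mul_dvd_mul_left 2 h
          rwa [Nat.mul_div_cancel' (by omega)] at this
      · have hck : c = 2 * k := by
          rw [← hc, Nat.card_congr i.toEquiv, DihedralGroup.nat_card]
        have h4k : D = 4 * k := by rw [hDc, hck]; ring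
        have h3k : 3 ∣ k := by
          rw [h4k] at h3D
          exact (Nat.Coprime.dvd_of_dvd_mul_left (by norm_num) h3D)
        have h2k : 2 ∣ k := by
          rw [h4k] at h8DD
          have : 4 * 2 ∣ 4 * k := h8DD
          exact Nat.dvd_of_mul_dvd_mul_left (by norm_num) this
        rcases hk with h | h
        · -- `k ∣ (q + 1) / 2`
          have h1 : 2 * k ∣ q + 1 := by
            have := mul_dvd_mul_left 2 h
            rwa [Nat.mul_div_cancel' (by omega)] at this
          have h4 : 4 ∣ q + 1 := by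
            have : 2 * 2 ∣ 2 * k := mul_dvd_mul_left 2 h2k
            exact this.trans h1
          right; left
          exact ⟨(Dvd.dvd.mul_left h3k 2).trans h1, by omega⟩
        · have h1 : 2 * k ∣ q - 1 := by
            have := mul_dvd_mul_left 2 h
            rwa [Nat.mul_div_cancel' (by omega)] at this
          have h4 : 4 ∣ q - 1 := by
            have : 2 * 2 ∣ 2 * k := mul_dvd_mul_left 2 h2k
            exact this.trans h1
          left
          exact ⟨(Dvd.dvd.mul_left h3k 2).trans h1, by omega⟩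
    · exfalso
      have h1 := card_dvd_BP p Q H hQ
      rw [hc] at h1
      have h2 := card_BP_eq (F := F)
      rw [hR, hq] at h2
      have h3 : 2 * c ∣ (q - 1) * q := by
        rw [← h2]
        exact mul_dvd_mul_left 2 h1
      rw [← hDc] at h3
      have h4 : D.Coprime q := by
        apply Nat.Coprime.mul_left
        · exact Nat.Coprime.pow_left _ ((Nat.Prime.coprime_iff_not_dvd Nat.prime_two).mpr hoq)
        · exact Nat.Coprime.pow_left _ ((Nat.Prime.coprime_iff_not_dvd Nat.prime_three).mpr h3q)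
      exact hnot1 (h4.dvd_of_dvd_mul_right h3)
    · right; right; left
      have : c = 12 := by
        rw [← hc, Nat.card_congr i.toEquiv, card_A4]
      rw [hDc, this]
    · right; right; right
      have : c = 24 := by
        rw [← hc, Nat.card_congr i.toEquiv, card_S4]
      rw [hDc, this]
    · exfalso
      have : c = 60 := by
        rw [← hc, Nat.card_congr i.toEquiv, card_A5]
      have h5 := hH1 5 (by norm_num) (by rw [hc, this]; norm_num)
      rcases h5 with h | h
      · omega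
      · have : (5 : ℕ) = 3 := h
        omega
    · exfalso
      have h1 : 1 < Nat.card (S : Subgroup H) := by omega
      have hpS : IsPGroup p (S : Subgroup H) := S.isPGroup'
      obtain ⟨t, ht⟩ := IsPGroup.iff_card.mp hpS
      have ht0 : t ≠ 0 := by
        rintro rfl
        rw [pow_zero] at ht
        omega
      have h2 : p ∣ Nat.card (S : Subgroup H) := by
        rw [ht]
        exact dvd_pow_self p ht0
      have h3 : Nat.card (S : Subgroup H) ∣ Nat.card H := Subgroup.card_subgroup_dvd_card _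
      have h5 := hH1 p hp1 (h2.trans h3)
      rcases h5 with h | h
      · omega
      · have : p = 3 := h
        omega
  · rintro (⟨h3, h4⟩ | ⟨h3, h4⟩ | h | h)
    · obtain ⟨x, hτ, h1⟩ := exists_split (F := F) (by omega)
      rw [hR, hq] at h1
      obtain ⟨w, hw⟩ : ∃ w, q + 1 = 2 * w := ⟨(q + 1) / 2, by omega⟩
      exact hall_of_torus hq hc2 h3q hoq x hτ (q - 1) w h1 (by rw [hm1, hw]) (by omega) (by omega)
    · obtain ⟨x, hτ, h1⟩ := exists_nonsplit (F := F)
      rw [hR, hq] at h1
      obtain ⟨w, hw⟩ : ∃ w, q - 1 = 2 * w := ⟨(q - 1) / 2, by omega⟩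
      exact hall_of_torus hq hc2 h3q hoq x hτ (q + 1) w h1 (by rw [hm1, hw]; ring) (by omega) (by omega)
    · obtain ⟨H, ⟨i⟩⟩ := exists_A4_odd (F := F) h22
      refine ⟨H, hall_of_card hq hc2 h3q hoq H 12 m' (by rw [Nat.card_congr i.toEquiv, card_A4]) (Or.inl rfl) ?_ h2m' h3m'⟩
      rw [hm']
      have : D = 24 := h
      rw [this]
    · have h16 : 16 ∣ q ^ 2 - 1 := by
        have h1 : 2 ^ a = 16 := by
          have h2 : 2 ^ a * 3 ^ b = 2 ^ 4 * 3 := h
          have h3 : (2 ^ 4 : ℕ).Coprime 3 := by norm_num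
          have h4 : 2 ^ 4 ∣ 2 ^ a * 3 ^ b := by rw [h2]; exact Dvd.intro _ rfl
          have h5 : 2 ^ 4 ∣ 2 ^ a := (Nat.Coprime.pow_right b h3).dvd_of_dvd_mul_right h4
          have h6 : 2 ^ a ∣ 2 ^ 4 := by
            have h7 : 2 ^ a ∣ 2 ^ 4 * 3 := by rw [← h2]; exact Dvd.intro _ rfl
            have h8 : (2 ^ a : ℕ).Coprime 3 := Nat.Coprime.pow_left _ (by norm_num)
            exact h8.dvd_of_dvd_mul_right h7
          exact Nat.dvd_antisymm h6 h5
        rw [hm', hD, h1]
        exact ⟨3 ^ b * m', by ring⟩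
      have hsq : IsSquare (2 : F) := by
        rw [FiniteField.isSquare_two_iff, hq]
        have h1 : (q * q) % 16 = 1 := by
          have h2 : q ^ 2 - 1 + 1 = q ^ 2 := by
            have : 0 < q ^ 2 := by positivity
            omega
          obtain ⟨t, ht⟩ := h16
          have h3 : q * q = 16 * t + 1 := by
            calc q * q = q ^ 2 := (sq q).symm
              _ = q ^ 2 - 1 + 1 := h2.symm
              _ = 16 * t + 1 := by rw [ht]
          rw [h3]
          omega
        have h2 : q % 16 < 16 := Nat.mod_lt _ (by norm_num)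
        have h3 : (q % 16) * (q % 16) % 16 = 1 := by
          rw [← Nat.mul_mod]
          exact h1
        obtain ⟨s, hs⟩ : ∃ s, s = q % 16 := ⟨_, rfl⟩
        rw [← hs] at h2 h3
        have h5 : ∀ s : ℕ, s < 16 → s * s % 16 = 1 → s % 8 ≠ 3 ∧ s % 8 ≠ 5 := by decide
        have h4 := h5 s h2 h3
        omega
      obtain ⟨H, ⟨i⟩⟩ := exists_S4 (F := F) h22 hsq
      refine ⟨H, hall_of_card hq hc2 h3q hoq H 24 m' (by rw [Nat.card_congr i.toEquiv, card_S4]) (Or.inr rfl) ?_ h2m' h3m'⟩
      rw [hm']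
      have : D = 48 := h
      rw [this]

end Cfsg.Agent.S2537
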