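import Cfsg.Statements.S2540
import Cfsg.Agent.Lib.Classical.Transvection
import Mathlib

set_option autoImplicit false
open Cfsg

namespace Cfsg.Agent.S2540

open scoped commutatorElement

lemma comm_central_left {G : Type*} [Group G] (a z y : G) (hz : ∀ g, g * z = z * g) : ⁅a * z, y⁆ = ⁅a, y⁆ := by
  have h1 : a * z * y = a * y * z := by
    rw [mul_assoc, ← hz, mul_assoc]
  simp only [commutatorElement_def]
  rw [h1]
  group

lemma comm_central_right {G : Type*} [Group G] (x b w : G) (hw : ∀ g, g * w = w * g) : ⁅x, b * w⁆ = ⁅x, b⁆ := by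
  simp only [commutatorElement_def]
  calc x * (b * w) * x⁻¹ * (b * w)⁻¹ = x * b * (w * x⁻¹) * (b * w)⁻¹ := by group
    _ = x * b * (x⁻¹ * w) * (b * w)⁻¹ := by rw [hw x⁻¹]
    _ = x * b * x⁻¹ * b⁻¹ := by group

lemma perfect_simple {F : Type*} [Field F] [Fintype F] (n : ℕ) (hn : 2 ≤ n) (hex : ¬ (n = 2 ∧ Fintype.card F ≤ 3)) :
    commutator (Matrix.SpecialLinearGroup (Fin n) F) = ⊤ ∧ IsSimpleGroup (Matrix.ProjectiveSpecialLinearGroup (Fin n) F) := by
  rcases Nat.lt_or_ge 2 n with h | h
  · constructor
    · exact Cfsg.Agent.Lib.Classical.commutator_SL_eq_top (by simp; omega)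
    · exact Cfsg.Agent.Lib.Classical.PSL_isSimple (by simp; omega)
  · have h2 : n = 2 := by omega
    subst h2
    have hc : 3 < Fintype.card F := by
      by_contra hcon
      exact hex ⟨rfl, by omega⟩
    have hroot : ∃ a : F, a ≠ 0 ∧ a ^ 2 ≠ 1 := by
      classical
      by_contra hcon
      push Not at hcon
      have hsub : (Finset.univ : Finset F) ⊆ {0, 1, -1} := by
        intro a _
        by_cases ha : a = 0
        · simp [ha]
        · have h1 := hcon a ha
          have h2 : (a - 1) * (a + 1) = 0 := by linear_combination h1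
          rcases mul_eq_zero.1 h2 with h3 | h3
          · have : a = 1 := sub_eq_zero.1 h3
            simp [this]
          · have : a = -1 := eq_neg_of_add_eq_zero_left h3
            simp [this]
      have h4 := Finset.card_le_card hsub
      have h5 : ({0, 1, -1} : Finset F).card ≤ 3 := Finset.card_le_three
      rw [Finset.card_univ] at h4
      omega
    obtain ⟨a, ha, hasq⟩ := hroot
    constructor
    · exact Matrix.SL2.commutator_eq_top ha hasq
    · exact Matrix.ProjectiveSpecialLinearGroup.rank_two_simple' ⟨a, ha, hasq⟩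


/-- Let F be a finite field and n ≥ 1, excluding the case n = 2 with #F ≤ 3. A subgroup of GL_n(F) that is normalized by every element of SL_n(F) either consists of scalar matrices or contains SL_n(F). -/
theorem result {F : Type*} [Field F] [Fintype F] (n : ℕ) (hn : 1 ≤ n) (hex : ¬ (n = 2 ∧ Fintype.card F ≤ 3)) (G : Subgroup (Matrix.GeneralLinearGroup (Fin n) F)) (hG : ∀ s : Matrix.SpecialLinearGroup (Fin n) F, ∀ g ∈ G, (Matrix.SpecialLinearGroup.toGL s) * g * (Matrix.SpecialLinearGroup.toGL s)⁻¹ ∈ G) : (∀ g ∈ G, ∃ c : F, (g : Matrix (Fin n) (Fin n) F) = c • (1 : Matrix (Fin n) (Fin n) F)) ∨ (Matrix.SpecialLinearGroup.toGL : Matrix.SpecialLinearGroup (Fin n) F →* _).range ≤ G := by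
  classical
  rcases Nat.lt_or_ge n 2 with hn1 | hn2
  · right
    have hn' : n = 1 := by omega
    subst hn'
    rintro _ ⟨s, rfl⟩
    have : s = 1 := by
      apply Subtype.ext
      ext i j
      have hi : i = 0 := Subsingleton.elim _ _
      have hj : j = 0 := Subsingleton.elim _ _
      subst hi hj
      have h := s.2
      rw [Matrix.det_fin_one] at h
      simpa using h
    rw [this, map_one]
    exact G.one_mem
  obtain ⟨hperf, hsimple⟩ := perfect_simple n hn2 hex
  let Z := Subgroup.center (Matrix.SpecialLinearGroup (Fin n) F)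
  let toG : Matrix.SpecialLinearGroup (Fin n) F →* Matrix.GeneralLinearGroup (Fin n) F := Matrix.SpecialLinearGroup.toGL
  let N : Subgroup (Matrix.SpecialLinearGroup (Fin n) F) := G.comap toG
  haveI hNn : N.Normal := ⟨fun x hx s => by
    change toG (s * x * s⁻¹) ∈ G
    rw [map_mul, map_mul, map_inv]
    exact hG s _ hx⟩
  let M : Subgroup (Matrix.ProjectiveSpecialLinearGroup (Fin n) F) := N.map (QuotientGroup.mk' Z)
  haveI hMn : M.Normal := Subgroup.Normal.map hNn _ (QuotientGroup.mk'_surjective Z)
  rcases hsimple.eq_bot_or_eq_top_of_normal M hMn with hM | hM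
  · left
    have hNZ : N ≤ Z := by
      intro x hx
      have h1 : (QuotientGroup.mk' Z) x ∈ M := ⟨x, hx, rfl⟩
      rw [hM, Subgroup.mem_bot] at h1
      exact (QuotientGroup.eq_one_iff x).1 h1
    intro g hg
    -- the commutator map
    have hdet : ∀ s : Matrix.SpecialLinearGroup (Fin n) F, ∃ t ∈ Z,
        toG t = toG s * g * (toG s)⁻¹ * g⁻¹ := by
      intro s
      have h1 : Matrix.GeneralLinearGroup.det (toG s * g * (toG s)⁻¹ * g⁻¹) = 1 := by
        simp only [map_mul, map_inv]
        rw [mul_comm (Matrix.GeneralLinearGroup.det (toG s))]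
        simp
      have h2 : ((toG s * g * (toG s)⁻¹ * g⁻¹ : Matrix.GeneralLinearGroup (Fin n) F) : Matrix (Fin n) (Fin n) F).det = 1 := by
        have := congrArg Units.val h1
        rw [Matrix.GeneralLinearGroup.val_det_apply, Units.val_one] at this
        exact this
      let t : Matrix.SpecialLinearGroup (Fin n) F := ⟨_, h2⟩
      have ht : toG t = toG s * g * (toG s)⁻¹ * g⁻¹ := Units.ext rfl
      refine ⟨t, hNZ ?_, ht⟩
      change toG t ∈ G
      rw [ht]
      exact G.mul_mem (hG s g hg) (G.inv_mem hg)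
    choose T hTZ hT using hdet
    have htinj : Function.Injective toG := Matrix.SpecialLinearGroup.toGL_injective
    have hcent : ∀ s s', T s * s' = s' * T s := fun s s' =>
      (Subgroup.mem_center_iff.1 (hTZ s) s').symm
    have hTmul : ∀ s s', T (s * s') = T s * T s' := by
      intro s s'
      apply htinj
      have h1 : toG s * toG (T s') = toG (T s') * toG s := by
        rw [← map_mul, ← map_mul, ← hcent]
      have h2 : toG s * (toG s' * g * (toG s')⁻¹ * g⁻¹) = toG (T s') * toG s := by
        rw [← hT, h1]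
      have h3 : T s * T s' = T s' * T s := hcent s (T s')
      rw [hT (s * s'), h3, map_mul toG (T s') (T s), map_mul toG s s']
      calc toG s * toG s' * g * (toG s * toG s')⁻¹ * g⁻¹
          = (toG s * (toG s' * g * (toG s')⁻¹ * g⁻¹)) * (g * (toG s)⁻¹ * g⁻¹) := by group
        _ = toG (T s') * toG s * (g * (toG s)⁻¹ * g⁻¹) := by rw [h2]
        _ = toG (T s') * (toG s * g * (toG s)⁻¹ * g⁻¹) := by group
        _ = toG (T s') * toG (T s) := by rw [hT s]
    let φ : Matrix.SpecialLinearGroup (Fin n) F →* Matrix.SpecialLinearGroup (Fin n) F := MonoidHom.mk' T hTmul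
    have hker : commutator (Matrix.SpecialLinearGroup (Fin n) F) ≤ φ.ker := by
      rw [commutator_def, Subgroup.commutator_le]
      intro x _ y _
      rw [MonoidHom.mem_ker, map_commutatorElement, commutatorElement_eq_one_iff_commute]
      exact hcent x (φ y)
    rw [hperf] at hker
    have hTone : ∀ s, T s = 1 := fun s => hker (Subgroup.mem_top s)
    have hcomm : ∀ s, toG s * g = g * toG s := by
      intro s
      have h1 := hT s
      rw [hTone, map_one] at h1
      have h2 : toG s * g * (toG s)⁻¹ = g := mul_inv_eq_one.1 h1.symm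
      calc toG s * g = toG s * g * (toG s)⁻¹ * toG s := by group
        _ = g * toG s := by rw [h2]
    -- scalars
    have hE : ∀ i j : Fin n, i ≠ j → (g : Matrix (Fin n) (Fin n) F) * Matrix.single i j 1 =
        Matrix.single i j 1 * (g : Matrix (Fin n) (Fin n) F) := by
      intro i j hij
      have h1 := congrArg Units.val (hcomm (Matrix.SpecialLinearGroup.transvection hij 1))
      have h2 : ((toG (Matrix.SpecialLinearGroup.transvection hij 1) : Matrix.GeneralLinearGroup (Fin n) F) : Matrix (Fin n) (Fin n) F) =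
          1 + Matrix.single i j 1 := rfl
      rw [Units.val_mul, Units.val_mul, h2, mul_add, add_mul, mul_one, one_mul] at h1
      exact (add_left_cancel h1).symm
    have hoff : ∀ i k : Fin n, k ≠ i → (g : Matrix (Fin n) (Fin n) F) k i = 0 := by
      intro i k hki
      obtain ⟨j, hj⟩ : ∃ j : Fin n, j ≠ i := by
        by_cases h0 : i = ⟨0, by omega⟩
        · exact ⟨⟨1, by omega⟩, by rw [h0]; simp [Fin.ext_iff]⟩
        · exact ⟨⟨0, by omega⟩, fun h => h0 h.symm⟩
      have h1 := congrFun (congrFun (hE i j hj.symm) k) j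
      have h2 : ((g : Matrix (Fin n) (Fin n) F) * (Matrix.single i j 1 : Matrix (Fin n) (Fin n) F)) k j = (g : Matrix (Fin n) (Fin n) F) k i * 1 :=
        Matrix.mul_single_apply_same _ _ _ _ _
      have h3 : ((Matrix.single i j 1 : Matrix (Fin n) (Fin n) F) * (g : Matrix (Fin n) (Fin n) F)) k j = 0 :=
        Matrix.single_mul_apply_of_ne _ _ _ _ _ hki _
      rw [h2, h3] at h1
      simpa using h1
    have hdiag : ∀ i j : Fin n, (g : Matrix (Fin n) (Fin n) F) i i = (g : Matrix (Fin n) (Fin n) F) j j := by
      intro i j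
      by_cases hij : i = j
      · rw [hij]
      have h1 := congrFun (congrFun (hE i j hij) i) j
      have h2 : ((g : Matrix (Fin n) (Fin n) F) * (Matrix.single i j 1 : Matrix (Fin n) (Fin n) F)) i j = (g : Matrix (Fin n) (Fin n) F) i i * 1 :=
        Matrix.mul_single_apply_same _ _ _ _ _
      have h3 : ((Matrix.single i j 1 : Matrix (Fin n) (Fin n) F) * (g : Matrix (Fin n) (Fin n) F)) i j = 1 * (g : Matrix (Fin n) (Fin n) F) j j :=
        Matrix.single_mul_apply_same _ _ _ _ _
      rw [h2, h3] at h1
      simpa using h1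
    refine ⟨(g : Matrix (Fin n) (Fin n) F) ⟨0, by omega⟩ ⟨0, by omega⟩, ?_⟩
    ext i j
    by_cases hij : i = j
    · subst hij
      simp [hdiag i ⟨0, by omega⟩]
    · simp [hij, hoff j i hij]
  · right
    have hall : ∀ x : Matrix.SpecialLinearGroup (Fin n) F, ∃ a ∈ N, ∃ z, (∀ g, g * z = z * g) ∧ x = a * z := by
      intro x
      have h1 : (QuotientGroup.mk' Z) x ∈ M := by rw [hM]; trivial
      obtain ⟨a, ha, hax⟩ := h1
      refine ⟨a, ha, a⁻¹ * x, ?_, by group⟩
      have h2 : a⁻¹ * x ∈ Z := QuotientGroup.eq.1 hax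
      exact fun g => Subgroup.mem_center_iff.1 h2 g
    have hle : commutator (Matrix.SpecialLinearGroup (Fin n) F) ≤ N := by
      rw [commutator_def, Subgroup.commutator_le]
      intro x _ y _
      obtain ⟨a, ha, z, hz, rfl⟩ := hall x
      obtain ⟨b, hb, w, hw, rfl⟩ := hall y
      rw [comm_central_left _ _ _ hz, comm_central_right _ _ _ hw]
      exact N.mul_mem (N.mul_mem (N.mul_mem ha hb) (N.inv_mem ha)) (N.inv_mem hb)
    rw [hperf] at hle
    rintro _ ⟨s, rfl⟩
    exact hle (Subgroup.mem_top s)

end Cfsg.Agent.S2540
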