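import Cfsg.Statements.S2541
import Mathlib

set_option autoImplicit false
open Cfsg

namespace Cfsg.Agent.S2541

/-- Let F be a field with 9 elements. The symmetric group S_6 is not isomorphic to PGL_2(F) (although both have index-2 subgroups isomorphic to A_6). -/
theorem result {F : Type*} [Field F] [Fintype F] (hF : Fintype.card F = 9) : ¬ Nonempty (Equiv.Perm (Fin 6) ≃* Matrix.ProjGenLinGroup (Fin 2) F) := by
  classical
  rintro ⟨e⟩
  -- an element of order 8 in PGL_2(F)
  obtain ⟨a, ha⟩ := IsCyclic.exists_generator (α := Fˣ)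
  have hcardunits : Nat.card Fˣ = 8 := by
    rw [Nat.card_eq_fintype_card, Fintype.card_units, hF]
  have hordera : orderOf a = 8 := by
    rw [orderOf_eq_card_of_forall_mem_zpowers ha, hcardunits]
  let D : Matrix (Fin 2) (Fin 2) F := Matrix.diagonal ![(a : F), 1]
  have hdet : IsUnit D.det := by
    simp [D, Matrix.det_diagonal, Fin.prod_univ_two]
  let g : GL (Fin 2) F := Matrix.nonsingInvUnit D hdet
  have hgval : (g : Matrix (Fin 2) (Fin 2) F) = D := rfl
  have hgpow : ∀ k : ℕ, ((g ^ k : GL (Fin 2) F) : Matrix (Fin 2) (Fin 2) F)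
      = Matrix.diagonal ![(a : F) ^ k, 1] := by
    intro k
    rw [Units.val_pow_eq_pow_val, hgval]
    simp only [D, Matrix.diagonal_pow]
    congr 1
    funext i
    fin_cases i <;> simp
  let x : Matrix.ProjGenLinGroup (Fin 2) F := Matrix.ProjGenLinGroup.mk g
  have hx8 : x ^ 2 ^ (2 + 1) = 1 := by
    change Matrix.ProjGenLinGroup.mk g ^ 8 = 1
    rw [← map_pow]
    have : g ^ 8 = 1 := by
      ext i j
      rw [hgpow]
      have : (a : F) ^ 8 = 1 := by
        have h := pow_orderOf_eq_one a
        rw [hordera] at h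
        have h' := congrArg Units.val h
        simpa using h'
      fin_cases i <;> fin_cases j <;> simp [this]
    rw [this, map_one]
  have hx4 : ¬ x ^ 2 ^ 2 = 1 := by
    change ¬ Matrix.ProjGenLinGroup.mk g ^ 4 = 1
    rw [← map_pow, Matrix.ProjGenLinGroup.mk_eq_one, Matrix.GeneralLinearGroup.center_eq_range_scalar]
    rintro ⟨u, hu⟩
    have h0 := congrArg (fun M : GL (Fin 2) F => (M : Matrix (Fin 2) (Fin 2) F) 0 0) hu
    have h1 := congrArg (fun M : GL (Fin 2) F => (M : Matrix (Fin 2) (Fin 2) F) 1 1) hu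
    simp only [hgpow, Matrix.GeneralLinearGroup.coe_scalar] at h0 h1
    simp at h0 h1
    have ha4 : (a : F) ^ 4 = 1 := by rw [← h0, h1]; simp
    have : a ^ 4 = 1 := by
      apply Units.ext
      simpa using ha4
    have h8 : orderOf a ∣ 4 := orderOf_dvd_of_pow_eq_one this
    rw [hordera] at h8
    omega
  have hxord : orderOf x = 2 ^ (2 + 1) := orderOf_eq_prime_pow hx4 hx8
  -- but S_6 has no element of order 8
  set σ := e.symm x with hσ
  have hσord : orderOf σ = 8 := by
    rw [hσ, MulEquiv.orderOf_eq, hxord]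
    norm_num
  have hlcm := Equiv.Perm.lcm_cycleType σ
  have hle : ∀ n ∈ σ.cycleType, n ∣ 4 := by
    intro n hn
    have h1 : n ∣ 8 := by
      rw [← hσord, ← hlcm]
      exact Multiset.dvd_lcm hn
    have h2 : n ≤ 6 := by
      have h3 := Equiv.Perm.sum_cycleType_le σ
      have h4 := Multiset.le_sum_of_mem hn
      simp at h3
      omega
    have h5 : n ∈ Nat.divisors 8 := Nat.mem_divisors.2 ⟨h1, by norm_num⟩
    have h6 : Nat.divisors 8 = {1, 2, 4, 8} := by decide
    rw [h6] at h5
    simp only [Finset.mem_insert, Finset.mem_singleton] at h5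
    rcases h5 with rfl | rfl | rfl | rfl <;> omega
  have : orderOf σ ∣ 4 := by
    rw [← hlcm]
    exact Multiset.lcm_dvd.2 hle
  rw [hσord] at this
  omega

end Cfsg.Agent.S2541
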