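import Cfsg.Statements.S2542
import Mathlib
import Cfsg.Agent.Lib.Classical.Dick.P11

set_option autoImplicit false
open Cfsg

namespace Cfsg.Agent.S2542

open Cfsg.Agent.Lib.Classical.Dick in

/-- Let F be a field with 11 elements. PSL_2(F) has a subgroup H of index 11 isomorphic to the alternating group A_5, and the action of PSL_2(F) on the cosets of H is 2-transitive (of degree 11). -/
theorem result {F : Type*} [Field F] [Fintype F] (hF : Fintype.card F = 11) : ∃ H : Subgroup (Matrix.ProjectiveSpecialLinearGroup (Fin 2) F), H.index = 11 ∧ Nonempty (H ≃* alternatingGroup (Fin 5)) ∧ MulAction.IsMultiplyPretransitive (Matrix.ProjectiveSpecialLinearGroup (Fin 2) F) ((Matrix.ProjectiveSpecialLinearGroup (Fin 2) F) ⧸ H) 2 := by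
  classical
  have h5 : 5 ∣ Fintype.card F * (Fintype.card F ^ 2 - 1) := by rw [hF]; norm_num
  obtain ⟨H, ⟨i⟩⟩ := exists_A5 h5
  refine ⟨H, index_H5 hF H i, ⟨i⟩, ?_⟩
  have hΩ : Nat.card (Matrix.ProjectiveSpecialLinearGroup (Fin 2) F ⧸ H) = 11 := index_H5 hF H i
  have h60 : Nat.card H = 60 := card_H5 H i
  set o : Matrix.ProjectiveSpecialLinearGroup (Fin 2) F ⧸ H := QuotientGroup.mk 1 with ho
  have hoh : ∀ h ∈ H, (h : Matrix.ProjectiveSpecialLinearGroup (Fin 2) F) • o = o := by
    intro h hh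
    rw [ho, MulAction.Quotient.smul_mk, QuotientGroup.eq]
    simpa using H.inv_mem hh
  have key : ∀ x y : Matrix.ProjectiveSpecialLinearGroup (Fin 2) F ⧸ H, x ≠ o → y ≠ o →
      ∃ h ∈ H, (h : Matrix.ProjectiveSpecialLinearGroup (Fin 2) F) • x = y := by
    intro x y hx hy
    obtain ⟨g, rfl⟩ := QuotientGroup.mk_surjective x
    have hg : g ∉ H := by
      intro h
      apply hx
      rw [ho, QuotientGroup.eq]
      simpa using h
    -- the stabiliser
    let S := MulAction.stabilizer H ((g : Matrix.ProjectiveSpecialLinearGroup (Fin 2) F ⧸ H))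
    let O := MulAction.orbit H ((g : Matrix.ProjectiveSpecialLinearGroup (Fin 2) F ⧸ H))
    have h1 : Nat.card S * O.ncard = 60 := by
      rw [← h60, ← MulAction.index_stabilizer]
      exact Subgroup.card_mul_index S
    have hstab : ∀ s : H, s ∈ S ↔ g⁻¹ * (s : Matrix.ProjectiveSpecialLinearGroup (Fin 2) F) * g ∈ H := by
      intro s
      rw [MulAction.mem_stabilizer_iff]
      have e : s • ((g : Matrix.ProjectiveSpecialLinearGroup (Fin 2) F ⧸ H)) =
          (((s : Matrix.ProjectiveSpecialLinearGroup (Fin 2) F) * g : Matrix.ProjectiveSpecialLinearGroup (Fin 2) F) : Matrix.ProjectiveSpecialLinearGroup (Fin 2) F ⧸ H) := rfl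
      rw [e, QuotientGroup.eq]
      constructor
      · intro h
        have h2 := H.inv_mem h
        have e2 : (((s : Matrix.ProjectiveSpecialLinearGroup (Fin 2) F) * g)⁻¹ * g)⁻¹ = g⁻¹ * (s : Matrix.ProjectiveSpecialLinearGroup (Fin 2) F) * g := by group
        rwa [e2] at h2
      · intro h
        have h2 := H.inv_mem h
        have e2 : (g⁻¹ * (s : Matrix.ProjectiveSpecialLinearGroup (Fin 2) F) * g)⁻¹ = ((s : Matrix.ProjectiveSpecialLinearGroup (Fin 2) F) * g)⁻¹ * g := by group
        rwa [e2] at h2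
    have hSK : S.map H.subtype = H ⊓ H.map (MulAut.conj g).toMonoidHom := by
      ext k
      constructor
      · rintro ⟨s, hs, rfl⟩
        refine ⟨s.2, g⁻¹ * s * g, (hstab s).mp hs, ?_⟩
        show g * (g⁻¹ * s * g) * g⁻¹ = s
        group
      · rintro ⟨hk1, y, hy, hk2⟩
        refine ⟨⟨k, hk1⟩, (hstab _).mpr ?_, rfl⟩
        have e3 : k = g * y * g⁻¹ := hk2.symm
        have e4 : g⁻¹ * k * g = y := by rw [e3]; group
        show g⁻¹ * k * g ∈ H
        rwa [e4]
    have hcS : Nat.card S = Nat.card ↥(H ⊓ H.map (MulAut.conj g).toMonoidHom) := by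
      rw [← hSK]
      exact Nat.card_congr (S.equivMapOfInjective _ H.subtype_injective).toEquiv
    have h4 : ¬ 4 ∣ Nat.card S := by
      rw [hcS]
      exact fun h => hg (mem_of_dvd_four hF H i g h)
    have h5' : ¬ 5 ∣ Nat.card S := by
      rw [hcS]
      exact fun h => hg (mem_of_dvd_five hF H i g h)
    -- the orbit lies in the complement of `o`
    have hsub : O ⊆ ({o} : Set _)ᶜ := by
      rintro _ ⟨s, rfl⟩ h
      apply hx
      have h2 : (s : H) • ((g : Matrix.ProjectiveSpecialLinearGroup (Fin 2) F ⧸ H)) = o := h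
      have h3 := hoh _ (H.inv_mem s.2)
      have h6 : ((s : Matrix.ProjectiveSpecialLinearGroup (Fin 2) F))⁻¹ • (s : H) • ((g : Matrix.ProjectiveSpecialLinearGroup (Fin 2) F ⧸ H)) = (g : Matrix.ProjectiveSpecialLinearGroup (Fin 2) F ⧸ H) := by
        show ((s : Matrix.ProjectiveSpecialLinearGroup (Fin 2) F))⁻¹ • (s : Matrix.ProjectiveSpecialLinearGroup (Fin 2) F) • ((g : Matrix.ProjectiveSpecialLinearGroup (Fin 2) F ⧸ H)) = _
        rw [inv_smul_smul]
      rw [← h6, h2]
      exact h3
    have hcompl : (({o} : Set (Matrix.ProjectiveSpecialLinearGroup (Fin 2) F ⧸ H))ᶜ).ncard = 10 := by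
      have h7 := Set.ncard_add_ncard_compl ({o} : Set (Matrix.ProjectiveSpecialLinearGroup (Fin 2) F ⧸ H))
      rw [Set.ncard_singleton, hΩ] at h7
      omega
    have hOle : O.ncard ≤ 10 := by
      rw [← hcompl]
      exact Set.ncard_le_ncard hsub (Set.toFinite _)
    have hS6 : Nat.card S = 6 := by
      have hd : Nat.card S ∣ 60 := Dvd.intro _ h1
      have hpos : 0 < O.ncard := by
        rcases Nat.eq_zero_or_pos O.ncard with h | h
        · rw [h] at h1
          omega
        · exact h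
      have hge : 6 ≤ Nat.card S := by
        by_contra hlt
        have : Nat.card S * O.ncard ≤ 5 * 10 := Nat.mul_le_mul (by omega) hOle
        omega
      have hle : Nat.card S ≤ 60 := Nat.le_of_dvd (by norm_num) hd
      have arith : ∀ n < 61, 6 ≤ n → n ∣ 60 → ¬ 4 ∣ n → ¬ 5 ∣ n → n = 6 := by decide
      exact arith _ (by omega) hge hd h4 h5'
    have hO10 : O.ncard = 10 := by
      rw [hS6] at h1
      omega
    have hOeq : O = ({o} : Set _)ᶜ := Set.eq_of_subset_of_ncard_le hsub (by rw [hcompl, hO10])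
    have hy2 : y ∈ O := by
      rw [hOeq]
      exact hy
    obtain ⟨s, hs⟩ := hy2
    exact ⟨s, s.2, hs⟩
  rw [MulAction.is_two_pretransitive_iff]
  intro a b c d hab hcd
  have htrans : ∀ x : Matrix.ProjectiveSpecialLinearGroup (Fin 2) F ⧸ H,
      ∃ g : Matrix.ProjectiveSpecialLinearGroup (Fin 2) F, g • x = o := by
    intro x
    obtain ⟨g, rfl⟩ := QuotientGroup.mk_surjective x
    refine ⟨g⁻¹, ?_⟩
    rw [MulAction.Quotient.smul_mk, ho]
    simp
  obtain ⟨g₁, h₁⟩ := htrans a
  obtain ⟨g₂, h₂⟩ := htrans c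
  have hx : g₁ • b ≠ o := by
    intro h
    apply hab
    rw [← h] at h₁
    exact smul_left_cancel g₁ h₁
  have hy : g₂ • d ≠ o := by
    intro h
    apply hcd
    rw [← h] at h₂
    exact smul_left_cancel g₂ h₂
  obtain ⟨h, hh, hxy⟩ := key _ _ hx hy
  refine ⟨g₂⁻¹ * h * g₁, ?_, ?_⟩
  · rw [mul_smul, mul_smul, h₁, hoh h hh, ← h₂, inv_smul_smul]
  · rw [mul_smul, mul_smul, hxy, inv_smul_smul]

end Cfsg.Agent.S2542
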