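import Cfsg.Statements.S2543
import Mathlib
import Cfsg.Agent.Lib.Classical.Dick.P11b

set_option autoImplicit false
open scoped Pointwise
open Cfsg

namespace Cfsg.Agent.S2543

open Cfsg.Agent.Lib.Classical.Dick in

/-- Let F be a field with 11 elements. PSL_2(F) has exactly 22 subgroups isomorphic to the alternating group A_5, and they form two conjugacy classes: there are two such subgroups that are not conjugate, and every such subgroup is conjugate to one of these two. -/
theorem result {F : Type*} [Field F] [Fintype F] (hF : Fintype.card F = 11) : Nat.card {H : Subgroup (Matrix.ProjectiveSpecialLinearGroup (Fin 2) F) // Nonempty (H ≃* alternatingGroup (Fin 5))} = 22 ∧ ∃ H K : Subgroup (Matrix.ProjectiveSpecialLinearGroup (Fin 2) F), Nonempty (H ≃* alternatingGroup (Fin 5)) ∧ Nonempty (K ≃* alternatingGroup (Fin 5)) ∧ (∀ g : Matrix.ProjectiveSpecialLinearGroup (Fin 2) F, MulAut.conj g • H ≠ K) ∧ ∀ L : Subgroup (Matrix.ProjectiveSpecialLinearGroup (Fin 2) F), Nonempty (L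 ≃* alternatingGroup (Fin 5)) → ∃ g : Matrix.ProjectiveSpecialLinearGroup (Fin 2) F, MulAut.conj g • L = H ∨ MulAut.conj g • L = K := by
  classical
  haveI : Fact (Nat.Prime 2) := ⟨Nat.prime_two⟩
  have hconjsmul : ∀ (g : Matrix.ProjectiveSpecialLinearGroup (Fin 2) F) (S : Subgroup (Matrix.ProjectiveSpecialLinearGroup (Fin 2) F)),
      MulAut.conj g • S = S.map (MulAut.conj g).toMonoidHom := fun _ _ => rfl
  have hcard : Nat.card (Matrix.ProjectiveSpecialLinearGroup (Fin 2) F) = 660 := card_PP11 hF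
  obtain ⟨V, hV⟩ := Sylow.exists_subgroup_card_pow_prime (G := Matrix.ProjectiveSpecialLinearGroup (Fin 2) F) 2
    (n := 2) (by rw [hcard]; norm_num)
  have hV4 : Nat.card V = 4 := by rw [hV]; norm_num
  have h5 : 5 ∣ Fintype.card F * (Fintype.card F ^ 2 - 1) := by rw [hF]; norm_num
  obtain ⟨H₀, ⟨i₀⟩⟩ := exists_A5 h5
  obtain ⟨g₀, hg₀⟩ := exists_conj_contains hF V hV4 H₀ i₀
  obtain ⟨H, hH⟩ : ∃ H, H = H₀.map (MulAut.conj g₀).toMonoidHom := ⟨_, rfl⟩
  have iH : H ≃* alternatingGroup (Fin 5) := by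
    rw [hH]
    exact (H₀.equivMapOfInjective _ (MulAut.conj g₀).injective).symm.trans i₀
  rw [← hH] at hg₀
  -- the outer automorphism
  have h2 : (2 : F) ≠ 0 := two_ne_zero11 hF
  have hρ : Function.Injective (rhoP : Matrix.ProjectiveSpecialLinearGroup (Fin 2) F →* Matrix.ProjGenLinGroup (Fin 2) F) := rhoP_injective
  have hidx : (rhoP : Matrix.ProjectiveSpecialLinearGroup (Fin 2) F →* Matrix.ProjGenLinGroup (Fin 2) F).range.index = 2 := by
    rw [range_rhoP]
    exact index_range_slG h2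
  have hR : (rhoP : Matrix.ProjectiveSpecialLinearGroup (Fin 2) F →* Matrix.ProjGenLinGroup (Fin 2) F).range.Normal :=
    Subgroup.normal_of_index_eq_two hidx
  obtain ⟨ψ₀, hψ₀⟩ : ∃ ψ₀, ψ₀ ∉ (rhoP : Matrix.ProjectiveSpecialLinearGroup (Fin 2) F →* Matrix.ProjGenLinGroup (Fin 2) F).range := by
    by_contra h
    push_neg at h
    have : (rhoP : Matrix.ProjectiveSpecialLinearGroup (Fin 2) F →* Matrix.ProjGenLinGroup (Fin 2) F).range = ⊤ := by
      rw [eq_top_iff]
      exact fun x _ => h x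
    rw [this, Subgroup.index_top] at hidx
    omega
  obtain ⟨g₁, hg₁⟩ := exists_normalizing (rhoP : Matrix.ProjectiveSpecialLinearGroup (Fin 2) F →* Matrix.ProjGenLinGroup (Fin 2) F)
    hρ hR V 2 (by
      have e : Nat.card (Matrix.ProjectiveSpecialLinearGroup (Fin 2) F) = 2 ^ 2 * 165 := by rw [hcard]; norm_num
      rw [e, factorization_pow_mul 2 2 165 Nat.prime_two (by norm_num), hV]) ψ₀
  set ψ := rhoP g₁ * ψ₀ with hψ
  have hψR : ψ ∉ (rhoP : Matrix.ProjectiveSpecialLinearGroup (Fin 2) F →* Matrix.ProjGenLinGroup (Fin 2) F).range := by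
    intro h
    apply hψ₀
    have : ψ₀ = (rhoP g₁)⁻¹ * ψ := by rw [hψ]; group
    rw [this]
    exact Subgroup.mul_mem _ (Subgroup.inv_mem _ ⟨g₁, rfl⟩) h
  obtain ⟨K, hK⟩ : ∃ K, K = twist rhoP ψ H := ⟨_, rfl⟩
  have hgK : Subgroup.normalizer (V : Set (Matrix.ProjectiveSpecialLinearGroup (Fin 2) F)) ≤ K := by
    rw [hK]
    exact le_twist rhoP hρ hR ψ V H hg₁ hg₀
  obtain ⟨iK⟩ : Nonempty (K ≃* alternatingGroup (Fin 5)) := by
    obtain ⟨j⟩ := twist_iso rhoP hρ hR ψ H
    rw [hK]
    exact ⟨j.trans iH⟩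
  have hKH : K ≠ H := by
    rw [hK]
    exact twist_ne hF H iH ψ hψR
  have hnc : ∀ g : Matrix.ProjectiveSpecialLinearGroup (Fin 2) F, H.map (MulAut.conj g).toMonoidHom ≠ K := by
    intro g h
    apply hKH
    have hle : V ≤ H ⊓ H.map (MulAut.conj g).toMonoidHom := by
      apply le_inf
      · exact Subgroup.le_normalizer.trans hg₀
      · rw [h]
        exact Subgroup.le_normalizer.trans hgK
    have hd : 4 ∣ Nat.card ↥(H ⊓ H.map (MulAut.conj g).toMonoidHom) := by
      rw [← hV4]
      exact Subgroup.card_dvd_of_le hle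
    have hgH := mem_of_dvd_four hF H iH g hd
    rw [← h]
    ext x
    constructor
    · rintro ⟨y, hy, rfl⟩
      exact H.mul_mem (H.mul_mem hgH hy) (H.inv_mem hgH)
    · intro hx
      refine ⟨g⁻¹ * x * g, H.mul_mem (H.mul_mem (H.inv_mem hgH) hx) hgH, ?_⟩
      show g * (g⁻¹ * x * g) * g⁻¹ = x
      group
  have hcover : ∀ L : Subgroup (Matrix.ProjectiveSpecialLinearGroup (Fin 2) F), Nonempty (L ≃* alternatingGroup (Fin 5)) →
      ∃ g : Matrix.ProjectiveSpecialLinearGroup (Fin 2) F,
        L.map (MulAut.conj g).toMonoidHom = H ∨ L.map (MulAut.conj g).toMonoidHom = K := by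
    rintro L ⟨i⟩
    obtain ⟨g, hg⟩ := exists_conj_contains hF V hV4 L i
    have i' : L.map (MulAut.conj g).toMonoidHom ≃* alternatingGroup (Fin 5) :=
      (L.equivMapOfInjective _ (MulAut.conj g).injective).symm.trans i
    refine ⟨g, ?_⟩
    rcases two_of_three hF V hV4 _ H K i' iH iK hg hg₀ hgK with h | h | h
    · exact Or.inl h
    · exact absurd h.symm hKH
    · exact Or.inr h
  refine ⟨?_, H, K, ⟨iH⟩, ⟨iK⟩, ?_, ?_⟩
  · -- the count
    have hS1 := ncard_conj_class H (normalizer_H5 hF H iH)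
    have hS2 := ncard_conj_class K (normalizer_H5 hF K iK)
    rw [index_H5 hF H iH] at hS1
    rw [index_H5 hF K iK] at hS2
    have hset : {M : Subgroup (Matrix.ProjectiveSpecialLinearGroup (Fin 2) F) | Nonempty (M ≃* alternatingGroup (Fin 5))} =
        {M | ∃ g : Matrix.ProjectiveSpecialLinearGroup (Fin 2) F, M = H.map (MulAut.conj g).toMonoidHom} ∪
        {M | ∃ g : Matrix.ProjectiveSpecialLinearGroup (Fin 2) F, M = K.map (MulAut.conj g).toMonoidHom} := by
      ext M
      constructor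
      · intro hM
        obtain ⟨g, hg⟩ := hcover M hM
        have hinv : ∀ N : Subgroup (Matrix.ProjectiveSpecialLinearGroup (Fin 2) F), M.map (MulAut.conj g).toMonoidHom = N →
            M = N.map (MulAut.conj g⁻¹).toMonoidHom := by
          intro N hN
          rw [← hN, Subgroup.map_map]
          ext x
          constructor
          · intro hx
            refine ⟨x, hx, ?_⟩
            show g⁻¹ * (g * x * g⁻¹) * g⁻¹⁻¹ = x
            group
          · rintro ⟨y, hy, rfl⟩
            have e : ((MulAut.conj g⁻¹).toMonoidHom.comp (MulAut.conj g).toMonoidHom) y = y := by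
              show g⁻¹ * (g * y * g⁻¹) * g⁻¹⁻¹ = y
              group
            rw [e]
            exact hy
        rcases hg with h | h
        · exact Or.inl ⟨g⁻¹, hinv _ h⟩
        · exact Or.inr ⟨g⁻¹, hinv _ h⟩
      · rintro (⟨g, rfl⟩ | ⟨g, rfl⟩)
        · exact ⟨(H.equivMapOfInjective _ (MulAut.conj g).injective).symm.trans iH⟩
        · exact ⟨(K.equivMapOfInjective _ (MulAut.conj g).injective).symm.trans iK⟩
    have hdisj : Disjoint {M | ∃ g : Matrix.ProjectiveSpecialLinearGroup (Fin 2) F, M = H.map (MulAut.conj g).toMonoidHom}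
        {M | ∃ g : Matrix.ProjectiveSpecialLinearGroup (Fin 2) F, M = K.map (MulAut.conj g).toMonoidHom} := by
      rw [Set.disjoint_left]
      rintro M ⟨a, ha⟩ ⟨b, hb⟩
      apply hnc (b⁻¹ * a)
      have e1 : H.map (MulAut.conj (b⁻¹ * a)).toMonoidHom = (H.map (MulAut.conj a).toMonoidHom).map (MulAut.conj b⁻¹).toMonoidHom := by
        rw [Subgroup.map_map]
        congr 1
        ext x
        simp [mul_assoc]
      rw [e1, ← ha, hb, Subgroup.map_map]
      ext x
      constructor
      · rintro ⟨y, hy, rfl⟩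
        have e : ((MulAut.conj b⁻¹).toMonoidHom.comp (MulAut.conj b).toMonoidHom) y = y := by
          show b⁻¹ * (b * y * b⁻¹) * b⁻¹⁻¹ = y
          group
        rw [e]
        exact hy
      · intro hx
        refine ⟨x, hx, ?_⟩
        show b⁻¹ * (b * x * b⁻¹) * b⁻¹⁻¹ = x
        group
    show Nat.card ↥{M : Subgroup (Matrix.ProjectiveSpecialLinearGroup (Fin 2) F) | Nonempty (M ≃* alternatingGroup (Fin 5))} = 22
    rw [Nat.card_coe_set_eq, hset, Set.ncard_union_eq hdisj (Set.toFinite _) (Set.toFinite _), hS1, hS2]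
  · intro g h
    exact hnc g h
  · intro L hL
    obtain ⟨g, hg⟩ := hcover L hL
    exact ⟨g, hg⟩

end Cfsg.Agent.S2543
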