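import Cfsg.Statements.S2544
import Cfsg.Agent.Lib.GLFlag.PSL
import Cfsg.Agent.Lib.Char.DefectZero
import Mathlib

set_option autoImplicit false
open Cfsg

namespace Cfsg.Agent.S2544

/-- Let F be a finite field of characteristic p and consider the projective special linear group PSL_n(F) with n ≥ 2. This group has an irreducible complex character χ whose degree equals the order of a Sylow p-subgroup (namely q^(n(n−1)/2) when #F = q) and whose restriction to any Sylow p-subgroup P is the regular character of P: χ vanishes on the non-identity elements of P. (This is the Steinberg character.) -/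
theorem result {F : Type*} [Field F] [Fintype F] (p : ℕ) [Fact p.Prime] [CharP F p] (n : ℕ) (hn : 2 ≤ n) : ∃ χ : Matrix.ProjectiveSpecialLinearGroup (Fin n) F → ℂ, Cfsg.IsIrrCharacter (Matrix.ProjectiveSpecialLinearGroup (Fin n) F) χ ∧ ∀ P : Sylow p (Matrix.ProjectiveSpecialLinearGroup (Fin n) F), χ 1 = Nat.card P ∧ ∀ x : Matrix.ProjectiveSpecialLinearGroup (Fin n) F, x ∈ P → x ≠ 1 → χ x = 0 := by
  classical
  have hpp : p.Prime := Fact.out
  have hn0 : 0 < n := by omega
  set q := Fintype.card F with hq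
  obtain ⟨f, hf0, hf⟩ := FiniteField.card F p
  have hq1 : 1 ≤ q := Fintype.card_pos
  set χ := Cfsg.Agent.Lib.GLFlag.unipotentPSL F n (fun _ => 1) with hχ
  have hirr : Cfsg.IsIrrCharacter (Matrix.ProjectiveSpecialLinearGroup (Fin n) F) χ :=
    Cfsg.Agent.Lib.GLFlag.isIrr_unipotentPSL hn0 _ (fun _ _ _ => le_rfl) (by simp)
  have hone : χ 1 = ((q ^ (n.choose 2) : ℕ) : ℂ) := by
    rw [hχ, Cfsg.Agent.Lib.GLFlag.unipotentPSL_one hn0, Cfsg.Agent.Lib.GLFlag.degree_St q rfl]
    push_cast
    rfl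
  have hdeg : Cfsg.charDegree χ = q ^ (n.choose 2) := by
    unfold Cfsg.charDegree
    rw [hone, Complex.natCast_re, Nat.floor_natCast]
  have hdvd := Cfsg.Agent.Lib.Char.charDegree_dvd_card hirr
  rw [hdeg] at hdvd
  -- the `p`-part of the order
  set G := Matrix.ProjectiveSpecialLinearGroup (Fin n) F with hG
  have hGne : Nat.card G ≠ 0 := Nat.card_pos.ne'
  have hpart : p ^ (Nat.card G).factorization p = q ^ (n.choose 2) := by
    have hcop : ∀ r : ℕ, 0 < r → ¬ p ∣ Cfsg.Agent.Lib.GLFlag.qInt q r := by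
      intro r hr hd
      have h1 : p ∣ q := by
        rw [hq, hf]
        exact dvd_pow_self p f.pos.ne'
      obtain ⟨r', rfl⟩ : ∃ r', r = r' + 1 := ⟨r - 1, by omega⟩
      have h2 : Cfsg.Agent.Lib.GLFlag.qInt q (r' + 1) = ∑ l ∈ Finset.range r', q ^ (l + 1) + 1 := by
        unfold Cfsg.Agent.Lib.GLFlag.qInt
        rw [Finset.sum_range_succ']
        simp
      have h3 : p ∣ ∑ l ∈ Finset.range r', q ^ (l + 1) :=
        Finset.dvd_sum fun l _ => (dvd_pow h1 (by omega))
      rw [h2] at hd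
      exact hpp.one_lt.ne' (Nat.dvd_one.1 ((Nat.dvd_add_right h3).1 hd))
    have h0 : (q ^ (n.choose 2)) = p ^ (f * n.choose 2) := by
      rw [hq, hf, pow_mul]
    have hM : Nat.card G ∣ Nat.card (GL (Fin n) F) := by
      have h1 : Nat.card G ∣ Nat.card (Cfsg.Agent.Lib.GLFlag.SLn n F) :=
        Subgroup.card_quotient_dvd_card _
      have h2 : Nat.card (Cfsg.Agent.Lib.GLFlag.SLn n F) ∣ Nat.card (GL (Fin n) F) :=
        Subgroup.card_dvd_of_injective _ Cfsg.Agent.Lib.GLFlag.iSL_inj
      exact h1.trans h2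
    rw [Cfsg.Agent.Lib.GLFlag.card_GL_fin] at hM
    have hq2 : ¬ p ∣ (q - 1) ^ n * Cfsg.Agent.Lib.GLFlag.qFac q n := by
      intro hd
      rcases (hpp.dvd_mul).1 hd with h1 | h1
      · have h2 := hpp.dvd_of_dvd_pow h1
        have h3 : p ∣ q := by
          rw [hq, hf]
          exact dvd_pow_self p f.pos.ne'
        have h4 : q - 1 + 1 = q := by omega
        have h5 : p ∣ 1 := (Nat.dvd_add_right h2).1 (by rw [h4]; exact h3)
        exact hpp.one_lt.ne' (Nat.dvd_one.1 h5)
      · unfold Cfsg.Agent.Lib.GLFlag.qFac at h1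
        obtain ⟨j, _, hj⟩ := (Prime.dvd_finset_prod_iff hpp.prime _).1 h1
        exact hcop (j + 1) (by omega) hj
    have hle1 : f * n.choose 2 ≤ (Nat.card G).factorization p := by
      apply (hpp.pow_dvd_iff_le_factorization hGne).1
      rw [← h0]
      exact hdvd
    have hle2 : (Nat.card G).factorization p ≤ f * n.choose 2 := by
      have h1 : p ^ (Nat.card G).factorization p ∣ Nat.card G := Nat.ordProj_dvd _ _
      have h2 := h1.trans hM
      rw [mul_assoc, ← hq, h0] at h2
      have hc : Nat.Coprime (p ^ (Nat.card G).factorization p) ((q - 1) ^ n * Cfsg.Agent.Lib.GLFlag.qFac q n) :=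
        Nat.Coprime.pow_left _ ((Nat.Prime.coprime_iff_not_dvd hpp).2 hq2)
      have h3 := hc.dvd_of_dvd_mul_right h2
      exact (Nat.pow_dvd_pow_iff_le_right hpp.one_lt).1 h3
    rw [h0, le_antisymm hle2 hle1]
  refine ⟨χ, hirr, fun P => ⟨?_, fun x hx hx1 => ?_⟩⟩
  · rw [hone, Sylow.card_eq_multiplicity, hpart]
  · have hP : IsPGroup p P := P.isPGroup'
    obtain ⟨k, hk⟩ := (IsPGroup.iff_orderOf.1 hP) ⟨x, hx⟩
    have hk' : orderOf x = p ^ k := by rwa [Subgroup.orderOf_mk] at hk
    have hord : p ∣ orderOf x := by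
      rw [hk']
      refine dvd_pow_self p ?_
      rintro rfl
      apply hx1
      rw [pow_zero] at hk'
      exact orderOf_eq_one_iff.1 hk'
    exact Cfsg.Agent.Lib.Char.irr_eq_zero_of_full_ppart ⟨χ, hirr⟩ p hpp (by rw [hdeg, hpart]) hord

end Cfsg.Agent.S2544
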