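import Cfsg.Statements.S2551
import Cfsg.Agent.S0256
import Cfsg.Agent.Lib.AltChar.SylowExp

set_option autoImplicit false
open Cfsg

namespace Cfsg.Agent.S2551

open MulAction

section fixpts

variable {G α : Type*} [Group G] [MulAction G α] [Finite α]

theorem card_mod_fix {p : ℕ} [hp : Fact p.Prime] (g : G) (hg : orderOf g = p) :
    Nat.card α ≡ Nat.card {a : α // g • a = a} [MOD p] := by
  have hP : IsPGroup p (Subgroup.zpowers g) := IsPGroup.of_card (n := 1) (by
    rw [Nat.card_zpowers, hg, pow_one])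
  have h1 := hP.card_modEq_card_fixedPoints α
  have h2 : Nat.card (fixedPoints (Subgroup.zpowers g) α) = Nat.card {a : α // g • a = a} := by
    apply Nat.card_congr
    refine Equiv.subtypeEquivRight fun a => ?_
    rw [mem_fixedPoints]
    constructor
    · intro h
      exact h ⟨g, Subgroup.mem_zpowers g⟩
    · intro h m
      have h3 : g ∈ stabilizer G a := h
      have h4 : Subgroup.zpowers g ≤ stabilizer G a := by
        rw [Subgroup.zpowers_le]
        exact h3
      exact h4 m.2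
  rwa [h2] at h1

end fixpts

section core

variable {V G : Type*} [AddCommGroup V] [Finite V] [Group G] [Finite G] [DistribMulAction G V]

/-- The fixed vectors of an element. -/
def fixA (g : G) : AddSubgroup V where
  carrier := {v | g • v = v}
  add_mem' := by
    intro a b ha hb
    show g • (a + b) = a + b
    rw [smul_add, show g • a = a from ha, show g • b = b from hb]
  zero_mem' := smul_zero g
  neg_mem' := by
    intro a ha
    show g • (-a) = -a
    rw [smul_neg, show g • a = a from ha]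

theorem card_fixA (g : G) : Nat.card (fixA g : AddSubgroup V) = Nat.card {a : V // g • a = a} := rfl

theorem dvd16 {d : ℕ} (h : d ∣ 16) : d = 1 ∨ d = 2 ∨ d = 4 ∨ d = 8 ∨ d = 16 := by
  have h1 : d ≤ 16 := Nat.le_of_dvd (by norm_num) h
  interval_cases d <;> simp_all <;> omega

/-- An element acting nontrivially of order five has no nonzero fixed vector. -/
theorem fix5 (hV : Nat.card V = 16) (hf : ∀ g : G, (∀ v : V, g • v = v) → g = 1) {g : G}
    (hg : orderOf g = 5) {w : V} (hw : g • w = w) : w = 0 := by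
  haveI : Fact (Nat.Prime 5) := ⟨by norm_num⟩
  have h1 := card_mod_fix (α := V) (p := 5) g hg
  rw [hV, ← card_fixA] at h1
  have h2 := AddSubgroup.card_addSubgroup_dvd_card (fixA g : AddSubgroup V)
  rw [hV] at h2
  have hne : g ≠ 1 := by
    rintro rfl
    rw [orderOf_one] at hg
    omega
  have h3 : Nat.card (fixA g : AddSubgroup V) ≠ 16 := by
    intro h16
    apply hne
    apply hf
    intro v
    have htop : (fixA g : AddSubgroup V) = ⊤ := by
      apply AddSubgroup.eq_top_of_card_eq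
      rw [h16, hV]
    have : v ∈ (fixA g : AddSubgroup V) := by rw [htop]; trivial
    exact this
  have h4 : Nat.card (fixA g : AddSubgroup V) = 1 := by
    unfold Nat.ModEq at h1
    rcases dvd16 h2 with h | h | h | h | h <;> rw [h] at h1 h3 ⊢ <;> omega
  have h5 : (fixA g : AddSubgroup V) = ⊥ := AddSubgroup.eq_bot_of_card_eq _ h4
  have h6 : w ∈ (fixA g : AddSubgroup V) := hw
  rw [h5] at h6
  exact h6

/-- An element of order seven fixes exactly one nonzero vector. -/
theorem fix7 (hV : Nat.card V = 16) (hf : ∀ g : G, (∀ v : V, g • v = v) → g = 1) {g : G}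
    (hg : orderOf g = 7) : Nat.card (fixA g : AddSubgroup V) = 2 := by
  haveI : Fact (Nat.Prime 7) := ⟨by norm_num⟩
  have h1 := card_mod_fix (α := V) (p := 7) g hg
  rw [hV, ← card_fixA] at h1
  have h2 := AddSubgroup.card_addSubgroup_dvd_card (fixA g : AddSubgroup V)
  rw [hV] at h2
  have hne : g ≠ 1 := by
    rintro rfl
    rw [orderOf_one] at hg
    omega
  have h3 : Nat.card (fixA g : AddSubgroup V) ≠ 16 := by
    intro h16
    apply hne
    apply hf
    intro v
    have htop : (fixA g : AddSubgroup V) = ⊤ := by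
      apply AddSubgroup.eq_top_of_card_eq
      rw [h16, hV]
    have : v ∈ (fixA g : AddSubgroup V) := by rw [htop]; trivial
    exact this
  unfold Nat.ModEq at h1
  rcases dvd16 h2 with h | h | h | h | h <;> rw [h] at h1 h3 ⊢ <;> omega

theorem eq_of_fix7 (hV : Nat.card V = 16) (hf : ∀ g : G, (∀ v : V, g • v = v) → g = 1) {g : G}
    (hg : orderOf g = 7) {v w : V} (hv : g • v = v) (hv0 : v ≠ 0) (hw : g • w = w) : w = 0 ∨ w = v := by
  have h2 := fix7 hV hf hg
  rw [Nat.card_eq_two_iff' (⟨0, (fixA g).zero_mem⟩ : (fixA g : AddSubgroup V))] at h2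
  obtain ⟨y, -, hy⟩ := h2
  by_cases hw0 : w = 0
  · exact Or.inl hw0
  · right
    have h1 := hy ⟨w, hw⟩ (fun h => hw0 (congrArg Subtype.val h))
    have h3 := hy ⟨v, hv⟩ (fun h => hv0 (congrArg Subtype.val h))
    exact congrArg Subtype.val (h1.trans h3.symm)

/-- Transitivity on the nonzero vectors. -/
theorem trans_nonzero (hV : Nat.card V = 16) (hf : ∀ g : G, (∀ v : V, g • v = v) → g = 1) {g5 g7 : G}
    (h5 : orderOf g5 = 5) (h7 : orderOf g7 = 7) {a b : V} (ha : a ≠ 0) (hb : b ≠ 0) :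
    ∃ g : G, g • a = b := by
  haveI : Fact (Nat.Prime 5) := ⟨by norm_num⟩
  haveI : Fact (Nat.Prime 7) := ⟨by norm_num⟩
  have hOsub : orbit G a ⊆ {y : V | y ≠ 0} := by
    rintro _ ⟨g, rfl⟩
    intro h0
    apply ha
    have : g • a = g • (0 : V) := by
      rw [smul_zero]
      exact h0
    exact smul_left_cancel g this
  have hX : ({y : V | y ≠ 0} : Set V).ncard = 15 := by
    have h1 : ({y : V | y ≠ 0} : Set V) = (Set.univ : Set V) \ {0} := by
      ext y
      simp
    rw [h1, Set.ncard_diff_singleton_of_mem (Set.mem_univ _), Set.ncard_univ, hV]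
  have h1 := card_mod_fix (α := orbit G a) (p := 5) g5 h5
  have h2 := card_mod_fix (α := orbit G a) (p := 7) g7 h7
  have h3 : Nat.card {z : orbit G a // g5 • z = z} = 0 := by
    rw [Nat.card_eq_zero]
    left
    constructor
    rintro ⟨z, hz⟩
    have h4 : g5 • (z : V) = z := congrArg Subtype.val hz
    exact hOsub z.2 (fix5 hV hf h5 h4)
  have h4 : Nat.card {z : orbit G a // g7 • z = z} ≤ 1 := by
    rw [Finite.card_le_one_iff_subsingleton]
    constructor
    rintro ⟨z, hz⟩ ⟨y, hy⟩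
    have h6 : g7 • (z : V) = z := congrArg Subtype.val hz
    have h7' : g7 • (y : V) = y := congrArg Subtype.val hy
    have hz0 : (z : V) ≠ 0 := hOsub z.2
    have hy0 : (y : V) ≠ 0 := hOsub y.2
    rcases eq_of_fix7 hV hf h7 h6 hz0 h7' with h | h
    · exact absurd h hy0
    · exact Subtype.ext (Subtype.ext h.symm)
  have h5' : (orbit G a).ncard = Nat.card (orbit G a) := (Nat.card_coe_set_eq _).symm
  have hle : Nat.card (orbit G a) ≤ 15 := by
    rw [← h5', ← hX]
    exact Set.ncard_le_ncard hOsub (Set.toFinite _)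
  have hpos : 0 < Nat.card (orbit G a) := Nat.card_pos_iff.mpr ⟨⟨⟨a, mem_orbit_self a⟩⟩, Subtype.finite⟩
  have h15 : Nat.card (orbit G a) = 15 := by
    rw [h3] at h1
    unfold Nat.ModEq at h1 h2
    have h6 : Nat.card {z : orbit G a // g7 • z = z} = 0 ∨ Nat.card {z : orbit G a // g7 • z = z} = 1 := by omega
    generalize Nat.card (orbit G a) = n at *
    rcases h6 with h | h <;> rw [h] at h2 <;> omega
  have hEq : orbit G a = {y : V | y ≠ 0} :=
    Set.eq_of_subset_of_ncard_le hOsub (by rw [hX, h5', h15]) (Set.toFinite _)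
  have hb' : b ∈ orbit G a := by
    rw [hEq]
    exact hb
  obtain ⟨g, hg⟩ := hb'
  exact ⟨g, hg⟩

end core

section hyper

variable {V G : Type*} [AddCommGroup V] [Finite V] [Group G] [Finite G] [DistribMulAction G V]

/-- The map `w ↦ x w + w`. -/
def dl (x : G) : V →+ V where
  toFun w := x • w + w
  map_zero' := by simp
  map_add' := by
    intro a b
    simp only [smul_add]
    abel

def UU (x : G) : AddSubgroup V := (dl x).range

theorem add_logic {U : AddSubgroup V} (h2 : ∀ y : V, y + y = 0)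
    (hU : ∀ y z : V, y ∉ U → z ∉ U → y + z ∈ U) (y z : V) : y + z ∈ U ↔ (y ∈ U ↔ z ∈ U) := by
  by_cases hy : y ∈ U <;> by_cases hz : z ∈ U
  · simp [hy, hz, add_mem hy hz]
  · have h : y + z ∉ U := by
      intro h
      apply hz
      have : z = y + (y + z) := by
        rw [← add_assoc, h2, zero_add]
      rw [this]
      exact add_mem hy h
    simp [hy, hz, h]
  · have h : y + z ∉ U := by
      intro h
      apply hy
      have : y = (y + z) + z := by
        rw [add_assoc, h2, add_zero]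
      rw [this]
      exact add_mem h hz
    simp [hy, hz, h]
  · simp [hy, hz, hU y z hy hz]

theorem bool_core (A A' B B' C C' : Prop) (H1 : ¬ C ↔ (A ↔ B)) (H2 : ¬ C' ↔ (A' ↔ B'))
    (H3 : ¬ (C ↔ C') ↔ ((A ↔ A') ↔ (B ↔ B'))) : False := by
  by_cases hA : A <;> by_cases hA' : A' <;> by_cases hB : B <;> by_cases hB' : B' <;> by_cases hC : C <;>
    by_cases hC' : C' <;> simp_all

theorem bool2 (P Q R P' Q' R' : Prop) (e : R' ↔ (P' ↔ Q')) (g1 : P' ↔ ¬ P) (g2 : Q' ↔ ¬ Q) (g3 : R' ↔ ¬ R) :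
    ¬ R ↔ (P ↔ Q) := by
  tauto

theorem exists_not_mem' {V : Type*} [Finite V] (s : Finset V) (h : s.card < Nat.card V) : ∃ u, u ∉ s := by
  classical
  by_contra hcon
  push_neg at hcon
  haveI := Fintype.ofFinite V
  have : s = Finset.univ := Finset.eq_univ_iff_forall.mpr hcon
  rw [this, Finset.card_univ, Nat.card_eq_fintype_card] at h
  exact lt_irrefl _ h

/-- The purely combinatorial contradiction. -/
theorem logic_core (hV : Nat.card V = 16) (h2 : ∀ y : V, y + y = 0) (Z : V → V → Prop)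
    (hself : ∀ a, a ≠ 0 → ¬ Z a a) (hadd : ∀ a, a ≠ 0 → ∀ b c, Z a (b + c) ↔ (Z a b ↔ Z a c))
    {a b : V} (ha : a ≠ 0) (hb : b ≠ 0) (hab : a ≠ b)
    (hd : (∀ a b, a ≠ 0 → b ≠ 0 → a ≠ b → (Z a b ↔ Z b a)) ∨
      (∀ a b, a ≠ 0 → b ≠ 0 → a ≠ b → (Z a b ↔ ¬ Z b a))) : False := by
  classical
  have hc0 : a + b ≠ 0 := by
    intro h
    apply hab
    have : a = a + (b + b) := by rw [h2, add_zero]
    rw [this, ← add_assoc, h, zero_add]
  have hca : a + b ≠ a := by
    intro h
    apply hb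
    have h3 : a + b = a + 0 := by rw [h, add_zero]
    exact add_left_cancel h3
  have hcb : a + b ≠ b := by
    intro h
    apply ha
    have h3 : a + b = 0 + b := by rw [h, zero_add]
    exact add_right_cancel h3
  rcases hd with hs | hs
  · have h1 := hadd (a + b) hc0 a b
    have h3 := hself (a + b) hc0
    have h4 := hadd a ha a b
    have h5 := hself a ha
    have h6 := hadd b hb a b
    have h7 := hself b hb
    have h8 := hs (a + b) a hc0 ha hca
    have h9 := hs (a + b) b hc0 hb hcb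
    have h10 := hs a b ha hb hab
    tauto
  · -- choose two more vectors
    let L : Finset V := {0, a, b, a + b}
    have hL : L.card ≤ 4 := Finset.card_le_four
    obtain ⟨w, hw⟩ := exists_not_mem' L (by rw [hV]; omega)
    obtain ⟨w', hw'⟩ := exists_not_mem' (L ∪ L.image (fun l => w + l)) (by
      rw [hV]
      have h3 := Finset.card_union_le L (L.image (fun l => w + l))
      have h4 : (L.image (fun l => w + l)).card ≤ L.card := Finset.card_image_le
      omega)
    rw [Finset.mem_union, not_or] at hw'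
    obtain ⟨hw1, hw2⟩ := hw'
    have hww : w + w' ∉ L := by
      intro h
      apply hw2
      refine Finset.mem_image.mpr ⟨w + w', h, ?_⟩
      rw [← add_assoc, h2, zero_add]
    simp only [L, Finset.mem_insert, Finset.mem_singleton, not_or] at hw hw1 hww
    obtain ⟨w0, wa, wb, wc⟩ := hw
    obtain ⟨v0, va, vb, vc⟩ := hw1
    obtain ⟨u0, ua, ub, uc⟩ := hww
    have H1 := bool2 _ _ _ _ _ _ (hadd w w0 a b) (hs w a w0 ha wa) (hs w b w0 hb wb) (hs w (a + b) w0 hc0 wc)
    have H2 := bool2 _ _ _ _ _ _ (hadd w' v0 a b) (hs w' a v0 ha va) (hs w' b v0 hb vb) (hs w' (a + b) v0 hc0 vc)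
    have H3 := bool2 _ _ _ _ _ _ (hadd (w + w') u0 a b) (hs (w + w') a u0 ha ua) (hs (w + w') b u0 hb ub)
      (hs (w + w') (a + b) u0 hc0 uc)
    rw [hadd a ha w w', hadd b hb w w', hadd (a + b) hc0 w w'] at H3
    exact bool_core _ _ _ _ _ _ H1 H2 H3

end hyper

section main

variable {V G : Type*} [AddCommGroup V] [Finite V] [Group G] [Finite G] [DistribMulAction G V]

theorem dl_eq_zero (h2 : ∀ y : V, y + y = 0) (x : G) (w : V) : dl x w = 0 ↔ x • w = w := by
  show x • w + w = 0 ↔ x • w = w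
  constructor
  · intro h
    calc x • w = x • w + (w + w) := by rw [h2, add_zero]
      _ = (x • w + w) + w := by rw [add_assoc]
      _ = w := by rw [h, zero_add]
  · intro h
    rw [h, h2]

theorem card_UU (hV : Nat.card V = 16) (h2 : ∀ y : V, y + y = 0) {x : G}
    (hc : Nat.card (fixA x : AddSubgroup V) = 2) : Nat.card (UU x : AddSubgroup V) = 8 := by
  have h1 : (dl x : V →+ V).ker = fixA x := by
    ext w
    rw [AddMonoidHom.mem_ker, dl_eq_zero h2]
    rfl
  have h3 := AddSubgroup.card_eq_card_quotient_mul_card_addSubgroup (dl x : V →+ V).ker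
  have h4 : Nat.card (V ⧸ (dl x : V →+ V).ker) = Nat.card (UU x : AddSubgroup V) :=
    Nat.card_congr (QuotientAddGroup.quotientKerEquivRange (dl x : V →+ V)).toEquiv
  rw [h4, h1, hc, hV] at h3
  omega

theorem card_quot_UU (hV : Nat.card V = 16) {x : G} (hc : Nat.card (UU x : AddSubgroup V) = 8) :
    Nat.card (V ⧸ (UU x : AddSubgroup V)) = 2 := by
  have h3 := AddSubgroup.card_eq_card_quotient_mul_card_addSubgroup (UU x : AddSubgroup V)
  rw [hc, hV] at h3
  omega

theorem UU_index {U : AddSubgroup V} (h2 : ∀ y : V, y + y = 0) (hq : Nat.card (V ⧸ U) = 2) (y z : V)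
    (hy : y ∉ U) (hz : z ∉ U) : y + z ∈ U := by
  rw [Nat.card_eq_two_iff' (0 : V ⧸ U)] at hq
  obtain ⟨q, -, hq⟩ := hq
  have h1 : (y : V ⧸ U) ≠ 0 := fun h => hy ((QuotientAddGroup.eq_zero_iff y).mp h)
  have h3 : (z : V ⧸ U) ≠ 0 := fun h => hz ((QuotientAddGroup.eq_zero_iff z).mp h)
  have h4 : (y : V ⧸ U) = (z : V ⧸ U) := (hq _ h1).trans (hq _ h3).symm
  have h5 := QuotientAddGroup.eq.mp h4
  have h6 : -y = y := by
    rw [neg_eq_iff_add_eq_zero, h2]
  rwa [h6] at h5

theorem UU_smul (x : G) {u : V} (hu : u ∈ (UU x : AddSubgroup V)) : x • u ∈ (UU x : AddSubgroup V) := by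
  obtain ⟨w, rfl⟩ := hu
  refine ⟨x • w, ?_⟩
  show x • (x • w) + x • w = x • (x • w + w)
  rw [smul_add]

theorem UU_pow (x : G) {u : V} (hu : u ∈ (UU x : AddSubgroup V)) (n : ℕ) :
    x ^ n • u ∈ (UU x : AddSubgroup V) := by
  induction n with
  | zero => simpa using hu
  | succ n ih =>
    rw [pow_succ', mul_smul]
    exact UU_smul x ih

theorem v_notin (h2 : ∀ y : V, y + y = 0) {x : G} {v : V} (hx7 : orderOf x = 7) (hxv : x • v = v)
    (hv : v ≠ 0) : v ∉ (UU x : AddSubgroup V) := by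
  rintro ⟨w, hw⟩
  have hw' : x • w + w = v := hw
  have h1 : x • w = v + w := by
    calc x • w = x • w + (w + w) := by rw [h2, add_zero]
      _ = (x • w + w) + w := by rw [add_assoc]
      _ = v + w := by rw [hw']
  have h3 : x ^ 2 • w = w := by
    rw [pow_two, mul_smul, h1, smul_add, hxv, h1, ← add_assoc, h2, zero_add]
  have h4 : ∀ n : ℕ, (x ^ 2) ^ n • w = w := by
    intro n
    induction n with
    | zero => simp
    | succ n ih => rw [pow_succ, mul_smul, h3, ih]
  have h5 : x = (x ^ 2) ^ 4 := by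
    have h6 : x ^ 7 = 1 := hx7 ▸ pow_orderOf_eq_one x
    rw [← pow_mul, show 2 * 4 = 7 + 1 by norm_num, pow_succ, h6, one_mul]
  have h6 : x • w = w := by
    rw [h5, h4]
  apply hv
  rw [← hw', h6, h2]

theorem orbit_conn (hV : Nat.card V = 16) (h2 : ∀ y : V, y + y = 0) {x : G} {v : V} (hx7 : orderOf x = 7)
    (hfix : ∀ w : V, x • w = w → w = 0 ∨ w = v) (hvn : v ∉ (UU x : AddSubgroup V))
    (hc : Nat.card (UU x : AddSubgroup V) = 8) {u u' : V} (hu : u ∈ (UU x : AddSubgroup V))
    (hu0 : u ≠ 0) (hu' : u' ∈ (UU x : AddSubgroup V)) (hu0' : u' ≠ 0) : ∃ n : ℕ, x ^ n • u = u' := by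
  classical
  haveI : Fact (Nat.Prime 7) := ⟨by norm_num⟩
  let S : Subgroup G := Subgroup.zpowers x
  have hS : Nat.card S = 7 := by
    rw [Nat.card_zpowers, hx7]
  have hidx : (stabilizer S u).index = (orbit S u).ncard := index_stabilizer S u
  have hdvd : (stabilizer S u).index ∣ 7 := hS ▸ Subgroup.index_dvd_card _
  have hne1 : (stabilizer S u).index ≠ 1 := by
    intro h1
    rw [Subgroup.index_eq_one] at h1
    have h3 : (⟨x, Subgroup.mem_zpowers x⟩ : S) ∈ stabilizer S u := by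
      rw [h1]
      trivial
    rcases hfix u h3 with h | h
    · exact hu0 h
    · exact hvn (h ▸ hu)
  have h7 : (orbit S u).ncard = 7 := by
    rw [← hidx]
    rcases (Nat.dvd_prime (by norm_num)).mp hdvd with h | h
    · exact absurd h hne1
    · exact h
  have hpow : ∀ m : S, ∃ n : ℕ, (m : G) = x ^ n := by
    intro m
    have h3 : (m : G) ∈ Submonoid.powers x := by
      rw [mem_powers_iff_mem_zpowers]
      exact m.2
    obtain ⟨n, hn⟩ := h3
    exact ⟨n, hn.symm⟩
  let W : Set V := (UU x : AddSubgroup V) \ {0}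
  have hW : W.ncard = 7 := by
    have h3 : ((UU x : AddSubgroup V) : Set V).ncard = 8 := by
      rw [← hc]
      exact Nat.card_coe_set_eq _
    show (((UU x : AddSubgroup V) : Set V) \ {0}).ncard = 7
    rw [Set.ncard_diff_singleton_of_mem (show (0 : V) ∈ ((UU x : AddSubgroup V) : Set V) from zero_mem _), h3]
  have hsub : orbit S u ⊆ W := by
    rintro _ ⟨m, rfl⟩
    obtain ⟨n, hn⟩ := hpow m
    constructor
    · show (m : G) • u ∈ (UU x : AddSubgroup V)
      rw [hn]
      exact UU_pow x hu n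
    · intro h0
      apply hu0
      have h3 : (m : G) • u = (m : G) • (0 : V) := by
        rw [smul_zero]
        exact h0
      exact smul_left_cancel _ h3
  have hEq : orbit S u = W := Set.eq_of_subset_of_ncard_le hsub (by rw [hW, h7]) (Set.toFinite _)
  have hm : u' ∈ orbit S u := by
    rw [hEq]
    exact ⟨hu', hu0'⟩
  obtain ⟨m, hm⟩ := hm
  obtain ⟨n, hn⟩ := hpow m
  refine ⟨n, ?_⟩
  rw [← hn]
  exact hm

/-- The elements off `U` are also connected. -/
theorem orbit_conn' (hV : Nat.card V = 16) (h2 : ∀ y : V, y + y = 0) {x : G} {v : V} (hx7 : orderOf x = 7)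
    (hxv : x • v = v) (hfix : ∀ w : V, x • w = w → w = 0 ∨ w = v) (hvn : v ∉ (UU x : AddSubgroup V))
    (hc : Nat.card (UU x : AddSubgroup V) = 8) (hq : Nat.card (V ⧸ (UU x : AddSubgroup V)) = 2)
    {u u' : V} (hu : u ∉ (UU x : AddSubgroup V)) (hu0 : u ≠ v) (hu' : u' ∉ (UU x : AddSubgroup V))
    (hu0' : u' ≠ v) : ∃ n : ℕ, x ^ n • u = u' := by
  have h1 : u + v ∈ (UU x : AddSubgroup V) := UU_index h2 hq _ _ hu hvn
  have h3 : u' + v ∈ (UU x : AddSubgroup V) := UU_index h2 hq _ _ hu' hvn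
  have hne : ∀ y : V, y ≠ v → y + v ≠ 0 := by
    intro y hy h0
    apply hy
    calc y = y + (v + v) := by rw [h2, add_zero]
      _ = (y + v) + v := by rw [add_assoc]
      _ = v := by rw [h0, zero_add]
  obtain ⟨n, hn⟩ := orbit_conn hV h2 hx7 hfix hvn hc h1 (hne u hu0) h3 (hne u' hu0')
  refine ⟨n, ?_⟩
  have hvp : ∀ k : ℕ, x ^ k • v = v := by
    intro k
    induction k with
    | zero => simp
    | succ k ih => rw [pow_succ, mul_smul, hxv, ih]
  rw [smul_add, hvp] at hn
  exact add_right_cancel hn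

end main

section finish

variable {V G : Type*} [AddCommGroup V] [Finite V] [Group G] [Finite G] [DistribMulAction G V]

theorem sne (g : G) {y : V} (h : y ≠ 0) : g • y ≠ 0 := by
  intro h0
  apply h
  have h3 : g • y = g • (0 : V) := by
    rw [smul_zero]
    exact h0
  exact smul_left_cancel g h3

/-- The data attached to an element of order seven and its fixed vector. -/
structure Setup (x : G) (v : V) : Prop where
  hV : Nat.card V = 16
  h2 : ∀ y : V, y + y = 0
  trans : ∀ {a b : V}, a ≠ 0 → b ≠ 0 → ∃ g : G, g • a = b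
  hx7 : orderOf x = 7
  hxv : x • v = v
  hv0 : v ≠ 0
  hfix : ∀ w : V, x • w = w → w = 0 ∨ w = v
  hvn : v ∉ (UU x : AddSubgroup V)
  hc : Nat.card (UU x : AddSubgroup V) = 8
  hq : Nat.card (V ⧸ (UU x : AddSubgroup V)) = 2

variable {x : G} {v : V}

theorem Setup.pow_fix (S : Setup x v) (k : ℕ) : x ^ k • v = v := by
  induction k with
  | zero => simp
  | succ k ih => rw [pow_succ, mul_smul, S.hxv, ih]

theorem Setup.conn (S : Setup x v) {a b : V} (ha0 : a ≠ 0) (hb0 : b ≠ 0) (hav : a ≠ v) (hbv : b ≠ v)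
    (hab : a ∈ (UU x : AddSubgroup V) ↔ b ∈ (UU x : AddSubgroup V)) : ∃ n : ℕ, x ^ n • a = b := by
  by_cases ha : a ∈ (UU x : AddSubgroup V)
  · exact orbit_conn S.hV S.h2 S.hx7 S.hfix S.hvn S.hc ha ha0 (hab.mp ha) hb0
  · exact orbit_conn' S.hV S.h2 S.hx7 S.hxv S.hfix S.hvn S.hc S.hq ha hav (fun h => ha (hab.mpr h)) hbv

theorem Setup.caseE (S : Setup x v) {h : G} (hh : h • v = v) {u : V} (hu : u ∈ (UU x : AddSubgroup V))
    (hu0 : u ≠ 0) (hhu : h • u ∉ (UU x : AddSubgroup V)) {a b a' b' : V} (ha : a ≠ 0) (hb : b ≠ 0)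
    (hab : a ≠ b) (ha' : a' ≠ 0) (hb' : b' ≠ 0) (hab' : a' ≠ b') : ∃ g : G, g • a = a' ∧ g • b = b' := by
  have key : ∀ y : V, y ≠ 0 → y ≠ v → ∃ s : G, s • v = v ∧ s • u = y := by
    intro y hy0 hyv
    by_cases hyU : y ∈ (UU x : AddSubgroup V)
    · obtain ⟨n, hn⟩ := S.conn hu0 hy0 (fun h => S.hvn (h ▸ hu)) hyv (by simp [hu, hyU])
      exact ⟨x ^ n, S.pow_fix n, hn⟩
    · have h1 : h • u ≠ 0 := sne h hu0
      have h3 : h • u ≠ v := by
        intro h3
        apply S.hvn
        have : u = v := smul_left_cancel h (h3.trans hh.symm)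
        exact this ▸ hu
      obtain ⟨n, hn⟩ := S.conn h1 hy0 h3 hyv (by simp [hhu, hyU])
      exact ⟨x ^ n * h, by rw [mul_smul, hh, S.pow_fix], by rw [mul_smul, hn]⟩
  obtain ⟨g₁, hg₁⟩ := S.trans ha S.hv0
  obtain ⟨g₂, hg₂⟩ := S.trans ha' S.hv0
  have y1 : g₁ • b ≠ 0 := sne g₁ hb
  have y1' : g₁ • b ≠ v := by
    intro h3
    exact hab (smul_left_cancel g₁ (hg₁.trans h3.symm))
  have y2 : g₂ • b' ≠ 0 := sne g₂ hb'
  have y2' : g₂ • b' ≠ v := fun h3 => hab' (smul_left_cancel g₂ (hg₂.trans h3.symm))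
  obtain ⟨s₁, hs₁, hs₁'⟩ := key _ y1 y1'
  obtain ⟨s₂, hs₂, hs₂'⟩ := key _ y2 y2'
  refine ⟨g₂⁻¹ * s₂ * s₁⁻¹ * g₁, ?_, ?_⟩
  · rw [mul_smul, mul_smul, mul_smul, hg₁]
    have h3 : s₁⁻¹ • v = v := by
      rw [inv_smul_eq_iff]
      exact hs₁.symm
    rw [h3, hs₂, inv_smul_eq_iff, hg₂]
  · rw [mul_smul, mul_smul, mul_smul, ← hs₁', inv_smul_smul, hs₂', inv_smul_smul]

/-- The relation read off from the hyperplane `U`. -/
def ZZ (x : G) (v a b : V) : Prop := ∃ g : G, g • v = a ∧ g⁻¹ • b ∈ (UU x : AddSubgroup V)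

theorem Setup.Z_iff (hst : ∀ h : G, h • v = v → ∀ u ∈ (UU x : AddSubgroup V), h • u ∈ (UU x : AddSubgroup V))
    {g : G} {a b : V} (hg : g • v = a) : ZZ x v a b ↔ g⁻¹ • b ∈ (UU x : AddSubgroup V) := by
  constructor
  · rintro ⟨g', hg', hb⟩
    have h1 : (g⁻¹ * g') • v = v := by
      rw [mul_smul, hg', ← hg, inv_smul_smul]
    have h3 := hst _ h1 _ hb
    rwa [mul_smul, smul_inv_smul] at h3
  · intro h
    exact ⟨g, hg, h⟩

theorem Setup.caseF (S : Setup x v)
    (hst : ∀ h : G, h • v = v → ∀ u ∈ (UU x : AddSubgroup V), h • u ∈ (UU x : AddSubgroup V)) : False := by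
  obtain ⟨u₀, hu₀, hu₀0⟩ : ∃ u ∈ (UU x : AddSubgroup V), u ≠ 0 := by
    have : Nontrivial (UU x : AddSubgroup V) :=
      Finite.one_lt_card_iff_nontrivial.mp (by rw [S.hc]; norm_num)
    obtain ⟨y, hy⟩ := exists_ne (0 : (UU x : AddSubgroup V))
    exact ⟨y, y.2, fun h => hy (Subtype.ext h)⟩
  have hself : ∀ a : V, a ≠ 0 → ¬ ZZ x v a a := by
    intro a ha hz
    obtain ⟨g, hg⟩ := S.trans S.hv0 ha
    have h1 := (Setup.Z_iff hst hg).mp hz
    rw [← hg, inv_smul_smul] at h1
    exact S.hvn h1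
  have hadd : ∀ a : V, a ≠ 0 → ∀ b c : V, ZZ x v a (b + c) ↔ (ZZ x v a b ↔ ZZ x v a c) := by
    intro a ha b c
    obtain ⟨g, hg⟩ := S.trans S.hv0 ha
    rw [Setup.Z_iff hst hg, Setup.Z_iff hst hg, Setup.Z_iff hst hg, smul_add]
    exact add_logic S.h2 (UU_index S.h2 S.hq) _ _
  have hinv : ∀ (k : G) {a : V}, a ≠ 0 → ∀ b : V, ZZ x v (k • a) (k • b) ↔ ZZ x v a b := by
    intro k a ha b
    obtain ⟨g, hg⟩ := S.trans S.hv0 ha
    have h1 : (k * g) • v = k • a := by rw [mul_smul, hg]
    rw [Setup.Z_iff hst h1, Setup.Z_iff hst hg, mul_inv_rev, mul_smul, inv_smul_smul]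
  have hpair : ∀ {a b a' b' : V}, a ≠ 0 → b ≠ 0 → a ≠ b → a' ≠ 0 → b' ≠ 0 → a' ≠ b' →
      (ZZ x v a b ↔ ZZ x v a' b') → ∃ k : G, k • a = a' ∧ k • b = b' := by
    intro a b a' b' ha hb hab ha' hb' hab' hZ
    obtain ⟨g, hg⟩ := S.trans S.hv0 ha
    obtain ⟨g', hg'⟩ := S.trans S.hv0 ha'
    rw [Setup.Z_iff hst hg, Setup.Z_iff hst hg'] at hZ
    have h1 : g⁻¹ • b ≠ 0 := sne _ hb
    have h3 : g⁻¹ • b ≠ v := by
      intro h
      apply hab
      rw [← hg]
      rw [inv_smul_eq_iff] at h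
      exact h.symm
    have h1' : g'⁻¹ • b' ≠ 0 := sne _ hb'
    have h3' : g'⁻¹ • b' ≠ v := by
      intro h
      apply hab'
      rw [← hg']
      rw [inv_smul_eq_iff] at h
      exact h.symm
    obtain ⟨n, hn⟩ := S.conn h1 h1' h3 h3' hZ
    refine ⟨g' * x ^ n * g⁻¹, ?_, ?_⟩
    · rw [mul_smul, mul_smul, ← hg, inv_smul_smul, S.pow_fix, hg']
    · rw [mul_smul, mul_smul, hn, smul_inv_smul]
  have hswap : ∀ {a b a' b' : V}, a ≠ 0 → b ≠ 0 → a ≠ b → a' ≠ 0 → b' ≠ 0 → a' ≠ b' →
      (ZZ x v a b ↔ ZZ x v a' b') → (ZZ x v b a ↔ ZZ x v b' a') := by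
    intro a b a' b' ha hb hab ha' hb' hab' hZ
    obtain ⟨k, hk, hk'⟩ := hpair ha hb hab ha' hb' hab' hZ
    rw [← hk, ← hk', hinv k hb]
  have hv1 : ZZ x v v u₀ := ⟨1, one_smul _ _, by simpa using hu₀⟩
  have hvu : v ≠ u₀ := fun h => S.hvn (h ▸ hu₀)
  refine logic_core S.hV S.h2 (ZZ x v) hself hadd S.hv0 hu₀0 hvu ?_
  by_cases hz : ZZ x v u₀ v
  · left
    intro a b ha hb hab
    constructor
    · intro h
      have := hswap ha hb hab S.hv0 hu₀0 hvu (iff_of_true h hv1)
      exact this.mpr hz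
    · intro h
      have := hswap hb ha hab.symm S.hv0 hu₀0 hvu (iff_of_true h hv1)
      exact this.mpr hz
  · right
    intro a b ha hb hab
    constructor
    · intro h h'
      have := hswap ha hb hab S.hv0 hu₀0 hvu (iff_of_true h hv1)
      exact hz (this.mp h')
    · intro h
      have := hswap hb ha hab.symm hu₀0 S.hv0 hvu.symm (iff_of_false h hz)
      exact this.mpr hv1

/-- The abstract two-transitivity statement. -/
theorem two_trans (hV : Nat.card V = 16) (h2 : ∀ y : V, y + y = 0)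
    (hf : ∀ g : G, (∀ v : V, g • v = v) → g = 1) (hG : Nat.card G = 2520) {a b a' b' : V}
    (ha : a ≠ 0) (hb : b ≠ 0) (hab : a ≠ b) (ha' : a' ≠ 0) (hb' : b' ≠ 0) (hab' : a' ≠ b') :
    ∃ g : G, g • a = a' ∧ g • b = b' := by
  haveI : Fact (Nat.Prime 5) := ⟨by norm_num⟩
  haveI : Fact (Nat.Prime 7) := ⟨by norm_num⟩
  obtain ⟨g5, h5⟩ := exists_prime_orderOf_dvd_card' (G := G) 5 (by rw [hG]; norm_num)
  obtain ⟨g7, h7⟩ := exists_prime_orderOf_dvd_card' (G := G) 7 (by rw [hG]; norm_num)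
  have tr : ∀ {a b : V}, a ≠ 0 → b ≠ 0 → ∃ g : G, g • a = b :=
    fun ha hb => trans_nonzero hV hf h5 h7 ha hb
  have hO : orbit G a = {y : V | y ≠ 0} := by
    ext y
    constructor
    · rintro ⟨g, rfl⟩
      exact sne g ha
    · intro hy
      obtain ⟨g, hg⟩ := tr ha hy
      exact ⟨g, hg⟩
  have hX : ({y : V | y ≠ 0} : Set V).ncard = 15 := by
    have h1 : ({y : V | y ≠ 0} : Set V) = (Set.univ : Set V) \ {0} := by
      ext y
      simp
    rw [h1, Set.ncard_diff_singleton_of_mem (Set.mem_univ _), Set.ncard_univ, hV]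
  have hidx : (stabilizer G a).index = 15 := by
    rw [index_stabilizer, hO, hX]
  have hcard : Nat.card (stabilizer G a) = 168 := by
    have := Subgroup.card_mul_index (stabilizer G a)
    rw [hidx, hG] at this
    omega
  obtain ⟨y, hy⟩ := exists_prime_orderOf_dvd_card' (G := stabilizer G a) 7 (by rw [hcard]; norm_num)
  have hx7 : orderOf (y : G) = 7 := by
    rw [Subgroup.orderOf_coe]
    exact hy
  have hxv : (y : G) • a = a := y.2
  have hfix : ∀ w : V, (y : G) • w = w → w = 0 ∨ w = a := fun w hw => eq_of_fix7 hV hf hx7 hxv ha hw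
  have hc := card_UU (x := (y : G)) hV h2 (fix7 hV hf hx7)
  have S : Setup (y : G) a :=
    { hV := hV, h2 := h2, trans := tr, hx7 := hx7, hxv := hxv, hv0 := ha, hfix := hfix,
      hvn := v_notin h2 hx7 hxv ha, hc := hc, hq := card_quot_UU hV hc }
  by_cases hE : ∃ h : G, h • a = a ∧ ∃ u ∈ (UU (y : G) : AddSubgroup V), u ≠ 0 ∧
      h • u ∉ (UU (y : G) : AddSubgroup V)
  · obtain ⟨h, hh, u, hu, hu0, hhu⟩ := hE
    exact S.caseE hh hu hu0 hhu ha hb hab ha' hb' hab'
  · push_neg at hE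
    exfalso
    refine S.caseF ?_
    intro h hh u hu
    by_cases hu0 : u = 0
    · rw [hu0, smul_zero]
      exact zero_mem _
    · exact hE h hh u hu hu0

end finish

section concrete

variable {F : Type*} [Field F]

/-- The natural action of a matrix group on column vectors. -/
@[reducible] def act (H : Subgroup (Matrix.GeneralLinearGroup (Fin 4) F)) : DistribMulAction H (Fin 4 → F) where
  smul g v := ((g : Matrix.GeneralLinearGroup (Fin 4) F) : Matrix (Fin 4) (Fin 4) F).mulVec v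
  one_smul v := by
    show (((1 : H) : Matrix.GeneralLinearGroup (Fin 4) F) : Matrix (Fin 4) (Fin 4) F).mulVec v = v
    simp
  mul_smul a b v := by
    show (((a * b : H) : Matrix.GeneralLinearGroup (Fin 4) F) : Matrix (Fin 4) (Fin 4) F).mulVec v =
      ((a : Matrix.GeneralLinearGroup (Fin 4) F) : Matrix (Fin 4) (Fin 4) F).mulVec
        (((b : Matrix.GeneralLinearGroup (Fin 4) F) : Matrix (Fin 4) (Fin 4) F).mulVec v)
    simp [Matrix.mulVec_mulVec]
  smul_zero a := Matrix.mulVec_zero _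
  smul_add a x y := Matrix.mulVec_add _ _ _

theorem center_SL_triv [Fintype F] (hF : Fintype.card F = 2) (A : Matrix.SpecialLinearGroup (Fin 4) F)
    (hA : A ∈ Subgroup.center (Matrix.SpecialLinearGroup (Fin 4) F)) : A = 1 := by
  rw [Matrix.SpecialLinearGroup.mem_center_iff] at hA
  obtain ⟨r, hr, hrA⟩ := hA
  have hr0 : r ≠ 0 := by
    rintro rfl
    simp at hr
  have h1 := FiniteField.pow_card_sub_one_eq_one r hr0
  rw [hF] at h1
  have h3 : r = 1 := by simpa using h1
  subst h3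
  apply Matrix.SpecialLinearGroup.ext
  intro i j
  have := congrFun (congrFun hrA i) j
  rw [← this]
  simp

/-- The alternating group of degree seven inside that of degree eight. -/
theorem exists_alt_hom : ∃ j : alternatingGroup (Fin 7) →* alternatingGroup (Fin 8), Function.Injective j := by
  let ι : Fin 7 ↪ Fin 8 := Fin.castSuccEmb
  let φ := Equiv.Perm.viaEmbeddingHom ι
  have hφ : Function.Injective φ := Equiv.Perm.viaEmbeddingHom_injective ι
  refine ⟨(φ.comp (alternatingGroup (Fin 7)).subtype).codRestrict (alternatingGroup (Fin 8)) ?_, ?_⟩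
  · intro a
    show Equiv.Perm.sign (φ a) = 1
    rw [Cfsg.Agent.Lib.AltChar.sign_viaEmbeddingHom]
    exact a.2
  · intro a b h
    apply Subtype.ext
    apply hφ
    exact congrArg Subtype.val h

end concrete

theorem result {F : Type*} [Field F] [Fintype F] (hF : Fintype.card F = 2) :
    (∃ H : Subgroup (Matrix.GeneralLinearGroup (Fin 4) F), Nonempty (H ≃* alternatingGroup (Fin 7))) ∧
    ∀ H : Subgroup (Matrix.GeneralLinearGroup (Fin 4) F), Nonempty (H ≃* alternatingGroup (Fin 7)) →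
      ∀ v w v' w' : Fin 4 → F, v ≠ 0 → w ≠ 0 → v ≠ w → v' ≠ 0 → w' ≠ 0 → v' ≠ w' →
        ∃ g ∈ H, ((g : Matrix.GeneralLinearGroup (Fin 4) F) : Matrix (Fin 4) (Fin 4) F).mulVec v = v' ∧
          ((g : Matrix.GeneralLinearGroup (Fin 4) F) : Matrix (Fin 4) (Fin 4) F).mulVec w = w' := by
  classical
  constructor
  · obtain ⟨e⟩ := Cfsg.Agent.S0256.result hF
    obtain ⟨j, hj⟩ := exists_alt_hom
    let π : Matrix.SpecialLinearGroup (Fin 4) F →* Matrix.ProjectiveSpecialLinearGroup (Fin 4) F :=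
      QuotientGroup.mk' _
    have hπ : Function.Bijective π := by
      refine ⟨?_, QuotientGroup.mk'_surjective _⟩
      rw [injective_iff_map_eq_one]
      intro a ha
      rw [QuotientGroup.mk'_apply, QuotientGroup.eq_one_iff] at ha
      exact center_SL_triv hF a ha
    let eπ := MulEquiv.ofBijective π hπ
    let ψ : alternatingGroup (Fin 7) →* Matrix.GeneralLinearGroup (Fin 4) F :=
      (Matrix.SpecialLinearGroup.toGL).comp (eπ.symm.toMonoidHom.comp (e.symm.toMonoidHom.comp j))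
    have hψ : Function.Injective ψ := by
      intro a b hab
      apply hj
      apply e.symm.injective
      apply eπ.symm.injective
      apply Matrix.SpecialLinearGroup.ext
      intro i k
      have h3 := congrArg (fun g : Matrix.GeneralLinearGroup (Fin 4) F => (g : Matrix (Fin 4) (Fin 4) F) i k) hab
      exact h3
    exact ⟨ψ.range, ⟨(MonoidHom.ofInjective hψ).symm⟩⟩
  · rintro H ⟨e⟩ v w v' w' hv hw hvw hv' hw' hvw'
    letI := act H
    have h2F : (2 : F) = 0 := by
      have := FiniteField.cast_card_eq_zero F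
      rw [hF] at this
      exact_mod_cast this
    have h2 : ∀ y : Fin 4 → F, y + y = 0 := by
      intro y
      ext i
      show y i + y i = 0
      rw [← two_mul, h2F, zero_mul]
    have hV : Nat.card (Fin 4 → F) = 16 := by
      rw [Nat.card_eq_fintype_card, Fintype.card_fun, hF]
      norm_num
    have hf : ∀ g : H, (∀ v : Fin 4 → F, g • v = v) → g = 1 := by
      intro g hg
      apply Subtype.ext
      apply Units.ext
      apply Matrix.mulVec_injective
      funext u
      have := hg u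
      show ((g : Matrix.GeneralLinearGroup (Fin 4) F) : Matrix (Fin 4) (Fin 4) F).mulVec u = _
      rw [show ((g : Matrix.GeneralLinearGroup (Fin 4) F) : Matrix (Fin 4) (Fin 4) F).mulVec u = u from this]
      simp
    have hG : Nat.card H = 2520 := by
      rw [Nat.card_congr e.toEquiv, nat_card_alternatingGroup]
      simp [Nat.factorial]
    obtain ⟨g, hg, hg'⟩ := two_trans hV h2 hf hG hv hw hvw hv' hw' hvw'
    exact ⟨g, g.2, hg, hg'⟩

end Cfsg.Agent.S2551
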