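import Cfsg.Statements.S2552
import Mathlib

set_option autoImplicit false
open Cfsg

namespace Cfsg.Agent.S2552

/-- Let F be a finite field and n ≥ 1. For every k, the special linear group SL_n(F) acts transitively on the set of k-dimensional subspaces of F^n: any two subspaces of the same dimension are carried onto each other by some matrix of determinant 1. -/
theorem result {F : Type*} [Field F] [Fintype F] (n : ℕ) (hn : 1 ≤ n) (U₁ U₂ : Submodule F (Fin n → F)) (h : Module.finrank F U₁ = Module.finrank F U₂) : ∃ g : Matrix.SpecialLinearGroup (Fin n) F, U₁.map ((Matrix.SpecialLinearGroup.toLin' g : (Fin n → F) ≃ₗ[F] (Fin n → F)) : (Fin n → F) →ₗ[F] (Fin n → F)) = U₂ := by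
  classical
  obtain ⟨φ, hφ⟩ := Submodule.exists_linearEquiv_restrict_eq (LinearEquiv.ofFinrankEq U₁ U₂ h)
  have hφU : ∀ x ∈ U₁, φ x ∈ U₂ := by
    intro x hx
    have := hφ ⟨x, hx⟩
    rw [← this]
    exact Submodule.coe_mem _
  set d := LinearMap.det (φ : (Fin n → F) →ₗ[F] (Fin n → F)) with hd
  have hd0 : d ≠ 0 := by
    rw [hd, ← LinearEquiv.coe_det]
    exact Units.ne_zero _
  obtain ⟨v, hv0, hvU⟩ : ∃ v : Fin n → F, v ≠ 0 ∧ (U₂ = ⊥ ∨ v ∈ U₂) := by
    by_cases hU : U₂ = ⊥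
    · haveI : Nonempty (Fin n) := ⟨⟨0, hn⟩⟩
      refine ⟨fun _ => 1, ?_, Or.inl hU⟩
      intro h0
      exact one_ne_zero (congrFun h0 ⟨0, hn⟩)
    · obtain ⟨v, hv, hv0⟩ := (Submodule.ne_bot_iff _).1 hU
      exact ⟨v, hv0, Or.inr hv⟩
  obtain ⟨f₀, hf₀⟩ : ∃ f₀ : Module.Dual F (Fin n → F), f₀ v = 1 := by
    obtain ⟨f, hf⟩ : ∃ f : Module.Dual F (Fin n → F), f v ≠ 0 := by
      by_contra hall
      push Not at hall
      exact hv0 ((Module.forall_dual_apply_eq_zero_iff F v).1 hall)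
    exact ⟨(f v)⁻¹ • f, by simp [hf]⟩
  let f : Module.Dual F (Fin n → F) := (d⁻¹ - 1) • f₀
  have hfv : f v = d⁻¹ - 1 := by simp [f, hf₀]
  let ψ : (Fin n → F) →ₗ[F] (Fin n → F) := LinearMap.transvection f v
  have hdetψ : LinearMap.det ψ = d⁻¹ := by
    simp only [ψ, LinearMap.transvection.det, hfv]
    ring
  let G : (Fin n → F) →ₗ[F] (Fin n → F) := ψ ∘ₗ (φ : (Fin n → F) →ₗ[F] (Fin n → F))
  have hdetG : LinearMap.det G = 1 := by
    simp only [G, LinearMap.det_comp, hdetψ, ← hd]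
    exact inv_mul_cancel₀ hd0
  let g : Matrix.SpecialLinearGroup (Fin n) F := ⟨LinearMap.toMatrix' G, by
    rw [LinearMap.det_toMatrix', hdetG]⟩
  refine ⟨g, ?_⟩
  have hgapply : ∀ x, (Matrix.SpecialLinearGroup.toLin' g) x = G x := by
    intro x
    rw [Matrix.SpecialLinearGroup.toLin'_apply]
    change Matrix.toLin' (LinearMap.toMatrix' G) x = G x
    rw [Matrix.toLin'_toMatrix']
  apply Submodule.eq_of_le_of_finrank_eq
  · rintro _ ⟨x, hx, rfl⟩
    change (Matrix.SpecialLinearGroup.toLin' g) x ∈ U₂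
    rw [hgapply]
    have h1 := hφU x hx
    change ψ (φ x) ∈ U₂
    simp only [ψ, LinearMap.transvection.apply]
    rcases hvU with hU | hv
    · have h0 : φ x = 0 := by
        rw [hU] at h1
        simpa using h1
      simp [h0, hU]
    · exact U₂.add_mem h1 (U₂.smul_mem _ hv)
  · rw [LinearEquiv.finrank_map_eq, h]

end Cfsg.Agent.S2552
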