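import Cfsg.Statements.S2561
import Cfsg.Agent.Lib.Known3.F2Quad
import Mathlib

set_option autoImplicit false
open Cfsg

namespace Cfsg.Agent.S2561

open Cfsg.Agent.Lib.Known3.F2Quad
open Cfsg.Agent.Lib.Classical.Abs (Qplus Qplus_apply)
open Cfsg.Agent.Lib.Known3.QuadIso

local notation "P" => QuadraticMap.polarBilin

lemma card_all (m : ℕ) : Nat.card {q : (Fin m ⊕ Fin m → ZMod 2) → ZMod 2 // IsPol q} = 2 ^ (2 * m) := by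
  have h : Nat.card (VV m) = Nat.card {q : (Fin m ⊕ Fin m → ZMod 2) → ZMod 2 // IsPol q} := by
    apply Nat.card_eq_of_bijective (fun w => (⟨qq w, qq_isPol w⟩ : {q : VV m → ZMod 2 // IsPol q}))
    constructor
    · intro a b h
      exact qq_injective (congrArg Subtype.val h)
    · rintro ⟨q, hq⟩
      obtain ⟨w, rfl⟩ := exists_qq q hq
      exact ⟨w, rfl⟩
  rw [← h, Nat.card_eq_fintype_card]
  simp [ZMod.card, two_mul]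

lemma dich_qq (m : ℕ) (hm : 1 ≤ m) (w : VV m) :
    (∃ g : (Fin m ⊕ Fin m → ZMod 2) ≃ₗ[ZMod 2] (Fin m ⊕ Fin m → ZMod 2), ∀ v, qq w v = Cfsg.quadFormPlus m (ZMod 2) (g v)) ∨
    (∃ g : (Fin m ⊕ Fin m → ZMod 2) ≃ₗ[ZMod 2] ((Fin (m - 1) ⊕ Fin (m - 1)) ⊕ Fin 2 → ZMod 2), ∀ v, qq w v = Cfsg.quadFormMinus (m - 1) (ZMod 2) 1 1 (g v)) := by
  classical
  let ℓ : (Fin m ⊕ Fin m → ZMod 2) →ₗ[ZMod 2] ZMod 2 := (P (Qplus m (ZMod 2))).flip w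
  have hℓ : ∀ v, ℓ v = BB v w := fun v => (BB_eq v w).symm
  let Q : QuadraticForm (ZMod 2) (Fin m ⊕ Fin m → ZMod 2) := Qplus m (ZMod 2) + QuadraticMap.linMulLin ℓ ℓ
  have hQ : ∀ v, Q v = qq w v := by
    intro v
    simp only [Q, _root_.add_apply, QuadraticMap.linMulLin_apply, hℓ, sq_eq, Qplus_apply]
    rfl
  have hpol : ∀ u v, P Q u v = BB u v := by
    intro u v
    change QuadraticMap.polar _ _ _ = _
    simp only [QuadraticMap.polar, hQ]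
    have h1 := qq_isPol w u v
    rw [h1]
    ring
  have hnd : (P Q).Nondegenerate := by
    have hL : ∀ u, (∀ v, P Q u v = 0) → u = 0 := by
      intro u hu
      apply BB_nondeg
      intro v
      rw [BB_comm, ← hpol]
      exact hu v
    refine ⟨hL, ?_⟩
    intro v hv
    apply BB_nondeg
    intro u
    rw [← hpol]
    exact hv u
  have hV : Module.finrank (ZMod 2) (Fin m ⊕ Fin m → ZMod 2) = 2 * m := by
    simp
    omega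
  rcases isometry_even hm hV Q hnd with ⟨θ, hθ⟩ | ⟨ζ, θ, hζ, hθ⟩
  · left
    refine ⟨θ, fun v => ?_⟩
    rw [hθ, hQ]
  · right
    have h1 : ζ = 1 := by
      have h2 : ζ ≠ 0 := by simpa using hζ 0
      have h3 : ∀ z : ZMod 2, z ≠ 0 → z = 1 := by decide
      exact h3 ζ h2
    subst h1
    refine ⟨θ, fun v => ?_⟩
    rw [hθ, hQ]

lemma type_dich (m : ℕ) (hm : 1 ≤ m) (q : (Fin m ⊕ Fin m → ZMod 2) → ZMod 2) (hq : IsPol q) :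
    (∃ g : (Fin m ⊕ Fin m → ZMod 2) ≃ₗ[ZMod 2] (Fin m ⊕ Fin m → ZMod 2), ∀ v, q v = Cfsg.quadFormPlus m (ZMod 2) (g v)) ∨
    (∃ g : (Fin m ⊕ Fin m → ZMod 2) ≃ₗ[ZMod 2] ((Fin (m - 1) ⊕ Fin (m - 1)) ⊕ Fin 2 → ZMod 2), ∀ v, q v = Cfsg.quadFormMinus (m - 1) (ZMod 2) 1 1 (g v)) := by
  obtain ⟨w, rfl⟩ := exists_qq q hq
  exact dich_qq m hm w

lemma plus_iff (m : ℕ) (w : VV m) :
    (∃ g : (Fin m ⊕ Fin m → ZMod 2) ≃ₗ[ZMod 2] (Fin m ⊕ Fin m → ZMod 2), ∀ v, qq w v = Cfsg.quadFormPlus m (ZMod 2) (g v)) ↔ Q0 w = 0 :=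
  same_type_iff Q0 Q0_isPol w

lemma minus_iff (m : ℕ) (hm : 1 ≤ m) (w : VV m) :
    (∃ g : (Fin m ⊕ Fin m → ZMod 2) ≃ₗ[ZMod 2] ((Fin (m - 1) ⊕ Fin (m - 1)) ⊕ Fin 2 → ZMod 2), ∀ v, qq w v = Cfsg.quadFormMinus (m - 1) (ZMod 2) 1 1 (g v)) ↔ Q0 w ≠ 0 := by
  constructor
  · rintro ⟨g, hg⟩ h0
    obtain ⟨g₁, hg₁⟩ := (plus_iff m w).2 h0
    refine Cfsg.Agent.Lib.Known3.Witt.not_isometric_plus_minus hm (1 : ZMod 2) 1 (by decide) (g₁.symm.trans g) ?_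
    intro u
    simp only [LinearEquiv.trans_apply]
    rw [← hg]
    rw [hg₁]
    simp
  · intro h
    rcases dich_qq m hm w with h1 | h1
    · exact absurd ((plus_iff m w).1 h1) h
    · exact h1

lemma count (m : ℕ) (hm : 1 ≤ m) :
    Nat.card {w : VV m // Q0 w = 0} = 2 ^ (2 * m - 1) + 2 ^ (m - 1) ∧
    Nat.card {w : VV m // Q0 w ≠ 0} = 2 ^ (2 * m - 1) - 2 ^ (m - 1) := by
  classical
  have h1 : (Nat.card {w : VV m // Q0 w = 0} : ℤ) - Nat.card {w : VV m // Q0 w ≠ 0} = 2 ^ m := by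
    rw [← SS_Q0, SS]
    simp only [chi]
    rw [Finset.sum_ite]
    simp only [Finset.sum_const, nsmul_eq_mul, mul_one, mul_neg, Nat.card_eq_fintype_card, Fintype.card_subtype]
    ring
  have h2 : Nat.card {w : VV m // Q0 w = 0} + Nat.card {w : VV m // Q0 w ≠ 0} = 2 ^ (2 * m) := by
    simp only [Nat.card_eq_fintype_card, Fintype.card_subtype]
    rw [Finset.card_filter_add_card_filter_not]
    simp [ZMod.card, two_mul]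
  have h3 : (2 : ℤ) ^ m = 2 * ((2 ^ (m - 1) : ℕ) : ℤ) := by
    push_cast
    rw [← pow_succ']
    congr 1
    omega
  have h4 : 2 ^ (2 * m) = 2 * 2 ^ (2 * m - 1) := by
    rw [← pow_succ']
    congr 1
    omega
  rw [h3] at h1
  rw [h4] at h2
  generalize Nat.card {w : VV m // Q0 w = 0} = N₀ at h1 h2 ⊢
  generalize Nat.card {w : VV m // Q0 w ≠ 0} = N₁ at h1 h2 ⊢
  generalize 2 ^ (m - 1) = B at h1 ⊢
  generalize 2 ^ (2 * m - 1) = A at h2 ⊢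
  omega

lemma card_plus (m : ℕ) (hm : 1 ≤ m) :
    Nat.card {q : (Fin m ⊕ Fin m → ZMod 2) → ZMod 2 // IsPol q ∧ ∃ g : (Fin m ⊕ Fin m → ZMod 2) ≃ₗ[ZMod 2] (Fin m ⊕ Fin m → ZMod 2), ∀ v, q v = Cfsg.quadFormPlus m (ZMod 2) (g v)} = 2 ^ (2 * m - 1) + 2 ^ (m - 1) := by
  rw [← (count m hm).1]
  symm
  apply Nat.card_eq_of_bijective (fun w : {w : VV m // Q0 w = 0} => (⟨qq w.1, qq_isPol w.1, (plus_iff m w.1).2 w.2⟩ : {q : (Fin m ⊕ Fin m → ZMod 2) → ZMod 2 // IsPol q ∧ ∃ g : (Fin m ⊕ Fin m → ZMod 2) ≃ₗ[ZMod 2] (Fin m ⊕ Fin m → ZMod 2), ∀ v, q v = Cfsg.quadFormPlus m (ZMod 2) (g v)}))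
  constructor
  · intro a b h
    exact Subtype.ext (qq_injective (congrArg Subtype.val h))
  · rintro ⟨q, hq, hg⟩
    obtain ⟨w, rfl⟩ := exists_qq q hq
    exact ⟨⟨w, (plus_iff m w).1 hg⟩, rfl⟩

lemma card_minus (m : ℕ) (hm : 1 ≤ m) :
    Nat.card {q : (Fin m ⊕ Fin m → ZMod 2) → ZMod 2 // IsPol q ∧ ∃ g : (Fin m ⊕ Fin m → ZMod 2) ≃ₗ[ZMod 2] ((Fin (m - 1) ⊕ Fin (m - 1)) ⊕ Fin 2 → ZMod 2), ∀ v, q v = Cfsg.quadFormMinus (m - 1) (ZMod 2) 1 1 (g v)} = 2 ^ (2 * m - 1) - 2 ^ (m - 1) := by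
  rw [← (count m hm).2]
  symm
  apply Nat.card_eq_of_bijective (fun w : {w : VV m // Q0 w ≠ 0} => (⟨qq w.1, qq_isPol w.1, (minus_iff m hm w.1).2 w.2⟩ : {q : (Fin m ⊕ Fin m → ZMod 2) → ZMod 2 // IsPol q ∧ ∃ g : (Fin m ⊕ Fin m → ZMod 2) ≃ₗ[ZMod 2] ((Fin (m - 1) ⊕ Fin (m - 1)) ⊕ Fin 2 → ZMod 2), ∀ v, q v = Cfsg.quadFormMinus (m - 1) (ZMod 2) 1 1 (g v)}))
  constructor
  · intro a b h
    exact Subtype.ext (qq_injective (congrArg Subtype.val h))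
  · rintro ⟨q, hq, hg⟩
    obtain ⟨w, rfl⟩ := exists_qq q hq
    exact ⟨⟨w, (minus_iff m hm w).1 hg⟩, rfl⟩


/-- Fix the non-singular alternating form on the 2m-dimensional space over the field of two elements obtained by polarizing the plus-type form Σ xᵢyᵢ (m ≥ 1). The functions q on the space with q(u + v) = q(u) + q(v) + f(u, v) (the quadratic forms polarizing to f) number 2^(2m); each is equivalent under an invertible linear map either to the plus-type form or to the minus-type form Σ xᵢyᵢ + (z₁² + z₁z₂ + z₂²); and those of plus type number 2^(2m−1) + 2^(m−1), those of minus type 2^(2m−1) − 2^(m−1). -/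
theorem result (m : ℕ) (hm : 1 ≤ m) :
    Nat.card {q : (Fin m ⊕ Fin m → ZMod 2) → ZMod 2 // (∀ u v : (Fin m ⊕ Fin m → ZMod 2), q (u + v) = q u + q v + (Cfsg.quadFormPlus m (ZMod 2) (u + v) - Cfsg.quadFormPlus m (ZMod 2) u - Cfsg.quadFormPlus m (ZMod 2) v))} = 2 ^ (2 * m) ∧
    (∀ q : (Fin m ⊕ Fin m → ZMod 2) → ZMod 2, (∀ u v : (Fin m ⊕ Fin m → ZMod 2), q (u + v) = q u + q v + (Cfsg.quadFormPlus m (ZMod 2) (u + v) - Cfsg.quadFormPlus m (ZMod 2) u - Cfsg.quadFormPlus m (ZMod 2) v)) →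
      (∃ g : (Fin m ⊕ Fin m → ZMod 2) ≃ₗ[ZMod 2] (Fin m ⊕ Fin m → ZMod 2), ∀ v, q v = Cfsg.quadFormPlus m (ZMod 2) (g v)) ∨
      (∃ g : (Fin m ⊕ Fin m → ZMod 2) ≃ₗ[ZMod 2] ((Fin (m - 1) ⊕ Fin (m - 1)) ⊕ Fin 2 → ZMod 2), ∀ v, q v = Cfsg.quadFormMinus (m - 1) (ZMod 2) 1 1 (g v))) ∧
    Nat.card {q : (Fin m ⊕ Fin m → ZMod 2) → ZMod 2 // (∀ u v : (Fin m ⊕ Fin m → ZMod 2), q (u + v) = q u + q v + (Cfsg.quadFormPlus m (ZMod 2) (u + v) - Cfsg.quadFormPlus m (ZMod 2) u - Cfsg.quadFormPlus m (ZMod 2) v)) ∧ ∃ g : (Fin m ⊕ Fin m → ZMod 2) ≃ₗ[ZMod 2] (Fin m ⊕ Fin m → ZMod 2), ∀ v, q v = Cfsg.quadFormPlus m (ZMod 2) (g v)} = 2 ^ (2 * m - 1) + 2 ^ (m - 1) ∧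
    Nat.card {q : (Fin m ⊕ Fin m → ZMod 2) → ZMod 2 // (∀ u v : (Fin m ⊕ Fin m → ZMod 2), q (u + v) = q u + q v + (Cfsg.quadFormPlus m (ZMod 2) (u + v) - Cfsg.quadFormPlus m (ZMod 2) u - Cfsg.quadFormPlus m (ZMod 2) v)) ∧ ∃ g : (Fin m ⊕ Fin m → ZMod 2) ≃ₗ[ZMod 2] ((Fin (m - 1) ⊕ Fin (m - 1)) ⊕ Fin 2 → ZMod 2), ∀ v, q v = Cfsg.quadFormMinus (m - 1) (ZMod 2) 1 1 (g v)} = 2 ^ (2 * m - 1) - 2 ^ (m - 1) := by
  refine ⟨card_all m, type_dich m hm, card_plus m hm, card_minus m hm⟩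

end Cfsg.Agent.S2561
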