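import Cfsg.Statements.S2565
import Mathlib
import Cfsg.Agent.S0825

set_option autoImplicit false
open Cfsg

namespace Cfsg.Agent.S2565

/-- The commutator subgroup of the full orthogonal group of the plus-type form Σ xᵢyᵢ in dimension 6 over the field of two elements (the group Ω⁺₆(2), of index 2) is isomorphic to the alternating group of degree 8. -/
theorem result :
    (Cfsg.Omega (ZMod 2) (Cfsg.quadFormPlus 3 (ZMod 2))).index = 2 ∧
    Nonempty (↥(Cfsg.Omega (ZMod 2) (Cfsg.quadFormPlus 3 (ZMod 2))) ≃* alternatingGroup (Fin 8)) := by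
  classical
  obtain ⟨e⟩ := Cfsg.Agent.S0825.result (F := ZMod 2) (by simp)
  have hc : commutator (Equiv.Perm (Fin 8)) = alternatingGroup (Fin 8) :=
    alternatingGroup.commutator_perm_eq (by simp)
  have hm : (Cfsg.Omega (ZMod 2) (Cfsg.quadFormPlus 3 (ZMod 2))).map e.toMonoidHom = alternatingGroup (Fin 8) := by
    rw [Cfsg.Omega, commutator_def, Subgroup.map_commutator, ← hc, commutator_def]
    have : (⊤ : Subgroup ↥(Cfsg.isometryGroup (ZMod 2) (Cfsg.quadFormPlus 3 (ZMod 2)))).map e.toMonoidHom = ⊤ :=
      Subgroup.map_top_of_surjective _ e.surjective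
    rw [this]
  constructor
  · have h1 : Cfsg.Omega (ZMod 2) (Cfsg.quadFormPlus 3 (ZMod 2)) = (alternatingGroup (Fin 8)).comap e.toMonoidHom := by
      rw [← hm, Subgroup.comap_map_eq_self_of_injective e.injective]
    rw [h1, Subgroup.index_comap_of_surjective _ e.surjective]
    exact alternatingGroup.index_eq_two
  · exact ⟨((Cfsg.Omega (ZMod 2) (Cfsg.quadFormPlus 3 (ZMod 2))).equivMapOfInjective e.toMonoidHom e.injective).trans
      (MulEquiv.subgroupCongr hm)⟩

end Cfsg.Agent.S2565
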