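import Cfsg.Statements.S2566
import Mathlib
import Cfsg.Agent.S0287

set_option autoImplicit false
open Cfsg

namespace Cfsg.Agent.S2566

abbrev R4 := Matrix (Fin 2 ⊕ Fin 2) (Fin 2 ⊕ Fin 2) (ZMod 2)

/-- Coordinates: the pair `(i, j)` of matrix entries. -/
def cp : Fin 2 ⊕ Fin 2 → Fin 2 × Fin 2
  | Sum.inl 0 => (0, 0)
  | Sum.inl 1 => (0, 1)
  | Sum.inr 0 => (1, 1)
  | Sum.inr 1 => (1, 0)

/-- The 2-dimensional representation of `S₃`. -/
def rho (σ : Equiv.Perm (Fin 3)) (i j : Fin 2) : ZMod 2 :=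
  (if σ (Fin.castSucc j) = Fin.castSucc i then 1 else 0) + (if σ (Fin.castSucc j) = 2 then 1 else 0)

/-- Left multiplication. -/
def ML (σ : Equiv.Perm (Fin 3)) : R4 := fun s t =>
  if (cp s).2 = (cp t).2 then rho σ (cp s).1 (cp t).1 else 0

/-- Right multiplication. -/
def MR (σ : Equiv.Perm (Fin 3)) : R4 := fun s t =>
  if (cp s).1 = (cp t).1 then rho σ⁻¹ (cp t).2 (cp s).2 else 0

/-- Transposition. -/
def TT : R4 := fun s t => if (cp s).1 = (cp t).2 ∧ (cp s).2 = (cp t).1 then 1 else 0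

lemma ML_mul (a b : Equiv.Perm (Fin 3)) : ML (a * b) = ML a * ML b := by
  revert a b; decide +kernel
lemma ML_one : ML 1 = 1 := by decide +kernel
lemma MR_mul (a b : Equiv.Perm (Fin 3)) : MR (a * b) = MR a * MR b := by
  revert a b; decide +kernel
lemma MR_one : MR 1 = 1 := by decide +kernel
lemma ML_MR (a b : Equiv.Perm (Fin 3)) : ML a * MR b = MR b * ML a := by
  revert a b; decide +kernel
lemma ML_Q (a : Equiv.Perm (Fin 3)) (v : Fin 2 ⊕ Fin 2 → ZMod 2) :
    Cfsg.quadFormPlus 2 (ZMod 2) ((ML a).mulVec v) = Cfsg.quadFormPlus 2 (ZMod 2) v := by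
  revert a v; decide +kernel
lemma MR_Q (a : Equiv.Perm (Fin 3)) (v : Fin 2 ⊕ Fin 2 → ZMod 2) :
    Cfsg.quadFormPlus 2 (ZMod 2) ((MR a).mulVec v) = Cfsg.quadFormPlus 2 (ZMod 2) v := by
  revert a v; decide +kernel
lemma TT_Q (v : Fin 2 ⊕ Fin 2 → ZMod 2) :
    Cfsg.quadFormPlus 2 (ZMod 2) (TT.mulVec v) = Cfsg.quadFormPlus 2 (ZMod 2) v := by
  revert v; decide +kernel
lemma TT_TT : TT * TT = 1 := by decide +kernel
lemma inj_LR (a b c d : Equiv.Perm (Fin 3)) (h : ML a * MR b = ML c * MR d) : a = c ∧ b = d := by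
  revert a b c d; decide +kernel
lemma conj_L (a : Equiv.Perm (Fin 3)) : ∃ b, TT * ML a * TT = MR b := by
  revert a; decide +kernel
lemma conj_R (b : Equiv.Perm (Fin 3)) : ∃ a, TT * ML a * TT = MR b := by
  revert b; decide +kernel

abbrev OO := ↥(Cfsg.isometryGroup (ZMod 2) (Cfsg.quadFormPlus 2 (ZMod 2)))

/-- The element from a matrix `m` with inverse `n`. -/
def toOO (m n : R4) (h1 : m * n = 1) (h2 : n * m = 1)
    (hQ : ∀ v, Cfsg.quadFormPlus 2 (ZMod 2) (m.mulVec v) = Cfsg.quadFormPlus 2 (ZMod 2) v) : OO :=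
  ⟨⟨m, n, h1, h2⟩, by
    intro u _
    exact hQ u⟩

/-- The homomorphism from the product. -/
def Phi : Equiv.Perm (Fin 3) × Equiv.Perm (Fin 3) →* OO where
  toFun p := toOO (ML p.1 * MR p.2) (ML p.1⁻¹ * MR p.2⁻¹)
    (by
      calc ML p.1 * MR p.2 * (ML p.1⁻¹ * MR p.2⁻¹) = ML p.1 * (MR p.2 * ML p.1⁻¹) * MR p.2⁻¹ := by
            simp only [mul_assoc]
        _ = ML p.1 * (ML p.1⁻¹ * MR p.2) * MR p.2⁻¹ := by rw [ML_MR]
        _ = ML (p.1 * p.1⁻¹) * MR (p.2 * p.2⁻¹) := by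
            simp only [ML_mul, MR_mul, mul_assoc]
        _ = 1 := by simp [ML_one, MR_one])
    (by
      calc ML p.1⁻¹ * MR p.2⁻¹ * (ML p.1 * MR p.2) = ML p.1⁻¹ * (MR p.2⁻¹ * ML p.1) * MR p.2 := by
            simp only [mul_assoc]
        _ = ML p.1⁻¹ * (ML p.1 * MR p.2⁻¹) * MR p.2 := by rw [ML_MR]
        _ = ML (p.1⁻¹ * p.1) * MR (p.2⁻¹ * p.2) := by
            simp only [ML_mul, MR_mul, mul_assoc]
        _ = 1 := by simp [ML_one, MR_one])
    (fun v => by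
      rw [← Matrix.mulVec_mulVec, ML_Q, MR_Q])
  map_one' := by
    apply Subtype.ext
    apply Units.ext
    change ML 1 * MR 1 = 1
    rw [ML_one, MR_one, mul_one]
  map_mul' p q := by
    apply Subtype.ext
    apply Units.ext
    change ML (p.1 * q.1) * MR (p.2 * q.2) = (ML p.1 * MR p.2) * (ML q.1 * MR q.2)
    rw [ML_mul, MR_mul]
    calc ML p.1 * ML q.1 * (MR p.2 * MR q.2) = ML p.1 * (ML q.1 * MR p.2) * MR q.2 := by
          simp only [mul_assoc]
      _ = ML p.1 * (MR p.2 * ML q.1) * MR q.2 := by rw [ML_MR]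
      _ = _ := by simp only [mul_assoc]

lemma Phi_val (p : Equiv.Perm (Fin 3) × Equiv.Perm (Fin 3)) :
    (((Phi p : OO) : Matrix.GeneralLinearGroup (Fin 2 ⊕ Fin 2) (ZMod 2)) : R4) = ML p.1 * MR p.2 := rfl

lemma Phi_inj : Function.Injective Phi := by
  intro p q h
  have h1 : ML p.1 * MR p.2 = ML q.1 * MR q.2 := by
    rw [← Phi_val, ← Phi_val, h]
  obtain ⟨h2, h3⟩ := inj_LR _ _ _ _ h1
  exact Prod.ext h2 h3

/-- The swap. -/
def Tg : OO := toOO TT TT TT_TT TT_TT TT_Q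

lemma Tg_val : ((Tg : Matrix.GeneralLinearGroup (Fin 2 ⊕ Fin 2) (ZMod 2)) : R4) = TT := rfl

lemma Tg_inv_val : (((Tg⁻¹ : OO) : Matrix.GeneralLinearGroup (Fin 2 ⊕ Fin 2) (ZMod 2)) : R4) = TT := rfl

lemma Phi_card : Nat.card Phi.range = 36 := by
  rw [Nat.card_congr (MonoidHom.ofInjective Phi_inj).toEquiv.symm, Nat.card_prod, Nat.card_perm]
  simp [Nat.factorial]


/-- The full orthogonal group of the plus-type form x₁y₁ + x₂y₂ in dimension 4 over the field of two elements has order 72 and is isomorphic to the wreath product of the symmetric group of degree 3 by a group of order 2: it has a normal subgroup isomorphic to the direct product of two symmetric groups of degree 3, of index 2, whose two direct factors are interchanged by conjugation by some element. -/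
theorem result :
    Nat.card ↥(Cfsg.isometryGroup (ZMod 2) (Cfsg.quadFormPlus 2 (ZMod 2))) = 72 ∧
    ∃ (A B : Subgroup ↥(Cfsg.isometryGroup (ZMod 2) (Cfsg.quadFormPlus 2 (ZMod 2)))),
      Nonempty (↥A ≃* Equiv.Perm (Fin 3)) ∧ Nonempty (↥B ≃* Equiv.Perm (Fin 3)) ∧ A ⊓ B = ⊥ ∧ (∀ a ∈ A, ∀ b ∈ B, a * b = b * a) ∧
      (A ⊔ B).index = 2 ∧ ∃ g : ↥(Cfsg.isometryGroup (ZMod 2) (Cfsg.quadFormPlus 2 (ZMod 2))), A.map (MulAut.conj g).toMonoidHom = B := by
  have hcard : Nat.card OO = 72 := by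
    have h := Cfsg.Agent.S0287.result (F := ZMod 2) (q := 2) (by simp) 2 (by norm_num)
    rw [h]
    decide
  let L : Equiv.Perm (Fin 3) →* OO := Phi.comp (MonoidHom.inl _ _)
  let R : Equiv.Perm (Fin 3) →* OO := Phi.comp (MonoidHom.inr _ _)
  have hLinj : Function.Injective L := Phi_inj.comp (fun a b h => (Prod.ext_iff.1 h).1)
  have hRinj : Function.Injective R := Phi_inj.comp (fun a b h => (Prod.ext_iff.1 h).2)
  have hsup : L.range ⊔ R.range = Phi.range := by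
    apply le_antisymm
    · rw [sup_le_iff]
      constructor
      · rintro _ ⟨a, rfl⟩
        exact ⟨(a, 1), rfl⟩
      · rintro _ ⟨a, rfl⟩
        exact ⟨(1, a), rfl⟩
    · rintro _ ⟨⟨a, b⟩, rfl⟩
      have : Phi (a, b) = L a * R b := by
        change _ = Phi (a, 1) * Phi (1, b)
        rw [← map_mul]
        simp
      rw [this]
      exact Subgroup.mul_mem_sup ⟨a, rfl⟩ ⟨b, rfl⟩
  refine ⟨hcard, L.range, R.range, ⟨(MonoidHom.ofInjective hLinj).symm⟩, ⟨(MonoidHom.ofInjective hRinj).symm⟩, ?_, ?_, ?_, Tg, ?_⟩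
  · rw [eq_bot_iff]
    rintro x ⟨⟨a, rfl⟩, ⟨b, hb⟩⟩
    have h1 : Phi (1, b) = Phi (a, 1) := hb
    have h2 := Phi_inj h1
    have h3 : a = 1 := (Prod.ext_iff.1 h2).1.symm
    subst h3
    simp
  · rintro _ ⟨a, rfl⟩ _ ⟨b, rfl⟩
    change Phi (a, 1) * Phi (1, b) = Phi (1, b) * Phi (a, 1)
    rw [← map_mul, ← map_mul]
    simp
  · rw [hsup]
    have h1 := Subgroup.index_mul_card Phi.range
    rw [Phi_card, hcard] at h1
    omega
  · apply le_antisymm
    · rintro _ ⟨_, ⟨a, rfl⟩, rfl⟩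
      obtain ⟨b, hb⟩ := conj_L a
      refine ⟨b, ?_⟩
      apply Subtype.ext
      apply Units.ext
      change ML 1 * MR b = TT * (ML a * MR 1) * TT
      rw [ML_one, MR_one, one_mul, mul_one, hb]
    · rintro _ ⟨b, rfl⟩
      obtain ⟨a, ha⟩ := conj_R b
      refine ⟨L a, ⟨a, rfl⟩, ?_⟩
      apply Subtype.ext
      apply Units.ext
      change TT * (ML a * MR 1) * TT = ML 1 * MR b
      rw [ML_one, MR_one, one_mul, mul_one, ha]

end Cfsg.Agent.S2566
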