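import Cfsg.Statements.S2567
import Mathlib

set_option autoImplicit false
open Cfsg

namespace Cfsg.Agent.S2567

/-- Unique lifts of elements of prime order through a central quotient of coprime exponent. -/
theorem unique_lift {G : Type*} [Group G] (Z : Subgroup G) [Z.Normal] (hZ : Z ≤ Subgroup.center G)
    {r N : ℕ} (hr : r.Prime) (hcop : Nat.Coprime r N) (hN : ∀ z ∈ Z, z ^ N = 1) (x : G ⧸ Z)
    (hx : orderOf x = r) : ∃! g : G, (QuotientGroup.mk g : G ⧸ Z) = x ∧ orderOf g = r := by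
  obtain ⟨g₀, rfl⟩ := QuotientGroup.mk_surjective x
  have hfact : Fact r.Prime := ⟨hr⟩
  have hz₀ : g₀ ^ r ∈ Z := by
    rw [← QuotientGroup.eq_one_iff, QuotientGroup.mk_pow, ← hx, pow_orderOf_eq_one]
  set z₀ := g₀ ^ r with hz₀def
  have hbez : ((1 : ℕ) : ℤ) = (r : ℤ) * Nat.gcdA r N + (N : ℤ) * Nat.gcdB r N := by
    have := Nat.gcd_eq_gcd_ab r N
    rwa [hcop] at this
  have hcentral : ∀ z ∈ Z, ∀ y : G, y * z = z * y := by
    intro z hz y
    exact (Subgroup.mem_center_iff.1 (hZ hz)) y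
  set a := Nat.gcdA r N with ha
  have hzinv : (z₀ ^ (-a)) ^ r = z₀⁻¹ := by
    rw [← zpow_natCast, ← zpow_mul]
    have h1 : -a * (r : ℤ) = -1 + (N : ℤ) * Nat.gcdB r N := by
      have : (1 : ℤ) = (r : ℤ) * a + (N : ℤ) * Nat.gcdB r N := by exact_mod_cast hbez
      linarith
    rw [h1, zpow_add, zpow_mul, zpow_natCast, hN z₀ hz₀]
    simp
  have hzmem : z₀ ^ (-a) ∈ Z := Z.zpow_mem hz₀ _
  have hgpow : (g₀ * z₀ ^ (-a)) ^ r = 1 := by
    have hc : Commute g₀ (z₀ ^ (-a)) := hcentral _ hzmem g₀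
    rw [hc.mul_pow, ← hz₀def, hzinv, mul_inv_cancel]
  have hgmk : (QuotientGroup.mk (g₀ * z₀ ^ (-a)) : G ⧸ Z) = QuotientGroup.mk g₀ := by
    rw [QuotientGroup.eq]
    simpa using Z.inv_mem hzmem
  have hgne : g₀ * z₀ ^ (-a) ≠ 1 := by
    intro h1
    rw [h1] at hgmk
    rw [← hgmk] at hx
    simp only [QuotientGroup.mk_one, orderOf_one] at hx
    exact hr.one_lt.ne hx
  refine ⟨g₀ * z₀ ^ (-a), ⟨hgmk, orderOf_eq_prime hgpow hgne⟩, ?_⟩
  rintro g₁ ⟨hg₁mk, hg₁⟩
  have hzmem' : (g₀ * z₀ ^ (-a))⁻¹ * g₁ ∈ Z := by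
    rw [← QuotientGroup.eq, hgmk, hg₁mk]
  set w := (g₀ * z₀ ^ (-a))⁻¹ * g₁ with hw
  have hg₁w : g₁ = (g₀ * z₀ ^ (-a)) * w := by rw [hw]; group
  have hwr : w ^ r = 1 := by
    have hc : Commute (g₀ * z₀ ^ (-a)) w := hcentral _ hzmem' _
    have h1 : g₁ ^ r = 1 := by rw [← hg₁, pow_orderOf_eq_one]
    rw [hg₁w, hc.mul_pow, hgpow, one_mul] at h1
    exact h1
  have hwN := hN w hzmem'
  have hw1 : w = 1 := by
    have h1 := orderOf_dvd_of_pow_eq_one hwr
    have h2 := orderOf_dvd_of_pow_eq_one hwN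
    have h3 : orderOf w ∣ Nat.gcd r N := Nat.dvd_gcd h1 h2
    rw [hcop, Nat.dvd_one, orderOf_eq_one_iff] at h3
    exact h3
  rw [hg₁w, hw1, mul_one]

/-- Lifting elements of prime order from PGL to GL: let F be a finite field with q elements, r a prime not dividing q − 1, and x an element of order r in GL_n(F) modulo its centre (the scalar matrices). Then x has exactly one preimage in GL_n(F) of order r. -/
theorem result {F : Type*} [Field F] [Fintype F] {q n r : ℕ} (hF : Fintype.card F = q) (hr : r.Prime) (hdiv : ¬ r ∣ q - 1) (x : GL (Fin n) F ⧸ Subgroup.center (GL (Fin n) F)) (hx : orderOf x = r) : ∃! g : GL (Fin n) F, (QuotientGroup.mk g : GL (Fin n) F ⧸ Subgroup.center (GL (Fin n) F)) = x ∧ orderOf g = r := by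
  classical
  have hcop : Nat.Coprime r (q - 1) := (Nat.Prime.coprime_iff_not_dvd hr).2 hdiv
  apply unique_lift _ (le_refl _) hr hcop
  · intro z hz
    rw [Matrix.GeneralLinearGroup.center_eq_range_scalar] at hz
    obtain ⟨u, rfl⟩ := hz
    rw [← map_pow]
    have : u ^ (q - 1) = 1 := by
      apply Units.ext
      simp only [Units.val_pow_eq_pow_val, Units.val_one]
      rw [← hF]
      exact FiniteField.pow_card_sub_one_eq_one _ u.ne_zero
    rw [this, map_one]
  · exact hx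

end Cfsg.Agent.S2567
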