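import Cfsg.Statements.S2569
import Mathlib
import Cfsg.Agent.Lib.Known3.DetCent

set_option autoImplicit false
open Cfsg

namespace Cfsg.Agent.S2569

/-- In GL_n over a finite field of characteristic p, the conjugacy class of a semisimple element (an element of order prime to p) under the special linear group is its whole GL-conjugacy class: for every such x and every invertible g there is h of determinant one with h x h⁻¹ = g x g⁻¹. -/
theorem result {F : Type*} [Field F] [Fintype F] {p : ℕ} [Fact p.Prime] [CharP F p] {n : ℕ} (x g : GL (Fin n) F) (hx : (orderOf x).Coprime p) : ∃ h : GL (Fin n) F, (h : Matrix (Fin n) (Fin n) F).det = 1 ∧ h * x * h⁻¹ = g * x * g⁻¹ := by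
  classical
  rcases Nat.eq_zero_or_pos n with rfl | hn
  · exact ⟨g, by simp, rfl⟩
  haveI : Nonempty (Fin n) := ⟨⟨0, hn⟩⟩
  set A : Matrix (Fin n) (Fin n) F := (x : Matrix (Fin n) (Fin n) F) with hA
  set T := Matrix.mulVecLin A with hT
  set a := orderOf x with ha
  have ha0 : (a : F) ≠ 0 := by
    intro h
    rw [CharP.cast_eq_zero_iff F p] at h
    have h1 : Nat.gcd a p = p := Nat.gcd_eq_right h
    rw [hx] at h1
    exact (Fact.out : p.Prime).one_lt.ne h1
  have hsep : (Polynomial.X ^ a - Polynomial.C (1 : F)).Separable :=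
    Polynomial.separable_X_pow_sub_C 1 ha0 one_ne_zero
  have hAa : A ^ a = 1 := by
    have := congrArg Units.val (pow_orderOf_eq_one x)
    rwa [Units.val_pow_eq_pow_val, Units.val_one] at this
  have hPT : Polynomial.aeval T (Polynomial.X ^ a - Polynomial.C (1 : F)) = 0 := by
    rw [map_sub, map_pow, Polynomial.aeval_X, Polynomial.aeval_C, map_one, sub_eq_zero, hT,
      ← Matrix.toLin'_apply', ← Matrix.toLin'_pow, hAa]
    ext
    simp
  have hdetg : ((g : Matrix (Fin n) (Fin n) F).det) ≠ 0 := (Matrix.isUnits_det_units g).ne_zero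
  obtain ⟨S, hS, hdet⟩ := Lib.Known3.DetCent.exists_det _ (Fin n → F) rfl T _ hsep.squarefree
    hsep.ne_zero hPT ((g : Matrix (Fin n) (Fin n) F).det)⁻¹ (inv_ne_zero hdetg)
  have hdetG : (LinearMap.toMatrix' S).det ≠ 0 := by
    rw [LinearMap.det_toMatrix', hdet]
    exact inv_ne_zero hdetg
  let y : GL (Fin n) F := Matrix.GeneralLinearGroup.mkOfDetNeZero _ hdetG
  have hy : ∀ v, (y : Matrix (Fin n) (Fin n) F).mulVec v = S v := fun v => LinearMap.toMatrix'_mulVec S v
  have hcomm : y * x = x * y := by
    apply Units.ext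
    apply Matrix.mulVec_injective
    funext v
    simp only [Units.val_mul, ← Matrix.mulVec_mulVec, hy]
    exact hS v
  refine ⟨g * y, ?_, ?_⟩
  · rw [Units.val_mul, Matrix.det_mul]
    have : (y : Matrix (Fin n) (Fin n) F).det = ((g : Matrix (Fin n) (Fin n) F).det)⁻¹ := by
      change (LinearMap.toMatrix' S).det = _
      rw [LinearMap.det_toMatrix', hdet]
    rw [this, mul_inv_cancel₀ hdetg]
  · rw [mul_inv_rev, mul_assoc g y x, hcomm]
    group

end Cfsg.Agent.S2569
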