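import Cfsg.Statements.S2571
import Mathlib
import Cfsg.Agent.Lib.Known3.Commutant

set_option autoImplicit false
open Cfsg

namespace Cfsg.Agent.S2571

/-- Centraliser of a regular unipotent element in GL_n(q): if u is an invertible n × n matrix over the field with q elements, n ≥ 1, with (u − 1)^n = 0 and rank(u − 1) = n − 1 (a single unipotent Jordan block), then its centraliser in GL_n(q) has order (q − 1) q^(n−1). -/
theorem result {F : Type*} [Field F] [Fintype F] {q n : ℕ} (hF : Fintype.card F = q) (hn : 1 ≤ n) (u : GL (Fin n) F) (hnil : ((u : Matrix (Fin n) (Fin n) F) - 1) ^ n = 0) (hreg : ((u : Matrix (Fin n) (Fin n) F) - 1).rank = n - 1) : Nat.card ↥(Subgroup.centralizer ({u} : Set (GL (Fin n) F))) = (q - 1) * q ^ (n - 1) := by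
  classical
  subst hF
  set q := Fintype.card F with hq
  have hq1 : 1 ≤ q := Fintype.card_pos
  set A : Matrix (Fin n) (Fin n) F := (u : Matrix (Fin n) (Fin n) F) with hA
  set T := Matrix.mulVecLin A with hT
  set N := Matrix.mulVecLin (A - 1) with hN
  have hNT : ∀ v, N v = T v - v := by
    intro v
    simp [hN, hT, Matrix.sub_mulVec]
  have hpow : ∀ k : ℕ, N ^ k = Matrix.mulVecLin ((A - 1) ^ k) := by
    intro k
    rw [hN, ← Matrix.toLin'_apply', ← Matrix.toLin'_apply', Matrix.toLin'_pow]
  have hNnil : N ^ n = 0 := by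
    rw [hpow, hnil]
    ext
    simp
  have hkerN : Module.finrank F (LinearMap.ker N) = 1 := by
    have h := LinearMap.finrank_range_add_finrank_ker N
    have h2 : Module.finrank F (LinearMap.range N) = (A - 1).rank := rfl
    rw [h2, hreg, Module.finrank_fin_fun] at h
    omega
  set K := LinearMap.ker (N ^ (n - 1)) with hK
  have hdimK : Module.finrank F K = n - 1 := by
    apply le_antisymm
    · exact Lib.Known3.Unipotent.finrank_ker_pow_le N hkerN.le _
    · have h := LinearMap.finrank_range_add_finrank_ker (N ^ (n - 1))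
      have h2 : LinearMap.range (N ^ (n - 1)) ≤ LinearMap.ker N := by
        rintro _ ⟨v, rfl⟩
        rw [LinearMap.mem_ker, ← Module.End.mul_apply, ← pow_succ', Nat.sub_add_cancel hn, hNnil]
        rfl
      have h3 := Submodule.finrank_mono h2
      rw [Module.finrank_fin_fun, ← hK] at h
      omega
  have hTN : ∀ v, N (T v) = T (N v) := by
    intro v
    rw [hNT, hNT, map_sub]
  have hTNk : ∀ (k : ℕ) v, (N ^ k) (T v) = T ((N ^ k) v) := by
    intro k
    induction k with
    | zero => intro v; simp
    | succ k ih =>
      intro v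
      rw [pow_succ, Module.End.mul_apply, hTN, ih, Module.End.mul_apply]
  have hKT : ∀ v ∈ K, T v ∈ K := by
    intro v hv
    rw [hK, LinearMap.mem_ker, hTNk, LinearMap.mem_ker.1 hv, map_zero]
  have hnilN : IsNilpotent N := ⟨n, hNnil⟩
  have hcyc : ∀ w, Lib.Known3.Commutant.IsCyc T w ↔ w ∉ K := by
    intro w
    constructor
    · intro hw hwK
      have h1 : K = ⊤ := by
        rw [eq_top_iff]
        intro v _
        obtain ⟨r, rfl⟩ := hw v
        exact Lib.Known3.Commutant.aeval_mem hKT r hwK
      rw [h1, finrank_top, Module.finrank_fin_fun] at hdimK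
      omega
    · intro hw
      let Aw : Polynomial F →ₗ[F] (Fin n → F) :=
        { toFun := fun r => Polynomial.aeval T r w
          map_add' := fun a b => by simp
          map_smul' := fun c a => by simp }
      let W := LinearMap.range Aw
      have hWT : ∀ v ∈ W, T v ∈ W := by
        rintro _ ⟨r, rfl⟩
        refine ⟨Polynomial.X * r, ?_⟩
        change Polynomial.aeval T (Polynomial.X * r) w = T (Polynomial.aeval T r w)
        rw [map_mul, Polynomial.aeval_X]
        rfl
      have hWN : ∀ v ∈ W, N v ∈ W := by
        intro v hv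
        rw [hNT]
        exact W.sub_mem (hWT v hv) hv
      have hWeq := Lib.Known3.Unipotent.eq_ker_pow_of_invariant N hnilN hkerN.le W hWN
      have hwW : w ∈ W := ⟨1, by simp [Aw]⟩
      have hWtop : W = ⊤ := by
        apply Submodule.eq_top_of_finrank_eq
        rw [Module.finrank_fin_fun]
        by_contra hne
        have hlt : Module.finrank F W < n := by
          have := Submodule.finrank_le W
          rw [Module.finrank_fin_fun] at this
          omega
        apply hw
        rw [hWeq, LinearMap.mem_ker] at hwW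
        rw [hK, LinearMap.mem_ker]
        have h5 : n - 1 = (n - 1 - Module.finrank F W) + Module.finrank F W := by omega
        rw [h5, pow_add, Module.End.mul_apply, hwW, map_zero]
      intro v
      have : v ∈ W := by rw [hWtop]; trivial
      obtain ⟨r, hr⟩ := this
      exact ⟨r, hr⟩
  obtain ⟨v₀, hv₀⟩ : ∃ v₀, v₀ ∉ K := by
    by_contra h
    push Not at h
    have h1 : K = ⊤ := eq_top_iff.2 fun v _ => h v
    rw [h1, finrank_top, Module.finrank_fin_fun] at hdimK
    omega
  rw [Lib.Known3.Commutant.card_centralizer_eq u ((hcyc v₀).2 hv₀)]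
  have e : {w : Fin n → F // Lib.Known3.Commutant.IsCyc T w} ≃ {w : Fin n → F // w ∉ K} :=
    Equiv.subtypeEquivRight hcyc
  rw [Nat.card_congr e]
  have hcardK : Nat.card K = q ^ (n - 1) := by
    rw [Nat.card_eq_fintype_card, ← hdimK]
    exact Module.card_eq_pow_finrank
  have h1 : Nat.card {w : Fin n → F // w ∉ K} = q ^ n - Nat.card K := by
    simp only [Nat.card_eq_fintype_card]
    rw [Fintype.card_subtype_compl]
    congr 1
    simp [hq]
  rw [h1, hcardK]
  obtain ⟨m, rfl⟩ : ∃ m, n = m + 1 := ⟨n - 1, by omega⟩
  simp only [Nat.add_sub_cancel]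
  rw [pow_succ, Nat.sub_mul, one_mul, mul_comm]

end Cfsg.Agent.S2571
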