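import Cfsg.Statements.S2572
import Mathlib
import Cfsg.Agent.Lib.Known3.TransvPair
import Cfsg.Agent.Lib.Classical.IsoAbs

set_option autoImplicit false
open Cfsg

namespace Cfsg.Agent.S2572

open Cfsg.Agent.Lib.Known3.TransvPair
open scoped Matrix

variable {F : Type*} [Field F] [Fintype F] {n : ℕ}

/-- The pairs `(a, b)` with `a, b ≠ 0`, `b ⬝ a = 0`. -/
abbrev Pairs (F : Type*) [Field F] (n : ℕ) : Type _ :=
  {p : (Fin n → F) × (Fin n → F) // p.1 ≠ 0 ∧ p.2 ≠ 0 ∧ p.2 ⬝ᵥ p.1 = 0}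

theorem card_hyperplane (hn : 1 ≤ n) {a : Fin n → F} (ha : a ≠ 0) :
    Nat.card {b : Fin n → F // b ≠ 0 ∧ b ⬝ᵥ a = 0} = Fintype.card F ^ (n - 1) - 1 := by
  classical
  -- the functional `b ↦ b ⬝ a`
  have hfa : dotF (F := F) a ≠ 0 := dotF_ne_zero ha
  let K := LinearMap.ker (dotF (F := F) a)
  have hfr : Module.finrank F K = n - 1 := by
    have h1 := LinearMap.finrank_range_add_finrank_ker (dotF (F := F) a)
    have h3 : LinearMap.range (dotF (F := F) a) = ⊤ := LinearMap.range_eq_top.2 (LinearMap.surjective hfa)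
    rw [h3, finrank_top, Module.finrank_self, Module.finrank_fin_fun] at h1
    change 1 + Module.finrank F K = n at h1
    omega
  have hK : Nat.card K = Fintype.card F ^ (n - 1) := by
    rw [Nat.card_eq_fintype_card, ← hfr]
    exact Module.card_eq_pow_finrank
  have e : {b : Fin n → F // b ≠ 0 ∧ b ⬝ᵥ a = 0} ≃ {x : K // x ≠ 0} :=
    { toFun := fun b => ⟨⟨b.1, by
        rw [LinearMap.mem_ker, dotF_apply, dotProduct_comm]
        exact b.2.2⟩, fun h => b.2.1 (congrArg Subtype.val h)⟩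
      invFun := fun x => ⟨x.1.1, fun h => x.2 (Subtype.ext h), by
        have := LinearMap.mem_ker.1 x.1.2
        rw [dotF_apply, dotProduct_comm] at this
        exact this⟩
      left_inv := fun b => rfl
      right_inv := fun x => rfl }
  rw [Nat.card_congr e]
  have e2 : Nat.card {x : K // x ≠ 0} = Nat.card K - 1 := by
    simp only [Nat.card_eq_fintype_card]
    rw [Fintype.card_subtype_compl]
    simp
  rw [e2, hK]

theorem card_pairs (hn : 1 ≤ n) :
    Nat.card (Pairs F n) = (Fintype.card F ^ n - 1) * (Fintype.card F ^ (n - 1) - 1) := by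
  classical
  have e : Pairs F n ≃ Σ a : {a : Fin n → F // a ≠ 0}, {b : Fin n → F // b ≠ 0 ∧ b ⬝ᵥ a.1 = 0} :=
    { toFun := fun p => ⟨⟨p.1.1, p.2.1⟩, ⟨p.1.2, p.2.2⟩⟩
      invFun := fun x => ⟨(x.1.1, x.2.1), x.1.2, x.2.2⟩
      left_inv := fun p => rfl
      right_inv := fun x => rfl }
  rw [Nat.card_congr e, Nat.card_sigma]
  rw [Finset.sum_congr rfl (fun a _ => card_hyperplane hn a.2), Finset.sum_const, Finset.card_univ,
    smul_eq_mul]
  congr 1
  rw [Fintype.card_subtype_compl]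
  simp

theorem prod_identity {q m : ℕ} :
    ∏ i : Fin (m + 2), (q ^ (m + 2) - q ^ (i : ℕ)) =
      (q ^ (m + 2) - 1) * (q ^ (m + 1) - 1) * (q ^ (2 * m + 1) * ∏ i : Fin m, (q ^ m - q ^ (i : ℕ))) := by
  rw [Fin.prod_univ_succ, Fin.prod_univ_succ]
  simp only [Fin.val_zero, pow_zero, Fin.val_succ, zero_add, pow_one]
  have h1 : q ^ (m + 2) - q = q * (q ^ (m + 1) - 1) := by
    rw [Nat.mul_sub, mul_one, pow_succ' q (m + 1)]
  have h2 : ∀ i : Fin m, q ^ (m + 2) - q ^ ((i : ℕ) + 1 + 1) = q ^ 2 * (q ^ m - q ^ (i : ℕ)) := by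
    intro i
    rw [Nat.mul_sub]
    congr 1 <;> ring
  rw [h1, Finset.prod_congr rfl (fun i _ => h2 i), Finset.prod_mul_distrib, Finset.prod_const,
    Finset.card_univ, Fintype.card_fin]
  ring

/-- Centraliser of a transvection in GL_n(q), n ≥ 2: if t − 1 has rank one and square zero, the centraliser of t in GL_n(q) has order q^(2n−3) (q − 1) |GL_(n−2)(q)| (a group of order q^(2n−3) extended by GL_1(q) × GL_(n−2)(q)). -/
theorem result {F : Type*} [Field F] [Fintype F] {q n : ℕ} (hF : Fintype.card F = q) (hn : 2 ≤ n) (t : GL (Fin n) F) (ht : Cfsg.IsTransvection (t : Matrix (Fin n) (Fin n) F)) : Nat.card ↥(Subgroup.centralizer ({t} : Set (GL (Fin n) F))) = q ^ (2 * n - 3) * (q - 1) * ∏ i : Fin (n - 2), (q ^ (n - 2) - q ^ (i : ℕ)) := by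
  classical
  subst hF
  set q := Fintype.card F with hq
  have hq2 : 2 ≤ q := Fintype.one_lt_card
  obtain ⟨a, b, ha, hb, hba, htab⟩ := exists_of_isTransvection ht.1 ht.2
  have ht' : (t : Matrix (Fin n) (Fin n) F) = 1 + Matrix.vecMulVec a b := by rw [← htab]; abel
  -- a matrix from a linear equivalence
  have hmat : ∀ g : (Fin n → F) ≃ₗ[F] (Fin n → F), ∃ G : GL (Fin n) F, ∀ v,
      (G : Matrix (Fin n) (Fin n) F) *ᵥ v = g v := by
    intro g
    have hdet : (LinearMap.toMatrix' (g : (Fin n → F) →ₗ[F] (Fin n → F))).det ≠ 0 := by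
      rw [LinearMap.det_toMatrix']
      exact (LinearEquiv.isUnit_det' g).ne_zero
    refine ⟨Matrix.GeneralLinearGroup.mkOfDetNeZero _ hdet, ?_⟩
    intro v
    exact LinearMap.toMatrix'_mulVec _ v
  have hGdot : ∀ (G : GL (Fin n) F) (x v : Fin n → F),
      x ⬝ᵥ ((G : Matrix (Fin n) (Fin n) F) *ᵥ v) = (x ᵥ* (G : Matrix (Fin n) (Fin n) F)) ⬝ᵥ v :=
    fun G x v => Matrix.dotProduct_mulVec x _ v
  have hGinv : ∀ (G : GL (Fin n) F) (v : Fin n → F),
      ((G⁻¹ : GL (Fin n) F) : Matrix (Fin n) (Fin n) F) *ᵥ ((G : Matrix (Fin n) (Fin n) F) *ᵥ v) = v := by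
    intro G v
    rw [Matrix.mulVec_mulVec, ← Units.val_mul, inv_mul_cancel, Units.val_one, Matrix.one_mulVec]
  have hGinj : ∀ (G : GL (Fin n) F) {v : Fin n → F}, (G : Matrix (Fin n) (Fin n) F) *ᵥ v = 0 → v = 0 := by
    intro G v h
    have := hGinv G v
    rw [h, Matrix.mulVec_zero] at this
    exact this.symm
  -- the stabiliser
  let S : Subgroup (GL (Fin n) F) :=
    { carrier := {g | (g : Matrix (Fin n) (Fin n) F) *ᵥ a = a ∧ ∀ v, b ⬝ᵥ ((g : Matrix (Fin n) (Fin n) F) *ᵥ v) = b ⬝ᵥ v}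
      mul_mem' := by
        rintro x y ⟨hx1, hx2⟩ ⟨hy1, hy2⟩
        refine ⟨?_, ?_⟩
        · rw [Units.val_mul, ← Matrix.mulVec_mulVec, hy1, hx1]
        · intro v
          rw [Units.val_mul, ← Matrix.mulVec_mulVec, hx2, hy2]
      one_mem' := by
        refine ⟨?_, ?_⟩
        · rw [Units.val_one, Matrix.one_mulVec]
        · intro v
          rw [Units.val_one, Matrix.one_mulVec]
      inv_mem' := by
        rintro x ⟨hx1, hx2⟩
        refine ⟨?_, ?_⟩
        · conv_lhs => rw [← hx1]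
          exact hGinv x a
        · intro v
          have h1 := hx2 (((x⁻¹ : GL (Fin n) F) : Matrix (Fin n) (Fin n) F) *ᵥ v)
          rw [Matrix.mulVec_mulVec, ← Units.val_mul, mul_inv_cancel, Units.val_one, Matrix.one_mulVec] at h1
          exact h1.symm }
  -- orbit map on pairs
  let o : GL (Fin n) F → Pairs F n := fun g =>
    ⟨((g : Matrix (Fin n) (Fin n) F) *ᵥ a, b ᵥ* ((g⁻¹ : GL (Fin n) F) : Matrix (Fin n) (Fin n) F)),
      fun h => ha (hGinj g h),
      fun h => hb (by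
        have h1 := congrArg (fun x => x ᵥ* (g : Matrix (Fin n) (Fin n) F)) h
        simp only [Matrix.vecMul_vecMul, Matrix.zero_vecMul] at h1
        rw [← Units.val_mul, inv_mul_cancel, Units.val_one, Matrix.vecMul_one] at h1
        exact h1),
      by
        simp only
        rw [← hGdot, hGinv]
        exact hba⟩
  have ho : Function.Surjective o := by
    rintro ⟨⟨a', b'⟩, ha', hb', hba'⟩
    simp only at ha' hb' hba'
    obtain ⟨g, hg1, hg2⟩ := exists_equiv_pair (F := F) (V := Fin n → F) ha ha'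
      (dotF_ne_zero hb) (dotF_ne_zero hb') hba hba'
    obtain ⟨G, hG⟩ := hmat g
    refine ⟨G, Subtype.ext (Prod.ext ?_ ?_)⟩
    · change (G : Matrix (Fin n) (Fin n) F) *ᵥ a = a'
      rw [hG, hg1]
    · change b ᵥ* ((G⁻¹ : GL (Fin n) F) : Matrix (Fin n) (Fin n) F) = b'
      have h1 : b' ᵥ* (G : Matrix (Fin n) (Fin n) F) = b := by
        apply dotProduct_eq
        intro v
        have := hg2 v
        rw [dotF_apply, dotF_apply, ← hG] at this
        rw [← this, hGdot]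
      rw [← h1, Matrix.vecMul_vecMul, ← Units.val_mul, mul_inv_cancel, Units.val_one, Matrix.vecMul_one]
  have hGinv' : ∀ (G : GL (Fin n) F) (v : Fin n → F),
      (G : Matrix (Fin n) (Fin n) F) *ᵥ (((G⁻¹ : GL (Fin n) F) : Matrix (Fin n) (Fin n) F) *ᵥ v) = v := by
    intro G v
    rw [Matrix.mulVec_mulVec, ← Units.val_mul, mul_inv_cancel, Units.val_one, Matrix.one_mulVec]
  have hoS : ∀ g g', o g = o g' ↔ g⁻¹ * g' ∈ S := by
    intro g g'
    constructor
    · intro h
      have h1 : (g : Matrix (Fin n) (Fin n) F) *ᵥ a = (g' : Matrix (Fin n) (Fin n) F) *ᵥ a :=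
        congrArg (fun p : Pairs F n => p.1.1) h
      have h2 : b ᵥ* ((g⁻¹ : GL (Fin n) F) : Matrix (Fin n) (Fin n) F) =
          b ᵥ* ((g'⁻¹ : GL (Fin n) F) : Matrix (Fin n) (Fin n) F) :=
        congrArg (fun p : Pairs F n => p.1.2) h
      refine ⟨?_, ?_⟩
      · rw [Units.val_mul, ← Matrix.mulVec_mulVec, ← h1, hGinv]
      · intro v
        rw [Units.val_mul, ← Matrix.mulVec_mulVec, hGdot, h2, ← hGdot, hGinv]
    · rintro ⟨h1, h2⟩
      apply Subtype.ext
      apply Prod.ext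
      · change (g : Matrix (Fin n) (Fin n) F) *ᵥ a = (g' : Matrix (Fin n) (Fin n) F) *ᵥ a
        rw [Units.val_mul, ← Matrix.mulVec_mulVec] at h1
        conv_lhs => rw [← h1]
        rw [hGinv']
      · change b ᵥ* ((g⁻¹ : GL (Fin n) F) : Matrix (Fin n) (Fin n) F) =
          b ᵥ* ((g'⁻¹ : GL (Fin n) F) : Matrix (Fin n) (Fin n) F)
        apply dotProduct_eq
        intro u
        rw [← hGdot, ← hGdot]
        have h3 := h2 (((g'⁻¹ : GL (Fin n) F) : Matrix (Fin n) (Fin n) F) *ᵥ u)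
        rw [Units.val_mul, ← Matrix.mulVec_mulVec, hGinv'] at h3
        exact h3
  have hG := Lib.Classical.Abs.card_eq_mul_stab o ho S hoS
  -- a vector with `b ⬝ v₀ = 1`
  obtain ⟨v₀, hv₀⟩ : ∃ v₀, b ⬝ᵥ v₀ = 1 := by
    obtain ⟨v, hv⟩ := LinearMap.surjective (dotF_ne_zero hb) (1 : F)
    exact ⟨v, hv⟩
  have hcancel : ∀ {c d : F}, c • a = d • a → c = d := by
    intro c d h
    have h1 : (c - d) • a = 0 := by rw [sub_smul, h, sub_self]
    exact sub_eq_zero.1 ((smul_eq_zero.1 h1).resolve_right ha)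
  -- description of the centraliser
  let lam : GL (Fin n) F → F := fun g => b ⬝ᵥ ((g : Matrix (Fin n) (Fin n) F) *ᵥ v₀)
  have hCmem : ∀ g : GL (Fin n) F, g ∈ Subgroup.centralizer ({t} : Set (GL (Fin n) F)) →
      (g : Matrix (Fin n) (Fin n) F) *ᵥ a = lam g • a ∧
        ∀ v, b ⬝ᵥ ((g : Matrix (Fin n) (Fin n) F) *ᵥ v) = lam g * (b ⬝ᵥ v) := by
    intro g hg
    have h0 : g * t = t * g := (Subgroup.mem_centralizer_singleton_iff.1 hg)
    have h1 : ∀ v, (b ⬝ᵥ v) • ((g : Matrix (Fin n) (Fin n) F) *ᵥ a) =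
        (b ⬝ᵥ ((g : Matrix (Fin n) (Fin n) F) *ᵥ v)) • a := by
      intro v
      have h2 := congrArg (fun M : GL (Fin n) F => (M : Matrix (Fin n) (Fin n) F) *ᵥ v) h0
      simp only [Units.val_mul, ← Matrix.mulVec_mulVec, ht', Matrix.add_mulVec, Matrix.one_mulVec,
        Lib.Classical.vecMulVec_mulVec', Matrix.mulVec_add, Matrix.mulVec_smul] at h2
      exact add_left_cancel h2
    have h3 : (g : Matrix (Fin n) (Fin n) F) *ᵥ a = lam g • a := by
      have := h1 v₀
      rwa [hv₀, one_smul] at this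
    refine ⟨h3, ?_⟩
    intro v
    have h4 := h1 v
    rw [h3, smul_smul] at h4
    have h5 := hcancel h4
    rw [← h5]
    ring
  have hCmem' : ∀ (g : GL (Fin n) F) (c : F), (g : Matrix (Fin n) (Fin n) F) *ᵥ a = c • a →
      (∀ v, b ⬝ᵥ ((g : Matrix (Fin n) (Fin n) F) *ᵥ v) = c * (b ⬝ᵥ v)) →
      g ∈ Subgroup.centralizer ({t} : Set (GL (Fin n) F)) := by
    intro g c h1 h2
    apply Subgroup.mem_centralizer_singleton_iff.2
    apply Units.ext
    apply Matrix.mulVec_injective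
    funext v
    simp only [Units.val_mul, ← Matrix.mulVec_mulVec, ht', Matrix.add_mulVec, Matrix.one_mulVec,
      Lib.Classical.vecMulVec_mulVec', Matrix.mulVec_add, Matrix.mulVec_smul]
    rw [h1, h2, smul_smul, mul_comm]
  have hlam0 : ∀ g ∈ Subgroup.centralizer ({t} : Set (GL (Fin n) F)), lam g ≠ 0 := by
    intro g hg h0
    have h1 := (hCmem g hg).1
    rw [h0, zero_smul] at h1
    exact ha (hGinj g h1)
  let C := Subgroup.centralizer ({t} : Set (GL (Fin n) F))
  let f : C → Fˣ := fun g => Units.mk0 (lam g) (hlam0 g g.2)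
  have hf : Function.Surjective f := by
    intro c
    have hc : (c : F) ≠ 0 := c.ne_zero
    obtain ⟨g, hg1, hg2⟩ := exists_equiv_pair (F := F) (V := Fin n → F) (a := a) (a' := (c : F) • a)
      (f := dotF b) (f' := dotF ((c : F)⁻¹ • b)) ha (smul_ne_zero hc ha)
      (dotF_ne_zero hb) (dotF_ne_zero (smul_ne_zero (inv_ne_zero hc) hb)) hba
      (by rw [dotF_apply, smul_dotProduct, dotProduct_smul, hba]; simp)
    obtain ⟨G, hG'⟩ := hmat g
    have h2 : ∀ v, b ⬝ᵥ ((G : Matrix (Fin n) (Fin n) F) *ᵥ v) = (c : F) * (b ⬝ᵥ v) := by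
      intro v
      have h3 := hg2 v
      rw [dotF_apply, dotF_apply, smul_dotProduct, ← hG', smul_eq_mul] at h3
      rw [← h3, mul_inv_cancel_left₀ hc]
    have h1 : (G : Matrix (Fin n) (Fin n) F) *ᵥ a = (c : F) • a := by rw [hG', hg1]
    have hGC := hCmem' G _ h1 h2
    refine ⟨⟨G, hGC⟩, ?_⟩
    apply Units.ext
    change lam G = c
    change b ⬝ᵥ ((G : Matrix (Fin n) (Fin n) F) *ᵥ v₀) = c
    rw [h2, hv₀, mul_one]
  have hfS : ∀ g g' : C, f g = f g' ↔ g⁻¹ * g' ∈ S.subgroupOf C := by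
    intro g g'
    have hg := hCmem g g.2
    have hg' := hCmem g' g'.2
    constructor
    · intro h
      have hl : lam g = lam g' := congrArg Units.val h
      rw [Subgroup.mem_subgroupOf]
      refine ⟨?_, ?_⟩
      · change (((g : GL (Fin n) F)⁻¹ * (g' : GL (Fin n) F) : GL (Fin n) F) : Matrix (Fin n) (Fin n) F) *ᵥ a = a
        rw [Units.val_mul, ← Matrix.mulVec_mulVec, hg'.1, ← hl, ← hg.1, hGinv]
      · intro v
        change b ⬝ᵥ ((((g : GL (Fin n) F)⁻¹ * (g' : GL (Fin n) F) : GL (Fin n) F) : Matrix (Fin n) (Fin n) F) *ᵥ v) = _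
        rw [Units.val_mul, ← Matrix.mulVec_mulVec]
        have h1 := hg.2 (((g : GL (Fin n) F)⁻¹ : GL (Fin n) F).1 *ᵥ ((g' : GL (Fin n) F).1 *ᵥ v))
        rw [hGinv', hg'.2 v, ← hl] at h1
        exact (mul_left_cancel₀ (hlam0 g g.2) h1).symm
    · intro h
      rw [Subgroup.mem_subgroupOf] at h
      have h1 : (((g : GL (Fin n) F)⁻¹ * (g' : GL (Fin n) F) : GL (Fin n) F) : Matrix (Fin n) (Fin n) F) *ᵥ a = a := h.1
      rw [Units.val_mul, ← Matrix.mulVec_mulVec, hg'.1, Matrix.mulVec_smul] at h1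
      apply Units.ext
      change lam g = lam g'
      have h2 := congrArg (fun v => (g : GL (Fin n) F).1 *ᵥ v) h1
      simp only [Matrix.mulVec_smul, hGinv'] at h2
      rw [hg.1] at h2
      exact (hcancel h2).symm
  have hC := Lib.Classical.Abs.card_eq_mul_stab f hf _ hfS
  have hSC : S ≤ C := by
    intro g hg
    exact hCmem' g 1 (by rw [one_smul]; exact hg.1) (fun v => by rw [one_mul]; exact hg.2 v)
  have hcardS : Nat.card (S.subgroupOf C) = Nat.card S :=
    Nat.card_congr (Subgroup.subgroupOfEquivOfLe hSC).toEquiv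
  have hunits : Nat.card Fˣ = q - 1 := by
    rw [Nat.card_eq_fintype_card, Fintype.card_units]
  obtain ⟨m, rfl⟩ : ∃ m, n = m + 2 := ⟨n - 2, by omega⟩
  rw [Matrix.card_GL_field, card_pairs (by omega)] at hG
  rw [hcardS, hunits] at hC
  change Nat.card C = _
  rw [hC]
  have h1 := prod_identity (q := q) (m := m)
  have hne : (q ^ (m + 2) - 1) * (q ^ (m + 2 - 1) - 1) ≠ 0 := by
    have h2 : 1 < q ^ (m + 2) := Nat.one_lt_pow (by omega) (by omega)
    have h3 : 1 < q ^ (m + 2 - 1) := Nat.one_lt_pow (by omega) (by omega)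
    exact Nat.mul_ne_zero (by omega) (by omega)
  have h4 : Nat.card S = q ^ (2 * m + 1) * ∏ i : Fin m, (q ^ m - q ^ (i : ℕ)) := by
    apply Nat.eq_of_mul_eq_mul_left (Nat.pos_of_ne_zero hne)
    rw [← hG, h1]
    rfl
  rw [h4]
  have h5 : 2 * (m + 2) - 3 = 2 * m + 1 := by omega
  rw [h5]
  show (q - 1) * _ = q ^ (2 * m + 1) * (q - 1) * ∏ i : Fin m, (q ^ m - q ^ (i : ℕ))
  ring

end Cfsg.Agent.S2572
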