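import Cfsg.Statements.S2574
import Mathlib
import Cfsg.Agent.Lib.Known3.Unipotent

set_option autoImplicit false
open Cfsg

namespace Cfsg.Agent.S2574

theorem mulVecLin_pow' {F : Type*} [Field F] {ι : Type*} [Fintype ι] [DecidableEq ι]
    (u : Matrix ι ι F) (k : ℕ) :
    Matrix.mulVecLin (u ^ k) = (Matrix.mulVecLin u) ^ k := by
  rw [← Matrix.toLin'_apply', Matrix.toLin'_pow, Matrix.toLin'_apply']

/-- A regular unipotent element of the symplectic group has totally isotropic small invariant subspaces: over a finite field, if u ∈ Sp_2m(F) satisfies (u − 1)^(2m) = 0 and rank(u − 1) = 2m − 1, and W is a u-invariant subspace with 2 dim W ≤ 2m, then the alternating form vanishes identically on W. -/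
theorem result {F : Type*} [Field F] [Finite F] {m : ℕ} (u : Matrix.symplecticGroup (Fin m) F) (hnil : ((u : Matrix (Fin m ⊕ Fin m) (Fin m ⊕ Fin m) F) - 1) ^ (2 * m) = 0) (hreg : ((u : Matrix (Fin m ⊕ Fin m) (Fin m ⊕ Fin m) F) - 1).rank = 2 * m - 1) (W : Submodule F (Fin m ⊕ Fin m → F)) (hW : ∀ v ∈ W, (u : Matrix (Fin m ⊕ Fin m) (Fin m ⊕ Fin m) F).mulVec v ∈ W) (hdim : 2 * Module.finrank F W ≤ 2 * m) : ∀ v ∈ W, ∀ w ∈ W, Cfsg.sympForm m F v w = 0 := by
  classical
  obtain ⟨U, hUmem⟩ := u
  simp only at hnil hreg hW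
  have hdimV : Module.finrank F (Fin m ⊕ Fin m → F) = 2 * m := by
    simp [Module.finrank_pi]; omega
  -- the bilinear form
  let B : LinearMap.BilinForm F (Fin m ⊕ Fin m → F) := Matrix.toBilin' (Matrix.J (Fin m) F)
  have hB : ∀ x y, B x y = Cfsg.sympForm m F x y := by
    intro x y
    simp [B, Cfsg.sympForm, Matrix.toBilin'_apply']
  have hBnd : B.Nondegenerate := by
    exact LinearMap.BilinForm.nondegenerate_toBilin'_iff_det_ne_zero.2 (Matrix.isUnit_det_J (Fin m) F).ne_zero
  -- isometry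
  have hiso : ∀ x y, B (U.mulVec x) (U.mulVec y) = B x y := by
    intro x y
    have h1 := SymplecticGroup.mem_iff'.1 hUmem
    simp only [B, Matrix.toBilin'_apply']
    rw [Matrix.dotProduct_mulVec, Matrix.vecMul_mulVec, Matrix.dotProduct_mulVec,
      Matrix.vecMul_vecMul, h1, ← Matrix.dotProduct_mulVec]
  let T : (Fin m ⊕ Fin m → F) →ₗ[F] (Fin m ⊕ Fin m → F) := Matrix.mulVecLin (U - 1)
  have hTnil : IsNilpotent T := by
    refine ⟨2 * m, ?_⟩
    rw [← mulVecLin_pow', hnil]
    ext
    simp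
  have hTker : Module.finrank F (LinearMap.ker T) ≤ 1 := by
    have h := LinearMap.finrank_range_add_finrank_ker T
    have h2 : Module.finrank F (LinearMap.range T) = (U-1).rank := rfl
    rw [h2, hreg, hdimV] at h
    omega
  have hTmem : ∀ (A : Submodule F (Fin m ⊕ Fin m → F)), (∀ v ∈ A, U.mulVec v ∈ A) →
      ∀ v ∈ A, T v ∈ A := by
    intro A hA v hv
    have : T v = U.mulVec v - v := by
      simp [T, Matrix.sub_mulVec]
    rw [this]
    exact A.sub_mem (hA v hv) hv
  -- U is onto W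
  have hUinj : Function.Injective U.mulVec := by
    have hdet : IsUnit U.det := SymplecticGroup.symplectic_det hUmem
    exact Matrix.mulVec_injective_of_isUnit ((Matrix.isUnit_iff_isUnit_det U).2 hdet)
  have hUsurj : ∀ w ∈ W, ∃ w' ∈ W, U.mulVec w' = w := by
    let R : W →ₗ[F] W := (Matrix.mulVecLin U).restrict hW
    have hRinj : Function.Injective R := by
      intro x y hxy
      have : U.mulVec (x : Fin m ⊕ Fin m → F) = U.mulVec (y : Fin m ⊕ Fin m → F) :=
        congrArg (fun z : W => (z : Fin m ⊕ Fin m → F)) hxy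
      exact Subtype.ext (hUinj this)
    have hRsurj := LinearMap.injective_iff_surjective.1 hRinj
    intro w hw
    obtain ⟨x, hx⟩ := hRsurj ⟨w, hw⟩
    exact ⟨x, x.2, congrArg (fun z : W => (z : Fin m ⊕ Fin m → F)) hx⟩
  let Wp : Submodule F (Fin m ⊕ Fin m → F) := B.orthogonal W
  have hWp : ∀ v ∈ Wp, U.mulVec v ∈ Wp := by
    intro v hv w hw
    obtain ⟨w', hw', rfl⟩ := hUsurj w hw
    show B (U.mulVec w') (U.mulVec v) = 0
    rw [hiso]
    exact hv w' hw'
  have hWpdim : Module.finrank F Wp = 2 * m - Module.finrank F W := by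
    rw [LinearMap.BilinForm.finrank_orthogonal hBnd, hdimV]
  have e1 := Lib.Known3.Unipotent.eq_ker_pow_of_invariant T hTnil hTker W (hTmem W hW)
  have e2 := Lib.Known3.Unipotent.eq_ker_pow_of_invariant T hTnil hTker Wp (hTmem Wp hWp)
  intro v hv w hw
  rw [← hB]
  have hwp : w ∈ Wp := by
    rw [e2]
    rw [e1] at hw
    have hle : Module.finrank F W ≤ Module.finrank F Wp := by omega
    rw [LinearMap.mem_ker] at hw ⊢
    obtain ⟨c, hc⟩ := Nat.exists_eq_add_of_le hle
    rw [hc, add_comm, pow_add, Module.End.mul_apply, hw, map_zero]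
  exact hwp v hv

end Cfsg.Agent.S2574
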