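import Cfsg.Statements.S2576
import Cfsg.Agent.Lib.Known3.TwoPart
import Mathlib

set_option autoImplicit false
open Cfsg

namespace Cfsg.Agent.S2576

open Cfsg.Agent.Lib.Known3.TwoPart in
/-- Which involutions of PGL_2m(q) coming from a scalar of the quadratic extension field lie in PSL_2m(q), q odd: let μ generate the Sylow 2-subgroup of the multiplicative group of the field with q elements (μ has order the 2-part of q − 1) and let t be the block-diagonal matrix with m diagonal blocks [[0, 1], [μ, 0]] (so t² is the scalar μ and t is an involution modulo scalars). Then some non-zero scalar multiple of t has determinant one if and only if q ≡ 3 (mod 4) or the 2-part of q − 1 is less than the 2-part of 2m. -/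
theorem result {F : Type*} [Field F] [Fintype F] {q : ℕ} (hF : Fintype.card F = q) (hq : Odd q) {m : ℕ} (hm : 1 ≤ m) (μ : F) (hμ : orderOf μ = 2 ^ padicValNat 2 (q - 1)) : (∃ c : F, c ≠ 0 ∧ (c • Matrix.blockDiagonal (fun _ : Fin m => !![(0 : F), 1; μ, 0])).det = 1) ↔ (q % 4 = 3 ∨ padicValNat 2 (q - 1) < padicValNat 2 (2 * m)) := by
  classical
  haveI : Fact (Nat.Prime 2) := ⟨Nat.prime_two⟩
  have hm0 : m ≠ 0 := by omega
  have hq2 : 2 ≤ q := by rw [← hF]; exact Fintype.one_lt_card
  have hq3 : 3 ≤ q := by
    have : q ≠ 2 := by rintro rfl; exact absurd hq (by decide)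
    omega
  have hN0 : q - 1 ≠ 0 := by omega
  have hne : (-1 : F) ≠ 1 := by
    intro h
    have h2 : (2 : F) = 0 := by linear_combination -h
    have hchar : ringChar F = 2 :=
      CharP.ringChar_of_prime_eq_zero (R := F) Nat.prime_two (by exact_mod_cast h2)
    have : Even (Fintype.card F) := Nat.even_iff.2 (FiniteField.even_card_of_char_two hchar)
    rw [hF] at this
    exact (Nat.not_even_iff_odd.2 hq) this
  have hdet : ∀ c : F, (c • Matrix.blockDiagonal (fun _ : Fin m => !![(0 : F), 1; μ, 0])).det
      = c ^ (2 * m) * (-μ) ^ m := by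
    intro c
    rw [Matrix.det_smul, Matrix.det_blockDiagonal]
    simp [Matrix.det_fin_two]
  simp only [hdet]
  set v := padicValNat 2 (q - 1) with hv
  have hμpow : μ ^ 2 ^ v = 1 := by rw [← hμ, pow_orderOf_eq_one]
  have hμ0 : μ ≠ 0 := by
    rintro rfl
    rw [zero_pow (by positivity)] at hμpow
    exact zero_ne_one hμpow
  have hq4 : q % 4 = 1 ∨ q % 4 = 3 := by
    obtain ⟨k, rfl⟩ := hq
    omega
  have hval2m : padicValNat 2 (2 * m) = padicValNat 2 m + 1 := by
    rw [padicValNat.mul (by norm_num) hm0, padicValNat.self (by norm_num)]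
    ring
  rw [hval2m]
  rcases hq4 with h1 | h3
  · -- `q ≡ 1 mod 4`
    have hq4' : q % 4 ≠ 3 := by omega
    simp only [hq4', false_or]
    have h4N : 4 ∣ q - 1 := by omega
    have hv2 : 2 ≤ v := by
      have : (2 : ℕ) ^ 2 ∣ q - 1 := by simpa using h4N
      exact (padicValNat_dvd_iff_le hN0).1 this
    constructor
    · rintro ⟨c, hc0, hc⟩
      by_contra hle
      have hlt : padicValNat 2 m < v := by omega
      set y := c ^ 2 * (-μ) with hy
      have hym : y ^ m = 1 := by
        rw [hy, mul_pow, ← pow_mul]; exact hc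
      have hy0 : y ≠ 0 := mul_ne_zero (pow_ne_zero _ hc0) (neg_ne_zero.2 hμ0)
      have hyN : y ^ (q - 1) = 1 := by
        rw [← hF]; exact FiniteField.pow_card_sub_one_eq_one y hy0
      -- `y` to the `(q-1)/2` is `-1`
      have hμhalf : μ ^ 2 ^ (v - 1) = -1 := by
        have h5 : (μ ^ 2 ^ (v - 1)) * (μ ^ 2 ^ (v - 1)) = 1 := by
          rw [← pow_add, ← two_mul, ← pow_succ']
          have : v - 1 + 1 = v := by omega
          rw [this, hμpow]
        rcases mul_self_eq_one_iff.1 h5 with h6 | h6
        · exfalso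
          have h7 := orderOf_dvd_of_pow_eq_one h6
          rw [hμ] at h7
          have h8 := (Nat.pow_dvd_pow_iff_le_right (by norm_num : 1 < 2)).1 h7
          omega
        · exact h6
      obtain ⟨N', hN'⟩ : 2 ^ v ∣ q - 1 := pow_padicValNat_dvd
      have hN'odd : Odd N' := by
        by_contra hodd
        rw [Nat.not_odd_iff_even] at hodd
        obtain ⟨t, rfl⟩ := hodd
        have : 2 ^ (v + 1) ∣ q - 1 := ⟨t, by rw [hN', pow_succ]; ring⟩
        have h3 := (padicValNat_dvd_iff_le (p := 2) hN0).1 this
        omega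
      have hhalf : (q - 1) / 2 = 2 ^ (v - 1) * N' := by
        have : q - 1 = 2 * (2 ^ (v - 1) * N') := by
          rw [hN']
          have : v = v - 1 + 1 := by omega
          conv_lhs => rw [this, pow_succ]
          ring
        omega
      have hyhalf : y ^ ((q - 1) / 2) = -1 := by
        rw [hy, mul_pow, ← pow_mul]
        have h5 : 2 * ((q - 1) / 2) = q - 1 := by
          obtain ⟨k, rfl⟩ := hq
          omega
        rw [h5]
        have h6 : c ^ (q - 1) = 1 := by
          rw [← hF]; exact FiniteField.pow_card_sub_one_eq_one c hc0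
        rw [h6, one_mul, hhalf, pow_mul, neg_pow]
        have h7 : Even (2 ^ (v - 1)) := by
          apply Nat.even_pow.2
          exact ⟨even_two, by omega⟩
        rw [h7.neg_one_pow, one_mul, hμhalf, hN'odd.neg_one_pow]
      -- but the order of `y` divides `(q-1)/2`
      have ho1 := orderOf_dvd_of_pow_eq_one hym
      have ho2 := orderOf_dvd_of_pow_eq_one hyN
      have ho0 : orderOf y ≠ 0 := by
        intro h
        rw [h] at ho2
        exact hN0 (Nat.eq_zero_of_zero_dvd ho2)
      have hval : padicValNat 2 (orderOf y) ≤ padicValNat 2 m := by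
        have := (Nat.factorization_le_iff_dvd ho0 hm0).2 ho1 2
        rwa [Nat.factorization_def _ Nat.prime_two, Nat.factorization_def _ Nat.prime_two] at this
      have hdvd : orderOf y ∣ (q - 1) / 2 :=
        dvd_half_of_val_lt hN0 (by obtain ⟨k, rfl⟩ := hq; exact ⟨k, by omega⟩) ho2 (by omega)
      have := orderOf_dvd_iff_pow_eq_one.1 hdvd
      rw [hyhalf] at this
      exact hne this
    · intro hlt
      have hle : v ≤ padicValNat 2 m := by omega
      have hdvd : 2 ^ v ∣ m := (pow_dvd_pow 2 hle).trans pow_padicValNat_dvd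
      obtain ⟨t, rfl⟩ := hdvd
      refine ⟨1, one_ne_zero, ?_⟩
      rw [one_pow, one_mul, pow_mul, neg_pow, hμpow, mul_one]
      have h7 : Even (2 ^ v) := by
        apply Nat.even_pow.2
        exact ⟨even_two, by omega⟩
      rw [h7.neg_one_pow, one_pow]
  · -- `q ≡ 3 mod 4`
    simp only [h3, true_or, iff_true]
    have hv1 : v = 1 := by
      have hk : q - 1 = 2 * ((q - 1) / 2) := by omega
      have hk0 : (q - 1) / 2 ≠ 0 := by omega
      have hkodd : ¬ 2 ∣ (q - 1) / 2 := by omega
      rw [hv, hk, padicValNat.mul (by norm_num) hk0, padicValNat.self (by norm_num),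
        padicValNat.eq_zero_of_not_dvd hkodd]
    rw [hv1] at hμpow hμ
    have hμ1 : μ = -1 := by
      have h5 : μ * μ = 1 := by rw [← pow_two]; simpa using hμpow
      rcases mul_self_eq_one_iff.1 h5 with h6 | h6
      · exfalso
        rw [h6, orderOf_one] at hμ
        norm_num at hμ
      · exact h6
    refine ⟨1, one_ne_zero, ?_⟩
    rw [hμ1]
    simp

end Cfsg.Agent.S2576
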