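import Cfsg.Statements.S2578
import Mathlib
import Cfsg.Agent.Lib.Known3.RegUnip
import Cfsg.Agent.Lib.Classical.IsoAbs

set_option autoImplicit false
open Cfsg

namespace Cfsg.Agent.S2578

theorem reg_conj {F : Type*} [Field F] {n : ℕ} (g : GL (Fin n) F) {A : Matrix (Fin n) (Fin n) F}
    (h1 : (A - 1) ^ n = 0) (h2 : (A - 1).rank = n - 1) :
    ((g : Matrix (Fin n) (Fin n) F) * A * ((g⁻¹ : GL (Fin n) F) : Matrix (Fin n) (Fin n) F) - 1) ^ n = 0 ∧
    ((g : Matrix (Fin n) (Fin n) F) * A * ((g⁻¹ : GL (Fin n) F) : Matrix (Fin n) (Fin n) F) - 1).rank = n - 1 := by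
  have h3 : (g : Matrix (Fin n) (Fin n) F) * A * ((g⁻¹ : GL (Fin n) F) : Matrix (Fin n) (Fin n) F) - 1 =
      (g : Matrix (Fin n) (Fin n) F) * (A - 1) * ((g⁻¹ : GL (Fin n) F) : Matrix (Fin n) (Fin n) F) := by
    have h2' : (g : Matrix (Fin n) (Fin n) F) * ((g⁻¹ : GL (Fin n) F) : Matrix (Fin n) (Fin n) F) = 1 := by
      rw [← Units.val_mul, mul_inv_cancel, Units.val_one]
    rw [mul_sub, sub_mul, mul_one, h2']
  rw [h3]
  refine ⟨?_, ?_⟩
  · rw [Units.conj_pow g (A - 1) n]
    rw [h1]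
    simp
  · rw [Matrix.rank_mul_eq_left_of_isUnit_det _ _ (Matrix.isUnits_det_units (g⁻¹ : GL (Fin n) F)),
      Matrix.rank_mul_eq_right_of_isUnit_det _ _ (Matrix.isUnits_det_units g), h2]

/-- Regular unipotent classes of SL_n(q): for n ≥ 2 over the field with q elements, the matrices u of determinant one with (u − 1)^n = 0 and rank(u − 1) = n − 1 form a single GL_n(q)-class which splits into exactly gcd(n, q − 1) conjugacy classes of SL_n(q). -/
theorem result {F : Type*} [Field F] [Fintype F] {q : ℕ} (hF : Fintype.card F = q) {n : ℕ} (hn : 2 ≤ n) : Nat.card {C : ConjClasses (Matrix.SpecialLinearGroup (Fin n) F) // ∃ u : Matrix.SpecialLinearGroup (Fin n) F, ConjClasses.mk u = C ∧ ((u : Matrix (Fin n) (Fin n) F) - 1) ^ n = 0 ∧ ((u : Matrix (Fin n) (Fin n) F) - 1).rank = n - 1} = Nat.gcd n (q - 1) := by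
  classical
  subst hF
  set q := Fintype.card F with hq
  have hn1 : 1 ≤ n := by omega
  haveI : Nonempty (Fin n) := ⟨⟨0, hn1⟩⟩
  let U₀ : GL (Fin n) F := Matrix.SpecialLinearGroup.toGL (Lib.Known3.PSLElements.jordU F n n)
  have hU₀val : (U₀ : Matrix (Fin n) (Fin n) F) = 1 + Lib.Known3.PSLElements.jordN F n n := rfl
  let D : GL (Fin n) F →* Fˣ := Matrix.GeneralLinearGroup.det
  have hDval : ∀ g : GL (Fin n) F, ((D g : Fˣ) : F) = (g : Matrix (Fin n) (Fin n) F).det := fun g => rfl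
  have hDU₀ : D U₀ = 1 := by
    apply Units.ext
    exact (Lib.Known3.PSLElements.jordU F n n).2
  have hDSL : ∀ h : Matrix.SpecialLinearGroup (Fin n) F, D (Matrix.SpecialLinearGroup.toGL h) = 1 := by
    intro h
    apply Units.ext
    exact h.2
  choose γ hγ using (Matrix.GeneralLinearGroup.det_surjective (R := F) (n := Fin n))
  have hγ' : ∀ c : Fˣ, D (γ c) = c := hγ
  -- from `GL` to `SL`
  let toSL : (w : GL (Fin n) F) → D w = 1 → Matrix.SpecialLinearGroup (Fin n) F := fun w hw =>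
    ⟨(w : Matrix (Fin n) (Fin n) F), by
      have := congrArg Units.val hw
      simpa [hDval] using this⟩
  have htoSL : ∀ w hw, Matrix.SpecialLinearGroup.toGL (toSL w hw) = w := by
    intro w hw
    apply Units.ext
    rfl
  have hconjD : ∀ g : GL (Fin n) F, D (g * U₀ * g⁻¹) = 1 := by
    intro g
    rw [map_mul, map_mul, map_inv, hDU₀, mul_one, mul_inv_cancel]
  let s : GL (Fin n) F → Matrix.SpecialLinearGroup (Fin n) F := fun g => toSL (g * U₀ * g⁻¹) (hconjD g)
  have hstoGL : ∀ g, Matrix.SpecialLinearGroup.toGL (s g) = g * U₀ * g⁻¹ := fun g => htoSL (g * U₀ * g⁻¹) (hconjD g)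
  -- regular unipotent condition
  have hregU₀1 : ((U₀ : Matrix (Fin n) (Fin n) F) - 1) ^ n = 0 := by
    rw [hU₀val, add_sub_cancel_left]
    exact Lib.Known3.PSLElements.jordN_pow_eq_zero le_rfl hn1 le_rfl
  have hregU₀2 : ((U₀ : Matrix (Fin n) (Fin n) F) - 1).rank = n - 1 := by
    rw [hU₀val, add_sub_cancel_left]
    exact Lib.Known3.RegUnip.rank_jordN hn1
  have hsreg : ∀ g : GL (Fin n) F, (((s g : Matrix.SpecialLinearGroup (Fin n) F) : Matrix (Fin n) (Fin n) F) - 1) ^ n = 0 ∧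
      (((s g : Matrix.SpecialLinearGroup (Fin n) F) : Matrix (Fin n) (Fin n) F) - 1).rank = n - 1 :=
    fun g => reg_conj g hregU₀1 hregU₀2
  -- the class map
  let f : Fˣ → {C : ConjClasses (Matrix.SpecialLinearGroup (Fin n) F) // ∃ u : Matrix.SpecialLinearGroup (Fin n) F,
      ConjClasses.mk u = C ∧ ((u : Matrix (Fin n) (Fin n) F) - 1) ^ n = 0 ∧ ((u : Matrix (Fin n) (Fin n) F) - 1).rank = n - 1} :=
    fun c => ⟨ConjClasses.mk (s (γ c)), s (γ c), rfl, (hsreg _).1, (hsreg _).2⟩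
  have htoGLinj : Function.Injective (Matrix.SpecialLinearGroup.toGL : Matrix.SpecialLinearGroup (Fin n) F → GL (Fin n) F) :=
    Matrix.SpecialLinearGroup.toGL_injective
  have hf : Function.Surjective f := by
    rintro ⟨C, u, rfl, hu1, hu2⟩
    obtain ⟨G, hGdet, hG⟩ := Lib.Known3.RegUnip.exists_conj_jord hn1 hu1 hu2
    let g : GL (Fin n) F := Matrix.GeneralLinearGroup.mkOfDetNeZero G hGdet
    refine ⟨D g, Subtype.ext ?_⟩
    apply ConjClasses.mk_eq_mk_iff_isConj.2
    have hgu : g * U₀ * g⁻¹ = Matrix.SpecialLinearGroup.toGL u := by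
      rw [mul_inv_eq_iff_eq_mul]
      apply Units.ext
      exact hG
    have hD1 : D (g * (γ (D g))⁻¹) = 1 := by
      rw [map_mul, map_inv, hγ', mul_inv_cancel]
    rw [isConj_iff]
    refine ⟨toSL _ hD1, ?_⟩
    apply htoGLinj
    rw [map_mul, map_mul, map_inv, hstoGL, htoSL _ hD1, ← hgu]
    group
  have hfS : ∀ c c' : Fˣ, f c = f c' ↔ c⁻¹ * c' ∈ (powMonoidHom n : Fˣ →* Fˣ).range := by
    intro c c'
    constructor
    · intro h
      have h1 : IsConj (s (γ c)) (s (γ c')) :=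
        ConjClasses.mk_eq_mk_iff_isConj.1 (congrArg Subtype.val h)
      obtain ⟨h₀, hh₀⟩ := isConj_iff.1 h1
      have h2 := congrArg Matrix.SpecialLinearGroup.toGL hh₀
      rw [map_mul, map_mul, map_inv, hstoGL, hstoGL] at h2
      set H₀ := Matrix.SpecialLinearGroup.toGL h₀ with hH₀
      let z : GL (Fin n) F := (γ c')⁻¹ * H₀ * γ c
      have hz : z * U₀ = U₀ * z := by
        have h3 : z * U₀ * z⁻¹ = U₀ := by
          have : z * U₀ * z⁻¹ = (γ c')⁻¹ * (H₀ * (γ c * U₀ * (γ c)⁻¹) * H₀⁻¹) * γ c' := by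
            simp only [z]
            group
          rw [this, h2]
          group
        rw [mul_inv_eq_iff_eq_mul] at h3
        exact h3
      have hzm : (z : Matrix (Fin n) (Fin n) F) * U₀ = U₀ * z := by
        have := congrArg Units.val hz
        simpa using this
      obtain ⟨v₀, hv₀⟩ := Lib.Known3.RegUnip.exists_cyc_of_regular hn1 hregU₀1 hregU₀2
      obtain ⟨a, ha⟩ := Lib.Known3.RegUnip.exists_det_eq_pow hv₀ hregU₀1 hzm
      have hDz : D z = c'⁻¹ * c := by
        simp only [z]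
        rw [map_mul, map_mul, map_inv, hγ', hγ', hH₀, hDSL, mul_one]
      have ha0 : a ≠ 0 := by
        rintro rfl
        rw [zero_pow (by omega)] at ha
        exact (Matrix.isUnits_det_units z).ne_zero ha
      refine ⟨(Units.mk0 a ha0)⁻¹, ?_⟩
      rw [powMonoidHom_apply, inv_pow]
      have h5 : Units.mk0 a ha0 ^ n = c'⁻¹ * c := by
        apply Units.ext
        rw [← hDz, hDval, ha]
        simp
      rw [h5]
      group
    · rintro ⟨a, ha⟩
      rw [powMonoidHom_apply] at ha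
      -- the scalar `a`
      let y : GL (Fin n) F := Matrix.GeneralLinearGroup.scalar (Fin n) a
      have hy : D y = a ^ n := by
        apply Units.ext
        rw [hDval]
        change (Matrix.scalar (Fin n) (a : F)).det = _
        rw [Matrix.scalar_apply, Matrix.det_diagonal]
        simp
      have hycomm : ∀ w : GL (Fin n) F, y * w = w * y := by
        intro w
        apply Units.ext
        exact Matrix.scalar_commute (a : F) (fun r => Commute.all _ r) (w : Matrix (Fin n) (Fin n) F)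
      have hD1 : D (γ c' * y⁻¹ * (γ c)⁻¹) = 1 := by
        rw [map_mul, map_mul, map_inv, map_inv, hγ', hγ', hy, ha]
        group
      apply Subtype.ext
      apply ConjClasses.mk_eq_mk_iff_isConj.2
      rw [isConj_iff]
      refine ⟨toSL _ hD1, ?_⟩
      apply htoGLinj
      rw [map_mul, map_mul, map_inv, hstoGL, hstoGL, htoSL _ hD1]
      have h3 : y⁻¹ * U₀ * y = U₀ := by
        rw [mul_assoc, ← hycomm U₀, ← mul_assoc, inv_mul_cancel, one_mul]
      calc γ c' * y⁻¹ * (γ c)⁻¹ * (γ c * U₀ * (γ c)⁻¹) * (γ c' * y⁻¹ * (γ c)⁻¹)⁻¹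
          = γ c' * (y⁻¹ * U₀ * y) * (γ c')⁻¹ := by group
        _ = γ c' * U₀ * (γ c')⁻¹ := by rw [h3]
  have hcard := Lib.Classical.Abs.card_eq_mul_stab f hf _ hfS
  have hunits : Nat.card Fˣ = q - 1 := by
    rw [Nat.card_eq_fintype_card, Fintype.card_units]
  have hr := IsCyclic.card_powMonoidHom_range (G := Fˣ) n
  rw [hunits] at hr hcard
  rw [hr] at hcard
  have hq2 : 2 ≤ q := Fintype.one_lt_card
  have hg := Nat.gcd_dvd_left (q - 1) n
  have hgpos : 0 < Nat.gcd (q - 1) n := Nat.gcd_pos_of_pos_left _ (by omega)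
  obtain ⟨k, hk⟩ := hg
  have hk0 : 0 < k := by
    rcases Nat.eq_zero_or_pos k with h | h
    · rw [h, mul_zero] at hk
      omega
    · exact h
  have h6 : (q - 1) / Nat.gcd (q - 1) n = k := Nat.div_eq_of_eq_mul_right hgpos hk
  rw [h6] at hcard
  rw [Nat.gcd_comm]
  exact Nat.eq_of_mul_eq_mul_right hk0 (hcard.symm.trans hk)

end Cfsg.Agent.S2578
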