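import Cfsg.Statements.S2582
import Mathlib
import Cfsg.Agent.Lib.JType.Conj
import Cfsg.Agent.Lib.Classical.SympStd

set_option autoImplicit false
open Cfsg

open Matrix Cfsg.Agent.Lib.JType Cfsg.Agent.Lib.Classical

namespace Cfsg.Agent.S2582


/-- Which unipotent Jordan types occur in the finite symplectic group: over a finite field, a unipotent matrix with Jordan block sizes d_1, …, d_t (sum 2m, all at least 1) is similar to an element of Sp_2m(F) if and only if every odd block size occurs an even number of times. -/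
theorem result {F : Type*} [Field F] [Fintype F] {m t : ℕ} (d : Fin t → ℕ) (hd : ∀ k, 1 ≤ d k) (hsum : ∑ k, d k = 2 * m) : (∃ e : ((k : Fin t) × Fin (d k)) ≃ (Fin m ⊕ Fin m), ∃ A : Matrix.symplecticGroup (Fin m) F, IsConj (Matrix.reindex e e (Cfsg.jordanTypeMatrix d F)) (A : Matrix (Fin m ⊕ Fin m) (Fin m ⊕ Fin m) F)) ↔ ∀ j : ℕ, Odd j → Even (Finset.univ.filter (fun k : Fin t => d k = j)).card := by
  classical
  constructor
  · rintro ⟨e, A, hc⟩ j hj
    obtain ⟨ψ, hψ⟩ := exists_psi e hc
    let B : LinearMap.BilinForm F (Idx d → F) := (sympBilin m F).compl₁₂ ψ.toLinearMap ψ.toLinearMap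
    have hB : ∀ u v, B u v = Cfsg.sympForm m F (ψ u) (ψ v) := fun u v => rfl
    refine even_of_alt_form B ?_ hd ?_ ?_ j hj
    · intro u v
      rw [hB, hB, hψ, hψ]
      exact mem_symplecticGroup_iff_preserves.1 A.2 _ _
    · intro v hv
      apply ψ.injective
      rw [map_zero]
      apply sympBilin_nondegenerate.2
      intro u
      have := hv (ψ.symm u)
      rw [hB, LinearEquiv.apply_symm_apply] at this
      exact this
    · intro v
      rw [hB]
      exact sympForm_self _
  · intro hpar
    obtain ⟨G, hG1, hG2, hG3, hG4⟩ := exists_alt_form (F := F) hd hpar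
    have hcard : Fintype.card (Idx d) = 2 * m := by
      rw [Fintype.card_sigma]
      simpa using hsum
    have hnd : (Matrix.toBilin' G).Nondegenerate :=
      LinearMap.BilinForm.nondegenerate_toBilin'_iff_det_ne_zero.2 hG1
    have hA : (Matrix.toBilin' G).IsAlt := by
      intro v
      rw [Matrix.toBilin'_apply']
      exact alt_dot G hG3 (fun x y => hG2 x y) v
    obtain ⟨θ, hθ⟩ := exists_symp_isometry (Matrix.toBilin' G) hnd hA m (by rw [Module.finrank_fintype_fun_eq_card, hcard])
    have e : Idx d ≃ (Fin m ⊕ Fin m) := Fintype.equivOfCardEq (by simp [hcard]; omega)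
    let A : Matrix (Fin m ⊕ Fin m) (Fin m ⊕ Fin m) F :=
      LinearMap.toMatrix' (θ.toLinearMap ∘ₗ (Matrix.mulVecLin (Cfsg.jordanTypeMatrix d F)) ∘ₗ θ.symm.toLinearMap)
    have hAv : ∀ w, A *ᵥ w = θ (Cfsg.jordanTypeMatrix d F *ᵥ (θ.symm w)) := by
      intro w
      simp only [A]
      rw [LinearMap.toMatrix'_mulVec]
      rfl
    have hAmem : A ∈ Matrix.symplecticGroup (Fin m) F := by
      rw [mem_symplecticGroup_iff_preserves]
      intro u v
      rw [hAv, hAv, hθ, hG4, ← hθ]
      simp
    refine ⟨e, ⟨A, hAmem⟩, isConj_of_psi e θ ?_⟩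
    intro u
    show θ _ = A *ᵥ θ u
    rw [hAv]
    simp

end Cfsg.Agent.S2582
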