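import Cfsg.Statements.S2583
import Mathlib
import Cfsg.Agent.Lib.JType.Conj

set_option autoImplicit false
open Cfsg

open Matrix Cfsg.Agent.Lib.JType

namespace Cfsg.Agent.S2583


/-- Which unipotent Jordan types occur in a finite orthogonal group in odd characteristic: over a finite field of odd order, a unipotent matrix with Jordan block sizes d_1, …, d_t (sum n, all at least 1) is similar to an isometry of some quadratic form on F^n with non-degenerate polar form if and only if every even block size occurs an even number of times. -/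
theorem result {F : Type*} [Field F] [Fintype F] (h2 : (2 : F) ≠ 0) {n t : ℕ} (d : Fin t → ℕ) (hd : ∀ k, 1 ≤ d k) (hsum : ∑ k, d k = n) : (∃ Q : QuadraticForm F (Fin n → F), (QuadraticMap.polarBilin Q).Nondegenerate ∧ ∃ e : ((k : Fin t) × Fin (d k)) ≃ Fin n, ∃ A : ↥(Cfsg.isometryGroup F ⇑Q), IsConj (Matrix.reindex e e (Cfsg.jordanTypeMatrix d F)) ((A : Matrix.GeneralLinearGroup (Fin n) F) : Matrix (Fin n) (Fin n) F)) ↔ ∀ j : ℕ, Even j → 0 < j → Even (Finset.univ.filter (fun k : Fin t => d k = j)).card := by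
  classical
  constructor
  · rintro ⟨Q, hQ, e, A, hc⟩ j hj hj0
    obtain ⟨ψ, hψ⟩ := exists_psi e hc
    let P := QuadraticMap.polarBilin Q
    have hP : ∀ u v, P u v = Q (u + v) - Q u - Q v := fun u v => rfl
    let B : LinearMap.BilinForm F (Idx d → F) := P.compl₁₂ ψ.toLinearMap ψ.toLinearMap
    have hB : ∀ u v, B u v = P (ψ u) (ψ v) := fun u v => rfl
    have hAQ : ∀ v, Q (((A : Matrix.GeneralLinearGroup (Fin n) F) : Matrix (Fin n) (Fin n) F) *ᵥ v) = Q v := by
      intro v
      exact A.2 v v
    refine even_of_sym_form B ?_ hd ?_ h2 ?_ j hj hj0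
    · intro u v
      rw [hB, hB, hψ, hψ, hP, hP, ← Matrix.mulVec_add, hAQ, hAQ, hAQ]
    · intro v hv
      apply ψ.injective
      rw [map_zero]
      apply hQ.2
      intro u
      have := hv (ψ.symm u)
      rw [hB, LinearEquiv.apply_symm_apply] at this
      exact this
    · intro u v
      rw [hB, hB, hP, hP, add_comm (ψ u)]
      ring
  · intro hpar
    obtain ⟨G, hG1, hG2, hG4⟩ := exists_sym_form (F := F) h2 hd hpar
    have hcard : Fintype.card (Idx d) = n := by
      rw [Fintype.card_sigma]
      simpa using hsum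
    have hnd : (Matrix.toBilin' G).Nondegenerate :=
      LinearMap.BilinForm.nondegenerate_toBilin'_iff_det_ne_zero.2 hG1
    have e : Idx d ≃ Fin n := Fintype.equivOfCardEq (by simp [hcard])
    let ρ : (Idx d → F) ≃ₗ[F] (Fin n → F) := LinearEquiv.funCongrLeft F F e.symm
    let B₀ : LinearMap.BilinForm F (Fin n → F) := LinearMap.BilinForm.congr ρ (Matrix.toBilin' G)
    have hB₀nd : B₀.Nondegenerate := LinearMap.BilinForm.Nondegenerate.congr ρ hnd
    have hB₀ : ∀ u v, B₀ u v = Matrix.toBilin' G (ρ.symm u) (ρ.symm v) := fun u v => rfl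
    have hB₀s : ∀ u v, B₀ u v = B₀ v u := by
      intro u v
      rw [hB₀, hB₀, Matrix.toBilin'_apply', Matrix.toBilin'_apply', Matrix.dotProduct_mulVec, ← Matrix.mulVec_transpose, dotProduct_comm]
      congr 2
      ext x y
      exact hG2 x y
    let Q : QuadraticForm F (Fin n → F) := (2⁻¹ : F) • LinearMap.BilinMap.toQuadraticMap B₀
    have hQ : ∀ v, Q v = 2⁻¹ * B₀ v v := fun v => rfl
    have hpolar : QuadraticMap.polarBilin Q = B₀ := by
      apply LinearMap.ext
      intro u
      apply LinearMap.ext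
      intro v
      show Q (u + v) - Q u - Q v = B₀ u v
      rw [hQ, hQ, hQ]
      simp only [map_add, LinearMap.add_apply]
      rw [hB₀s v u]
      field_simp
      ring
    have hX : IsUnit (Matrix.reindex e e (Cfsg.jordanTypeMatrix d F)).det := by
      rw [Matrix.det_reindex_self]
      exact (Matrix.isUnit_iff_isUnit_det _).1 J_isUnit
    refine ⟨Q, by rw [hpolar]; exact hB₀nd, e, ⟨Matrix.GeneralLinearGroup.mkOfDetNeZero _ hX.ne_zero, ?_⟩, ?_⟩
    · intro u v
      change Q ((Matrix.reindex e e (Cfsg.jordanTypeMatrix d F)) *ᵥ u) = Q u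
      have hsymm : ∀ w : Idx d → F, ρ.symm (w ∘ e.symm) = w := fun w => ρ.symm_apply_apply w
      have h1 : ρ.symm ((Matrix.reindex e e (Cfsg.jordanTypeMatrix d F)) *ᵥ u) = Cfsg.jordanTypeMatrix d F *ᵥ ρ.symm u := by
        have h3 : u = (ρ.symm u) ∘ e.symm := (ρ.apply_symm_apply u).symm
        conv_lhs => rw [h3]
        rw [reindex_mulVec, hsymm]
      rw [hQ, hQ, hB₀, hB₀, h1, hG4]
    · exact IsConj.refl _

end Cfsg.Agent.S2583
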