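import Cfsg.Statements.S2584
import Mathlib
import Cfsg.Agent.Lib.JType.Dye

set_option autoImplicit false
open Cfsg

open Matrix Cfsg.Agent.Lib.JType

namespace Cfsg.Agent.S2584


/-- Which unipotent Jordan types occur in a finite orthogonal group in characteristic two: over a finite field of characteristic 2 and in even dimension 2m, a unipotent matrix with Jordan block sizes d_1, …, d_t (sum 2m, all at least 1) is similar to an isometry of some quadratic form on F^(2m) with non-degenerate polar form if and only if every odd block size occurs an even number of times (the same condition as for the symplectic group, which contains these orthogonal groups). -/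
theorem result {F : Type*} [Field F] [Fintype F] [CharP F 2] {m t : ℕ} (d : Fin t → ℕ) (hd : ∀ k, 1 ≤ d k) (hsum : ∑ k, d k = 2 * m) : (∃ Q : QuadraticForm F (Fin (2 * m) → F), (QuadraticMap.polarBilin Q).Nondegenerate ∧ ∃ e : ((k : Fin t) × Fin (d k)) ≃ Fin (2 * m), ∃ A : ↥(Cfsg.isometryGroup F ⇑Q), IsConj (Matrix.reindex e e (Cfsg.jordanTypeMatrix d F)) ((A : Matrix.GeneralLinearGroup (Fin (2 * m)) F) : Matrix (Fin (2 * m)) (Fin (2 * m)) F)) ↔ ∀ j : ℕ, Odd j → Even (Finset.univ.filter (fun k : Fin t => d k = j)).card := by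
  classical
  have h2 : (2 : F) = 0 := two_zero
  constructor
  · rintro ⟨Q, hQ, e, A, hc⟩ j hj
    obtain ⟨ψ, hψ⟩ := exists_psi e hc
    let P := QuadraticMap.polarBilin Q
    have hP : ∀ u v, P u v = Q (u + v) - Q u - Q v := fun u v => rfl
    let B : LinearMap.BilinForm F (Idx d → F) := P.compl₁₂ ψ.toLinearMap ψ.toLinearMap
    have hB : ∀ u v, B u v = P (ψ u) (ψ v) := fun u v => rfl
    have hAQ : ∀ v, Q (((A : Matrix.GeneralLinearGroup (Fin (2 * m)) F) : Matrix (Fin (2 * m)) (Fin (2 * m)) F) *ᵥ v) = Q v := by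
      intro v
      exact A.2 v v
    refine even_of_alt_form B ?_ hd ?_ ?_ j hj
    · intro u v
      rw [hB, hB, hψ, hψ, hP, hP, ← Matrix.mulVec_add, hAQ, hAQ, hAQ]
    · intro v hv
      apply ψ.injective
      rw [map_zero]
      apply hQ.2
      intro u
      have := hv (ψ.symm u)
      rw [hB, LinearEquiv.apply_symm_apply] at this
      exact this
    · intro v
      rw [hB, hP]
      have h3 : ψ v + ψ v = (2 : F) • ψ v := (two_smul F _).symm
      rw [h3, h2, zero_smul, map_zero]
      have h4 : Q (ψ v) + Q (ψ v) = 0 := by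
        rw [← two_mul, h2, zero_mul]
      linear_combination -h4
  · intro hpar
    obtain ⟨G, hG1, hG2, hG3, hG4⟩ := exists_alt_form (F := F) hd hpar
    have hcard : Fintype.card (Idx d) = 2 * m := by
      rw [Fintype.card_sigma]
      simpa using hsum
    have hnd : (Matrix.toBilin' G).Nondegenerate :=
      LinearMap.BilinForm.nondegenerate_toBilin'_iff_det_ne_zero.2 hG1
    have e : Idx d ≃ Fin (2 * m) := Fintype.equivOfCardEq (by simp [hcard])
    let ρ : (Idx d → F) ≃ₗ[F] (Fin (2 * m) → F) := LinearEquiv.funCongrLeft F F e.symm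
    let B₀ : LinearMap.BilinForm F (Fin (2 * m) → F) := LinearMap.BilinForm.congr ρ (Matrix.toBilin' G)
    have hB₀nd : B₀.Nondegenerate := LinearMap.BilinForm.Nondegenerate.congr ρ hnd
    have hB₀ : ∀ u v, B₀ u v = Matrix.toBilin' G (ρ.symm u) (ρ.symm v) := fun u v => rfl
    have hB₀a : ∀ v, B₀ v v = 0 := by
      intro v
      rw [hB₀, Matrix.toBilin'_apply']
      exact alt_dot G hG3 (fun x y => hG2 x y) _
    have hsymm : ∀ w : Idx d → F, ρ.symm (w ∘ e.symm) = w := fun w => ρ.symm_apply_apply w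
    have h1 : ∀ u, ρ.symm ((Matrix.reindex e e (Cfsg.jordanTypeMatrix d F)) *ᵥ u) = Cfsg.jordanTypeMatrix d F *ᵥ ρ.symm u := by
      intro u
      have h3 : u = (ρ.symm u) ∘ e.symm := (ρ.apply_symm_apply u).symm
      conv_lhs => rw [h3]
      rw [reindex_mulVec, hsymm]
    obtain ⟨Q, hQ1, hQ2⟩ := exists_inv_quad B₀ hB₀a (Matrix.reindex e e (Cfsg.jordanTypeMatrix d F)) (by
      intro u v
      rw [hB₀, hB₀, h1, h1, hG4])
    have hX : IsUnit (Matrix.reindex e e (Cfsg.jordanTypeMatrix d F)).det := by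
      rw [Matrix.det_reindex_self]
      exact (Matrix.isUnit_iff_isUnit_det _).1 J_isUnit
    refine ⟨Q, by rw [hQ1]; exact hB₀nd, e, ⟨Matrix.GeneralLinearGroup.mkOfDetNeZero _ hX.ne_zero, ?_⟩, ?_⟩
    · intro u v
      exact hQ2 u
    · exact IsConj.refl _

end Cfsg.Agent.S2584
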