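import Cfsg.Statements.S2585
import Cfsg.Agent.Lib.Classical.QuadConcrete
import Cfsg.Agent.Lib.Classical.Symplectic
import Mathlib

set_option autoImplicit false
open Cfsg

namespace Cfsg.Agent.S2585

/-- Over a finite field of characteristic two every element of the symplectic group is orthogonal for a suitable quadratic form: for each A in Sp_2m(F) there is a quadratic form Q on F^(2m) whose polar form is the alternating form defining Sp_2m(F) (so Q is non-degenerate) and which A preserves. Equivalently, for m ≥ 1, Sp_2m(F) is the union of the conjugates of its two orthogonal subgroups O⁺_2m(F) and O⁻_2m(F). -/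
theorem result {F : Type*} [Field F] [Fintype F] [CharP F 2] {m : ℕ} (A : Matrix.symplecticGroup (Fin m) F) : ∃ Q : QuadraticForm F (Fin m ⊕ Fin m → F), (∀ u v : Fin m ⊕ Fin m → F, QuadraticMap.polar ⇑Q u v = Cfsg.sympForm m F u v) ∧ ∀ v : Fin m ⊕ Fin m → F, Q ((A : Matrix (Fin m ⊕ Fin m) (Fin m ⊕ Fin m) F).mulVec v) = Q v := by
    classical
  have h20 : (2 : F) = 0 := CharTwo.two_eq_zero
  let Q₀ : QuadraticForm F (Fin m ⊕ Fin m → F) := Cfsg.Agent.Lib.Classical.Abs.Qplus m F
  have hQ₀ : ∀ v, Q₀ v = ∑ i : Fin m, v (Sum.inl i) * v (Sum.inr i) := fun v => by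
    rw [Cfsg.Agent.Lib.Classical.Abs.Qplus_apply]; rfl
  have hpol : ∀ u v : Fin m ⊕ Fin m → F, Q₀ (u + v) = Q₀ u + Q₀ v + Cfsg.sympForm m F u v := by
    intro u v
    rw [hQ₀, hQ₀, hQ₀, Cfsg.Agent.Lib.Classical.sympForm_apply, ← Finset.sum_add_distrib,
      ← Finset.sum_add_distrib]
    refine Finset.sum_congr rfl fun i _ => ?_
    simp only [Pi.add_apply]
    linear_combination (u (Sum.inl i) * v (Sum.inr i)) * h20
  have hA := Cfsg.Agent.Lib.Classical.mem_symplecticGroup_iff_preserves.1 A.2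
  set M : Matrix (Fin m ⊕ Fin m) (Fin m ⊕ Fin m) F := (A : Matrix (Fin m ⊕ Fin m) (Fin m ⊕ Fin m) F) with hM
  -- the defect
  let φ : (Fin m ⊕ Fin m → F) → F := fun v => Q₀ (M.mulVec v) - Q₀ v
  have hφadd : ∀ u v, φ (u + v) = φ u + φ v := by
    intro u v
    simp only [φ, Matrix.mulVec_add, hpol, hA]
    ring
  have hφsmul : ∀ (c : F) v, φ (c • v) = c ^ 2 * φ v := by
    intro c v
    simp only [φ, Matrix.mulVec_smul, QuadraticMap.map_smul, smul_eq_mul]
    ring
  haveI : Fact (Nat.Prime 2) := ⟨Nat.prime_two⟩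
  let s : F ≃+* F := (frobeniusEquiv F 2).symm
  have hs : ∀ x : F, s x ^ 2 = x := by
    intro x
    exact frobenius_apply_frobeniusEquiv_symm F 2 x
  have hs2 : ∀ x : F, s (x ^ 2) = x := by
    intro x
    exact frobeniusEquiv_symm_apply_frobenius F 2 x
  let ψ : (Fin m ⊕ Fin m → F) →ₗ[F] F :=
    { toFun := fun v => s (φ v)
      map_add' := fun u v => by simp only [hφadd, map_add]
      map_smul' := fun c v => by
        simp only [hφsmul, map_mul, hs2, RingHom.id_apply, smul_eq_mul] }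
  have hψ : ∀ v, ψ v ^ 2 = φ v := fun v => hs (φ v)
  let T : (Fin m ⊕ Fin m → F) →ₗ[F] (Fin m ⊕ Fin m → F) := Matrix.mulVecLin M - LinearMap.id
  have hker : ψ ∈ (LinearMap.ker T).dualAnnihilator := by
    rw [Submodule.mem_dualAnnihilator]
    intro v hv
    have hv' : M.mulVec v = v := by
      have : T v = 0 := hv
      simpa [T, sub_eq_zero] using this
    change s (φ v) = 0
    simp [φ, hv']
  rw [← LinearMap.range_dualMap_eq_dualAnnihilator_ker] at hker
  obtain ⟨ℓ, hℓ⟩ := hker
  have hℓ' : ∀ v, ψ v = ℓ (M.mulVec v) - ℓ v := by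
    intro v
    rw [← hℓ]
    simp [T]
  refine ⟨Q₀ + QuadraticMap.linMulLin ℓ ℓ, ?_, ?_⟩
  · intro u v
    simp only [QuadraticMap.polar, _root_.add_apply, QuadraticMap.linMulLin_apply, hpol, map_add]
    linear_combination (ℓ u * ℓ v) * h20
  · intro v
    simp only [_root_.add_apply, QuadraticMap.linMulLin_apply]
    have h1 := hψ v
    rw [hℓ'] at h1
    have h2 : φ v = Q₀ (M.mulVec v) - Q₀ v := rfl
    rw [h2] at h1
    linear_combination (-1 : F) * h1 + (ℓ (M.mulVec v) * ℓ (M.mulVec v) - ℓ (M.mulVec v) * ℓ v) * h20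

end Cfsg.Agent.S2585
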