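import Cfsg.Statements.S2586
import Mathlib
import Cfsg.Agent.Lib.Known3.SelfDual

set_option autoImplicit false
open Cfsg

namespace Cfsg.Agent.S2586

/-- Over a finite field, every element of the symplectic group Sp_2m(F) is conjugate by an invertible matrix to its inverse. -/
theorem result {F : Type*} [Field F] [Finite F] {m : ℕ} (A : Matrix.symplecticGroup (Fin m) F) : IsConj (A : Matrix (Fin m ⊕ Fin m) (Fin m ⊕ Fin m) F) ((A⁻¹ : Matrix.symplecticGroup (Fin m) F) : Matrix (Fin m ⊕ Fin m) (Fin m ⊕ Fin m) F) := by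
  classical
  have hinv : ((A⁻¹ : Matrix.symplecticGroup (Fin m) F) : Matrix (Fin m ⊕ Fin m) (Fin m ⊕ Fin m) F) =
      (-Matrix.J (Fin m) F) * (A : Matrix (Fin m ⊕ Fin m) (Fin m ⊕ Fin m) F).transpose * Matrix.J (Fin m) F :=
    SymplecticGroup.coe_inv A
  have hJ : Matrix.J (Fin m) F * Matrix.J (Fin m) F = -1 := Matrix.J_squared (Fin m) F
  let U : (Matrix (Fin m ⊕ Fin m) (Fin m ⊕ Fin m) F)ˣ :=
    ⟨-Matrix.J (Fin m) F, Matrix.J (Fin m) F, by rw [neg_mul, hJ, neg_neg], by rw [mul_neg, hJ, neg_neg]⟩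
  refine (Lib.Known3.SelfDual.isConj_transpose _).trans ?_
  rw [hinv]
  refine ⟨U, ?_⟩
  change (-Matrix.J (Fin m) F) * _ = (-Matrix.J (Fin m) F) * _ * Matrix.J (Fin m) F * (-Matrix.J (Fin m) F)
  rw [mul_assoc _ (Matrix.J (Fin m) F), mul_neg, hJ, neg_neg, mul_one]

end Cfsg.Agent.S2586
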