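import Cfsg.Statements.S2589
import Mathlib
import Cfsg.Agent.Lib.KS2.IsoSp

set_option autoImplicit false
open Cfsg

open Cfsg.Agent.Lib.KS2.IsoCl

namespace Cfsg.Agent.S2589


/-- Two semisimple elements of the finite symplectic group Sp_2m(F) (elements of order prime to the characteristic) are conjugate in Sp_2m(F) if and only if they are conjugate in GL_2m(F). -/
theorem result {F : Type*} [Field F] [Fintype F] {p : ℕ} [Fact p.Prime] [CharP F p] {m : ℕ} (A B : Matrix.symplecticGroup (Fin m) F) (hA : (orderOf A).Coprime p) : IsConj A B ↔ IsConj (A : Matrix (Fin m ⊕ Fin m) (Fin m ⊕ Fin m) F) (B : Matrix (Fin m ⊕ Fin m) (Fin m ⊕ Fin m) F) := by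
  constructor
  · rintro ⟨c, hc⟩
    refine ⟨⟨((c : Matrix.symplecticGroup (Fin m) F) : Matrix (Fin m ⊕ Fin m) (Fin m ⊕ Fin m) F), ((c⁻¹ : (Matrix.symplecticGroup (Fin m) F)ˣ) : Matrix.symplecticGroup (Fin m) F).1, ?_, ?_⟩, ?_⟩
    · exact Subtype.ext_iff.mp c.mul_inv
    · exact Subtype.ext_iff.mp c.inv_mul
    · exact Subtype.ext_iff.mp hc
  · intro hc
    have hch : (A : Matrix (Fin m ⊕ Fin m) (Fin m ⊕ Fin m) F).charpoly = (B : Matrix (Fin m ⊕ Fin m) (Fin m ⊕ Fin m) F).charpoly := by
      obtain ⟨c, hc⟩ := hc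
      have h1 : (B : Matrix (Fin m ⊕ Fin m) (Fin m ⊕ Fin m) F) = c.1 * A * c.inv := by
        have := hc.eq
        rw [this, mul_assoc]
        simp
      rw [h1, Units.inv_eq_val_inv, Matrix.coe_units_inv]
      exact (Matrix.charpoly_units_conj c _).symm
    have hord : orderOf B = orderOf A := by
      have h1 : orderOf B = orderOf (B : Matrix (Fin m ⊕ Fin m) (Fin m ⊕ Fin m) F) :=
        (orderOf_injective (Matrix.symplecticGroup (Fin m) F).subtype Subtype.val_injective B).symm
      have h2 : orderOf A = orderOf (A : Matrix (Fin m ⊕ Fin m) (Fin m ⊕ Fin m) F) :=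
        (orderOf_injective (Matrix.symplecticGroup (Fin m) F).subtype Subtype.val_injective A).symm
      rw [h1, h2, orderOf_eq_orderOf_iff]
      obtain ⟨c, hc⟩ := hc
      intro k
      have h3 := (hc.pow_right k).eq
      constructor
      · intro h4
        rw [h4, one_mul] at h3
        have h5 : (c : Matrix (Fin m ⊕ Fin m) (Fin m ⊕ Fin m) F) * (A : Matrix (Fin m ⊕ Fin m) (Fin m ⊕ Fin m) F) ^ k = c * 1 := by
          rw [h3, mul_one]
        exact c.isUnit.mul_left_cancel h5
      · intro h4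
        rw [h4, mul_one] at h3
        have h5 : (B : Matrix (Fin m ⊕ Fin m) (Fin m ⊕ Fin m) F) ^ k * c = 1 * c := by
          rw [← h3, one_mul]
        exact c.isUnit.mul_right_cancel h5
    exact sp_conj (p := p) m A B hA (hord ▸ hA) hch

end Cfsg.Agent.S2589
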