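import Cfsg.Statements.S2590
import Mathlib
import Cfsg.Agent.Lib.PrimeCl.OrthConj
import Cfsg.Agent.Lib.KS2.SSConj2

set_option autoImplicit false
open Cfsg


namespace Cfsg.Agent.S2590


/-- Two semisimple elements of odd order of a finite orthogonal group (isometry group of a quadratic form on F^n with non-degenerate polar form, F finite of characteristic p; the elements have odd order prime to p) are conjugate in the orthogonal group if and only if they are conjugate in GL_n(F). -/
theorem result {F : Type*} [Field F] [Fintype F] {p : ℕ} [Fact p.Prime] [CharP F p] {n : ℕ} (Q : QuadraticForm F (Fin n → F)) (hQ : (QuadraticMap.polarBilin Q).Nondegenerate) (A B : ↥(Cfsg.isometryGroup F ⇑Q)) (hodd : Odd (orderOf A)) (hA : (orderOf A).Coprime p) : IsConj A B ↔ IsConj ((A : Matrix.GeneralLinearGroup (Fin n) F) : Matrix (Fin n) (Fin n) F) ((B : Matrix.GeneralLinearGroup (Fin n) F) : Matrix (Fin n) (Fin n) F) := by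
  classical
  constructor
  · intro h
    exact MonoidHom.map_isConj ((Units.coeHom (Matrix (Fin n) (Fin n) F)).comp (Cfsg.isometryGroup F ⇑Q).subtype) h
  · rintro ⟨c, hc⟩
    have hc1 : (c : Matrix (Fin n) (Fin n) F) * ((A : Matrix.GeneralLinearGroup (Fin n) F) : Matrix (Fin n) (Fin n) F) =
        ((B : Matrix.GeneralLinearGroup (Fin n) F) : Matrix (Fin n) (Fin n) F) * (c : Matrix (Fin n) (Fin n) F) := hc
    set Am : Matrix (Fin n) (Fin n) F := ((A : Matrix.GeneralLinearGroup (Fin n) F) : Matrix (Fin n) (Fin n) F) with hAm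
    set Bm : Matrix (Fin n) (Fin n) F := ((B : Matrix.GeneralLinearGroup (Fin n) F) : Matrix (Fin n) (Fin n) F) with hBm
    set m := orderOf A with hm
    have hAm1 : Am ^ m = 1 := by
      have h1 : A ^ m = 1 := pow_orderOf_eq_one A
      have h2 := congrArg (fun x : ↥(Cfsg.isometryGroup F ⇑Q) => ((x : Matrix.GeneralLinearGroup (Fin n) F) : Matrix (Fin n) (Fin n) F)) h1
      simpa using h2
    have hBm1 : Bm ^ m = 1 := by
      have h1 : SemiconjBy (c : Matrix (Fin n) (Fin n) F) Am Bm := hc1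
      have h2 := h1.pow_right m
      rw [hAm1] at h2
      have h3 : (c : Matrix (Fin n) (Fin n) F) = Bm ^ m * (c : Matrix (Fin n) (Fin n) F) := by
        have := h2.eq
        rwa [mul_one] at this
      have h4 := congrArg (· * ((c⁻¹ : (Matrix (Fin n) (Fin n) F)ˣ) : Matrix (Fin n) (Fin n) F)) h3
      simp only [mul_assoc, Units.mul_inv, mul_one] at h4
      exact h4.symm
    have hmF : (m : F) ≠ 0 := Cfsg.Agent.Lib.KS2.SSConj.cast_ne_zero_of_coprime (p := p) hA (Or.inr trivial)
    let T : (Fin n → F) →ₗ[F] (Fin n → F) := Matrix.toLin' Am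
    let T' : (Fin n → F) →ₗ[F] (Fin n → F) := Matrix.toLin' Bm
    have hT : ∀ v, Q (T v) = Q v := fun v => A.2 v 0
    have hT' : ∀ v, Q (T' v) = Q v := fun v => B.2 v 0
    let c' : (Fin n → F) ≃ₗ[F] (Fin n → F) := Matrix.toLin'OfInv c.inv_mul c.mul_inv
    have hc' : ∀ v, c' (T v) = T' (c' v) := by
      intro v
      show (c : Matrix (Fin n) (Fin n) F).mulVec (Am.mulVec v) = Bm.mulVec ((c : Matrix (Fin n) (Fin n) F).mulVec v)
      rw [Matrix.mulVec_mulVec, Matrix.mulVec_mulVec, hc1]
    obtain ⟨g, hg1, hg2⟩ := Cfsg.Agent.Lib.PrimeCl.quad_conj Q hQ T T' hT hT' m hmF hodd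
      (Cfsg.Agent.Lib.KS2.SSConj.toLin'_pow_one Am hAm1) (Cfsg.Agent.Lib.KS2.SSConj.toLin'_pow_one Bm hBm1) c' hc'
    let G : Matrix.GeneralLinearGroup (Fin n) F := Cfsg.Agent.Lib.KS2.SSConj.glOfEquiv g
    have hGv : ∀ v, (G : Matrix (Fin n) (Fin n) F).mulVec v = g v := by
      intro v
      show (LinearMap.toMatrix' (g : (Fin n → F) →ₗ[F] (Fin n → F))).mulVec v = g v
      rw [LinearMap.toMatrix'_mulVec]
      rfl
    have hGmem : G ∈ Cfsg.isometryGroup F ⇑Q := by
      intro u _
      show Q ((G : Matrix (Fin n) (Fin n) F).mulVec u) = Q u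
      rw [hGv, hg1]
    refine isConj_iff.2 ⟨⟨G, hGmem⟩, ?_⟩
    rw [mul_inv_eq_iff_eq_mul]
    apply Subtype.ext
    apply Units.ext
    show (G : Matrix (Fin n) (Fin n) F) * Am = Bm * (G : Matrix (Fin n) (Fin n) F)
    apply Matrix.toLin'.injective
    refine LinearMap.ext fun v => ?_
    simp only [Matrix.toLin'_mul, LinearMap.comp_apply, Matrix.toLin'_apply]
    rw [hGv, hGv]
    exact hg2 _

end Cfsg.Agent.S2590
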