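import Cfsg.Statements.S2594
import Mathlib
import Cfsg.Agent.S0245
import Cfsg.Agent.S0271
import Cfsg.Agent.Lib.Classical.Symplectic
import Cfsg.Agent.Lib.Classical.LinAlg
import Cfsg.Agent.Lib.Classical.IsoAbs

set_option autoImplicit false
open Cfsg

namespace Cfsg.Agent.S2594

open Matrix Cfsg.Agent.Lib.Classical

/-- Rank one elements of `Sp` are transvections. -/
lemma exists_tv {F : Type*} [Field F] {m : ℕ} (t : Matrix (Fin m ⊕ Fin m) (Fin m ⊕ Fin m) F)
    (ht : t ∈ Matrix.symplecticGroup (Fin m) F) (hr : (t - 1).rank = 1) :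
    ∃ (a : Fin m ⊕ Fin m → F) (c : F), a ≠ 0 ∧ c ≠ 0 ∧ ∀ x, t *ᵥ x = x + (c * Cfsg.sympForm m F x a) • a := by
  obtain ⟨a, b, hab⟩ := exists_vecMulVec_of_rank_one (t - 1) hr
  have ha : a ≠ 0 := by
    rintro rfl
    rw [hab] at hr
    simp at hr
  have hb : b ≠ 0 := by
    rintro rfl
    rw [hab] at hr
    simp at hr
  have ht' : ∀ x, t *ᵥ x = x + (b ⬝ᵥ x) • a := by
    intro x
    have h1 : t = 1 + vecMulVec a b := by rw [← hab]; abel
    rw [h1, Matrix.add_mulVec, Matrix.one_mulVec, vecMulVec_mulVec']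
  have hp := mem_symplecticGroup_iff_preserves.1 ht
  have h2 : ∀ x y, (b ⬝ᵥ y) * Cfsg.sympForm m F x a = (b ⬝ᵥ x) * Cfsg.sympForm m F y a := by
    intro x y
    have h3 := hp x y
    rw [ht', ht', sympForm_add_left, sympForm_add_right, sympForm_add_right, sympForm_smul_left, sympForm_smul_right,
      sympForm_smul_left, sympForm_smul_right, sympForm_self, sympForm_flip y a] at h3
    linear_combination h3
  obtain ⟨x₀, hx₀⟩ : ∃ x, Cfsg.sympForm m F x a ≠ 0 := by
    by_contra hcon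
    push Not at hcon
    exact ha (sympForm_eq_zero_iff hcon)
  refine ⟨a, (b ⬝ᵥ x₀) / Cfsg.sympForm m F x₀ a, ha, ?_, ?_⟩
  · intro h0
    have h3 : b ⬝ᵥ x₀ = 0 := by
      rcases div_eq_zero_iff.1 h0 with h | h
      · exact h
      · exact absurd h hx₀
    apply hb
    funext i
    have h4 := h2 x₀ (Pi.single i 1)
    rw [h3, zero_mul] at h4
    have h5 := (mul_eq_zero.1 h4).resolve_right hx₀
    simpa using h5
  · intro x
    rw [ht']
    have h4 := h2 x₀ x
    congr 2
    field_simp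
    linear_combination h4

/-- Over a finite field with q elements, q even, an element t of Sp_2m(F) with rank(t − 1) = 1 (a symplectic transvection) has centraliser in Sp_2m(F) of order q^(2m−1) · |Sp_(2m−2)(q)| = q^(2m−1) · q^((m−1)²) · Π_(i=1)^(m−1) (q^(2i) − 1). -/
theorem result {F : Type*} [Field F] [Fintype F] [CharP F 2] {q : ℕ} (hF : Fintype.card F = q) {m : ℕ} (hm : 1 ≤ m) (t : Matrix.symplecticGroup (Fin m) F) (ht : ((t : Matrix (Fin m ⊕ Fin m) (Fin m ⊕ Fin m) F) - 1).rank = 1) : Nat.card ↥(Subgroup.centralizer ({t} : Set ↥(Matrix.symplecticGroup (Fin m) F))) = q ^ (2 * m - 1) * (q ^ ((m - 1) ^ 2) * ∏ i : Fin (m - 1), (q ^ (2 * ((i : ℕ) + 1)) - 1)) := by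
  classical
  subst hF
  obtain ⟨a, c, ha, hc, htx⟩ := exists_tv _ t.2 ht
  have h20 : (2 : F) = 0 := CharTwo.two_eq_zero
  have hp : ∀ (g : Matrix.symplecticGroup (Fin m) F) (u v : Fin m ⊕ Fin m → F),
      Cfsg.sympForm m F (g.1 *ᵥ u) (g.1 *ᵥ v) = Cfsg.sympForm m F u v :=
    fun g => mem_symplecticGroup_iff_preserves.1 g.2
  -- the centraliser is the stabiliser of `a`
  have hC : ∀ g : Matrix.symplecticGroup (Fin m) F, g ∈ Subgroup.centralizer ({t} : Set (Matrix.symplecticGroup (Fin m) F)) ↔ g.1 *ᵥ a = a := by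
    intro g
    rw [Subgroup.mem_centralizer_singleton_iff]
    constructor
    · intro h
      obtain ⟨x, hx⟩ : ∃ x, Cfsg.sympForm m F x a ≠ 0 := by
        by_contra hcon
        push Not at hcon
        exact ha (sympForm_eq_zero_iff hcon)
      have h1 : Cfsg.sympForm m F x a • (g.1 *ᵥ a) = Cfsg.sympForm m F (g.1 *ᵥ x) a • a := by
        have h2 : g.1 *ᵥ (t.1 *ᵥ x) = t.1 *ᵥ (g.1 *ᵥ x) := by
          simp only [Matrix.mulVec_mulVec]
          exact congrArg (fun M : Matrix.symplecticGroup (Fin m) F => M.1 *ᵥ x) h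
        rw [htx, htx, Matrix.mulVec_add, Matrix.mulVec_smul] at h2
        have h3 := add_left_cancel h2
        rw [← smul_smul, ← smul_smul] at h3
        exact smul_right_injective _ hc h3
      obtain ⟨l, hl⟩ : ∃ l : F, g.1 *ᵥ a = l • a := by
        refine ⟨(Cfsg.sympForm m F x a)⁻¹ * Cfsg.sympForm m F (g.1 *ᵥ x) a, ?_⟩
        rw [mul_smul, ← h1, smul_smul, inv_mul_cancel₀ hx, one_smul]
      have h4 := hp g x a
      rw [hl, sympForm_smul_right] at h4
      rw [hl, smul_smul] at h1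
      have h5 : Cfsg.sympForm m F x a * l = Cfsg.sympForm m F (g.1 *ᵥ x) a := by
        have h6 : (Cfsg.sympForm m F x a * l - Cfsg.sympForm m F (g.1 *ᵥ x) a) • a = 0 := by
          rw [sub_smul, h1, sub_self]
        exact sub_eq_zero.1 ((smul_eq_zero.1 h6).resolve_right ha)
      have h7 : Cfsg.sympForm m F x a * (l - 1) ^ 2 = 0 := by
        linear_combination l * h5 + h4 + (Cfsg.sympForm m F x a * (1 - l)) * h20
      have h8 : l = 1 := by
        have h9 := (mul_eq_zero.1 h7).resolve_left hx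
        exact sub_eq_zero.1 (pow_eq_zero_iff (by norm_num) |>.1 h9)
      rw [hl, h8, one_smul]
    · intro h
      apply Subtype.ext
      apply Matrix.mulVec_injective
      funext x
      change (g.1 * t.1) *ᵥ x = (t.1 * g.1) *ᵥ x
      rw [← Matrix.mulVec_mulVec, ← Matrix.mulVec_mulVec, htx, htx, Matrix.mulVec_add, Matrix.mulVec_smul, h]
      have h1 := hp g x a
      rw [h] at h1
      rw [h1]
  let o : Matrix.symplecticGroup (Fin m) F → {v : Fin m ⊕ Fin m → F // v ≠ 0} := fun g =>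
    ⟨g.1 *ᵥ a, fun h => ha (by
      have h1 : (g⁻¹).1 *ᵥ (g.1 *ᵥ a) = a := by
        rw [Matrix.mulVec_mulVec]
        have : (g⁻¹).1 * g.1 = 1 := congrArg Subtype.val (inv_mul_cancel g)
        rw [this, Matrix.one_mulVec]
      rw [← h1, h, Matrix.mulVec_zero])⟩
  have ho : Function.Surjective o := by
    rintro ⟨w, hw⟩
    obtain ⟨g, hg⟩ := Cfsg.Agent.S0271.result m a w ha hw
    exact ⟨g, Subtype.ext hg⟩
  have hoS : ∀ g g', o g = o g' ↔ g⁻¹ * g' ∈ Subgroup.centralizer ({t} : Set (Matrix.symplecticGroup (Fin m) F)) := by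
    intro g g'
    rw [hC]
    have hinv : ∀ (h : Matrix.symplecticGroup (Fin m) F) (v : Fin m ⊕ Fin m → F), (h⁻¹).1 *ᵥ (h.1 *ᵥ v) = v := by
      intro h v
      rw [Matrix.mulVec_mulVec]
      have : (h⁻¹).1 * h.1 = 1 := congrArg Subtype.val (inv_mul_cancel h)
      rw [this, Matrix.one_mulVec]
    have hinv' : ∀ (h : Matrix.symplecticGroup (Fin m) F) (v : Fin m ⊕ Fin m → F), h.1 *ᵥ ((h⁻¹).1 *ᵥ v) = v := by
      intro h v
      rw [Matrix.mulVec_mulVec]
      have : h.1 * (h⁻¹).1 = 1 := congrArg Subtype.val (mul_inv_cancel h)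
      rw [this, Matrix.one_mulVec]
    constructor
    · intro h
      have h1 : g.1 *ᵥ a = g'.1 *ᵥ a := congrArg Subtype.val h
      change ((g⁻¹).1 * g'.1) *ᵥ a = a
      rw [← Matrix.mulVec_mulVec, ← h1, hinv]
    · intro h
      have h1 : ((g⁻¹).1 * g'.1) *ᵥ a = a := h
      rw [← Matrix.mulVec_mulVec] at h1
      apply Subtype.ext
      change g.1 *ᵥ a = g'.1 *ᵥ a
      conv_lhs => rw [← h1]
      rw [hinv']
  have hcard := Cfsg.Agent.Lib.Classical.Abs.card_eq_mul_stab o ho _ hoS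
  rw [Cfsg.Agent.S0245.result rfl m] at hcard
  have hX : Nat.card {v : Fin m ⊕ Fin m → F // v ≠ 0} = Fintype.card F ^ (2 * m) - 1 := by
    rw [Nat.card_eq_fintype_card, Fintype.card_subtype_compl]
    simp [two_mul]
  rw [hX] at hcard
  obtain ⟨k, rfl⟩ : ∃ k, m = k + 1 := ⟨m - 1, by omega⟩
  set q := Fintype.card F with hq
  have hq2 : 2 ≤ q := Fintype.one_lt_card
  rw [Finset.prod_range_succ] at hcard
  have hpos : 0 < q ^ (2 * (k + 1)) - 1 := by
    have : 1 < q ^ (2 * (k + 1)) := Nat.one_lt_pow (by omega) (by omega)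
    omega
  have h1 : q ^ (k + 1) ^ 2 * ∏ i ∈ Finset.range k, (q ^ (2 * (i + 1)) - 1) =
      Nat.card ↥(Subgroup.centralizer ({t} : Set (Matrix.symplecticGroup (Fin (k + 1)) F))) := by
    apply Nat.eq_of_mul_eq_mul_left hpos
    rw [← hcard]
    ring
  rw [← h1]
  have h2 : ∏ i : Fin (k + 1 - 1), (q ^ (2 * ((i : ℕ) + 1)) - 1) = ∏ i ∈ Finset.range k, (q ^ (2 * (i + 1)) - 1) := by
    rw [Finset.prod_range]
    rfl
  rw [h2, ← mul_assoc, ← pow_add]
  congr 2
  simp only [Nat.add_sub_cancel]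
  have : 2 * (k + 1) - 1 = 2 * k + 1 := by omega
  rw [this]
  ring

end Cfsg.Agent.S2594
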