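import Cfsg.Statements.S2599
import Mathlib

set_option autoImplicit false
open Cfsg

namespace Cfsg.Agent.S2599

/-- An irreducible invariant subspace of a semisimple isometry is non-degenerate or totally singular: let Q be a quadratic form on F^n (F finite of characteristic p) with non-degenerate polar form f, x an isometry of Q of order prime to p, and U a non-zero x-invariant subspace containing no x-invariant subspace other than 0 and U. Then U meets its f-orthogonal trivially, or Q vanishes on U, or p = 2, U is a line spanned by a non-singular vector and x fixes U pointwise. -/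
theorem result {F : Type*} [Field F] [Fintype F] {p : ℕ} [Fact p.Prime] [CharP F p] {n : ℕ} (Q : QuadraticForm F (Fin n → F)) (hQ : (QuadraticMap.polarBilin Q).Nondegenerate) (x : ↥(Cfsg.isometryGroup F ⇑Q)) (hx : (orderOf x).Coprime p) (U : Submodule F (Fin n → F)) (hU0 : U ≠ ⊥) (hUx : ∀ u ∈ U, ((x : Matrix.GeneralLinearGroup (Fin n) F) : Matrix (Fin n) (Fin n) F).mulVec u ∈ U) (hirr : ∀ W : Submodule F (Fin n → F), W ≤ U → (∀ w ∈ W, ((x : Matrix.GeneralLinearGroup (Fin n) F) : Matrix (Fin n) (Fin n) F).mulVec w ∈ W) → W = ⊥ ∨ W = U) : U ⊓ LinearMap.BilinForm.orthogonal (QuadraticMap.polarBilin Q) U = ⊥ ∨ (∀ u ∈ U, Q u = 0) ∨ (p = 2 ∧ Module.finrank F U = 1 ∧ (∃ u ∈ U, Q u ≠ 0) ∧ ∀ u ∈ U, ((x : Matrix.GeneralLinearGroup (Fin n) F) : Matrix (Fin n) (Fin n) F).mulVec u = u) := by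
  classical
  set g : Matrix (Fin n) (Fin n) F := ((x : Matrix.GeneralLinearGroup (Fin n) F) : Matrix (Fin n) (Fin n) F) with hg
  have hQg : ∀ v, Q (g.mulVec v) = Q v := fun v => x.2 v 0
  have hpol : ∀ u v, QuadraticMap.polarBilin Q (g.mulVec u) (g.mulVec v) = QuadraticMap.polarBilin Q u v := by
    intro u v
    simp only [QuadraticMap.polarBilin_apply_apply, QuadraticMap.polar]
    rw [← Matrix.mulVec_add, hQg, hQg, hQg]
  -- the radical of `U`
  let W : Submodule F (Fin n → F) := U ⊓ LinearMap.BilinForm.orthogonal (QuadraticMap.polarBilin Q) U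
  have hW : ∀ w ∈ W, g.mulVec w ∈ W := by
    rintro w ⟨hw1, hw2⟩
    refine ⟨hUx w hw1, ?_⟩
    intro u hu
    -- `u = g u'` for `u' ∈ U`
    have hinj : Function.Injective g.mulVec := by
      have hdet : IsUnit g.det := Matrix.isUnits_det_units (x : Matrix.GeneralLinearGroup (Fin n) F)
      exact Matrix.mulVec_injective_of_isUnit ((Matrix.isUnit_iff_isUnit_det g).2 hdet)
    let T : (Fin n → F) →ₗ[F] (Fin n → F) := g.mulVecLin
    have hT : Function.Injective (T.domRestrict U) := by
      intro a b hab
      apply Subtype.ext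
      exact hinj hab
    have hmap : Function.Surjective ((T.domRestrict U).codRestrict U (fun a => hUx a a.2)) := by
      have hinj' : Function.Injective ((T.domRestrict U).codRestrict U (fun a => hUx a a.2)) := by
        intro a b hab
        apply hT
        exact congrArg Subtype.val hab
      exact LinearMap.injective_iff_surjective.1 hinj'
    obtain ⟨u', hu'⟩ := hmap ⟨u, hu⟩
    have hu'' : g.mulVec (u' : Fin n → F) = u := congrArg Subtype.val hu'
    change QuadraticMap.polarBilin Q u (g.mulVec w) = 0
    rw [← hu'', hpol]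
    exact hw2 u' u'.2
  rcases hirr W inf_le_left hW with h0 | h1
  · exact Or.inl h0
  right
  have hiso : ∀ u ∈ U, ∀ v ∈ U, QuadraticMap.polarBilin Q u v = 0 := by
    intro u hu v hv
    have : v ∈ W := by rw [h1]; exact hv
    exact this.2 u hu
  have hadd : ∀ u ∈ U, ∀ v ∈ U, Q (u + v) = Q u + Q v := by
    intro u hu v hv
    have h := hiso u hu v hv
    simp only [QuadraticMap.polarBilin_apply_apply, QuadraticMap.polar] at h
    linear_combination h
  by_cases hp2 : p = 2
  · subst hp2
    haveI : CharP F 2 := ‹_›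
    -- singular vectors form an invariant subspace
    let U₀ : Submodule F (Fin n → F) :=
      { carrier := {u | u ∈ U ∧ Q u = 0}
        add_mem' := by
          rintro a b ⟨ha, ha0⟩ ⟨hb, hb0⟩
          exact ⟨U.add_mem ha hb, by rw [hadd a ha b hb, ha0, hb0, add_zero]⟩
        zero_mem' := ⟨U.zero_mem, Q.map_zero⟩
        smul_mem' := by
          rintro c a ⟨ha, ha0⟩
          refine ⟨U.smul_mem c ha, ?_⟩
          rw [QuadraticMap.map_smul, ha0, smul_zero] }
    have hU₀ : U₀ ≤ U := fun u hu => hu.1
    have hU₀x : ∀ w ∈ U₀, g.mulVec w ∈ U₀ := by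
      rintro w ⟨hw, hw0⟩
      exact ⟨hUx w hw, by rw [hQg, hw0]⟩
    rcases hirr U₀ hU₀ hU₀x with h0 | h1'
    · right
      refine ⟨rfl, ?_⟩
      have hinjQ : ∀ u ∈ U, Q u = 0 → u = 0 := by
        intro u hu hu0
        have : u ∈ U₀ := ⟨hu, hu0⟩
        rw [h0] at this
        simpa using this
      -- sqrt
      have hsqrt : ∀ a : F, ∃ c : F, c ^ 2 = a := by
        intro a
        have hb : Function.Bijective (frobenius F 2) := by
          exact (Finite.injective_iff_bijective).1 (frobenius F 2).injective
        obtain ⟨c, hc⟩ := hb.2 a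
        exact ⟨c, by simpa [frobenius_def] using hc⟩
      have hcard2 : (2 : F) = 0 := CharTwo.two_eq_zero
      obtain ⟨u₀, hu₀, hu₀0⟩ := (Submodule.ne_bot_iff U).1 hU0
      have hQu₀ : Q u₀ ≠ 0 := fun h => hu₀0 (hinjQ u₀ hu₀ h)
      have hspan : ∀ v ∈ U, ∃ c : F, v = c • u₀ := by
        intro v hv
        obtain ⟨c, hc⟩ := hsqrt (Q v / Q u₀)
        refine ⟨c, ?_⟩
        have h2 : Q (v + c • u₀) = 0 := by
          rw [hadd v hv _ (U.smul_mem c hu₀), QuadraticMap.map_smul, smul_eq_mul]
          rw [show c * c = c ^ 2 by ring, hc, div_mul_cancel₀ _ hQu₀]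
          rw [← two_mul, hcard2, zero_mul]
        have h3 := hinjQ _ (U.add_mem hv (U.smul_mem c hu₀)) h2
        have h4 : v = -(c • u₀) := eq_neg_of_add_eq_zero_left h3
        rw [h4]
        funext i
        simp [CharTwo.neg_eq]
      refine ⟨?_, ⟨u₀, hu₀, hQu₀⟩, ?_⟩
      · have hUeq : U = Submodule.span F {u₀} := by
          apply le_antisymm
          · intro v hv
            obtain ⟨c, rfl⟩ := hspan v hv
            exact Submodule.smul_mem _ c (Submodule.mem_span_singleton_self u₀)
          · rw [Submodule.span_singleton_le_iff_mem]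
            exact hu₀
        rw [hUeq]
        exact finrank_span_singleton hu₀0
      · intro u hu
        obtain ⟨c, rfl⟩ := hspan u hu
        rw [Matrix.mulVec_smul]
        obtain ⟨l, hl⟩ := hspan _ (hUx u₀ hu₀)
        have hQl : l ^ 2 = 1 := by
          have h5 := hQg u₀
          rw [hl, QuadraticMap.map_smul, smul_eq_mul] at h5
          have h6 : (l * l - 1) * Q u₀ = 0 := by linear_combination h5
          have h7 := (mul_eq_zero.1 h6).resolve_right hQu₀
          linear_combination h7
        have hl1 : l = 1 := by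
          have h8 : (l - 1) ^ 2 = 0 := by
            have : (l - 1) ^ 2 = l ^ 2 - 2 * l + 1 := by ring
            rw [this, hQl, hcard2, zero_mul, sub_zero, ← two_mul, hcard2, zero_mul]
          have h9 := pow_eq_zero_iff (two_ne_zero) |>.1 h8
          exact sub_eq_zero.1 h9
        rw [hl, hl1, one_smul]
    · left
      intro u hu
      have : u ∈ U₀ := by rw [h1']; exact hu
      exact this.2
  · left
    intro u hu
    have h2 : (2 : F) ≠ 0 := by
      intro h
      have h3 : ((2 : ℕ) : F) = 0 := by exact_mod_cast h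
      rw [CharP.cast_eq_zero_iff F p] at h3
      exact hp2 ((Nat.prime_dvd_prime_iff_eq (Fact.out) Nat.prime_two).1 h3)
    have h3 := hiso u hu u hu
    simp only [QuadraticMap.polarBilin_apply_apply, QuadraticMap.polar] at h3
    have h4 : Q (u + u) = 4 * Q u := by
      rw [← two_smul F u, QuadraticMap.map_smul, smul_eq_mul]
      ring
    rw [h4] at h3
    have h5 : 2 * Q u = 0 := by linear_combination h3
    exact (mul_eq_zero.1 h5).resolve_left h2

end Cfsg.Agent.S2599
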