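import Cfsg.Statements.S2610
import Mathlib
import Cfsg.Agent.Lib.Known3.OmegaCalc
import Cfsg.Agent.Lib.Classical.SymForm

set_option autoImplicit false
open Cfsg

namespace Cfsg.Agent.S2610

open Cfsg.Agent.Lib.Classical.Witt Cfsg.Agent.Lib.Classical.Abs Cfsg.Agent.Lib.Classical
open Cfsg.Agent.Lib.Classical.Orth Cfsg.Agent.Lib.Known3.Spinor Cfsg.Agent.Lib.Classical.Sym

lemma isSquare_mul_sq_iff {F : Type*} [Field F] {d : F} (hd : d ≠ 0) (a : F) : IsSquare (d * d * a) ↔ IsSquare a := by
  constructor
  · rintro ⟨s, hs⟩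
    refine ⟨s / d, ?_⟩
    field_simp
    linear_combination hs
  · rintro ⟨s, hs⟩
    exact ⟨d * s, by rw [hs]; ring⟩

/-- For a quadratic form Q on F^n with non-degenerate polar form, F finite of odd order and n ≥ 2 even, the isometry −1 lies in Ω (the commutator subgroup of the orthogonal group) if and only if the discriminant of Q (the determinant of the Gram matrix of its polar form) is a square. -/
theorem result {F : Type*} [Field F] [Fintype F] (h2 : (2 : F) ≠ 0) {n : ℕ} (hn : 2 ≤ n) (he : Even n) (Q : QuadraticForm F (Fin n → F)) (hQ : (QuadraticMap.polarBilin Q).Nondegenerate) : (∃ g : ↥(Cfsg.isometryGroup F ⇑Q), g ∈ Cfsg.Omega F ⇑Q ∧ ((g : Matrix.GeneralLinearGroup (Fin n) F) : Matrix (Fin n) (Fin n) F) = -1) ↔ IsSquare (Matrix.of (fun i j : Fin n => QuadraticMap.polar ⇑Q (Pi.single i 1) (Pi.single j 1))).det := by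
  classical
  have hfr : Module.finrank F (Fin n → F) = n := by simp
  have hS : LinearMap.BilinForm.IsSymm (QuadraticMap.polarBilin Q) := ⟨fun a b => pol_comm Q a b⟩
  obtain ⟨e, he1, he2⟩ := exists_orth_family h2 n (Fin n → F) (QuadraticMap.polarBilin Q) hS hQ hfr
  have heQ : ∀ i, Q (e i) ≠ 0 := by
    intro i h0
    apply he2 i
    rw [pol_self, h0, mul_zero]
  let e' : Fin n → NS Q := fun i => ⟨e i, heQ i⟩
  let b := orthBasis (QuadraticMap.polarBilin Q) e he1 he2 hfr
  have hb : ∀ i, b i = e i := fun i => orthBasis_apply _ e he1 he2 hfr i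
  have hact : ∀ J : List (Fin n), J.Nodup → ∀ j, (prodL (J.map e')).1 (e j) = if j ∈ J then - e j else e j := by
    intro J
    induction J with
    | nil => 
      intro _ j
      simp
    | cons a J ih =>
      intro hJ j
      rw [List.nodup_cons] at hJ
      rw [List.map_cons, prodL_cons, Orth.mul_apply', ih hJ.2 j]
      by_cases hja : j = a
      · subst hja
        rw [if_neg hJ.1, if_pos (List.mem_cons_self ..)]
        exact refl_self (heQ j)
      · have hfix : (refl Q (e a) (heQ a)).1 (e j) = e j := refl_fix (heQ a) (he1 a j (Ne.symm hja))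
        by_cases hjJ : j ∈ J
        · rw [if_pos hjJ, if_pos (List.mem_cons_of_mem _ hjJ), map_neg]
          change - (refl Q (e a) (heQ a)).1 (e j) = _
          rw [hfix]
        · rw [if_neg hjJ, if_neg (by simp [hja, hjJ])]
          exact hfix
  let L : List (NS Q) := (List.finRange n).map e'
  have hL : ∀ x, (prodL L).1 x = - x := by
    intro x
    have h3 : (prodL L).1.toLinearMap = - LinearMap.id := by
      apply b.ext
      intro j
      rw [hb]
      have := hact (List.finRange n) (List.nodup_finRange n) j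
      rw [if_pos (List.mem_finRange j)] at this
      exact this
    exact LinearMap.congr_fun h3 x
  have hM : (-1 : Matrix (Fin n) (Fin n) F) = mL Q L := by
    apply Matrix.mulVec_injective
    funext x
    rw [← prodL_apply, hL, Matrix.neg_mulVec, Matrix.one_mulVec]
  rw [exists_Omega_iff Q L _ hM, mem_comm_odd h2 hQ]
  have hlen : L.length = n := by simp [L]
  have hprod : (L.map (fun v => Q v.1)).prod = ∏ i, Q (e i) := by
    rw [Fin.prod_univ_def]
    simp [L, List.map_map, e']
    rfl
  rw [hlen, hprod]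
  -- the discriminant
  let b' := Pi.basisFun F (Fin n)
  have hG : LinearMap.BilinForm.toMatrix b (QuadraticMap.polarBilin Q) =
      Matrix.diagonal (fun i => QuadraticMap.polarBilin Q (e i) (e i)) := by
    ext i j
    rw [LinearMap.BilinForm.toMatrix_apply]
    by_cases hij : i = j
    · subst hij
      simp [hb]
    · simp [hb, hij, he1 i j hij]
  have hG' : LinearMap.BilinForm.toMatrix b' (QuadraticMap.polarBilin Q) =
      Matrix.of (fun i j : Fin n => QuadraticMap.polar ⇑Q (Pi.single i 1) (Pi.single j 1)) := by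
    ext i j
    rw [LinearMap.BilinForm.toMatrix_apply]
    simp [b']
  have h := LinearMap.BilinForm.toMatrix_mul_basis_toMatrix b' b (QuadraticMap.polarBilin Q)
  have hd := congrArg Matrix.det h
  rw [Matrix.det_mul, Matrix.det_mul, Matrix.det_transpose, hG, hG', Matrix.det_diagonal] at hd
  set D := (Matrix.of (fun i j : Fin n => QuadraticMap.polar ⇑Q (Pi.single i 1) (Pi.single j 1))).det with hDdef
  set d := (b'.toMatrix b).det with hddef
  have hprod2 : ∏ i, QuadraticMap.polarBilin Q (e i) (e i) = 2 ^ n * ∏ i, Q (e i) := by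
    simp only [pol_self]
    rw [Finset.prod_mul_distrib]
    simp
  obtain ⟨k, hk⟩ := he
  have hd0 : d ≠ 0 := by
    intro h0
    rw [h0] at hd
    simp only [zero_mul] at hd
    exact (Finset.prod_ne_zero_iff.mpr (fun i _ => he2 i)) hd.symm
  have ht : (2 : F) ^ k ≠ 0 := pow_ne_zero _ h2
  have h5 : d * d * D = (2 ^ k) * (2 ^ k) * ∏ i, Q (e i) := by
    have : (2 : F) ^ k * 2 ^ k = 2 ^ n := by rw [hk, pow_add]
    rw [this, ← hprod2, ← hd]
    ring
  rw [← isSquare_mul_sq_iff hd0 D, h5, isSquare_mul_sq_iff ht]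
  constructor
  · rintro ⟨_, h7⟩
    exact h7
  · intro h7
    exact ⟨⟨k, hk⟩, h7⟩

end Cfsg.Agent.S2610
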