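import Cfsg.Statements.S2611
import Mathlib
import Cfsg.Agent.Lib.Known3.OmegaLevi

set_option autoImplicit false
open Cfsg

namespace Cfsg.Agent.S2611

/-- For the hyperbolic quadratic form Σ x_i y_i on F^(2m) (F finite, m ≥ 1, excluding m = 2 over the field of two elements) and an invertible m × m matrix A, the block-diagonal isometry diag(A, (A⁻¹)ᵀ), which stabilises the two maximal totally singular subspaces x = 0 and y = 0, lies in Ω⁺_2m(F) (the commutator subgroup of the orthogonal group) if and only if det A is a square in F. -/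
theorem result {F : Type*} [Field F] [Fintype F] {m : ℕ} (hm : 1 ≤ m) (h : Fintype.card F ≠ 2 ∨ m ≠ 2) (A : GL (Fin m) F) : (∃ g : ↥(Cfsg.isometryGroup F (Cfsg.quadFormPlus m F)), g ∈ Cfsg.Omega F (Cfsg.quadFormPlus m F) ∧ ((g : Matrix.GeneralLinearGroup (Fin m ⊕ Fin m) F) : Matrix (Fin m ⊕ Fin m) (Fin m ⊕ Fin m) F) = Matrix.fromBlocks (A : Matrix (Fin m) (Fin m) F) 0 0 ((A : Matrix (Fin m) (Fin m) F)⁻¹).transpose) ↔ IsSquare (A : Matrix (Fin m) (Fin m) F).det := by
  open Cfsg.Agent.Lib.Known3.OmegaLevi Cfsg.Agent.Lib.Known3.OmegaCalc Cfsg.Agent.Lib.Classical.Abs in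
  rw [← coe_Qplus m]
  have hd : (A : Matrix (Fin m) (Fin m) F).det ≠ 0 :=
    ((Matrix.isUnit_iff_isUnit_det _).1 A.isUnit).ne_zero
  rw [← LD_mem_iff h (⟨0, hm⟩ : Fin m) hd, ← Φ_mem_iff hm h A hd rfl]
  constructor
  · rintro ⟨g, hg, hg2⟩
    have h1 : g = Φ A := by
      apply Subtype.ext
      apply Units.ext
      rw [hg2]
      rfl
    rwa [h1] at hg
  · intro h1
    exact ⟨Φ A, h1, rfl⟩


end Cfsg.Agent.S2611
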