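import Cfsg.Statements.S2612
import Mathlib
import Cfsg.Agent.Lib.Known3.OmegaLevi

set_option autoImplicit false
open Cfsg

namespace Cfsg.Agent.S2612

/-- For the hyperbolic quadratic form Σ x_i y_i on F^(2m) (F finite, m ≥ 1, excluding m = 2 over the field of two elements), Ω⁺_2m(F) (the commutator subgroup of the orthogonal group) contains an element interchanging the two complementary maximal totally singular subspaces {y = 0} and {x = 0} if and only if m is even (dimension divisible by 4). -/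
theorem result {F : Type*} [Field F] [Fintype F] {m : ℕ} (hm : 1 ≤ m) (h : Fintype.card F ≠ 2 ∨ m ≠ 2) : (∃ g : ↥(Cfsg.isometryGroup F (Cfsg.quadFormPlus m F)), g ∈ Cfsg.Omega F (Cfsg.quadFormPlus m F) ∧ (∀ v : Fin m ⊕ Fin m → F, (∀ i, v (Sum.inr i) = 0) → ∀ i, (((g : Matrix.GeneralLinearGroup (Fin m ⊕ Fin m) F) : Matrix (Fin m ⊕ Fin m) (Fin m ⊕ Fin m) F).mulVec v) (Sum.inl i) = 0) ∧ (∀ v : Fin m ⊕ Fin m → F, (∀ i, v (Sum.inl i) = 0) → ∀ i, (((g : Matrix.GeneralLinearGroup (Fin m ⊕ Fin m) F) : Matrix (Fin m ⊕ Fin m) (Fin m ⊕ Fin m) F).mulVec v) (Sum.inr i) = 0)) ↔ Even m := by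
  open Cfsg.Agent.Lib.Known3.OmegaLevi Cfsg.Agent.Lib.Known3.OmegaCalc Cfsg.Agent.Lib.Classical.Abs
    Cfsg.Agent.Lib.Known3.Spinor Cfsg.Agent.Lib.Classical.Orth Cfsg.Agent.Lib.Classical.Witt in
  rw [← coe_Qplus m]
  have hnd := Qplus_nondeg (F := F) m
  have hfin : Fintype.card F ≠ 2 ∨ Module.finrank F (Fin m ⊕ Fin m → F) ≠ 4 := by
    rcases h with h | h
    · exact Or.inl h
    · right
      simp
      omega
  have hcrit : ∀ L : List (NS (Qplus m F)), prodL L ∈ commutator (OG (Qplus m F)) → Even L.length := by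
    intro L hL
    by_cases h2 : (2 : F) = 0
    · exact (mem_comm_even h2 hnd hfin L).1 hL
    · exact ((mem_comm_odd h2 hnd L).1 hL).1
  obtain ⟨Ls, hs1, hs2, hs3⟩ := exists_swap (F := F) m m le_rfl
  have hsw1 : ∀ x j, (prodL Ls).1 x (Sum.inl j) = x (Sum.inr j) := by
    intro x j
    rw [(hs3 x j).1, if_pos j.2]
  have hsw2 : ∀ x j, (prodL Ls).1 x (Sum.inr j) = x (Sum.inl j) := by
    intro x j
    rw [(hs3 x j).2, if_pos j.2]
  constructor
  · rintro ⟨g, hg, hg1, hg2⟩
    -- the composite with the swap preserves both subspaces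
    let g' : OG (Qplus m F) := (prodL Ls) * toOG _ g
    let M : Matrix (Fin m ⊕ Fin m) (Fin m ⊕ Fin m) F := ((toOG _).symm g' : Cfsg.isometryGroup F (⇑(Qplus m F))).1.1
    have hMact : ∀ v, M.mulVec v = g'.1 v := fun v => toOG_symm_apply _ g' v
    have hact : ∀ v, g'.1 v = (prodL Ls).1 (((g : Matrix.GeneralLinearGroup (Fin m ⊕ Fin m) F) : Matrix (Fin m ⊕ Fin m) (Fin m ⊕ Fin m) F).mulVec v) := by
      intro v
      change (prodL Ls).1 ((toOG _ g).1 v) = _
      rw [toOG_apply]
    obtain ⟨A, hA⟩ := exists_blk M (by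
      intro v
      rw [hMact, OG_pres]) (by
      intro v hv i
      rw [hMact, hact, hsw2]
      exact hg1 v hv i) (by
      intro v hv i
      rw [hMact, hact, hsw1]
      exact hg2 v hv i)
    have hd : (A : Matrix (Fin m) (Fin m) F).det ≠ 0 :=
      ((Matrix.isUnit_iff_isUnit_det _).1 A.isUnit).ne_zero
    obtain ⟨S, hS⟩ := exists_SL_mul (⟨0, hm⟩ : Fin m) A hd rfl
    have hg'eq : g' = toOG _ (Φ A) := by
      apply OG_ext
      intro x
      rw [← hMact, toOG_apply, hA]
      rfl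
    have h1 : toOG (Qplus m F) (Φ (Matrix.SpecialLinearGroup.toGL S)) ∈ commutator (OG (Qplus m F)) := by
      rw [← mem_Omega_iff]
      exact map_mem_commutator Φ (sl_mem_comm hm h S)
    have h3 : toOG _ g ∈ commutator (OG (Qplus m F)) := (mem_Omega_iff _ _).1 hg
    -- the list
    let Lt := Ls ++ LD (⟨0, hm⟩ : Fin m) _ hd
    have h4 : prodL Lt = (prodL Ls) * (toOG _ (Φ (Dg (⟨0, hm⟩ : Fin m) _ hd))) := by
      rw [prodL_append, toOG_Φ_Dg]
    have hsq : prodL Ls * prodL Ls = 1 := by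
      apply OG_ext
      intro x
      rw [Cfsg.Agent.Lib.Classical.Orth.mul_apply']
      funext k
      rcases k with k | k
      · rw [hsw1, hsw2]
        rfl
      · rw [hsw2, hsw1]
        rfl
    have h5 : toOG (Qplus m F) g = prodL Ls * (toOG _ (Φ (Matrix.SpecialLinearGroup.toGL S)) * toOG _ (Φ (Dg (⟨0, hm⟩ : Fin m) _ hd))) := by
      rw [← map_mul, ← map_mul, ← hS, ← hg'eq]
      change toOG _ g = prodL Ls * (prodL Ls * toOG _ g)
      rw [← mul_assoc, hsq, one_mul]
    have h6 : prodL Lt ∈ commutator (OG (Qplus m F)) := by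
      rw [h4]
      have h7 : prodL Ls * toOG _ (Φ (Dg (⟨0, hm⟩ : Fin m) _ hd)) =
          ((prodL Ls) * (toOG _ (Φ (Matrix.SpecialLinearGroup.toGL S)))⁻¹ * (prodL Ls)⁻¹) * toOG _ g := by
        rw [h5]
        group
      rw [h7]
      refine mul_mem ?_ h3
      have hN : (commutator (OG (Qplus m F))).Normal := inferInstance
      exact hN.conj_mem _ (inv_mem h1) _
    have h8 := hcrit _ h6
    simp only [Lt, List.length_append, LD, List.length_cons, List.length_nil, hs1] at h8
    rw [Nat.even_add] at h8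
    exact h8.2 (by decide)
  · intro he
    have hO : prodL Ls ∈ commutator (OG (Qplus m F)) := by
      by_cases h2 : (2 : F) = 0
      · rw [mem_comm_even h2 hnd hfin, hs1]
        exact he
      · rw [mem_comm_odd h2 hnd, hs1, hs2, he.neg_one_pow]
        exact ⟨he, IsSquare.one⟩
    refine ⟨isoL _ Ls, ?_, ?_, ?_⟩
    · rw [mem_Omega_iff, toOG_isoL]
      exact hO
    · intro v hv i
      rw [isoL_coe, ← prodL_apply, hsw1]
      exact hv i
    · intro v hv i
      rw [isoL_coe, ← prodL_apply, hsw2]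
      exact hv i


end Cfsg.Agent.S2612
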