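import Cfsg.Statements.S2619
import Mathlib

set_option autoImplicit false
open Cfsg

namespace Cfsg.Agent.S2619

/-- Over a finite field of characteristic two, given an alternating bilinear form B on a finite-dimensional space, a basis (v_i) and scalars (λ_i), there is exactly one quadratic form whose polar form is B and whose value at each v_i is λ_i. -/
theorem result {F V ι : Type*} [Field F] [Finite F] [CharP F 2] [AddCommGroup V] [Module F V] [Fintype ι] (b : Module.Basis ι F V) (B : LinearMap.BilinForm F V) (hB : B.IsAlt) (c : ι → F) : ∃! Q : QuadraticForm F V, QuadraticMap.polarBilin Q = B ∧ ∀ i, Q (b i) = c i := by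
  classical
  have h2 : (2 : F) = 0 := by exact_mod_cast CharP.cast_eq_zero F 2
  have hneg : ∀ x : F, -x = x := by
    intro x
    have : x + x = 0 := by rw [← two_mul, h2, zero_mul]
    linear_combination -this
  let e := Fintype.equivFin ι
  let M : Matrix ι ι F := fun i j =>
    if i = j then c i else if (e i : ℕ) < (e j : ℕ) then B (b i) (b j) else 0
  let T : LinearMap.BilinForm F V := Matrix.toBilin b M
  have hT : ∀ i j, T (b i) (b j) = M i j := by
    intro i j
    have := LinearMap.BilinForm.toMatrix_toBilin b M
    have h3 := congrFun (congrFun this i) j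
    rw [LinearMap.BilinForm.toMatrix_apply] at h3
    exact h3
  let Q : QuadraticForm F V := LinearMap.BilinMap.toQuadraticMap T
  have hQ : ∀ v, Q v = T v v := fun v => rfl
  have hsymm : ∀ x y, B x y = B y x := by
    intro x y
    have h3 := hB.neg_eq x y
    rw [← h3, hneg]
  refine ⟨Q, ⟨?_, ?_⟩, ?_⟩
  · apply LinearMap.BilinForm.ext_basis b
    intro i j
    rw [QuadraticMap.polarBilin_apply_apply, LinearMap.BilinMap.polar_toQuadraticMap, hT, hT]
    simp only [M]
    by_cases hij : i = j
    · subst hij
      simp [← two_mul, h2, hB (b i)]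
    · have hji : j ≠ i := Ne.symm hij
      have hne : (e i : ℕ) ≠ (e j : ℕ) := fun h => hij (e.injective (Fin.ext h))
      rcases lt_or_gt_of_ne hne with hlt | hgt
      · simp [hij, hji, hlt, hlt.le.not_gt]
      · simp [hij, hji, hgt, hgt.le.not_gt, hsymm (b i) (b j)]
  · intro i
    rw [hQ, hT]
    simp [M]
  · rintro Q' ⟨hQ'B, hQ'c⟩
    have hpol : QuadraticMap.polarBilin Q' = QuadraticMap.polarBilin Q := by
      rw [hQ'B]
      apply LinearMap.BilinForm.ext_basis b
      intro i j
      rw [QuadraticMap.polarBilin_apply_apply, LinearMap.BilinMap.polar_toQuadraticMap, hT, hT]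
      simp only [M]
      by_cases hij : i = j
      · subst hij
        simp [← two_mul, h2, hB (b i)]
      · have hji : j ≠ i := Ne.symm hij
        have hne : (e i : ℕ) ≠ (e j : ℕ) := fun h => hij (e.injective (Fin.ext h))
        rcases lt_or_gt_of_ne hne with hlt | hgt
        · simp [hij, hji, hlt, hlt.le.not_gt]
        · simp [hij, hji, hgt, hgt.le.not_gt, hsymm (b i) (b j)]
    ext v
    have hv : v ∈ Submodule.span F (Set.range b) := by
      rw [b.span_eq]; trivial
    induction hv using Submodule.span_induction with
    | mem x hx =>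
      obtain ⟨i, rfl⟩ := hx
      rw [hQ'c, hQ, hT]
      simp [M]
    | zero => simp
    | add x y _ _ hx hy =>
      have h3 : Q' (x + y) = Q' x + Q' y + QuadraticMap.polarBilin Q' x y := by
        rw [QuadraticMap.polarBilin_apply_apply, QuadraticMap.polar]; ring
      have h4 : Q (x + y) = Q x + Q y + QuadraticMap.polarBilin Q x y := by
        rw [QuadraticMap.polarBilin_apply_apply, QuadraticMap.polar]; ring
      rw [h3, h4, hx, hy, hpol]
    | smul a x _ hx =>
      rw [QuadraticMap.map_smul, QuadraticMap.map_smul, hx]

end Cfsg.Agent.S2619
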