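import Cfsg.Statements.S2622
import Cfsg.Agent.Lib.Classical.SymForm
import Mathlib

set_option autoImplicit false
open Cfsg

namespace Cfsg.Agent.S2622

universe u v

open Cfsg.Agent.Lib.Classical.Sym in
/-- Key step: a vector of norm one whose perp is again not alternating. -/
lemma exists_step {F : Type u} {V : Type v} [Field F] [Finite F] [CharP F 2] [AddCommGroup V] [Module F V]
    [FiniteDimensional F V] (B : LinearMap.BilinForm F V) (hS : B.IsSymm) (hB : B.Nondegenerate)
    (hna : ∃ v : V, B v v ≠ 0) (hdim : 2 ≤ Module.finrank F V) :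
    ∃ u u' : V, B u u = 1 ∧ B u u' = 0 ∧ B u' u' ≠ 0 := by
  classical
  haveI := Fintype.ofFinite F
  have hsym : ∀ a b, B a b = B b a := fun a b => hS.eq a b
  have hchar : ringChar F = 2 := ringChar.eq F 2
  have h20 : (2 : F) = 0 := CharTwo.two_eq_zero
  obtain ⟨v₀, hv₀⟩ := hna
  obtain ⟨t, ht⟩ := FiniteField.isSquare_of_char_two hchar (B v₀ v₀)
  have ht0 : t ≠ 0 := by
    rintro rfl
    simp [ht] at hv₀
  obtain ⟨v, hv⟩ : ∃ v, B v v = 1 := ⟨t⁻¹ • v₀, by
    simp only [map_smul, LinearMap.smul_apply, smul_eq_mul, ht]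
    field_simp⟩
  obtain ⟨h1, h2⟩ := split_one B hS hB v (by rw [hv]; exact one_ne_zero)
  by_cases hW : ∃ w, B v w = 0 ∧ B w w ≠ 0
  · obtain ⟨w, hw, hww⟩ := hW
    exact ⟨v, w, hv, hw, hww⟩
  push Not at hW
  have hW0 : 0 < Module.finrank F (LinearMap.ker (B v)) := by omega
  haveI : Nontrivial (LinearMap.ker (B v)) := Module.nontrivial_of_finrank_pos (R := F) hW0
  obtain ⟨x, hx⟩ := exists_ne (0 : LinearMap.ker (B v))
  have hy : ∃ y : LinearMap.ker (B v), B x y ≠ 0 := by
    by_contra hcon
    push Not at hcon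
    exact hx (h2.1 x hcon)
  obtain ⟨y₀, hy₀⟩ := hy
  have hvx : B v x = 0 := x.2
  have hvy₀ : B v y₀ = 0 := y₀.2
  have hxx : B x x = 0 := hW x hvx
  have hy₀y₀ : B y₀ y₀ = 0 := hW y₀ hvy₀
  set c := (B x y₀)⁻¹ with hc
  have hc1 : c * B x y₀ = 1 := inv_mul_cancel₀ hy₀
  refine ⟨v + x, v + c • y₀, ?_, ?_, ?_⟩
  · simp only [map_add, LinearMap.add_apply, hv, hvx, hxx, hsym (x : V) v]
    simp
  · have h3 : B (v + x) (v + c • y₀) = B v v + c * B v y₀ + B x v + c * B x y₀ := by
      simp only [map_add, map_smul, LinearMap.add_apply, smul_eq_mul]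
      ring
    rw [h3, hv, hvy₀, hsym (x : V) v, hvx, hc1]
    linear_combination h20
  · simp only [map_add, map_smul, LinearMap.add_apply, LinearMap.smul_apply, smul_eq_mul, hv, hvy₀,
      hsym (y₀ : V) v, hy₀y₀]
    simp

open Cfsg.Agent.Lib.Classical.Sym in
theorem exists_onb {F : Type u} [Field F] [Finite F] [CharP F 2] (n : ℕ) : ∀ (V : Type v) [AddCommGroup V]
    [Module F V] [FiniteDimensional F V] (B : LinearMap.BilinForm F V) (_ : B.IsSymm)
    (_ : B.Nondegenerate) (_ : ∃ v : V, B v v ≠ 0) (_ : Module.finrank F V = n),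
    ∃ e : Fin n → V, ∀ i j, B (e i) (e j) = if i = j then 1 else 0 := by
  classical
  induction n with
  | zero =>
    intro V _ _ _ B _ _ hna hn
    exact ⟨Fin.elim0, fun i => i.elim0⟩
  | succ k ih =>
    intro V _ _ _ B hS hB hna hn
    haveI := Fintype.ofFinite F
    have hsym : ∀ a b, B a b = B b a := fun a b => hS.eq a b
    have hchar : ringChar F = 2 := ringChar.eq F 2
    rcases Nat.eq_zero_or_pos k with rfl | hk
    · obtain ⟨v₀, hv₀⟩ := hna
      obtain ⟨t, ht⟩ := FiniteField.isSquare_of_char_two hchar (B v₀ v₀)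
      have ht0 : t ≠ 0 := by
        rintro rfl
        simp [ht] at hv₀
      refine ⟨fun _ => t⁻¹ • v₀, ?_⟩
      intro i j
      have hij : i = j := by
        apply Fin.ext
        omega
      simp only [hij, if_true, map_smul, LinearMap.smul_apply, smul_eq_mul, ht]
      field_simp
    · obtain ⟨u, u', huu, huu', hu'⟩ := exists_step B hS hB hna (by omega)
      obtain ⟨h1, h2⟩ := split_one B hS hB u (by rw [huu]; exact one_ne_zero)
      obtain ⟨e', he'⟩ := ih _ (B.restrict (LinearMap.ker (B u))) (restrict_symm B hS _) h2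
        ⟨⟨u', huu'⟩, hu'⟩ (by omega)
      have h5 : ∀ i, B u (e' i) = 0 := fun i => (e' i).2
      refine ⟨Fin.cons u (fun i => (e' i : V)), ?_⟩
      intro i j
      refine Fin.cases ?_ (fun i => ?_) i <;> refine Fin.cases ?_ (fun j => ?_) j
      · simpa using huu
      · simpa [(Fin.succ_ne_zero j).symm] using h5 j
      · rw [hsym]
        simpa [Fin.succ_ne_zero] using h5 i
      · simpa using he' i j


/-- Over a finite field of characteristic two, a non-degenerate symmetric bilinear form that is not alternating (some vector v has B(v, v) ≠ 0) admits an orthonormal basis. -/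
theorem result {F V : Type*} [Field F] [Finite F] [CharP F 2] [AddCommGroup V] [Module F V] [FiniteDimensional F V] {n : ℕ} (hV : Module.finrank F V = n) (B : LinearMap.BilinForm F V) (hS : B.IsSymm) (hB : B.Nondegenerate) (hna : ∃ v : V, B v v ≠ 0) : ∃ b : Module.Basis (Fin n) F V, ∀ i j, B (b i) (b j) = if i = j then 1 else 0 := by
    classical
  obtain ⟨e, he⟩ := exists_onb n V B hS hB hna hV
  refine ⟨Cfsg.Agent.Lib.Classical.Sym.orthBasis B e (fun i j hij => by rw [he, if_neg hij])
    (fun i => by rw [he, if_pos rfl]; exact one_ne_zero) hV, ?_⟩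
  intro i j
  simp [he]

end Cfsg.Agent.S2622
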