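import Cfsg.Statements.S2623
import Cfsg.Agent.Lib.Known3.QuadStd
import Mathlib

set_option autoImplicit false
open Cfsg

namespace Cfsg.Agent.S2623

open Cfsg.Agent.Lib.Known3.QuadStd
open Cfsg.Agent.Lib.Classical.Witt (pol_self pol_comm Q_add Q_smul)

local notation "P" => QuadraticMap.polarBilin


/-- Over a finite field of odd order, two quadratic forms on F^n with non-degenerate polar forms are isometric (related by an invertible linear change of variables) if and only if their discriminants (determinants of the Gram matrices of their polar forms) lie in the same square class. -/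
theorem result {F : Type*} [Field F] [Fintype F] (h2 : (2 : F) ≠ 0) {n : ℕ} (Q₁ Q₂ : QuadraticForm F (Fin n → F)) (h₁ : (QuadraticMap.polarBilin Q₁).Nondegenerate) (h₂ : (QuadraticMap.polarBilin Q₂).Nondegenerate) : (∃ g : (Fin n → F) ≃ₗ[F] (Fin n → F), ∀ v, Q₂ (g v) = Q₁ v) ↔ IsSquare ((Matrix.of (fun i j : Fin n => QuadraticMap.polar ⇑Q₁ (Pi.single i 1) (Pi.single j 1))).det * (Matrix.of (fun i j : Fin n => QuadraticMap.polar ⇑Q₂ (Pi.single i 1) (Pi.single j 1))).det) := by
    classical
  have hG : ∀ Q : QuadraticForm F (Fin n → F), (Matrix.of (fun i j : Fin n => QuadraticMap.polar ⇑Q (Pi.single i 1) (Pi.single j 1))) =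
      LinearMap.BilinForm.toMatrix' (P Q) := by
    intro Q
    ext i j
    simp [LinearMap.BilinForm.toMatrix'_apply]
  rw [hG Q₁, hG Q₂]
  constructor
  · rintro ⟨g, hg⟩
    have hcomp : P Q₁ = LinearMap.BilinForm.comp (P Q₂) (g : (Fin n → F) →ₗ[F] (Fin n → F)) (g : (Fin n → F) →ₗ[F] (Fin n → F)) := by
      ext u w
      change QuadraticMap.polar (⇑Q₁) _ _ = QuadraticMap.polar (⇑Q₂) (g _) (g _)
      simp only [QuadraticMap.polar, ← map_add, hg]
    rw [hcomp, LinearMap.BilinForm.toMatrix'_comp, Matrix.det_mul, Matrix.det_mul, Matrix.det_transpose]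
    refine ⟨LinearMap.det (g : (Fin n → F) →ₗ[F] (Fin n → F)) * (LinearMap.BilinForm.toMatrix' (P Q₂)).det, ?_⟩
    rw [← LinearMap.det_toMatrix']
    ring
  · intro hsq
    rcases n with _ | k
    · exact ⟨LinearEquiv.refl _ _, fun v => by
        have : v = 0 := Subsingleton.elim _ _
        rw [this, map_zero, QuadraticMap.map_zero, QuadraticMap.map_zero]⟩
    have hchar : ringChar F ≠ 2 := by
      intro h
      apply h2
      have : CharP F 2 := by
        rw [← h]; exact ringChar.charP F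
      exact CharTwo.two_eq_zero
    obtain ⟨α, hα⟩ := FiniteField.exists_nonsquare (F := F) hchar
    have hS : ∀ Q : QuadraticForm F (Fin (k + 1) → F), LinearMap.BilinForm.IsSymm (P Q) :=
      fun Q => ⟨fun a b => pol_comm Q a b⟩
    have hdim : Module.finrank F (Fin (k + 1) → F) = k + 1 := by simp
    obtain ⟨e₁, h11, h12, h13⟩ := Cfsg.Agent.Lib.Classical.Sym.exists_normal_family h2 α hα k _ (P Q₁) (hS Q₁) h₁ hdim
    obtain ⟨e₂, h21, h22, h23⟩ := Cfsg.Agent.Lib.Classical.Sym.exists_normal_family h2 α hα k _ (P Q₂) (hS Q₂) h₂ hdim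
    have hne : ∀ (Q : QuadraticForm F (Fin (k + 1) → F)) (e : Fin (k + 1) → (Fin (k + 1) → F)),
        (∀ i, i ≠ Fin.last k → P Q (e i) (e i) = 1) →
        (P Q (e (Fin.last k)) (e (Fin.last k)) = 1 ∨ P Q (e (Fin.last k)) (e (Fin.last k)) = α) →
        ∀ i, P Q (e i) (e i) ≠ 0 := by
      intro Q e h1 h3 i
      have hα0 : α ≠ 0 := by
        rintro rfl
        exact hα IsSquare.zero
      by_cases hi : i = Fin.last k
      · subst hi
        rcases h3 with h | h <;> rw [h]
        · exact one_ne_zero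
        · exact hα0
      · rw [h1 i hi]; exact one_ne_zero
    -- the determinant in terms of the last norm
    have hdet : ∀ (Q : QuadraticForm F (Fin (k + 1) → F)) (e : Fin (k + 1) → (Fin (k + 1) → F))
        (h1 : ∀ i j, i ≠ j → P Q (e i) (e j) = 0) (_ : ∀ i, i ≠ Fin.last k → P Q (e i) (e i) = 1)
        (h3 : ∀ i, P Q (e i) (e i) ≠ 0),
        ∃ d : F, d ≠ 0 ∧ (LinearMap.BilinForm.toMatrix' (P Q)).det = d * d * P Q (e (Fin.last k)) (e (Fin.last k)) := by
      intro Q e h1 h4 h3
      let b := Cfsg.Agent.Lib.Classical.Sym.orthBasis (P Q) e h1 h3 hdim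
      have hb : ∀ i, b i = e i := fun i => Cfsg.Agent.Lib.Classical.Sym.orthBasis_apply (P Q) e h1 h3 hdim i
      have hG' : LinearMap.BilinForm.toMatrix b (P Q) = Matrix.diagonal (fun i => P Q (e i) (e i)) := by
        ext i j
        rw [LinearMap.BilinForm.toMatrix_apply]
        by_cases hij : i = j
        · subst hij; simp [hb]
        · simp [hb, hij, h1 i j hij]
      have h5 := LinearMap.BilinForm.toMatrix_mul_basis_toMatrix b (Pi.basisFun F (Fin (k + 1))) (P Q)
      have hstd : LinearMap.BilinForm.toMatrix (Pi.basisFun F (Fin (k + 1))) (P Q) = LinearMap.BilinForm.toMatrix' (P Q) := by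
        ext i j
        simp [LinearMap.BilinForm.toMatrix_apply, LinearMap.BilinForm.toMatrix'_apply]
      rw [hstd] at h5
      have h6 := congrArg Matrix.det h5
      rw [Matrix.det_mul, Matrix.det_mul, Matrix.det_transpose, hG', Matrix.det_diagonal] at h6
      have hprod : ∏ i, P Q (e i) (e i) = P Q (e (Fin.last k)) (e (Fin.last k)) := by
        apply Finset.prod_eq_single
        · intro i _ hi
          exact h4 i hi
        · simp
      rw [hprod] at h6
      have hM : (b.toMatrix (Pi.basisFun F (Fin (k + 1)))).det ≠ 0 := by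
        have := (b.isUnit_det (Pi.basisFun F (Fin (k + 1))))
        intro h0
        rw [Module.Basis.det_apply] at this
        exact this.ne_zero h0
      exact ⟨_, hM, by rw [← h6]; ring⟩
    obtain ⟨d₁, hd₁, hD₁⟩ := hdet Q₁ e₁ h11 h12 (hne Q₁ e₁ h12 h13)
    obtain ⟨d₂, hd₂, hD₂⟩ := hdet Q₂ e₂ h21 h22 (hne Q₂ e₂ h22 h23)
    rw [hD₁, hD₂] at hsq
    -- the last norms agree
    have hlast : P Q₁ (e₁ (Fin.last k)) (e₁ (Fin.last k)) = P Q₂ (e₂ (Fin.last k)) (e₂ (Fin.last k)) := by
      have hnon : ∀ t : F, ¬ IsSquare (d₁ * d₁ * 1 * (d₂ * d₂ * α)) := by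
        intro _ h
        obtain ⟨w, hw⟩ := h
        apply hα
        refine ⟨w / (d₁ * d₂), ?_⟩
        field_simp
        linear_combination hw
      have hnon' : ¬ IsSquare (d₁ * d₁ * α * (d₂ * d₂ * 1)) := by
        intro h
        obtain ⟨w, hw⟩ := h
        apply hα
        refine ⟨w / (d₁ * d₂), ?_⟩
        field_simp
        linear_combination hw
      rcases h13 with h | h <;> rcases h23 with h' | h' <;> rw [h, h']
      · rw [h, h'] at hsq
        exact absurd hsq (hnon 0)
      · rw [h, h'] at hsq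
        exact absurd hsq hnon'
    have hnorm : ∀ i, P Q₁ (e₁ i) (e₁ i) = P Q₂ (e₂ i) (e₂ i) := by
      intro i
      by_cases hi : i = Fin.last k
      · subst hi; exact hlast
      · rw [h12 i hi, h22 i hi]
    let b₁ := Cfsg.Agent.Lib.Classical.Sym.orthBasis (P Q₁) e₁ h11 (hne Q₁ e₁ h12 h13) hdim
    let b₂ := Cfsg.Agent.Lib.Classical.Sym.orthBasis (P Q₂) e₂ h21 (hne Q₂ e₂ h22 h23) hdim
    have hb₁ : ∀ i, b₁ i = e₁ i := fun i => Cfsg.Agent.Lib.Classical.Sym.orthBasis_apply (P Q₁) e₁ h11 _ hdim i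
    have hb₂ : ∀ i, b₂ i = e₂ i := fun i => Cfsg.Agent.Lib.Classical.Sym.orthBasis_apply (P Q₂) e₂ h21 _ hdim i
    let g : (Fin (k + 1) → F) ≃ₗ[F] (Fin (k + 1) → F) := b₁.equiv b₂ (Equiv.refl _)
    have hg : ∀ i, g (e₁ i) = e₂ i := by
      intro i
      rw [← hb₁ i, ← hb₂ i]
      simp [g, Module.Basis.equiv_apply]
    refine ⟨g, ?_⟩
    have := ext_on_basis b₁ (Q₂.comp (g : (Fin (k + 1) → F) →ₗ[F] (Fin (k + 1) → F))) Q₁ ?_ ?_
    · intro v
      simpa using this v
    · intro i
      rw [hb₁]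
      simp only [QuadraticMap.comp_apply, LinearEquiv.coe_coe, hg]
      have h3 := hnorm i
      rw [pol_self, pol_self] at h3
      exact (mul_left_cancel₀ h2 h3).symm
    · intro i j
      rw [hb₁, hb₁]
      have h3 : P (Q₂.comp (g : (Fin (k + 1) → F) →ₗ[F] (Fin (k + 1) → F))) (e₁ i) (e₁ j) = P Q₂ (g (e₁ i)) (g (e₁ j)) := by
        change QuadraticMap.polar _ _ _ = QuadraticMap.polar _ _ _
        simp [QuadraticMap.polar, map_add]
      rw [h3, hg, hg]
      by_cases hij : i = j
      · subst hij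
        exact (hnorm i).symm
      · rw [h11 i j hij, h21 i j hij]

end Cfsg.Agent.S2623
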