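import Cfsg.Statements.S2624
import Cfsg.Agent.Lib.Known3.QuadStd
import Mathlib

set_option autoImplicit false
open Cfsg

namespace Cfsg.Agent.S2624

open Cfsg.Agent.Lib.Known3.QuadStd
open Cfsg.Agent.Lib.Classical.Witt (pol_self pol_comm Q_add Q_smul)

local notation "P" => QuadraticMap.polarBilin


/-- For a quadratic form Q on F^n with non-degenerate polar form, F finite and n ≥ 2 even, every non-zero scalar c is the multiplier of some similarity: there is an invertible linear map g with Q(g v) = c·Q(v) for all v. -/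
theorem result {F : Type*} [Field F] [Fintype F] {n : ℕ} (hn : 2 ≤ n) (he : Even n) (Q : QuadraticForm F (Fin n → F)) (hQ : (QuadraticMap.polarBilin Q).Nondegenerate) (c : F) (hc : c ≠ 0) : ∃ g : (Fin n → F) ≃ₗ[F] (Fin n → F), ∀ v, Q (g v) = c * Q v := by
    classical
  obtain ⟨m, rfl⟩ := he
  have hV : Module.finrank F (Fin (m + m) → F) = 2 * m := by simp; omega
  have hm : 1 ≤ m := by omega
  suffices h : ∃ g : (Fin (m + m) → F) →ₗ[F] (Fin (m + m) → F), ∀ v, Q (g v) = c * Q v by
    obtain ⟨g, hg⟩ := h
    have hpol : ∀ u w, P Q (g u) (g w) = c * P Q u w := by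
      intro u w
      have h1 := Q_add Q (g u) (g w)
      rw [← map_add, hg, hg, hg, Q_add] at h1
      linear_combination -h1
    have hinj : Function.Injective g := by
      rw [← LinearMap.ker_eq_bot, LinearMap.ker_eq_bot']
      intro u hu
      apply hQ.1 u
      intro w
      have h1 := hpol u w
      rw [hu] at h1
      simp only [map_zero, LinearMap.zero_apply] at h1
      exact (mul_eq_zero.1 h1.symm).resolve_left hc
    exact ⟨LinearEquiv.ofInjectiveEndo g hinj, fun v => by simpa using hg v⟩
  have hform : ∀ (g : (Fin (m + m) → F) →ₗ[F] (Fin (m + m) → F)) {ι : Type} (b : Module.Basis ι F (Fin (m + m) → F)),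
      (∀ i, Q (g (b i)) = c * Q (b i)) → (∀ i j, P Q (g (b i)) (g (b j)) = c * P Q (b i) (b j)) →
      ∀ v, Q (g v) = c * Q v := by
    intro g ι b h1 h2 v
    have := ext_on_basis b (Q.comp g) (c • Q) (by
      intro i
      simpa using h1 i) (by
      intro i j
      have h3 := h2 i j
      change QuadraticMap.polar (⇑(Q.comp g)) _ _ = QuadraticMap.polar (⇑(c • Q)) _ _
      change QuadraticMap.polar (⇑Q) _ _ = c * QuadraticMap.polar (⇑Q) _ _ at h3
      simp only [QuadraticMap.polar, QuadraticMap.comp_apply, map_add, QuadraticMap.smul_apply, smul_eq_mul] at h3 ⊢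
      linear_combination h3) v
    simpa using this
  rcases std_even hm hV Q hQ with ⟨b, h1, h2, h3⟩ | ⟨b, ζ, hζ, h1, h2, h3, h4, hx, hxy, hy⟩
  · let g := b.constr F (Sum.elim (fun i => c • b (Sum.inl i)) (fun i => b (Sum.inr i)))
    have hg1 : ∀ i, g (b (Sum.inl i)) = c • b (Sum.inl i) := fun i => by simp [g, Module.Basis.constr_basis]
    have hg2 : ∀ i, g (b (Sum.inr i)) = b (Sum.inr i) := fun i => by simp [g, Module.Basis.constr_basis]
    refine ⟨g, hform g b ?_ ?_⟩
    · rintro (i | i)
      · rw [hg1, Q_smul, (h1 i).1]; simp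
      · rw [hg2, (h1 i).2]; simp
    · rintro (i | i) (j | j)
      · simp only [hg1, map_smul, LinearMap.smul_apply, smul_eq_mul, (h3 i j).1, mul_zero]
      · simp only [hg1, hg2, map_smul, LinearMap.smul_apply, smul_eq_mul]
      · simp only [hg1, hg2, map_smul, smul_eq_mul]
      · simp only [hg2, (h3 i j).2, mul_zero]
  · obtain ⟨r, s, hrs⟩ : ∃ r s : F, r * r + r * s + ζ * (s * s) = c := by
      obtain ⟨a, b, z, hne, hz⟩ := exists_ternary_zero 1 ζ (-c) 1 0 0
      have hz0 : z ≠ 0 := by
        rintro rfl
        have hb : b = 0 := by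
          by_contra hb
          apply hζ (a / b)
          field_simp
          linear_combination hz
        subst hb
        have ha : a = 0 := by
          have : a * a = 0 := by linear_combination hz
          simpa using this
        exact hne ⟨ha, rfl, rfl⟩
      refine ⟨a / z, b / z, ?_⟩
      field_simp
      linear_combination hz
    set x := b (Sum.inr 0) with hxdef
    set y := b (Sum.inr 1) with hydef
    let g := b.constr F (Sum.elim (Sum.elim (fun i => c • b (Sum.inl (Sum.inl i)))
      (fun i => b (Sum.inl (Sum.inr i)))) ![r • x + s • y, (-(ζ * s)) • x + (r + s) • y])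
    have hg1 : ∀ i, g (b (Sum.inl (Sum.inl i))) = c • b (Sum.inl (Sum.inl i)) := fun i => by
      simp [g, Module.Basis.constr_basis]
    have hg2 : ∀ i, g (b (Sum.inl (Sum.inr i))) = b (Sum.inl (Sum.inr i)) := fun i => by
      simp [g, Module.Basis.constr_basis]
    have hg3 : g x = r • x + s • y := by
      simp [g, Module.Basis.constr_basis, hxdef]
    have hg4 : g y = (-(ζ * s)) • x + (r + s) • y := by
      simp [g, Module.Basis.constr_basis, hydef]
    have hk : ∀ k : Fin 2, b (Sum.inr k) = x ∨ b (Sum.inr k) = y := by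
      intro k
      fin_cases k
      · exact Or.inl rfl
      · exact Or.inr rfl
    have hxx : P Q x x = 2 := by rw [pol_self, hx]; ring
    have hyy : P Q y y = 2 * ζ := by rw [pol_self, hy]
    have hyx : P Q y x = 1 := by rw [pol_comm, hxy]
    -- orthogonality of the hyperbolic part to the plane
    have h5 : ∀ i, P Q (b (Sum.inl (Sum.inl i))) x = 0 ∧ P Q (b (Sum.inl (Sum.inl i))) y = 0 :=
      fun i => ⟨(h4 i 0).1, (h4 i 1).1⟩
    have h6 : ∀ i, P Q (b (Sum.inl (Sum.inr i))) x = 0 ∧ P Q (b (Sum.inl (Sum.inr i))) y = 0 :=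
      fun i => ⟨(h4 i 0).2, (h4 i 1).2⟩
    have hplane : ∀ (z : Fin (m + m) → F) (a a' : F), (P Q z x = 0 ∧ P Q z y = 0) →
        P Q z (a • x + a' • y) = 0 := by
      intro z a a' hz
      rw [map_add, map_smul, map_smul, hz.1, hz.2]; simp
    have hk01 : ∀ k : Fin 2, k = 0 ∨ k = 1 := by
      intro k
      fin_cases k
      · exact Or.inl rfl
      · exact Or.inr rfl
    have hall : ∀ i j, P Q (g (b i)) (g (b j)) = c * P Q (b i) (b j) := by
      have hL : ∀ (i : Fin (m - 1) ⊕ Fin (m - 1)) (k : Fin 2),
          P Q (g (b (Sum.inl i))) (g (b (Sum.inr k))) = c * P Q (b (Sum.inl i)) (b (Sum.inr k)) := by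
        have hg0 : ∀ k : Fin 2, ∃ a a' : F, g (b (Sum.inr k)) = a • x + a' • y := by
          intro k
          rcases hk01 k with rfl | rfl
          · exact ⟨r, s, hg3⟩
          · exact ⟨_, _, hg4⟩
        rintro (i | i) k
        · obtain ⟨a, a', h⟩ := hg0 k
          rw [h, hg1, map_smul, LinearMap.smul_apply, hplane _ a a' (h5 i), (h4 i k).1]; simp
        · obtain ⟨a, a', h⟩ := hg0 k
          rw [h, hg2, hplane _ a a' (h6 i), (h4 i k).2]; simp
      rintro ((i | i) | k) ((j | j) | l)
      · simp only [hg1, map_smul, LinearMap.smul_apply, smul_eq_mul, (h3 i j).1, mul_zero]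
      · simp only [hg1, hg2, map_smul, LinearMap.smul_apply, smul_eq_mul]
      · exact hL (Sum.inl i) l
      · simp only [hg1, hg2, map_smul, smul_eq_mul]
      · simp only [hg2, (h3 i j).2, mul_zero]
      · exact hL (Sum.inr i) l
      · rw [pol_comm, hL (Sum.inl j) k, pol_comm]
      · rw [pol_comm, hL (Sum.inr j) k, pol_comm]
      · have hform2 : ∀ a a' d d' : F, P Q (a • x + a' • y) (d • x + d' • y) =
            a * d * 2 + (a * d' + a' * d) + a' * d' * (2 * ζ) := by
          intro a a' d d'
          simp only [map_add, map_smul, LinearMap.add_apply, LinearMap.smul_apply, smul_eq_mul,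
            hxx, hyy, hxy, hyx]
          ring
        rcases hk01 k with rfl | rfl <;> rcases hk01 l with rfl | rfl
        · change P Q (g x) (g x) = c * P Q x x
          rw [hg3, hform2, hxx]
          linear_combination 2 * hrs
        · change P Q (g x) (g y) = c * P Q x y
          rw [hg3, hg4, hform2, hxy]
          linear_combination hrs
        · change P Q (g y) (g x) = c * P Q y x
          rw [hg3, hg4, hform2, hyx]
          linear_combination hrs
        · change P Q (g y) (g y) = c * P Q y y
          rw [hg4, hform2, hyy]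
          linear_combination 2 * ζ * hrs
    refine ⟨g, hform g b ?_ hall⟩
    rintro ((i | i) | k)
    · rw [hg1, Q_smul, (h1 i).1]; simp
    · rw [hg2, (h1 i).2]; simp
    · rcases hk01 k with rfl | rfl
      · change Q (g x) = c * Q x
        rw [hg3, Q_ab, hx, hy, hxy]
        linear_combination hrs
      · change Q (g y) = c * Q y
        rw [hg4, Q_ab, hx, hy, hxy]
        linear_combination ζ * hrs

end Cfsg.Agent.S2624
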