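import Cfsg.Statements.S2625
import Mathlib

set_option autoImplicit false
open Cfsg

namespace Cfsg.Agent.S2625

/-- For a quadratic form Q on F^n with non-degenerate polar form, F finite and n odd (so |F| is odd), the multiplier of any similarity is a square: if g is an invertible linear map with Q(g v) = c·Q(v) for all v then c is a square. -/
theorem result {F : Type*} [Field F] [Fintype F] {n : ℕ} (hn : Odd n) (Q : QuadraticForm F (Fin n → F)) (hQ : (QuadraticMap.polarBilin Q).Nondegenerate) (g : (Fin n → F) ≃ₗ[F] (Fin n → F)) (c : F) (hg : ∀ v, Q (g v) = c * Q v) : IsSquare c := by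
  classical
  set B := QuadraticMap.polarBilin Q with hB
  have hcomp : LinearMap.BilinForm.comp B (g : (Fin n → F) →ₗ[F] (Fin n → F)) (g : (Fin n → F) →ₗ[F] (Fin n → F)) = c • B := by
    refine LinearMap.ext fun u => LinearMap.ext fun v => ?_
    simp only [LinearMap.BilinForm.comp_apply, LinearEquiv.coe_coe, LinearMap.smul_apply, hB,
      QuadraticMap.polarBilin_apply_apply, QuadraticMap.polar, ← map_add, hg, smul_eq_mul]
    ring
  have hdetB : (LinearMap.BilinForm.toMatrix' B).det ≠ 0 := by
    have h1 := (LinearMap.BilinForm.nondegenerate_toMatrix'_iff (B := B)).2 hQ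
    exact (Matrix.nondegenerate_iff_det_ne_zero).1 h1
  have hmat := congrArg LinearMap.BilinForm.toMatrix' hcomp
  rw [LinearMap.BilinForm.toMatrix'_comp, map_smul] at hmat
  have hdet := congrArg Matrix.det hmat
  simp only [Matrix.det_mul, Matrix.det_transpose, Matrix.det_smul, Fintype.card_fin] at hdet
  have hc : (LinearMap.toMatrix' (g : (Fin n → F) →ₗ[F] (Fin n → F))).det *
      (LinearMap.toMatrix' (g : (Fin n → F) →ₗ[F] (Fin n → F))).det = c ^ n := by
    have : (LinearMap.toMatrix' (g : (Fin n → F) →ₗ[F] (Fin n → F))).det *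
      (LinearMap.toMatrix' (g : (Fin n → F) →ₗ[F] (Fin n → F))).det * (LinearMap.BilinForm.toMatrix' B).det = c ^ n * (LinearMap.BilinForm.toMatrix' B).det := by
      rw [← hdet]; ring
    exact mul_right_cancel₀ hdetB this
  set d := (LinearMap.toMatrix' (g : (Fin n → F) →ₗ[F] (Fin n → F))).det with hd
  obtain ⟨k, hk⟩ := hn
  by_cases hc0 : c = 0
  · rw [hc0]; exact IsSquare.zero
  refine ⟨d / c ^ k, ?_⟩
  have hck : c ^ k ≠ 0 := pow_ne_zero _ hc0
  rw [hk] at hc
  field_simp
  have h2 : d ^ 2 = c ^ (2 * k + 1) := by rw [pow_two, hc]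
  rw [h2]
  ring

end Cfsg.Agent.S2625
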