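import Cfsg.Statements.S2627
import Mathlib
import Cfsg.Agent.Lib.Known3.OmegaSum

set_option autoImplicit false
open Cfsg

namespace Cfsg.Agent.S2627

/-- For an orthogonal direct sum Q = Q₁ ⊕ Q₂ of quadratic forms with non-degenerate polar forms over a finite field, an isometry g₁ of Q₁ extended by the identity on the second summand lies in Ω(Q) (the commutator subgroup of the orthogonal group of Q) if and only if g₁ lies in Ω(Q₁). (Excluded: the field of two elements when the first summand or the whole space has dimension 4, where the commutator subgroup of O⁺₄(2) is smaller than the group usually called Ω.) -/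
theorem result {F : Type*} [Field F] [Fintype F] {k l : ℕ} (h : Fintype.card F ≠ 2 ∨ (k ≠ 4 ∧ k + l ≠ 4)) (Q₁ : QuadraticForm F (Fin k → F)) (Q₂ : QuadraticForm F (Fin l → F)) (h₁ : (QuadraticMap.polarBilin Q₁).Nondegenerate) (h₂ : (QuadraticMap.polarBilin Q₂).Nondegenerate) (g₁ : ↥(Cfsg.isometryGroup F ⇑Q₁)) : (∃ g : ↥(Cfsg.isometryGroup F (fun v : Fin k ⊕ Fin l → F => Q₁ (v ∘ Sum.inl) + Q₂ (v ∘ Sum.inr))), g ∈ Cfsg.Omega F (fun v : Fin k ⊕ Fin l → F => Q₁ (v ∘ Sum.inl) + Q₂ (v ∘ Sum.inr)) ∧ ((g : Matrix.GeneralLinearGroup (Fin k ⊕ Fin l) F) : Matrix (Fin k ⊕ Fin l) (Fin k ⊕ Fin l) F) = Matrix.fromBlocks ((g₁ : Matrix.GeneralLinearGroup (Fin k) F) : Matrix (Fin k) (Fin k) F) 0 0 1) ↔ g₁ ∈ Cfsg.Omega F ⇑Q₁ := by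
  open Cfsg.Agent.Lib.Known3.OmegaSum Cfsg.Agent.Lib.Known3.OmegaCalc Cfsg.Agent.Lib.Classical.Abs
    Cfsg.Agent.Lib.Known3.Spinor Cfsg.Agent.Lib.Classical.Orth Cfsg.Agent.Lib.Classical.Witt Cfsg.Agent.Lib.Classical in
  rw [coe_sumQ]
  have hk : Fintype.card F ≠ 2 ∨ Module.finrank F (Fin k → F) ≠ 4 := by
    rcases h with h | h
    · exact Or.inl h
    · right
      simpa using h.1
  have hkl : Fintype.card F ≠ 2 ∨ Module.finrank F (Fin k ⊕ Fin l → F) ≠ 4 := by
    rcases h with h | h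
    · exact Or.inl h
    · right
      simpa using h.2
  have hn := sumQ_nondeg h₁ h₂
  obtain ⟨L, hL⟩ := exists_prodL h₁ hk (toOG Q₁ g₁)
  have hM : Matrix.fromBlocks ((g₁ : Matrix.GeneralLinearGroup (Fin k) F) : Matrix (Fin k) (Fin k) F) 0 0 1 =
      mL (sumQ Q₁ Q₂) (L.map (inlNS Q₂)) := by
    apply Matrix.mulVec_injective
    funext x
    rw [← prodL_apply, prodL_inl_apply, ← hL, Matrix.fromBlocks_mulVec, toOG_apply]
    simp
  rw [exists_Omega_iff _ _ _ hM, mem_Omega_iff Q₁ g₁, hL]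
  by_cases h2 : (2 : F) = 0
  · rw [mem_comm_even h2 hn hkl, mem_comm_even h2 h₁ hk, List.length_map]
  · rw [mem_comm_odd h2 hn, mem_comm_odd h2 h₁, List.length_map, map_inl_prod]


end Cfsg.Agent.S2627
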