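import Cfsg.Statements.S2628
import Mathlib
import Cfsg.Agent.Lib.Known3.OmegaSum
open scoped commutatorElement

set_option autoImplicit false
open Cfsg

namespace Cfsg.Agent.S2628

/-- For the orthogonal direct sum Q ⊕ Q of two copies of a quadratic form Q with non-degenerate polar form on F^k (F finite), every isometry g of Q acting diagonally, diag(g, g), lies in Ω(Q ⊕ Q), the commutator subgroup of the orthogonal group of Q ⊕ Q. (Excluded: k = 2 over the field of two elements, where Q ⊕ Q is the hyperbolic 4-space whose orthogonal group's commutator subgroup is smaller than the group usually called Ω.) -/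
theorem result {F : Type*} [Field F] [Fintype F] {k : ℕ} (h : Fintype.card F ≠ 2 ∨ k ≠ 2) (Q : QuadraticForm F (Fin k → F)) (hQ : (QuadraticMap.polarBilin Q).Nondegenerate) (g : ↥(Cfsg.isometryGroup F ⇑Q)) : ∃ x : ↥(Cfsg.isometryGroup F (fun v : Fin k ⊕ Fin k → F => Q (v ∘ Sum.inl) + Q (v ∘ Sum.inr))), x ∈ Cfsg.Omega F (fun v : Fin k ⊕ Fin k → F => Q (v ∘ Sum.inl) + Q (v ∘ Sum.inr)) ∧ ((x : Matrix.GeneralLinearGroup (Fin k ⊕ Fin k) F) : Matrix (Fin k ⊕ Fin k) (Fin k ⊕ Fin k) F) = Matrix.fromBlocks ((g : Matrix.GeneralLinearGroup (Fin k) F) : Matrix (Fin k) (Fin k) F) 0 0 ((g : Matrix.GeneralLinearGroup (Fin k) F) : Matrix (Fin k) (Fin k) F) := by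
  open Cfsg.Agent.Lib.Known3.OmegaSum Cfsg.Agent.Lib.Known3.OmegaCalc Cfsg.Agent.Lib.Classical.Abs
    Cfsg.Agent.Lib.Known3.Spinor Cfsg.Agent.Lib.Classical.Orth Cfsg.Agent.Lib.Classical.Witt Cfsg.Agent.Lib.Classical in
  rw [coe_sumQ]
  have hn := sumQ_nondeg hQ hQ
  have hkk : Fintype.card F ≠ 2 ∨ Module.finrank F (Fin k ⊕ Fin k → F) ≠ 4 := by
    rcases h with h | h
    · exact Or.inl h
    · right
      simp
      omega
  set Mg : Matrix (Fin k) (Fin k) F := ((g : Matrix.GeneralLinearGroup (Fin k) F) : Matrix (Fin k) (Fin k) F) with hMg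
  have hgpres : ∀ v, Q (Mg.mulVec v) = Q v := (mem_isometryGroup_iff _ _).1 g.2
  have hginv1 : Mg * ((g⁻¹ : Cfsg.isometryGroup F ⇑Q) : Matrix.GeneralLinearGroup (Fin k) F).1 = 1 := by
    have := congrArg (fun t : Cfsg.isometryGroup F ⇑Q => ((t : Matrix.GeneralLinearGroup (Fin k) F) : Matrix (Fin k) (Fin k) F)) (mul_inv_cancel g)
    exact this
  have hginv2 : ((g⁻¹ : Cfsg.isometryGroup F ⇑Q) : Matrix.GeneralLinearGroup (Fin k) F).1 * Mg = 1 := by
    have := congrArg (fun t : Cfsg.isometryGroup F ⇑Q => ((t : Matrix.GeneralLinearGroup (Fin k) F) : Matrix (Fin k) (Fin k) F)) (inv_mul_cancel g)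
    exact this
  let x : Cfsg.isometryGroup F ⇑(sumQ Q Q) := mkIso _ (Matrix.fromBlocks Mg 0 0 1)
    (Matrix.fromBlocks ((g⁻¹ : Cfsg.isometryGroup F ⇑Q) : Matrix.GeneralLinearGroup (Fin k) F).1 0 0 1)
    (by rw [Matrix.fromBlocks_multiply, hginv1]; simp) (by rw [Matrix.fromBlocks_multiply, hginv2]; simp) (by
      intro v
      rw [sumQ_apply, sumQ_apply, Matrix.fromBlocks_mulVec]
      simp only [Matrix.zero_mulVec, add_zero, zero_add, Matrix.one_mulVec, Function.comp_def, Sum.elim_inl, Sum.elim_inr]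
      rw [hgpres])
  let s : Cfsg.isometryGroup F ⇑(sumQ Q Q) := mkIso _ (Matrix.fromBlocks 0 1 1 0) (Matrix.fromBlocks 0 1 1 0)
    (by rw [Matrix.fromBlocks_multiply]; simp) (by rw [Matrix.fromBlocks_multiply]; simp) (by
      intro v
      rw [sumQ_apply, sumQ_apply, Matrix.fromBlocks_mulVec]
      simp only [Matrix.zero_mulVec, add_zero, zero_add, Matrix.one_mulVec, Function.comp_def, Sum.elim_inl, Sum.elim_inr]
      rw [add_comm])
  refine ⟨x * (s * x * s⁻¹), ?_, ?_⟩
  · have h1 : x * (s * x * s⁻¹) = (x * x) * ⁅x⁻¹, s⁆ := by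
      rw [commutatorElement_def]
      group
    rw [h1]
    refine mul_mem ?_ (Subgroup.commutator_mem_commutator (Subgroup.mem_top _) (Subgroup.mem_top _))
    rw [mem_Omega_iff, map_mul]
    exact sq_mem hn hkk _
  · change Matrix.fromBlocks Mg 0 0 1 * (Matrix.fromBlocks 0 1 1 0 * Matrix.fromBlocks Mg 0 0 1 * Matrix.fromBlocks 0 1 1 0) = _
    simp [Matrix.fromBlocks_multiply]


end Cfsg.Agent.S2628
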