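import Cfsg.Statements.S2629
import Mathlib
import Cfsg.Agent.Lib.Known3.OmegaTrans

set_option autoImplicit false
open Cfsg

namespace Cfsg.Agent.S2629

/-- For the hyperbolic form Σ x_i y_i on F^(2m) over a finite field of odd order (m ≥ 1), an isometry g preserves the class of the maximal totally singular subspace U₀ = {y = 0} (that is, m − dim(U₀ ∩ gU₀) is even) if and only if det g = 1: the stabiliser of each of the two classes of maximal totally singular subspaces is SO. -/
theorem result {F : Type*} [Field F] [Fintype F] (h2 : (2 : F) ≠ 0) {m : ℕ} (hm : 1 ≤ m) (g : ↥(Cfsg.isometryGroup F (Cfsg.quadFormPlus m F))) : Even (m - Module.finrank F ↥(LinearMap.ker (LinearMap.funLeft F F (Sum.inr : Fin m → Fin m ⊕ Fin m)) ⊓ (LinearMap.ker (LinearMap.funLeft F F (Sum.inr : Fin m → Fin m ⊕ Fin m))).map (Matrix.mulVecLin ((g : Matrix.GeneralLinearGroup (Fin m ⊕ Fin m) F) : Matrix (Fin m ⊕ Fin m) (Fin m ⊕ Fin m) F)))) ↔ ((g : Matrix.GeneralLinearGroup (Fin m ⊕ Fin m) F) : Matrix (Fin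 m ⊕ Fin m) (Fin m ⊕ Fin m) F).det = 1 := by
  open Cfsg.Agent.Lib.Known3.OmegaTrans Cfsg.Agent.Lib.Known3.OmegaSum Cfsg.Agent.Lib.Known3.OmegaCalc Cfsg.Agent.Lib.Classical.Abs
    Cfsg.Agent.Lib.Known3.Spinor Cfsg.Agent.Lib.Classical.Orth Cfsg.Agent.Lib.Classical.Witt Cfsg.Agent.Lib.Classical in
  revert g
  rw [← coe_Qplus m]
  intro g
  obtain ⟨L, hL, h1⟩ := U0_parity (F' := F) (m := m) (by
    left
    intro h3
    apply h2
    have : ringChar F = 2 := by
      have h4 := FiniteField.card F (ringChar F)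
      obtain ⟨n, hp, hn⟩ := h4
      rw [h3] at hn
      have hp' : (ringChar F) ∣ 2 := by
        rw [hn]
        exact dvd_pow_self _ n.ne_zero
      exact (Nat.prime_dvd_prime_iff_eq hp Nat.prime_two).1 hp'
    have h5 := ringChar.Nat.cast_ringChar (R := F)
    rw [this] at h5
    exact_mod_cast h5) g
  rw [h1]
  have hcoe : ((g : Matrix.GeneralLinearGroup (Fin m ⊕ Fin m) F) : Matrix (Fin m ⊕ Fin m) (Fin m ⊕ Fin m) F) = mL _ L := by
    have : g = isoL _ L := by
      apply (toOG _).injective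
      rw [hL, toOG_isoL]
    rw [this, isoL_coe]
  rw [hcoe, det_mL]
  have hne : (-1 : F) ≠ 1 := by
    intro h3
    apply h2
    linear_combination -h3
  exact (neg_one_pow_eq_one_iff_even hne).symm


end Cfsg.Agent.S2629
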