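import Cfsg.Statements.S2630
import Mathlib
import Cfsg.Agent.Lib.Known3.OmegaTrans

set_option autoImplicit false
open Cfsg

namespace Cfsg.Agent.S2630

/-- For the hyperbolic form Σ x_i y_i on F^(2m) over a finite field of characteristic two (m ≥ 1, excluding m = 2 over the field of two elements), an isometry g preserves the class of the maximal totally singular subspace U₀ = {y = 0} (m − dim(U₀ ∩ gU₀) even) if and only if g lies in Ω (the commutator subgroup of the orthogonal group): the stabiliser of each class is Ω. -/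
theorem result {F : Type*} [Field F] [Fintype F] [CharP F 2] {m : ℕ} (hm : 1 ≤ m) (h : Fintype.card F ≠ 2 ∨ m ≠ 2) (g : ↥(Cfsg.isometryGroup F (Cfsg.quadFormPlus m F))) : Even (m - Module.finrank F ↥(LinearMap.ker (LinearMap.funLeft F F (Sum.inr : Fin m → Fin m ⊕ Fin m)) ⊓ (LinearMap.ker (LinearMap.funLeft F F (Sum.inr : Fin m → Fin m ⊕ Fin m))).map (Matrix.mulVecLin ((g : Matrix.GeneralLinearGroup (Fin m ⊕ Fin m) F) : Matrix (Fin m ⊕ Fin m) (Fin m ⊕ Fin m) F)))) ↔ g ∈ Cfsg.Omega F (Cfsg.quadFormPlus m F) := by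
  open Cfsg.Agent.Lib.Known3.OmegaTrans Cfsg.Agent.Lib.Known3.OmegaSum Cfsg.Agent.Lib.Known3.OmegaCalc Cfsg.Agent.Lib.Classical.Abs
    Cfsg.Agent.Lib.Known3.Spinor Cfsg.Agent.Lib.Classical.Orth Cfsg.Agent.Lib.Classical.Witt Cfsg.Agent.Lib.Classical in
  revert g
  rw [← coe_Qplus m]
  intro g
  have h20 : (2 : F) = 0 := by
    have := CharP.cast_eq_zero F 2
    exact_mod_cast this
  have hfin : Fintype.card F ≠ 2 ∨ Module.finrank F (Fin m ⊕ Fin m → F) ≠ 4 := by
    rcases h with h | h
    · exact Or.inl h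
    · right
      rw [finrank_plus]
      omega
  obtain ⟨L, hL, h1⟩ := U0_parity h g
  rw [h1, mem_Omega_iff, hL, mem_comm_even h20 (Qplus_nondeg m) hfin]


end Cfsg.Agent.S2630
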