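import Cfsg.Statements.S2634
import Mathlib
import Cfsg.Agent.Lib.Known3.OmegaSum

set_option autoImplicit false
open Cfsg

namespace Cfsg.Agent.S2634

/-- Over a finite field of characteristic two, Ω (the commutator subgroup of the orthogonal group of a quadratic form Q on F^n with non-degenerate polar form; excluding dimension 4 over the field of two elements) acts transitively on the non-singular 1-spaces: for u, v with Q(u) ≠ 0 and Q(v) ≠ 0 some element of Ω carries the line through u to the line through v. -/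
theorem result {F : Type*} [Field F] [Fintype F] [CharP F 2] {n : ℕ} (h : Fintype.card F ≠ 2 ∨ n ≠ 4) (Q : QuadraticForm F (Fin n → F)) (hQ : (QuadraticMap.polarBilin Q).Nondegenerate) (u v : Fin n → F) (hu : Q u ≠ 0) (hv : Q v ≠ 0) : ∃ g : ↥(Cfsg.isometryGroup F ⇑Q), g ∈ Cfsg.Omega F ⇑Q ∧ (F ∙ ((g : Matrix.GeneralLinearGroup (Fin n) F) : Matrix (Fin n) (Fin n) F).mulVec u) = F ∙ v := by
  open Cfsg.Agent.Lib.Known3.OmegaSum Cfsg.Agent.Lib.Known3.OmegaCalc Cfsg.Agent.Lib.Classical.Abs
    Cfsg.Agent.Lib.Known3.Spinor Cfsg.Agent.Lib.Classical.Orth Cfsg.Agent.Lib.Classical.Witt Cfsg.Agent.Lib.Classical in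
  have h20 : (2 : F) = 0 := by
    have := CharP.cast_eq_zero F 2
    exact_mod_cast this
  have hfin : Fintype.card F ≠ 2 ∨ Module.finrank F (Fin n → F) ≠ 4 := by
    rcases h with h | h
    · exact Or.inl h
    · right
      simpa using h
  obtain ⟨c, hc⟩ := exists_sq_of_two_eq_zero h20 (Q v / Q u)
  have hc0 : c ≠ 0 := by
    rintro rfl
    rw [mul_zero] at hc
    exact (div_ne_zero hv hu) hc.symm
  have hx : Q (c • u) = Q v := by
    rw [Q_smul, hc, div_mul_cancel₀ _ hu]
  have hcu : Q (c • u) ≠ 0 := by rw [hx]; exact hv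
  have hnot : ∀ z : Fin n → F, Q z ≠ 0 → z ∉ (⊥ : Submodule F (Fin n → F)) := by
    intro z hz hmem
    rw [(Submodule.mem_bot F).mp hmem] at hz
    simp at hz
  obtain ⟨g₀, h1, -, h3⟩ := core_quad Q hQ ⊥ (c • u) v (hnot _ hcu) (hnot _ hv) (by
    intro a ha s
    rw [(Submodule.mem_bot F).mp ha, zero_add, zero_add, Q_smul Q s (c • u), Q_smul Q s v, hx])
  let g : OG Q := ⟨g₀, fun u _ => h1 u⟩
  have hgv : g.1 (c • u) = v := h3
  obtain ⟨L, hL⟩ := exists_prodL hQ hfin g
  have hcase : ∃ g' : OG Q, g' ∈ commutator (OG Q) ∧ g'.1 (c • u) = v := by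
    by_cases hev : Even L.length
    · refine ⟨g, ?_, hgv⟩
      rw [hL, mem_comm_even h20 hQ hfin]
      exact hev
    · refine ⟨refl Q v hv * g, ?_, ?_⟩
      · have h5 : refl Q v hv * g = prodL ((⟨v, hv⟩ : NS Q) :: L) := by
          rw [prodL_cons, ← hL]
        rw [h5, mem_comm_even h20 hQ hfin, List.length_cons, Nat.even_add_one]
        exact hev
      · rw [Cfsg.Agent.Lib.Classical.Orth.mul_apply', hgv, refl_self]
        have : v + v = 0 := by
          rw [← two_smul F v, h20, zero_smul]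
        exact (eq_neg_of_add_eq_zero_left this).symm
  obtain ⟨g', hg', hg'v⟩ := hcase
  refine ⟨(toOG Q).symm g', ?_, ?_⟩
  · rw [mem_Omega_iff]
    simpa using hg'
  · have h6 : (((toOG Q).symm g' : Cfsg.isometryGroup F ⇑Q) : Matrix.GeneralLinearGroup (Fin n) F).1.mulVec u = c⁻¹ • v := by
      rw [toOG_symm_apply, ← hg'v, map_smul, smul_smul, inv_mul_cancel₀ hc0, one_smul]
    rw [h6]
    exact Submodule.span_singleton_smul_eq (inv_ne_zero hc0).isUnit v


end Cfsg.Agent.S2634
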