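import Cfsg.Statements.S2635
import Mathlib
import Cfsg.Agent.Lib.Known3.OmegaSum

set_option autoImplicit false
open Cfsg

namespace Cfsg.Agent.S2635

/-- Over a finite field of characteristic two, for a quadratic form Q on F^n with non-degenerate polar form, n ≥ 2, other than dimension 4 over the field of two elements, Ω (the commutator subgroup of the orthogonal group) is exactly the subgroup generated by the products of two reflections (orthogonal transvections) x ↦ x − Q(v)⁻¹ f(x, v) v, Q(v) ≠ 0: the products of an even number of reflections. -/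
theorem result {F : Type*} [Field F] [Fintype F] [CharP F 2] {n : ℕ} (hn : 2 ≤ n) (h : Fintype.card F ≠ 2 ∨ n ≠ 4) (Q : QuadraticForm F (Fin n → F)) (hQ : (QuadraticMap.polarBilin Q).Nondegenerate) : Cfsg.Omega F ⇑Q = Subgroup.closure {g : ↥(Cfsg.isometryGroup F ⇑Q) | ∃ u v : Fin n → F, Q u ≠ 0 ∧ Q v ≠ 0 ∧ ((g : Matrix.GeneralLinearGroup (Fin n) F) : Matrix (Fin n) (Fin n) F) = Cfsg.reflectionMatrix ⇑Q u * Cfsg.reflectionMatrix ⇑Q v} := by
  open Cfsg.Agent.Lib.Known3.OmegaSum Cfsg.Agent.Lib.Known3.OmegaCalc Cfsg.Agent.Lib.Classical.Abs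
    Cfsg.Agent.Lib.Known3.Spinor Cfsg.Agent.Lib.Classical.Orth Cfsg.Agent.Lib.Classical.Witt Cfsg.Agent.Lib.Classical in
  have h20 : (2 : F) = 0 := by
    have := CharP.cast_eq_zero F 2
    exact_mod_cast this
  have hfin : Fintype.card F ≠ 2 ∨ Module.finrank F (Fin n → F) ≠ 4 := by
    rcases h with h | h
    · exact Or.inl h
    · right
      simpa using h
  apply le_antisymm
  · intro g hg
    obtain ⟨L, hL⟩ := exists_prodL hQ hfin (toOG Q g)
    have hg' : prodL L ∈ commutator (OG Q) := by
      rw [← hL]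
      exact (mem_Omega_iff Q g).1 hg
    have hev := (mem_comm_even h20 hQ hfin L).1 hg'
    have key : ∀ t : ℕ, ∀ L : List (NS Q), L.length = 2 * t → (toOG Q).symm (prodL L) ∈ Subgroup.closure {g : ↥(Cfsg.isometryGroup F ⇑Q) | ∃ u v : Fin n → F, Q u ≠ 0 ∧ Q v ≠ 0 ∧ ((g : Matrix.GeneralLinearGroup (Fin n) F) : Matrix (Fin n) (Fin n) F) = Cfsg.reflectionMatrix ⇑Q u * Cfsg.reflectionMatrix ⇑Q v} := by
      intro t
      induction t with
      | zero =>
        intro L hL0
        have : L = [] := List.length_eq_zero_iff.1 (by simpa using hL0)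
        subst this
        simp only [prodL_nil, map_one]
        exact Subgroup.one_mem _
      | succ t ih =>
        intro L hL0
        match L, hL0 with
        | [], h0 => simp at h0
        | [_], h0 => simp at h0; omega
        | a :: b :: L', h0 =>
          have h3 : prodL (a :: b :: L') = prodL [a, b] * prodL L' := by
            simp [mul_assoc]
          rw [h3, map_mul]
          refine mul_mem (Subgroup.subset_closure ?_) (ih L' (by simp at h0; omega))
          refine ⟨a.1, b.1, a.2, b.2, ?_⟩
          change (isoL Q [a, b] : Cfsg.isometryGroup F ⇑Q).1.1 = _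
          rw [isoL_coe]
          simp [mL]
    obtain ⟨t, ht⟩ := hev
    have h5 := key t L (by omega)
    rw [← hL] at h5
    simpa using h5
  · rw [Subgroup.closure_le]
    rintro g ⟨u, v, hu, hv, hg⟩
    have h1 : ((g : Matrix.GeneralLinearGroup (Fin n) F) : Matrix (Fin n) (Fin n) F) = mL Q [⟨u, hu⟩, ⟨v, hv⟩] := by
      rw [hg]
      simp [mL]
    change g ∈ Cfsg.Omega F ⇑Q
    rw [mem_Omega_iff, toOG_eq_prodL Q _ g h1, mem_comm_even h20 hQ hfin]
    simp


end Cfsg.Agent.S2635
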