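import Cfsg.Statements.S2636
import Mathlib

set_option autoImplicit false
open Cfsg

namespace Cfsg.Agent.S2636

/-- Centraliser of a field automorphism in PGL_n: let F be the field with q = q₀^r elements, σ a field automorphism of F of prime order r (so its fixed field has q₀ elements) and n ≥ 1. The invertible matrices g whose entrywise image under σ is a scalar multiple of g — those whose coset modulo scalars is fixed by σ — number (q − 1)/(q₀ − 1) · |GL_n(q₀)|; equivalently the centraliser in PGL_n(q) of the induced automorphism has the order of PGL_n(q₀). -/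
theorem result {F : Type*} [Field F] [Fintype F] {q₀ r n : ℕ} (hr : r.Prime) (hn : 1 ≤ n) (hF : Fintype.card F = q₀ ^ r) (σ : F ≃+* F) (hσ : orderOf σ = r) : Nat.card {g : GL (Fin n) F // ∃ c : F, c ≠ 0 ∧ (g : Matrix (Fin n) (Fin n) F).map σ = c • (g : Matrix (Fin n) (Fin n) F)} = (q₀ ^ r - 1) / (q₀ - 1) * ∏ i : Fin n, (q₀ ^ n - q₀ ^ (i : ℕ)) := by
    classical
  haveI : NeZero n := ⟨by omega⟩
  haveI : Nonempty (Fin n) := ⟨⟨0, by omega⟩⟩
  haveI : Finite (F ≃+* F) :=
    Finite.of_injective (fun τ : F ≃+* F => (τ : F → F)) (fun a b h => RingEquiv.ext (congrFun h))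
  haveI := Fintype.ofFinite (Subgroup.zpowers σ)
  -- the fixed field
  let K : Subfield F := FixedPoints.subfield (Subgroup.zpowers σ) F
  have hK : ∀ x : F, x ∈ K ↔ σ x = x := by
    intro x
    constructor
    · intro h
      exact h ⟨σ, Subgroup.mem_zpowers σ⟩
    · intro h
      rintro ⟨τ, hτ⟩
      obtain ⟨k, rfl⟩ := Subgroup.mem_zpowers_iff.1 hτ
      have h1 : ∀ k : ℕ, (σ ^ k) x = x := by
        intro k
        induction k with
        | zero => rfl
        | succ k ih =>
          rw [pow_succ]
          change (σ ^ k) (σ x) = x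
          rw [h, ih]
      have h2 : ∃ k' : ℕ, σ ^ k = σ ^ k' := by
        have hfin : IsOfFinOrder σ := by
          rw [← orderOf_pos_iff, hσ]
          exact hr.pos
        obtain ⟨k', hk'⟩ := (hfin.mem_powers_iff_mem_zpowers (y := σ ^ k)).2 (Subgroup.zpow_mem_zpowers σ k)
        exact ⟨k', hk'.symm⟩
      obtain ⟨k', hk'⟩ := h2
      change (σ ^ k) x = x
      rw [hk', h1]
  haveI : Fintype K := Fintype.ofFinite K
  have hfr : Module.finrank K F = r := by
    have h1 := FixedPoints.finrank_eq_card (Subgroup.zpowers σ) F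
    rw [h1, ← Nat.card_eq_fintype_card, Nat.card_zpowers, hσ]
  have hcardK : Fintype.card K = q₀ := by
    have h1 : Fintype.card F = Fintype.card K ^ Module.finrank K F := Module.card_eq_pow_finrank
    rw [hfr, hF] at h1
    exact (Nat.pow_left_injective hr.ne_zero h1).symm
  have hq₀ : 2 ≤ q₀ := by
    rw [← hcardK]
    exact Fintype.one_lt_card
  -- the homomorphism
  let ι : K →+* F := K.subtype
  let ρ : Fˣ × GL (Fin n) K →* GL (Fin n) F :=
    MonoidHom.noncommCoprod (Matrix.GeneralLinearGroup.scalar (Fin n))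
      (Matrix.GeneralLinearGroup.map ι) (by
        intro d h
        apply Units.ext
        simp only [Commute, SemiconjBy, Units.val_mul]
        ext i j
        simp [Matrix.GeneralLinearGroup.scalar, Matrix.scalar_apply, Matrix.diagonal_mul, Matrix.mul_diagonal, mul_comm])
  have hρ : ∀ (d : Fˣ) (h : GL (Fin n) K), ((ρ (d, h) : GL (Fin n) F) : Matrix (Fin n) (Fin n) F) =
      (d : F) • (h : Matrix (Fin n) (Fin n) K).map ι := by
    intro d h
    simp only [ρ, MonoidHom.noncommCoprod_apply, Units.val_mul]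
    ext i j
    simp [Matrix.GeneralLinearGroup.scalar, Matrix.scalar_apply, Matrix.GeneralLinearGroup.map, Matrix.diagonal_mul]
  have hrange : ∀ g : GL (Fin n) F, (∃ c : F, c ≠ 0 ∧ (g : Matrix (Fin n) (Fin n) F).map σ = c • (g : Matrix (Fin n) (Fin n) F)) ↔
      g ∈ ρ.range := by
    intro g
    constructor
    · rintro ⟨c, hc, hg⟩
      have hne : ∃ i j, (g : Matrix (Fin n) (Fin n) F) i j ≠ 0 := by
        by_contra hcon
        push Not at hcon
        have h0 : (g : Matrix (Fin n) (Fin n) F) = 0 := by
          ext i j; exact hcon i j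
        have h1 := (Matrix.isUnits_det_units g).ne_zero
        rw [h0, Matrix.det_zero] at h1
        exact h1 rfl
      obtain ⟨i, j, hd⟩ := hne
      set d := (g : Matrix (Fin n) (Fin n) F) i j with hddef
      have hσd : σ d = c * d := by
        have := congrFun (congrFun hg i) j
        simpa using this
      have hent : ∀ k l, d⁻¹ * (g : Matrix (Fin n) (Fin n) F) k l ∈ K := by
        intro k l
        rw [hK, map_mul, map_inv₀, hσd]
        have := congrFun (congrFun hg k) l
        simp only [Matrix.map_apply, Matrix.smul_apply, smul_eq_mul] at this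
        rw [this]
        field_simp
      let h₀ : Matrix (Fin n) (Fin n) K := fun k l => ⟨d⁻¹ * (g : Matrix (Fin n) (Fin n) F) k l, hent k l⟩
      have hmap : h₀.map ι = d⁻¹ • (g : Matrix (Fin n) (Fin n) F) := by
        ext k l
        rfl
      have hdet : h₀.det ≠ 0 := by
        intro h0
        have h1 : (h₀.map ι).det = ι h₀.det := (RingHom.map_det ι h₀).symm
        rw [h0, map_zero, hmap, Matrix.det_smul] at h1
        have h2 := (Matrix.isUnits_det_units g).ne_zero
        have h3 : (d⁻¹) ^ Fintype.card (Fin n) ≠ 0 := pow_ne_zero _ (inv_ne_zero hd)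
        exact (mul_ne_zero h3 h2) h1
      refine ⟨(Units.mk0 d hd, Matrix.GeneralLinearGroup.mkOfDetNeZero h₀ hdet), ?_⟩
      apply Units.ext
      rw [hρ]
      change d • h₀.map ι = _
      rw [hmap, smul_smul, mul_inv_cancel₀ hd, one_smul]
    · rintro ⟨⟨d, h⟩, rfl⟩
      have hd : (d : F) ≠ 0 := d.ne_zero
      refine ⟨σ d / d, div_ne_zero ((map_ne_zero σ).2 hd) hd, ?_⟩
      rw [hρ]
      ext k l
      simp only [Matrix.map_apply, Matrix.smul_apply, smul_eq_mul, map_mul]
      have h1 : σ (ι ((h : Matrix (Fin n) (Fin n) K) k l)) = ι ((h : Matrix (Fin n) (Fin n) K) k l) :=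
        (hK _).1 ((h : Matrix (Fin n) (Fin n) K) k l).2
      rw [h1]
      field_simp
  have hcardH : Nat.card {g : GL (Fin n) F // ∃ c : F, c ≠ 0 ∧ (g : Matrix (Fin n) (Fin n) F).map σ = c • (g : Matrix (Fin n) (Fin n) F)} = Nat.card ρ.range :=
    Nat.card_congr (Equiv.subtypeEquivRight hrange)
  -- the kernel
  have hker : Nat.card ρ.ker = Nat.card Kˣ := by
    symm
    let f : Kˣ → ρ.ker := fun k => ⟨(Units.map ι.toMonoidHom k⁻¹, Matrix.GeneralLinearGroup.scalar (Fin n) k), by
      rw [MonoidHom.mem_ker]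
      apply Units.ext
      rw [hρ]
      ext a b
      by_cases hab : a = b
      · subst hab
        simp [Matrix.GeneralLinearGroup.scalar, Matrix.scalar_apply]
      · simp [Matrix.GeneralLinearGroup.scalar, Matrix.scalar_apply, hab]⟩
    apply Nat.card_eq_of_bijective f
    constructor
    · intro a b hab
      have h1 := congrArg (fun x : ρ.ker => (x : Fˣ × GL (Fin n) K).1) hab
      simp only [f] at h1
      have h2 := (Units.map_injective (f := ι.toMonoidHom) ι.injective) h1
      exact inv_injective h2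
    · rintro ⟨⟨d, h⟩, hdh⟩
      rw [MonoidHom.mem_ker] at hdh
      have h1 : (d : F) • (h : Matrix (Fin n) (Fin n) K).map ι = 1 := by
        rw [← hρ, hdh]; rfl
      let i₀ : Fin n := ⟨0, by omega⟩
      have h2 : (d : F) * ι ((h : Matrix (Fin n) (Fin n) K) i₀ i₀) = 1 := by
        have := congrFun (congrFun h1 i₀) i₀
        simpa using this
      set k₀ := (h : Matrix (Fin n) (Fin n) K) i₀ i₀ with hk₀
      have hk₀0 : k₀ ≠ 0 := by
        rintro h0
        rw [h0, map_zero, mul_zero] at h2
        exact zero_ne_one h2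
      refine ⟨Units.mk0 k₀ hk₀0, ?_⟩
      apply Subtype.ext
      have hd' : (d : F) = (ι k₀)⁻¹ := eq_inv_of_mul_eq_one_left h2
      apply Prod.ext
      · apply Units.ext
        simp [f, hd']
      · apply Units.ext
        apply Matrix.map_injective (f := ι) ι.injective
        have hk : ι k₀ * (d : F) = 1 := by rw [mul_comm]; exact h2
        have h3 : (h : Matrix (Fin n) (Fin n) K).map ι = (ι k₀) • (1 : Matrix (Fin n) (Fin n) F) := by
          have : (h : Matrix (Fin n) (Fin n) K).map ι = (ι k₀) • ((d : F) • (h : Matrix (Fin n) (Fin n) K).map ι) := by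
            rw [smul_smul, hk, one_smul]
          rw [this, h1]
        change Matrix.map ((Matrix.GeneralLinearGroup.scalar (Fin n) (Units.mk0 k₀ hk₀0) : GL (Fin n) K) : Matrix (Fin n) (Fin n) K) ι = (h : Matrix (Fin n) (Fin n) K).map ι
        rw [h3]
        ext a b
        by_cases hab : a = b
        · subst hab
          simp [Matrix.GeneralLinearGroup.scalar, Matrix.scalar_apply]
        · simp [Matrix.GeneralLinearGroup.scalar, Matrix.scalar_apply, hab]
  have hprod := Subgroup.card_mul_index ρ.ker
  rw [Subgroup.index_ker, hker, Nat.card_prod] at hprod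
  have hKu : Nat.card Kˣ = q₀ - 1 := by
    rw [Nat.card_eq_fintype_card, Fintype.card_units, hcardK]
  have hFu : Nat.card Fˣ = q₀ ^ r - 1 := by
    rw [Nat.card_eq_fintype_card, Fintype.card_units, hF]
  have hGL : Nat.card (GL (Fin n) K) = ∏ i : Fin n, (q₀ ^ n - q₀ ^ (i : ℕ)) := by
    rw [Matrix.card_GL_field, hcardK]
  rw [hKu, hFu, hGL] at hprod
  rw [hcardH]
  obtain ⟨D, hD⟩ : q₀ - 1 ∣ q₀ ^ r - 1 := by
    simpa using Nat.sub_dvd_pow_sub_pow q₀ 1 r
  have hq1 : 0 < q₀ - 1 := by omega
  rw [hD, Nat.mul_div_cancel_left _ hq1]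
  rw [hD, mul_assoc] at hprod
  exact Nat.eq_of_mul_eq_mul_left hq1 hprod

end Cfsg.Agent.S2636
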