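import Cfsg.Statements.S2637
import Mathlib
import Cfsg.Agent.S0277
import Cfsg.Agent.Lib.SpOrd3.Basic
import Cfsg.Agent.Lib.KS2.IsoSp
import Cfsg.Agent.Lib.PrimeCl.Count

set_option autoImplicit false
open Cfsg

open Polynomial Matrix Cfsg.Agent.Lib.SpOrd3

namespace Cfsg.Agent.S2637
variable {F : Type*} [Field F] [Fintype F]

/-- The polynomial `X² + X + 1`. -/
noncomputable def PP (F : Type*) [Field F] : F[X] := X ^ 2 + X + 1

lemma PP_eq : PP F = X ^ 2 + (X + 1) := by rw [PP, add_assoc]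

lemma PP_natDegree : (PP F).natDegree = 2 := by
  rw [PP]
  compute_degree!

lemma PP_monic : (PP F).Monic := by
  rw [PP]
  monicity!

lemma charpoly_of_PP {ι : Type*} [Fintype ι] [DecidableEq ι] (hirr : Irreducible (PP F)) (m : ℕ) (hι : Fintype.card ι = 2 * m)
    (Z : Matrix ι ι F) (hZ : Z ^ 2 + Z + 1 = 0) : Z.charpoly = (PP F) ^ m := by
  classical
  have hmonic := Z.charpoly_monic
  have hZP : aeval Z (PP F) = 0 := by
    rw [PP]
    simpa using hZ
  have hall : ∀ d ∈ UniqueFactorizationMonoid.normalizedFactors Z.charpoly, d = PP F := by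
    intro d hd
    have h1 := UniqueFactorizationMonoid.irreducible_of_normalized_factor d hd
    have h2 := UniqueFactorizationMonoid.dvd_of_mem_normalizedFactors hd
    have h3 := Cfsg.Agent.Lib.PrimeCl.irr_dvd_of_aeval_eq_zero Z d (PP F) h1 h2 hZP
    have h4 := (h1.associated_of_dvd hirr h3)
    have h5 : d.Monic := by
      have h6 := UniqueFactorizationMonoid.normalize_normalized_factor d hd
      rw [← h6]
      exact Polynomial.monic_normalize h1.ne_zero
    exact Polynomial.eq_of_monic_of_associated h5 PP_monic h4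
  obtain ⟨k, hk⟩ : ∃ k, UniqueFactorizationMonoid.normalizedFactors Z.charpoly = Multiset.replicate k (PP F) :=
    ⟨_, Multiset.eq_replicate_card.2 hall⟩
  have hprod := UniqueFactorizationMonoid.prod_normalizedFactors hmonic.ne_zero
  rw [hk, Multiset.prod_replicate] at hprod
  have h7 : (PP F) ^ k = Z.charpoly :=
    Polynomial.eq_of_monic_of_associated (PP_monic.pow k) hmonic hprod
  have h8 := congrArg Polynomial.natDegree h7
  rw [Polynomial.natDegree_pow, PP_natDegree, Matrix.charpoly_natDegree_eq_dim, hι] at h8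
  have h9 : k = m := by omega
  rw [← h7, h9]

lemma card_cent_conj {G : Type*} [Group G] {x y : G} (h : IsConj x y) :
    Nat.card ↥(Subgroup.centralizer ({x} : Set G)) = Nat.card ↥(Subgroup.centralizer ({y} : Set G)) := by
  obtain ⟨c, rfl⟩ := isConj_iff.1 h
  refine Nat.card_congr ⟨fun g => ⟨c * g.1 * c⁻¹, ?_⟩, fun g => ⟨c⁻¹ * g.1 * c, ?_⟩, ?_, ?_⟩
  · rw [Subgroup.mem_centralizer_iff]
    intro t ht
    rw [Set.mem_singleton_iff] at ht
    rw [ht]
    have h1 := Subgroup.mem_centralizer_iff.1 g.2 x rfl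
    calc c * x * c⁻¹ * (c * g.1 * c⁻¹) = c * (x * g.1) * c⁻¹ := by group
      _ = c * (g.1 * x) * c⁻¹ := by rw [h1]
      _ = c * g.1 * c⁻¹ * (c * x * c⁻¹) := by group
  · rw [Subgroup.mem_centralizer_iff]
    intro t ht
    rw [Set.mem_singleton_iff] at ht
    rw [ht]
    have h1 := Subgroup.mem_centralizer_iff.1 g.2 (c * x * c⁻¹) rfl
    calc x * (c⁻¹ * g.1 * c) = c⁻¹ * ((c * x * c⁻¹) * g.1) * c := by group
      _ = c⁻¹ * (g.1 * (c * x * c⁻¹)) * c := by rw [h1]
      _ = c⁻¹ * g.1 * c * x := by group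
  · intro g
    apply Subtype.ext
    show c⁻¹ * (c * g.1 * c⁻¹) * c = g.1
    group
  · intro g
    apply Subtype.ext
    show c * (c⁻¹ * g.1 * c) * c⁻¹ = g.1
    group

/-- Centraliser of a fixed-point-free element of order three in Sp_2m(q) when q ≡ 2 (mod 3): if x ∈ Sp_2m(F) (|F| = q, m ≥ 1) satisfies x³ = 1 and x − 1 is invertible, then its centraliser in Sp_2m(F) has the order of the unitary group GU_m(q), namely q^(m(m−1)/2) Π_(i=1)^m (q^i − (−1)^i) (x lies in the centre of a subgroup GU_m(q) of Sp_2m(q)). -/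
theorem result {F : Type*} [Field F] [Fintype F] {q : ℕ} (hF : Fintype.card F = q) (hq : q % 3 = 2) {m : ℕ} (hm : 1 ≤ m) (x : Matrix.symplecticGroup (Fin m) F) (hx3 : x ^ 3 = 1) (hfpf : IsUnit ((x : Matrix (Fin m ⊕ Fin m) (Fin m ⊕ Fin m) F) - 1)) : (Nat.card ↥(Subgroup.centralizer ({x} : Set ↥(Matrix.symplecticGroup (Fin m) F))) : ℤ) = (q : ℤ) ^ (m * (m - 1) / 2) * ∏ i : Fin m, ((q : ℤ) ^ ((i : ℕ) + 1) - (-1) ^ ((i : ℕ) + 1)) := by
  classical
  have hq3 : ¬ 3 ∣ q := by omega
  obtain ⟨p, hchar⟩ := CharP.exists F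
  obtain ⟨k, hp, hk⟩ := FiniteField.card F p
  haveI : Fact p.Prime := ⟨hp⟩
  have hp3 : p ≠ 3 := by
    rintro rfl
    apply hq3
    rw [← hF, hk]
    exact dvd_pow_self 3 k.ne_zero
  have h3F : (3 : F) ≠ 0 := by
    intro h
    have h1 : ((3 : ℕ) : F) = 0 := by exact_mod_cast h
    have h2 := (CharP.cast_eq_zero_iff F p 3).1 h1
    exact hp3 ((Nat.prime_dvd_prime_iff_eq hp Nat.prime_three).1 h2)
  -- irreducibility
  have hroot : ∀ a : F, ¬ IsRoot (PP F) a := by
    intro a ha
    have h1 : a ^ 2 + a + 1 = 0 := by simpa [PP, IsRoot] using ha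
    have h2 : a ^ 3 = 1 := by linear_combination (a - 1) * h1
    have h3 : a ≠ 1 := by
      rintro rfl
      apply h3F
      linear_combination h1
    have h4 : a ≠ 0 := by
      rintro rfl
      simp at h2
    let u : Fˣ := Units.mk0 a h4
    have h5 : u ^ 3 = 1 := Units.ext (by simpa [u] using h2)
    have h6 : u ≠ 1 := fun h => h3 (by simpa [u] using congrArg Units.val h)
    have h7 : orderOf u = 3 := orderOf_eq_prime h5 h6
    have h8 := orderOf_dvd_card (x := u)
    rw [h7, Fintype.card_units, hF] at h8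
    omega
  have hirr : Irreducible (PP F) := Polynomial.irreducible_of_degree_le_three_of_not_isRoot (by rw [PP_natDegree]; decide) hroot
  haveI : Fact (Irreducible (PP F)) := ⟨hirr⟩
  -- the field with q² elements
  let L := AdjoinRoot (PP F)
  letI : Field L := inferInstance
  letI : Algebra F L := inferInstance
  have hfr : Module.finrank F L = 2 := by
    have h1 := (AdjoinRoot.powerBasis' (PP_monic (F := F))).finrank
    rw [AdjoinRoot.powerBasis'_dim, PP_natDegree] at h1
    exact h1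
  haveI : Module.Finite F L := (AdjoinRoot.powerBasis' (PP_monic (F := F))).finite
  haveI : Finite L := Module.finite_of_finite F
  letI : Fintype L := Fintype.ofFinite L
  have hL : Fintype.card L = q ^ 2 := by
    rw [Module.card_eq_pow_finrank (K := F) (V := L), hfr, hF]
  let ω : L := AdjoinRoot.root (PP F)
  have hω0 : ω ^ 2 + ω + 1 = 0 := by
    have h1 : aeval ω (PP F) = 0 := AdjoinRoot.aeval_eq (PP F) |>.trans (by simp)
    simpa [PP] using h1
  have hω : ω * ω = -1 - ω := by linear_combination hω0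
  have hω3 : ω ^ 3 = 1 := by linear_combination (ω - 1) * hω0
  have hωq : ω ^ q = -1 - ω := by
    have h1 : q = 3 * (q / 3) + 2 := by omega
    rw [h1, pow_add, pow_mul, hω3, one_pow, one_mul]
    linear_combination hω0
  have hfix : ∀ a : F, (algebraMap F L a) ^ q = algebraMap F L a := by
    intro a
    rw [← map_pow, ← hF, FiniteField.pow_card]
  have hind : ∀ a b : F, algebraMap F L a + ω * algebraMap F L b = 0 → a = 0 ∧ b = 0 := by
    intro a b h
    have h1 : AdjoinRoot.mk (PP F) (C a + X * C b) = 0 := by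
      rw [map_add, map_mul, AdjoinRoot.mk_C, AdjoinRoot.mk_X, AdjoinRoot.mk_C]
      exact h
    rw [AdjoinRoot.mk_eq_zero] at h1
    have h2 : (C a + X * C b : F[X]).natDegree < (PP F).natDegree := by
      rw [PP_natDegree]
      have : (C a + X * C b : F[X]).natDegree ≤ 1 := by compute_degree
      omega
    have h3 := Polynomial.eq_zero_of_dvd_of_natDegree_lt h1 h2
    have h4 := congrArg (fun r => Polynomial.coeff r 0) h3
    have h5 := congrArg (fun r => Polynomial.coeff r 1) h3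
    simp at h4 h5
    exact ⟨h4, h5⟩
  have hrep : ∀ c : L, ∃ a b : F, c = algebraMap F L a + ω * algebraMap F L b := by
    intro c
    obtain ⟨f, rfl⟩ := AdjoinRoot.mk_surjective c
    have h1 : ((f %ₘ PP F)).natDegree < 2 := by
      have := Polynomial.natDegree_modByMonic_lt f (PP_monic (F := F)) (by
        intro h
        have h2 := PP_natDegree (F := F)
        rw [h] at h2
        simp at h2)
      rwa [PP_natDegree] at this
    have h2 := Polynomial.eq_X_add_C_of_natDegree_le_one (show (f %ₘ PP F).natDegree ≤ 1 by omega)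
    refine ⟨(f %ₘ PP F).coeff 0, (f %ₘ PP F).coeff 1, ?_⟩
    have h3 : AdjoinRoot.mk (PP F) f = AdjoinRoot.mk (PP F) (f %ₘ PP F) := by
      rw [AdjoinRoot.mk_eq_mk]
      have h5 := Polynomial.modByMonic_add_div f (PP F)
      exact ⟨f /ₘ PP F, by linear_combination -h5⟩
    rw [h3]
    conv_lhs => rw [h2]
    rw [map_add, map_mul, AdjoinRoot.mk_C, AdjoinRoot.mk_X, AdjoinRoot.mk_C]
    have h4 : AdjoinRoot.of (PP F) ((f %ₘ PP F).coeff 1) * AdjoinRoot.root (PP F) = ω * algebraMap F L ((f %ₘ PP F).coeff 1) := by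
      rw [mul_comm]
      rfl
    rw [h4, add_comm]
    rfl
  -- the element x
  have hcard : Fintype.card (Fin m ⊕ Fin m) = 2 * m := by simp [two_mul]
  have hxP : (x : Matrix (Fin m ⊕ Fin m) (Fin m ⊕ Fin m) F) ^ 2 + (x : Matrix (Fin m ⊕ Fin m) (Fin m ⊕ Fin m) F) + 1 = 0 := by
    have h1 : (x : Matrix (Fin m ⊕ Fin m) (Fin m ⊕ Fin m) F) ^ 3 = 1 := by
      have := congrArg (fun y : Matrix.symplecticGroup (Fin m) F => (y : Matrix (Fin m ⊕ Fin m) (Fin m ⊕ Fin m) F)) hx3
      simpa using this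
    obtain ⟨u, hu⟩ := hfpf
    have h2 : ((x : Matrix (Fin m ⊕ Fin m) (Fin m ⊕ Fin m) F) - 1) * ((x : Matrix (Fin m ⊕ Fin m) (Fin m ⊕ Fin m) F) ^ 2 + (x : Matrix (Fin m ⊕ Fin m) (Fin m ⊕ Fin m) F) + 1) = 0 := by
      have h3 : ((x : Matrix (Fin m ⊕ Fin m) (Fin m ⊕ Fin m) F) - 1) * ((x : Matrix (Fin m ⊕ Fin m) (Fin m ⊕ Fin m) F) ^ 2 + (x : Matrix (Fin m ⊕ Fin m) (Fin m ⊕ Fin m) F) + 1) = (x : Matrix (Fin m ⊕ Fin m) (Fin m ⊕ Fin m) F) ^ 3 - 1 := by noncomm_ring
      rw [h3, h1, sub_self]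
    rw [← hu] at h2
    have h4 := congrArg (fun y => (↑u⁻¹ : Matrix (Fin m ⊕ Fin m) (Fin m ⊕ Fin m) F) * y) h2
    simpa using h4
  have hxc := charpoly_of_PP hirr m hcard _ hxP
  have hx₀P : (x₀ F m) ^ 2 + x₀ F m + 1 = 0 := by
    rw [pow_two, x₀, fromBlocks_multiply]
    simp only [mul_zero, mul_one, add_zero, mul_neg, zero_mul, one_mul, zero_add, neg_mul]
    rw [fromBlocks_add, ← fromBlocks_one, fromBlocks_add]
    simp
  have hx₀c := charpoly_of_PP hirr m hcard _ hx₀P
  have h3p : Nat.Coprime 3 p := (Nat.coprime_primes Nat.prime_three hp).2 (Ne.symm hp3)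
  have hord₁ : (orderOf x).Coprime p :=
    Nat.Coprime.coprime_dvd_left (orderOf_dvd_of_pow_eq_one hx3) h3p
  have hord₂ : (orderOf (x₁ F m)).Coprime p := by
    refine Nat.Coprime.coprime_dvd_left (orderOf_dvd_of_pow_eq_one ?_) h3p
    apply Subtype.ext
    show (x₀ F m) ^ 3 = 1
    have h1 : (x₀ F m) ^ 3 - 1 = (x₀ F m - 1) * ((x₀ F m) ^ 2 + x₀ F m + 1) := by noncomm_ring
    rw [hx₀P, mul_zero] at h1
    exact sub_eq_zero.1 h1
  have hconj : IsConj x (x₁ F m) :=
    Cfsg.Agent.Lib.KS2.IsoCl.sp_conj p m x (x₁ F m) hord₁ hord₂ (by rw [hxc]; exact hx₀c.symm)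
  rw [card_cent_conj hconj, card_cent_eq hL hfix hωq hω hind hrep (m := m), Cfsg.Agent.S0277.result hL m]
  push_cast
  congr 1
  rw [Finset.prod_range]
  apply Finset.prod_congr rfl
  intro i _
  by_cases hev : Even (i : ℕ)
  · rw [if_pos hev]
    have h1 : ((-1 : ℤ)) ^ ((i : ℕ) + 1) = -1 := by
      rw [pow_succ, hev.neg_one_pow, one_mul]
    rw [h1]
    push_cast
    ring
  · rw [if_neg hev]
    have h1 : ((-1 : ℤ)) ^ ((i : ℕ) + 1) = 1 := by
      have h2 : Even ((i : ℕ) + 1) := by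
        rw [Nat.even_add_one]
        exact hev
      exact h2.neg_one_pow
    rw [h1]
    have hq1 : 1 ≤ q ^ ((i : ℕ) + 1) := Nat.one_le_pow _ _ (by
      have := Fintype.card_pos (α := F)
      omega)
    push_cast [Nat.cast_sub hq1]
    ring

end Cfsg.Agent.S2637
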