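import Cfsg.Statements.S2638
import Mathlib
import Cfsg.Agent.Lib.Known3.Commutant

set_option autoImplicit false
open Cfsg

namespace Cfsg.Agent.S2638

/-- If an element x of GL_n(q), n ≥ 1, has prime order r and the multiplicative order of q modulo r is n (r is a primitive prime divisor of q^n − 1, so x acts irreducibly), then the centraliser of x in GL_n(q) is cyclic of order q^n − 1 (the multiplicative group of the field with q^n elements, a Singer cycle). -/
theorem result {F : Type*} [Field F] [Fintype F] {p q : ℕ} [Fact p.Prime] [CharP F p] (hF : Fintype.card F = q) {n r : ℕ} (hn : 1 ≤ n) (hr : r.Prime) (hrp : r ≠ p) (hi : orderOf (q : ZMod r) = n) (x : GL (Fin n) F) (hx : orderOf x = r) : IsCyclic ↥(Subgroup.centralizer ({x} : Set (GL (Fin n) F))) ∧ Nat.card ↥(Subgroup.centralizer ({x} : Set (GL (Fin n) F))) = q ^ n - 1 := by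
  classical
  subst hF
  set q := Fintype.card F with hq
  haveI : Fact r.Prime := ⟨hr⟩
  haveI : Nonempty (Fin n) := ⟨⟨0, hn⟩⟩
  set A : Matrix (Fin n) (Fin n) F := (x : Matrix (Fin n) (Fin n) F) with hA
  set T := Matrix.mulVecLin A with hT
  have hrF : (r : F) ≠ 0 := by
    intro h
    rw [CharP.cast_eq_zero_iff F p] at h
    exact hrp ((Nat.prime_dvd_prime_iff_eq Fact.out hr).1 h).symm
  -- `T ^ r = 1`, `T ≠ 1`
  have hTpow : ∀ k : ℕ, T ^ k = Matrix.mulVecLin (A ^ k) := by
    intro k
    rw [hT, ← Matrix.toLin'_apply', ← Matrix.toLin'_apply', Matrix.toLin'_pow]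
  have hTr : T ^ r = 1 := by
    rw [hTpow]
    have h1 : A ^ r = 1 := by
      have := congrArg Units.val (pow_orderOf_eq_one x)
      rwa [hx, Units.val_pow_eq_pow_val, Units.val_one] at this
    rw [h1]
    ext
    simp
  have hT1 : T ≠ 1 := by
    intro h
    have h1 : A = 1 := by
      apply Matrix.mulVec_injective
      funext v
      have := LinearMap.congr_fun h v
      simpa [hT] using this
    have h2 : x = 1 := Units.ext h1
    rw [h2, orderOf_one] at hx
    exact hr.one_lt.ne hx
  let G : Polynomial F := ∑ i ∈ Finset.range r, Polynomial.X ^ i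
  have hGmul : G * (Polynomial.X - 1) = Polynomial.X ^ r - 1 := geom_sum_mul _ _
  -- the kernel of `G(T)`
  set K := LinearMap.ker (Polynomial.aeval T G) with hK
  have hGT : Polynomial.aeval T G * (T - 1) = 0 := by
    have h1 := congrArg (Polynomial.aeval T) hGmul
    simp only [map_mul, map_sub, Polynomial.aeval_X, map_one, map_pow, hTr, sub_self] at h1
    exact h1
  have hK0 : K ≠ ⊥ := by
    intro h
    have h1 : T - 1 = 0 := by
      apply LinearMap.ext
      intro v
      have h2 : (T - 1) v ∈ K := by
        rw [hK, LinearMap.mem_ker]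
        have := LinearMap.congr_fun hGT v
        simpa using this
      rw [h, Submodule.mem_bot] at h2
      exact h2
    exact hT1 (sub_eq_zero.1 h1)
  haveI : Nontrivial K := Submodule.nontrivial_iff_ne_bot.2 hK0
  have hKT : ∀ v ∈ K, T v ∈ K := by
    intro v hv
    rw [hK, LinearMap.mem_ker] at hv ⊢
    have h1 := Lib.Known3.Commutant.aeval_comm (S := T) (T := T) (fun _ => rfl) G v
    rw [← h1, hv, map_zero]
  let R := T.restrict hKT
  have hRG : Polynomial.aeval R G = 0 := by
    apply LinearMap.ext
    intro v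
    apply Subtype.ext
    rw [Lib.Known3.Commutant.aeval_restrict]
    exact LinearMap.mem_ker.1 v.2
  have hint : IsIntegral F R := Algebra.IsIntegral.isIntegral R
  have hμG : minpoly F R ∣ G := minpoly.dvd F R hRG
  have hμpos : 0 < (minpoly F R).natDegree := minpoly.natDegree_pos hint
  obtain ⟨f, hfirr, hfμ⟩ := Polynomial.exists_irreducible_of_natDegree_pos hμpos
  haveI : Fact (Irreducible f) := ⟨hfirr⟩
  have hf0 : f ≠ 0 := hfirr.ne_zero
  -- the field `E = F[X]/(f)` and the root `ζ`
  let E := AdjoinRoot f
  let ζ : E := AdjoinRoot.root f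
  haveI : Module.Finite F E := (AdjoinRoot.powerBasis hf0).finite
  haveI : Finite E := Module.finite_of_finite F
  letI : Fintype E := Fintype.ofFinite E
  have hcardE : Fintype.card E = q ^ f.natDegree := by
    rw [Module.card_eq_pow_finrank (K := F) (V := E), (AdjoinRoot.powerBasis hf0).finrank,
      AdjoinRoot.powerBasis_dim]
  have hζG : Polynomial.aeval ζ G = 0 := by
    rw [AdjoinRoot.aeval_eq, AdjoinRoot.mk_eq_zero]
    exact hfμ.trans hμG
  have hζr : ζ ^ r = 1 := by
    have h1 := congrArg (Polynomial.aeval ζ) hGmul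
    simp only [map_mul, hζG, zero_mul, map_sub, map_pow, Polynomial.aeval_X, map_one, map_zero] at h1
    exact (sub_eq_zero.1 h1.symm)
  have hζ1 : ζ ≠ 1 := by
    intro h
    rw [h] at hζG
    have h1 : Polynomial.aeval (1 : E) G = ((r : F) : E) := by
      simp [G]
    rw [h1] at hζG
    have h2 : algebraMap F E (r : F) = 0 := by simpa using hζG
    exact hrF ((map_eq_zero _).1 h2)
  have hζord : orderOf ζ = r := orderOf_eq_prime hζr hζ1
  have hζ0 : ζ ≠ 0 := by
    intro h
    rw [h, zero_pow hr.ne_zero] at hζr
    exact zero_ne_one hζr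
  have hrdvd : r ∣ q ^ f.natDegree - 1 := by
    rw [← hζord, ← hcardE]
    exact orderOf_dvd_of_pow_eq_one (FiniteField.pow_card_sub_one_eq_one ζ hζ0)
  have hqd : (q : ZMod r) ^ f.natDegree = 1 := by
    have hq1 : 1 ≤ q ^ f.natDegree := Nat.one_le_pow _ _ Fintype.card_pos
    have h1 : ((q ^ f.natDegree - 1 : ℕ) : ZMod r) = 0 := (ZMod.natCast_eq_zero_iff _ _).2 hrdvd
    rw [Nat.cast_sub hq1] at h1
    simpa [sub_eq_zero] using h1
  have hnd : n ≤ f.natDegree := by
    have h1 : n ∣ f.natDegree := hi ▸ orderOf_dvd_of_pow_eq_one hqd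
    exact Nat.le_of_dvd (hfirr.natDegree_pos) h1
  have hμ0 : minpoly F R ≠ 0 := minpoly.ne_zero hint
  have hdμ : f.natDegree ≤ (minpoly F R).natDegree := Polynomial.natDegree_le_of_dvd hfμ hμ0
  have hμK : (minpoly F R).natDegree ≤ Module.finrank F K := by
    have h6 := Polynomial.natDegree_le_of_dvd (LinearMap.minpoly_dvd_charpoly R) (LinearMap.charpoly_monic R).ne_zero
    rwa [LinearMap.charpoly_natDegree] at h6
  have hKn : Module.finrank F K ≤ n := by
    have := Submodule.finrank_le K
    rwa [Module.finrank_fin_fun] at this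
  have hdn : f.natDegree = n := by omega
  have hKtop : K = ⊤ := by
    apply Submodule.eq_top_of_finrank_eq
    rw [Module.finrank_fin_fun]
    omega
  -- `f(T) = 0`
  have hTf : Polynomial.aeval T f = 0 := by
    obtain ⟨c, hc⟩ := hfμ
    have hc0 : c ≠ 0 := by
      rintro rfl
      rw [mul_zero] at hc
      exact hμ0 hc
    have hcd : c.natDegree = 0 := by
      have := Polynomial.natDegree_mul hf0 hc0
      rw [← hc] at this
      omega
    obtain ⟨a, ha⟩ : ∃ a, c = Polynomial.C a := ⟨_, Polynomial.eq_C_of_natDegree_eq_zero hcd⟩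
    have ha0 : a ≠ 0 := by
      rintro rfl
      rw [ha, Polynomial.C_0] at hc0
      exact hc0 rfl
    have hRf : Polynomial.aeval R f = 0 := by
      have h1 : Polynomial.aeval R (minpoly F R) = 0 := minpoly.aeval F R
      rw [hc, ha, map_mul, Polynomial.aeval_C] at h1
      have h3 : algebraMap F (K →ₗ[F] K) a * algebraMap F (K →ₗ[F] K) a⁻¹ = 1 := by
        rw [← map_mul, mul_inv_cancel₀ ha0, map_one]
      calc Polynomial.aeval R f
          = Polynomial.aeval R f * (algebraMap F (K →ₗ[F] K) a * algebraMap F (K →ₗ[F] K) a⁻¹) := by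
            rw [h3, mul_one]
        _ = (Polynomial.aeval R f * algebraMap F (K →ₗ[F] K) a) * algebraMap F (K →ₗ[F] K) a⁻¹ := by
            rw [mul_assoc]
        _ = 0 := by rw [h1, zero_mul]
    apply LinearMap.ext
    intro v
    have hv : v ∈ K := by rw [hKtop]; trivial
    have h2 := Lib.Known3.Commutant.aeval_restrict T hKT f ⟨v, hv⟩
    rw [hRf] at h2
    exact h2.symm
  have hcyc : ∀ w : Fin n → F, w ≠ 0 → Lib.Known3.Commutant.IsCyc T w := fun w hw =>
    Lib.Known3.Commutant.isCyc_of_natDegree_eq hfirr hTf (by rw [hdn, Module.finrank_fin_fun]) hw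
  obtain ⟨v₀, hv₀⟩ : ∃ v₀ : Fin n → F, v₀ ≠ 0 := by
    refine ⟨fun _ => 1, ?_⟩
    intro h
    have := congrFun h ⟨0, hn⟩
    simp at this
  have hC := Lib.Known3.Commutant.card_centralizer_eq x (hcyc v₀ hv₀)
  refine ⟨?_, ?_⟩
  · -- cyclic: embed in the field `E`
    let hom := Lib.Known3.Commutant.homE T f hTf
    have hinj : Function.Injective hom := RingHom.injective hom
    have hex : ∀ g : Subgroup.centralizer ({x} : Set (GL (Fin n) F)),
        ∃ y : E, hom y = Matrix.mulVecLin (g.1 : Matrix (Fin n) (Fin n) F) := by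
      intro g
      obtain ⟨r', hr'⟩ := hcyc v₀ hv₀ ((g.1 : Matrix (Fin n) (Fin n) F).mulVec v₀)
      refine ⟨AdjoinRoot.mk f r', ?_⟩
      rw [Lib.Known3.Commutant.homE_mk]
      have h1 : (g.1 * x : GL (Fin n) F) = x * g.1 := Subgroup.mem_centralizer_singleton_iff.1 g.2
      have h2 : (g.1 : Matrix (Fin n) (Fin n) F) * A = A * g.1 := by
        have := congrArg Units.val h1
        simpa using this
      apply Lib.Known3.Commutant.comm_ext (T := T) (hcyc v₀ hv₀)
      · intro v
        have := Lib.Known3.Commutant.aeval_comm (S := T) (T := T) (fun _ => rfl) r' v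
        exact this.symm
      · intro v
        exact Lib.Known3.Commutant.mulVecLin_comm h2 v
      · rw [hr']
        rfl
    choose ψ hψ using hex
    let Ψ : Subgroup.centralizer ({x} : Set (GL (Fin n) F)) →* E :=
      { toFun := ψ
        map_one' := by
          apply hinj
          rw [hψ, map_one]
          ext
          simp
        map_mul' := by
          intro a b
          apply hinj
          rw [hψ, map_mul, hψ, hψ]
          apply LinearMap.ext
          intro v
          simp }
    have hΨ : Function.Injective Ψ := by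
      intro a b hab
      have h1 : Matrix.mulVecLin (a.1 : Matrix (Fin n) (Fin n) F) =
          Matrix.mulVecLin (b.1 : Matrix (Fin n) (Fin n) F) := by
        rw [← hψ, ← hψ]
        exact congrArg hom hab
      apply Subtype.ext
      apply Units.ext
      apply Matrix.mulVec_injective
      funext v
      have := LinearMap.congr_fun h1 v
      simpa using this
    exact isCyclic_of_injective_ringHom Ψ hΨ
  · rw [hC]
    have e : {w : Fin n → F // Lib.Known3.Commutant.IsCyc T w} ≃ {w : Fin n → F // w ≠ 0} := by
      apply Equiv.subtypeEquivRight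
      intro w
      constructor
      · rintro h rfl
        obtain ⟨r', hr'⟩ := h v₀
        rw [map_zero] at hr'
        exact hv₀ hr'.symm
      · exact hcyc w
    rw [Nat.card_congr e]
    simp only [Nat.card_eq_fintype_card]
    rw [Fintype.card_subtype_compl]
    simp [hq]

end Cfsg.Agent.S2638
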