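import Cfsg.Statements.S2642
import Mathlib
import Cfsg.Agent.Lib.UConj.Unip
import Cfsg.Agent.Lib.OrderP.Basic
import Cfsg.Agent.S2587
import Cfsg.Agent.S2588

set_option autoImplicit false
open Cfsg

open Matrix Cfsg.Agent.Lib.UConj Cfsg.Agent.Lib.KS2.IsoCl Cfsg.Agent.Lib.Classical Cfsg.Agent.Lib.KS2.Jordan

namespace Cfsg.Agent.S2642


/-- Number of conjugacy classes of elements of order p in the general unitary group GU_n(q), q a power of p: every unipotent Jordan type occurs and the classes correspond to the partitions of n with all parts at most p other than the all-ones partition, exactly as in GL_n; so there are (number of partitions of n with parts ≤ p) − 1 classes. -/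
theorem result {K : Type*} [Field K] [Fintype K] {p q n : ℕ} [Fact p.Prime] [CharP K p] (hK : Fintype.card K = q ^ 2) : Nat.card {C : ConjClasses ↥(Cfsg.GU n K q) // ∃ g : ↥(Cfsg.GU n K q), ConjClasses.mk g = C ∧ orderOf g = p} = (Finset.univ.filter (fun μ : Nat.Partition n => ∀ a ∈ μ.parts, a ≤ p)).card - 1 := by
  classical
  rw [← Cfsg.Agent.Lib.OrderP.card_orderP_classes (F := K) p n]
  have hord : ∀ g : ↥(Cfsg.GU n K q), orderOf g = orderOf (g : GL (Fin n) K) := fun g =>
    (orderOf_injective (Cfsg.GU n K q).subtype Subtype.val_injective g).symm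
  let f : {C : ConjClasses ↥(Cfsg.GU n K q) // ∃ g : ↥(Cfsg.GU n K q), ConjClasses.mk g = C ∧ orderOf g = p} →
      {C : ConjClasses (GL (Fin n) K) // ∃ g : GL (Fin n) K, ConjClasses.mk g = C ∧ orderOf g = p} := fun C =>
    ⟨ConjClasses.map (Cfsg.GU n K q).subtype C.1, by
      obtain ⟨C, g, rfl, hg⟩ := C
      exact ⟨(g : GL (Fin n) K), rfl, by rw [← hord, hg]⟩⟩
  apply Nat.card_congr
  refine Equiv.ofBijective f ⟨?_, ?_⟩
  · rintro ⟨_, g, rfl, hg⟩ ⟨_, g', rfl, hg'⟩ h
    have h1 : ConjClasses.mk (g : GL (Fin n) K) = ConjClasses.mk (g' : GL (Fin n) K) := congrArg Subtype.val h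
    have h2 := ConjClasses.mk_eq_mk_iff_isConj.mp h1
    apply Subtype.ext
    apply ConjClasses.mk_eq_mk_iff_isConj.mpr
    exact (Cfsg.Agent.S2587.result hK g g').mpr h2
  · rintro ⟨_, g, rfl, hg⟩
    have hnil : IsNilpotent ((g : Matrix (Fin n) (Fin n) K) - 1) :=
      nil_of_unip p g ⟨1, by rw [hg, pow_one]⟩
    have h1 := isConj_inv_adj hK g hnil
    obtain ⟨B, hB⟩ := (Cfsg.Agent.S2588.result hK g).mpr h1
    have hoB : orderOf B = p := by
      rw [hord]
      obtain ⟨c, hc⟩ := isConj_iff.mp hB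
      rw [← hc, ← hg]
      exact (MulAut.conj c).orderOf_eq g
    refine ⟨⟨ConjClasses.mk B, B, rfl, hoB⟩, ?_⟩
    apply Subtype.ext
    exact (ConjClasses.mk_eq_mk_iff_isConj.mpr hB).symm

end Cfsg.Agent.S2642
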