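import Cfsg.Statements.S2643
import Mathlib
import Cfsg.Agent.Lib.UConj.Reg2

set_option autoImplicit false
open Cfsg

open Matrix Cfsg.Agent.Lib.Classical Cfsg.Agent.Lib.KS2.IsoCl Cfsg.Agent.Lib.UConj Cfsg.Agent.Lib.KS2.Jordan

namespace Cfsg.Agent.S2643
variable {K : Type*} [Field K] [Fintype K] {q n : ℕ}

local notation "mat" g => (((g : Matrix.SpecialLinearGroup (Fin n) K) : Matrix (Fin n) (Fin n) K))

/-- An element of `SU` from a unitary matrix of determinant one. -/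
def uSU (hF : Fintype.card K = q ^ 2) (S : Matrix (Fin n) (Fin n) K) (hu : hAdj hF S * S = 1) (hd : S.det = 1) :
    ↥(Cfsg.SU n K q) :=
  ⟨⟨S, hd⟩, by
    intro u v
    show Cfsg.hermForm n K q (S *ᵥ u) (S *ᵥ v) = Cfsg.hermForm n K q u v
    rw [herm_adj hF, Matrix.mulVec_mulVec, hu, Matrix.one_mulVec]⟩

lemma uni_mul (hF : Fintype.card K = q ^ 2) {A B : Matrix (Fin n) (Fin n) K} (hA : hAdj hF A * A = 1)
    (hB : hAdj hF B * B = 1) : hAdj hF (A * B) * (A * B) = 1 := by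
  rw [hAdj_mul]
  calc hAdj hF B * hAdj hF A * (A * B) = hAdj hF B * (hAdj hF A * A) * B := by simp only [mul_assoc]
    _ = 1 := by rw [hA, mul_one, hB]

lemma uni_adj (hF : Fintype.card K = q ^ 2) {A : Matrix (Fin n) (Fin n) K} (hA : hAdj hF A * A = 1) :
    hAdj hF (hAdj hF A) * hAdj hF A = 1 := by
  rw [hAdj_hAdj]
  exact mul_eq_one_comm.mp hA

lemma det_norm (hF : Fintype.card K = q ^ 2) {A : Matrix (Fin n) (Fin n) K} (hA : hAdj hF A * A = 1) :
    A.det ^ q * A.det = 1 := by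
  have h3 := congrArg Matrix.det hA
  rwa [Matrix.det_mul, det_hAdj, Matrix.det_one, conjQ_apply] at h3

lemma isConj_of_matrix (hF : Fintype.card K = q ^ 2) (a b : ↥(Cfsg.SU n K q)) (S : Matrix (Fin n) (Fin n) K)
    (hu : hAdj hF S * S = 1) (hd : S.det = 1) (h : S * (mat (a : Matrix.SpecialLinearGroup (Fin n) K)) = (mat (b : Matrix.SpecialLinearGroup (Fin n) K)) * S) : IsConj a b := by
  refine isConj_iff.2 ⟨uSU hF S hu hd, ?_⟩
  have h3 : uSU hF S hu hd * a = b * uSU hF S hu hd := by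
    apply Subtype.ext
    apply Subtype.ext
    exact h
  rw [h3, mul_inv_cancel_right]

lemma matrix_of_isConj (hF : Fintype.card K = q ^ 2) {a b : ↥(Cfsg.SU n K q)} (h : IsConj a b) :
    ∃ S : Matrix (Fin n) (Fin n) K, hAdj hF S * S = 1 ∧ S.det = 1 ∧ S * (mat (a : Matrix.SpecialLinearGroup (Fin n) K)) = (mat (b : Matrix.SpecialLinearGroup (Fin n) K)) * S := by
  obtain ⟨c, hc⟩ := isConj_iff.1 h
  refine ⟨mat (c : Matrix.SpecialLinearGroup (Fin n) K), hAdj_mul_self hF _ c.2, (c : Matrix.SpecialLinearGroup (Fin n) K).2, ?_⟩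
  have h1 : c * a = b * c := by rw [← hc]; group
  exact congrArg (fun y : ↥(Cfsg.SU n K q) => mat (y : Matrix.SpecialLinearGroup (Fin n) K)) h1

/-- The diagonal matrix with one nontrivial entry. -/
def cd (h0 : 0 < n) (δ : K) : Matrix (Fin n) (Fin n) K :=
  Matrix.diagonal (fun i => if i = (⟨0, h0⟩ : Fin n) then δ else 1)

lemma cd_det (h0 : 0 < n) (δ : K) : (cd h0 δ).det = δ := by
  rw [cd, Matrix.det_diagonal, Finset.prod_ite_eq']
  simp

lemma cd_adj (hF : Fintype.card K = q ^ 2) (h0 : 0 < n) (δ : K) (hδ : δ ^ q * δ = 1) : hAdj hF (cd h0 δ) * cd h0 δ = 1 := by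
  have hq0 : 0 < q := by
    rcases Nat.eq_zero_or_pos q with rfl | h
    · have := Fintype.card_pos (α := K)
      simp [hF] at this
    · exact h
  ext i j
  rw [cd, Matrix.mul_diagonal, hAdj_apply]
  by_cases h3 : i = j
  · subst h3
    rw [Matrix.diagonal_apply_eq, Matrix.one_apply_eq]
    split_ifs
    · exact hδ
    · simp
  · rw [Matrix.diagonal_apply_ne _ (Ne.symm h3), Matrix.one_apply_ne h3, zero_pow hq0.ne', zero_mul]

lemma scal_adj (hF : Fintype.card K = q ^ 2) (a : K) (ha : a ^ q * a = 1) :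
    hAdj hF (a • (1 : Matrix (Fin n) (Fin n) K)) * (a • (1 : Matrix (Fin n) (Fin n) K)) = 1 := by
  rw [hAdj_smul, hAdj_one, smul_mul_smul_comm, mul_one, ha, one_smul]

lemma conj_uni (hF : Fintype.card K = q ^ 2) {c A : Matrix (Fin n) (Fin n) K} (hc : hAdj hF c * c = 1) (hA : hAdj hF A * A = 1) :
    hAdj hF (c * A * hAdj hF c) * (c * A * hAdj hF c) = 1 :=
  uni_mul hF (uni_mul hF hc hA) (uni_adj hF hc)

lemma conj_det (hF : Fintype.card K = q ^ 2) {c A : Matrix (Fin n) (Fin n) K} (hc : hAdj hF c * c = 1) (hA : A.det = 1) :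
    (c * A * hAdj hF c).det = 1 := by
  rw [Matrix.det_mul, Matrix.det_mul, hA, mul_one, det_hAdj, conjQ_apply, mul_comm]
  exact det_norm hF hc

section v

variable (hF : Fintype.card K = q ^ 2) (h0 : 0 < n) {B : Matrix (Fin n) (Fin n) K} (hB : hAdj hF B * B = 1) (hBd : B.det = 1)

/-- The conjugate of the base element by the diagonal matrix. -/
def vSU (δ : K) (hδ : δ ^ q * δ = 1) : ↥(Cfsg.SU n K q) :=
  uSU hF (cd h0 δ * B * hAdj hF (cd h0 δ)) (conj_uni hF (cd_adj hF h0 δ hδ) hB) (conj_det hF (cd_adj hF h0 δ hδ) hBd)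

lemma v_conj_of {x y a : K} (hx : x ^ q * x = 1) (hy : y ^ q * y = 1) (ha : a ^ q * a = 1) (hyx : y = x * a ^ n) :
    IsConj (vSU hF h0 hB hBd x hx) (vSU hF h0 hB hBd y hy) := by
  have ha0 : a ≠ 0 := by
    rintro rfl
    simp at ha
  have hai : (a⁻¹) ^ q * a⁻¹ = 1 := by
    rw [inv_pow, ← mul_inv, ha, inv_one]
  set A₁ : Matrix (Fin n) (Fin n) K := a⁻¹ • (1 : Matrix (Fin n) (Fin n) K) with hA₁
  have hA₁u := scal_adj (n := n) hF a⁻¹ hai
  have hcx := cd_adj hF h0 x hx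
  have hcy := cd_adj hF h0 y hy
  refine isConj_of_matrix hF _ _ (cd h0 y * A₁ * hAdj hF (cd h0 x)) (uni_mul hF (uni_mul hF hcy hA₁u) (uni_adj hF hcx)) ?_ ?_
  · rw [Matrix.det_mul, Matrix.det_mul, det_hAdj, conjQ_apply, cd_det, cd_det, hA₁, Matrix.det_smul, Matrix.det_one, mul_one,
      Fintype.card_fin, hyx, inv_pow]
    have h1 : a ^ n ≠ 0 := pow_ne_zero _ ha0
    field_simp
    rw [mul_comm]
    exact hx
  · show cd h0 y * A₁ * hAdj hF (cd h0 x) * (cd h0 x * B * hAdj hF (cd h0 x)) =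
      (cd h0 y * B * hAdj hF (cd h0 y)) * (cd h0 y * A₁ * hAdj hF (cd h0 x))
    have e1 : cd h0 y * A₁ * hAdj hF (cd h0 x) * (cd h0 x * B * hAdj hF (cd h0 x)) =
        cd h0 y * A₁ * (hAdj hF (cd h0 x) * cd h0 x) * B * hAdj hF (cd h0 x) := by simp only [mul_assoc]
    have e2 : (cd h0 y * B * hAdj hF (cd h0 y)) * (cd h0 y * A₁ * hAdj hF (cd h0 x)) =
        cd h0 y * B * (hAdj hF (cd h0 y) * cd h0 y) * A₁ * hAdj hF (cd h0 x) := by simp only [mul_assoc]
    have hcomm : A₁ * B = B * A₁ := by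
      rw [hA₁, smul_mul_assoc, mul_smul_comm, one_mul, mul_one]
    rw [e1, e2, hcx, hcy, mul_one, mul_one, mul_assoc (cd h0 y) A₁ B, hcomm, mul_assoc (cd h0 y) B A₁]

lemma of_v_conj {x y : K} (hx : x ^ q * x = 1) (hy : y ^ q * y = 1) (hn : 1 ≤ n) (hN : (B - 1) ^ n = 0) (hr : (B - 1).rank = n - 1)
    (h : IsConj (vSU hF h0 hB hBd x hx) (vSU hF h0 hB hBd y hy)) :
    ∃ a : K, a ^ q * a = 1 ∧ y ^ q * x = a ^ n := by
  obtain ⟨S, hSu, hSd, hS⟩ := matrix_of_isConj hF h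
  have hS' : S * (cd h0 x * B * hAdj hF (cd h0 x)) = (cd h0 y * B * hAdj hF (cd h0 y)) * S := hS
  have hcx := cd_adj hF h0 x hx
  have hcy := cd_adj hF h0 y hy
  have hu := uni_mul hF (uni_mul hF (uni_adj hF hcy) hSu) hcx
  obtain ⟨a, ha1, ha2⟩ := core_det hF hn B (hAdj hF (cd h0 y) * S * cd h0 x) hB hN hr hu (by
    calc hAdj hF (cd h0 y) * S * cd h0 x * B = hAdj hF (cd h0 y) * (S * (cd h0 x * B * hAdj hF (cd h0 x))) * cd h0 x := by
          calc hAdj hF (cd h0 y) * S * cd h0 x * B = hAdj hF (cd h0 y) * S * (cd h0 x * B) * 1 := by simp only [mul_assoc, mul_one]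
            _ = hAdj hF (cd h0 y) * S * (cd h0 x * B) * (hAdj hF (cd h0 x) * cd h0 x) := by rw [hcx]
            _ = _ := by simp only [mul_assoc]
      _ = hAdj hF (cd h0 y) * ((cd h0 y * B * hAdj hF (cd h0 y)) * S) * cd h0 x := by rw [hS']
      _ = (hAdj hF (cd h0 y) * cd h0 y) * B * (hAdj hF (cd h0 y) * S * cd h0 x) := by simp only [mul_assoc]
      _ = B * (hAdj hF (cd h0 y) * S * cd h0 x) := by rw [hcy, one_mul])
  refine ⟨a, ha1, ?_⟩
  rw [← ha2, Matrix.det_mul, Matrix.det_mul, det_hAdj, conjQ_apply, cd_det, cd_det, hSd, mul_one]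

lemma v_surj (hn : 1 ≤ n) (hN : (B - 1) ^ n = 0) (hr : (B - 1).rank = n - 1) (u : ↥(Cfsg.SU n K q))
    (hN' : ((mat (u : Matrix.SpecialLinearGroup (Fin n) K)) - 1) ^ n = 0) (hr' : ((mat (u : Matrix.SpecialLinearGroup (Fin n) K)) - 1).rank = n - 1) :
    ∃ (δ : K) (hδ : δ ^ q * δ = 1), IsConj (vSU hF h0 hB hBd δ hδ) u := by
  classical
  have hBu : IsUnit B.det := by rw [hBd]; exact isUnit_one
  have hUu : IsUnit (mat (u : Matrix.SpecialLinearGroup (Fin n) K)).det := by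
    have : (mat (u : Matrix.SpecialLinearGroup (Fin n) K)).det = 1 := (u : Matrix.SpecialLinearGroup (Fin n) K).2
    rw [this]; exact isUnit_one
  let g₁ : GL (Fin n) K := Matrix.GeneralLinearGroup.mk'' B hBu
  let g₂ : GL (Fin n) K := Matrix.GeneralLinearGroup.mk'' _ hUu
  have ht₁ : HasType g₁ {n} := hasType_of_reg hn g₁ hN hr
  have ht₂ : HasType g₂ {n} := hasType_of_reg hn g₂ hN' hr'
  obtain ⟨c, hc⟩ := isConj_iff.1 (isConj_of_type ht₁ ht₂)
  have hc' : (c : Matrix (Fin n) (Fin n) K) * B = (mat (u : Matrix.SpecialLinearGroup (Fin n) K)) * (c : Matrix (Fin n) (Fin n) K) := by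
    have h3 : c * g₁ = g₂ * c := by
      rw [← hc]; group
    exact congrArg (fun x : GL (Fin n) K => (x : Matrix (Fin n) (Fin n) K)) h3
  have hcdet : (c : Matrix (Fin n) (Fin n) K).det ≠ 0 :=
    ((Matrix.isUnit_iff_isUnit_det _).mp c.isUnit).ne_zero
  obtain ⟨c₁, hc₁u, hc₁⟩ := exists_unitary_conj hF B _ (c : Matrix (Fin n) (Fin n) K) hB (hAdj_mul_self hF _ u.2) hcdet hc'
  have hδ := det_norm hF hc₁u
  refine ⟨c₁.det, hδ, ?_⟩
  have hcx := cd_adj hF h0 c₁.det hδ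
  refine isConj_of_matrix hF _ _ (c₁ * hAdj hF (cd h0 c₁.det)) (uni_mul hF hc₁u (uni_adj hF hcx)) ?_ ?_
  · rw [Matrix.det_mul, det_hAdj, conjQ_apply, cd_det, mul_comm]
    exact hδ
  · show c₁ * hAdj hF (cd h0 c₁.det) * (cd h0 c₁.det * B * hAdj hF (cd h0 c₁.det)) = _
    calc c₁ * hAdj hF (cd h0 c₁.det) * (cd h0 c₁.det * B * hAdj hF (cd h0 c₁.det))
        = c₁ * (hAdj hF (cd h0 c₁.det) * cd h0 c₁.det) * B * hAdj hF (cd h0 c₁.det) := by simp only [mul_assoc]
      _ = c₁ * B * hAdj hF (cd h0 c₁.det) := by rw [hcx, mul_one]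
      _ = (mat (u : Matrix.SpecialLinearGroup (Fin n) K)) * c₁ * hAdj hF (cd h0 c₁.det) := by rw [hc₁]; rfl
      _ = _ := by simp only [mul_assoc]

end v

/-- Regular unipotent classes of SU_n(q), n ≥ 2: the elements u of the special unitary group (isometries of Σ u_i v_i^q of determinant one over the field with q² elements) with (u − 1)^n = 0 and rank(u − 1) = n − 1 form exactly gcd(n, q + 1) conjugacy classes of SU_n(q). -/
theorem result {K : Type*} [Field K] [Fintype K] {q n : ℕ} (hK : Fintype.card K = q ^ 2) (hn : 2 ≤ n) : Nat.card {C : ConjClasses ↥(Cfsg.SU n K q) // ∃ u : ↥(Cfsg.SU n K q), ConjClasses.mk u = C ∧ (((u : GL (Fin n) K) : Matrix (Fin n) (Fin n) K) - 1) ^ n = 0 ∧ (((u : GL (Fin n) K) : Matrix (Fin n) (Fin n) K) - 1).rank = n - 1} = Nat.gcd n (q + 1) := by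
  classical
  have h0 : 0 < n := by omega
  have h1 : 1 ≤ n := by omega
  have hq1 : 1 ≤ q := by
    rcases Nat.eq_zero_or_pos q with rfl | h
    · have := Fintype.card_pos (α := K)
      simp [hK] at this
    · exact h
  obtain ⟨B, hB, hBd, hN, hr⟩ := exists_reg hK h1
  let M : Subgroup Kˣ := (powMonoidHom (q + 1) : Kˣ →* Kˣ).ker
  have hMmem : ∀ x : Kˣ, x ∈ M ↔ (x : K) ^ q * (x : K) = 1 := by
    intro x
    have h2 : x ∈ M ↔ x ^ (q + 1) = 1 := MonoidHom.mem_ker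
    rw [h2, ← Units.val_inj, Units.val_pow_eq_pow_val, Units.val_one, pow_succ]
  let P : Subgroup M := (powMonoidHom n : M →* M).range
  have hcardM : Nat.card M = q + 1 := by
    have h2 := IsCyclic.card_powMonoidHom_ker (G := Kˣ) (q + 1)
    have h3 : Nat.card Kˣ = q ^ 2 - 1 := by
      rw [Nat.card_eq_fintype_card, Fintype.card_units, hK]
    rw [h3] at h2
    have h4 : (q ^ 2 - 1).gcd (q + 1) = q + 1 := by
      apply Nat.gcd_eq_right
      refine ⟨q - 1, ?_⟩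
      obtain ⟨r, rfl⟩ : ∃ r, q = r + 1 := ⟨q - 1, by omega⟩
      simp only [Nat.add_sub_cancel]
      have : (r + 1) ^ 2 = (r + 1 + 1) * r + 1 := by ring
      omega
    rw [h4] at h2
    exact h2
  have hcardQ : Nat.card (M ⧸ P) = Nat.gcd n (q + 1) := by
    have h2 : Nat.card (M ⧸ P) = P.index := rfl
    rw [h2, IsCyclic.index_powMonoidHom_range, hcardM, Nat.gcd_comm]
  rw [← hcardQ]
  let vv : M → ↥(Cfsg.SU n K q) := fun x => vSU hK h0 hB hBd ((x : Kˣ) : K) ((hMmem _).1 x.2)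
  have hreg : ∀ x : M, (((vv x : ↥(Cfsg.SU n K q)) : Matrix.SpecialLinearGroup (Fin n) K) : Matrix (Fin n) (Fin n) K) = cd h0 ((x : Kˣ) : K) * B * hAdj hK (cd h0 ((x : Kˣ) : K)) := fun _ => rfl
  have hvreg : ∀ x : M, ((((vv x : ↥(Cfsg.SU n K q)) : Matrix.SpecialLinearGroup (Fin n) K) : Matrix (Fin n) (Fin n) K) - 1) ^ n = 0 ∧
      (((vv x : ↥(Cfsg.SU n K q)) : Matrix.SpecialLinearGroup (Fin n) K) - 1 : Matrix (Fin n) (Fin n) K).rank = n - 1 := by
    intro x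
    have hcx := cd_adj hK h0 ((x : Kˣ) : K) ((hMmem _).1 x.2)
    have hdet : (cd h0 ((x : Kˣ) : K)).det ≠ 0 := by
      rw [cd_det]
      exact (x : Kˣ).ne_zero
    obtain ⟨h3, h4⟩ := reg_conj (cd h0 ((x : Kˣ) : K)) B (cd h0 ((x : Kˣ) : K) * B * hAdj hK (cd h0 ((x : Kˣ) : K))) hdet (by
      rw [mul_assoc _ _ (cd h0 ((x : Kˣ) : K)), hcx, mul_one])
    rw [hreg]
    exact ⟨h3 hN, by rw [h4, hr]⟩
  let F : M → {C : ConjClasses ↥(Cfsg.SU n K q) // ∃ u : ↥(Cfsg.SU n K q), ConjClasses.mk u = C ∧ (((u : GL (Fin n) K) : Matrix (Fin n) (Fin n) K) - 1) ^ n = 0 ∧ (((u : GL (Fin n) K) : Matrix (Fin n) (Fin n) K) - 1).rank = n - 1} :=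
    fun x => ⟨ConjClasses.mk (vv x), vv x, rfl, (hvreg x).1, (hvreg x).2⟩
  have hFeq : ∀ x y : M, (x : M ⧸ P) = (y : M ⧸ P) ↔ F x = F y := by
    intro x y
    rw [QuotientGroup.eq]
    constructor
    · rintro ⟨b, hb⟩
      apply Subtype.ext
      apply ConjClasses.mk_eq_mk_iff_isConj.2
      apply v_conj_of hK h0 hB hBd ((hMmem _).1 x.2) ((hMmem _).1 y.2) ((hMmem _).1 b.2)
      have h3 : b ^ n = x⁻¹ * y := hb
      have h4 : y = x * b ^ n := by rw [h3]; group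
      have h5 := congrArg (fun z : M => ((z : Kˣ) : K)) h4
      simpa using h5
    · intro h
      have h2 := congrArg Subtype.val h
      have h3 := ConjClasses.mk_eq_mk_iff_isConj.1 h2
      obtain ⟨a, ha1, ha2⟩ := of_v_conj hK h0 hB hBd ((hMmem _).1 x.2) ((hMmem _).1 y.2) h1 hN hr h3
      have ha0 : a ≠ 0 := by
        rintro rfl
        simp at ha1
      let au : Kˣ := Units.mk0 a ha0
      have hau : au ∈ M := (hMmem _).2 ha1
      let am : M := ⟨au, hau⟩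
      refine ⟨am⁻¹, ?_⟩
      show am⁻¹ ^ n = x⁻¹ * y
      have hy := (hMmem _).1 y.2
      have h5 : (y : Kˣ).val ^ q = ((y : Kˣ).val)⁻¹ := eq_inv_of_mul_eq_one_left hy
      rw [h5] at ha2
      have key : am ^ n = y⁻¹ * x := by
        apply Subtype.ext
        apply Units.ext
        rw [Subgroup.coe_pow, Subgroup.coe_mul, Subgroup.coe_inv, Units.val_pow_eq_pow_val, Units.val_mul, Units.val_inv_eq_inv_val]
        exact ha2.symm
      rw [inv_pow, key]
      group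
  let G : (M ⧸ P) → {C : ConjClasses ↥(Cfsg.SU n K q) // ∃ u : ↥(Cfsg.SU n K q), ConjClasses.mk u = C ∧ (((u : GL (Fin n) K) : Matrix (Fin n) (Fin n) K) - 1) ^ n = 0 ∧ (((u : GL (Fin n) K) : Matrix (Fin n) (Fin n) K) - 1).rank = n - 1} :=
    Quotient.lift F (fun a b hab => (hFeq a b).1 (Quotient.sound hab))
  have hGinj : Function.Injective G := by
    intro a b
    induction a using Quotient.inductionOn with
    | h a =>
      induction b using Quotient.inductionOn with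
      | h b =>
        intro h
        exact (hFeq a b).2 h
  have hGsurj : Function.Surjective G := by
    rintro ⟨C, u, rfl, hu1, hu2⟩
    obtain ⟨δ, hδ, hc⟩ := v_surj hK h0 hB hBd h1 hN hr u hu1 hu2
    have hδ0 : δ ≠ 0 := by
      rintro rfl
      rw [mul_zero] at hδ
      exact zero_ne_one hδ
    let au : Kˣ := Units.mk0 δ hδ0
    have hau : au ∈ M := (hMmem _).2 hδ
    refine ⟨((⟨au, hau⟩ : M) : M ⧸ P), ?_⟩
    apply Subtype.ext
    exact ConjClasses.mk_eq_mk_iff_isConj.2 hc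
  exact (Nat.card_congr (Equiv.ofBijective G ⟨hGinj, hGsurj⟩)).symm

end Cfsg.Agent.S2643
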