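import Cfsg.Statements.S2644
import Mathlib
import Cfsg.Agent.Lib.Classical.OrderUnitary
import Cfsg.Agent.Lib.Classical.UnitaryDet
import Cfsg.Agent.Lib.Classical.UnitaryCenter
import Cfsg.Agent.Lib.Classical.LinAlg

set_option autoImplicit false
open Cfsg

namespace Cfsg.Agent.S2644

open Matrix Cfsg.Agent.Lib.Classical

variable {K : Type*} [Field K] [Fintype K] {q n : ℕ}

local notation "hh" => Cfsg.hermForm n K q

/-- Normal form for transvections preserving the form. -/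
lemma exists_normal (hK : Fintype.card K = q ^ 2) (s : Matrix (Fin n) (Fin n) K)
    (hp : ∀ u v, hh (s *ᵥ u) (s *ᵥ v) = hh u v) (hT : Cfsg.IsTransvection s) :
    ∃ (a : Fin n → K) (c : K), a ≠ 0 ∧ c ≠ 0 ∧ hh a a = 0 ∧ c ^ q = -c ∧ ∀ x, s *ᵥ x = x + (c * hh x a) • a := by
  classical
  obtain ⟨hr, hsq⟩ := hT
  obtain ⟨a, b, hab⟩ := exists_vecMulVec_of_rank_one (s - 1) hr
  have ha : a ≠ 0 := by
    rintro rfl
    rw [hab] at hr
    simp at hr
  have hb : b ≠ 0 := by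
    rintro rfl
    rw [hab] at hr
    simp at hr
  have hsx : ∀ x, s *ᵥ x = x + (b ⬝ᵥ x) • a := by
    intro x
    have h1 : s = 1 + vecMulVec a b := by rw [← hab]; abel
    rw [h1, Matrix.add_mulVec, Matrix.one_mulVec, vecMulVec_mulVec']
  have hba : b ⬝ᵥ a = 0 := by
    rw [hab, Cfsg.Agent.Lib.Classical.vecMulVec_mul_vecMulVec] at hsq
    rcases smul_eq_zero.1 hsq with h | h
    · exact h
    · exfalso
      rw [hab, h] at hr
      simp at hr
  have hq := Cfsg.Agent.Lib.Classical.one_lt_q hK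
  -- (E)
  have hE : ∀ x y, (b ⬝ᵥ y) ^ q * hh x a + (b ⬝ᵥ x) * hh a y + (b ⬝ᵥ x) * (b ⬝ᵥ y) ^ q * hh a a = 0 := by
    intro x y
    have h1 := hp x y
    rw [hsx, hsx, hermForm_add_left hK, hermForm_add_right hK, hermForm_add_right hK, hermForm_smul_left,
      hermForm_smul_right, hermForm_smul_left, hermForm_smul_right] at h1
    linear_combination h1
  obtain ⟨x₀, hx₀⟩ : ∃ x₀ : Fin n → K, b ⬝ᵥ x₀ = 1 := by
    obtain ⟨j, hj⟩ := Function.ne_iff.1 hb
    refine ⟨(b j)⁻¹ • Pi.single j 1, ?_⟩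
    simp only [dotProduct_smul, smul_eq_mul]
    simp only [Pi.zero_apply] at hj
    simp [hj]
  have hker : ∀ y, b ⬝ᵥ y = 0 → hh y a = 0 := by
    intro y hy
    have h1 := hE x₀ y
    rw [hy, hx₀, zero_pow (by omega)] at h1
    simp only [zero_mul, one_mul, mul_zero, add_zero, zero_add] at h1
    rw [← hermForm_symm hK a y, h1]
    exact zero_pow (by omega)
  obtain ⟨y₀, hy₀⟩ : ∃ y, hh y a ≠ 0 := by
    by_contra hcon
    push Not at hcon
    exact ha (hermForm_nondeg_right hK hcon)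
  have hby₀ : b ⬝ᵥ y₀ ≠ 0 := fun h => hy₀ (hker y₀ h)
  let c : K := (b ⬝ᵥ y₀) / hh y₀ a
  have hc : c ≠ 0 := div_ne_zero hby₀ hy₀
  have hbc : ∀ y, b ⬝ᵥ y = c * hh y a := by
    intro y
    have h1 : b ⬝ᵥ (y - ((b ⬝ᵥ y) / (b ⬝ᵥ y₀)) • y₀) = 0 := by
      rw [dotProduct_sub, dotProduct_smul, smul_eq_mul]
      field_simp
      ring
    have h2 := hker _ h1
    rw [sub_eq_add_neg, hermForm_add_left hK, ← neg_smul, hermForm_smul_left] at h2
    have h3 : hh y a = ((b ⬝ᵥ y) / (b ⬝ᵥ y₀)) * hh y₀ a := by linear_combination h2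
    rw [h3]
    simp only [c]
    field_simp
  have hiso : hh a a = 0 := by
    have h1 := hbc a
    rw [hba] at h1
    exact (mul_eq_zero.1 h1.symm).resolve_left hc
  have hcq : c ^ q = -c := by
    have h1 := hE y₀ y₀
    rw [hiso, mul_zero, add_zero, hbc y₀, mul_pow, hermForm_symm hK y₀ a] at h1
    have h2 : hh y₀ a * hh a y₀ ≠ 0 := by
      apply mul_ne_zero hy₀
      rw [← hermForm_symm hK y₀ a]
      exact pow_ne_zero _ hy₀
    have h3 : (c ^ q + c) * (hh y₀ a * hh a y₀) = 0 := by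
      linear_combination h1
    have h4 := (mul_eq_zero.1 h3).resolve_right h2
    linear_combination h4
  refine ⟨a, c, ha, hc, hiso, hcq, fun x => ?_⟩
  rw [hsx, hbc]

/-- The standard isotropic vector. -/
lemma exists_std (hK : Fintype.card K = q ^ 2) (hn : 3 ≤ n) :
    ∃ b₀ : Fin n → K, b₀ ≠ 0 ∧ hh b₀ b₀ = 0 ∧ ∃ i₂ : Fin n, b₀ i₂ = 0 := by
  classical
  have hq := Cfsg.Agent.Lib.Classical.one_lt_q hK
  let i₀ : Fin n := ⟨0, by omega⟩
  let i₁ : Fin n := ⟨1, by omega⟩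
  let i₂ : Fin n := ⟨2, by omega⟩
  have h01 : i₀ ≠ i₁ := by simp [i₀, i₁, Fin.ext_iff]
  have h02 : i₀ ≠ i₂ := by simp [i₀, i₂, Fin.ext_iff]
  have h12 : i₁ ≠ i₂ := by simp [i₁, i₂, Fin.ext_iff]
  obtain ⟨w, hw0, hw⟩ : ∃ w : K, w ≠ 0 ∧ w ^ (q + 1) = -1 := by
    apply exists_norm_eq hK (by simp)
    rw [conjQ_neg hK, one_pow]
  refine ⟨Pi.single i₀ 1 + w • Pi.single i₁ 1, ?_, ?_, i₂, ?_⟩
  · intro h
    have := congrFun h i₀
    simp [Pi.single_apply, h01, h01.symm] at this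
  · have h1 : (Pi.single i₀ 1 + w • Pi.single i₁ 1 : Fin n → K) i₀ = 1 := by
      simp [Pi.single_apply, h01.symm, h01]
    have h2 : (Pi.single i₀ 1 + w • Pi.single i₁ 1 : Fin n → K) i₁ = w := by
      simp [Pi.single_apply, h01, h01.symm]
    rw [hermForm_add_left hK, hermForm_smul_left, hermForm_single_left, hermForm_single_left, h1, h2, one_pow]
    rw [pow_succ, mul_comm] at hw
    linear_combination hw
  · simp [Pi.single_apply, h02.symm, h12.symm]

/-- Moving isotropic vectors in `SU`. -/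
lemma exists_move (hK : Fintype.card K = q ^ 2) (b₀ : Fin n → K) (hb₀ : b₀ ≠ 0) (hb₀i : hh b₀ b₀ = 0) (i₂ : Fin n)
    (hi₂ : b₀ i₂ = 0) (a : Fin n → K) (ha : a ≠ 0) (hai : hh a a = 0) :
    ∃ g : Cfsg.SU n K q, (g.1.1 : Matrix (Fin n) (Fin n) K) *ᵥ a = b₀ := by
  classical
  have hq := Cfsg.Agent.Lib.Classical.one_lt_q hK
  have hnot : ∀ z : Fin n → K, z ≠ 0 → z ∉ (⊥ : Submodule K (Fin n → K)) := by
    intro z hz hmem
    exact hz ((Submodule.mem_bot K).mp hmem)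
  obtain ⟨g, hg, -, hgx⟩ := Cfsg.Agent.Lib.Classical.Witt.core_herm (conjQ hK) (conjQ_ne_id hK) (conjQ_conjQ hK)
    (hermB hK n) (hermB_symm hK _) (hermB_nondeg hK _) ⊥ a b₀ (hnot _ ha) (hnot _ hb₀) (by
      intro x y hx hy s t
      rw [(Submodule.mem_bot K).mp hx, (Submodule.mem_bot K).mp hy]
      simp only [zero_add, hermB_apply, hermForm_smul_left, hermForm_smul_right]
      rw [hai, hb₀i])
  let A : Matrix (Fin n) (Fin n) K := LinearMap.toMatrix' (g : (Fin n → K) →ₗ[K] (Fin n → K))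
  have hA : ∀ v, A *ᵥ v = g v := fun v => LinearMap.toMatrix'_mulVec _ v
  have hApres : ∀ u v, hh (A *ᵥ u) (A *ᵥ v) = hh u v := by
    intro u v
    rw [hA, hA]
    exact hg v u
  have hAdet : A.det ^ (q + 1) = 1 := det_pow_eq_one hK A hApres
  have hd0 : A.det ≠ 0 := by
    intro h
    rw [h, zero_pow (by omega)] at hAdet
    exact zero_ne_one hAdet
  let d : Fin n → K := Function.update 1 i₂ (A.det)⁻¹
  have hd : ∀ i, d i ^ (q + 1) = 1 := by
    intro i
    by_cases hi : i = i₂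
    · subst hi
      simp only [d, Function.update_self]
      rw [inv_pow, hAdet, inv_one]
    · simp [d, Function.update_of_ne hi]
  have hdet : (Matrix.diagonal d).det = (A.det)⁻¹ := by
    rw [Matrix.det_diagonal, Finset.prod_update_of_mem (Finset.mem_univ i₂)]
    simp
  have hdb : Matrix.diagonal d *ᵥ b₀ = b₀ := by
    funext i
    rw [Matrix.mulVec_diagonal]
    by_cases hi : i = i₂
    · subst hi
      rw [hi₂, mul_zero]
    · simp [d, Function.update_of_ne hi]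
  refine ⟨mkSU (Matrix.diagonal d * A) (by rw [Matrix.det_mul, hdet, inv_mul_cancel₀ hd0]) ?_, ?_⟩
  · intro u v
    rw [← Matrix.mulVec_mulVec, ← Matrix.mulVec_mulVec, diagonal_pres hK d hd, hApres]
  · change (Matrix.diagonal d * A) *ᵥ a = b₀
    rw [← Matrix.mulVec_mulVec, hA, hgx, hdb]

/-- In the special unitary group SU_n(q) with n ≥ 3 (isometries of Σ u_i v_i^q of determinant one over the field with q² elements), any two transvections (elements t with t − 1 of rank one and square zero) are conjugate. -/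
theorem result {K : Type*} [Field K] [Fintype K] {q n : ℕ} (hK : Fintype.card K = q ^ 2) (hn : 3 ≤ n) (s t : ↥(Cfsg.SU n K q)) (hs : Cfsg.IsTransvection (((s : GL (Fin n) K) : Matrix (Fin n) (Fin n) K))) (ht : Cfsg.IsTransvection (((t : GL (Fin n) K) : Matrix (Fin n) (Fin n) K))) : IsConj s t := by
  classical
  have hq := Cfsg.Agent.Lib.Classical.one_lt_q hK
  obtain ⟨a, c, ha, hc, hai, hcq, hsx⟩ := exists_normal hK s.1.1 s.2 hs
  obtain ⟨b, e, hb, he, hbi, heq, htx⟩ := exists_normal hK t.1.1 t.2 ht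
  obtain ⟨d, hd0, hd⟩ := exists_norm_eq hK (μ := c / e) (div_ne_zero hc he) (by
    rw [div_pow, hcq, heq, neg_div_neg_eq])
  have hsx' : ∀ x, s.1.1 *ᵥ x = x + (e * Cfsg.hermForm n K q x (d • a)) • (d • a) := by
    intro x
    rw [hsx, hermForm_smul_right, smul_smul]
    congr 2
    rw [pow_succ] at hd
    have h1 : c = e * (d ^ q * d) := by
      rw [hd]
      field_simp
    rw [h1]
    ring
  have hda : d • a ≠ 0 := smul_ne_zero hd0 ha
  have hdai : Cfsg.hermForm n K q (d • a) (d • a) = 0 := by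
    rw [hermForm_smul_left, hermForm_smul_right, hai]
    simp
  obtain ⟨b₀, hb₀, hb₀i, i₂, hi₂⟩ := exists_std (K := K) (q := q) hK hn
  obtain ⟨g₁, hg₁⟩ := exists_move hK b₀ hb₀ hb₀i i₂ hi₂ _ hda hdai
  obtain ⟨g₂, hg₂⟩ := exists_move hK b₀ hb₀ hb₀i i₂ hi₂ _ hb hbi
  have hmv : ∀ (h : Cfsg.SU n K q) (v : Fin n → K), ((h⁻¹).1.1 : Matrix (Fin n) (Fin n) K) *ᵥ ((h.1.1 : Matrix (Fin n) (Fin n) K) *ᵥ v) = v := by
    intro h v
    rw [Matrix.mulVec_mulVec]
    have : ((h⁻¹).1.1 : Matrix (Fin n) (Fin n) K) * h.1.1 = 1 :=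
      congrArg (fun z : Cfsg.SU n K q => (z.1.1 : Matrix (Fin n) (Fin n) K)) (inv_mul_cancel h)
    rw [this, Matrix.one_mulVec]
  let g : Cfsg.SU n K q := g₂⁻¹ * g₁
  have hg : (g.1.1 : Matrix (Fin n) (Fin n) K) *ᵥ (d • a) = b := by
    change (((g₂⁻¹).1.1 : Matrix (Fin n) (Fin n) K) * g₁.1.1) *ᵥ _ = b
    rw [← Matrix.mulVec_mulVec, hg₁, ← hg₂, hmv]
  have hgp : ∀ u v, Cfsg.hermForm n K q ((g.1.1 : Matrix (Fin n) (Fin n) K) *ᵥ u) ((g.1.1 : Matrix (Fin n) (Fin n) K) *ᵥ v) = Cfsg.hermForm n K q u v := g.2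
  have hcomm : g * s = t * g := by
    apply Subtype.ext
    apply Subtype.ext
    apply Matrix.mulVec_injective
    funext x
    change ((g.1.1 : Matrix (Fin n) (Fin n) K) * s.1.1) *ᵥ x = ((t.1.1 : Matrix (Fin n) (Fin n) K) * g.1.1) *ᵥ x
    rw [← Matrix.mulVec_mulVec, ← Matrix.mulVec_mulVec, hsx', htx, Matrix.mulVec_add, Matrix.mulVec_smul, hg, ← hg, hgp]
  exact isConj_iff.2 ⟨g, by rw [hcomm, mul_inv_cancel_right]⟩

end Cfsg.Agent.S2644
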