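import Cfsg.Statements.S2646
import Mathlib
import Cfsg.Agent.Lib.JType.UIso
import Cfsg.Agent.S0277

set_option autoImplicit false
open Cfsg

open Matrix Cfsg.Agent.Lib.JType Cfsg.Agent.Lib.Classical Cfsg.Agent.Lib.KS2.IsoCl Cfsg.Agent.Lib.Known3.UOrders

namespace Cfsg.Agent.S2646


/-- Order of the centraliser in the general unitary group GU_n(q) of a unipotent element of given Jordan type: if u ∈ GU_n(q) (isometries of Σ u_i v_i^q over the field with q² elements) is similar to the unipotent matrix with a_i Jordan blocks of size i (all sizes at least 1), then its centraliser in GU_n(q) has order q^γ · Π_i |GU_(a_i)(q)| with γ = 2 Σ_(i<j) i a_i a_j + Σ_i (i − 1) a_i², the same exponent as in GL_n(q), where |GU_a(q)| = q^(a(a−1)/2) Π_(k=1)^a (q^k − (−1)^k). -/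
theorem result {K : Type*} [Field K] [Fintype K] {q n t : ℕ} (hK : Fintype.card K = q ^ 2) (d : Fin t → ℕ) (hd : ∀ k, 1 ≤ d k) (e : ((k : Fin t) × Fin (d k)) ≃ Fin n) (u : ↥(Cfsg.GU n K q)) (hu : IsConj (Matrix.reindex e e (Cfsg.jordanTypeMatrix d K)) ((u : GL (Fin n) K) : Matrix (Fin n) (Fin n) K)) : (Nat.card ↥(Subgroup.centralizer ({u} : Set ↥(Cfsg.GU n K q))) : ℤ) = (q : ℤ) ^ (2 * (∑ i ∈ Finset.range (Finset.univ.sup d + 1), ∑ j ∈ Finset.range (Finset.univ.sup d + 1), if i < j then i * (Finset.univ.filter (fun k : Fin t => d k = i)).card * (Finset.univ.filter (fun k : Fin t => d k = j)).card else 0) + ∑ i ∈ Finset.range (Finset.univ.sup d + 1), (i - 1) * (Finset.univ.filter (fun k : Fin t => d k = i)).card ^ 2) * ∏ i ∈ Finset.range (Finset.univ.sup d + 1), ((q : ℤ) ^ ((Finset.univ.filter (fun k : Fin t => d k = i)).card * ((Finset.univ.filter (fun k : Fin t => d k = i)).card - 1) / 2) * ∏ j : Fin (Finset.univ.filter (fun k : Fin t => d k = i)).card, ((q : ℤ) ^ ((j : ℕ) + 1) -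 (-1) ^ ((j : ℕ) + 1))) := by
  classical
  set J := Cfsg.jordanTypeMatrix d K with hJ
  obtain ⟨c, hc⟩ := hu
  have hc' : (c : Matrix (Fin n) (Fin n) K) * Matrix.reindex e e J = um u * (c : Matrix (Fin n) (Fin n) K) := hc
  have hcd : (c : Matrix (Fin n) (Fin n) K).det ≠ 0 := ((Matrix.isUnit_iff_isUnit_det _).1 c.isUnit).ne_zero
  let P : Matrix (Idx d) (Idx d) K := (c : Matrix (Fin n) (Fin n) K).submatrix e e
  let U : Matrix (Idx d) (Idx d) K := (um u).submatrix e e
  have hreJ : (Matrix.reindex e e J).submatrix e e = J := by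
    ext x y
    simp [Matrix.reindex_apply]
  have hPJ : P * J = U * P := by
    calc P * J = ((c : Matrix (Fin n) (Fin n) K) * Matrix.reindex e e J).submatrix e e := by
          rw [← Matrix.submatrix_mul_equiv _ _ e e e, hreJ]
      _ = U * P := by
          rw [hc', ← Matrix.submatrix_mul_equiv _ _ e e e]
  have hPd : P.det ≠ 0 := by
    rwa [Matrix.det_submatrix_equiv_self]
  have hPu : IsUnit P.det := IsUnit.mk0 _ hPd
  have hPi : P⁻¹ * P = 1 := Matrix.nonsing_inv_mul _ hPu
  have hPi' : P * P⁻¹ = 1 := Matrix.mul_nonsing_inv _ hPu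
  have hadjsub : ∀ A : Matrix (Fin n) (Fin n) K, adj hK (A.submatrix e e) = (hAdj hK A).submatrix e e := by
    intro A
    ext x y
    rfl
  have hsub1 : ((1 : Matrix (Fin n) (Fin n) K)).submatrix e e = 1 := by
    ext x y
    simp [Matrix.one_apply]
  have hU : adj hK U * U = 1 := by
    show adj hK ((um u).submatrix e e) * (um u).submatrix e e = 1
    rw [hadjsub, Matrix.submatrix_mul_equiv, hAdj_um, hsub1]
  have hadjJ : adj hK J = Jᵀ := adj_jordan hK
  let Γ₀ : Matrix (Idx d) (Idx d) K := adj hK P * P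
  have hinv : IsInv Γ₀ := by
    show Jᵀ * (adj hK P * P) * J = adj hK P * P
    calc Jᵀ * (adj hK P * P) * J = adj hK (P * J) * (P * J) := by
          rw [adj_mul, hadjJ]
          simp only [mul_assoc]
      _ = adj hK P * (adj hK U * U) * P := by
          rw [hPJ, adj_mul]
          simp only [mul_assoc]
      _ = _ := by rw [hU, mul_one]
  have hH : adj hK Γ₀ = Γ₀ := by
    show adj hK (adj hK P * P) = adj hK P * P
    rw [adj_mul, adj_adj]
  have hdet : Γ₀.det ≠ 0 := by
    show (adj hK P * P).det ≠ 0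
    rw [Matrix.det_mul]
    exact mul_ne_zero (det_adj_ne hK hPd) hPd
  have hcard := card_iso hK hd hinv hH hdet
  have hJP : P⁻¹ * U = J * P⁻¹ := by
    calc P⁻¹ * U = P⁻¹ * U * (P * P⁻¹) := by rw [hPi', mul_one]
      _ = P⁻¹ * (U * P) * P⁻¹ := by simp only [mul_assoc]
      _ = P⁻¹ * (P * J) * P⁻¹ := by rw [hPJ]
      _ = (P⁻¹ * P) * J * P⁻¹ := by simp only [mul_assoc]
      _ = _ := by rw [hPi, one_mul]
  have hequiv : Nat.card ↥(Subgroup.centralizer ({u} : Set ↥(Cfsg.GU n K q))) = Nat.card ((UG hK Γ₀).subgroupOf (CG d K)) := by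
    have key1 : ∀ g : ↥(Cfsg.GU n K q), adj hK ((um g).submatrix e e) * (um g).submatrix e e = 1 := by
      intro g
      rw [hadjsub, Matrix.submatrix_mul_equiv, hAdj_um, hsub1]
    have key2 : ∀ g : ↥(Cfsg.GU n K q), (P⁻¹ * (um g).submatrix e e * P).det ≠ 0 := by
      intro g
      have h1 : ((um g).submatrix e e).det ≠ 0 := by
        intro h0
        have := congrArg Matrix.det (key1 g)
        rw [Matrix.det_mul, h0, mul_zero, Matrix.det_one] at this
        exact zero_ne_one this
      rw [Matrix.det_mul, Matrix.det_mul, Matrix.det_nonsing_inv]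
      refine mul_ne_zero (mul_ne_zero ?_ h1) hPd
      simp [hPd]
    have key3 : ∀ g : ↥(Subgroup.centralizer ({u} : Set ↥(Cfsg.GU n K q))),
        (um g.1).submatrix e e * U = U * (um g.1).submatrix e e := by
      intro g
      have h1 : u * g.1 = g.1 * u := Subgroup.mem_centralizer_iff.1 g.2 u rfl
      have h2 : um u * um g.1 = um g.1 * um u := congrArg um h1
      show (um g.1).submatrix e e * (um u).submatrix e e = (um u).submatrix e e * (um g.1).submatrix e e
      rw [Matrix.submatrix_mul_equiv, Matrix.submatrix_mul_equiv, h2]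
    have hadjPi : adj hK P⁻¹ * adj hK P = 1 := by
      rw [← adj_mul, hPi', adj_one]
    have key4 : ∀ W : Matrix (Idx d) (Idx d) K, adj hK W * Γ₀ * W = Γ₀ → adj hK (P * W * P⁻¹) * (P * W * P⁻¹) = 1 := by
      intro W hW
      calc adj hK (P * W * P⁻¹) * (P * W * P⁻¹) = adj hK P⁻¹ * (adj hK W * Γ₀ * W) * P⁻¹ := by
            rw [adj_mul, adj_mul]
            show adj hK P⁻¹ * (adj hK W * adj hK P) * (P * W * P⁻¹) = adj hK P⁻¹ * (adj hK W * (adj hK P * P) * W) * P⁻¹
            simp only [mul_assoc]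
        _ = adj hK P⁻¹ * Γ₀ * P⁻¹ := by rw [hW]
        _ = (adj hK P⁻¹ * adj hK P) * (P * P⁻¹) := by
            show adj hK P⁻¹ * (adj hK P * P) * P⁻¹ = _
            simp only [mul_assoc]
        _ = 1 := by rw [hadjPi, hPi', one_mul]
    have subsub : ∀ A : Matrix (Fin n) (Fin n) K, (A.submatrix e e).submatrix e.symm e.symm = A := by
      intro A
      ext i j
      simp
    have subsub' : ∀ B : Matrix (Idx d) (Idx d) K, (B.submatrix e.symm e.symm).submatrix e e = B := by
      intro B
      ext i j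
      simp
    have key5 : ∀ W : Matrix (Idx d) (Idx d) K, adj hK W * Γ₀ * W = Γ₀ →
        hAdj hK ((P * W * P⁻¹).submatrix e.symm e.symm) * (P * W * P⁻¹).submatrix e.symm e.symm = 1 := by
      intro W hW
      have h1 : hAdj hK ((P * W * P⁻¹).submatrix e.symm e.symm) = (adj hK (P * W * P⁻¹)).submatrix e.symm e.symm := by
        ext i j
        rfl
      rw [h1, Matrix.submatrix_mul_equiv, key4 W hW]
      ext i j
      simp [Matrix.one_apply]
    refine Nat.card_congr ⟨fun g => ⟨⟨Matrix.GeneralLinearGroup.mkOfDetNeZero _ (key2 g.1), ?_⟩, ?_⟩,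
      fun x => ⟨mkU hK _ (key5 ((x.1.1 : GL (Idx d) K) : Matrix (Idx d) (Idx d) K) (Subgroup.mem_subgroupOf.1 x.2)), ?_⟩, ?_, ?_⟩
    · show (P⁻¹ * (um g.1).submatrix e e * P) * J = J * (P⁻¹ * (um g.1).submatrix e e * P)
      calc (P⁻¹ * (um g.1).submatrix e e * P) * J = P⁻¹ * (um g.1).submatrix e e * (P * J) := by simp only [mul_assoc]
        _ = P⁻¹ * ((um g.1).submatrix e e * U) * P := by rw [hPJ]; simp only [mul_assoc]
        _ = (P⁻¹ * U) * (um g.1).submatrix e e * P := by rw [key3 g]; simp only [mul_assoc]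
        _ = _ := by rw [hJP]; simp only [mul_assoc]
    · apply Subgroup.mem_subgroupOf.2
      show adj hK (P⁻¹ * (um g.1).submatrix e e * P) * Γ₀ * (P⁻¹ * (um g.1).submatrix e e * P) = Γ₀
      calc adj hK (P⁻¹ * (um g.1).submatrix e e * P) * Γ₀ * (P⁻¹ * (um g.1).submatrix e e * P)
          = adj hK P * adj hK ((um g.1).submatrix e e) * (adj hK P⁻¹ * adj hK P) * (P * P⁻¹) * (um g.1).submatrix e e * P := by
            rw [adj_mul, adj_mul]
            show adj hK P * (adj hK ((um g.1).submatrix e e) * adj hK P⁻¹) * (adj hK P * P) * (P⁻¹ * (um g.1).submatrix e e * P) = _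
            simp only [mul_assoc]
        _ = adj hK P * (adj hK ((um g.1).submatrix e e) * (um g.1).submatrix e e) * P := by
            rw [hadjPi, hPi']
            simp only [mul_one, mul_assoc]
        _ = Γ₀ := by rw [key1, mul_one]
    · have hW1 : ((x.1.1 : GL (Idx d) K) : Matrix (Idx d) (Idx d) K) * J = J * ((x.1.1 : GL (Idx d) K) : Matrix (Idx d) (Idx d) K) := x.1.2
      apply Subgroup.mem_centralizer_iff.2
      intro h hh
      have hh' : h = u := hh
      rw [hh']
      apply um_ext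
      show um u * (P * ((x.1.1 : GL (Idx d) K) : Matrix (Idx d) (Idx d) K) * P⁻¹).submatrix e.symm e.symm =
        (P * ((x.1.1 : GL (Idx d) K) : Matrix (Idx d) (Idx d) K) * P⁻¹).submatrix e.symm e.symm * um u
      set W := ((x.1.1 : GL (Idx d) K) : Matrix (Idx d) (Idx d) K) with hW
      have h1 : um u = U.submatrix e.symm e.symm := (subsub _).symm
      rw [h1, Matrix.submatrix_mul_equiv, Matrix.submatrix_mul_equiv]
      congr 1
      calc U * (P * W * P⁻¹) = (U * P) * W * P⁻¹ := by simp only [mul_assoc]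
        _ = P * (J * W) * P⁻¹ := by rw [← hPJ]; simp only [mul_assoc]
        _ = P * W * (J * P⁻¹) := by rw [← hW1]; simp only [mul_assoc]
        _ = _ := by rw [← hJP]; simp only [mul_assoc]
    · intro g
      apply Subtype.ext
      apply um_ext
      show (P * (P⁻¹ * (um g.1).submatrix e e * P) * P⁻¹).submatrix e.symm e.symm = um g.1
      have h1 : P * (P⁻¹ * (um g.1).submatrix e e * P) * P⁻¹ = (um g.1).submatrix e e := by
        calc P * (P⁻¹ * (um g.1).submatrix e e * P) * P⁻¹ = (P * P⁻¹) * (um g.1).submatrix e e * (P * P⁻¹) := by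
              simp only [mul_assoc]
          _ = _ := by rw [hPi', one_mul, mul_one]
      rw [h1, subsub]
    · intro x
      apply Subtype.ext
      apply Subtype.ext
      apply Units.ext
      show P⁻¹ * ((P * ((x.1.1 : GL (Idx d) K) : Matrix (Idx d) (Idx d) K) * P⁻¹).submatrix e.symm e.symm).submatrix e e * P =
        ((x.1.1 : GL (Idx d) K) : Matrix (Idx d) (Idx d) K)
      rw [subsub']
      calc P⁻¹ * (P * ((x.1.1 : GL (Idx d) K) : Matrix (Idx d) (Idx d) K) * P⁻¹) * P
          = (P⁻¹ * P) * ((x.1.1 : GL (Idx d) K) : Matrix (Idx d) (Idx d) K) * (P⁻¹ * P) := by simp only [mul_assoc]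
        _ = _ := by rw [hPi, one_mul, mul_one]
  rw [hequiv, hcard, card_R hd]
  push_cast
  rw [← Fin.prod_univ_eq_prod_range (fun i => (q : ℤ) ^ ((Finset.univ.filter (fun k : Fin t => d k = i)).card * ((Finset.univ.filter (fun k : Fin t => d k = i)).card - 1) / 2) * ∏ j : Fin (Finset.univ.filter (fun k : Fin t => d k = i)).card, ((q : ℤ) ^ ((j : ℕ) + 1) - (-1) ^ ((j : ℕ) + 1)))]
  congr 1
  apply Finset.prod_congr rfl
  intro i _
  rw [Cfsg.Agent.S0277.result hK, Fintype.card_subtype]
  push_cast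
  congr 1
  rw [Fin.prod_univ_eq_prod_range (fun j => (q : ℤ) ^ (j + 1) - (-1) ^ (j + 1))]
  apply Finset.prod_congr rfl
  intro j _
  have hq := Cfsg.Agent.Lib.Classical.one_lt_q hK
  split_ifs with hj
  · rw [Odd.neg_one_pow (hj.add_one)]
    push_cast
    ring
  · rw [Even.neg_one_pow ((Nat.not_even_iff_odd.1 hj).add_one)]
    rw [Nat.cast_sub (Nat.one_le_pow _ _ (by omega))]
    push_cast
    ring

end Cfsg.Agent.S2646
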