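import Cfsg.Statements.S2665
import Mathlib

set_option autoImplicit false
open scoped MatrixGroups
open Cfsg

namespace Cfsg.Agent.S2665

universe u v

section

variable {K : Type u} [Field K] [IsAlgClosed K]

lemma exists_artin_schreier (q : ℕ) (hq : 2 ≤ q) (c : K) : ∃ t : K, t ^ q - t = c := by
  have hdeg : (Polynomial.X ^ q - (Polynomial.X + Polynomial.C c) : Polynomial K).degree ≠ 0 := by
    have h1 : (Polynomial.X + Polynomial.C c : Polynomial K).degree < (Polynomial.X ^ q : Polynomial K).degree := by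
      rw [Polynomial.degree_X_add_C, Polynomial.degree_X_pow]
      exact_mod_cast (by omega : 1 < q)
    rw [Polynomial.degree_sub_eq_left_of_degree_lt h1, Polynomial.degree_X_pow]
    exact_mod_cast (by omega : q ≠ 0)
  obtain ⟨t, ht⟩ := IsAlgClosed.exists_root _ hdeg
  refine ⟨t, ?_⟩
  simp only [Polynomial.IsRoot, Polynomial.eval_sub, Polynomial.eval_pow, Polynomial.eval_X,
    Polynomial.eval_add, Polynomial.eval_C] at ht
  linear_combination ht

/-- The polynomials of the additive recursion. -/
noncomputable def RR (q : ℕ) (a : ℕ → K) : ℕ → Polynomial K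
  | 0 => Polynomial.C (a 0)
  | i + 1 => Polynomial.X ^ (q ^ 2 - q) * (RR q a i) ^ q + Polynomial.C (a (i + 1))

lemma RR_ne_zero (q : ℕ) (hq : 2 ≤ q) (a : ℕ → K) (h0 : a 0 ≠ 0) (i : ℕ) : RR q a i ≠ 0 := by
  induction i with
  | zero =>
    simpa [RR] using h0
  | succ i ih =>
    simp only [RR]
    have hP : (RR q a i) ^ q ≠ 0 := pow_ne_zero _ ih
    have hd : (Polynomial.X ^ (q ^ 2 - q) * (RR q a i) ^ q).natDegree ≠ 0 := by
      rw [Polynomial.natDegree_mul (pow_ne_zero _ Polynomial.X_ne_zero) hP, Polynomial.natDegree_X_pow]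
      have : q < q ^ 2 := by nlinarith
      omega
    intro h
    apply hd
    rw [eq_neg_of_add_eq_zero_left h, ← Polynomial.C_neg, Polynomial.natDegree_C]

/-- The existence of a non-zero solution of the additive equation. -/
lemma exists_sol (q : ℕ) (hq : 2 ≤ q) (a : ℕ → K) (h0 : a 0 ≠ 0) (k : ℕ) :
    ∃ s : K, s ≠ 0 ∧ s ^ q * (RR q a k).eval s = s := by
  have hR := RR_ne_zero q hq a h0 k
  have hdeg : (Polynomial.X ^ (q - 1) * RR q a k - Polynomial.C 1 : Polynomial K).degree ≠ 0 := by
    have h1 : (Polynomial.X ^ (q - 1) * RR q a k - Polynomial.C 1 : Polynomial K).natDegree ≠ 0 := by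
      rw [Polynomial.natDegree_sub_C, Polynomial.natDegree_mul (pow_ne_zero _ Polynomial.X_ne_zero) hR, Polynomial.natDegree_X_pow]
      omega
    intro h
    exact h1 (Polynomial.natDegree_eq_of_degree_eq_some h)
  obtain ⟨s, hs⟩ := IsAlgClosed.exists_root _ hdeg
  simp only [Polynomial.IsRoot, Polynomial.eval_sub, Polynomial.eval_mul, Polynomial.eval_pow,
    Polynomial.eval_X, Polynomial.eval_C] at hs
  have hs0 : s ≠ 0 := by
    rintro rfl
    rw [zero_pow (by omega)] at hs
    simp at hs
  refine ⟨s, hs0, ?_⟩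
  have h1 : s ^ q = s * s ^ (q - 1) := by
    rw [← pow_succ']
    congr 1
    omega
  rw [h1]
  linear_combination s * hs

variable {V : Type v} [AddCommGroup V] [Module K V] [FiniteDimensional K V]

/-- Existence of a non-zero fixed vector. -/
theorem exists_fixed (σ : K →+* K) (q : ℕ) (hq : 2 ≤ q) (hσ : ∀ x, σ x = x ^ q)
    (φ : V →ₛₗ[σ] V) (hφ : Function.Injective φ) [Nontrivial V] : ∃ w : V, w ≠ 0 ∧ φ w = w := by
  classical
  obtain ⟨v₀, hv₀⟩ := exists_ne (0 : V)
  let vv : ℕ → V := fun i => φ^[i] v₀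
  have hvv : ∀ i, φ (vv i) = vv (i + 1) := fun i => (Function.iterate_succ_apply' φ i v₀).symm
  let PP : ℕ → Prop := fun k => LinearIndependent K (fun i : Fin k => vv i)
  have hP1 : PP 1 := by
    change LinearIndependent K (fun i : Fin 1 => vv i)
    rw [Fintype.linearIndependent_iff]
    intro g hg i
    have hi : i = 0 := Subsingleton.elim _ _
    subst hi
    simp only [Fin.sum_univ_one] at hg
    exact (smul_eq_zero.1 hg).resolve_right hv₀
  have hPbig : ¬ PP (Module.finrank K V + 1) := by
    intro h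
    have := h.fintype_card_le_finrank
    simp at this
  -- find the first failure
  obtain ⟨k', hk1, hk2⟩ : ∃ k, PP (k + 1) ∧ ¬ PP (k + 2) := by
    by_contra hcon
    push Not at hcon
    have hall : ∀ k, PP (k + 1) := by
      intro k
      induction k with
      | zero => exact hP1
      | succ k ih => exact hcon k ih
    exact hPbig (hall _)
  -- the relation
  have hmem : vv (k' + 1) ∈ Submodule.span K (Set.range (fun i : Fin (k' + 1) => vv i)) := by
    by_contra hcon
    apply hk2
    change LinearIndependent K (fun i : Fin (k' + 2) => vv i)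
    rw [linearIndependent_finSucc']
    exact ⟨hk1, hcon⟩
  obtain ⟨a', ha'⟩ := (Submodule.mem_span_range_iff_exists_fun K).1 hmem
  let a : ℕ → K := fun i => if h : i < k' + 1 then a' ⟨i, h⟩ else 0
  have hrel : ∑ i ∈ Finset.range (k' + 1), a i • vv i = vv (k' + 1) := by
    rw [← ha', ← Fin.sum_univ_eq_sum_range (fun i => a i • vv i)]
    refine Finset.sum_congr rfl fun i _ => ?_
    rw [show a i = a' i from dif_pos i.2]
  have hind : ∀ c : ℕ → K, ∑ i ∈ Finset.range (k' + 1), c i • vv i = 0 → ∀ i < k' + 1, c i = 0 := by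
    intro c hc i hi
    rw [← Fin.sum_univ_eq_sum_range (fun i => c i • vv i)] at hc
    exact Fintype.linearIndependent_iff.1 hk1 (fun i => c i) hc ⟨i, hi⟩
  -- the leading coefficient is non-zero
  have ha0 : a 0 ≠ 0 := by
    intro h0
    -- choose q-th roots
    have hroot : ∀ i : ℕ, ∃ b : K, σ b = a (i + 1) := by
      intro i
      obtain ⟨b, hb⟩ := IsAlgClosed.exists_pow_nat_eq (a (i + 1)) (by omega : 0 < q)
      exact ⟨b, by rw [hσ, hb]⟩
    choose b hb using hroot
    have h1 : φ (∑ i ∈ Finset.range k', b i • vv i) = φ (vv k') := by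
      rw [map_sum, hvv, ← hrel, Finset.sum_range_succ' _ k', h0, zero_smul, add_zero]
      refine Finset.sum_congr rfl fun i _ => ?_
      rw [LinearMap.map_smulₛₗ, hb, hvv]
    have h2 := hφ h1
    have h3 := hind (fun i => if i < k' then b i else -1) (by
      rw [Finset.sum_range_succ]
      simp only [lt_irrefl, if_false, neg_smul, one_smul]
      rw [Finset.sum_congr rfl (g := fun i => b i • vv i) (fun i hi => by
        simp [Finset.mem_range.1 hi]), h2]
      simp) k' (by omega)
    simp at h3
  -- the solution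
  obtain ⟨s, hs0, hs⟩ := exists_sol q hq a ha0 k'
  let t : ℕ → K := fun i => s ^ q * (RR q a i).eval s
  have ht0 : t 0 = s ^ q * a 0 := by simp [t, RR]
  have ht1 : ∀ i, t (i + 1) = t i ^ q + s ^ q * a (i + 1) := by
    intro i
    simp only [t, RR, Polynomial.eval_add, Polynomial.eval_mul, Polynomial.eval_pow, Polynomial.eval_X,
      Polynomial.eval_C]
    have h1 : (s ^ q) ^ q = s ^ q * s ^ (q ^ 2 - q) := by
      rw [← pow_mul, ← pow_add]
      congr 1
      have : q ≤ q ^ 2 := by nlinarith
      rw [pow_two]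
      rw [pow_two] at this
      omega
    rw [mul_pow, h1]
    ring
  have htl : t k' = s := hs
  refine ⟨∑ i ∈ Finset.range (k' + 1), t i • vv i, ?_, ?_⟩
  · intro h0
    have := hind t h0 k' (by omega)
    rw [htl] at this
    exact hs0 this
  · have e1 : φ (∑ i ∈ Finset.range (k' + 1), t i • vv i) =
        ∑ i ∈ Finset.range k', (t i) ^ q • vv (i + 1) + s ^ q • vv (k' + 1) := by
      rw [map_sum, Finset.sum_range_succ, LinearMap.map_smulₛₗ, hvv, htl, hσ]
      congr 1
      refine Finset.sum_congr rfl fun i _ => ?_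
      rw [LinearMap.map_smulₛₗ, hvv, hσ]
    have e2 : s ^ q • vv (k' + 1) = ∑ i ∈ Finset.range k', (s ^ q * a (i + 1)) • vv (i + 1) +
        (s ^ q * a 0) • vv 0 := by
      rw [← hrel, Finset.sum_range_succ', smul_add, Finset.smul_sum]
      simp only [smul_smul]
    have e3 : ∑ i ∈ Finset.range (k' + 1), t i • vv i =
        ∑ i ∈ Finset.range k', t (i + 1) • vv (i + 1) + t 0 • vv 0 := Finset.sum_range_succ' _ _
    rw [e1, e2, e3, ht0, ← add_assoc, ← Finset.sum_add_distrib]
    congr 1
    refine Finset.sum_congr rfl fun i _ => ?_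
    rw [← add_smul, ht1]

/-- The fixed vectors span. -/
theorem span_fixed (σ : K →+* K) (q : ℕ) (hq : 2 ≤ q) (hσ : ∀ x, σ x = x ^ q)
    (φ : V →ₛₗ[σ] V) (hφ : Function.Injective φ) : Submodule.span K {v | φ v = v} = ⊤ := by
  classical
  haveI : RingHomSurjective σ := ⟨fun a => by
    obtain ⟨b, hb⟩ := IsAlgClosed.exists_pow_nat_eq a (by omega : 0 < q)
    exact ⟨b, by rw [hσ, hb]⟩⟩
  set U := Submodule.span K {v | φ v = v} with hU
  have hle : U ≤ U.comap φ := by
    rw [hU, Submodule.span_le]
    intro v hv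
    have h : φ v = v := hv
    change φ v ∈ U
    rw [h]
    exact Submodule.subset_span hv
  have hle2 : U ≤ U.map φ := by
    rw [hU, Submodule.span_le]
    intro v hv
    exact ⟨v, Submodule.subset_span hv, hv⟩
  by_contra hne
  have hlt : U < ⊤ := lt_top_iff_ne_top.2 hne
  haveI : Nontrivial (V ⧸ U) := Submodule.Quotient.nontrivial_iff.2 hne
  let Φ : (V ⧸ U) →ₛₗ[σ] (V ⧸ U) := U.mapQ U φ hle
  have hΦ : Function.Injective Φ := by
    rw [injective_iff_map_eq_zero]
    intro x hx
    obtain ⟨v, rfl⟩ := Submodule.Quotient.mk_surjective U x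
    have h1 : φ v ∈ U := by
      rw [← Submodule.Quotient.mk_eq_zero]; exact hx
    obtain ⟨u, hu, h2⟩ := hle2 h1
    have h3 := hφ h2
    rw [Submodule.Quotient.mk_eq_zero, ← h3]
    exact hu
  obtain ⟨w, hw0, hw⟩ := exists_fixed σ q hq hσ Φ hΦ
  obtain ⟨v, rfl⟩ := Submodule.Quotient.mk_surjective U w
  have h3 : φ v - v ∈ U := by
    rw [← Submodule.Quotient.mk_eq_zero, Submodule.Quotient.mk_sub, sub_eq_zero]
    exact hw
  have key : ∀ u ∈ U, ∀ c : K, ∃ u' ∈ U, φ u' - u' = c • u := by
    intro u hu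
    induction hu using Submodule.span_induction with
    | mem x hx =>
      intro c
      obtain ⟨t, ht⟩ := exists_artin_schreier q hq c
      refine ⟨t • x, U.smul_mem _ (Submodule.subset_span hx), ?_⟩
      rw [LinearMap.map_smulₛₗ, hσ, show φ x = x from hx, ← sub_smul, ht]
    | zero =>
      intro c
      exact ⟨0, U.zero_mem, by simp⟩
    | add x y _ _ hx hy =>
      intro c
      obtain ⟨a, ha, ha'⟩ := hx c
      obtain ⟨b, hb, hb'⟩ := hy c
      refine ⟨a + b, U.add_mem ha hb, ?_⟩
      rw [map_add, smul_add, ← ha', ← hb']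
      abel
    | smul a x _ hx =>
      intro c
      obtain ⟨u', hu', h⟩ := hx (c * a)
      exact ⟨u', hu', by rw [h, smul_smul]⟩
  obtain ⟨u', hu', h4⟩ := key _ h3 1
  rw [one_smul] at h4
  have h5 : φ (v - u') = v - u' := by
    rw [map_sub]
    rw [sub_eq_iff_eq_add] at h4
    rw [h4]
    abel
  have h6 : v - u' ∈ U := Submodule.subset_span h5
  have h7 : v ∈ U := by
    have := U.add_mem h6 hu'
    simpa using this
  exact hw0 ((Submodule.Quotient.mk_eq_zero U).2 h7)

end

/-- The Lang–Steinberg Theorem for the general linear group. Let `K` be an algebraically closed field of prime characteristic `p`, let `q = p^f` with `f ≥ 1`, and let `σ` be the endomorphism of GL_n(K) raising every matrix entry to the `q`-th power. Then every element `g` of GL_n(K) can be written `g = x · σ(x)⁻¹` for some `x` in GL_n(K): the map `x ↦ x σ(x)⁻¹` is surjective. -/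
theorem result {K : Type*} [Field K] [IsAlgClosed K] (p : ℕ) [Fact p.Prime] [CharP K p]
    (f : ℕ) (hf : 1 ≤ f) (n : ℕ) (g : GL (Fin n) K) :
    ∃ x : GL (Fin n) K, g = x * (Matrix.GeneralLinearGroup.map (iterateFrobenius K p f) x)⁻¹ := by
    classical
  have hq : 2 ≤ p ^ f := by
    have h1 := (Fact.out : p.Prime).two_le
    calc 2 ≤ p := h1
      _ = p ^ 1 := (pow_one p).symm
      _ ≤ p ^ f := Nat.pow_le_pow_right (by omega) hf
  set σ : K →+* K := iterateFrobenius K p f with hσdef
  have hσ : ∀ x, σ x = x ^ (p ^ f) := fun x => iterateFrobenius_def p f x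
  let φ : (Fin n → K) →ₛₗ[σ] (Fin n → K) :=
    { toFun := fun v => (g : Matrix (Fin n) (Fin n) K).mulVec (fun i => σ (v i))
      map_add' := fun u v => by
        rw [← Matrix.mulVec_add]
        congr 1
        funext i
        simp
      map_smul' := fun c v => by
        rw [← Matrix.mulVec_smul]
        congr 1
        funext i
        simp }
  have hφ : ∀ v i, φ v i = ((g : Matrix (Fin n) (Fin n) K).mulVec (fun i => σ (v i))) i := fun v i => rfl
  have hinj : Function.Injective φ := by
    intro u v h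
    have h1 : (fun i => σ (u i)) = (fun i => σ (v i)) :=
      Matrix.mulVec_injective_of_isUnit (Matrix.isUnit_iff_isUnit_det _ |>.2 (Matrix.isUnits_det_units g)) h
    funext i
    exact σ.injective (congrFun h1 i)
  have hspan := span_fixed σ (p ^ f) hq hσ φ hinj
  obtain ⟨b, hb, hb2, hb3⟩ := exists_linearIndependent K {v | φ v = v}
  rw [hspan] at hb2
  let B₀ := Module.Basis.mk hb3 (by rw [Subtype.range_coe]; exact hb2.ge)
  haveI : Finite b := Module.Finite.finite_basis B₀
  haveI := Fintype.ofFinite b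
  let B := B₀.reindex (Fintype.equivFinOfCardEq (by
    rw [← Module.finrank_eq_card_basis B₀]; simp) : b ≃ Fin n)
  have hB : ∀ j, φ (B j) = B j := by
    intro j
    have : B j ∈ b := by
      simp [B, B₀]
    exact hb this
  let e := Pi.basisFun K (Fin n)
  let x : GL (Fin n) K := ⟨e.toMatrix B, B.toMatrix e, Module.Basis.toMatrix_mul_toMatrix_flip _ _,
    Module.Basis.toMatrix_mul_toMatrix_flip _ _⟩
  refine ⟨x, ?_⟩
  rw [eq_mul_inv_iff_mul_eq]
  apply Units.ext
  ext i j
  have h1 := congrFun (hB j) i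
  rw [hφ] at h1
  simp only [Units.val_mul, Matrix.mul_apply]
  have h2 : ∀ l, ((Matrix.GeneralLinearGroup.map σ x : GL (Fin n) K) : Matrix (Fin n) (Fin n) K) l j = σ (B j l) := by
    intro l
    rw [Matrix.GeneralLinearGroup.map_apply]
    simp [x, e, Module.Basis.toMatrix_apply]
  simp only [h2]
  have h3 : (x : Matrix (Fin n) (Fin n) K) i j = B j i := by
    simp [x, e, Module.Basis.toMatrix_apply]
  rw [h3, ← h1]
  rfl

end Cfsg.Agent.S2665
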