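import Cfsg.Statements.S2666
import Cfsg.Agent.Lib.Known3.Shintani
import Mathlib

set_option autoImplicit false
open Cfsg

namespace Cfsg.Agent.S2666

open Cfsg.Agent.Lib.Known3.Shintani in
/-- Shintani descent, in an abstract form. Let `σ` be an automorphism of a group `X` such that the maps `a ↦ a·σ(a)⁻¹` and `a ↦ a·σᵉ(a)⁻¹` are surjective on `X` (the Lang–Steinberg property, which holds when `X` is a connected algebraic group and `σ` a Steinberg endomorphism), where `e ≥ 1`. Write `G` for the subgroup of fixed points of `σᵉ` and `H` for the subgroup of fixed points of `σ`. The `G`-conjugacy classes in the coset `G σ` of the semidirect product of `G` by `σ` correspond to the orbits of `G` on itself under twisted conjugation `g ↦ k g σ(k)⁻¹`, and the `e`-th power of `g σ` has `G`-part the norm `g σ(g) ⋯ σ^(e-1)(g)`. For `g` in `G` and any `a` with `g = a σ(a)⁻¹`, put `x = σᵉ(a)⁻¹ a`. Then: (1) `x` lies in `H`, and `a⁻¹ · (g σ(g) ⋯ σ^(e-1)(g))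 · a = x`; (2) for `g, g'` in `G` with such elements `a, b` and `x, x'`, the elements `g, g'` are twisted-conjugate under `G` if and only if `x, x'` are conjugate in `H`; (3) every element of `H` arises as such an `x`. So `g ↦ x` induces a well-defined bijection from the twisted `G`-classes of `G` onto the conjugacy classes of `H` (the Shintani map). -/
theorem result {X : Type*} [Group X] (σ : MulAut X) (e : ℕ) (he : 1 ≤ e)
    (hL : ∀ g : X, ∃ a : X, g = a * (σ a)⁻¹) (hLe : ∀ g : X, ∃ a : X, g = a * ((σ ^ e) a)⁻¹) :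
    (∀ g ∈ (MulEquiv.toMonoidHom (σ ^ e)).eqLocus (MonoidHom.id X), ∀ a : X, g = a * (σ a)⁻¹ →
        ((σ ^ e) a)⁻¹ * a ∈ (MulEquiv.toMonoidHom σ).eqLocus (MonoidHom.id X) ∧
          a⁻¹ * ((List.range e).map (fun i => (σ ^ i) g)).prod * a = ((σ ^ e) a)⁻¹ * a) ∧
    (∀ g ∈ (MulEquiv.toMonoidHom (σ ^ e)).eqLocus (MonoidHom.id X), ∀ g' ∈ (MulEquiv.toMonoidHom (σ ^ e)).eqLocus (MonoidHom.id X), ∀ a b : X,
        g = a * (σ a)⁻¹ → g' = b * (σ b)⁻¹ →
          ((∃ k ∈ (MulEquiv.toMonoidHom (σ ^ e)).eqLocus (MonoidHom.id X), g' = k * g * (σ k)⁻¹) ↔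
            (∃ h ∈ (MulEquiv.toMonoidHom σ).eqLocus (MonoidHom.id X), ((σ ^ e) b)⁻¹ * b = h * (((σ ^ e) a)⁻¹ * a) * h⁻¹))) ∧
    (∀ x ∈ (MulEquiv.toMonoidHom σ).eqLocus (MonoidHom.id X), ∃ g ∈ (MulEquiv.toMonoidHom (σ ^ e)).eqLocus (MonoidHom.id X), ∃ a : X,
        g = a * (σ a)⁻¹ ∧ ((σ ^ e) a)⁻¹ * a = x) := by
  simp only [mem_fix]
  refine ⟨?_, ?_, ?_⟩
  · rintro g hg a rfl
    refine ⟨shintani_fix σ e hg, ?_⟩
    rw [norm_eq]
    group
  · rintro g hg g' hg' a b rfl rfl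
    constructor
    · rintro ⟨k, hk, hkg⟩
      -- w = (k a)⁻¹ b is fixed by σ
      have hw : σ ((k * a)⁻¹ * b) = (k * a)⁻¹ * b := by
        simp only [map_mul, map_inv] at hkg ⊢
        have h : (k * a)⁻¹ * (b * (σ b)⁻¹) * σ b = (k * a)⁻¹ * (k * (a * (σ a)⁻¹) * (σ k)⁻¹) * σ b := by
          rw [hkg]
        have h2 : (k * a)⁻¹ * b = (σ a)⁻¹ * (σ k)⁻¹ * σ b := by
          simpa [mul_assoc] using h
        rw [h2]
        group
      refine ⟨((k * a)⁻¹ * b)⁻¹, ?_, ?_⟩
      · rw [map_inv, hw]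
      · set w := (k * a)⁻¹ * b with hwdef
        have hb : b = k * a * w := by rw [hwdef]; group
        have hτw : (σ ^ e) w = w := pow_fix σ hw e
        have hτb : (σ ^ e) b = k * (σ ^ e) a * w := by
          rw [hb, map_mul, map_mul, hk, hτw]
        rw [hτb]
        rw [hb]
        group
    · rintro ⟨h, hh, hx⟩
      refine ⟨b * h * a⁻¹, ?_, ?_⟩
      · have hτh : (σ ^ e) h = h := pow_fix σ hh e
        rw [map_mul, map_mul, map_inv, hτh]
        have h1 : (σ ^ e) b = b * h * a⁻¹ * (σ ^ e) a * h⁻¹ := by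
          have : ((σ ^ e) b)⁻¹ = h * (((σ ^ e) a)⁻¹ * a) * h⁻¹ * b⁻¹ := by
            rw [← hx]; group
          have h2 := congrArg (·⁻¹) this
          simpa [mul_assoc] using h2
        rw [h1]
        group
      · simp only [map_mul, map_inv, hh]
        group
  · intro x hx
    obtain ⟨c, hc⟩ := hLe x⁻¹
    -- a = c⁻¹
    obtain ⟨a, hτ⟩ : ∃ a : X, ((σ ^ e) a)⁻¹ * a = x := by
      refine ⟨c⁻¹, ?_⟩
      rw [map_inv, inv_inv]
      have := congrArg (·⁻¹) hc
      simpa [mul_assoc] using this.symm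
    refine ⟨a * (σ a)⁻¹, ?_, a, rfl, hτ⟩
    -- fixed
    have h1 : (σ ^ e) a = a * x⁻¹ := by rw [← hτ]; group
    have h2 : (σ ^ e) (σ a) = σ a * x⁻¹ := by
      rw [pow_comm, h1, map_mul, map_inv, hx]
    rw [map_mul, map_inv, h1, h2]
    group

end Cfsg.Agent.S2666
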