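import Cfsg.Statements.S2667
import Mathlib

set_option autoImplicit false
open Cfsg

namespace Cfsg.Agent.S2667

/-- Shintani descent, in an abstract form. Let `σ` be an automorphism of a group `X` and `e ≥ 1` (no surjectivity of the Lang maps is needed for this part; in the classical setting `X` is a connected algebraic group and `σ` a Steinberg endomorphism). Write `G` for the subgroup of fixed points of `σᵉ` and `H` for the subgroup of fixed points of `σ`. The `G`-conjugacy classes in the coset `G σ` of the semidirect product of `G` by `σ` correspond to the orbits of `G` on itself under twisted conjugation `g ↦ k g σ(k)⁻¹`, and the `e`-th power of `g σ` has `G`-part the norm `g σ(g) ⋯ σ^(e-1)(g)`. For `g` in `G` and any `a` with `g = a σ(a)⁻¹`, put `x = σᵉ(a)⁻¹ a`. Then conjugation by `a⁻¹` carries the twisted centralizer `{k ∈ G : k g σ(k)⁻¹ = g}` (the centralizer of `g σ` in `G`) exactly onto the centralizer of `x` in `H`: an element `k` of `X` lies in `G` and satisfies `k g σ(k)⁻¹ =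 g` if and only if `a⁻¹ k a` lies in `H` and commutes with `x`. In particular the two centralizers are conjugate in `X` and have the same order. -/
theorem result {X : Type*} [Group X] (σ : MulAut X) (e : ℕ) (he : 1 ≤ e)
    (g : X) (hg : g ∈ (MulEquiv.toMonoidHom (σ ^ e)).eqLocus (MonoidHom.id X)) (a : X) (ha : g = a * (σ a)⁻¹) (k : X) :
    (k ∈ (MulEquiv.toMonoidHom (σ ^ e)).eqLocus (MonoidHom.id X) ∧ k * g * (σ k)⁻¹ = g) ↔
      (a⁻¹ * k * a ∈ (MulEquiv.toMonoidHom σ).eqLocus (MonoidHom.id X) ∧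
        (a⁻¹ * k * a) * (((σ ^ e) a)⁻¹ * a) = (((σ ^ e) a)⁻¹ * a) * (a⁻¹ * k * a)) := by
  have hpow : ∀ y : X, σ y = y → (σ ^ e) y = y := by
    intro y hy
    have : ∀ n : ℕ, (σ ^ n) y = y := by
      intro n
      induction n with
      | zero => simp
      | succ n ih => rw [pow_succ, MulAut.mul_apply, hy, ih]
    exact this e
  have mem : ∀ (τ : MulAut X) (y : X), y ∈ (MulEquiv.toMonoidHom τ).eqLocus (MonoidHom.id X) ↔ τ y = y :=
    fun τ y => Iff.rfl
  simp only [mem]
  constructor
  · rintro ⟨hk, hkg⟩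
    have h1 : σ (a⁻¹ * k * a) = a⁻¹ * k * a := by
      subst ha
      simp only [map_mul, map_inv]
      have : k * (a * (σ a)⁻¹) * (σ k)⁻¹ * σ k = a * (σ a)⁻¹ * σ k := by rw [hkg]
      simp only [mul_assoc, inv_mul_cancel, mul_one] at this
      have h2 : σ a * a⁻¹ * (k * (a * (σ a)⁻¹)) * σ a = σ a * a⁻¹ * (a * ((σ a)⁻¹ * σ k)) * σ a := by rw [this]
      simp only [mul_assoc, inv_mul_cancel_left, mul_inv_cancel_left, inv_mul_cancel, mul_one] at h2
      simp only [mul_assoc]
      have h3 : (σ a)⁻¹ * (σ a * (a⁻¹ * (k * a))) = (σ a)⁻¹ * (σ k * σ a) := by rw [h2]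
      simpa [mul_assoc] using h3.symm
    refine ⟨h1, ?_⟩
    have h4 := hpow _ h1
    simp only [map_mul, map_inv, hk] at h4
    have : a⁻¹ * k * a * (((σ ^ e) a)⁻¹ * a) = ((σ ^ e) a)⁻¹ * k * (σ ^ e) a * (((σ ^ e) a)⁻¹ * a) := by
      rw [h4]
    rw [this]
    group
  · rintro ⟨h1, h2⟩
    have h1' := h1
    constructor
    · have h4 := hpow _ h1
      simp only [map_mul, map_inv] at h4
      -- y commutes with a⁻¹ τ(a)
      set y := a⁻¹ * k * a with hy
      have hk : k = a * y * a⁻¹ := by rw [hy]; group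
      have hk' : (σ ^ e) k = (σ ^ e) a * y * ((σ ^ e) a)⁻¹ := by
        have := hpow y h1
        calc (σ ^ e) k = (σ ^ e) a * (σ ^ e) y * ((σ ^ e) a)⁻¹ := by
              rw [hk]; simp only [map_mul, map_inv]
          _ = _ := by rw [this]
      rw [hk', hk]
      have h5 : y * ((σ ^ e) a)⁻¹ = ((σ ^ e) a)⁻¹ * a * y * a⁻¹ := by
        have := congrArg (· * a⁻¹) h2
        simpa [mul_assoc] using this
      calc (σ ^ e) a * y * ((σ ^ e) a)⁻¹ = (σ ^ e) a * (y * ((σ ^ e) a)⁻¹) := by group
        _ = (σ ^ e) a * (((σ ^ e) a)⁻¹ * a * y * a⁻¹) := by rw [h5]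
        _ = a * y * a⁻¹ := by group
    · set y := a⁻¹ * k * a with hy
      have hk : k = a * y * a⁻¹ := by rw [hy]; group
      rw [hk, ha]
      simp only [map_mul, map_inv, h1]
      group

end Cfsg.Agent.S2667
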