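import Cfsg.Statements.S2669
import Cfsg.Agent.Lib.Known3.Shintani
import Mathlib

set_option autoImplicit false
open Cfsg

namespace Cfsg.Agent.S2669

open Cfsg.Agent.Lib.Known3.Shintani in
/-- Shintani descent preserves numbers of fixed points on coset spaces (abstract form). Let `σ` be an automorphism of a group `X` and `e ≥ 1`; write `G` for the fixed points of `σᵉ` and `H` for the fixed points of `σ`, and assume `G` is finite. Let `Y` be a `σ`-stable subgroup of `X` on which the maps `a ↦ a σ(a)⁻¹` and `a ↦ a σᵉ(a)⁻¹` are surjective (as for a closed connected `σ`-stable subgroup of an algebraic group). Let `g ∈ G`, let `a ∈ X` satisfy `g = a σ(a)⁻¹` and put `x = σᵉ(a)⁻¹ a` (the Shintani image, an element of `H`). The element `g σ` of the semidirect product acts on the cosets of `Y ∩ G` in `G` by `k (Y ∩ G) ↦ g σ(k) (Y ∩ G)`, fixing that coset exactly when `k⁻¹ g σ(k) ∈ Y`; and `x` fixes the coset `h (Y ∩ H)` of `H` exactly when `h⁻¹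 x h ∈ Y`. Then the two numbers of fixed cosets agree; in cross-multiplied form, `#{k ∈ G : k⁻¹ g σ(k) ∈ Y} · |Y ∩ H| = #{h ∈ H : h⁻¹ x h ∈ Y} · |Y ∩ G|`. -/
theorem result {X : Type*} [Group X] (σ : MulAut X) (e : ℕ) (he : 1 ≤ e)
    [Finite ↥((MulEquiv.toMonoidHom (σ ^ e)).eqLocus (MonoidHom.id X))]
    (Y : Subgroup X) (hY : ∀ y : X, y ∈ Y ↔ σ y ∈ Y)
    (hYL : ∀ y ∈ Y, ∃ a ∈ Y, y = a * (σ a)⁻¹) (hYLe : ∀ y ∈ Y, ∃ a ∈ Y, y = a * ((σ ^ e) a)⁻¹)
    (g : X) (hg : g ∈ (MulEquiv.toMonoidHom (σ ^ e)).eqLocus (MonoidHom.id X)) (a : X) (ha : g = a * (σ a)⁻¹) :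
    Nat.card {k : ↥((MulEquiv.toMonoidHom (σ ^ e)).eqLocus (MonoidHom.id X)) // (k : X)⁻¹ * g * σ k ∈ Y} *
        Nat.card ↥(Y ⊓ (MulEquiv.toMonoidHom σ).eqLocus (MonoidHom.id X)) =
      Nat.card {h : ↥((MulEquiv.toMonoidHom σ).eqLocus (MonoidHom.id X)) // (h : X)⁻¹ * (((σ ^ e) a)⁻¹ * a) * h ∈ Y} *
        Nat.card ↥(Y ⊓ (MulEquiv.toMonoidHom (σ ^ e)).eqLocus (MonoidHom.id X)) := by
  have hg' : (σ ^ e) g = g := hg
  have hYn : ∀ n : ℕ, ∀ y : X, y ∈ Y → (σ ^ n) y ∈ Y := by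
    intro n
    induction n with
    | zero => simp
    | succ n ih =>
      intro y hy
      rw [pow_succ, MulAut.mul_apply]
      exact ih _ ((hY y).1 hy)
  subst ha
  set x := ((σ ^ e) a)⁻¹ * a with hxdef
  have hx : σ x = x := shintani_fix σ e hg'
  -- the fixed point subgroups
  set G := (MulEquiv.toMonoidHom (σ ^ e)).eqLocus (MonoidHom.id X) with hG
  set H := (MulEquiv.toMonoidHom σ).eqLocus (MonoidHom.id X) with hH
  have hGmem : ∀ y : X, y ∈ G ↔ (σ ^ e) y = y := fun y => Iff.rfl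
  have hHmem : ∀ y : X, y ∈ H ↔ σ y = y := fun y => Iff.rfl
  have hHG : H ≤ G := fun y hy => pow_fix σ hy e
  haveI : Finite H := Finite.of_injective (fun h : H => (⟨h.1, hHG h.2⟩ : G))
    (fun a b hab => Subtype.ext (congrArg (fun t : G => (t : X)) hab))
  haveI : Finite ↥(Y ⊓ G) := Finite.of_injective (fun h : ↥(Y ⊓ G) => (⟨h.1, h.2.2⟩ : G))
    (fun a b hab => Subtype.ext (congrArg (fun t : G => (t : X)) hab))
  haveI : Finite ↥(Y ⊓ H) := Finite.of_injective (fun h : ↥(Y ⊓ H) => (⟨h.1, h.2.2⟩ : H))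
    (fun a b hab => Subtype.ext (congrArg (fun t : H => (t : X)) hab))
  -- the relation
  let R : G → H → Prop := fun k h => (k : X)⁻¹ * a * (h : X) ∈ Y
  -- first count
  have h1 : Nat.card {p : G × H // R p.1 p.2}
      = Nat.card {k : G // (k : X)⁻¹ * (a * (σ a)⁻¹) * σ k ∈ Y} * Nat.card ↥(Y ⊓ H) := by
    rw [card_rel_eq R (Nat.card ↥(Y ⊓ H))]
    · congr 1
      apply Nat.card_congr
      refine Equiv.subtypeEquivRight ?_
      intro k
      constructor
      · rintro ⟨h, hh⟩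
        have hh' : (k : X)⁻¹ * a * (h : X) ∈ Y := hh
        have hfix : σ (h : X) = h := h.2
        have := Y.mul_mem hh' (Y.inv_mem ((hY _).1 hh'))
        have h3 : (k : X)⁻¹ * a * (h : X) * (σ ((k : X)⁻¹ * a * (h : X)))⁻¹
            = (k : X)⁻¹ * (a * (σ a)⁻¹) * σ (k : X) := by
          simp only [map_mul, map_inv, hfix]
          group
        rwa [h3] at this
      · intro hk
        obtain ⟨b, hbY, hb⟩ := hYL _ hk
        -- h = a⁻¹ k b
        have hfix : σ (a⁻¹ * (k : X) * b) = a⁻¹ * (k : X) * b := by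
          have h3 : a⁻¹ * ((k : X) * ((k : X)⁻¹ * (a * (σ a)⁻¹) * σ (k : X))) * σ (b)
              = a⁻¹ * ((k : X) * (b * (σ b)⁻¹)) * σ (b) := by rw [hb]
          simp only [map_mul, map_inv]
          have h4 : (σ a)⁻¹ * σ (k : X) * σ b = a⁻¹ * (k : X) * b := by
            simpa [mul_assoc] using h3
          exact h4
        refine ⟨⟨_, hfix⟩, ?_⟩
        change (k : X)⁻¹ * a * (a⁻¹ * (k : X) * b) ∈ Y
        have : (k : X)⁻¹ * a * (a⁻¹ * (k : X) * b) = b := by group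
        rwa [this]
    · -- the fibres over k are cosets of Y ⊓ H
      rintro k ⟨h₀, hh₀⟩
      have hh₀' : (k : X)⁻¹ * a * (h₀ : X) ∈ Y := hh₀
      apply Nat.card_congr
      refine Equiv.ofBijective
        (fun h : {h // R k h} => (⟨(h₀ : X)⁻¹ * (h.1 : X), ?_, ?_⟩ : ↥(Y ⊓ H))) ⟨?_, ?_⟩
      · have h2 := Y.mul_mem (Y.inv_mem hh₀') h.2
        have : ((k : X)⁻¹ * a * (h₀ : X))⁻¹ * ((k : X)⁻¹ * a * (h.1 : X)) = (h₀ : X)⁻¹ * (h.1 : X) := by
          group
        rwa [this] at h2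
      · exact H.mul_mem (H.inv_mem h₀.2) h.1.2
      · intro u v huv
        have h3 : (h₀ : X)⁻¹ * (u.1 : X) = (h₀ : X)⁻¹ * (v.1 : X) := congrArg Subtype.val huv
        exact Subtype.ext (Subtype.ext (mul_left_cancel h3))
      · rintro ⟨t, htY, htH⟩
        refine ⟨⟨⟨(h₀ : X) * t, H.mul_mem h₀.2 htH⟩, ?_⟩, ?_⟩
        · change (k : X)⁻¹ * a * ((h₀ : X) * t) ∈ Y
          have := Y.mul_mem hh₀' htY
          simpa [mul_assoc] using this
        · apply Subtype.ext
          change (h₀ : X)⁻¹ * ((h₀ : X) * t) = t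
          group
  -- second count: swap the roles
  let R' : H → G → Prop := fun h k => R k h
  have h2 : Nat.card {p : H × G // R' p.1 p.2}
      = Nat.card {h : H // (h : X)⁻¹ * x * h ∈ Y} * Nat.card ↥(Y ⊓ G) := by
    rw [card_rel_eq R' (Nat.card ↥(Y ⊓ G))]
    · congr 1
      apply Nat.card_congr
      refine Equiv.subtypeEquivRight ?_
      intro h
      have hfix : (σ ^ e) (h : X) = h := pow_fix σ h.2 e
      constructor
      · rintro ⟨k, hk⟩
        have hk' : (k : X)⁻¹ * a * (h : X) ∈ Y := hk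
        have hkfix : (σ ^ e) (k : X) = k := k.2
        set b := (k : X)⁻¹ * a * (h : X) with hb
        have hbY := hYn e b hk'
        have h3 : ((σ ^ e) b)⁻¹ * b = (h : X)⁻¹ * x * h := by
          rw [hb, hxdef]
          simp only [map_mul, map_inv, hfix, hkfix]
          group
        rw [← h3]
        exact Y.mul_mem (Y.inv_mem hbY) hk'
      · intro hh
        obtain ⟨c, hcY, hc⟩ := hYLe _ (Y.inv_mem hh)
        -- b = c⁻¹, k = a h b⁻¹ = a h c
        have hfixk : (σ ^ e) (a * (h : X) * c) = a * (h : X) * c := by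
          simp only [map_mul, hfix]
          have h3 : (σ ^ e) c = (c⁻¹ * ((h : X)⁻¹ * x * h)⁻¹)⁻¹ := by
            rw [hc]; group
          rw [h3, hxdef]
          group
        refine ⟨⟨_, hfixk⟩, ?_⟩
        change (a * (h : X) * c)⁻¹ * a * (h : X) ∈ Y
        have : (a * (h : X) * c)⁻¹ * a * (h : X) = c⁻¹ := by group
        rw [this]
        exact Y.inv_mem hcY
    · -- the fibres over h are cosets of Y ⊓ G
      rintro h ⟨k₀, hk₀⟩
      have hk₀' : (k₀ : X)⁻¹ * a * (h : X) ∈ Y := hk₀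
      apply Nat.card_congr
      refine Equiv.ofBijective
        (fun k : {k // R' h k} => (⟨(k.1 : X)⁻¹ * (k₀ : X), ?_, ?_⟩ : ↥(Y ⊓ G))) ⟨?_, ?_⟩
      · have h2 := Y.mul_mem k.2 (Y.inv_mem hk₀')
        have : ((k.1 : X)⁻¹ * a * (h : X)) * ((k₀ : X)⁻¹ * a * (h : X))⁻¹ = (k.1 : X)⁻¹ * (k₀ : X) := by
          group
        rwa [this] at h2
      · exact G.mul_mem (G.inv_mem k.1.2) k₀.2
      · intro u v huv
        have h3 : (u.1 : X)⁻¹ * (k₀ : X) = (v.1 : X)⁻¹ * (k₀ : X) := congrArg Subtype.val huv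
        exact Subtype.ext (Subtype.ext (inv_injective (mul_right_cancel h3)))
      · rintro ⟨t, htY, htG⟩
        refine ⟨⟨⟨(k₀ : X) * t⁻¹, G.mul_mem k₀.2 (G.inv_mem htG)⟩, ?_⟩, ?_⟩
        · change ((k₀ : X) * t⁻¹)⁻¹ * a * (h : X) ∈ Y
          have := Y.mul_mem htY hk₀'
          have h3 : t * ((k₀ : X)⁻¹ * a * (h : X)) = ((k₀ : X) * t⁻¹)⁻¹ * a * (h : X) := by group
          rwa [h3] at this
        · apply Subtype.ext
          change ((k₀ : X) * t⁻¹)⁻¹ * (k₀ : X) = t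
          group
  -- the two counts agree
  have h3 : Nat.card {p : G × H // R p.1 p.2} = Nat.card {p : H × G // R' p.1 p.2} := by
    apply Nat.card_congr
    exact
      { toFun := fun p => ⟨(p.1.2, p.1.1), p.2⟩
        invFun := fun p => ⟨(p.1.2, p.1.1), p.2⟩
        left_inv := fun p => rfl
        right_inv := fun p => rfl }
  rw [← h1, ← h2, h3]

end Cfsg.Agent.S2669
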