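import Cfsg.Statements.S2673
import Mathlib
import Cfsg.Agent.Lib.PrimeCl.Orth6

set_option autoImplicit false
open Cfsg

open Polynomial Cfsg.Agent.Lib.KS2.IsoCl Cfsg.Agent.Lib.Classical.Abs Cfsg.Agent.Lib.PrimeCl

namespace Cfsg.Agent.S2673


/-- Number of conjugacy classes of elements of odd prime order r ≠ p in the orthogonal group O_(2m+1)(q) of x_0² + Σ x_j y_j, q odd: with i the multiplicative order of q mod r and t = (r − 1)/i, there are C(⌊m/i⌋ + t/2, t/2) − 1 classes if i is odd (dual pairs of totally singular i-blocks) and C(⌊(2m+1)/i⌋ + t, t) − 1 if i is even (elliptic i-blocks). -/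
theorem result {F : Type*} [Field F] [Fintype F] {p q : ℕ} [Fact p.Prime] [CharP F p] (hF : Fintype.card F = q) (hq : Odd q) (m r i t : ℕ) (hr : r.Prime) (hr2 : r ≠ 2) (hrp : r ≠ p) (hi : i = orderOf (q : ZMod r)) (ht : t * i = r - 1) : Nat.card {C : ConjClasses ↥(Cfsg.isometryGroup F (Cfsg.quadFormOdd m F)) // ∃ g : ↥(Cfsg.isometryGroup F (Cfsg.quadFormOdd m F)), ConjClasses.mk g = C ∧ orderOf g = r} = if Odd i then Nat.choose (m / i + t / 2) (t / 2) - 1 else Nat.choose ((2 * m + 1) / i + t) t - 1 := by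
  classical
  have h2F : (2 : F) ≠ 0 := by
    apply Ring.two_ne_zero
    intro h
    have h1 := (FiniteField.even_card_iff_char_two (F := F)).1 h
    rw [hF] at h1
    exact (Nat.not_even_iff_odd.2 hq) (Nat.even_iff.2 h1)
  have hq' : Cfsg.quadFormOdd m F = ⇑(Qodd m F) := funext fun v => (Qodd_apply m v).symm
  rw [hq', card_classes_rz (p := p) (Qodd m F) (Qodd_nondeg h2F m) r hr hr2 hrp]
  have hN : Fintype.card (Unit ⊕ (Fin m ⊕ Fin m)) = 2 * m + 1 := by
    rw [Fintype.card_sum, Fintype.card_sum, Fintype.card_fin, Fintype.card_unit]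
    omega
  have hsub := rz_subset (p := p) (Qodd m F) (Qodd_nondeg h2F m) r hr hr2 hrp
  rw [hN] at hsub
  have hi0 : 0 < i := order_pos_of (p := p) hF hr hrp hi
  have htpos : 0 < t := by
    rcases Nat.eq_zero_or_pos t with h | h
    · subst h
      have := hr.two_le
      omega
    · exact h
  by_cases ho : Odd i
  · -- dual pairs
    rw [if_pos ho]
    obtain ⟨L₁, hB, hX, hcard, hno⟩ := dataB (p := p) hF hr hr2 hrp hi ho ht
    have hrodd : Odd r := hr.odd_of_ne_two hr2
    have ht2 : 2 ≤ t := by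
      obtain ⟨x, hx⟩ := ho
      obtain ⟨y, hy⟩ := hrodd
      have h1 : t * (2 * x + 1) = 2 * y := by
        rw [← hx, ht, hy]
        omega
      by_contra h
      have h2 : t = 1 := by omega
      subst h2
      omega
    haveI : Nonempty L₁ := Fintype.card_pos_iff.1 (by rw [hcard]; omega)
    have h := count_rz hB (by omega) (2 * m + 1) (hX (2 * m + 1)) _ hsub False (fun h => h.elim) (by
      intro b ha ha0 _
      obtain ⟨w, hw⟩ := exists_half b ha0 (even_two_mul i) (by omega)
      have hle : 2 * (w + 1) ≤ 2 * m + 1 := by rw [hw]; exact ha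
      rcases block_dichotomy (p := p) hr hr2 hrp hB (even_two_mul i) b w hw with h1 | ⟨ζ, hζ, h1⟩
      · exact blk_mem_plus _ hN hB (by omega) b ha0 (w + 1) hw h1 (emb_plus_odd (by omega))
      · exact (hno b w 1 ζ (Cfsg.Agent.Lib.Known3.QuadIso.anisotropic_of ζ hζ) h1).elim) (fun h => h.elim)
    have hdd : (2 * m + 1) / (2 * i) = m / i := by
      rw [← Nat.div_div_eq_div_mul]
      congr 1
      omega
    rw [h, hcard, if_neg (by simp), hdd]
    simp
  · -- elliptic blocks
    rw [if_neg ho]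
    have he : Even i := Nat.not_odd_iff_even.1 ho
    have hB := blocksA (p := p) hF hr hr2 hrp hi he
    have hX := memA (p := p) hF hr hr2 hrp hi he
    have hcard := cardA (p := p) hF hr hrp hi ht
    haveI : Nonempty (cycL F r) := Fintype.card_pos_iff.1 (by rw [hcard]; omega)
    have h := count_rz hB hi0 (2 * m + 1) (hX (2 * m + 1)) _ hsub False (fun h => h.elim) (by
      intro b ha ha0 _
      obtain ⟨w, hw⟩ := exists_half b ha0 he hi0
      have hle : 2 * (w + 1) ≤ 2 * m + 1 := by rw [hw]; exact ha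
      rcases block_dichotomy (p := p) hr hr2 hrp hB he b w hw with h1 | ⟨ζ, hζ, h1⟩
      · exact blk_mem_plus _ hN hB hi0 b ha0 (w + 1) hw h1 (emb_plus_odd (by omega))
      · have hxy := Cfsg.Agent.Lib.Known3.QuadIso.anisotropic_of ζ hζ
        exact blk_mem_minus _ hN hB hi0 b ha0 w hw 1 ζ hxy h1 (emb_minus_odd (by omega) 1 ζ)) (fun h => h.elim)
    rw [h, hcard, if_neg (by simp)]
    simp

end Cfsg.Agent.S2673
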