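import Cfsg.Statements.S2674
import Mathlib
import Cfsg.Agent.Lib.PrimeCl.Orth6

set_option autoImplicit false
open Cfsg

open Polynomial Cfsg.Agent.Lib.KS2.IsoCl Cfsg.Agent.Lib.Classical.Abs Cfsg.Agent.Lib.PrimeCl

namespace Cfsg.Agent.S2674


/-- Number of conjugacy classes of elements of odd prime order r ≠ p in the orthogonal group O⁺_2m(q) of Σ x_j y_j (m ≥ 1): with i the multiplicative order of q mod r and t = (r − 1)/i — if i is odd, C(⌊m/i⌋ + t/2, t/2) − 1; if i is even, C(⌊2m/i⌋ + t, t) − 1 minus, when i divides 2m with odd quotient, the C(2m/i + t − 1, t − 1) tuples using the whole space (an odd number of elliptic i-blocks fills an elliptic, not a hyperbolic, space). -/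
theorem result {F : Type*} [Field F] [Fintype F] {p q : ℕ} [Fact p.Prime] [CharP F p] (hF : Fintype.card F = q) (m r i t : ℕ) (hm : 1 ≤ m) (hr : r.Prime) (hr2 : r ≠ 2) (hrp : r ≠ p) (hi : i = orderOf (q : ZMod r)) (ht : t * i = r - 1) : Nat.card {C : ConjClasses ↥(Cfsg.isometryGroup F (Cfsg.quadFormPlus m F)) // ∃ g : ↥(Cfsg.isometryGroup F (Cfsg.quadFormPlus m F)), ConjClasses.mk g = C ∧ orderOf g = r} = if Odd i then Nat.choose (m / i + t / 2) (t / 2) - 1 else Nat.choose (2 * m / i + t) t - 1 - (if i ∣ 2 * m ∧ Odd (2 * m / i) then Nat.choose (2 * m / i + t - 1) (t - 1) else 0) := by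
  classical
  have hq' : Cfsg.quadFormPlus m F = ⇑(Qplus m F) := funext fun v => (Qplus_apply m v).symm
  rw [hq', card_classes_rz (p := p) (Qplus m F) (Qplus_nondeg m) r hr hr2 hrp]
  have hN : Fintype.card (Fin m ⊕ Fin m) = 2 * m := by
    rw [Fintype.card_sum, Fintype.card_fin, two_mul]
  have hsub := rz_subset (p := p) (Qplus m F) (Qplus_nondeg m) r hr hr2 hrp
  rw [hN] at hsub
  have hi0 : 0 < i := order_pos_of (p := p) hF hr hrp hi
  have htpos : 0 < t := by
    rcases Nat.eq_zero_or_pos t with h | h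
    · subst h
      have := hr.two_le
      omega
    · exact h
  by_cases ho : Odd i
  · -- dual pairs
    rw [if_pos ho]
    obtain ⟨L₁, hB, hX, hcard, hno⟩ := dataB (p := p) hF hr hr2 hrp hi ho ht
    have hrodd : Odd r := hr.odd_of_ne_two hr2
    have ht2 : 2 ≤ t := by
      obtain ⟨x, hx⟩ := ho
      obtain ⟨y, hy⟩ := hrodd
      have h1 : t * (2 * x + 1) = 2 * y := by
        rw [← hx, ht, hy]
        omega
      by_contra h
      have h2 : t = 1 := by omega
      subst h2
      omega
    haveI : Nonempty L₁ := Fintype.card_pos_iff.1 (by rw [hcard]; omega)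
    have h := count_rz hB (by omega) (2 * m) (hX (2 * m)) _ hsub False (fun h => h.elim) (by
      intro a ha ha0 _
      obtain ⟨w, hw⟩ := exists_half a ha0 (even_two_mul i) (by omega)
      rcases block_dichotomy (p := p) hr hr2 hrp hB (even_two_mul i) a w hw with h1 | ⟨ζ, hζ, h1⟩
      · exact blk_mem_plus _ hN hB (by omega) a ha0 (w + 1) hw h1 (emb_plus_plus (by omega))
      · exact (hno a w 1 ζ (Cfsg.Agent.Lib.Known3.QuadIso.anisotropic_of ζ hζ) h1).elim) (fun h => h.elim)
    rw [h, hcard, if_neg (by simp), Nat.mul_div_mul_left _ _ (by norm_num : 0 < 2)]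
    simp
  · -- elliptic blocks
    rw [if_neg ho]
    have he : Even i := Nat.not_odd_iff_even.1 ho
    have hB := blocksA (p := p) hF hr hr2 hrp hi he
    have hX := memA (p := p) hF hr hr2 hrp hi he
    have hcard := cardA (p := p) hF hr hrp hi ht
    haveI : Nonempty (cycL F r) := Fintype.card_pos_iff.1 (by rw [hcard]; omega)
    have hdiv : ∀ s, i * s = 2 * m → 2 * m / i = s := by
      intro s hs
      rw [← hs]
      exact Nat.mul_div_cancel_left _ hi0
    have h := count_rz hB hi0 (2 * m) (hX (2 * m)) _ hsub (i ∣ 2 * m ∧ Odd (2 * m / i)) (fun hc => ⟨hc.1, by omega⟩) (by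
      intro a ha ha0 hnc
      obtain ⟨w, hw⟩ := exists_half a ha0 he hi0
      rcases block_dichotomy (p := p) hr hr2 hrp hB he a w hw with h1 | ⟨ζ, hζ, h1⟩
      · exact blk_mem_plus _ hN hB hi0 a ha0 (w + 1) hw h1 (emb_plus_plus (by omega))
      · by_cases hwm : w + 1 = m
        · exfalso
          have hs : i * ∑ c, a c = 2 * m := by rw [← hw, hwm]
          have hxy := Cfsg.Agent.Lib.Known3.QuadIso.anisotropic_of ζ hζ
          have hod := minusReal_odd (p := p) hF hr hr2 hrp hi he (prod_coprime_X1 hB a) hw 1 ζ hxy h1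
          exact hnc hs ⟨⟨_, hs.symm⟩, by rw [hdiv _ hs]; exact hod⟩
        · exact blk_mem_minus _ hN hB hi0 a ha0 w hw 1 ζ (Cfsg.Agent.Lib.Known3.QuadIso.anisotropic_of ζ hζ) h1
            (emb_minus_plus (by
              have : 2 * (w + 1) ≤ 2 * m := by rw [hw]; exact ha
              omega) 1 ζ)) (by
      intro hc a hs hmem
      obtain ⟨A, hA1, hA2, hA3⟩ := rz_full _ a hs hmem
      obtain ⟨w, rfl⟩ : ∃ w, m = w + 1 := ⟨m - 1, by omega⟩
      have hev := plusReal_even (p := p) hF hr hr2 hrp hi he (prod_coprime_X1 hB a) (w := w) (s := ∑ c, a c) hs.symm ⟨A, hA1, hA2, hA3⟩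
      have hod := hc.2
      rw [hdiv _ hs] at hod
      exact (Nat.not_even_iff_odd.2 hod) hev)
    rw [h, hcard]

end Cfsg.Agent.S2674
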