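import Cfsg.Statements.S2675
import Mathlib
import Cfsg.Agent.Lib.PrimeCl.Orth6

set_option autoImplicit false
open Cfsg

open Polynomial Cfsg.Agent.Lib.KS2.IsoCl Cfsg.Agent.Lib.Classical.Abs Cfsg.Agent.Lib.PrimeCl

namespace Cfsg.Agent.S2675


/-- Number of conjugacy classes of elements of odd prime order r ≠ p in the orthogonal group O⁻_2m(q) of an elliptic form Σ_(j<m−1) x_j y_j + z₁² + a z₁z₂ + c z₂² (binary part anisotropic, m ≥ 1): with i the multiplicative order of q mod r and t = (r − 1)/i — if i is odd, C(⌊m/i⌋ + t/2, t/2) − 1 minus, when i divides m, the C(m/i + t/2 − 1, t/2 − 1) tuples filling the whole space (dual pairs of totally singular blocks fill a hyperbolic space); if i is even, C(⌊2m/i⌋ + t, t) − 1 minus, when i divides 2m with even quotient, the C(2m/i + t − 1, t − 1) tuples filling the whole space with an even number of elliptic blocks. -/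
theorem result {F : Type*} [Field F] [Fintype F] {p q : ℕ} [Fact p.Prime] [CharP F p] (hF : Fintype.card F = q) (m r i t : ℕ) (hm : 1 ≤ m) (a c : F) (hac : ∀ z₁ z₂ : F, z₁ ^ 2 + a * z₁ * z₂ + c * z₂ ^ 2 = 0 → z₁ = 0 ∧ z₂ = 0) (hr : r.Prime) (hr2 : r ≠ 2) (hrp : r ≠ p) (hi : i = orderOf (q : ZMod r)) (ht : t * i = r - 1) : Nat.card {C : ConjClasses ↥(Cfsg.isometryGroup F (Cfsg.quadFormMinus (m - 1) F a c)) // ∃ g : ↥(Cfsg.isometryGroup F (Cfsg.quadFormMinus (m - 1) F a c)), ConjClasses.mk g = C ∧ orderOf g = r} = if Odd i then Nat.choose (m / i + t / 2) (t / 2) - 1 - (if i ∣ m then Nat.choose (m / i + t / 2 - 1) (t / 2 - 1) else 0) else Nat.choose (2 * m / i + t) t - 1 - (if i ∣ 2 * m ∧ Even (2 * m / i) then Nat.choose (2 * m / i + t - 1) (t - 1) else 0) := by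
  classical
  have hq' : Cfsg.quadFormMinus (m - 1) F a c = ⇑(Qminus (m - 1) F a c) := funext fun v => (Qminus_apply _ _ _ v).symm
  rw [hq', card_classes_rz (p := p) (Qminus (m - 1) F a c) (Qminus_nondeg hac (m - 1)) r hr hr2 hrp]
  have hN : Fintype.card ((Fin (m - 1) ⊕ Fin (m - 1)) ⊕ Fin 2) = 2 * m := by
    rw [Fintype.card_sum, Fintype.card_sum, Fintype.card_fin, Fintype.card_fin]
    omega
  have hsub := rz_subset (p := p) (Qminus (m - 1) F a c) (Qminus_nondeg hac (m - 1)) r hr hr2 hrp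
  rw [hN] at hsub
  have hi0 : 0 < i := order_pos_of (p := p) hF hr hrp hi
  have htpos : 0 < t := by
    rcases Nat.eq_zero_or_pos t with h | h
    · subst h
      have := hr.two_le
      omega
    · exact h
  by_cases ho : Odd i
  · -- dual pairs
    rw [if_pos ho]
    obtain ⟨L₁, hB, hX, hcard, hno⟩ := dataB (p := p) hF hr hr2 hrp hi ho ht
    have hrodd : Odd r := hr.odd_of_ne_two hr2
    have ht2 : 2 ≤ t := by
      obtain ⟨x, hx⟩ := ho
      obtain ⟨y, hy⟩ := hrodd
      have h1 : t * (2 * x + 1) = 2 * y := by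
        rw [← hx, ht, hy]
        omega
      by_contra h
      have h2 : t = 1 := by omega
      subst h2
      omega
    haveI : Nonempty L₁ := Fintype.card_pos_iff.1 (by rw [hcard]; omega)
    have h := count_rz hB (by omega) (2 * m) (hX (2 * m)) _ hsub (i ∣ m)
      (fun hc => ⟨Nat.mul_dvd_mul_left 2 hc, by omega⟩) (by
      intro b ha ha0 hnc
      obtain ⟨w, hw⟩ := exists_half b ha0 (even_two_mul i) (by omega)
      rcases block_dichotomy (p := p) hr hr2 hrp hB (even_two_mul i) b w hw with h1 | ⟨ζ, hζ, h1⟩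
      · by_cases hwm : w + 1 = m
        · exfalso
          have hs : (2 * i) * ∑ c, b c = 2 * m := by rw [← hw, hwm]
          refine hnc hs ⟨∑ c, b c, ?_⟩
          have : 2 * (i * ∑ c, b c) = 2 * m := by rw [← hs]; ring
          omega
        · exact blk_mem_plus _ hN hB (by omega) b ha0 (w + 1) hw h1 (emb_plus_minus (by
            have : 2 * (w + 1) ≤ 2 * m := by rw [hw]; exact ha
            omega) a c)
      · exact (hno b w 1 ζ (Cfsg.Agent.Lib.Known3.QuadIso.anisotropic_of ζ hζ) h1).elim) (by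
      intro hc b hs hmem
      obtain ⟨A, hA1, hA2, hA3⟩ := rz_full _ b hs hmem
      exact hno b (m - 1) a c hac ⟨A, hA1, hA2, hA3⟩)
    rw [h, hcard, Nat.mul_div_mul_left _ _ (by norm_num : 0 < 2)]
  · -- elliptic blocks
    rw [if_neg ho]
    have he : Even i := Nat.not_odd_iff_even.1 ho
    have hB := blocksA (p := p) hF hr hr2 hrp hi he
    have hX := memA (p := p) hF hr hr2 hrp hi he
    have hcard := cardA (p := p) hF hr hrp hi ht
    haveI : Nonempty (cycL F r) := Fintype.card_pos_iff.1 (by rw [hcard]; omega)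
    have hdiv : ∀ s, i * s = 2 * m → 2 * m / i = s := by
      intro s hs
      rw [← hs]
      exact Nat.mul_div_cancel_left _ hi0
    have h := count_rz hB hi0 (2 * m) (hX (2 * m)) _ hsub (i ∣ 2 * m ∧ Even (2 * m / i)) (fun hc => ⟨hc.1, by omega⟩) (by
      intro b ha ha0 hnc
      obtain ⟨w, hw⟩ := exists_half b ha0 he hi0
      have hle : 2 * (w + 1) ≤ 2 * m := by rw [hw]; exact ha
      rcases block_dichotomy (p := p) hr hr2 hrp hB he b w hw with h1 | ⟨ζ, hζ, h1⟩
      · by_cases hwm : w + 1 = m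
        · exfalso
          have hs : i * ∑ c, b c = 2 * m := by rw [← hw, hwm]
          have hev := plusReal_even (p := p) hF hr hr2 hrp hi he (prod_coprime_X1 hB b) hw h1
          exact hnc hs ⟨⟨_, hs.symm⟩, by rw [hdiv _ hs]; exact hev⟩
        · exact blk_mem_plus _ hN hB hi0 b ha0 (w + 1) hw h1 (emb_plus_minus (by omega) a c)
      · have hxy := Cfsg.Agent.Lib.Known3.QuadIso.anisotropic_of ζ hζ
        exact blk_mem_minus _ hN hB hi0 b ha0 w hw 1 ζ hxy h1 (emb_minus_minus (by omega) 1 ζ a c hxy hac)) (by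
      intro hc b hs hmem
      obtain ⟨A, hA1, hA2, hA3⟩ := rz_full _ b hs hmem
      have hod := minusReal_odd (p := p) hF hr hr2 hrp hi he (prod_coprime_X1 hB b) (w := m - 1) (s := ∑ c, b c)
        (by rw [Nat.sub_add_cancel hm]; exact hs.symm) a c hac ⟨A, hA1, hA2, hA3⟩
      have hev := hc.2
      rw [hdiv _ hs] at hev
      exact (Nat.not_even_iff_odd.2 hod) hev)
    rw [h, hcard]

end Cfsg.Agent.S2675
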