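import Cfsg.Statements.S2677
import Mathlib
import Cfsg.Agent.Lib.Known3.FieldAutPSU3
import Cfsg.Agent.S0277

set_option autoImplicit false
open Cfsg

namespace Cfsg.Agent.S2677

/-- Centraliser of a field automorphism of odd prime order in PGU_n(q): let q = q₀^r with r an odd prime, K the field with q² elements and σ a field automorphism of K of order r (fixed field of order q₀²). The elements g of GU_n(q) whose entrywise image under σ is a scalar multiple of g — those whose coset modulo the q + 1 unitary scalars is fixed by σ — number (q + 1)/(q₀ + 1) · |GU_n(q₀)|; equivalently the centraliser in PGU_n(q) of the induced automorphism has the order of PGU_n(q₀). -/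
theorem result {K : Type*} [Field K] [Fintype K] {q₀ q r n : ℕ} (hr : r.Prime) (hr2 : r ≠ 2) (hn : 1 ≤ n) (hq : q = q₀ ^ r) (hK : Fintype.card K = q ^ 2) (σ : K ≃+* K) (hσ : orderOf σ = r) : (Nat.card {g : ↥(Cfsg.GU n K q) // ∃ c : K, c ≠ 0 ∧ ((g : GL (Fin n) K) : Matrix (Fin n) (Fin n) K).map σ = c • ((g : GL (Fin n) K) : Matrix (Fin n) (Fin n) K)} : ℤ) = ((q + 1) / (q₀ + 1) : ℕ) * ((q₀ : ℤ) ^ (n * (n - 1) / 2) * ∏ i : Fin n, ((q₀ : ℤ) ^ ((i : ℕ) + 1) - (-1) ^ ((i : ℕ) + 1))) := by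
  classical
  obtain ⟨p, hch⟩ := CharP.exists K
  haveI hp : Fact p.Prime := ⟨CharP.char_is_prime K p⟩
  obtain ⟨N, hpr, hN⟩ := FiniteField.card K p
  have hq1 := Cfsg.Agent.Lib.Classical.one_lt_q hK
  have hq₀dvd : q₀ ∣ p ^ (N : ℕ) := by
    rw [← hN, hK, hq, ← pow_mul]
    exact dvd_pow_self _ (by have := hr.pos; positivity)
  obtain ⟨k, -, rfl⟩ := (Nat.dvd_prime_pow hp.out).1 hq₀dvd
  have hk0 : k ≠ 0 := by
    rintro rfl
    rw [hq] at hq1
    simp at hq1
  have hroo : Odd r := hr.odd_of_ne_two hr2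
  have hcK : Fintype.card K = p ^ (2 * (k * r)) := by
    rw [hK, hq, ← pow_mul, ← pow_mul]
    congr 1
    ring
  let F₀ := GaloisField p (2 * k)
  letI : Fintype F₀ := Fintype.ofFinite F₀
  have hcF₀ : Fintype.card F₀ = p ^ (2 * k) := by
    rw [← Nat.card_eq_fintype_card]
    exact GaloisField.card p (2 * k) (by omega)
  have hdiv : 2 * (k * r) / r = 2 * k := by
    rw [← mul_assoc]
    exact Nat.mul_div_cancel _ hr.pos
  obtain ⟨-, e, he, hfix⟩ := Cfsg.Agent.Lib.Known3.FieldFix.exists_fix_embed hcK σ hr hσ F₀ (by rw [hcF₀, hdiv])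
  obtain ⟨t, ht⟩ := hroo
  have hq₀ : q = ((p ^ k) ^ 2) ^ t * (p ^ k) := by
    rw [hq, ht]
    ring
  have hF₀' : Fintype.card F₀ = (p ^ k) ^ 2 := by
    rw [hcF₀, ← pow_mul, mul_comm]
  have hpow : ∀ a, e (a ^ (p ^ k)) = (e a) ^ q := by
    intro a
    conv_rhs => rw [hq₀, pow_mul, ← map_pow, ← hF₀', FiniteField.pow_card_pow]
    rw [map_pow]
  have h1 := Cfsg.Agent.Lib.Known3.FieldAut.card_twisted (n := n) hK hn σ hσ hr.ne_zero e he hfix hpow hF₀'
  rw [Cfsg.Agent.S0277.result hF₀'] at h1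
  have hdvd : p ^ k + 1 ∣ q + 1 := by
    rw [hq]
    have := Odd.nat_add_dvd_pow_add_pow (p ^ k) 1 (n := r) ⟨t, ht⟩
    simpa using this
  obtain ⟨w, hw⟩ := hdvd
  have hdivw : (q + 1) / (p ^ k + 1) = w := by
    rw [hw]
    exact Nat.mul_div_cancel_left _ (by positivity)
  rw [hw, mul_assoc] at h1
  have h2 := Nat.eq_of_mul_eq_mul_left (by positivity) h1
  rw [h2, hdivw]
  have hq₀1 : 1 < p ^ k := by
    have := hp.out.one_lt
    exact Nat.one_lt_pow hk0 this
  push_cast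
  congr 2
  rw [Fin.prod_univ_eq_prod_range (fun i => (((p : ℤ) ^ k) ^ (i + 1) - (-1) ^ (i + 1))) n]
  apply Finset.prod_congr rfl
  intro i _
  split_ifs with hi
  · have h3 : (-1 : ℤ) ^ (i + 1) = -1 := by
      rw [pow_succ, hi.neg_one_pow]
      ring
    rw [h3]
    push_cast
    ring
  · have h4 : Odd i := Nat.not_even_iff_odd.mp hi
    have h3 : (-1 : ℤ) ^ (i + 1) = 1 := by
      rw [pow_succ, h4.neg_one_pow]
      ring
    rw [h3]
    have h5 : 1 ≤ (p ^ k) ^ (i + 1) := Nat.one_le_pow _ _ (by omega)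
    push_cast [Nat.cast_sub h5]
    ring

end Cfsg.Agent.S2677
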