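import Cfsg.Statements.S2679
import Cfsg.Agent.Lib.Known3.DescentQ
import Mathlib

set_option autoImplicit false
open Cfsg

namespace Cfsg.Agent.S2679

open Cfsg.Agent.Lib.Known3.Descent
open Cfsg.Agent.Lib.Known3.QuadStd
open Cfsg.Agent.Lib.Classical.Abs (Qminus Qminus_apply)

local notation "P" => QuadraticMap.polarBilin

variable {F K : Type*} [Field F] [Field K] [Fintype K] {q : ℕ}

lemma minus_ext [Algebra F K] (k : ℕ) (a c : F) (w : (Fin k ⊕ Fin k) ⊕ Fin 2 → F) :
    Cfsg.quadFormMinus k K (algebraMap F K a) (algebraMap F K c) (fun s => algebraMap F K (w s)) =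
      algebraMap F K (Cfsg.quadFormMinus k F a c w) := by
  simp [Cfsg.quadFormMinus, map_sum]

theorem embed_main [Fintype F] [Algebra F K] (hF : Fintype.card F = q) (hK : Fintype.card K = q ^ 2) (k : ℕ) (a c : F) (β : K)
    (hβ : β ^ q ≠ β) (hs : β + β ^ q = algebraMap F K (-a)) (hp : β * β ^ q = algebraMap F K c) :
    ∃ φ : ↥(Cfsg.isometryGroup F (Cfsg.quadFormMinus k F a c)) →* ↥(Cfsg.isometryGroup K (Cfsg.quadFormPlus (k + 1) K)),
      Function.Injective φ := by
  classical
  rw [map_neg] at hs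
  set a' := algebraMap F K a with ha'
  set c' := algebraMap F K c with hc'
  let Θ₀ : ((Fin k ⊕ Fin k) ⊕ Fin 2 → K) →ₗ[K] (Fin (k + 1) ⊕ Fin (k + 1) → K) :=
    { toFun := fun v => Sum.elim
        (Fin.snoc (α := fun _ => K) (fun i => v (Sum.inl (Sum.inl i))) (v (Sum.inr 0) - β * v (Sum.inr 1)))
        (Fin.snoc (α := fun _ => K) (fun i => v (Sum.inl (Sum.inr i))) (v (Sum.inr 0) - β ^ q * v (Sum.inr 1)))
      map_add' := fun u v => by
        funext s
        rcases s with i | i <;> refine Fin.lastCases ?_ (fun i => ?_) i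
        · simp only [Sum.elim_inl, Fin.snoc_last, Pi.add_apply]
          ring
        · simp only [Sum.elim_inl, Fin.snoc_castSucc, Pi.add_apply]
        · simp only [Sum.elim_inr, Fin.snoc_last, Pi.add_apply]
          ring
        · simp only [Sum.elim_inr, Fin.snoc_castSucc, Pi.add_apply]
      map_smul' := fun d v => by
        funext s
        rcases s with i | i <;> refine Fin.lastCases ?_ (fun i => ?_) i
        · simp only [Sum.elim_inl, Fin.snoc_last, Pi.smul_apply, smul_eq_mul, RingHom.id_apply]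
          ring
        · simp only [Sum.elim_inl, Fin.snoc_castSucc, Pi.smul_apply, smul_eq_mul, RingHom.id_apply]
        · simp only [Sum.elim_inr, Fin.snoc_last, Pi.smul_apply, smul_eq_mul, RingHom.id_apply]
          ring
        · simp only [Sum.elim_inr, Fin.snoc_castSucc, Pi.smul_apply, smul_eq_mul, RingHom.id_apply] }
  have h1 : ∀ v, Θ₀ v (Sum.inl (Fin.last k)) = v (Sum.inr 0) - β * v (Sum.inr 1) := fun v => by
    simp only [Θ₀, LinearMap.coe_mk, AddHom.coe_mk, Sum.elim_inl, Fin.snoc_last]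
  have h2 : ∀ v, Θ₀ v (Sum.inr (Fin.last k)) = v (Sum.inr 0) - β ^ q * v (Sum.inr 1) := fun v => by
    simp only [Θ₀, LinearMap.coe_mk, AddHom.coe_mk, Sum.elim_inr, Fin.snoc_last]
  have h3 : ∀ v (i : Fin k), Θ₀ v (Sum.inl i.castSucc) = v (Sum.inl (Sum.inl i)) := fun v i => by
    simp only [Θ₀, LinearMap.coe_mk, AddHom.coe_mk, Sum.elim_inl, Fin.snoc_castSucc]
  have h4 : ∀ v (i : Fin k), Θ₀ v (Sum.inr i.castSucc) = v (Sum.inl (Sum.inr i)) := fun v i => by
    simp only [Θ₀, LinearMap.coe_mk, AddHom.coe_mk, Sum.elim_inr, Fin.snoc_castSucc]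
  have hinj : Function.Injective Θ₀ := by
    rw [← LinearMap.ker_eq_bot, LinearMap.ker_eq_bot']
    intro v hv
    have hz1 := congrFun hv (Sum.inl (Fin.last k))
    have hz2 := congrFun hv (Sum.inr (Fin.last k))
    rw [h1] at hz1
    rw [h2] at hz2
    have hne : β ^ q - β ≠ 0 := sub_ne_zero.2 hβ
    have hz : v (Sum.inr 1) = 0 := by
      have : (β ^ q - β) * v (Sum.inr 1) = 0 := by
        linear_combination hz1 - hz2
      exact (mul_eq_zero.1 this).resolve_left hne
    have hz' : v (Sum.inr 0) = 0 := by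
      rw [hz] at hz1
      simpa using hz1
    funext s
    rcases s with (i | i) | i
    · have := congrFun hv (Sum.inl i.castSucc)
      rwa [h3] at this
    · have := congrFun hv (Sum.inr i.castSucc)
      rwa [h4] at this
    · fin_cases i
      · exact hz'
      · exact hz
  have hdim : Module.finrank K ((Fin k ⊕ Fin k) ⊕ Fin 2 → K) = Module.finrank K (Fin (k + 1) ⊕ Fin (k + 1) → K) := by
    rw [Module.finrank_fintype_fun_eq_card, Module.finrank_fintype_fun_eq_card]
    simp
    omega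
  let Θ := LinearMap.linearEquivOfInjective Θ₀ hinj hdim
  have hΘ : ∀ v, Θ v = Θ₀ v := fun v => rfl
  have hval : ∀ v, Cfsg.quadFormPlus (k + 1) K (Θ v) = Cfsg.quadFormMinus k K a' c' v := by
    intro v
    rw [hΘ, Cfsg.quadFormPlus, Fin.sum_univ_castSucc, h1, h2, Cfsg.quadFormMinus]
    simp only [h3, h4]
    congr 1
    linear_combination (-(v (Sum.inr 0) * v (Sum.inr 1))) * hs + (v (Sum.inr 1)) ^ 2 * hp
  -- the representation
  let G := ↥(Cfsg.isometryGroup F (Cfsg.quadFormMinus k F a c))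
  let ι' : F →+* K := algebraMap F K
  let A₀ : G →* Matrix ((Fin k ⊕ Fin k) ⊕ Fin 2) ((Fin k ⊕ Fin k) ⊕ Fin 2) K :=
    ((RingHom.mapMatrix ι').toMonoidHom).comp ((Units.coeHom _).comp (Cfsg.isometryGroup F (Cfsg.quadFormMinus k F a c)).subtype)
  let ρ : G →* Module.End K ((Fin k ⊕ Fin k) ⊕ Fin 2 → K) :=
    { toFun := fun g => Matrix.mulVecLin (A₀ g)
      map_one' := by
        rw [map_one, Matrix.mulVecLin_one]
        rfl
      map_mul' := fun g g' => by
        rw [map_mul, Matrix.mulVecLin_mul]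
        rfl }
  have hρ : ∀ g v, ρ g v = (A₀ g).mulVec v := fun g v => rfl
  refine transfer_iso (Cfsg.quadFormPlus (k + 1) K) (Cfsg.quadFormMinus k K a' c') Θ hval ρ ?_ ?_
  · intro g v
    rw [hρ]
    set A : Matrix ((Fin k ⊕ Fin k) ⊕ Fin 2) ((Fin k ⊕ Fin k) ⊕ Fin 2) F := g.1.1 with hA
    have hA₀ : A₀ g = A.map ι' := rfl
    rw [hA₀]
    have hpresF : ∀ w, Cfsg.quadFormMinus k F a c (A.mulVec w) = Cfsg.quadFormMinus k F a c w :=
      fun w => g.2 w w
    have hcol : ∀ w : (Fin k ⊕ Fin k) ⊕ Fin 2 → F, (A.map ι').mulVec (fun s => ι' (w s)) = fun s => ι' (A.mulVec w s) := by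
      intro w
      funext s
      simp [Matrix.mulVec, dotProduct, map_sum]
    have hsing : ∀ x : (Fin k ⊕ Fin k) ⊕ Fin 2, (Pi.single x 1 : _ → K) = fun s => ι' ((Pi.single x 1 : _ → F) s) := by
      intro x
      funext s
      simp [Pi.single_apply, apply_ite ι']
    have hv := ext_on_basis (Pi.basisFun K ((Fin k ⊕ Fin k) ⊕ Fin 2))
      ((Qminus k K a' c').comp (Matrix.mulVecLin (A.map ι'))) (Qminus k K a' c') ?_ ?_ v
    · simpa [Qminus_apply] using hv
    · intro x
      simp only [Pi.basisFun_apply, QuadraticMap.comp_apply, Matrix.mulVecLin_apply, Qminus_apply]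
      rw [hsing, hcol, minus_ext k a c, minus_ext k a c, hpresF]
    · intro x y
      simp only [Pi.basisFun_apply]
      change QuadraticMap.polar _ _ _ = QuadraticMap.polar _ _ _
      simp only [QuadraticMap.polar, QuadraticMap.comp_apply, Matrix.mulVecLin_apply, Qminus_apply, map_add]
      rw [hsing x, hsing y, hcol, hcol]
      have hadd : ∀ u w : (Fin k ⊕ Fin k) ⊕ Fin 2 → F, (fun s => ι' (u s)) + (fun s => ι' (w s)) = fun s => ι' ((u + w) s) := by
        intro u w
        funext s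
        simp
      have hext : ∀ w : (Fin k ⊕ Fin k) ⊕ Fin 2 → F, Cfsg.quadFormMinus k K a' c' (fun s => ι' (w s)) =
          ι' (Cfsg.quadFormMinus k F a c w) := fun w => minus_ext k a c w
      simp only [hadd, hext]
      rw [← Matrix.mulVec_add, hpresF, hpresF, hpresF]
  · intro g g' h
    apply Subtype.ext
    apply Units.ext
    have h2 : Matrix.mulVecLin (A₀ g) = Matrix.mulVecLin (A₀ g') := h
    have h1 : A₀ g = A₀ g' := Matrix.toLin'.injective h2
    exact Matrix.map_injective ι'.injective h1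

/-- An elliptic orthogonal group embeds in the hyperbolic orthogonal group of the same dimension over the quadratic extension: for a field F with q elements and a field K with q² elements there is an injective homomorphism from O⁻_2m(F) (isometries of Σ_(j<m−1) x_j y_j + z₁² + a z₁z₂ + c z₂², binary part anisotropic) to O⁺_2m(K) (isometries of Σ_(j<m) x_j y_j over K). -/
theorem result {F K : Type*} [Field F] [Fintype F] [Field K] [Fintype K] {q : ℕ} (hF : Fintype.card F = q) (hK : Fintype.card K = q ^ 2) {m : ℕ} (hm : 1 ≤ m) (a c : F) (hac : ∀ z₁ z₂ : F, z₁ ^ 2 + a * z₁ * z₂ + c * z₂ ^ 2 = 0 → z₁ = 0 ∧ z₂ = 0) : ∃ φ : ↥(Cfsg.isometryGroup F (Cfsg.quadFormMinus (m - 1) F a c)) →* ↥(Cfsg.isometryGroup K (Cfsg.quadFormPlus m K)), Function.Injective φ := by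
  classical
  obtain ⟨ι⟩ := Cfsg.Agent.Lib.Known3.Descent.exists_ringHom hK hF
  letI := ι.toAlgebra
  obtain ⟨k, rfl⟩ : ∃ k, m = k + 1 := ⟨m - 1, by omega⟩
  obtain ⟨β, hβ, hs, hp⟩ := Cfsg.Agent.Lib.Known3.DescentQ.exists_root hK hF a c hac
  exact embed_main hF hK k a c β hβ hs hp

end Cfsg.Agent.S2679
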