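import Cfsg.Statements.S2680
import Mathlib
import Cfsg.Agent.Lib.Known3.InvCent2

set_option autoImplicit false
open Cfsg

namespace Cfsg.Agent.S2680

/-- Centraliser order of an involution t of Sp_2m(q), q even, with s = rank(t − 1) odd (type b_s): |C(t)| = q^(2ms − (3s² − s)/2) · |Sp_(s−1)(q)| · |Sp_(2m−2s)(q)|, where |Sp_2k(q)| = q^(k²) Π_(i=1)^k (q^(2i) − 1). -/
theorem result {F : Type*} [Field F] [Fintype F] [CharP F 2] {q : ℕ} (hF : Fintype.card F = q) {m s : ℕ} (t : Matrix.symplecticGroup (Fin m) F) (ht : t ^ 2 = 1) (hs : ((t : Matrix (Fin m ⊕ Fin m) (Fin m ⊕ Fin m) F) - 1).rank = s) (hodd : Odd s) : Nat.card ↥(Subgroup.centralizer ({t} : Set ↥(Matrix.symplecticGroup (Fin m) F))) = q ^ (2 * m * s - (3 * s ^ 2 - s) / 2) * ((q : ℕ) ^ (((s - 1) / 2) ^ 2) * ∏ i : Fin ((s - 1) / 2), (q ^ (2 * ((i : ℕ) + 1)) - 1)) * ((q : ℕ) ^ ((m - s) ^ 2) * ∏ i : Fin (m - s), (q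 ^ (2 * ((i : ℕ) + 1)) - 1)) := by
  classical
  have hN : Module.finrank F (LinearMap.range (Cfsg.Agent.Lib.Known3.InvC.NN t)) = s := hs
  obtain ⟨B, hsym, hnd, halt', hle, hcard⟩ := Cfsg.Agent.Lib.Known3.InvC.card_main hF ht
  rw [hN] at hcard hle
  obtain ⟨k, hk⟩ := hodd
  have hk2 : (s - 1) / 2 = k := by omega
  obtain ⟨v₀, hv⟩ := Cfsg.Agent.Lib.Known3.InvC.exists_v0 B hsym hnd
  have h1 := Cfsg.Agent.Lib.Known3.InvC.card_odd hF hnd hv (Cfsg.Agent.Lib.Known3.InvC.v0_of_odd hnd hv (by rw [hN, hk]; exact ⟨k, rfl⟩)) (k := k) (by rw [hN, hk])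
  rw [hcard, h1, Cfsg.Agent.Lib.Known3.InvC.exp_eq s m hle, hk2,
    Fin.prod_univ_eq_prod_range (fun i => q ^ (2 * (i + 1)) - 1) k,
    Fin.prod_univ_eq_prod_range (fun i => q ^ (2 * (i + 1)) - 1) (m - s)]
  unfold Cfsg.Agent.Lib.Classical.Frames.PP
  ring

end Cfsg.Agent.S2680
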