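import Cfsg.Statements.S2681
import Mathlib
import Cfsg.Agent.Lib.Known3.InvCent2

set_option autoImplicit false
open Cfsg

namespace Cfsg.Agent.S2681

/-- Centraliser order of an involution t of Sp_2m(q), q even, with s = rank(t − 1) even and f(v, tv) = 0 for every v, f the symplectic form (type a_s): |C(t)| = q^(2ms − (3s² − s)/2) · |Sp_s(q)| · |Sp_(2m−2s)(q)|. -/
theorem result {F : Type*} [Field F] [Fintype F] [CharP F 2] {q : ℕ} (hF : Fintype.card F = q) {m s : ℕ} (t : Matrix.symplecticGroup (Fin m) F) (ht : t ^ 2 = 1) (ht1 : t ≠ 1) (hs : ((t : Matrix (Fin m ⊕ Fin m) (Fin m ⊕ Fin m) F) - 1).rank = s) (heven : Even s) (halt : ∀ v : Fin m ⊕ Fin m → F, Cfsg.sympForm m F v ((t : Matrix (Fin m ⊕ Fin m) (Fin m ⊕ Fin m) F).mulVec v) = 0) : Nat.card ↥(Subgroup.centralizer ({t} : Set ↥(Matrix.symplecticGroup (Fin m) F))) = q ^ (2 * m * s - (3 * s ^ 2 - s) / 2) * ((q : ℕ) ^ ((s / 2) ^ 2) * ∏ i :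 Fin (s / 2), (q ^ (2 * ((i : ℕ) + 1)) - 1)) * ((q : ℕ) ^ ((m - s) ^ 2) * ∏ i : Fin (m - s), (q ^ (2 * ((i : ℕ) + 1)) - 1)) := by
  classical
  have hN : Module.finrank F (LinearMap.range (Cfsg.Agent.Lib.Known3.InvC.NN t)) = s := hs
  obtain ⟨B, hsym, hnd, halt', hle, hcard⟩ := Cfsg.Agent.Lib.Known3.InvC.card_main hF ht
  rw [hN] at hcard hle
  have hA : B.IsAlt := fun x => halt'.2 halt x
  obtain ⟨k, hk⟩ : ∃ k, s = 2 * k := by
    obtain ⟨k, hk⟩ := heven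
    exact ⟨k, by omega⟩
  have hk2 : s / 2 = k := by omega
  have h1 := Cfsg.Agent.Lib.Classical.Abs.card_isoG_alt q hF k _ B hnd hA (by rw [hN, hk])
  rw [hcard, h1, Cfsg.Agent.Lib.Known3.InvC.exp_eq s m hle, hk2,
    Fin.prod_univ_eq_prod_range (fun i => q ^ (2 * (i + 1)) - 1) k,
    Fin.prod_univ_eq_prod_range (fun i => q ^ (2 * (i + 1)) - 1) (m - s)]
  unfold Cfsg.Agent.Lib.Classical.Frames.PP
  ring

end Cfsg.Agent.S2681
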