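import Cfsg.Statements.S2682
import Mathlib
import Cfsg.Agent.Lib.Known3.InvCent2

set_option autoImplicit false
open Cfsg

namespace Cfsg.Agent.S2682

/-- Centraliser order of an involution t of Sp_2m(q), q even, with s = rank(t − 1) even and f(v, tv) ≠ 0 for some v, f the symplectic form (type c_s): |C(t)| = q^(2ms − (3s² − 3s)/2 − 1) · |Sp_(s−2)(q)| · |Sp_(2m−2s)(q)|. -/
theorem result {F : Type*} [Field F] [Fintype F] [CharP F 2] {q : ℕ} (hF : Fintype.card F = q) {m s : ℕ} (t : Matrix.symplecticGroup (Fin m) F) (ht : t ^ 2 = 1) (hs : ((t : Matrix (Fin m ⊕ Fin m) (Fin m ⊕ Fin m) F) - 1).rank = s) (heven : Even s) (hna : ∃ v : Fin m ⊕ Fin m → F, Cfsg.sympForm m F v ((t : Matrix (Fin m ⊕ Fin m) (Fin m ⊕ Fin m) F).mulVec v) ≠ 0) : Nat.card ↥(Subgroup.centralizer ({t} : Set ↥(Matrix.symplecticGroup (Fin m) F))) = q ^ (2 * m * s - (3 * s ^ 2 - 3 * s) / 2 - 1) * ((q : ℕ) ^ (((s - 2) / 2) ^ 2) * ∏ i : Fin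 ((s - 2) / 2), (q ^ (2 * ((i : ℕ) + 1)) - 1)) * ((q : ℕ) ^ ((m - s) ^ 2) * ∏ i : Fin (m - s), (q ^ (2 * ((i : ℕ) + 1)) - 1)) := by
  classical
  have hN : Module.finrank F (LinearMap.range (Cfsg.Agent.Lib.Known3.InvC.NN t)) = s := hs
  obtain ⟨B, hsym, hnd, halt', hle, hcard⟩ := Cfsg.Agent.Lib.Known3.InvC.card_main hF ht
  rw [hN] at hcard hle
  have hna' : ∃ x, B x x ≠ 0 := by
    by_contra hc
    push Not at hc
    obtain ⟨v, hv⟩ := hna
    exact hv (halt'.1 hc v)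
  obtain ⟨l, hl⟩ : ∃ l, s = 2 * (l + 1) := by
    obtain ⟨k, hk⟩ := heven
    have hk0 : k ≠ 0 := by
      rintro rfl
      obtain ⟨x, hx⟩ := hna'
      apply hx
      have : Subsingleton (LinearMap.range (Cfsg.Agent.Lib.Known3.InvC.NN t)) := by
        apply (Module.finrank_zero_iff (R := F)).1
        rw [hN, hk]
      rw [Subsingleton.elim x 0]
      simp
    exact ⟨k - 1, by omega⟩
  have hk2 : (s - 2) / 2 = l := by omega
  obtain ⟨v₀, hv⟩ := Cfsg.Agent.Lib.Known3.InvC.exists_v0 B hsym hnd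
  have h1 := Cfsg.Agent.Lib.Known3.InvC.card_even hF hnd hv (Cfsg.Agent.Lib.Known3.InvC.v0_of_even hnd hv (by rw [hN, hl]; exact ⟨l + 1, by ring⟩)) hna' (k := l + 1) (by rw [hN, hl])
  rw [Finset.prod_range_succ] at h1
  have hq2 : 2 ≤ q := by
    rw [← hF]
    exact Fintype.one_lt_card
  have hpos : 0 < q ^ (2 * (l + 1)) - 1 := by
    have : 1 < q ^ (2 * (l + 1)) := Nat.one_lt_pow (by omega) (by omega)
    omega
  have h2 : Nat.card (Cfsg.Agent.Lib.Classical.Abs.isoG (fun u v : LinearMap.range (Cfsg.Agent.Lib.Known3.InvC.NN t) => B u v)) = q ^ ((l + 1) ^ 2) * ∏ i ∈ Finset.range l, (q ^ (2 * (i + 1)) - 1) :=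
    Nat.eq_of_mul_eq_mul_right hpos (by rw [h1, mul_assoc])
  rw [hcard, h2, Cfsg.Agent.Lib.Known3.InvC.exp_eq2 s m hle (by omega), hk2,
    Fin.prod_univ_eq_prod_range (fun i => q ^ (2 * (i + 1)) - 1) l,
    Fin.prod_univ_eq_prod_range (fun i => q ^ (2 * (i + 1)) - 1) (m - s)]
  unfold Cfsg.Agent.Lib.Classical.Frames.PP
  have h3 : (l + 1) ^ 2 = l ^ 2 + (s - 1) := by
    have : s - 1 = 2 * l + 1 := by omega
    rw [this]
    ring
  rw [h3, pow_add, pow_add q _ (s - 1)]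
  ring

end Cfsg.Agent.S2682
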