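import Cfsg.Statements.S2702
import Mathlib
import Cfsg.Agent.Lib.Known3.GraphSplit4

set_option autoImplicit false
open Cfsg

namespace Cfsg.Agent.S2702

/-- Let T = PSL_n(F) over the field with q = p^f elements, n ≥ 3, G = Inndiag(T) the image of PGL_n(F), and γ an involutory graph automorphism of T. The G-class of γ is the union of exactly c T-classes, where: if n is even and q is odd, c = gcd(n/2, q − 1) when C_G(γ) is isomorphic to the projective conformal symplectic group PGSp_n(F) (symplectic type) and c = gcd(n, q − 1)/2 otherwise; and c = gcd(n, q − 1) when n is odd or q is even. -/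
theorem result {F : Type*} [Field F] [Fintype F] {p f : ℕ} [Fact p.Prime] (hF : Fintype.card F = p ^ f) (hf : 1 ≤ f) {n : ℕ} (hn : 3 ≤ n) (γ : MulAut (Matrix.ProjectiveSpecialLinearGroup (Fin n) F)) (hγ : Cfsg.IsGraphAutClassPSL γ) (hγ2 : orderOf γ = 2) :
    ((Even n ∧ Odd p ∧ Nonempty (↥(Cfsg.inndiagPSL n F ⊓ Subgroup.centralizer {γ}) ≃* Cfsg.PGSp (n / 2) F)) → Cfsg.splitClassCount (Cfsg.inndiagPSL n F) (Cfsg.Inn (Matrix.ProjectiveSpecialLinearGroup (Fin n) F)) γ = Nat.gcd (n / 2) (p ^ f - 1)) ∧ ((Even n ∧ Odd p ∧ ¬ Nonempty (↥(Cfsg.inndiagPSL n F ⊓ Subgroup.centralizer {γ}) ≃* Cfsg.PGSp (n / 2) F)) → Cfsg.splitClassCount (Cfsg.inndiagPSL n F) (Cfsg.Inn (Matrix.ProjectiveSpecialLinearGroup (Fin n) F)) γ = Nat.gcd n (p ^ f - 1) / 2) ∧ (¬ (Even n ∧ Odd p) → Cfsg.splitClassCount (Cfsg.inndiagPSL n F) (Cfsg.Inn (Matrix.ProjectiveSpecialLinearGroup (Fin n) F)) γ = Nat.gcd n (p ^ f - 1)) := by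
  classical
  open Cfsg.Agent.Lib.Known3.Graph in
  have hcard : Fintype.card F - 1 = p ^ f - 1 := by rw [hF]
  have hn2 : 2 ≤ n := by omega
  have hinv : (Fintype.card F) = p ^ f := hF
  obtain ⟨G, rfl⟩ := Cfsg.Agent.Lib.Known3.Graph.exists_gg hγ
  obtain ⟨c, hc⟩ := (Cfsg.Agent.Lib.Known3.Graph.order_two_iff hn G).1 hγ2
  have hp2 : Odd p → Odd (Fintype.card F) := fun h => by rw [hF]; exact h.pow
  refine ⟨?_, ?_, ?_⟩
  · rintro ⟨⟨m, hm⟩, hodd, hiso⟩
    have hnm : n = 2 * m := by omega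
    have hm2 : n / 2 = m := by omega
    have h2 : (2 : F) ≠ 0 := Cfsg.Agent.Lib.Known3.OmegaCalc.two_ne_of_odd rfl (hp2 hodd)
    rcases Cfsg.Agent.Lib.Known3.Graph.sym_or_skew (by omega) G hc with hs | hs
    · rw [hm2] at hiso
      exact absurd hiso (Cfsg.Agent.Lib.Known3.Graph.not_iso_PGSp (hp2 hodd) (by omega) hnm hn2 G hs)
    · rw [hm2, Cfsg.Agent.Lib.Known3.Graph.split_skew h2 hn2 hnm G hs, hF]
  · rintro ⟨⟨m, hm⟩, hodd, hiso⟩
    have hnm : n = 2 * m := by omega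
    have hm2 : n / 2 = m := by omega
    have h2 : (2 : F) ≠ 0 := Cfsg.Agent.Lib.Known3.OmegaCalc.two_ne_of_odd rfl (hp2 hodd)
    rcases Cfsg.Agent.Lib.Known3.Graph.sym_or_skew (by omega) G hc with hs | hs
    · rw [Cfsg.Agent.Lib.Known3.Graph.split_sym h2 (by omega) hn2 hnm G hs, hF]
    · exfalso
      apply hiso
      rw [hm2]
      obtain ⟨θ, hθ⟩ := Cfsg.Agent.Lib.Known3.Graph.skew_std h2 hnm G hs
      exact Cfsg.Agent.Lib.Known3.Graph.cent_similarity hn2 G θ (Cfsg.sympForm m F) 1 one_ne_zero (fun u v => by rw [hθ, one_mul])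
  · intro hne
    by_cases hodd : Odd n
    · rw [Cfsg.Agent.Lib.Known3.Graph.split_pow hn2 G (fun g z h => Cfsg.Agent.Lib.Known3.Graph.odd_sim hodd G g z h), hF]
    · have heven : Even n := Nat.not_odd_iff_even.1 hodd
      have hp : ¬ Odd p := fun h => hne ⟨heven, h⟩
      have hpe : p = 2 := by
        have := (Fact.out : p.Prime).eq_two_or_odd'
        tauto
      subst hpe
      haveI : CharP F 2 := by
        obtain ⟨r, hr⟩ := CharP.exists F
        haveI := hr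
        obtain ⟨k, hr', hk⟩ := FiniteField.card F r
        have hr2 : r ∣ 2 ^ f := by
          rw [← hF, hk]
          exact dvd_pow_self r k.ne_zero
        have := (Nat.prime_dvd_prime_iff_eq hr' Nat.prime_two).1 (hr'.dvd_of_dvd_pow hr2)
        rwa [this] at hr
      rw [Cfsg.Agent.Lib.Known3.Graph.split_pow hn2 G (fun g z h => Cfsg.Agent.Lib.Known3.Graph.char2_sim G g z h), hF]

end Cfsg.Agent.S2702
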