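import Cfsg.Statements.S2703
import Mathlib
import Cfsg.Agent.Lib.Known3.GraphDisc

set_option autoImplicit false
open Cfsg

namespace Cfsg.Agent.S2703

/-- Let T = PSL_n(F) over the field with q elements, q odd, n = 2m ≥ 4 even, and ι the inverse-transpose automorphism. Its centralizer in G = Inndiag(T) (the image of PGL_n(F)) is isomorphic to the projective conformal orthogonal group of the plus-type form Σ xᵢ yᵢ in dimension n when n(q − 1)/4 is even, and to that of a minus-type form (Σ xᵢ yᵢ + z₁² + a z₁ z₂ + b z₂² with anisotropic binary part) when n(q − 1)/4 is odd. -/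
theorem result {F : Type*} [Field F] [Fintype F] (hodd : Odd (Fintype.card F)) {n m : ℕ} (hm : 2 ≤ m) (hnm : n = 2 * m) (ι : MulAut (Matrix.ProjectiveSpecialLinearGroup (Fin n) F)) (hι : Cfsg.IsInverseTransposeAutPSL ι) :
    (Even (n * (Fintype.card F - 1) / 4) → Nonempty (↥(Cfsg.inndiagPSL n F ⊓ Subgroup.centralizer {ι}) ≃* Cfsg.PGO F (Cfsg.quadFormPlus m F))) ∧ (¬ Even (n * (Fintype.card F - 1) / 4) → ∃ a b : F, (∀ z₁ z₂ : F, z₁ ^ 2 + a * z₁ * z₂ + b * z₂ ^ 2 = 0 → z₁ = 0 ∧ z₂ = 0) ∧ Nonempty (↥(Cfsg.inndiagPSL n F ⊓ Subgroup.centralizer {ι}) ≃* Cfsg.PGO F (Cfsg.quadFormMinus (m - 1) F a b))) := by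
  subst hnm
  have hm1 : 1 ≤ m := by omega
  have h2 : (2 : F) ≠ 0 := Cfsg.Agent.Lib.Known3.OmegaCalc.two_ne_of_odd rfl hodd
  have hn2 : 2 ≤ 2 * m := by omega
  have hι' : ι = Cfsg.Agent.Lib.Known3.Graph.gg (1 : Matrix.GeneralLinearGroup (Fin (2 * m)) F) := by
    rw [Cfsg.Agent.Lib.Known3.Graph.gg_one]
    exact Cfsg.Agent.Lib.Known3.FieldAut.eq_gamP hι
  have hq : 2 * m * (Fintype.card F - 1) / 4 = m * ((Fintype.card F - 1) / 2) := by
    obtain ⟨t, ht⟩ := hodd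
    have h3 : (Fintype.card F - 1) / 2 = t := by omega
    have h4 : Fintype.card F - 1 = 2 * t := by omega
    rw [h3, h4]
    have : 2 * m * (2 * t) = 4 * (m * t) := by ring
    rw [this]
    simp
  rw [hq, hι']
  obtain ⟨h5, h6⟩ := Cfsg.Agent.Lib.Known3.Graph.dot_type (F := F) hodd hm1
  have hS : Matrix.transpose ((1 : Matrix.GeneralLinearGroup (Fin (2 * m)) F) : Matrix (Fin (2 * m)) (Fin (2 * m)) F) = ((1 : Matrix.GeneralLinearGroup (Fin (2 * m)) F) : Matrix (Fin (2 * m)) (Fin (2 * m)) F) := by simp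
  constructor
  · intro he
    obtain ⟨θ, hθ⟩ := h5 he
    exact Cfsg.Agent.Lib.Known3.Graph.cent_quad hn2 h2 1 hS θ _ 1 one_ne_zero (fun v => by
      rw [one_mul, hθ]
      rfl)
  · intro he
    obtain ⟨ζ, θ, hζ, hθ⟩ := h6 he
    refine ⟨1, ζ, ?_, ?_⟩
    · exact fun z₁ z₂ h => Cfsg.Agent.Lib.Known3.QuadIso.anisotropic_of ζ hζ z₁ z₂ h
    · exact Cfsg.Agent.Lib.Known3.Graph.cent_quad hn2 h2 1 hS θ _ 1 one_ne_zero (fun v => by
        rw [one_mul, hθ]
        rfl)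

end Cfsg.Agent.S2703
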