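import Cfsg.Statements.S2707
import Mathlib
import Cfsg.Agent.Lib.Known3.GraphU5
import Cfsg.Agent.Lib.Known3.GraphForms

set_option autoImplicit false
open Cfsg

namespace Cfsg.Agent.S2707

/-- Let T = PSU_n(q) with n = 2m ≥ 4 even and q odd, realised over the field F with q² elements, and G = Inndiag(T) the image of PGU_n(q). The involutory graph automorphisms of T fall into exactly three G-classes, with representatives whose centralizers in G are isomorphic respectively to the projective conformal symplectic group PGSp_n(F₀), the projective conformal orthogonal group of the plus-type form Σ xᵢ yᵢ, and that of a minus-type form Σ xᵢ yᵢ + z₁² + a z₁ z₂ + b z₂² (anisotropic binary part) in dimension n, all over a field F₀ with q elements. -/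
theorem result {F : Type*} [Field F] [Fintype F] {q : ℕ} (hodd : Odd q) (hF : Fintype.card F = q ^ 2) {n m : ℕ} (hm : 2 ≤ m) (hnm : n = 2 * m) (F₀ : Type*) [Field F₀] [Fintype F₀] (hF₀ : Fintype.card F₀ = q) :
    ∃ (γ₁ γ₂ γ₃ : MulAut (Cfsg.PSU n F q)) (a b : F₀), (∀ z₁ z₂ : F₀, z₁ ^ 2 + a * z₁ * z₂ + b * z₂ ^ 2 = 0 → z₁ = 0 ∧ z₂ = 0) ∧ Cfsg.IsGraphAutClassPSU γ₁ ∧ orderOf γ₁ = 2 ∧ Cfsg.IsGraphAutClassPSU γ₂ ∧ orderOf γ₂ = 2 ∧ Cfsg.IsGraphAutClassPSU γ₃ ∧ orderOf γ₃ = 2 ∧ ¬ Cfsg.IsConjUnder (Cfsg.inndiagPSU n F q) γ₁ γ₂ ∧ ¬ Cfsg.IsConjUnder (Cfsg.inndiagPSU n F q) γ₁ γ₃ ∧ ¬ Cfsg.IsConjUnder (Cfsg.inndiagPSU n F q) γ₂ γ₃ ∧ (∀ γ : MulAut (Cfsg.PSU n F q), Cfsg.IsGraphAutClassPSU γ → orderOf γ = 2 → Cfsg.IsConjUnder (Cfsg.inndiagPSU n F q) γ₁ γ ∨ Cfsg.IsConjUnder (Cfsg.inndiagPSU n F q) γ₂ γ ∨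 Cfsg.IsConjUnder (Cfsg.inndiagPSU n F q) γ₃ γ) ∧ Nonempty (↥(Cfsg.inndiagPSU n F q ⊓ Subgroup.centralizer {γ₁}) ≃* Cfsg.PGSp m F₀) ∧ Nonempty (↥(Cfsg.inndiagPSU n F q ⊓ Subgroup.centralizer {γ₂}) ≃* Cfsg.PGO F₀ (Cfsg.quadFormPlus m F₀)) ∧ Nonempty (↥(Cfsg.inndiagPSU n F q ⊓ Subgroup.centralizer {γ₃}) ≃* Cfsg.PGO F₀ (Cfsg.quadFormMinus (m - 1) F₀ a b)) := by
  classical
  have hn3 : 3 ≤ n := by omega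
  have hn1 : 1 ≤ n := by omega
  have hs : ¬ (n = 3 ∧ q = 2) := by omega
  obtain ⟨e, D₀⟩ := Cfsg.Agent.Lib.Known3.GraphU.exists_FD (F₀ := F₀) hF hF₀
  obtain ⟨γ₁, γ₂, γ₃, a, b, hab, g1, o1, g2, o2, g3, o3, n12, n13, n23, hcomp, ⟨c1⟩, ⟨c2⟩, ⟨c3⟩⟩ :=
    Cfsg.Agent.Lib.Known3.Graph.even_main (F := F₀) (by rw [hF₀]; exact hodd) hm hnm
  obtain ⟨G₁, rfl⟩ := Cfsg.Agent.Lib.Known3.Graph.exists_gg g1
  obtain ⟨G₂, rfl⟩ := Cfsg.Agent.Lib.Known3.Graph.exists_gg g2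
  obtain ⟨G₃, rfl⟩ := Cfsg.Agent.Lib.Known3.Graph.exists_gg g3
  obtain ⟨d₁, hd₁⟩ := (Cfsg.Agent.Lib.Known3.Graph.order_two_iff hn3 G₁).1 o1
  obtain ⟨d₂, hd₂⟩ := (Cfsg.Agent.Lib.Known3.Graph.order_two_iff hn3 G₂).1 o2
  obtain ⟨d₃, hd₃⟩ := (Cfsg.Agent.Lib.Known3.Graph.order_two_iff hn3 G₃).1 o3
  obtain ⟨δ₁, R₁⟩ := Cfsg.Agent.Lib.Known3.GraphU.Rel.exists_left (q := q) (hF := hF) D₀ hn1 G₁ hd₁
  obtain ⟨δ₂, R₂⟩ := Cfsg.Agent.Lib.Known3.GraphU.Rel.exists_left (q := q) (hF := hF) D₀ hn1 G₂ hd₂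
  obtain ⟨δ₃, R₃⟩ := Cfsg.Agent.Lib.Known3.GraphU.Rel.exists_left (q := q) (hF := hF) D₀ hn1 G₃ hd₃
  obtain ⟨ψ₁⟩ := R₁.cent hn3 hs
  obtain ⟨ψ₂⟩ := R₂.cent hn3 hs
  obtain ⟨ψ₃⟩ := R₃.cent hn3 hs
  refine ⟨δ₁, δ₂, δ₃, a, b, hab, (R₁.graph hn3 hs).1, (R₁.graph hn3 hs).2, (R₂.graph hn3 hs).1, (R₂.graph hn3 hs).2, (R₃.graph hn3 hs).1, (R₃.graph hn3 hs).2,
    fun h => n12 ((R₁.conj hn3 hs R₂).1 h), fun h => n13 ((R₁.conj hn3 hs R₃).1 h), fun h => n23 ((R₂.conj hn3 hs R₃).1 h), ?_, ⟨ψ₁.trans c1⟩, ⟨ψ₂.trans c2⟩, ⟨ψ₃.trans c3⟩⟩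
  intro γ hγ hγ2
  obtain ⟨G₀, c, hc, hR⟩ := Cfsg.Agent.Lib.Known3.GraphU.Rel.exists_right hF₀ D₀ hn3 hs hγ hγ2
  rcases hcomp _ (Cfsg.Agent.Lib.Known3.Graph.gg_isGraph hn3 G₀) ((Cfsg.Agent.Lib.Known3.Graph.order_two_iff hn3 G₀).2 ⟨c, hc⟩) with h | h | h
  · exact Or.inl ((R₁.conj hn3 hs hR).2 h)
  · exact Or.inr (Or.inl ((R₂.conj hn3 hs hR).2 h))
  · exact Or.inr (Or.inr ((R₃.conj hn3 hs hR).2 h))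

end Cfsg.Agent.S2707
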