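import Cfsg.Statements.S2708
import Mathlib
import Cfsg.Agent.Lib.Known3.GraphU5
import Cfsg.Agent.Lib.Known3.GraphEven2

set_option autoImplicit false
open Cfsg

namespace Cfsg.Agent.S2708

/-- Let T = PSU_n(q) with n = 2m ≥ 4 even and q even, realised over the field F (of characteristic 2) with q² elements, and G = Inndiag(T) the image of PGU_n(q). The involutory graph automorphisms of T fall into exactly two G-classes, with representatives whose centralizers in G are isomorphic respectively to the symplectic group Sp_n(F₀) and to the centralizer in Sp_n(F₀) of a symplectic transvection, F₀ a field with q elements. -/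
theorem result {F : Type*} [Field F] [Fintype F] [CharP F 2] {q : ℕ} (hF : Fintype.card F = q ^ 2) {n m : ℕ} (hm : 2 ≤ m) (hnm : n = 2 * m) (F₀ : Type*) [Field F₀] [Fintype F₀] (hF₀ : Fintype.card F₀ = q) :
    ∃ (γ₁ γ₃ : MulAut (Cfsg.PSU n F q)) (t : ↥(Matrix.symplecticGroup (Fin m) F₀)), Cfsg.IsTransvection (t : Matrix (Fin m ⊕ Fin m) (Fin m ⊕ Fin m) F₀) ∧ Cfsg.IsGraphAutClassPSU γ₁ ∧ orderOf γ₁ = 2 ∧ Cfsg.IsGraphAutClassPSU γ₃ ∧ orderOf γ₃ = 2 ∧ ¬ Cfsg.IsConjUnder (Cfsg.inndiagPSU n F q) γ₁ γ₃ ∧ (∀ γ : MulAut (Cfsg.PSU n F q), Cfsg.IsGraphAutClassPSU γ → orderOf γ = 2 → Cfsg.IsConjUnder (Cfsg.inndiagPSU n F q) γ₁ γ ∨ Cfsg.IsConjUnder (Cfsg.inndiagPSU n F q) γ₃ γ) ∧ Nonempty (↥(Cfsg.inndiagPSU n F q ⊓ Subgroup.centralizer {γ₁}) ≃* ↥(Matrix.symplecticGroup (Fin m) F₀)) ∧ Nonempty (↥(Cfsg.inndiagPSU n F q ⊓ Subgroup.centralizer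 {γ₃}) ≃* ↥(Subgroup.centralizer ({t} : Set ↥(Matrix.symplecticGroup (Fin m) F₀)))) := by
  classical
  have hn3 : 3 ≤ n := by omega
  have hn1 : 1 ≤ n := by omega
  have hs : ¬ (n = 3 ∧ q = 2) := by omega
  obtain ⟨e, D₀⟩ := Cfsg.Agent.Lib.Known3.GraphU.exists_FD (F₀ := F₀) hF hF₀
  haveI : CharP F₀ 2 := (RingHom.charP_iff e D₀.inj 2).2 inferInstance
  obtain ⟨γ₁, γ₃, t, ht, g1, o1, g3, o3, n13, hcomp, ⟨c1⟩, ⟨c3⟩⟩ := Cfsg.Agent.Lib.Known3.Graph.even2_main (F := F₀) (n := n) (m := m) hm hnm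
  obtain ⟨G₁, rfl⟩ := Cfsg.Agent.Lib.Known3.Graph.exists_gg g1
  obtain ⟨G₃, rfl⟩ := Cfsg.Agent.Lib.Known3.Graph.exists_gg g3
  obtain ⟨d₁, hd₁⟩ := (Cfsg.Agent.Lib.Known3.Graph.order_two_iff hn3 G₁).1 o1
  obtain ⟨d₃, hd₃⟩ := (Cfsg.Agent.Lib.Known3.Graph.order_two_iff hn3 G₃).1 o3
  obtain ⟨δ₁, R₁⟩ := Cfsg.Agent.Lib.Known3.GraphU.Rel.exists_left (q := q) (hF := hF) D₀ hn1 G₁ hd₁
  obtain ⟨δ₃, R₃⟩ := Cfsg.Agent.Lib.Known3.GraphU.Rel.exists_left (q := q) (hF := hF) D₀ hn1 G₃ hd₃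
  obtain ⟨ψ₁⟩ := R₁.cent hn3 hs
  obtain ⟨ψ₃⟩ := R₃.cent hn3 hs
  refine ⟨δ₁, δ₃, t, ht, (R₁.graph hn3 hs).1, (R₁.graph hn3 hs).2, (R₃.graph hn3 hs).1, (R₃.graph hn3 hs).2,
    fun h => n13 ((R₁.conj hn3 hs R₃).1 h), ?_, ⟨ψ₁.trans c1⟩, ⟨ψ₃.trans c3⟩⟩
  intro γ hγ hγ2
  obtain ⟨G₀, c, hc, hR⟩ := Cfsg.Agent.Lib.Known3.GraphU.Rel.exists_right hF₀ D₀ hn3 hs hγ hγ2
  rcases hcomp _ (Cfsg.Agent.Lib.Known3.Graph.gg_isGraph hn3 G₀) ((Cfsg.Agent.Lib.Known3.Graph.order_two_iff hn3 G₀).2 ⟨c, hc⟩) with h | h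
  · exact Or.inl ((R₁.conj hn3 hs hR).2 h)
  · exact Or.inr ((R₃.conj hn3 hs hR).2 h)

end Cfsg.Agent.S2708
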