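import Cfsg.Statements.S2709
import Mathlib
import Cfsg.Agent.Lib.Known3.GraphSplitU

set_option autoImplicit false
open Cfsg

namespace Cfsg.Agent.S2709

/-- Let T = PSU_n(q) be simple (n ≥ 3, (n,q) ≠ (3,2), q = p^f), realised over the field F with q² elements, G = Inndiag(T) the image of PGU_n(q), and γ an involutory graph automorphism of T. The G-class of γ is the union of exactly c T-classes, where: if n is even and q is odd, c = gcd(n/2, q + 1) when C_G(γ) is isomorphic to PGSp_n(F₀) for a field F₀ with q elements (symplectic type) and c = gcd(n, q + 1)/2 otherwise; and c = gcd(n, q + 1) when n is odd or q is even. -/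
theorem result {F : Type*} [Field F] [Fintype F] {p f q : ℕ} [Fact p.Prime] (hq : q = p ^ f) (hf : 1 ≤ f) (hF : Fintype.card F = q ^ 2) {n : ℕ} (hn : 3 ≤ n) (hs : ¬ (n = 3 ∧ q = 2)) (F₀ : Type*) [Field F₀] [Fintype F₀] (hF₀ : Fintype.card F₀ = q) (γ : MulAut (Cfsg.PSU n F q)) (hγ : Cfsg.IsGraphAutClassPSU γ) (hγ2 : orderOf γ = 2) :
    ((Even n ∧ Odd q ∧ Nonempty (↥(Cfsg.inndiagPSU n F q ⊓ Subgroup.centralizer {γ}) ≃* Cfsg.PGSp (n / 2) F₀)) → Cfsg.splitClassCount (Cfsg.inndiagPSU n F q) (Cfsg.Inn (Cfsg.PSU n F q)) γ = Nat.gcd (n / 2) (q + 1)) ∧ ((Even n ∧ Odd q ∧ ¬ Nonempty (↥(Cfsg.inndiagPSU n F q ⊓ Subgroup.centralizer {γ}) ≃* Cfsg.PGSp (n / 2) F₀)) → Cfsg.splitClassCount (Cfsg.inndiagPSU n F q) (Cfsg.Inn (Cfsg.PSU n F q)) γ = Nat.gcd n (q + 1) / 2) ∧ (¬ (Even n ∧ Odd q) → Cfsg.splitClassCount (Cfsg.inndiagPSU n F q) (Cfsg.Inn (Cfsg.PSU n F q)) γ = Nat.gcd n (q + 1)) := by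
  classical
  have hn2 : 2 ≤ n := by omega
  obtain ⟨e, D₀⟩ := Cfsg.Agent.Lib.Known3.GraphU.exists_FD hF hF₀
  obtain ⟨G₀, c, hc, hR⟩ := Cfsg.Agent.Lib.Known3.GraphU.Rel.exists_right hF₀ D₀ hn hs hγ hγ2
  obtain ⟨φ⟩ := hR.cent hn hs
  obtain ⟨D, rfl⟩ := hR
  have hp2 : Odd q → Odd (Fintype.card F₀) := fun h => by rw [hF₀]; exact h
  refine ⟨?_, ?_, ?_⟩
  · rintro ⟨⟨m, hm⟩, hodd, hiso⟩
    have hnm : n = 2 * m := by omega
    have hm2 : n / 2 = m := by omega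
    have h2 : (2 : F₀) ≠ 0 := Cfsg.Agent.Lib.Known3.OmegaCalc.two_ne_of_odd rfl (hp2 hodd)
    rcases Cfsg.Agent.Lib.Known3.Graph.sym_or_skew (by omega) G₀ hc with hs' | hs'
    · rw [hm2] at hiso
      obtain ⟨ψ⟩ := hiso
      exact absurd ⟨φ.symm.trans ψ⟩ (Cfsg.Agent.Lib.Known3.Graph.not_iso_PGSp (hp2 hodd) (by omega) hnm hn2 G₀ hs')
    · rw [hm2]
      exact Cfsg.Agent.Lib.Known3.GraphU.split_skewU h2 D₀ hn hs hnm D hs'
  · rintro ⟨⟨m, hm⟩, hodd, hiso⟩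
    have hnm : n = 2 * m := by omega
    have hm2 : n / 2 = m := by omega
    have h2 : (2 : F₀) ≠ 0 := Cfsg.Agent.Lib.Known3.OmegaCalc.two_ne_of_odd rfl (hp2 hodd)
    rcases Cfsg.Agent.Lib.Known3.Graph.sym_or_skew (by omega) G₀ hc with hs' | hs'
    · exact Cfsg.Agent.Lib.Known3.GraphU.split_symU h2 (by omega) D₀ hn hs hnm D hs'
    · exfalso
      apply hiso
      rw [hm2]
      obtain ⟨θ, hθ⟩ := Cfsg.Agent.Lib.Known3.Graph.skew_std h2 hnm G₀ hs'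
      obtain ⟨ψ⟩ := Cfsg.Agent.Lib.Known3.Graph.cent_similarity hn2 G₀ θ (Cfsg.sympForm m F₀) 1 one_ne_zero (fun u v => by rw [hθ, one_mul])
      exact ⟨φ.trans ψ⟩
  · intro hne
    by_cases hodd : Odd n
    · exact Cfsg.Agent.Lib.Known3.GraphU.split_powU D₀ hn hs D (fun g z h => Cfsg.Agent.Lib.Known3.Graph.odd_sim hodd G₀ g z h)
    · have heven : Even n := Nat.not_odd_iff_even.1 hodd
      have hp : ¬ Odd q := fun h => hne ⟨heven, h⟩
      have hqe : Even q := Nat.not_odd_iff_even.1 hp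
      haveI : CharP F₀ 2 := by
        obtain ⟨r, hr⟩ := CharP.exists F₀
        haveI := hr
        obtain ⟨k, hr', hk⟩ := FiniteField.card F₀ r
        have hr2 : 2 ∣ r ^ (k : ℕ) := by
          rw [← hk, hF₀]
          exact hqe.two_dvd
        have := (Nat.prime_dvd_prime_iff_eq Nat.prime_two hr').1 (Nat.prime_two.dvd_of_dvd_pow hr2)
        rwa [← this] at hr
      exact Cfsg.Agent.Lib.Known3.GraphU.split_powU D₀ hn hs D (fun g z h => Cfsg.Agent.Lib.Known3.Graph.char2_sim G₀ g z h)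

end Cfsg.Agent.S2709
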