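import Cfsg.Statements.S2710
import Mathlib
import Cfsg.Agent.Lib.Known3.GraphU5
import Cfsg.Agent.S2703

set_option autoImplicit false
open Cfsg

namespace Cfsg.Agent.S2710

/-- Let T = PSU_n(q) with n ≥ 4 divisible by 4 (n = 2m) and q odd, realised over the field F with q² elements, G = Inndiag(T) the image of PGU_n(q), and φ the standard field automorphism of T attached to the q-th power map of F (it induces inverse-transpose on the unitary matrices and is a graph automorphism). Its centralizer in G is isomorphic to the projective conformal orthogonal group of the plus-type form Σ xᵢ yᵢ in dimension n over a field F₀ with q elements. (Dimensions n ≡ 2 (mod 4) are not covered.) -/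
theorem result {F : Type*} [Field F] [Fintype F] {q : ℕ} (hodd : Odd q) (hF : Fintype.card F = q ^ 2) {n m : ℕ} (hm : 2 ≤ m) (hnm : n = 2 * m) (h4 : 4 ∣ n) (F₀ : Type*) [Field F₀] [Fintype F₀] (hF₀ : Fintype.card F₀ = q) (σ : F ≃+* F) (hσ : ∀ a : F, σ a = a ^ q) (φ : MulAut (Cfsg.PSU n F q)) (hφ : Cfsg.IsFieldAutPSUOf σ φ) :
    Nonempty (↥(Cfsg.inndiagPSU n F q ⊓ Subgroup.centralizer {φ}) ≃* Cfsg.PGO F₀ (Cfsg.quadFormPlus m F₀)) := by
  classical
  have hn3 : 3 ≤ n := by omega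
  have hs : ¬ (n = 3 ∧ q = 2) := by omega
  obtain ⟨e, D₀⟩ := Cfsg.Agent.Lib.Known3.GraphU.exists_FD (F₀ := F₀) hF hF₀
  have hστ : σ = Cfsg.Agent.Lib.Known3.FieldAut.tauQ hF := by
    ext x
    rw [hσ]
    rfl
  subst hστ
  have hφ' := Cfsg.Agent.Lib.Known3.FieldAut.eq_fU hφ
  subst hφ'
  have hR := Cfsg.Agent.Lib.Known3.GraphU.Rel.fU_one (n := n) (q := q) D₀
  obtain ⟨ψ⟩ := hR.cent hn3 hs
  have hι : Cfsg.IsInverseTransposeAutPSL (Cfsg.Agent.Lib.Known3.Graph.gg (1 : Matrix.GeneralLinearGroup (Fin n) F₀)) := by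
    rw [Cfsg.Agent.Lib.Known3.Graph.gg_one]
    exact Cfsg.Agent.Lib.AutPSL.isInvTr_gamP
  have hodd' : Odd (Fintype.card F₀) := by rw [hF₀]; exact hodd
  have hev : Even (n * (Fintype.card F₀ - 1) / 4) := by
    obtain ⟨t, rfl⟩ := h4
    obtain ⟨u, hu⟩ := hodd'
    rw [hu, Nat.add_sub_cancel, show 4 * t * (2 * u) / 4 = t * (2 * u) by
      rw [mul_assoc, Nat.mul_div_cancel_left _ (by norm_num : 0 < 4)]]
    exact ⟨t * u, by ring⟩
  obtain ⟨φ'⟩ := (Cfsg.Agent.S2703.result hodd' hm hnm _ hι).1 hev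
  exact ⟨ψ.trans φ'⟩

end Cfsg.Agent.S2710
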