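import Cfsg.Statements.S2738
import Mathlib
import Cfsg.Agent.Lib.Classical.Basic
import Cfsg.Agent.Lib.Classical.Transvection

set_option autoImplicit false
open Cfsg

namespace Cfsg.Agent.S2738

open scoped commutatorElement

/-- The special linear group SL(3, 4) has centre of order 3 and does not split over it: no subgroup is a complement to the centre (so SL(3, 4) is a non-split central extension of PSL(3, 4) by a group of order 3). -/
theorem result (F : Type*) [Field F] [Fintype F] (hF : Fintype.card F = 4) : Nat.card ↥(Subgroup.center (Matrix.SpecialLinearGroup (Fin 3) F)) = 3 ∧ ¬ ∃ K : Subgroup (Matrix.SpecialLinearGroup (Fin 3) F), Subgroup.IsComplement' (Subgroup.center (Matrix.SpecialLinearGroup (Fin 3) F)) K := by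
  have hcard : Nat.card ↥(Subgroup.center (Matrix.SpecialLinearGroup (Fin 3) F)) = 3 := by
    rw [Lib.Classical.card_center_SL 3 (by norm_num), hF]
    rfl
  refine ⟨hcard, ?_⟩
  rintro ⟨K, hK⟩
  have hdec : ∀ a : Matrix.SpecialLinearGroup (Fin 3) F,
      ∃ z ∈ Subgroup.center (Matrix.SpecialLinearGroup (Fin 3) F), ∃ k ∈ K, a = z * k := by
    intro a
    have ha : a ∈ (Set.univ : Set (Matrix.SpecialLinearGroup (Fin 3) F)) := trivial
    rw [← hK.mul_eq] at ha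
    obtain ⟨z, hz, k, hk, h3⟩ := Set.mem_mul.1 ha
    exact ⟨z, hz, k, hk, h3.symm⟩
  have h1 : commutator (Matrix.SpecialLinearGroup (Fin 3) F) ≤ K := by
    rw [commutator_def, Subgroup.commutator_le]
    intro a _ b _
    obtain ⟨z₁, hz₁, k₁, hk₁, rfl⟩ := hdec a
    obtain ⟨z₂, hz₂, k₂, hk₂, rfl⟩ := hdec b
    have h2 : ⁅z₁ * k₁, z₂ * k₂⁆ = ⁅k₁, k₂⁆ := by
      have c1 := Subgroup.mem_center_iff.1 hz₁
      have c2 := Subgroup.mem_center_iff.1 hz₂
      have c1' : ∀ g, z₁ * g * z₁⁻¹ = g := by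
        intro g
        rw [← c1 g]
        group
      have c2' : ∀ g, z₂ * g * z₂⁻¹ = g := by
        intro g
        rw [← c2 g]
        group
      rw [commutatorElement_def, commutatorElement_def]
      have e1 : z₁ * k₁ * (z₂ * k₂) * (z₁ * k₁)⁻¹ * (z₂ * k₂)⁻¹ =
          (z₁ * (k₁ * (z₂ * k₂) * k₁⁻¹) * z₁⁻¹) * (z₂ * k₂)⁻¹ := by group
      rw [e1, c1']
      have e2 : k₁ * (z₂ * k₂) * k₁⁻¹ * (z₂ * k₂)⁻¹ = k₁ * z₂ * (k₂ * k₁⁻¹ * k₂⁻¹) * z₂⁻¹ := by group
      rw [e2, c2 k₁]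
      have e3 : z₂ * k₁ * (k₂ * k₁⁻¹ * k₂⁻¹) * z₂⁻¹ = z₂ * (k₁ * k₂ * k₁⁻¹ * k₂⁻¹) * z₂⁻¹ := by group
      rw [e3, c2']
    rw [h2]
    exact K.mul_mem (K.mul_mem (K.mul_mem hk₁ hk₂) (K.inv_mem hk₁)) (K.inv_mem hk₂)
  have h2 := Lib.Classical.commutator_SL_eq_top (F := F) (ι := Fin 3) (by simp)
  have htop : K = ⊤ := top_le_iff.1 (h2 ▸ h1)
  have hbot := hK.disjoint
  rw [htop, disjoint_top] at hbot
  rw [hbot] at hcard
  simp at hcard

end Cfsg.Agent.S2738
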