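import Cfsg.Statements.S2739
import Mathlib
import Cfsg.Agent.Lib.Known3.PSL34

set_option autoImplicit false
open scoped Pointwise
open Cfsg

namespace Cfsg.Agent.S2739

open Matrix Cfsg.Agent.Lib.Known3.PSLBasic Cfsg.Agent.Lib.Known3.PSL34

lemma exists_gen {F : Type*} [Field F] [Fintype F]
    (X : Subgroup (Matrix.ProjectiveSpecialLinearGroup (Fin 3) F)) (hX : Nat.card ↥X = 3) :
    ∃ g : Matrix.SpecialLinearGroup (Fin 3) F, X = Subgroup.zpowers (cls g) ∧ cls g ^ 3 = 1 ∧ cls g ≠ 1 := by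
  haveI : Fact (Nat.Prime 3) := ⟨Nat.prime_three⟩
  haveI : Fact (Nat.card ↥X).Prime := by rw [hX]; infer_instance
  haveI : IsCyclic X := isCyclic_of_prime_card rfl
  obtain ⟨⟨x, hxX⟩, hx⟩ := IsCyclic.exists_generator (α := X)
  obtain ⟨g, hg⟩ := cls_surjective x
  have hord : orderOf x = 3 := by
    have h1 : orderOf (⟨x, hxX⟩ : X) = 3 := by
      rw [orderOf_eq_card_of_forall_mem_zpowers hx, hX]
    exact (Subgroup.orderOf_mk x hxX).symm.trans h1
  refine ⟨g, ?_, ?_, ?_⟩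
  · apply le_antisymm
    · intro y hy
      obtain ⟨k, hk⟩ := hx ⟨y, hy⟩
      rw [hg]
      exact ⟨k, by simpa using congrArg Subtype.val hk⟩
    · rw [hg, Subgroup.zpowers_le]
      exact hxX
  · have h2 := pow_orderOf_eq_one x
    rw [hord] at h2
    rw [hg]
    exact h2
  · rw [hg]
    intro h
    rw [h, orderOf_one] at hord
    omega

/-- In the projective special linear group PSL(3, 4) all subgroups of order 3 are conjugate. -/
theorem result (F : Type*) [Field F] [Fintype F] (hF : Fintype.card F = 4) (X Y : Subgroup (Matrix.ProjectiveSpecialLinearGroup (Fin 3) F)) (hX : Nat.card ↥X = 3) (hY : Nat.card ↥Y = 3) : ∃ g : Matrix.ProjectiveSpecialLinearGroup (Fin 3) F, MulAut.conj g • X = Y := by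
  classical
  obtain ⟨x, rfl, hx3, hx1⟩ := exists_gen X hX
  obtain ⟨y, rfl, hy3, hy1⟩ := exists_gen Y hY
  obtain ⟨w, hw1, hw0, hw3, hw⟩ := exists_omega hF
  obtain ⟨c₁, hc₁⟩ := (cls_pow_eq_one_iff x 3).1 hx3
  obtain ⟨c₂, hc₂⟩ := (cls_pow_eq_one_iff y 3).1 hy3
  have hnx : ¬ ∃ r : F, (x : Matrix (Fin 3) (Fin 3) F) = r • 1 := fun h => hx1 ((cls_eq_one_iff x).2 h)
  have hny : ¬ ∃ r : F, (y : Matrix (Fin 3) (Fin 3) F) = r • 1 := fun h => hy1 ((cls_eq_one_iff y).2 h)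
  obtain ⟨P, hPu, hP⟩ := exists_diag hF w hw1 hw3 hw _ x.2 c₁ hc₁ hnx
  obtain ⟨Q, hQu, hQ⟩ := exists_diag hF w hw1 hw3 hw _ y.2 c₂ hc₂ hny
  have hPd : P.det ≠ 0 := ((Matrix.isUnit_iff_isUnit_det P).1 hPu).ne_zero
  have hQd : Q.det ≠ 0 := ((Matrix.isUnit_iff_isUnit_det Q).1 hQu).ne_zero
  let δ : F := P.det / Q.det
  let Δ : Matrix (Fin 3) (Fin 3) F := Matrix.diagonal ![δ, 1, 1]
  have hΔ : Δ.det = δ := by simp [Δ, Matrix.det_diagonal, Fin.prod_univ_three]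
  let G : Matrix (Fin 3) (Fin 3) F := Q * Δ * P⁻¹
  have hGd : G.det = 1 := by
    simp only [G, Matrix.det_mul, hΔ, Matrix.det_nonsing_inv, δ]
    rw [Ring.inverse_eq_inv']
    field_simp
  have hPinv : P * P⁻¹ = 1 := Matrix.mul_nonsing_inv P ((Matrix.isUnit_iff_isUnit_det P).1 hPu)
  have hPinv' : P⁻¹ * P = 1 := Matrix.nonsing_inv_mul P ((Matrix.isUnit_iff_isUnit_det P).1 hPu)
  let g : Matrix.SpecialLinearGroup (Fin 3) F := ⟨G, hGd⟩
  have hcomm : Δ * Matrix.diagonal ![1, w, w ^ 2] = Matrix.diagonal ![1, w, w ^ 2] * Δ := by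
    simp only [Δ, Matrix.diagonal_mul_diagonal]
    congr 1
    ext i
    fin_cases i <;> simp [mul_comm]
  have hPx : P⁻¹ * (x : Matrix (Fin 3) (Fin 3) F) = Matrix.diagonal ![1, w, w ^ 2] * P⁻¹ := by
    calc P⁻¹ * (x : Matrix (Fin 3) (Fin 3) F) = P⁻¹ * ((x : Matrix (Fin 3) (Fin 3) F) * P) * P⁻¹ := by
          simp only [Matrix.mul_assoc, hPinv, Matrix.mul_one]
      _ = Matrix.diagonal ![1, w, w ^ 2] * P⁻¹ := by
          rw [hP, ← Matrix.mul_assoc, hPinv', Matrix.one_mul]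
  have hconj : g * x = y * g := by
    apply Subtype.ext
    change Q * Δ * P⁻¹ * (x : Matrix (Fin 3) (Fin 3) F) = (y : Matrix (Fin 3) (Fin 3) F) * (Q * Δ * P⁻¹)
    calc Q * Δ * P⁻¹ * (x : Matrix (Fin 3) (Fin 3) F) = Q * Δ * (P⁻¹ * (x : Matrix (Fin 3) (Fin 3) F)) := by
          rw [Matrix.mul_assoc]
      _ = Q * (Δ * Matrix.diagonal ![1, w, w ^ 2]) * P⁻¹ := by
          rw [hPx]; simp only [Matrix.mul_assoc]
      _ = (Q * Matrix.diagonal ![1, w, w ^ 2]) * Δ * P⁻¹ := by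
          rw [hcomm]; simp only [Matrix.mul_assoc]
      _ = _ := by
          rw [← hQ]; simp only [Matrix.mul_assoc]
  refine ⟨cls g, ?_⟩
  have hc : MulAut.conj (cls g) (cls x) = cls y := by
    rw [MulAut.conj_apply]
    rw [← cls_mul, hconj, cls_mul, mul_inv_cancel_right]
  rw [Subgroup.pointwise_smul_def]
  refine (MonoidHom.map_zpowers (MulAut.conj (cls g)).toMonoidHom (cls x)).trans ?_
  change Subgroup.zpowers (MulAut.conj (cls g) (cls x)) = _
  rw [hc]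

end Cfsg.Agent.S2739
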