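import Cfsg.Statements.S2758
import Cfsg.Agent.Lib.Amalgam.Dihedral

set_option autoImplicit false
open Cfsg

namespace Cfsg.Agent.S2758


open Cfsg.Agent.Lib.Amalgam DihedralGroup

/-- rotation subgroup -/
def rotations (p : ℕ) : Subgroup (DihedralGroup p) where
  carrier := {g | ∃ i, g = r i}
  mul_mem' := by
    rintro _ _ ⟨i, rfl⟩ ⟨j, rfl⟩
    exact ⟨i + j, rfl⟩
  one_mem' := ⟨0, rfl⟩
  inv_mem' := by
    rintro _ ⟨i, rfl⟩
    exact ⟨-i, rfl⟩

instance rotations_normal (p : ℕ) : (rotations p).Normal := by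
  constructor
  rintro _ ⟨i, rfl⟩ (j | j)
  · exact ⟨j + i - j, by simp⟩
  · exact ⟨j + (-i) - j , by simp⟩

theorem sr_not_mem_rotations {p : ℕ} (i : ZMod p) : sr i ∉ rotations p := by
  rintro ⟨j, hj⟩
  cases hj

theorem ab {G : Type*} [Group G] [Finite G] {p : ℕ} [hp : Fact p.Prime] (hp2 : p ≠ 2)
    (h : Cfsg.Involves (DihedralGroup p) G) :
    ∃ (x : G) (P : Subgroup G), (∃ k : ℕ, orderOf x = 2 ^ k) ∧ IsPGroup p ↥P ∧
      x ∈ Subgroup.normalizer (P : Set G) ∧ x ∉ Subgroup.centralizer (P : Set G) := by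
  obtain ⟨K, φ, hφ⟩ := involves_exists_surjective h
  set P₀ : Subgroup K := (rotations p).comap φ with hP₀
  haveI hP₀n : P₀.Normal := Subgroup.Normal.comap (rotations_normal p) φ
  obtain ⟨S⟩ := (inferInstance : Nonempty (Sylow p P₀))
  have hF := Sylow.normalizer_sup_eq_top S
  set S' : Subgroup K := (S : Subgroup P₀).map P₀.subtype with hS'
  have hg : ∃ g ∈ Subgroup.normalizer (S' : Set K), φ g ∉ rotations p := by
    by_contra hcon
    push Not at hcon
    have hle : Subgroup.normalizer (S' : Set K) ≤ P₀ := fun g hg => hcon g hg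
    rw [sup_of_le_right hle] at hF
    obtain ⟨u, hu⟩ := hφ (sr 0)
    have hmem : u ∈ P₀ := by rw [hF]; trivial
    have : φ u ∈ rotations p := hmem
    rw [hu] at this
    exact sr_not_mem_rotations _ this
  obtain ⟨g, hgN, hgφ⟩ := hg
  -- an element of the Sylow subgroup with nontrivial image
  have hy : ∃ y ∈ S', φ y ≠ 1 := by
    by_contra hcon
    push Not at hcon
    set ψ : P₀ →* DihedralGroup p := φ.comp P₀.subtype with hψ
    have hle : (S : Subgroup P₀) ≤ ψ.ker := by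
      intro w hw
      rw [MonoidHom.mem_ker]
      exact hcon _ ⟨w, hw, rfl⟩
    have hd1 : ψ.ker.index ∣ (S : Subgroup P₀).index := Subgroup.index_dvd_of_le hle
    rw [Subgroup.index_ker] at hd1
    have hd2 : p ∣ Nat.card ψ.range := by
      obtain ⟨u, hu⟩ := hφ (r 1)
      have hmem : u ∈ P₀ := by
        show φ u ∈ rotations p
        rw [hu]; exact ⟨1, rfl⟩
      have hrange : (r 1 : DihedralGroup p) ∈ ψ.range := ⟨⟨u, hmem⟩, hu⟩
      have h3 := orderOf_dvd_natCard (⟨r 1, hrange⟩ : ψ.range)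
      rw [Subgroup.orderOf_mk, DihedralGroup.orderOf_r_one] at h3
      exact h3
    exact S.not_dvd_index (hd2.trans hd1)
  obtain ⟨y, hyS, hyφ⟩ := hy
  -- the reflection image of `g`
  obtain ⟨i', hi'⟩ : ∃ i', φ g = sr i' := by
    cases hgg : φ g with
    | r i => rw [hgg] at hgφ; exact absurd ⟨i, rfl⟩ hgφ
    | sr i => exact ⟨i, rfl⟩
  obtain ⟨a, m, hm, ham⟩ := Nat.exists_eq_pow_mul_and_not_dvd (orderOf_pos g).ne' 2 (by norm_num)
  set x' : K := g ^ m with hx'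
  have hx'ord : orderOf x' = 2 ^ a := by
    rw [hx', orderOf_pow_of_dvd]
    · rw [ham]
      exact Nat.mul_div_cancel _ (Nat.pos_of_ne_zero (fun h0 => hm (h0 ▸ dvd_zero 2)))
    · exact fun h0 => hm (h0 ▸ dvd_zero 2)
    · rw [ham]; exact dvd_mul_left _ _
  have hmodd : Odd m := by
    rwa [← Nat.not_even_iff_odd, even_iff_two_dvd]
  have hx'φ : φ x' = sr i' := by
    rw [hx', map_pow, hi']
    obtain ⟨b, hb⟩ := hmodd
    have hsq : (sr i' : DihedralGroup p) ^ 2 = 1 := by simp [sq]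
    rw [hb, pow_succ, pow_mul, hsq, one_pow, one_mul]
  have hx'N : x' ∈ Subgroup.normalizer (S' : Set K) := Subgroup.pow_mem _ hgN m
  -- transfer to `G`
  refine ⟨(x' : G), S'.map K.subtype, ⟨a, by rw [Subgroup.orderOf_coe, hx'ord]⟩, ?_, ?_, ?_⟩
  · exact (S.isPGroup'.map P₀.subtype).map K.subtype
  · exact Subgroup.le_normalizer_map K.subtype ⟨x', hx'N, rfl⟩
  · intro hC
    have hcomm := Subgroup.mem_centralizer_iff.mp hC (y : G) ⟨y, hyS, rfl⟩
    have hcomm' : y * x' = x' * y := Subtype.ext hcomm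
    have h1 := congrArg φ hcomm'
    rw [map_mul, map_mul, hx'φ] at h1
    have hymem : y ∈ P₀ := by
      obtain ⟨w, _, rfl⟩ := hyS
      exact w.2
    obtain ⟨j, hj⟩ : ∃ j, φ y = r j := hymem
    rw [hj] at h1
    rw [hj] at hyφ
    simp only [r_mul_sr, sr_mul_r, sr.injEq] at h1
    have hj0 : j = 0 := by
      have h2 : (2 : ZMod p) * j = 0 := by linear_combination -h1
      have h3 : (2 : ZMod p) ≠ 0 := by
        intro h4
        have h5 : ((2 : ℕ) : ZMod p) = 0 := by exact_mod_cast h4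
        rw [ZMod.natCast_eq_zero_iff] at h5
        exact hp2 ((Nat.prime_dvd_prime_iff_eq hp.out Nat.prime_two).mp h5)
      exact (mul_eq_zero.mp h2).resolve_left h3
    rw [hj0] at hyφ
    exact hyφ rfl

theorem bc {G : Type*} [Group G] [Finite G] {p : ℕ} [hp : Fact p.Prime]
    (h : ∃ (x : G) (P : Subgroup G), (∃ k : ℕ, orderOf x = 2 ^ k) ∧ IsPGroup p ↥P ∧
      x ∈ Subgroup.normalizer (P : Set G) ∧ x ∉ Subgroup.centralizer (P : Set G)) :
    ∃ x y : G, (∃ k : ℕ, orderOf x = 2 ^ k) ∧ (∃ k : ℕ, orderOf y = p ^ k) ∧ y ≠ 1 ∧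
      x * y * x⁻¹ = y⁻¹ := by
  classical
  obtain ⟨x, P, ⟨k, hk⟩, hP, hxN, hxC⟩ := h
  have hex : ∃ j, x ^ 2 ^ j ∈ Subgroup.centralizer (P : Set G) :=
    ⟨k, by rw [← hk, pow_orderOf_eq_one]; exact Subgroup.one_mem _⟩
  set j := Nat.find hex with hj
  have hjmem : x ^ 2 ^ j ∈ Subgroup.centralizer (P : Set G) := Nat.find_spec hex
  have hj0 : j ≠ 0 := by
    intro h0
    rw [h0] at hjmem
    exact hxC (by simpa using hjmem)
  obtain ⟨j', hj'⟩ := Nat.exists_eq_succ_of_ne_zero hj0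
  have hjn : x ^ 2 ^ j' ∉ Subgroup.centralizer (P : Set G) :=
    Nat.find_min hex (by omega)
  set t := x ^ 2 ^ j' with ht
  have ht2 : t * t ∈ Subgroup.centralizer (P : Set G) := by
    have : t * t = x ^ 2 ^ j := by
      rw [hj', ht, ← pow_add, Nat.succ_eq_add_one, pow_succ]
      congr 1; ring
    rw [this]; exact hjmem
  have htN : t ∈ Subgroup.normalizer (P : Set G) := Subgroup.pow_mem _ hxN _
  have hex2 : ∃ w ∈ P, w * t ≠ t * w := by
    by_contra hcon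
    push Not at hcon
    exact hjn (Subgroup.mem_centralizer_iff.mpr fun w hw => (hcon w hw))
  obtain ⟨w, hwP, hwt⟩ := hex2
  have hwconj : t * w * t⁻¹ ∈ P := (Subgroup.mem_normalizer_iff.mp htN w).mp hwP
  set y := w⁻¹ * (t * w * t⁻¹) with hy
  have hyP : y ∈ P := P.mul_mem (P.inv_mem hwP) hwconj
  have hy1 : y ≠ 1 := by
    intro h1
    rw [hy, inv_mul_eq_one] at h1
    apply hwt
    calc w * t = (t * w * t⁻¹) * t := by rw [← h1]
      _ = t * w := by group
  refine ⟨t, y, ?_, ?_, hy1, ?_⟩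
  · have hd : orderOf t ∣ 2 ^ k := by
      rw [← hk]; exact orderOf_pow_dvd _
    obtain ⟨c, _, hc⟩ := (Nat.dvd_prime_pow Nat.prime_two).1 hd
    exact ⟨c, hc⟩
  · obtain ⟨c, hc⟩ := IsPGroup.iff_orderOf.mp hP ⟨y, hyP⟩
    exact ⟨c, by rw [← hc, Subgroup.orderOf_mk]⟩
  · have h2 : (t * t) * w = w * (t * t) := by
      have := Subgroup.mem_centralizer_iff.mp ht2 w hwP
      exact this.symm
    have h3 : t * (t * w * t⁻¹) * t⁻¹ = w := by
      calc t * (t * w * t⁻¹) * t⁻¹ = (t * t) * w * (t * t)⁻¹ := by group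
        _ = w := by rw [h2]; group
    rw [hy]
    calc t * (w⁻¹ * (t * w * t⁻¹)) * t⁻¹ = (t * w * t⁻¹)⁻¹ * (t * (t * w * t⁻¹) * t⁻¹) := by group
      _ = (t * w * t⁻¹)⁻¹ * w := by rw [h3]
      _ = (w⁻¹ * (t * w * t⁻¹))⁻¹ := by group

theorem ca {G : Type*} [Group G] [Finite G] {p : ℕ} [hp : Fact p.Prime] (hp2 : p ≠ 2)
    (h : ∃ x y : G, (∃ k : ℕ, orderOf x = 2 ^ k) ∧ (∃ k : ℕ, orderOf y = p ^ k) ∧ y ≠ 1 ∧
      x * y * x⁻¹ = y⁻¹) : Cfsg.Involves (DihedralGroup p) G := by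
  obtain ⟨x, y, ⟨k, hk⟩, ⟨j, hj⟩, hy1, hinv⟩ := h
  have hj0 : j ≠ 0 := by
    rintro rfl
    rw [pow_zero] at hj
    exact hy1 (orderOf_eq_one_iff.mp hj)
  have hdvd : p ∣ orderOf y := by
    rw [hj]; exact dvd_pow_self p hj0
  have hz : orderOf (y ^ (orderOf y / p)) = p := orderOf_pow_orderOf_div (orderOf_pos y).ne' hdvd
  refine involves_dihedral_of_inverted hp2 hk hz ?_
  rw [← conj_pow, hinv, inv_pow]

theorem cb {G : Type*} [Group G] [Finite G] {p : ℕ} [hp : Fact p.Prime] (hp2 : p ≠ 2) :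
    Cfsg.Involves (DihedralGroup p) G ↔ ∃ x y : G, (∃ k : ℕ, orderOf x = 2 ^ k) ∧
      (∃ k : ℕ, orderOf y = p ^ k) ∧ y ≠ 1 ∧ x * y * x⁻¹ = y⁻¹ :=
  ⟨fun h => bc (ab hp2 h), ca hp2⟩


/-- For an odd prime p and a finite group G the following are equivalent: the dihedral group of order 2p is involved in G; some element of 2-power order normalizes but does not centralize some p-subgroup of G; some element of 2-power order inverts some nonidentity element of p-power order. -/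
theorem result {G : Type*} [Group G] [Finite G] {p : ℕ} [Fact p.Prime] (hp : p ≠ 2) : (Cfsg.Involves (DihedralGroup p) G ↔ ∃ (x : G) (P : Subgroup G), (∃ k : ℕ, orderOf x = 2 ^ k) ∧ IsPGroup p ↥P ∧ x ∈ Subgroup.normalizer (P : Set G) ∧ x ∉ Subgroup.centralizer (P : Set G)) ∧ (Cfsg.Involves (DihedralGroup p) G ↔ ∃ x y : G, (∃ k : ℕ, orderOf x = 2 ^ k) ∧ (∃ k : ℕ, orderOf y = p ^ k) ∧ y ≠ 1 ∧ x * y * x⁻¹ = y⁻¹) := by
  refine ⟨⟨ab hp, fun h => ca hp (bc h)⟩, cb hp⟩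


end Cfsg.Agent.S2758
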