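import Cfsg.Statements.S2760
import Cfsg.Agent.Lib.Transfer.Basic
import Cfsg.Agent.Lib.Amalgam.Chain

set_option autoImplicit false
open Cfsg

namespace Cfsg.Agent.S2760


open Cfsg.Agent.Lib.Amalgam Cfsg.Agent.Lib.Core in
theorem key {G : Type*} [Group G] [Finite G] {p : ℕ} [Fact p.Prime]
    (hchar : Subgroup.centralizer (Cfsg.pCore p G : Set G) ≤ Cfsg.pCore p G) (H : Subgroup G)
    (hH : H.Normal) (x : H) (hx : x ∈ Subgroup.centralizer (Cfsg.pCore p H : Set H))
    (hodd : Nat.Coprime (orderOf (x : G)) p) : x = 1 := by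
  have hQH : ∀ (c : G) (hcH : c ∈ H), c ∈ Cfsg.pCore p G → (⟨c, hcH⟩ : H) ∈ Cfsg.pCore p H := by
    intro c hcH hcQ
    have hN : ((Cfsg.pCore p G).subgroupOf H).Normal := inferInstance
    have hP : IsPGroup p ((Cfsg.pCore p G).subgroupOf H) :=
      (pCore_isPGroup p G).comap_of_injective H.subtype H.subtype_injective
    exact le_pCore hN hP (by simpa [Subgroup.mem_subgroupOf] using hcQ)
  have hcent : (x : G) ∈ Subgroup.centralizer (Cfsg.pCore p G : Set G) := by
    rw [Subgroup.mem_centralizer_iff]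
    intro q hq
    have hq' : q ∈ Cfsg.pCore p G := hq
    set c : G := (x : G) * q * (x : G)⁻¹ * q⁻¹ with hc
    have hcH : c ∈ H := by
      have h1 : q * (x : G)⁻¹ * q⁻¹ ∈ H := hH.conj_mem _ (H.inv_mem x.2) q
      have h2 : (x : G) * (q * (x : G)⁻¹ * q⁻¹) ∈ H := H.mul_mem x.2 h1
      have h3 : c = (x : G) * (q * (x : G)⁻¹ * q⁻¹) := by rw [hc]; group
      rwa [h3]
    have hcQ : c ∈ Cfsg.pCore p G :=
      (Cfsg.pCore p G).mul_mem ((inferInstance : (Cfsg.pCore p G).Normal).conj_mem _ hq' _)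
        ((Cfsg.pCore p G).inv_mem hq')
    have hcomm := Subgroup.mem_centralizer_iff.mp hx ⟨c, hcH⟩ (hQH c hcH hcQ)
    have hcomm' : c * (x : G) = (x : G) * c := congrArg Subtype.val hcomm
    have h1 : (x : G) * c * (x : G)⁻¹ = c := by rw [← hcomm']; group
    have h2 : (x : G) * q * (x : G)⁻¹ = c * q := by rw [hc]; group
    have hc1 : c = 1 := eq_one_of_chain
      (coprime_orderOf_of_mem_isPGroup (pCore_isPGroup p G) hcQ hodd) h1 h2
    rw [hc1, one_mul] at h2
    have h3 : (x : G) * q = q * (x : G) := by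
      calc (x : G) * q = ((x : G) * q * (x : G)⁻¹) * (x : G) := by group
        _ = q * (x : G) := by rw [h2]
    exact h3.symm
  exact Subtype.ext (eq_one_of_mem_isPGroup_coprime (pCore_isPGroup p G) (hchar hcent) hodd)


/-- Let G be a finite group with C_G(O₂(G)) ≤ O₂(G) and H a subgroup of G such that H is normal in G, or the subgroup O²(H) generated by the elements of H of odd order is normal in G. Then C_H(O₂(H)) ≤ O₂(H). -/
theorem result {G : Type*} [Group G] [Finite G] (hchar : Subgroup.centralizer (Cfsg.pCore 2 G : Set G) ≤ Cfsg.pCore 2 G) (H : Subgroup G) (hH : H.Normal ∨ ((Cfsg.pResidual 2 ↥H).map H.subtype).Normal) : Subgroup.centralizer (Cfsg.pCore 2 ↥H : Set ↥H) ≤ Cfsg.pCore 2 ↥H := by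
  have hCN : (Subgroup.centralizer (Cfsg.pCore 2 ↥H : Set ↥H)).Normal := inferInstance
  have hC2 : IsPGroup 2 (Subgroup.centralizer (Cfsg.pCore 2 ↥H : Set ↥H)) := by
    apply Cfsg.Agent.Lib.Amalgam.isPGroup_subgroup_of_coprime_eq_one
    intro x hx hodd
    have hodd' : Nat.Coprime (orderOf (x : G)) 2 := by rwa [Subgroup.orderOf_coe]
    rcases hH with hH | hH
    · exact key hchar H hH x hx hodd'
    · set L : Subgroup G := (Cfsg.pResidual 2 ↥H).map H.subtype with hL
      have hLH : L ≤ H := by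
        rintro _ ⟨w, _, rfl⟩
        exact w.2
      have hxL : (x : G) ∈ L :=
        ⟨x, Cfsg.Agent.Lib.Transfer.mem_pResidual_of_coprime hodd, rfl⟩
      have hP : ((Cfsg.pCore 2 ↥L).map L.subtype).Normal :=
        Cfsg.Agent.Lib.Amalgam.map_pCore_normal L hH
      have hPH : ∀ w : ↥L, w ∈ Cfsg.pCore 2 ↥L → (⟨(w : G), hLH w.2⟩ : H) ∈ Cfsg.pCore 2 ↥H := by
        intro w hw
        have hN : (((Cfsg.pCore 2 ↥L).map L.subtype).subgroupOf H).Normal := inferInstance
        have hPg : IsPGroup 2 (((Cfsg.pCore 2 ↥L).map L.subtype).subgroupOf H) :=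
          (((Cfsg.Agent.Lib.Core.pCore_isPGroup 2 ↥L).map L.subtype)).comap_of_injective
            H.subtype H.subtype_injective
        exact Cfsg.Agent.Lib.Core.le_pCore hN hPg
          (by rw [Subgroup.mem_subgroupOf]; exact ⟨w, hw, rfl⟩)
      have hy : (⟨(x : G), hxL⟩ : L) ∈ Subgroup.centralizer (Cfsg.pCore 2 ↥L : Set ↥L) := by
        rw [Subgroup.mem_centralizer_iff]
        intro w hw
        have := Subgroup.mem_centralizer_iff.mp hx _ (hPH w hw)
        have h5 : (w : G) * (x : G) = (x : G) * (w : G) := congrArg Subtype.val this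
        exact Subtype.ext h5
      have h1 := key hchar L hH ⟨(x : G), hxL⟩ hy hodd'
      have h6 : (x : G) = 1 := congrArg Subtype.val h1
      exact Subtype.ext h6
  intro g hg
  exact Cfsg.Agent.Lib.Core.le_pCore hCN hC2 hg


end Cfsg.Agent.S2760
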