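import Cfsg.Statements.S2761
import Cfsg.Agent.Lib.Amalgam.QdAffine

set_option autoImplicit false
open Cfsg Cfsg.Agent.Lib.Amalgam

namespace Cfsg.Agent.S2761

/-- The group Qd(2), the natural semidirect product of an elementary abelian group of order 4 by SL₂(2) (realised as the affine subgroup of SL₃(2)), is isomorphic to the symmetric group of degree 4. -/
theorem result : Nonempty (↥(Cfsg.qd 2) ≃* Equiv.Perm (Fin 4)) := by
  have hcard : Nat.card (QdE (ZMod 2)) = Nat.card (Equiv.Perm (Fin 2 → ZMod 2)) := by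
    rw [card_qdOver, Cfsg.Agent.Lib.KS2.SL2.card_SL2, Nat.card_perm]
    simp [ZMod.card, Nat.card_eq_fintype_card, Nat.factorial]
  have hbij : Function.Bijective (affPerm (ZMod 2)) :=
    (Nat.bijective_iff_injective_and_card _).mpr ⟨affPerm_injective, hcard⟩
  have e : (Fin 2 → ZMod 2) ≃ Fin 4 := Fintype.equivFinOfCardEq (by simp [ZMod.card])
  exact ⟨(MulEquiv.ofBijective (affPerm (ZMod 2)) hbij).trans e.permCongrHom⟩


end Cfsg.Agent.S2761
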