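import Cfsg.Statements.S2762
import Cfsg.Agent.Lib.Amalgam.Qd

set_option autoImplicit false
open Cfsg Cfsg.Agent.Lib.Amalgam

namespace Cfsg.Agent.S2762

/-- Structure of Qd over a finite field F of characteristic p (the affine subgroup of SL₃(F)): its largest normal p-subgroup is the group of translations (matrices with upper-left block the identity), the block-diagonal matrices form a complement isomorphic to SL₂(F), and the translation subgroup is a natural SL₂(F)-module for that complement. -/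
theorem result {F : Type*} [Field F] [Fintype F] {p : ℕ} [Fact p.Prime] [CharP F p] : (∀ M : ↥(Cfsg.qdOver F), M ∈ Cfsg.pCore p ↥(Cfsg.qdOver F) ↔ ((M : Matrix.SpecialLinearGroup (Fin 3) F) : Matrix (Fin 3) (Fin 3) F) 0 0 = 1 ∧ ((M : Matrix.SpecialLinearGroup (Fin 3) F) : Matrix (Fin 3) (Fin 3) F) 0 1 = 0 ∧ ((M : Matrix.SpecialLinearGroup (Fin 3) F) : Matrix (Fin 3) (Fin 3) F) 1 0 = 0 ∧ ((M : Matrix.SpecialLinearGroup (Fin 3) F) : Matrix (Fin 3) (Fin 3) F) 1 1 = 1) ∧ ∃ K : Subgroup ↥(Cfsg.qdOver F), (∀ M : ↥(Cfsg.qdOver F), M ∈ K ↔ ((M : Matrix.SpecialLinearGroup (Fin 3) F) : Matrix (Fin 3) (Fin 3) F) 0 2 = 0 ∧ ((M : Matrix.SpecialLinearGroup (Fin 3) F) : Matrix (Fin 3) (Fin 3) F) 1 2 = 0) ∧ K ⊓ Cfsg.pCore p ↥(Cfsg.qdOver F) = ⊥ ∧ K ⊔ Cfsg.pCore p ↥(Cfsg.qdOver F) = ⊤ ∧ Nonempty (↥K ≃* Matrix.SpecialLinearGroup (Fin 2) F) ∧ Cfsg.IsNaturalSL2Module F (Cfsg.pCore p ↥(Cfsg.qdOver F)) K := by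
  have hcore : Cfsg.pCore p ↥(Cfsg.qdOver F) = (rhoQd F).ker := pCore_qdOver p
  refine ⟨?_, (secQd F).range, ?_, ?_, ?_, ?_, ?_⟩
  · intro M
    rw [hcore, MonoidHom.mem_ker, rhoQd_eq_one_iff]
  · intro M
    constructor
    · rintro ⟨A, rfl⟩
      exact ⟨rfl, rfl⟩
    · rintro ⟨h0, h1⟩
      refine ⟨rhoQd F M, ?_⟩
      apply qe_ext
      · rfl
      · rfl
      · rw [secQd02]; exact h0.symm
      · rfl
      · rfl
      · rw [secQd12]; exact h1.symm
  · rw [hcore, eq_bot_iff]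
    rintro M ⟨⟨A, rfl⟩, hk⟩
    have hk' : rhoQd F (secQd F A) = 1 := hk
    rw [rhoQd_secQd] at hk'
    rw [hk', map_one]
    exact Subgroup.one_mem _
  · rw [hcore, eq_top_iff]
    intro M _
    have h : M = secQd F (rhoQd F M) * ((secQd F (rhoQd F M))⁻¹ * M) := by group
    rw [h]
    refine Subgroup.mul_mem_sup ⟨_, rfl⟩ ?_
    rw [MonoidHom.mem_ker, map_mul, map_inv, rhoQd_secQd, inv_mul_cancel]
  · exact ⟨(MonoidHom.ofInjective secQd_injective).symm⟩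
  · rw [hcore]
    exact isNaturalSL2Module_qd


end Cfsg.Agent.S2762
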