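import Cfsg.Statements.S2779
import Cfsg.Agent.Lib.Amalgam.NatSL2

set_option autoImplicit false
open Cfsg Cfsg.Agent.Lib.Amalgam
open scoped commutatorElement

namespace Cfsg.Agent.S2779

/-- Let L act on the elementary abelian p-group V (inside a finite group, by conjugation, faithfully) as SL₂(F) on its natural module, F a field with p^n elements, and let S be a Sylow p-subgroup of L. Then [V, S, S] = 1; |V| = p^(2n) and |C_V(S)| = p^n; and for every nonidentity s ∈ S and every v ∈ V outside C_V(S): C_V(s) = C_V(S) = [V, S] = [V, s] = the subgroup generated by the commutators [v, t], t ∈ S. -/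
theorem result {G : Type*} [Group G] [Finite G] {p : ℕ} [Fact p.Prime] {F : Type*} [Field F] [Fintype F] (n : ℕ) (hF : Fintype.card F = p ^ n) (V L : Subgroup G) (hnat : Cfsg.IsNaturalSL2Module F V L) (hf : L ⊓ Subgroup.centralizer (V : Set G) = ⊥) (S : Sylow p ↥L) (T : Subgroup G) (hT : T = ((S : Subgroup ↥L).map L.subtype)) : ⁅⁅V, T⁆, T⁆ = ⊥ ∧ Nat.card V = p ^ (2 * n) ∧ Nat.card ↥(V ⊓ Subgroup.centralizer ((T : Subgroup G) : Set G)) = p ^ n ∧ ∀ s ∈ T, s ≠ 1 → (V ⊓ Subgroup.centralizer ({s} : Set G)) = (V ⊓ Subgroup.centralizer ((T : Subgroup G) : Set G)) ∧ ⁅V, T⁆ = (V ⊓ Subgroup.centralizer ((T : Subgroup G) : Set G)) ∧ ⁅V, Subgroup.zpowers s⁆ = (V ⊓ Subgroup.centralizer ((T : Subgroup G) : Set G)) ∧ ∀ v ∈ V, v ∉ Subgroup.centralizer (T : Set G) → Subgroup.closure {x : G | ∃ t ∈ T, x = v * t * v⁻¹ * t⁻¹} = (V ⊓ Subgroup.centralizer ((T : Subgroup G) : Set G)) := by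
  classical
  obtain ⟨D⟩ := exists_natCoord n hF V L hnat hf S T hT
  have hC : V ⊓ Subgroup.centralizer ((T : Subgroup G) : Set G) = D.V₁ := D.inf_centralizer_T
  rw [hC]
  refine ⟨?_, ?_, ?_, ?_⟩
  · rw [eq_bot_iff, ← Subgroup.commutator_eq_bot_iff_le_centralizer.mpr (le_trans D.commutator_le_V₁ (hC ▸ inf_le_right))]
  · rw [D.card_V, hF, ← pow_mul, mul_comm]
  · rw [D.card_V₁, hF]
  · intro s hsT hs1
    obtain ⟨l, c, hl, hc, hc0⟩ := D.exists_param hsT hs1
    have hz : D.V₁ ≤ ⁅V, Subgroup.zpowers s⁆ := by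
      intro u hu
      obtain ⟨v, rfl⟩ := D.V₁_eq_comm hc hc0 hu
      rw [hl]
      exact Subgroup.commutator_mem_commutator v.2 (Subgroup.mem_zpowers s)
    have hzT : Subgroup.zpowers s ≤ T := by
      rw [Subgroup.zpowers_le]
      exact hsT
    refine ⟨D.inf_centralizer_s hsT hs1, ?_, ?_, ?_⟩
    · exact le_antisymm D.commutator_le_V₁ (hz.trans (Subgroup.commutator_mono le_rfl hzT))
    · exact le_antisymm ((Subgroup.commutator_mono le_rfl hzT).trans D.commutator_le_V₁) hz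
    · intro v hv hvC
      have hv' : D.coord ⟨v, hv⟩ 1 ≠ 0 := by
        intro h
        apply hvC
        have : v ∈ D.V₁ := ⟨hv, h⟩
        rw [← hC] at this
        exact this.2
      apply le_antisymm
      · rw [Subgroup.closure_le]
        rintro x ⟨t, ht, rfl⟩
        exact D.comm_mem_V₁ ht ⟨v, hv⟩
      · intro u hu
        obtain ⟨t, ht, rfl⟩ := D.V₁_eq_comm' hv' hu
        exact Subgroup.subset_closure ⟨t, ht, rfl⟩

end Cfsg.Agent.S2779
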