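import Cfsg.Statements.S2781
import Cfsg.Agent.Lib.Amalgam.ResOf
import Cfsg.Agent.Lib.Amalgam.NormMap

set_option autoImplicit false
open Cfsg Cfsg.Agent.Lib.Amalgam
open scoped commutatorElement

namespace Cfsg.Agent.S2781

/-- Let H act faithfully by conjugation on the elementary abelian p-subgroup V of a finite group, let O^p(H) be the subgroup of H generated by its elements of order prime to p, and T a Sylow p-subgroup of O^p(H). If V is generated by the H-conjugates of C_V(T) (V is the smallest H-invariant subgroup containing C_V(T)), then V = [V, O^p(H)]·C_V(O^p(H)). -/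
theorem result {G : Type*} [Group G] [Finite G] {p : ℕ} [Fact p.Prime] (V H : Subgroup G) (hV : Cfsg.IsElementaryAbelian p V) (hHV : H ≤ Subgroup.normalizer (V : Set G)) (hf : H ⊓ Subgroup.centralizer (V : Set G) = ⊥) (R : Subgroup G) (hR : R = (Cfsg.pResidual p ↥H).map H.subtype) (S : Sylow p ↥R) (T : Subgroup G) (hT : T = ((S : Subgroup ↥R).map R.subtype)) (hgen : ∀ W : Subgroup G, H ≤ Subgroup.normalizer (W : Set G) → (V ⊓ Subgroup.centralizer ((T : Subgroup G) : Set G)) ≤ W → V ≤ W) : ⁅V, R⁆ ⊔ (V ⊓ Subgroup.centralizer ((R : Subgroup G) : Set G)) = V := by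
  have hVc : V ≤ Subgroup.centralizer (V : Set G) := by
    intro x hx
    rw [Subgroup.mem_centralizer_iff]
    intro y hy
    have := hV.1.is_comm.comm ⟨y, hy⟩ ⟨x, hx⟩
    exact congrArg (fun z : V => (z : G)) this
  have hRH : R ≤ H := by rw [hR]; exact map_pResidual_le
  have hRV : R ≤ Subgroup.normalizer (V : Set G) := hRH.trans hHV
  have hRn : H ≤ Subgroup.normalizer (R : Set G) := by
    rw [hR]; exact Subgroup.le_normalizer.trans le_normalizer_map_pResidual
  have hcomm : ⁅V, R⁆ ≤ V := commutator_le_left_of_normalizer hRV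
  apply le_antisymm
  · exact sup_le hcomm inf_le_left
  · apply hgen
    · exact le_normalizer_sup (le_normalizer_commutator hHV hRn)
        (le_normalizer_inf hHV (hRn.trans (normalizer_le_normalizer_centralizer R)))
    · rintro v ⟨hv, hvT⟩
      have hco : (orderOf v).Coprime (T.relIndex R) := by
        rw [hT]
        exact Nat.Coprime.coprime_dvd_left (orderOf_dvd_of_pow_eq_one (hV.2 v hv))
          ((Nat.Prime.coprime_iff_not_dvd (Fact.out)).mpr (Cfsg.Agent.Lib.FF.isSylowIn_of_sylow S).not_dvd)
      exact mem_commutator_sup_fixed V R T hRV hVc hv hvT hco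

end Cfsg.Agent.S2781
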