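import Cfsg.Statements.S2788
import Cfsg.Agent.Lib.Amalgam.RankBound2

set_option autoImplicit false
open Cfsg Cfsg.Agent.Lib.Amalgam
open scoped commutatorElement

namespace Cfsg.Agent.S2788

/-- Let H act faithfully by conjugation on the elementary abelian p-subgroup V of a finite group with H ≅ SL₂(F), F a field with p^n elements, S a Sylow p-subgroup of H, and A ≤ S a subgroup of order at least 3 acting quadratically on V ([V, A, A] = 1). Then |V/C_V(a)| ≥ p^n for every nonidentity a ∈ A. -/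
theorem result {G : Type*} [Group G] [Finite G] {p : ℕ} [Fact p.Prime] (V H : Subgroup G) (hV : Cfsg.IsElementaryAbelian p V) (hHV : H ≤ Subgroup.normalizer (V : Set G)) (hf : H ⊓ Subgroup.centralizer (V : Set G) = ⊥) {F : Type*} [Field F] [Fintype F] (n : ℕ) (hF : Fintype.card F = p ^ n) (hiso : Nonempty (↥H ≃* Matrix.SpecialLinearGroup (Fin 2) F)) (S : Sylow p ↥H) (T : Subgroup G) (hT : T = ((S : Subgroup ↥H).map H.subtype)) (A : Subgroup G) (hA : A ≤ T) (hA3 : 3 ≤ Nat.card A) (hquad : ⁅⁅V, A⁆, A⁆ = ⊥) : ∀ a ∈ A, a ≠ 1 → p ^ n ≤ ((V ⊓ Subgroup.centralizer ({a} : Set G))).relIndex V := by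
  classical
  intro a haA ha1
  haveI : CharP F p := charP_of_card_eq_prime_pow hF
  have hpp : p.Prime := Fact.out
  obtain ⟨haH, j, haj⟩ := exists_pow_of_mem_map S (hT ▸ hA haA)
  have hnV : p ≤ (V ⊓ Subgroup.centralizer ({a} : Set G)).relIndex V := by
    have hVp : IsPGroup p V := by
      intro v
      exact ⟨1, by rw [pow_one]; exact Subtype.ext (hV.2 v v.2)⟩
    obtain ⟨c, hc⟩ := IsPGroup.iff_card.mp hVp
    have h1 : (V ⊓ Subgroup.centralizer ({a} : Set G)).relIndex V ∣ p ^ c :=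
      hc ▸ Subgroup.index_dvd_card _
    obtain ⟨i, -, hi⟩ := (Nat.dvd_prime_pow hpp).mp h1
    rw [hi]
    have hi1 : i ≠ 0 := by
      rintro rfl
      rw [pow_zero, Subgroup.relIndex_eq_one] at hi
      have h2 : a ∈ H ⊓ Subgroup.centralizer (V : Set G) := by
        refine ⟨haH, Subgroup.mem_centralizer_iff.mpr ?_⟩
        intro v hv
        exact (Subgroup.mem_centralizer_iff.mp (hi hv).2 a rfl).symm
      rw [hf] at h2
      exact ha1 (Subgroup.mem_bot.mp h2)
    calc p = p ^ 1 := (pow_one p).symm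
      _ ≤ p ^ i := Nat.pow_le_pow_right hpp.pos (by omega)
  have hn0 : n ≠ 0 := by
    rintro rfl
    have : 1 < Fintype.card F := Fintype.one_lt_card
    rw [hF] at this
    simp at this
  by_cases hn1 : n = 1
  · rw [hn1, pow_one]
    exact hnV
  have hn2 : 2 ≤ n := by omega
  obtain ⟨φ⟩ := hiso
  set ν := QuotientGroup.mk' (Subgroup.center (Matrix.SpecialLinearGroup (Fin 2) F)) with hν
  let π : H →* Matrix.ProjectiveSpecialLinearGroup (Fin 2) F := ν.comp φ.toMonoidHom
  have hπ : Function.Surjective π := (QuotientGroup.mk'_surjective _).comp φ.surjective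
  have hs : (⟨a, haH⟩ : H) ^ p ^ j = 1 := Subtype.ext haj
  have hπj : (π ⟨a, haH⟩) ^ p ^ j = 1 := by
    rw [← map_pow, hs, map_one]
  have hπs : π ⟨a, haH⟩ ≠ 1 := by
    intro h
    have h1 : φ ⟨a, haH⟩ ∈ Subgroup.center (Matrix.SpecialLinearGroup (Fin 2) F) :=
      (QuotientGroup.eq_one_iff _).mp h
    obtain ⟨l, hl1, hl2⟩ := Matrix.SpecialLinearGroup.mem_center_iff.mp h1
    simp only [Fintype.card_fin] at hl1
    have h2 : (φ ⟨a, haH⟩) ^ p ^ j = 1 := by
      rw [← map_pow, hs, map_one]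
    have h3 : l ^ p ^ j = 1 := by
      have e1 : ((φ ⟨a, haH⟩) ^ p ^ j).1 = (φ ⟨a, haH⟩).1 ^ p ^ j := Matrix.SpecialLinearGroup.coe_pow _ _
      rw [h2] at e1
      rw [← hl2] at e1
      have e2 := congrFun (congrFun e1 0) 0
      have e3 : (Matrix.scalar (Fin 2) l) ^ p ^ j = Matrix.scalar (Fin 2) (l ^ p ^ j) := by
        rw [map_pow]
      rw [e3] at e2
      simpa using e2.symm
    have h4 : l = 1 := by
      by_cases hp2 : p = 2
      · subst hp2
        have h5 : (l - 1) ^ 2 = 0 := by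
          have : (2 : F) = 0 := by
            have := CharP.cast_eq_zero F 2
            exact_mod_cast this
          linear_combination hl1 + (1 - l) * this
        exact sub_eq_zero.mp (pow_eq_zero_iff (two_ne_zero) |>.mp h5)
      · have hoddp : Odd (p ^ j) := (hpp.odd_of_ne_two hp2).pow
        obtain ⟨t, ht⟩ := hoddp
        rw [ht, pow_succ, pow_mul, hl1, one_pow, one_mul] at h3
        exact h3
    have h5 : φ ⟨a, haH⟩ = 1 := by
      apply Subtype.ext
      rw [← hl2, h4]
      simp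
    have h6 : (⟨a, haH⟩ : H) = 1 := φ.injective (by rw [h5, map_one])
    exact ha1 (congrArg Subtype.val h6)
  obtain ⟨d, hd, h1, h2⟩ := core_bound hV hHV hf hn2 hF π hπ ⟨a, haH⟩ hπj hπs
  have h3 : (p ^ n) ^ 2 ≤ (V ⊓ Subgroup.centralizer ({a} : Set G)).relIndex V ^ 2 := by
    rw [← pow_mul, mul_comm n 2]
    exact h1.trans h2
  exact (Nat.pow_le_pow_iff_left (by norm_num)).mp h3

end Cfsg.Agent.S2788
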