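import Cfsg.Statements.S2792
import Cfsg.Agent.Lib.Yoshida.Wielandt

set_option autoImplicit false
open Cfsg

namespace Cfsg.Agent.S2792

/-- Let S be a Sylow p-subgroup of the finite group G and W a subgroup of S weakly closed in S with respect to G. If S ∩ G' ≠ S ∩ (N_G(W))', then there are x ∈ S, z ∈ W and a maximal subgroup W₀ of W such that the iterated commutator [x, z; p−1] (with [x, z] = x⁻¹z⁻¹xz and [x, z; i+1] = [[x, z; i], z]) lies in W₀ but not in the Frattini subgroup of W₀; in particular [x, z; p−1] ≠ 1. -/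
theorem result {G : Type*} [Group G] [Finite G] {p : ℕ} [Fact p.Prime] (S : Sylow p G) (W : Subgroup G) (hW : Cfsg.IsWeaklyClosed W (S : Subgroup G)) (h : (S : Subgroup G) ⊓ commutator G ≠ (S : Subgroup G) ⊓ ⁅Subgroup.normalizer (W : Set G), Subgroup.normalizer (W : Set G)⁆) : ∃ x ∈ (S : Subgroup G), ∃ z ∈ W, ∃ W₀ : Subgroup ↥W, IsCoatom W₀ ∧ (fun y : G => y⁻¹ * z⁻¹ * y * z)^[p - 1] x ∈ W₀.map W.subtype ∧ (fun y : G => y⁻¹ * z⁻¹ * y * z)^[p - 1] x ∉ ((frattini ↥W₀).map W₀.subtype).map W.subtype := by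
  classical
  by_contra hcon
  push Not at hcon
  have hWS : W ≤ (S : Subgroup G) := hW.1
  have hSN : (S : Subgroup G) ≤ Subgroup.normalizer (W : Set G) :=
    Cfsg.Agent.Lib.Yoshida.le_normalizer_of_weaklyClosed hW
  have hWn : (W.subgroupOf (S : Subgroup G)).Normal := by
    constructor
    intro n hn g
    have h1 := (Subgroup.mem_normalizer_iff.mp (hSN g.2) (n : G)).mp hn
    exact h1
  have hNV := Cfsg.Agent.Lib.Yoshida.nv_of_wielandt (p := p) hWS hWn
    (fun x hx z hz W₀ hW₀ h1 => by
      by_contra h2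
      exact h2 (hcon x hx z hz W₀ hW₀ h1))
    (Abelianization ↥(Subgroup.normalizer (W : Set G)))
  have hindex : ¬ p ∣ (S : Subgroup G).index := by
    have := S.not_dvd_index
    exact this
  have h1 := Cfsg.Agent.Lib.Yoshida.yoshida_core S.isPGroup' hindex hW hNV
  apply h
  apply le_antisymm
  · exact le_inf inf_le_left h1
  · refine inf_le_inf_left _ ?_
    rw [commutator_def]
    exact Subgroup.commutator_mono le_top le_top

end Cfsg.Agent.S2792
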