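import Cfsg.Statements.S2799
import Cfsg.Agent.Lib.Fusion.GlaubMain
import Cfsg.Agent.Lib.Fusion.GroupFree
import Mathlib

set_option autoImplicit false
open Cfsg

namespace Cfsg.Agent.S2799

open Cfsg.Agent.Lib.Fusion Cfsg.FusionSystem


/-- Let S be a Sylow p-subgroup of the finite group G, J(S) the subgroup generated by the abelian subgroups of S of largest order, and x an element of S lying in the centre of N_G(J(S)). Assume that p is odd, or that x is a p-th power of an element of Z(S), or that the symmetric group of degree 4 is not involved in G. Then x is weakly closed in S with respect to G: every G-conjugate of x that lies in S equals x. -/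
theorem result {G : Type*} [Group G] [Finite G] {p : ℕ} [Fact p.Prime] (S : Sylow p G) (x : G) (hxS : x ∈ (S : Subgroup G)) (hxZ : x ∈ (Subgroup.center ↥(Subgroup.normalizer ((Cfsg.thompsonSubgroupAOf (S : Subgroup G)) : Set G))).map (Subgroup.normalizer ((Cfsg.thompsonSubgroupAOf (S : Subgroup G)) : Set G)).subtype) (h : p ≠ 2 ∨ (∃ z ∈ (S : Subgroup G) ⊓ Subgroup.centralizer ((S : Subgroup G) : Set G), z ^ p = x) ∨ ¬ Cfsg.Involves (Equiv.Perm (Fin 4)) G) : ∀ g : G, g * x * g⁻¹ ∈ (S : Subgroup G) → g * x * g⁻¹ = x := by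
  classical
  have hF := Cfsg.Agent.S5076.result p S
  have hS : IsPGroup p (S : Subgroup G) := S.isPGroup'
  set J := thompsonSubgroupAOf (S : Subgroup G) with hJ
  have hJd : J = funW thompsonSubgroupA (S : Subgroup G) := rfl
  have hxN : ∀ n ∈ Subgroup.normalizer (J : Set G), n * x = x * n := by
    intro n hn
    obtain ⟨y, hy, rfl⟩ := hxZ
    exact congrArg Subtype.val (Subgroup.mem_center_iff.1 hy ⟨n, hn⟩)
  have hSJ : (S : Subgroup G) ≤ Subgroup.normalizer (J : Set G) := fun t ht =>
    funW_normalized (W := thompsonSubgroupA) thompsonSubgroupA_inv hS (Subgroup.le_normalizer ht)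
  have hxc : ∀ t ∈ (S : Subgroup G), t * x = x * t := fun t ht => hxN t (hSJ ht)
  have hJS : J ≤ (S : Subgroup G) := funW_le thompsonSubgroupA _
  have hfix : ¬ MovesAt (groupFusionSystem (S : Subgroup G)) x (funW thompsonSubgroupA (S : Subgroup G)) := by
    rintro ⟨β, hβ, hxU, hne⟩
    have hβi := (mem_autGroup_iff hJS).1 hβ
    obtain ⟨-, -, g, hg⟩ := hβi
    have hgN : g ∈ Subgroup.normalizer (J : Set G) := by
      have : Finite J := inferInstance
      refine mem_normalizer_of_forall fun y hy => ?_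
      have h1 := hg ⟨y, hy⟩
      have h2 : g * y * g⁻¹ = ((β ⟨y, hy⟩ : J) : G) := h1.symm
      rw [h2]
      exact (β ⟨y, hy⟩).2
    apply hne
    have h1 := hg ⟨x, hxU⟩
    have h2 : ((β ⟨x, hxU⟩ : J) : G) = g * x * g⁻¹ := h1
    rw [h2, hxN g hgN]
    group
  have hnomove : ¬ Moves (groupFusionSystem (S : Subgroup G)) x := by
    intro hmov
    have hodd : p ≠ 2 → False := fun hp => hfix (chain_main (localCond_thompson_odd hp) thompsonSubgroupA_inv (fun Q _ _ _ => center_le_thompsonA Q) _ _ le_rfl hS _ hF x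
      ⟨x, hxS, hxc, pow_one x⟩ hmov)
    rcases h with hp | ⟨z, hz, hzx⟩ | hinv
    · exact hodd hp
    · exact hfix (chain_main localCond_thompson_pow thompsonSubgroupA_inv (fun Q _ _ _ => center_le_thompsonA Q) _ _ le_rfl hS _ hF x
        ⟨z, hz.1, fun t ht => Subgroup.mem_centralizer_iff.1 hz.2 t ht, hzx⟩ hmov)
    · by_cases hp : p = 2
      · subst hp
        exact hfix (chain_main_free localCondFree_thompson_two thompsonSubgroupA_inv (fun Q _ _ _ => center_le_thompsonA Q) _ _ le_rfl hS _ hF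
          (isSectionFree_group S hinv) x ⟨x, hxS, hxc, pow_one x⟩ hmov)
      · exact hodd hp
  intro g hg
  by_contra hne
  apply hnomove
  refine ⟨Subgroup.zpowers x, conjHom (Subgroup.zpowers x) g, ⟨Subgroup.zpowers_le.2 hxS, ?_, g, fun _ => rfl⟩, Subgroup.mem_zpowers x, hne⟩
  rintro ⟨y, hy⟩
  obtain ⟨k, rfl⟩ := Subgroup.mem_zpowers_iff.1 hy
  have h1 : g * x ^ k * g⁻¹ = (g * x * g⁻¹) ^ k := (conj_zpow).symm
  show g * x ^ k * g⁻¹ ∈ (S : Subgroup G)
  rw [h1]
  exact Subgroup.zpow_mem _ hg k

end Cfsg.Agent.S2799
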