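import Cfsg.Statements.S2807
import Cfsg.Agent.Lib.Yoshida.Wreath

set_option autoImplicit false
open Cfsg

namespace Cfsg.Agent.S2807

/-- Let S be a Sylow p-subgroup of the finite group G. If S ∩ G' ≠ S ∩ (N_G(S))' (derived subgroups), then the wreath product Z_p ≀ Z_p — realised as a Sylow p-subgroup of the symmetric group of degree p² — is a homomorphic image of S. -/
theorem result {G : Type*} [Group G] [Finite G] {p : ℕ} [Fact p.Prime] (S : Sylow p G) (h : (S : Subgroup G) ⊓ commutator G ≠ (S : Subgroup G) ⊓ ⁅Subgroup.normalizer ((S : Subgroup G) : Set G), Subgroup.normalizer ((S : Subgroup G) : Set G)⁆) : ∃ (P : Sylow p (Equiv.Perm (Fin (p ^ 2)))) (f : ↥(S : Subgroup G) →* ↥(P : Subgroup (Equiv.Perm (Fin (p ^ 2))))), Function.Surjective f := by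
  classical
  by_contra hno
  have hW : Cfsg.IsWeaklyClosed (S : Subgroup G) (S : Subgroup G) := by
    refine ⟨le_rfl, fun g hg => Subgroup.eq_of_le_of_card_ge hg ?_⟩
    have h1 : Nat.card ((S : Subgroup G).map (MulAut.conj g).toMonoidHom) = Nat.card (S : Subgroup G) :=
      Subgroup.card_map_of_injective (MulAut.conj g).injective
    rw [h1]
  have hNV := Cfsg.Agent.Lib.Yoshida.nv_of_no_wreath (P := ↥(S : Subgroup G)) (p := p) S.isPGroup'
    ((S : Subgroup G).subgroupOf (S : Subgroup G)) (Subgroup.subgroupOf_self _) (by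
      rintro ⟨Q, f, hf⟩
      exact hno ⟨Q, f, hf⟩)
    (Abelianization ↥(Subgroup.normalizer ((S : Subgroup G) : Set G)))
  have hindex : ¬ p ∣ (S : Subgroup G).index := S.not_dvd_index
  have h1 := Cfsg.Agent.Lib.Yoshida.yoshida_core S.isPGroup' hindex hW hNV
  apply h
  apply le_antisymm
  · exact le_inf inf_le_left h1
  · refine inf_le_inf_left _ ?_
    rw [commutator_def]
    exact Subgroup.commutator_mono le_top le_top

end Cfsg.Agent.S2807
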