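import Cfsg.Statements.S2941
import Cfsg.Agent.Lib.FF.Basic
import Mathlib

set_option autoImplicit false
open Cfsg

namespace Cfsg.Agent.S2941

open scoped commutatorElement

/-- Let G be a finite group of characteristic 2 type in which every 2-local subgroup is solvable and the centralizer of Ω₁(Z(S)) lies in N_G(S) for every Sylow 2-subgroup S, and let T be a nontrivial 2-subgroup and K a J(T)-component (J the Thompson subgroup generated by the elementary abelian 2-subgroups of largest order). If a subgroup Q is normalized by ⟨K, J(T)⟩ and normalizes J(T), then Q normalizes K. -/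
theorem result {G : Type*} [Group G] [Finite G] (hL : Cfsg.IsCharacteristicTwoType G) (hN : ∀ N : Subgroup G, Cfsg.IsTwoLocal N → Group.IsSolvable ↥N)
    (hZ : ∀ S : Sylow 2 G, Subgroup.centralizer (Cfsg.omegaCenterOf (S : Subgroup G) : Set G) ≤ Subgroup.normalizer ((S : Subgroup G) : Set G)) (T : Subgroup G) (hT : IsPGroup 2 ↥T) (hT1 : T ≠ ⊥) (K : Subgroup G) (hK : Cfsg.IsJComponent T K)
    (Q : Subgroup G) (hQ1 : K ⊔ Cfsg.thompsonSubgroupOf 2 T ≤ Subgroup.normalizer (Q : Set G)) (hQ2 : Q ≤ Subgroup.normalizer (Cfsg.thompsonSubgroupOf 2 T : Set G)) :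
    Q ≤ Subgroup.normalizer (K : Set G) := by
  classical
  set J := Cfsg.thompsonSubgroupOf 2 T with hJdef
  obtain ⟨hodd, hcomm, -, -, -, -⟩ := hK
  have hJ2 : IsPGroup 2 J := hT.to_le (Subgroup.map_subtype_le _)
  -- `J` normalizes `K`
  have hJK1 : ∀ j ∈ J, ∀ k ∈ K, j * k * j⁻¹ ∈ K := by
    intro j hj k hk
    have h1 : ⁅k⁻¹, j⁆ ∈ K := by
      rw [← hcomm]
      exact Subgroup.commutator_mem_commutator (K.inv_mem hk) hj
    have h2 : j * k * j⁻¹ = k * ⁅k⁻¹, j⁆ := by
      rw [commutatorElement_def]; group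
    rw [h2]
    exact K.mul_mem hk h1
  have hJK : J ≤ Subgroup.normalizer (K : Set G) := by
    intro j hj
    rw [Subgroup.mem_normalizer_iff]
    intro k
    constructor
    · exact hJK1 j hj k
    · intro h
      have := hJK1 j⁻¹ (J.inv_mem hj) _ h
      simpa [mul_assoc] using this
  have hkQ : ∀ k ∈ K, ∀ q ∈ Q, k * q * k⁻¹ ∈ Q := by
    intro k hk q hq
    exact (Subgroup.mem_normalizer_iff.mp (hQ1 (Subgroup.mem_sup_left hk)) q).mp hq
  have hqJ : ∀ q ∈ Q, ∀ j ∈ J, q * j * q⁻¹ ∈ J := by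
    intro q hq j hj
    exact (Subgroup.mem_normalizer_iff.mp (hQ2 hq) j).mp hj
  have step : ∀ x ∈ Q, ∀ k ∈ K, x * k * x⁻¹ ∈ K ⊔ J := by
    intro x hx k hk
    rw [← hcomm] at hk
    have hle : ⁅K, J⁆ ≤ (K ⊔ J).comap (MulAut.conj x).toMonoidHom := by
      rw [Subgroup.commutator_le]
      intro k hk j hj
      rw [Subgroup.mem_comap]
      have hq : (k⁻¹ * x * k) * x⁻¹ ∈ Q := by
        have := hkQ k⁻¹ (K.inv_mem hk) x hx
        rw [inv_inv] at this
        exact Q.mul_mem this (Q.inv_mem hx)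
      set q := (k⁻¹ * x * k) * x⁻¹ with hqdef
      set j' := x * j * x⁻¹ with hj'
      have hj'J : j' ∈ J := hqJ x hx j hj
      have e : (MulAut.conj x).toMonoidHom ⁅k, j⁆ = k * (q * j' * q⁻¹) * k⁻¹ * j'⁻¹ := by
        simp only [MulEquiv.coe_toMonoidHom, MulAut.conj_apply, commutatorElement_def, hqdef, hj']
        group
      rw [e]
      exact (K ⊔ J).mul_mem ((K ⊔ J).mul_mem ((K ⊔ J).mul_mem (Subgroup.mem_sup_left hk)
        (Subgroup.mem_sup_right (hqJ q hq j' hj'J))) (Subgroup.mem_sup_left (K.inv_mem hk)))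
        (Subgroup.mem_sup_right (J.inv_mem hj'J))
    exact hle hk
  have oddK : ∀ x ∈ Q, ∀ k ∈ K, x * k * x⁻¹ ∈ K := by
    intro x hx
    have hle : Subgroup.closure {g : G | g ∈ K ∧ Odd (orderOf g)} ≤ K.comap (MulAut.conj x).toMonoidHom := by
      rw [Subgroup.closure_le]
      rintro z ⟨hz, hzodd⟩
      show x * z * x⁻¹ ∈ K
      have h1 := step x hx z hz
      have hord : orderOf (x * z * x⁻¹) = orderOf z := by
        have := orderOf_injective (MulAut.conj x).toMonoidHom (MulEquiv.injective _) z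
        simpa using this
      refine Cfsg.Agent.Lib.FF.mem_of_coprime_of_mem_sup hJK hJ2 h1 ?_ ?_
      · rw [hord]; exact hzodd.pos.ne'
      · rw [hord]; exact Nat.Coprime.symm ((Nat.coprime_two_left).mpr hzodd)
    intro k hk
    rw [← hodd] at hk
    exact hle hk
  intro x hx
  rw [Subgroup.mem_normalizer_iff]
  intro k
  constructor
  · exact oddK x hx k
  · intro h
    have := oddK x⁻¹ (Q.inv_mem hx) _ h
    simpa [mul_assoc] using this

end Cfsg.Agent.S2941
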