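import Cfsg.Statements.S2947
import Cfsg.Agent.Lib.FF.Basic
import Cfsg.Agent.Lib.Core.Basic
import Mathlib

set_option autoImplicit false
open Cfsg

namespace Cfsg.Agent.S2947

/-- Let G be a finite group of characteristic 2 type in which every 2-local subgroup is solvable and the centralizer of Ω₁(Z(S)) lies in N_G(S) for every Sylow 2-subgroup S; suppose O₂(G) = 1, fix a Sylow 2-subgroup S and a 2-local subgroup M containing N_G(J(S)) (J the Thompson subgroup generated by the elementary abelian 2-subgroups of largest order). Then M is strongly embedded in G (a proper subgroup of even order whose intersection with each conjugate by an element outside M has odd order) if and only if no nontrivial 2-subgroup of M lies in a 2-local subgroup of G not contained in M. -/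
theorem result {G : Type*} [Group G] [Finite G] (hL : Cfsg.IsCharacteristicTwoType G) (hN : ∀ N : Subgroup G, Cfsg.IsTwoLocal N → Group.IsSolvable ↥N)
    (hZ : ∀ S : Sylow 2 G, Subgroup.centralizer (Cfsg.omegaCenterOf (S : Subgroup G) : Set G) ≤ Subgroup.normalizer ((S : Subgroup G) : Set G)) (hO : Cfsg.pCore 2 G = ⊥) (S : Sylow 2 G) (M : Subgroup G) (hM : Cfsg.IsTwoLocal M)
    (hMJ : Subgroup.normalizer (Cfsg.thompsonSubgroupOf 2 (S : Subgroup G) : Set G) ≤ M) :
    Cfsg.IsStronglyEmbedded M ↔ Cfsg.straddlingTwoSubgroups M = ∅ := by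
  classical
  open Cfsg.Agent.Lib.FF in
  constructor
  · -- strongly embedded ⇒ no straddling subgroups
    intro hse
    have hnorm : ∀ U : Subgroup G, IsPGroup 2 U → U ≠ ⊥ → U ≤ M → Subgroup.normalizer (U : Set G) ≤ M := by
      intro U hU hne hUM g hg
      by_contra hgM
      have hodd := hse.2.2 g hgM
      have hle : U ≤ M ⊓ M.map (MulAut.conj g).toMonoidHom :=
        le_inf hUM (by
          rw [← Cfsg.Agent.Lib.FF.mem_normalizer_iff_conj.mp hg]
          exact Subgroup.map_mono hUM)
      have h1 := Subgroup.card_dvd_of_le hle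
      have h2 := Cfsg.Agent.Lib.FF.dvd_card_of_isPGroup_of_ne_bot hU hne
      exact hodd.not_two_dvd_nat (h2.trans h1)
    rw [Set.eq_empty_iff_forall_notMem]
    rintro T ⟨hT, hTne, hTM, L, ⟨R, hR, hRne, rfl⟩, hTL, hLM⟩
    -- `R T` is a 2-group
    have hRT : IsPGroup 2 ↥(T ⊔ R) := hT.to_sup_of_normal_right' hR hTL
    have hle := Cfsg.Agent.Lib.FF.le_of_normalizer_le hRT hnorm (by
      intro h
      apply hTne
      rw [eq_bot_iff, ← h]
      exact le_inf le_sup_left hTM)
    exact hLM (hnorm R hR hRne (le_trans le_sup_right hle))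
  · intro hstr
    have hno : ∀ (T L : Subgroup G), IsPGroup 2 T → T ≠ ⊥ → T ≤ M → Cfsg.IsTwoLocal L → T ≤ L → L ≤ M := by
      intro T L hT hne hTM hL hTL
      by_contra hLM
      have : T ∈ Cfsg.straddlingTwoSubgroups M := ⟨hT, hne, hTM, L, hL, hTL, hLM⟩
      rw [hstr] at this
      exact this
    obtain ⟨R, hR, hRne, rfl⟩ := hM
    set M := Subgroup.normalizer (R : Set G) with hMdef
    have hRM : R ≤ M := Subgroup.le_normalizer
    have hcore2 : IsPGroup 2 ↥(Cfsg.pCoreOf 2 M) := (Cfsg.Agent.Lib.Core.pCore_isPGroup 2 M).map _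
    have hcoreM : Cfsg.pCoreOf 2 M ≤ M := Subgroup.map_subtype_le _
    have hRcore : R ≤ Cfsg.pCoreOf 2 M := by
      have hn : (R.subgroupOf M).Normal := Subgroup.normal_in_normalizer
      have hp : IsPGroup 2 (R.subgroupOf M) := Cfsg.Agent.Lib.FF.isPGroup_subgroupOf hR
      have := Cfsg.Agent.Lib.Core.le_pCore hn hp
      intro r hr
      exact ⟨⟨r, hRM hr⟩, this (by simpa [Subgroup.mem_subgroupOf] using hr), rfl⟩
    have hcorene : Cfsg.pCoreOf 2 M ≠ ⊥ := by
      intro h
      rw [h] at hRcore
      exact hRne (le_bot_iff.mp hRcore)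
    have hNcore : Subgroup.normalizer ((Cfsg.pCoreOf 2 M : Subgroup G) : Set G) ≤ M :=
      hno _ _ hcore2 hcorene hcoreM ⟨_, hcore2, hcorene, rfl⟩ Subgroup.le_normalizer
    have hNM : Subgroup.normalizer (M : Set G) ≤ M :=
      (Cfsg.Agent.Lib.FF.normalizer_le_normalizer_map_of_characteristic (Cfsg.pCore 2 M)).trans hNcore
    refine ⟨?_, ?_, ?_⟩
    · -- `M` proper
      intro htop
      have hn : R.Normal := Subgroup.normalizer_eq_top_iff.mp htop
      have h2 : R ≤ Cfsg.pCore 2 G := Cfsg.Agent.Lib.Core.le_pCore hn hR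
      rw [hO] at h2
      exact hRne (le_bot_iff.mp h2)
    · -- even order
      have h1 := Cfsg.Agent.Lib.FF.dvd_card_of_isPGroup_of_ne_bot hR hRne
      exact even_iff_two_dvd.mpr (h1.trans (Subgroup.card_dvd_of_le hRM))
    · intro g hg
      by_contra hodd
      rw [Nat.not_odd_iff_even] at hodd
      obtain ⟨t, ht⟩ := exists_prime_orderOf_dvd_card' 2 (even_iff_two_dvd.mp hodd)
      have htne : t ≠ 1 := by
        intro h
        rw [h, orderOf_one] at ht
        omega
      have htM : (t : G) ∈ M := t.2.1
      have htMg : (t : G) ∈ M.map (MulAut.conj g).toMonoidHom := t.2.2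
      have hT : IsPGroup 2 (Subgroup.zpowers (t : G)) := by
        apply IsPGroup.of_card (n := 1)
        rw [Nat.card_zpowers]
        simpa [Subgroup.orderOf_coe] using ht
      have hTne : Subgroup.zpowers (t : G) ≠ ⊥ := by
        simp only [ne_eq, Subgroup.zpowers_eq_bot]
        intro h
        exact htne (Subtype.ext h)
      have hL : Cfsg.IsTwoLocal (M.map (MulAut.conj g).toMonoidHom) :=
        ⟨R.map (MulAut.conj g).toMonoidHom, hR.map _, by
          intro h
          apply hRne
          have : R ≤ ⊥ := by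
            intro r hr
            have := Cfsg.Agent.Lib.FF.conj_mem_conj (g := g) hr
            rw [h] at this
            have h3 : g * r * g⁻¹ = 1 := by simpa using this
            have : r = g⁻¹ * (g * r * g⁻¹) * g := by group
            rw [this, h3]
            simp
          exact le_bot_iff.mp this, Cfsg.Agent.Lib.FF.conj_normalizer R g⟩
      have hle := hno _ _ hT hTne (Subgroup.zpowers_le.mpr htM) hL (Subgroup.zpowers_le.mpr htMg)
      have heq : M.map (MulAut.conj g).toMonoidHom = M :=
        Subgroup.eq_of_le_of_card_ge hle (by rw [Cfsg.Agent.Lib.FF.card_conj])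
      exact hg (hNM (Cfsg.Agent.Lib.FF.mem_normalizer_iff_conj.mpr heq))

end Cfsg.Agent.S2947
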