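import Cfsg.Statements.S3085
import Mathlib
import Cfsg.Agent.Lib.Griess.Core

set_option autoImplicit false
open Cfsg

open Cfsg.Agent.Lib.Griess
open scoped commutatorElement

namespace Cfsg.Agent.S3085


/-- Let Q be an extraspecial 2-group of order 2^(2n+1) with n ≥ 3 that is of plus type (it contains an elementary abelian subgroup of order 2^(n+1)). Then the group of inner automorphisms of Q has no complement in the full automorphism group of Q: the extension of the inner automorphism group (elementary abelian of order 2^(2n)) by the outer automorphism group (the orthogonal group of plus type) does not split. -/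
theorem result {Q : Type*} [Group Q] [Finite Q] (n : ℕ) (hn : 3 ≤ n) (hQ : Cfsg.IsExtraspecial 2 Q) (hcard : Nat.card Q = 2 ^ (2 * n + 1)) (hplus : ∃ E : Subgroup Q, Cfsg.IsElementaryAbelian 2 E ∧ Nat.card ↥E = 2 ^ (n + 1)) (L : Subgroup (MulAut Q)) : ¬ (Cfsg.Inn Q).IsComplement' L := by
  intro hL
  classical
  obtain ⟨⟨hp, hfr, hcomm⟩, hcen⟩ := hQ
  -- the central involution
  have hcenlt : 1 < Nat.card (Subgroup.center Q) := by rw [hcen]; norm_num
  obtain ⟨z0, hz0⟩ : ∃ z0 : Subgroup.center Q, z0 ≠ 1 := by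
    haveI : Nontrivial (Subgroup.center Q) := Finite.one_lt_card_iff_nontrivial.1 hcenlt
    exact exists_ne 1
  set z : Q := z0.1 with hzdef
  have hzmem : z ∈ Subgroup.center Q := z0.2
  have hzne : z ≠ 1 := fun h => hz0 (Subtype.ext h)
  have hzcen : ∀ u, u * z = z * u := fun u => (Subgroup.mem_center_iff.1 hzmem u)
  have hzsq : z * z = 1 := by
    have h1 := pow_card_eq_one' (x := z0)
    rw [hcen, pow_two] at h1
    exact congrArg Subtype.val h1
  have hcenz : ∀ w ∈ Subgroup.center Q, w = 1 ∨ w = z := by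
    intro w hw
    by_contra hcon
    push Not at hcon
    have h1 : ({1, z0, ⟨w, hw⟩} : Finset (Subgroup.center Q)).card = 3 := by
      rw [Finset.card_eq_three]
      refine ⟨1, z0, ⟨w, hw⟩, hz0.symm, ?_, ?_, rfl⟩
      · intro h
        exact hcon.1 (congrArg Subtype.val h).symm
      · intro h
        exact hcon.2 (congrArg Subtype.val h).symm
    have h2 : ({1, z0, ⟨w, hw⟩} : Finset (Subgroup.center Q)).card ≤ Nat.card (Subgroup.center Q) := by
      haveI : Fintype (Subgroup.center Q) := Fintype.ofFinite _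
      rw [Nat.card_eq_fintype_card]
      exact Finset.card_le_univ _
    rw [h1, hcen] at h2
    omega
  have hdi : ∀ u v : Q, u * v = v * u ∨ u * v = v * u * z := by
    intro u v
    have h1 : ⁅u, v⁆ ∈ Subgroup.center Q := by
      rw [← hcomm]
      exact Subgroup.commutator_mem_commutator (Subgroup.mem_top u) (Subgroup.mem_top v)
    rcases hcenz _ h1 with h2 | h2
    · left
      exact commutatorElement_eq_one_iff_mul_comm.1 h2
    · right
      have h3 : u * v * u⁻¹ * v⁻¹ = z := h2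
      have h4 : u * v = z * (v * u) := by
        rw [← h3]
        group
      rw [h4, ← hzcen]
  have hz : Cl2 z := ⟨hzne, hzsq, hzcen, hdi⟩
  have hc : ∀ w : Q, (∀ u, u * w = w * u) → w = 1 ∨ w = z := by
    intro w hw
    exact hcenz w (Subgroup.mem_center_iff.2 hw)
  -- the elementary abelian subgroup
  obtain ⟨E, ⟨hEcom, hEexp⟩, hEcard⟩ := hplus
  have hE16 : 16 ≤ Nat.card E := by
    rw [hEcard]
    calc 16 = 2 ^ 4 := by norm_num
      _ ≤ 2 ^ (n + 1) := Nat.pow_le_pow_right (by norm_num) (by omega)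
  have hEcm : ∀ a ∈ E, ∀ b ∈ E, a * b = b * a := by
    intro a ha b hb
    have := hEcom.is_comm.comm ⟨a, ha⟩ ⟨b, hb⟩
    exact congrArg Subtype.val this
  have hEsq : ∀ a ∈ E, a * a = 1 := by
    intro a ha
    rw [← pow_two]
    exact hEexp a ha
  have havoid : ∀ S : Finset Q, S.card < Nat.card E → ∃ x ∈ E, x ∉ S := by
    intro S hS
    by_contra hcon
    push Not at hcon
    have h1 : ((E : Subgroup Q) : Set Q) ⊆ (S : Set Q) := fun x hx => hcon x hx
    have h2 := Set.ncard_le_ncard h1 (Finset.finite_toSet S)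
    rw [Set.ncard_coe_finset] at h2
    have h3 : Nat.card E = ((E : Subgroup Q) : Set Q).ncard := by
      rw [← _root_.Nat.card_coe_set_eq]; rfl
    omega
  obtain ⟨E₁, hE₁, h1⟩ := havoid {1, z} (lt_of_le_of_lt (Finset.card_le_two) (by omega))
  obtain ⟨E₂, hE₂, h2⟩ := havoid {1, z, E₁, E₁ * z} (lt_of_le_of_lt (Finset.card_le_four) (by omega))
  have hS8 : ({1, z, E₁, E₁ * z, E₂, E₂ * z, E₁ * E₂, E₁ * E₂ * z} : Finset Q).card < Nat.card E := by
    have c0 : ({E₂, E₂ * z, E₁ * E₂, E₁ * E₂ * z} : Finset Q).card ≤ 4 := Finset.card_le_four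
    have c1 := Finset.card_insert_le (E₁ * z) ({E₂, E₂ * z, E₁ * E₂, E₁ * E₂ * z} : Finset Q)
    have c2 := Finset.card_insert_le E₁ ({E₁ * z, E₂, E₂ * z, E₁ * E₂, E₁ * E₂ * z} : Finset Q)
    have c3 := Finset.card_insert_le z ({E₁, E₁ * z, E₂, E₂ * z, E₁ * E₂, E₁ * E₂ * z} : Finset Q)
    have c4 := Finset.card_insert_le (1 : Q) ({z, E₁, E₁ * z, E₂, E₂ * z, E₁ * E₂, E₁ * E₂ * z} : Finset Q)
    omega
  obtain ⟨E₃, hE₃, h3⟩ := havoid {1, z, E₁, E₁ * z, E₂, E₂ * z, E₁ * E₂, E₁ * E₂ * z} hS8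
  simp only [Finset.mem_insert, Finset.mem_singleton, not_or] at h1 h2 h3
  have s1 := hEsq _ hE₁
  have s2 := hEsq _ hE₂
  have s3 := hEsq _ hE₃
  have c12 := hEcm _ hE₁ _ hE₂
  have c13 := hEcm _ hE₁ _ hE₃
  have c23 := hEcm _ hE₂ _ hE₃
  have hgen : ∀ a b : Q, a * a = 1 → b ≠ a → b ≠ a * z → a * b ≠ 1 ∧ a * b ≠ z := by
    intro a b ha hb1 hb2
    constructor
    · intro h
      exact hb1 (mul_left_cancel (h.trans ha.symm))
    · intro h
      apply hb2
      apply mul_left_cancel (a := a)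
      rw [h, ← mul_assoc, ha, one_mul]
  have s12 : (E₁ * E₂) * (E₁ * E₂) = 1 := by
    have hcm : Commute E₂ E₁ := c12.symm
    rw [hcm.mul_mul_mul_comm, s1, s2, one_mul]
  have h12 := hgen E₁ E₂ s1 h2.2.2.1 h2.2.2.2
  have h13 := hgen E₁ E₃ s1 h3.2.2.1 h3.2.2.2.1
  have h23 := hgen E₂ E₃ s2 h3.2.2.2.2.1 h3.2.2.2.2.2.1
  have h123 := hgen (E₁ * E₂) E₃ s12 h3.2.2.2.2.2.2.1 h3.2.2.2.2.2.2.2
  obtain ⟨f, f1, f2, f3⟩ := pattern hz hc E₁ E₂ E₃ h1 ⟨h2.1, h2.2.1⟩ ⟨h3.1, h3.2.1⟩ h12 h13 h23 h123 0 0 1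
  have f1' := bit_eq_zero.1 f1
  have f2' := bit_eq_zero.1 f2
  have f3' := nc hz (bit_eq_one.1 f3)
  have hff : f * f = 1 ∨ f * f = z := by
    apply hc
    intro u
    have h5 : bit (f * f) u = 0 := by
      rw [bit_mul_left hz]
      rcases bit_zero_or f u with h6 | h6 <;> rw [h6] <;> decide
    exact bit_eq_zero.1 h5
  obtain ⟨D, hD, cD1, cD2⟩ : ∃ D, D * D = z ∧ D * E₁ = E₁ * D ∧ D * E₂ = E₂ * D := by
    rcases hff with h5 | h5
    · refine ⟨E₃ * f, ?_, ?_, ?_⟩
      · calc E₃ * f * (E₃ * f) = E₃ * (f * E₃) * f := by simp only [mul_assoc]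
          _ = E₃ * (E₃ * f * z) * f := by rw [f3']
          _ = (E₃ * E₃) * f * (z * f) := by simp only [mul_assoc]
          _ = f * (f * z) := by rw [s3, one_mul, hzcen f]
          _ = z := by rw [← mul_assoc, h5, one_mul]
      · calc E₃ * f * E₁ = E₃ * (f * E₁) := mul_assoc _ _ _
          _ = (E₃ * E₁) * f := by rw [f1', ← mul_assoc]
          _ = (E₁ * E₃) * f := by rw [c13]
          _ = E₁ * (E₃ * f) := mul_assoc _ _ _
      · calc E₃ * f * E₂ = E₃ * (f * E₂) := mul_assoc _ _ _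
          _ = (E₃ * E₂) * f := by rw [f2', ← mul_assoc]
          _ = (E₂ * E₃) * f := by rw [c23]
          _ = E₂ * (E₃ * f) := mul_assoc _ _ _
    · exact ⟨f, h5, f1', f2'⟩
  exact core2 hz hc hD s1 s2 cD1 cD2 c12 h1 ⟨h2.1, h2.2.1⟩ h12 L hL

end Cfsg.Agent.S3085
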