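import Cfsg.Statements.S3356
import Mathlib

set_option autoImplicit false
open Cfsg

namespace Cfsg.Agent.S3356

open MulAction

theorem orbit_dvd {Γ X : Type*} [Group Γ] [Finite Γ] [MulAction Γ X] (Y : Set X) [Finite Y]
    (hinv : ∀ (γ : Γ), ∀ y ∈ Y, γ • y ∈ Y) (s e : ℕ)
    (hs : ∀ y ∈ Y, Nat.card (stabilizer Γ y) = s) (he : Nat.card Γ = e * s) (hs0 : 0 < s) :
    e ∣ Nat.card Y := by
  classical
  letI act : MulAction Γ Y :=
    { smul := fun γ y => ⟨γ • y.1, hinv γ y.1 y.2⟩
      one_smul := fun y => Subtype.ext (one_smul Γ y.1)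
      mul_smul := fun a b y => Subtype.ext (mul_smul a b y.1) }
  have hfin : Fintype (orbitRel.Quotient Γ Y) := Fintype.ofFinite _
  rw [Nat.card_congr (MulAction.selfEquivSigmaOrbits Γ Y), Nat.card_sigma]
  apply Finset.dvd_sum
  intro q _
  have h1 : Nat.card (orbit Γ (q.out : Y)) * Nat.card (stabilizer Γ (q.out : Y)) = Nat.card Γ := by
    rw [← Nat.card_prod]; exact Nat.card_congr (orbitProdStabilizerEquivGroup Γ _)
  have h2 : stabilizer Γ (q.out : Y) = stabilizer Γ ((q.out : Y) : X) := by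
    ext γ
    exact Subtype.ext_iff
  rw [h2, hs _ (q.out : Y).2, he] at h1
  have h3 : Nat.card (orbit Γ (q.out : Y)) = e := Nat.eq_of_mul_eq_mul_right hs0 h1
  rw [h3]

theorem block_lemma {H X : Type*} [Group H] [Finite H] [MulAction H X] (Y : Set X) [Finite Y]
    (u : ℕ) (hu : ∀ y ∈ Y, Nat.card (stabilizer H y) = u)
    (hY : ∀ h : H, ∀ y ∈ Y, h • y ∈ Y → ∀ z ∈ Y, h • z ∈ Y)
    (hcop : Nat.Coprime (Nat.card Y) (Nat.card H / u)) :
    ∀ h : H, ∀ y ∈ Y, h • y ∈ Y → ∀ z ∈ Y, h • z = z := by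
  intro h y hy hhy z hz
  let L : Subgroup H :=
    { carrier := {k | ∀ w ∈ Y, k • w ∈ Y ∧ k⁻¹ • w ∈ Y}
      mul_mem' := by
        intro a b ha hb w hw
        refine ⟨?_, ?_⟩
        · rw [mul_smul]; exact (ha _ (hb w hw).1).1
        · rw [mul_inv_rev, mul_smul]; exact (hb _ (ha w hw).2).2
      one_mem' := by
        intro w hw
        simpa using hw
      inv_mem' := by
        intro a ha w hw
        refine ⟨(ha w hw).2, ?_⟩
        rw [inv_inv]; exact (ha w hw).1 }
  have hmemL : ∀ k : H, ∀ w ∈ Y, k • w ∈ Y → k ∈ L := by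
    intro k w hw hkw t ht
    exact ⟨hY k w hw hkw t ht, hY k⁻¹ (k • w) hkw (by rwa [inv_smul_smul]) t ht⟩
  have hstabL : stabilizer H z ≤ L := fun k hk =>
    hmemL k z hz (by rw [mem_stabilizer_iff.mp hk]; exact hz)
  have hsL : ∀ w ∈ Y, Nat.card (stabilizer L w) = u := by
    intro w hw
    rw [← hu w hw]
    apply Nat.card_congr
    exact ⟨fun k => ⟨k.1.1, k.2⟩,
      fun k => ⟨⟨k.1, hmemL _ w hw (by rw [mem_stabilizer_iff.mp k.2]; exact hw)⟩, k.2⟩,
      fun k => rfl, fun k => rfl⟩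
  have hdvdL : u ∣ Nat.card L := by
    rw [← hu z hz]
    exact Subgroup.card_dvd_of_le hstabL
  obtain ⟨e, he⟩ := hdvdL
  have hupos : 0 < u := by rw [← hu z hz]; exact Nat.card_pos
  have h1 : e ∣ Nat.card Y := orbit_dvd (Γ := L) Y (fun γ w hw => (γ.2 w hw).1) u e hsL
    (by rw [he, mul_comm]) hupos
  have h2 : e ∣ Nat.card H / u := by
    have h3 := L.card_mul_index
    rw [he] at h3
    have : Nat.card H / u = e * L.index := by
      rw [← h3, mul_assoc]; exact Nat.mul_div_cancel_left _ hupos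
    rw [this]; exact dvd_mul_right _ _
  have he1 : e = 1 := Nat.eq_one_of_dvd_coprimes hcop h1 h2
  have hLz : stabilizer H z = L := by
    apply Subgroup.eq_of_le_of_card_ge hstabL
    rw [he, he1, mul_one, hu z hz]
  have hhL : h ∈ L := hmemL h y hy hhy
  rw [← hLz] at hhL
  exact hhL

section core

variable {H N : Type*} [Group H] [Group N] [Finite H] [Finite N] [MulDistribMulAction H N]

theorem coprime_aux (u : ℕ) (hu : ∀ x : N, x ≠ 1 → Nat.card (stabilizer H x) = u) (hn : ∃ x : N, x ≠ 1)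
    (c : ℕ) (hc : c ∣ Nat.card N) : Nat.Coprime c (Nat.card H / u) := by
  classical
  obtain ⟨x₀, hx₀⟩ := hn
  have hupos : 0 < u := by rw [← hu x₀ hx₀]; exact Nat.card_pos
  have hd : u ∣ Nat.card H := by
    rw [← hu x₀ hx₀]
    exact Subgroup.card_subgroup_dvd_card _
  obtain ⟨d, hd⟩ := hd
  have hdiv : Nat.card H / u = d := by
    rw [hd]; exact Nat.mul_div_cancel_left _ hupos
  rw [hdiv]
  have h1 : d ∣ Nat.card (({1}ᶜ : Set N)) := by
    apply orbit_dvd (Γ := H) ({1}ᶜ : Set N) _ u d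
    · intro y hy
      exact hu y hy
    · rw [hd, mul_comm]
    · exact hupos
    · intro γ y hy h
      apply hy
      have h' : γ • y = 1 := h
      have : γ⁻¹ • (γ • y) = γ⁻¹ • (1 : N) := by rw [h']
      rwa [inv_smul_smul, smul_one] at this
  have h2 : Nat.card (({1}ᶜ : Set N)) = Nat.card N - 1 := by
    rw [Nat.card_coe_set_eq, Set.ncard_compl, Set.ncard_singleton]
  rw [h2] at h1
  have h3 : Nat.Coprime (Nat.card N) (Nat.card N - 1) :=
    (Nat.coprime_self_sub_right Nat.card_pos).mpr (Nat.coprime_one_right _)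
  exact Nat.Coprime.coprime_dvd_left hc (Nat.Coprime.coprime_dvd_right h1 h3)

/-- Stabilizers of non-trivial elements with one included in the other coincide. -/
theorem stab_eq_of_le (u : ℕ) (hu : ∀ x : N, x ≠ 1 → Nat.card (stabilizer H x) = u) {x y : N}
    (hx : x ≠ 1) (hy : y ≠ 1) (h : stabilizer H x ≤ stabilizer H y) :
    stabilizer H x = stabilizer H y :=
  Subgroup.eq_of_le_of_card_ge h (by rw [hu x hx, hu y hy])

theorem conj_fix (u : ℕ) (hu : ∀ x : N, x ≠ 1 → Nat.card (stabilizer H x) = u) {x : N} (hx : x ≠ 1)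
    (h : H) (hh : h • x = x) (n : N) : h • (n * x * n⁻¹) = n * x * n⁻¹ := by
  classical
  have hmem : ∀ y : N, y ∈ orbit (ConjAct N) x ↔ ∃ n : N, n * x * n⁻¹ = y := by
    intro y
    constructor
    · rintro ⟨g, rfl⟩
      exact ⟨ConjAct.ofConjAct g, (ConjAct.smul_def g x).symm⟩
    · rintro ⟨n, rfl⟩
      exact ⟨ConjAct.toConjAct n, ConjAct.toConjAct_smul n x⟩
  have hne : ∀ y ∈ orbit (ConjAct N) x, y ≠ 1 := by
    intro y hy h1
    obtain ⟨n, rfl⟩ := (hmem y).mp hy
    apply hx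
    have : x = n⁻¹ * (n * x * n⁻¹) * n := by group
    rw [this, h1]; simp
  have hcard : Nat.card (orbit (ConjAct N) x) ∣ Nat.card N := by
    have h1 : Nat.card (orbit (ConjAct N) x) * Nat.card (stabilizer (ConjAct N) x) =
        Nat.card (ConjAct N) := by
      rw [← Nat.card_prod]; exact Nat.card_congr (orbitProdStabilizerEquivGroup (ConjAct N) x)
    have h2 : Nat.card (ConjAct N) = Nat.card N := Nat.card_congr ConjAct.ofConjAct.toEquiv
    rw [← h2, ← h1]
    exact dvd_mul_right _ _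
  have hself : x ∈ orbit (ConjAct N) x := mem_orbit_self x
  refine block_lemma (H := H) (orbit (ConjAct N) x) u (fun y hy => hu y (hne y hy)) ?_
    (coprime_aux u hu ⟨x, hx⟩ _ hcard) h x hself (by rw [hh]; exact hself) _ ((hmem _).mpr ⟨n, rfl⟩)
  intro k y hy hky z hz
  obtain ⟨a, rfl⟩ := (hmem y).mp hy
  obtain ⟨b, rfl⟩ := (hmem z).mp hz
  obtain ⟨c, hc⟩ := (hmem _).mp hky
  rw [smul_mul', smul_mul', smul_inv'] at hc
  rw [hmem]
  -- `k • x = (k•a)⁻¹ c x c⁻¹ (k•a)`
  have h5 : k • x = (k • a)⁻¹ * (c * x * c⁻¹) * (k • a) := by rw [hc]; group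
  refine ⟨(k • b) * (k • a)⁻¹ * c, ?_⟩
  rw [smul_mul', smul_mul', smul_inv', h5]
  group

theorem stab_conj (u : ℕ) (hu : ∀ x : N, x ≠ 1 → Nat.card (stabilizer H x) = u) {x : N} (hx : x ≠ 1)
    (n : N) : stabilizer H x ≤ stabilizer H (n * x * n⁻¹) := by
  intro h hh
  exact conj_fix u hu hx h hh n

theorem comm_of_stab_ne (u : ℕ) (hu : ∀ x : N, x ≠ 1 → Nat.card (stabilizer H x) = u) {x y : N}
    (hx : x ≠ 1) (hy : y ≠ 1) (hne : stabilizer H x ≠ stabilizer H y) : x * y = y * x := by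
  by_contra hcomm
  set c := x * y * x⁻¹ * y⁻¹ with hc
  have hc1 : c ≠ 1 := by
    intro h
    apply hcomm
    have h1 : x * y * x⁻¹ = y := by
      rw [hc, mul_inv_eq_one] at h
      exact h
    rw [mul_inv_eq_iff_eq_mul] at h1
    exact h1
  have h1 : stabilizer H x ≤ stabilizer H c := by
    intro h hh
    have hx' : h • x = x := hh
    have h2 := conj_fix u hu hx h hh y
    change h • c = c
    have h3 : c = x * (y * x * y⁻¹)⁻¹ := by rw [hc]; group
    rw [h3, smul_mul', smul_inv', h2, hx']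
  have h2 : stabilizer H y ≤ stabilizer H c := by
    intro h hh
    have hy' : h • y = y := hh
    have h2 := conj_fix u hu hy h hh x
    change h • c = c
    have h3 : c = (x * y * x⁻¹) * y⁻¹ := rfl
    rw [h3, smul_mul', smul_inv', h2, hy']
  apply hne
  rw [stab_eq_of_le u hu hx hc1 h1, stab_eq_of_le u hu hy hc1 h2]

theorem exists_stab_ne (u : ℕ) (hu1 : 1 < u) (hu : ∀ x : N, x ≠ 1 → Nat.card (stabilizer H x) = u)
    (hfaith : ∀ h : H, (∀ n : N, h • n = n) → h = 1) {y : N} (hy : y ≠ 1) :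
    ∃ z : N, z ≠ 1 ∧ stabilizer H z ≠ stabilizer H y := by
  by_contra hcon
  push_neg at hcon
  have hbot : stabilizer H y = ⊥ := by
    rw [eq_bot_iff]
    intro k hk
    rw [Subgroup.mem_bot]
    apply hfaith
    intro n
    by_cases hn : n = 1
    · rw [hn, smul_one]
    · have := hcon n hn
      rw [← this] at hk
      exact hk
  have := hu y hy
  rw [hbot, Nat.card_eq_one_iff_unique.mpr ⟨inferInstance, inferInstance⟩] at this
  omega

theorem comm_all (u : ℕ) (hu1 : 1 < u) (hu : ∀ x : N, x ≠ 1 → Nat.card (stabilizer H x) = u)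
    (hfaith : ∀ h : H, (∀ n : N, h • n = n) → h = 1) (y y' : N) : y' * y = y * y' := by
  by_cases hy : y = 1
  · rw [hy]; simp
  by_cases hy' : y' = 1
  · rw [hy']; simp
  by_cases hne : stabilizer H y' = stabilizer H y
  · obtain ⟨z, hz, hzne⟩ := exists_stab_ne (H := H) u hu1 hu hfaith hy
    have hyz : y * z ≠ 1 := by
      intro h
      apply hzne
      have h1 : z = y⁻¹ := eq_inv_of_mul_eq_one_right h
      have h2 : ∀ w : N, stabilizer H w ≤ stabilizer H w⁻¹ := by
        intro w k hk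
        have hk' : k • w = w := hk
        change k • w⁻¹ = w⁻¹
        rw [smul_inv', hk']
      rw [h1]
      have hyi : y⁻¹ ≠ 1 := inv_ne_one.mpr hy
      exact (stab_eq_of_le u hu hy hyi (h2 y)).symm
    have hst : stabilizer H (y * z) ≠ stabilizer H y := by
      intro h
      apply hzne
      symm
      apply stab_eq_of_le u hu hy hz
      intro k hk
      have hk1 : k • y = y := hk
      have hk2 : k ∈ stabilizer H (y * z) := by rw [h]; exact hk
      have hk3 : k • (y * z) = y * z := hk2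
      rw [smul_mul', hk1] at hk3
      exact mul_left_cancel hk3
    have h1 : y' * (y * z) = (y * z) * y' :=
      comm_of_stab_ne u hu hy' hyz (by rw [hne]; exact hst.symm)
    have h2 : y' * z = z * y' :=
      comm_of_stab_ne u hu hy' hz (by rw [hne]; exact hzne.symm)
    have h3 : y' * y = y' * (y * z) * z⁻¹ := by group
    rw [h3, h1]
    have h4 : y * z * y' * z⁻¹ = y * (z * y') * z⁻¹ := by group
    rw [h4, ← h2]
    group
  · exact comm_of_stab_ne u hu hy' hy hne

theorem invariant_trivial (u : ℕ) (hu1 : 1 < u) (hu : ∀ x : N, x ≠ 1 → Nat.card (stabilizer H x) = u)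
    (hfaith : ∀ h : H, (∀ n : N, h • n = n) → h = 1) (A : Subgroup N)
    (hA : ∀ h : H, ∀ a ∈ A, h • a ∈ A) : A = ⊥ ∨ A = ⊤ := by
  classical
  by_contra hcon
  push_neg at hcon
  obtain ⟨hbot, htop⟩ := hcon
  obtain ⟨⟨a₀, ha₀⟩, ha₀2⟩ := (Subgroup.ne_bot_iff_exists_ne_one).mp hbot
  have ha₀1 : a₀ ≠ 1 := fun h' => ha₀2 (Subtype.ext h')
  obtain ⟨y₀, hy₀⟩ : ∃ y, y ∉ A := by
    by_contra hall
    push_neg at hall
    exact htop (eq_top_iff.mpr fun x _ => hall x)
  have hn : ∃ x : N, x ≠ 1 := ⟨a₀, ha₀1⟩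
  -- for `y ∉ A` and `a ∈ A`, same stabilizer
  have key : ∀ y, y ∉ A → ∀ a ∈ A, a ≠ 1 → stabilizer H y = stabilizer H a := by
    intro y hy a ha ha1
    have hy1 : y ≠ 1 := fun h => hy (h ▸ A.one_mem)
    let Y : Set N := {z | ∃ b ∈ A, z = y * b}
    have hYne : ∀ z ∈ Y, z ≠ 1 := by
      rintro z ⟨b, hb, rfl⟩ h
      apply hy
      have : y = b⁻¹ := eq_inv_of_mul_eq_one_left h
      rw [this]
      exact A.inv_mem hb
    have hcard : Nat.card Y ∣ Nat.card N := by
      have h1 : Nat.card Y = Nat.card A := by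
        apply Nat.card_congr
        refine ⟨fun z => ⟨y⁻¹ * z.1, ?_⟩, fun b => ⟨y * b.1, b.1, b.2, rfl⟩, ?_, ?_⟩
        · obtain ⟨z, b, hb, rfl⟩ := z
          simpa using hb
        · rintro ⟨z, b, hb, rfl⟩
          simp
        · rintro ⟨b, hb⟩
          simp
      rw [h1]
      exact Subgroup.card_subgroup_dvd_card _
    have hself : y ∈ Y := ⟨1, A.one_mem, by simp⟩
    have hblock := block_lemma (H := H) Y u (fun z hz => hu z (hYne z hz)) (by
      rintro k _ ⟨b, hb, rfl⟩ ⟨c, hc, hc'⟩ _ ⟨e, he, rfl⟩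
      rw [smul_mul'] at hc'
      refine ⟨c * (k • b)⁻¹ * (k • e), ?_, ?_⟩
      · exact A.mul_mem (A.mul_mem hc (A.inv_mem (hA k b hb))) (hA k e he)
      · rw [smul_mul']
        have h1 : k • y = y * c * (k • b)⁻¹ := by rw [← hc']; group
        rw [h1]
        group) (coprime_aux u hu hn _ hcard)
    apply stab_eq_of_le u hu hy1 ha1
    intro k hk
    have hk1 : k • y = y := hk
    have h2 : k • (y * a) = y * a := hblock k y hself (by rw [hk1]; exact hself) _ ⟨a, ha, rfl⟩
    rw [smul_mul', hk1] at h2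
    exact mul_left_cancel h2
  -- all stabilizers are equal
  have hall : ∀ x : N, x ≠ 1 → stabilizer H x = stabilizer H a₀ := by
    intro x hx
    by_cases hxA : x ∈ A
    · rw [← key y₀ hy₀ x hxA hx, key y₀ hy₀ a₀ ha₀ ha₀1]
    · exact key x hxA a₀ ha₀ ha₀1
  obtain ⟨z, hz, hzne⟩ := exists_stab_ne (H := H) u hu1 hu hfaith ha₀1
  exact hzne (hall z hz)

/-- The abstract core. -/
theorem core (u : ℕ) (hu1 : 1 < u) (hu : ∀ x : N, x ≠ 1 → Nat.card (stabilizer H x) = u)
    (hfaith : ∀ h : H, (∀ n : N, h • n = n) → h = 1) (hn : ∃ x : N, x ≠ 1) :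
    (∃ p : ℕ, p.Prime ∧ ∀ x : N, x ^ p = 1) ∧ (∀ x y : N, x * y = y * x) := by
  classical
  have hcomm := comm_all (H := H) u hu1 hu hfaith
  refine ⟨?_, fun x y => hcomm y x⟩
  obtain ⟨x₀, hx₀⟩ := hn
  haveI : Nontrivial N := ⟨⟨x₀, 1, hx₀⟩⟩
  obtain ⟨p, hp, hpN⟩ := Nat.exists_prime_and_dvd (Finite.one_lt_card (α := N)).ne'
  refine ⟨p, hp, ?_⟩
  haveI : Fact p.Prime := ⟨hp⟩
  let B : Subgroup N :=
    { carrier := {x | x ^ p = 1}
      mul_mem' := by
        intro a b ha hb
        have ha' : a ^ p = 1 := ha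
        have hb' : b ^ p = 1 := hb
        have hc : Commute a b := hcomm b a
        change (a * b) ^ p = 1
        rw [hc.mul_pow, ha', hb', one_mul]
      one_mem' := one_pow p
      inv_mem' := by
        intro a ha
        have ha' : a ^ p = 1 := ha
        change a⁻¹ ^ p = 1
        rw [inv_pow, ha', inv_one] }
  obtain ⟨c, hc⟩ := exists_prime_orderOf_dvd_card' p hpN
  have hB : B ≠ ⊥ := by
    intro h
    have h1 : c ∈ B := by
      change c ^ p = 1
      rw [← hc, pow_orderOf_eq_one]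
    rw [h, Subgroup.mem_bot] at h1
    rw [h1, orderOf_one] at hc
    exact hp.one_lt.ne hc
  rcases invariant_trivial (H := H) u hu1 hu hfaith B (by
    intro h a ha
    have ha' : a ^ p = 1 := ha
    change (h • a) ^ p = 1
    rw [← smul_pow', ha', smul_one]) with h | h
  · exact absurd h hB
  · intro x
    have : x ∈ B := by rw [h]; trivial
    exact this

end core

/-- Let G be a finite 3/2-transitive permutation group: G acts faithfully and transitively on a finite set, the point stabilizers are non-trivial, and for each point a all orbits of G_a on the remaining points have the same size. Suppose G has a regular normal subgroup N and G is not a Frobenius group (some two-point stabilizer is non-trivial). Then N is an elementary abelian p-group for some prime p, and every non-trivial normal subgroup of G contains N (so N is the unique minimal normal subgroup). -/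
theorem result {G Ω : Type*} [Group G] [Finite G]
    [MulAction G Ω] [FaithfulSMul G Ω] [Finite Ω] (htrans : MulAction.IsPretransitive G Ω)
    (hne : ∀ a : Ω, MulAction.stabilizer G a ≠ ⊥)
    (hhalf : ∀ a b c : Ω, b ≠ a → c ≠ a →
      Nat.card (MulAction.orbit (MulAction.stabilizer G a) b) = Nat.card (MulAction.orbit (MulAction.stabilizer G a) c))
    (N : Subgroup G) [hN : N.Normal] (hNt : MulAction.IsPretransitive N Ω) (hNr : ∀ a : Ω, MulAction.stabilizer N a = ⊥)
    (hnotF : ∃ a b : Ω, a ≠ b ∧ MulAction.stabilizer G a ⊓ MulAction.stabilizer G b ≠ ⊥) :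
    (∃ p : ℕ, p.Prime ∧ IsMulCommutative N ∧ ∀ x ∈ N, x ^ p = 1) ∧
    (∀ M : Subgroup G, M.Normal → M ≠ ⊥ → N ≤ M) := by
  classical
  obtain ⟨a, b, hab, hg⟩ := hnotF
  let H : Subgroup G := stabilizer G a
  letI act : MulDistribMulAction H N :=
    MulDistribMulAction.compHom N ((MulAut.conjNormal : G →* MulAut N).comp H.subtype)
  have hsmul : ∀ (h : H) (n : N), ((h • n : N) : G) = (h : G) * n * (h : G)⁻¹ :=
    fun h n => MulAut.conjNormal_apply (h : G) n
  have hact : ∀ (h : H) (n : N), (h : G) • ((n : G) • a) = ((h • n : N) : G) • a := by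
    intro h n
    have hinv : (h : G)⁻¹ • a = a := by
      have h2 : (h : G) • a = a := h.2
      rw [inv_smul_eq_iff, h2]
    rw [hsmul, mul_smul, mul_smul, hinv]
  have hinj : ∀ n m : N, (n : G) • a = (m : G) • a → n = m := by
    intro n m h
    have h1 : (m⁻¹ * n) ∈ stabilizer N a := by
      change ((m⁻¹ * n : N) : G) • a = a
      rw [Subgroup.coe_mul, Subgroup.coe_inv, mul_smul, h, inv_smul_smul]
    rw [hNr a, Subgroup.mem_bot, inv_mul_eq_one] at h1
    exact h1.symm
  have hstab : ∀ (n : N) (k : H), k ∈ stabilizer H n ↔ k ∈ stabilizer H ((n : G) • a) := by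
    intro n k
    constructor
    · intro hk
      have hk' : k • n = n := hk
      change (k : G) • ((n : G) • a) = (n : G) • a
      rw [hact, hk']
    · intro hk
      have hk' : (k : G) • ((n : G) • a) = (n : G) • a := hk
      rw [hact] at hk'
      exact hinj _ _ hk'
  have hstabcard : ∀ n : N, Nat.card (stabilizer H n) = Nat.card (stabilizer H ((n : G) • a)) := by
    intro n
    apply Nat.card_congr
    exact ⟨fun k => ⟨k.1, (hstab n k.1).mp k.2⟩, fun k => ⟨k.1, (hstab n k.1).mpr k.2⟩,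
      fun k => rfl, fun k => rfl⟩
  obtain ⟨x₀, hx₀⟩ := hNt.exists_smul_eq a b
  have hx₀' : (x₀ : G) • a = b := hx₀
  have hx₀1 : x₀ ≠ 1 := by
    intro h
    rw [h] at hx₀
    exact hab (by simpa using hx₀)
  have hne1 : ∀ x : N, x ≠ 1 → (x : G) • a ≠ a := by
    intro x hx h
    apply hx
    apply hinj
    rw [h]; simp
  have hu : ∀ x : N, x ≠ 1 → Nat.card (stabilizer H x) = Nat.card (stabilizer H x₀) := by
    intro x hx
    rw [hstabcard, hstabcard]
    have h1 := hhalf a ((x : G) • a) ((x₀ : G) • a) (hne1 x hx) (hne1 x₀ hx₀1)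
    have h2 : ∀ ω : Ω, Nat.card (orbit H ω) * Nat.card (stabilizer H ω) = Nat.card H := by
      intro ω
      rw [← Nat.card_prod]; exact Nat.card_congr (orbitProdStabilizerEquivGroup H ω)
    have h3 := h2 ((x : G) • a)
    have h4 := h2 ((x₀ : G) • a)
    rw [← h4] at h3
    change Nat.card (orbit H ((x : G) • a)) = Nat.card (orbit H ((x₀ : G) • a)) at h1
    rw [h1] at h3
    have hpos : 0 < Nat.card (orbit H ((x₀ : G) • a)) := by
      haveI : Nonempty (orbit H ((x₀ : G) • a)) := ⟨⟨_, mem_orbit_self _⟩⟩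
      exact Nat.card_pos
    exact Nat.eq_of_mul_eq_mul_left hpos h3
  have hu1 : 1 < Nat.card (stabilizer H x₀) := by
    obtain ⟨⟨g, hg1⟩, hg2⟩ := (Subgroup.ne_bot_iff_exists_ne_one).mp hg
    have hg1' := Subgroup.mem_inf.mp hg1
    have hgb : (g : G) • b = b := hg1'.2
    have hmem : (⟨g, hg1'.1⟩ : H) ∈ stabilizer H x₀ := by
      rw [hstab]
      change g • ((x₀ : G) • a) = (x₀ : G) • a
      rw [hx₀', hgb]
    have hne : stabilizer H x₀ ≠ ⊥ := by
      intro h
      rw [h, Subgroup.mem_bot] at hmem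
      have h5 : g = 1 := congrArg Subtype.val hmem
      exact hg2 (Subtype.ext h5)
    haveI : Nontrivial (stabilizer H x₀) := (Subgroup.nontrivial_iff_ne_bot _).mpr hne
    exact Finite.one_lt_card
  have hfaith : ∀ h : H, (∀ n : N, h • n = n) → h = 1 := by
    intro k hk
    apply Subtype.ext
    apply FaithfulSMul.eq_of_smul_eq_smul (α := Ω)
    intro ω
    obtain ⟨n, hn⟩ := hNt.exists_smul_eq a ω
    have hn' : (n : G) • a = ω := hn
    change (k : G) • ω = (1 : G) • ω
    rw [one_smul, ← hn', hact, hk]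
  obtain ⟨⟨p, hp, hpx⟩, hcomm⟩ := core (H := H) (N := N) _ hu1 hu hfaith ⟨x₀, hx₀1⟩
  refine ⟨⟨p, hp, ⟨⟨fun x y => hcomm x y⟩⟩, fun x hx => congrArg Subtype.val (hpx ⟨x, hx⟩)⟩, ?_⟩
  intro M hM hMne
  rcases invariant_trivial (H := H) (N := N) _ hu1 hu hfaith (M.subgroupOf N) (by
    intro h n hn
    rw [Subgroup.mem_subgroupOf] at hn ⊢
    rw [hsmul]
    exact hM.conj_mem _ hn _) with hA | hA
  · exfalso
    obtain ⟨⟨m, hmM⟩, hm1⟩ := (Subgroup.ne_bot_iff_exists_ne_one).mp hMne
    have hm1' : m ≠ 1 := fun h => hm1 (Subtype.ext h)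
    -- `m` centralizes `N`
    have hcen : ∀ n : N, m * n = n * m := by
      intro n
      have h1 : m * n * m⁻¹ * (n : G)⁻¹ ∈ M := by
        have e : m * n * m⁻¹ * (n : G)⁻¹ = m * (n * m⁻¹ * (n : G)⁻¹) := by group
        rw [e]
        exact M.mul_mem hmM (hM.conj_mem _ (M.inv_mem hmM) _)
      have h2 : m * n * m⁻¹ * (n : G)⁻¹ ∈ N :=
        N.mul_mem (hN.conj_mem _ n.2 _) (N.inv_mem n.2)
      have h3 : (⟨_, h2⟩ : N) ∈ M.subgroupOf N := by
        rw [Subgroup.mem_subgroupOf]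
        exact h1
      rw [hA, Subgroup.mem_bot] at h3
      have h4 : m * n * m⁻¹ * (n : G)⁻¹ = 1 := congrArg Subtype.val h3
      rw [mul_inv_eq_one, mul_inv_eq_iff_eq_mul] at h4
      exact h4
    obtain ⟨n₀, hn₀⟩ := hNt.exists_smul_eq a ((m : G) • a)
    have hn₀' : (n₀ : G) • a = m • a := hn₀
    have hk : (n₀ : G)⁻¹ * m ∈ H := by
      change ((n₀ : G)⁻¹ * m) • a = a
      rw [mul_smul, ← hn₀', inv_smul_smul]
    have hk1 : (⟨_, hk⟩ : H) = 1 := by
      apply hfaith
      intro n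
      apply Subtype.ext
      rw [hsmul]
      change (n₀ : G)⁻¹ * m * n * ((n₀ : G)⁻¹ * m)⁻¹ = n
      rw [mul_assoc (n₀ : G)⁻¹, hcen n]
      have h5 : (n₀ : G) * n = n * n₀ := congrArg Subtype.val (hcomm n₀ n)
      have h6 : (n₀ : G)⁻¹ * (↑n * m) * ((n₀ : G)⁻¹ * m)⁻¹ = (n₀ : G)⁻¹ * n * n₀ := by group
      rw [h6, mul_assoc, ← h5, inv_mul_cancel_left]
    have h7 : (n₀ : G)⁻¹ * m = 1 := congrArg Subtype.val hk1
    have h8 : m = n₀ := (inv_mul_eq_one.mp h7).symm
    have h9 : (⟨m, h8 ▸ n₀.2⟩ : N) ∈ M.subgroupOf N := by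
      rw [Subgroup.mem_subgroupOf]
      exact hmM
    rw [hA, Subgroup.mem_bot] at h9
    exact hm1' (congrArg Subtype.val h9)
  · exact Subgroup.subgroupOf_eq_top.mp hA

end Cfsg.Agent.S3356
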