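import Cfsg.Statements.S3362
import Mathlib
import Cfsg.Agent.S0425
import Cfsg.Agent.Lib.Cl.TernGolay2
import Cfsg.Agent.Lib.Steiner.Transfer

set_option autoImplicit false
open Cfsg

namespace Cfsg.Agent.S3362

/-- Permutations of twelve points. -/
abbrev P12 := Equiv.Perm (Fin 12)

def s₀ : P12 := Equiv.swap (3 : Fin 12) 5 * Equiv.swap (3 : Fin 12) 4 * Equiv.swap (6 : Fin 12) 8 * Equiv.swap (6 : Fin 12) 7 * Equiv.swap (9 : Fin 12) 11 * Equiv.swap (9 : Fin 12) 10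
def t₀ : P12 := Equiv.swap (3 : Fin 12) 9 * Equiv.swap (3 : Fin 12) 6 * Equiv.swap (4 : Fin 12) 10 * Equiv.swap (4 : Fin 12) 7 * Equiv.swap (5 : Fin 12) 11 * Equiv.swap (5 : Fin 12) 8
def u₀ : P12 := Equiv.swap (4 : Fin 12) 9 * Equiv.swap (4 : Fin 12) 5 * Equiv.swap (4 : Fin 12) 6 * Equiv.swap (7 : Fin 12) 10 * Equiv.swap (7 : Fin 12) 11 * Equiv.swap (7 : Fin 12) 8
def v₀ : P12 := Equiv.swap (4 : Fin 12) 11 * Equiv.swap (4 : Fin 12) 5 * Equiv.swap (4 : Fin 12) 7 * Equiv.swap (6 : Fin 12) 8 * Equiv.swap (6 : Fin 12) 9 * Equiv.swap (6 : Fin 12) 10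
def w₀ : P12 := Equiv.swap (4 : Fin 12) 8 * Equiv.swap (4 : Fin 12) 5 * Equiv.swap (4 : Fin 12) 10 * Equiv.swap (6 : Fin 12) 7 * Equiv.swap (6 : Fin 12) 9 * Equiv.swap (6 : Fin 12) 11
def x₁₀ : P12 := Equiv.swap (0 : Fin 12) 3 * Equiv.swap (6 : Fin 12) 7 * Equiv.swap (8 : Fin 12) 10 * Equiv.swap (9 : Fin 12) 11
def x₂₀ : P12 := Equiv.swap (0 : Fin 12) 1 * Equiv.swap (6 : Fin 12) 9 * Equiv.swap (7 : Fin 12) 10 * Equiv.swap (8 : Fin 12) 11
def x₃₀ : P12 := Equiv.swap (1 : Fin 12) 2 * Equiv.swap (6 : Fin 12) 11 * Equiv.swap (7 : Fin 12) 9 * Equiv.swap (8 : Fin 12) 10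

/-- The generators. -/
def gs : Fin 8 → P12 := ![s₀, t₀, u₀, v₀, w₀, x₁₀, x₂₀, x₃₀]

/-- Evaluation of a word. -/
def ev (w : List (Fin 8)) : P12 := (w.map gs).prod

theorem ev_mem (H : Subgroup P12) {w : List (Fin 8)} (h : ∀ i ∈ w, gs i ∈ H) : ev w ∈ H := by
  apply Subgroup.list_prod_mem
  intro x hx
  obtain ⟨i, hi, rfl⟩ := List.mem_map.mp hx
  exact h i hi

/-- The blocks, as masks. -/
def masks : List ℕ := [63, 219, 237, 246, 350, 363, 373, 413, 430, 435, 455, 504, 591, 627, 636, 670, 679, 697, 725, 746, 791, 813, 826, 857, 870, 907, 948, 972, 978, 993, 1117, 1127, 1146, 1175, 1195, 1212, 1230, 1265, 1295, 1334, 1337, 1363, 1388, 1434, 1445, 1481, 1492, 1506, 1563, 1582, 1589, 1622, 1641, 1677, 1714, 1731, 1752, 1764, 1820, 1827, 1861, 1866, 1904, 1926, 1937, 1960, 2135, 2158, 2169, 2191, 2229, 2234, 2268, 2275, 2331, 2343, 2364, 2381, 2418, 2454, 2473, 2506, 2513, 2532, 2589, 2603, 2614,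 2650, 2661, 2707, 2732, 2758, 2761, 2800, 2830, 2865, 2883, 2900, 2920, 2949, 2968, 2978, 3102, 3117, 3123, 3147, 3188, 3225, 3238, 3269, 3282, 3304, 3349, 3370, 3398, 3416, 3425, 3459, 3468, 3504, 3591, 3640, 3660, 3665, 3682, 3722, 3732, 3745, 3849, 3858, 3876, 4032]

/-- Words moving a point to the point `2`. -/
def W0 : Fin 12 → List (Fin 8) := ![[7, 6], [7], [], [7, 6, 5], [7, 6, 5, 0, 0], [7, 6, 5, 0], [7, 6, 5, 0, 2], [7, 6, 5, 0, 3], [7, 6, 5, 0, 0, 4], [7, 6, 5, 1], [7, 6, 5, 0, 4], [7, 6, 5, 0, 1]]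

/-- Words for the stabiliser chain of the point stabiliser. -/
def WL : Fin 4 → Fin 12 → List (Fin 8) := ![
  ![[], [6], [], [5], [5,0,0], [5,0], [5,1,1], [5,0,3], [5,1,1,0], [5,1], [5,1,3], [5,1,0]],
  ![[], [], [], [5,6,5], [5,6,5,0,0], [5,6,5,0], [6,5,1,6], [5,6,5,0,3], [6,5,1,6,0], [5,6,5,1], [5,6,5,1,3], [5,6,5,1,0]],
  ![[], [], [], [], [0,0], [0], [1,1], [0,3], [1,1,0], [1], [1,3], [1,0]],
  ![[], [], [], [], [], [2,2], [3,4], [4,2], [4], [2], [2,3], [3]]]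

/-- The block of a mask. -/
def blk (m : ℕ) : Finset (Fin 12) := Finset.univ.filter (fun i => m.testBit i.1)

/-- The blocks. -/
def BF : Finset (Finset (Fin 12)) := masks.toFinset.image blk

theorem masks_nodup : masks.Nodup := by decide +kernel

theorem masks_len : masks.length = 132 := by decide +kernel

theorem six_masks : ∀ m ∈ masks, (blk m).card = 6 := by decide +kernel

theorem uniq_masks : ∀ m ∈ masks, ∀ m' ∈ masks, 5 ≤ (blk (m &&& m')).card → m = m' := by decide +kernel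

/-- Image of a mask. -/
def imgM (g : P12) (m : ℕ) : ℕ := ∑ i ∈ blk m, 2 ^ (g i).1

theorem pres_masks : ∀ i : Fin 8, ∀ m ∈ masks, imgM (gs i) m ∈ masks ∧
    (blk m).image (gs i) = blk (imgM (gs i) m) := by decide +kernel

theorem blk_and (m m' : ℕ) : blk (m &&& m') = blk m ∩ blk m' := by
  ext i
  simp [blk, Nat.testBit_and]

theorem mem_BF {b : Finset (Fin 12)} : b ∈ BF ↔ ∃ m ∈ masks, b = blk m := by
  simp only [BF, Finset.mem_image, List.mem_toFinset]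
  constructor
  · rintro ⟨m, hm, rfl⟩
    exact ⟨m, hm, rfl⟩
  · rintro ⟨m, hm, rfl⟩
    exact ⟨m, hm, rfl⟩

theorem six_BF : ∀ b ∈ BF, b.card = 6 := by
  intro b hb
  obtain ⟨m, hm, rfl⟩ := mem_BF.mp hb
  exact six_masks m hm

theorem uniq_BF : ∀ b ∈ BF, ∀ b' ∈ BF, 5 ≤ (b ∩ b').card → b = b' := by
  intro b hb b' hb' h
  obtain ⟨m, hm, rfl⟩ := mem_BF.mp hb
  obtain ⟨m', hm', rfl⟩ := mem_BF.mp hb'
  rw [← blk_and] at h
  rw [uniq_masks m hm m' hm' h]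

theorem card_BF : BF.card = 132 := by
  rw [BF, Finset.card_image_of_injOn, List.toFinset_card_of_nodup masks_nodup, masks_len]
  intro m hm m' hm' h
  have hm1 : m ∈ masks := by simpa using hm
  have hm2 : m' ∈ masks := by simpa using hm'
  apply uniq_masks m hm1 m' hm2
  have h' : blk m = blk m' := h
  rw [blk_and, ← h', Finset.inter_self, six_masks m hm1]
  norm_num

theorem pres_BF : ∀ i : Fin 8, ∀ b ∈ BF, b.image (gs i) ∈ BF := by
  intro i b hb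
  obtain ⟨m, hm, rfl⟩ := mem_BF.mp hb
  obtain ⟨h1, h2⟩ := pres_masks i m hm
  exact mem_BF.mpr ⟨_, h1, h2⟩

theorem steiner_BF : Cfsg.IsSteinerSystem 5 6 (↑BF : Set (Finset (Fin 12))) := by
  refine ⟨fun b hb => six_BF b hb, fun s hs => ?_⟩
  obtain ⟨b, hb, hsb⟩ := Cfsg.Agent.Lib.Cl.TG.exists_block_aux BF (by simp) card_BF six_BF uniq_BF s hs
  refine ⟨b, ⟨hb, hsb⟩, ?_⟩
  rintro b' ⟨hb', hsb'⟩
  apply uniq_BF b' hb' b hb
  rw [← hs]
  exact Finset.card_le_card (Finset.subset_inter hsb' hsb)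

theorem W0_ok : ∀ p, ev (W0 p) p = 2 := by decide +kernel

theorem WL_seven : ∀ k p, ∀ i ∈ WL k p, i.1 < 7 := by decide +kernel

/-- The base of the chain. -/
def bs : Fin 4 → Fin 12 := ![0, 1, 3, 4]

theorem WL_ok : ∀ (k : Fin 4) (p : Fin 12), p ≠ 2 → (∀ j : Fin 4, j < k → p ≠ bs j) →
    (∀ j : Fin 4, j < k → ev (WL k p) (bs j) = bs j) ∧ ev (WL k p) p = bs k := by decide +kernel

theorem gs_fix : ∀ i : Fin 8, i.1 < 7 → gs i 2 = 2 := by decide +kernel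

theorem bs_inj : Function.Injective bs := by decide +kernel

theorem bs_ne : ∀ i, bs i ≠ 2 := by decide +kernel

/-- Stabiliser chain inside an invariant set of points. -/
theorem le_of_chain_on {α : Type*} {I A : Subgroup (Equiv.Perm α)} {n : ℕ} (x : Fin n → α)
    (hx : Function.Injective x) (Ω : Set α) (hΩ : ∀ g ∈ A, ∀ p ∈ Ω, g p ∈ Ω) (hxΩ : ∀ i, x i ∈ Ω)
    (hsharp : ∀ g ∈ A, (∀ i, g (x i) = x i) → g = 1)
    (hlev : ∀ k : Fin n, ∀ p ∈ Ω, (∀ j : Fin n, j < k → p ≠ x j) →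
      ∃ g ∈ I, (∀ j : Fin n, j < k → g (x j) = x j) ∧ g p = x k) (hIA : I ≤ A) : A ≤ I := by
  intro σ hσ
  have key : ∀ m : ℕ, m ≤ n → ∃ g ∈ I, ∀ j : Fin n, j.1 < m → g (σ (x j)) = x j := by
    intro m
    induction m with
    | zero =>
      intro _
      exact ⟨1, I.one_mem, fun j hj => absurd hj (Nat.not_lt_zero _)⟩
    | succ m ih =>
      intro hm
      obtain ⟨g, hg, hgj⟩ := ih (by omega)
      let k : Fin n := ⟨m, by omega⟩
      have hp : ∀ j : Fin n, j < k → g (σ (x k)) ≠ x j := by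
        intro j hj h
        have h1 := hgj j hj
        rw [← h1] at h
        have h2 := σ.injective (g.injective h)
        have h3 := hx h2
        rw [h3] at hj
        exact lt_irrefl _ hj
      obtain ⟨h, hh, hfix, hmap⟩ := hlev k _ (hΩ g (hIA hg) _ (hΩ σ hσ _ (hxΩ k))) hp
      refine ⟨h * g, I.mul_mem hh hg, ?_⟩
      intro j hj
      change h (g (σ (x j))) = x j
      by_cases hjm : j.1 < m
      · rw [hgj j hjm]
        exact hfix j hjm
      · have : j = k := Fin.ext (by change j.1 = m; omega)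
        rw [this]
        exact hmap
  obtain ⟨g, hg, hgj⟩ := key n le_rfl
  have h1 : g * σ = 1 := hsharp _ (A.mul_mem (hIA hg) hσ) (fun i => hgj i i.2)
  have h2 : σ = g⁻¹ := eq_inv_of_mul_eq_one_right h1
  rw [h2]
  exact I.inv_mem hg

theorem main_aux (M₁₂ M₁₁ : Subgroup (Equiv.Perm (Fin 12)))
    (hM₁₂ : M₁₂ = Subgroup.closure {s₀, t₀, u₀, v₀, w₀, x₁₀, x₂₀, x₃₀})
    (hM₁₁ : M₁₁ = Subgroup.closure {s₀, t₀, u₀, v₀, w₀, x₁₀, x₂₀}) :
    MulAction.IsMultiplyPretransitive M₁₂ (Fin 12) 5 ∧ (∀ y : Fin 5 ↪ Fin 12, MulAction.stabilizer M₁₂ y = ⊥) ∧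
    Nat.card M₁₂ = 95040 ∧ Nat.card M₁₁ = 7920 ∧
    M₁₁ = M₁₂ ⊓ MulAction.stabilizer (Equiv.Perm (Fin 12)) (2 : Fin 12) := by
  have hS := Cfsg.Agent.S0425.result (α := Fin 12) (by simp) steiner_BF
  set A : Subgroup P12 := Cfsg.setSystemAut (↑BF : Set (Finset (Fin 12))) with hA
  have hgA : ∀ i, gs i ∈ A := fun i =>
    Cfsg.Agent.Lib.Steiner.mem_aut_of_forall (fun b hb => pres_BF i b hb)
  have hg8 : ∀ i : Fin 8, gs i ∈ M₁₂ := by
    intro i
    rw [hM₁₂]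
    apply Subgroup.subset_closure
    have h8 : ∀ i : Fin 8, gs i ∈ ({s₀, t₀, u₀, v₀, w₀, x₁₀, x₂₀, x₃₀} : Set P12) := by
      intro i
      fin_cases i
      · exact Or.inl rfl
      · exact Or.inr (Or.inl rfl)
      · exact Or.inr (Or.inr (Or.inl rfl))
      · exact Or.inr (Or.inr (Or.inr (Or.inl rfl)))
      · exact Or.inr (Or.inr (Or.inr (Or.inr (Or.inl rfl))))
      · exact Or.inr (Or.inr (Or.inr (Or.inr (Or.inr (Or.inl rfl)))))
      · exact Or.inr (Or.inr (Or.inr (Or.inr (Or.inr (Or.inr (Or.inl rfl))))))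
      · exact Or.inr (Or.inr (Or.inr (Or.inr (Or.inr (Or.inr (Or.inr rfl))))))
    exact h8 i
  have hg7 : ∀ i : Fin 8, i.1 < 7 → gs i ∈ M₁₁ := by
    intro i hi
    rw [hM₁₁]
    apply Subgroup.subset_closure
    have h8 : ∀ i : Fin 8, i.1 < 7 → gs i ∈ ({s₀, t₀, u₀, v₀, w₀, x₁₀, x₂₀} : Set P12) := by
      intro i hi
      fin_cases i
      · exact Or.inl rfl
      · exact Or.inr (Or.inl rfl)
      · exact Or.inr (Or.inr (Or.inl rfl))
      · exact Or.inr (Or.inr (Or.inr (Or.inl rfl)))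
      · exact Or.inr (Or.inr (Or.inr (Or.inr (Or.inl rfl))))
      · exact Or.inr (Or.inr (Or.inr (Or.inr (Or.inr (Or.inl rfl)))))
      · exact Or.inr (Or.inr (Or.inr (Or.inr (Or.inr (Or.inr rfl)))))
      · exact absurd hi (by decide)
    exact h8 i hi
  have h78 : M₁₁ ≤ M₁₂ := by
    rw [hM₁₁, hM₁₂]
    apply Subgroup.closure_mono
    intro g hg
    rcases hg with h | h | h | h | h | h | h
    · exact Or.inl h
    · exact Or.inr (Or.inl h)
    · exact Or.inr (Or.inr (Or.inl h))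
    · exact Or.inr (Or.inr (Or.inr (Or.inl h)))
    · exact Or.inr (Or.inr (Or.inr (Or.inr (Or.inl h))))
    · exact Or.inr (Or.inr (Or.inr (Or.inr (Or.inr (Or.inl h)))))
    · exact Or.inr (Or.inr (Or.inr (Or.inr (Or.inr (Or.inr (Or.inl h))))))
  have hM12A : M₁₂ ≤ A := by
    rw [hM₁₂, Subgroup.closure_le]
    intro g hg
    simp only [Set.mem_insert_iff, Set.mem_singleton_iff] at hg
    rcases hg with rfl | rfl | rfl | rfl | rfl | rfl | rfl | rfl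
    · exact hgA 0
    · exact hgA 1
    · exact hgA 2
    · exact hgA 3
    · exact hgA 4
    · exact hgA 5
    · exact hgA 6
    · exact hgA 7
  let St : Subgroup P12 := MulAction.stabilizer (Equiv.Perm (Fin 12)) (2 : Fin 12)
  have hStm : ∀ g : P12, g ∈ St ↔ g 2 = 2 := fun g => MulAction.mem_stabilizer_iff
  have hM11St : M₁₁ ≤ A ⊓ St := by
    rw [hM₁₁, Subgroup.closure_le]
    intro g hg
    simp only [Set.mem_insert_iff, Set.mem_singleton_iff] at hg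
    rcases hg with rfl | rfl | rfl | rfl | rfl | rfl | rfl
    · exact ⟨hgA 0, (hStm _).2 (gs_fix 0 (by decide))⟩
    · exact ⟨hgA 1, (hStm _).2 (gs_fix 1 (by decide))⟩
    · exact ⟨hgA 2, (hStm _).2 (gs_fix 2 (by decide))⟩
    · exact ⟨hgA 3, (hStm _).2 (gs_fix 3 (by decide))⟩
    · exact ⟨hgA 4, (hStm _).2 (gs_fix 4 (by decide))⟩
    · exact ⟨hgA 5, (hStm _).2 (gs_fix 5 (by decide))⟩
    · exact ⟨hgA 6, (hStm _).2 (gs_fix 6 (by decide))⟩
  have hsharp5 : ∀ y : Fin 5 ↪ Fin 12, ∀ g ∈ A, (∀ i, g (y i) = y i) → g = 1 := by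
    intro y g hg hfix
    have h2 : (⟨g, hg⟩ : A) ∈ MulAction.stabilizer A y := by
      rw [MulAction.mem_stabilizer_iff]
      apply Function.Embedding.ext
      intro i
      exact hfix i
    rw [hS.2.2 y, Subgroup.mem_bot] at h2
    exact congrArg Subtype.val h2
  have hStLe : A ⊓ St ≤ M₁₁ := by
    apply le_of_chain_on bs bs_inj {p | p ≠ 2} _ bs_ne _ _ hM11St
    · rintro g ⟨-, hg2⟩ p hp h
      apply hp
      apply g.injective
      rw [h, (hStm g).1 hg2]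
    · rintro g ⟨hgA', hg2⟩ hfix
      have hinj : Function.Injective (![2, 0, 1, 3, 4] : Fin 5 → Fin 12) := by decide
      apply hsharp5 ⟨_, hinj⟩ g hgA'
      intro i
      have h0 : g 2 = 2 := (hStm g).1 hg2
      have h1 := hfix 0
      have h2 := hfix 1
      have h3 := hfix 2
      have h4 := hfix 3
      fin_cases i
      · exact h0
      · exact h1
      · exact h2
      · exact h3
      · exact h4
    · intro k p hp hj
      obtain ⟨h1, h2⟩ := WL_ok k p hp hj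
      exact ⟨_, ev_mem _ (fun i hi => hg7 i (WL_seven k p i hi)), h1, h2⟩
  have hAM : A ≤ M₁₂ := by
    intro σ hσ
    have hg := ev_mem M₁₂ (w := W0 (σ 2)) (fun i _ => hg8 i)
    have h1 : ev (W0 (σ 2)) * σ ∈ A ⊓ St := by
      refine ⟨A.mul_mem (hM12A hg) hσ, (hStm _).2 ?_⟩
      exact W0_ok (σ 2)
    have h2 := h78 (hStLe h1)
    have h3 : σ = (ev (W0 (σ 2)))⁻¹ * (ev (W0 (σ 2)) * σ) := by group
    rw [h3]
    exact M₁₂.mul_mem (M₁₂.inv_mem hg) h2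
  have hEq : M₁₂ = A := le_antisymm hM12A hAM
  have hM11eq : M₁₁ = M₁₂ ⊓ St := by
    rw [hEq]
    exact le_antisymm hM11St hStLe
  have hcard12 : Nat.card M₁₂ = 95040 := by
    rw [hEq]
    exact hS.1.2
  refine ⟨?_, ?_, hcard12, ?_, hM11eq⟩
  · rw [hEq]
    exact hS.2.1
  · rw [hEq]
    exact hS.2.2
  · -- orbit-stabiliser
    have horb : MulAction.orbit ↥M₁₂ (2 : Fin 12) = Set.univ := by
      apply Set.eq_univ_of_forall
      intro p
      have hg := ev_mem M₁₂ (w := W0 p) (fun i _ => hg8 i)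
      refine ⟨⟨(ev (W0 p))⁻¹, M₁₂.inv_mem hg⟩, ?_⟩
      change (ev (W0 p))⁻¹ 2 = p
      rw [Equiv.Perm.inv_eq_iff_eq]
      exact (W0_ok p).symm
    have hidx : (MulAction.stabilizer ↥M₁₂ (2 : Fin 12)).index = 12 := by
      rw [MulAction.index_stabilizer, horb, Set.ncard_univ]
      simp
    have hcm := Subgroup.card_mul_index (MulAction.stabilizer ↥M₁₂ (2 : Fin 12))
    rw [hidx, hcard12] at hcm
    have hequiv : ↥(MulAction.stabilizer ↥M₁₂ (2 : Fin 12)) ≃ ↥M₁₁ :=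
      { toFun := fun a => ⟨a.1.1, hM11eq.ge ⟨a.1.2, (hStm _).2 a.2⟩⟩
        invFun := fun b => ⟨⟨b.1, h78 b.2⟩, (hStm _).1 (hM11eq.le b.2).2⟩
        left_inv := fun a => rfl
        right_inv := fun b => rfl }
    rw [← Nat.card_congr hequiv]
    omega

/-- An explicit construction of the Mathieu groups of degrees 11 and 12. On the points 0, …, 11 let s = (3 4 5)(6 7 8)(9 10 11), t = (3 6 9)(4 7 10)(5 8 11), u = (4 6 5 9)(7 8 11 10), v = (4 7 5 11)(6 10 9 8), w = (4 10 5 8)(6 11 9 7), x₁ = (0 3)(6 7)(8 10)(9 11), x₂ = (0 1)(6 9)(7 10)(8 11), x₃ = (1 2)(6 11)(7 9)(8 10) (each written as a product of transpositions). Then the group M₁₂ generated by all eight permutations is sharply 5-transitive on the 12 points and has order 95040, and the group M₁₁ generated by the first seven has order 7920 and is the stabilizer of the point 2 in M₁₂. -/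
theorem result
    (s t u v w x₁ x₂ x₃ : Equiv.Perm (Fin 12))
    (hs : s = Equiv.swap (3 : Fin 12) 5 * Equiv.swap (3 : Fin 12) 4 * Equiv.swap (6 : Fin 12) 8 * Equiv.swap (6 : Fin 12) 7 * Equiv.swap (9 : Fin 12) 11 * Equiv.swap (9 : Fin 12) 10) (ht : t = Equiv.swap (3 : Fin 12) 9 * Equiv.swap (3 : Fin 12) 6 * Equiv.swap (4 : Fin 12) 10 * Equiv.swap (4 : Fin 12) 7 * Equiv.swap (5 : Fin 12) 11 * Equiv.swap (5 : Fin 12) 8)
    (hu : u = Equiv.swap (4 : Fin 12) 9 * Equiv.swap (4 : Fin 12) 5 * Equiv.swap (4 : Fin 12) 6 * Equiv.swap (7 : Fin 12) 10 * Equiv.swap (7 : Fin 12) 11 * Equiv.swap (7 : Fin 12) 8) (hv : v = Equiv.swap (4 : Fin 12) 11 * Equiv.swap (4 : Fin 12) 5 * Equiv.swap (4 : Fin 12) 7 * Equiv.swap (6 : Fin 12) 8 * Equiv.swap (6 : Fin 12) 9 * Equiv.swap (6 : Fin 12) 10) (hw : w = Equiv.swap (4 : Fin 12) 8 * Equiv.swap (4 : Fin 12) 5 * Equiv.swap (4 : Fin 12) 10 * Equiv.swap (6 : Fin 12) 7 *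 Equiv.swap (6 : Fin 12) 9 * Equiv.swap (6 : Fin 12) 11)
    (hx₁ : x₁ = Equiv.swap (0 : Fin 12) 3 * Equiv.swap (6 : Fin 12) 7 * Equiv.swap (8 : Fin 12) 10 * Equiv.swap (9 : Fin 12) 11) (hx₂ : x₂ = Equiv.swap (0 : Fin 12) 1 * Equiv.swap (6 : Fin 12) 9 * Equiv.swap (7 : Fin 12) 10 * Equiv.swap (8 : Fin 12) 11)
    (hx₃ : x₃ = Equiv.swap (1 : Fin 12) 2 * Equiv.swap (6 : Fin 12) 11 * Equiv.swap (7 : Fin 12) 9 * Equiv.swap (8 : Fin 12) 10)
    (M₁₂ M₁₁ : Subgroup (Equiv.Perm (Fin 12))) (hM₁₂ : M₁₂ = Subgroup.closure {s, t, u, v, w, x₁, x₂, x₃})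
    (hM₁₁ : M₁₁ = Subgroup.closure {s, t, u, v, w, x₁, x₂}) :
    MulAction.IsMultiplyPretransitive M₁₂ (Fin 12) 5 ∧ (∀ y : Fin 5 ↪ Fin 12, MulAction.stabilizer M₁₂ y = ⊥) ∧
    Nat.card M₁₂ = 95040 ∧ Nat.card M₁₁ = 7920 ∧
    M₁₁ = M₁₂ ⊓ MulAction.stabilizer (Equiv.Perm (Fin 12)) (2 : Fin 12) := by
  subst hs ht hu hv hw hx₁ hx₂ hx₃
  exact main_aux M₁₂ M₁₁ hM₁₂ hM₁₁

end Cfsg.Agent.S3362
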