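import Cfsg.Statements.S3375
import Mathlib

set_option autoImplicit false
open Cfsg

namespace Cfsg.Agent.S3375

/-- Inversion on an invariant subgroup of index two. -/
theorem inverts_of_invariant {H : Type*} [Group H] [Finite H] (γ : MulAut H)
    (hγ2 : ∀ x, γ (γ x) = x) (hfix : Nat.card {h : H // γ h = h} = 2) (M : Subgroup H)
    (hM : M.index = 2) (hinv : ∀ x ∈ M, γ x ∈ M) : ∀ a ∈ M, γ a = a⁻¹ := by
  classical
  have := Fintype.ofFinite H
  let φ : H → H := fun x => x⁻¹ * γ x
  have hφM : ∀ x, φ x ∈ M := by
    intro x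
    simp only [φ]
    rw [Subgroup.mul_mem_iff_of_index_two hM, inv_mem_iff]
    exact ⟨hinv x, fun h => by simpa [hγ2] using hinv _ h⟩
  have hγφ : ∀ x, γ (φ x) = (φ x)⁻¹ := by
    intro x
    simp only [φ, map_mul, map_inv, hγ2, mul_inv_rev, inv_inv]
  -- the fixed points
  let C : Finset H := Finset.univ.filter fun h => γ h = h
  have hC : C.card = 2 := by
    rw [← hfix, Nat.card_eq_fintype_card, Fintype.card_subtype]
  -- fibres
  have hfib : ∀ b ∈ Finset.univ.image φ, (Finset.univ.filter fun x => φ x = b).card ≤ 2 := by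
    intro b hb
    obtain ⟨x₀, -, rfl⟩ := Finset.mem_image.mp hb
    have hsub : (Finset.univ.filter fun x => φ x = φ x₀) ⊆ C.image (fun c => c * x₀) := by
      intro x hx
      simp only [Finset.mem_filter, Finset.mem_univ, true_and] at hx
      simp only [φ] at hx
      refine Finset.mem_image.mpr ⟨x * x₀⁻¹, ?_, by group⟩
      simp only [C, Finset.mem_filter, Finset.mem_univ, true_and, map_mul, map_inv]
      have h1 : γ x = x * (x₀⁻¹ * γ x₀) := by
        rw [← hx]
        group
      rw [h1]
      group
    calc _ ≤ (C.image (fun c => c * x₀)).card := Finset.card_le_card hsub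
      _ ≤ C.card := Finset.card_image_le
      _ = 2 := hC
  have hle := Finset.card_le_mul_card_image (s := Finset.univ) (f := φ) 2 hfib
  have hcardM := M.index_mul_card
  rw [hM] at hcardM
  let M' : Finset H := Finset.univ.filter fun x => x ∈ M
  have hM' : M'.card = Nat.card M := by
    rw [Nat.card_eq_fintype_card, Fintype.card_subtype]
  have hsub : Finset.univ.image φ ⊆ M' := by
    intro y hy
    obtain ⟨x, -, rfl⟩ := Finset.mem_image.mp hy
    simp [M', hφM x]
  have heq : Finset.univ.image φ = M' := by
    apply Finset.eq_of_subset_of_card_le hsub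
    rw [Finset.card_univ, ← Nat.card_eq_fintype_card, ← hcardM] at hle
    rw [hM']
    omega
  intro a ha
  have : a ∈ M' := by simp [M', ha]
  rw [← heq] at this
  obtain ⟨x, -, rfl⟩ := Finset.mem_image.mp this
  exact hγφ x

/-- Let γ be an automorphism of order 2 of a finite group H. (i) If γ fixes only the identity, then H is abelian and γ inverts every element. (ii) If γ has exactly two fixed points and H has a subgroup of index 2, then H has a γ-invariant abelian subgroup of index 2 on which γ acts by inversion. -/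
theorem result {H : Type*} [Group H] [Finite H] (γ : MulAut H) (hγ : orderOf γ = 2) :
    ((∀ h : H, γ h = h → h = 1) → (∀ a b : H, a * b = b * a) ∧ ∀ h : H, γ h = h⁻¹) ∧
    ((Nat.card {h : H // γ h = h} = 2 ∧ ∃ M : Subgroup H, M.index = 2) →
      ∃ A : Subgroup H, A.index = 2 ∧ IsMulCommutative A ∧ (∀ a ∈ A, γ a ∈ A) ∧ ∀ a ∈ A, γ a = a⁻¹) := by
  classical
  have hγ2 : ∀ x, γ (γ x) = x := by
    intro x
    have h1 : γ ^ 2 = 1 := by rw [← hγ]; exact pow_orderOf_eq_one γ
    have h2 : (γ ^ 2) x = x := by rw [h1]; rfl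
    rwa [pow_two, MulAut.mul_apply] at h2
  have hab : ∀ (S : Subgroup H), (∀ a ∈ S, γ a = a⁻¹) → ∀ a ∈ S, ∀ b ∈ S, a * b = b * a := by
    intro S hS a ha b hb
    have h1 := hS _ (S.mul_mem ha hb)
    rw [map_mul, hS a ha, hS b hb, mul_inv_rev] at h1
    have h2 := congrArg (fun x => x⁻¹) h1
    simp only [mul_inv_rev, inv_inv] at h2
    exact h2.symm
  constructor
  · intro hfix
    have hφ : Function.Injective (fun x : H => x⁻¹ * γ x) := by
      intro x y hxy
      simp only at hxy
      have h1 : γ (y * x⁻¹) = y * x⁻¹ := by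
        have h2 : γ y = y * (x⁻¹ * γ x) := by
          rw [hxy]
          group
        rw [map_mul, map_inv, h2]
        group
      have h3 := hfix _ h1
      rw [mul_inv_eq_one] at h3
      exact h3.symm
    have hsurj := Finite.injective_iff_surjective.mp hφ
    have hinv : ∀ h : H, γ h = h⁻¹ := by
      intro h
      obtain ⟨x, rfl⟩ := hsurj h
      simp [hγ2]
    refine ⟨?_, hinv⟩
    intro a b
    have := hab ⊤ (fun a _ => hinv a) a trivial b trivial
    exact this
  · rintro ⟨hfix, M, hM⟩
    -- an invariant subgroup of index two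
    obtain ⟨A, hA, hAinv⟩ : ∃ A : Subgroup H, A.index = 2 ∧ ∀ x ∈ A, γ x ∈ A := by
      by_cases hinv : ∀ x ∈ M, γ x ∈ M
      · exact ⟨M, hM, hinv⟩
      · push Not at hinv
        obtain ⟨a, ha, hγa⟩ := hinv
        let A : Subgroup H :=
          { carrier := {x | x ∈ M ↔ γ x ∈ M}
            mul_mem' := by
              intro x y hx hy
              simp only [Set.mem_setOf_eq] at hx hy ⊢
              rw [map_mul, Subgroup.mul_mem_iff_of_index_two hM, Subgroup.mul_mem_iff_of_index_two hM]
              tauto
            one_mem' := by simp [M.one_mem]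
            inv_mem' := by
              intro x hx
              simp only [Set.mem_setOf_eq, map_inv, inv_mem_iff] at hx ⊢
              exact hx }
        refine ⟨A, ?_, ?_⟩
        · rw [Subgroup.index_eq_two_iff]
          refine ⟨a, ?_⟩
          intro b
          have hmem : ∀ x, x ∈ A ↔ (x ∈ M ↔ γ x ∈ M) := fun x => Iff.rfl
          rw [hmem, hmem, map_mul, Subgroup.mul_mem_iff_of_index_two hM,
            Subgroup.mul_mem_iff_of_index_two hM]
          simp only [Xor', ha, hγa]
          tauto
        · intro x hx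
          have hx' : x ∈ M ↔ γ x ∈ M := hx
          change γ x ∈ M ↔ γ (γ x) ∈ M
          rw [hγ2]
          exact hx'.symm
    have hi := inverts_of_invariant γ hγ2 hfix A hA hAinv
    refine ⟨A, hA, ⟨⟨fun a b => Subtype.ext (hab A hi a a.2 b b.2)⟩⟩, hAinv, hi⟩

end Cfsg.Agent.S3375
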