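import Cfsg.Statements.S3377
import Mathlib
import Cfsg.Agent.Lib.Cl.Pres

set_option autoImplicit false
open Cfsg

namespace Cfsg.Agent.S3377

/-- The alternating group of degree 5 has the presentation ⟨x, y | x³ = 1, y⁵ = 1, (xy)² = 1⟩: the group so presented is isomorphic to Alt(5). -/
theorem result :
    Nonempty (PresentedGroup ({FreeGroup.of (0 : Fin 2) ^ 3, FreeGroup.of (1 : Fin 2) ^ 5,
        (FreeGroup.of (0 : Fin 2) * FreeGroup.of 1) ^ 2} : Set (FreeGroup (Fin 2))) ≃* alternatingGroup (Fin 5)) := by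
  classical
  let X : alternatingGroup (Fin 5) := ⟨Equiv.swap 1 4 * Equiv.swap 4 2, by
    rw [Equiv.Perm.mem_alternatingGroup]; decide⟩
  let Y : alternatingGroup (Fin 5) := ⟨Equiv.swap 0 1 * Equiv.swap 1 2 * Equiv.swap 2 3 * Equiv.swap 3 4, by
    rw [Equiv.Perm.mem_alternatingGroup]; decide⟩
  have hX3 : X ^ 3 = 1 := by decide
  have hY5 : Y ^ 5 = 1 := by decide
  have hXY : (X * Y) ^ 2 = 1 := by decide
  have hX1 : X ≠ 1 := by decide
  have hY1 : Y ≠ 1 := by decide
  have hXY1 : X * Y ≠ 1 := by decide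
  set rels : Set (FreeGroup (Fin 2)) := {FreeGroup.of (0 : Fin 2) ^ 3, FreeGroup.of (1 : Fin 2) ^ 5,
        (FreeGroup.of (0 : Fin 2) * FreeGroup.of 1) ^ 2} with hrels
  let f : Fin 2 → alternatingGroup (Fin 5) := ![X, Y]
  have hf : ∀ r ∈ rels, FreeGroup.lift f r = 1 := by
    intro r hr
    rcases hr with rfl | rfl | rfl
    · simpa [f] using hX3
    · simpa [f] using hY5
    · simpa [f] using hXY
  let φ : PresentedGroup rels →* alternatingGroup (Fin 5) := PresentedGroup.toGroup hf
  let x : PresentedGroup rels := PresentedGroup.of 0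
  let y : PresentedGroup rels := PresentedGroup.of 1
  have hφx : φ x = X := by simp [φ, x, f]
  have hφy : φ y = Y := by simp [φ, y, f]
  have hrel : ∀ r ∈ rels, PresentedGroup.mk rels r = 1 := by
    intro r hr
    exact (QuotientGroup.eq_one_iff r).2 (Subgroup.subset_normalClosure hr)
  have hx : x ^ 3 = 1 := by
    have := hrel (FreeGroup.of (0 : Fin 2) ^ 3) (by simp [rels])
    simpa [x, PresentedGroup.of] using this
  have hy : y ^ 5 = 1 := by
    have := hrel (FreeGroup.of (1 : Fin 2) ^ 5) (by simp [rels])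
    simpa [y, PresentedGroup.of] using this
  have hxy : (x * y) ^ 2 = 1 := by
    have := hrel ((FreeGroup.of (0 : Fin 2) * FreeGroup.of 1) ^ 2) (by simp [rels])
    simpa [x, y, PresentedGroup.of] using this
  have hgen : Subgroup.closure ({x, y} : Set (PresentedGroup rels)) = ⊤ := by
    rw [eq_top_iff, ← PresentedGroup.closure_range_of]
    apply Subgroup.closure_mono
    rintro _ ⟨i, rfl⟩
    fin_cases i
    · exact Or.inl rfl
    · exact Or.inr rfl
  obtain ⟨hfin, hcard⟩ := Cfsg.Agent.Lib.Cl.Pres.a5_bound x y hx hy hxy hgen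
  have hA : Nat.card (alternatingGroup (Fin 5)) = 60 := by
    rw [Nat.card_eq_fintype_card]; decide
  have hsurj : Function.Surjective φ := by
    rw [← MonoidHom.range_eq_top]
    set I := φ.range with hI
    have hXI : X ∈ I := ⟨x, hφx⟩
    have hYI : Y ∈ I := ⟨y, hφy⟩
    haveI : Fact (Nat.Prime 5) := ⟨by norm_num⟩
    have hoX : orderOf X = 3 := orderOf_eq_prime hX3 hX1
    have hoY : orderOf Y = 5 := orderOf_eq_prime hY5 hY1
    have hoZ : orderOf (X * Y) = 2 := orderOf_eq_prime hXY hXY1
    have d3 : 3 ∣ Nat.card I := by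
      have := Subgroup.orderOf_dvd_natCard I hXI
      rwa [hoX] at this
    have d5 : 5 ∣ Nat.card I := by
      have := Subgroup.orderOf_dvd_natCard I hYI
      rwa [hoY] at this
    have d2 : 2 ∣ Nat.card I := by
      have := Subgroup.orderOf_dvd_natCard I (I.mul_mem hXI hYI)
      rwa [hoZ] at this
    have d30 : 30 ∣ Nat.card I := by
      have h1 : Nat.Coprime 3 5 := by norm_num
      have h2 : Nat.Coprime (3 * 5) 2 := by norm_num
      have := Nat.Coprime.mul_dvd_of_dvd_of_dvd h2 (Nat.Coprime.mul_dvd_of_dvd_of_dvd h1 d3 d5) d2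
      simpa using this
    have e := Subgroup.card_mul_index I
    rw [hA] at e
    obtain ⟨m, hm⟩ := d30
    have hidx : I.index = 1 ∨ I.index = 2 := by
      rw [hm] at e
      have h2 : 30 * (m * I.index) = 60 := by rw [← mul_assoc]; exact e
      have : m * I.index = 2 := by omega
      have h3 : I.index ∣ 2 := ⟨m, by rw [mul_comm]; exact this.symm⟩
      rcases (Nat.dvd_prime Nat.prime_two).1 h3 with h4 | h4
      · exact Or.inl h4
      · exact Or.inr h4
    rcases hidx with h1 | h1
    · exact Subgroup.index_eq_one.1 h1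
    · haveI hn : I.Normal := Subgroup.normal_of_index_eq_two h1
      haveI : IsSimpleGroup (alternatingGroup (Fin 5)) := alternatingGroup.isSimpleGroup (by simp)
      rcases hn.eq_bot_or_eq_top with h2 | h2
      · exfalso
        rw [h2] at hXI
        exact hX1 hXI
      · exact h2
  have hbij : Function.Bijective φ := by
    haveI : Finite (alternatingGroup (Fin 5)) := inferInstance
    exact hsurj.bijective_of_nat_card_le (by rw [hA]; exact hcard)
  exact ⟨MulEquiv.ofBijective φ hbij⟩


end Cfsg.Agent.S3377
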