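import Cfsg.Statements.S3379
import Mathlib

set_option autoImplicit false
open Cfsg

namespace Cfsg.Agent.S3379

/-- A group generated by two commuting elements is commutative. -/
theorem comm_of_closure {Q : Type*} [Group Q] (a b : Q) (hab : a * b = b * a)
    (h : Subgroup.closure ({a, b} : Set Q) = ⊤) : ∀ u v : Q, u * v = v * u := by
  have hS : Subgroup.closure ({a, b} : Set Q) ≤ Subgroup.centralizer ({a, b} : Set Q) := by
    rw [Subgroup.closure_le]
    intro x hx
    rw [SetLike.mem_coe, Subgroup.mem_centralizer_iff]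
    intro y hy
    rcases hx with rfl | rfl <;> rcases hy with rfl | rfl <;>
      first
        | rfl
        | exact hab
        | exact hab.symm
  rw [h] at hS
  have hS2 : Subgroup.closure ({a, b} : Set Q) ≤ Subgroup.center Q := by
    rw [Subgroup.closure_le]
    intro x hx
    rw [SetLike.mem_coe, Subgroup.mem_center_iff]
    intro y
    exact ((Subgroup.mem_centralizer_iff.mp (hS (Subgroup.mem_top y))) x hx).symm
  rw [h] at hS2
  intro u v
  exact (Subgroup.mem_center_iff.mp (hS2 (Subgroup.mem_top v))) u

/-- Let G be a finite group all of whose Sylow subgroups are cyclic. Then G is generated by two elements x and y of coprime orders n and m with x⁻¹yx = y^r, where gcd(r − 1, m) = 1 and r^n ≡ 1 (mod m). -/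
theorem result {G : Type*} [Group G] [Finite G]
    (hZ : ∀ (p : ℕ) [Fact p.Prime] (P : Sylow p G), IsCyclic (P : Subgroup G)) :
    ∃ (x y : G) (n m r : ℕ), Subgroup.closure {x, y} = ⊤ ∧ orderOf x = n ∧ orderOf y = m ∧
      x⁻¹ * y * x = y ^ r ∧ Nat.Coprime (r - 1) m ∧ Nat.Coprime n m ∧ 1 ≤ r ∧ r ^ n % m = 1 % m := by
  classical
  haveI hZG : IsZGroup G := ⟨fun p hp P => by
    haveI : Fact p.Prime := ⟨hp⟩
    exact hZ p P⟩
  obtain ⟨H, hH⟩ := Subgroup.exists_right_complement'_of_coprime
    (IsZGroup.coprime_commutator_index G)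
  have h1 : Abelianization G ≃* H := hH.symm.QuotientMulEquiv
  haveI hHc : IsCyclic H := isCyclic_of_surjective _ h1.surjective
  haveI hCc : IsCyclic (commutator G) := IsZGroup.isCyclic_commutator G
  obtain ⟨x', hx'⟩ := IsCyclic.exists_generator (α := H)
  obtain ⟨y', hy'⟩ := IsCyclic.exists_generator (α := commutator G)
  let x : G := x'
  let y : G := y'
  have hHz : H = Subgroup.zpowers x := by
    apply le_antisymm
    · intro h hh
      obtain ⟨i, hi⟩ := Subgroup.mem_zpowers_iff.mp (hx' ⟨h, hh⟩)
      exact Subgroup.mem_zpowers_iff.mpr ⟨i, congrArg Subtype.val hi⟩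
    · rw [Subgroup.zpowers_le]
      exact x'.2
  have hCz : commutator G = Subgroup.zpowers y := by
    apply le_antisymm
    · intro h hh
      obtain ⟨i, hi⟩ := Subgroup.mem_zpowers_iff.mp (hy' ⟨h, hh⟩)
      exact Subgroup.mem_zpowers_iff.mpr ⟨i, congrArg Subtype.val hi⟩
    · rw [Subgroup.zpowers_le]
      exact y'.2
  have hn : orderOf x = Nat.card H := by
    rw [hHz, Nat.card_zpowers]
  have hm : orderOf y = Nat.card (commutator G) := by
    rw [hCz, Nat.card_zpowers]
  have hm0 : 0 < orderOf y := orderOf_pos y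
  -- conjugation
  have hmem : x⁻¹ * y * x ∈ Subgroup.zpowers y := by
    rw [← hCz]
    have := (inferInstance : (commutator G).Normal).conj_mem y y'.2 x⁻¹
    rwa [inv_inv] at this
  obtain ⟨k, hk⟩ := mem_powers_iff_mem_zpowers.mpr hmem
  simp only at hk
  let r := k + orderOf y
  have hr : x⁻¹ * y * x = y ^ r := by
    rw [pow_add, pow_orderOf_eq_one, mul_one]
    exact hk.symm
  have hr1 : 1 ≤ r := by omega
  have hpow : ∀ j : ℕ, (x ^ j)⁻¹ * y * x ^ j = y ^ (r ^ j) := by
    intro j
    induction j with
    | zero => simp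
    | succ j ih =>
      have e1 : (x ^ (j + 1))⁻¹ * y * x ^ (j + 1) = x⁻¹ * ((x ^ j)⁻¹ * y * x ^ j) * x := by
        rw [pow_succ]; group
      rw [e1, ih]
      have e2 : x⁻¹ * y ^ r ^ j * x = (x⁻¹ * y * x) ^ r ^ j := by
        have := conj_pow (a := x⁻¹) (b := y) (i := r ^ j)
        rw [inv_inv] at this
        exact this.symm
      rw [e2, hr, ← pow_mul, pow_succ, mul_comm (r ^ j) r]
  have hrn : r ^ (orderOf x) % orderOf y = 1 % orderOf y := by
    have h2 := hpow (orderOf x)
    rw [pow_orderOf_eq_one, inv_one, one_mul, mul_one] at h2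
    have h3 : y ^ (r ^ orderOf x) = y ^ 1 := by rw [← h2, pow_one]
    exact (pow_eq_pow_iff_modEq.mp h3)
  -- the closure
  have hclosure : Subgroup.closure {x, y} = ⊤ := by
    have h2 := hH.sup_eq_top
    rw [eq_top_iff, ← h2, sup_le_iff]
    constructor
    · rw [hCz, Subgroup.zpowers_le]
      exact Subgroup.subset_closure (by simp)
    · rw [hHz, Subgroup.zpowers_le]
      exact Subgroup.subset_closure (by simp)
  -- the coprimality
  have hgcd : Nat.Coprime (r - 1) (orderOf y) := by
    let w := y ^ (r - 1)
    let D : Subgroup G := Subgroup.zpowers w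
    haveI hDn : D.Normal := by
      constructor
      intro n hn g
      obtain ⟨i, rfl⟩ := Subgroup.mem_zpowers_iff.mp hn
      have h3 : g * y * g⁻¹ ∈ Subgroup.zpowers y := by
        rw [← hCz]
        exact (inferInstance : (commutator G).Normal).conj_mem y y'.2 g
      obtain ⟨s, hs⟩ := mem_powers_iff_mem_zpowers.mpr h3
      simp only at hs
      have h4 : g * w ^ i * g⁻¹ = (g * w * g⁻¹) ^ i := (conj_zpow).symm
      rw [h4]
      have h5 : g * w * g⁻¹ = w ^ s := by
        have h6 : g * y ^ (r - 1) * g⁻¹ = (g * y * g⁻¹) ^ (r - 1) := (conj_pow).symm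
        change g * y ^ (r - 1) * g⁻¹ = (y ^ (r - 1)) ^ s
        rw [h6, ← hs, ← pow_mul, ← pow_mul, mul_comm]
      rw [h5]
      exact Subgroup.zpow_mem _ (Subgroup.pow_mem _ (Subgroup.mem_zpowers w) s) i
    have hcomm : commutator G ≤ D := by
      apply Subgroup.Normal.quotient_commutative_iff_commutator_le.mp
      refine ⟨⟨fun a b => ?_⟩⟩
      refine comm_of_closure (QuotientGroup.mk' D x) (QuotientGroup.mk' D y) ?_ ?_ a b
      · -- the images of `x` and `y` commute
        have h3 : y⁻¹ * (x⁻¹ * y * x) = w := by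
          rw [hr]
          change y⁻¹ * y ^ r = y ^ (r - 1)
          have : r = (r - 1) + 1 := by omega
          conv_lhs => rw [this, pow_succ']
          rw [inv_mul_cancel_left]
        have h4 : (x * y)⁻¹ * (y * x) ∈ D := by
          have : (x * y)⁻¹ * (y * x) = y⁻¹ * (x⁻¹ * y * x) := by group
          rw [this, h3]
          exact Subgroup.mem_zpowers w
        rw [← map_mul, ← map_mul]
        exact (QuotientGroup.eq).mpr h4
      · have := Subgroup.map_top_of_surjective (QuotientGroup.mk' D) (QuotientGroup.mk'_surjective D)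
        rw [← hclosure, MonoidHom.map_closure, Set.image_pair] at this
        exact this
    have hyD : y ∈ D := hcomm y'.2
    have hcard : orderOf w = orderOf y := by
      apply le_antisymm
      · rw [orderOf_pow]; exact Nat.div_le_self _ _
      · have h3 : Subgroup.zpowers y ≤ D := by
          rw [Subgroup.zpowers_le]; exact hyD
        have h4 := Subgroup.card_le_of_le h3
        rw [Nat.card_zpowers, Nat.card_zpowers] at h4
        exact h4
    rw [orderOf_pow] at hcard
    have h5 : (orderOf y).gcd (r - 1) = 1 := by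
      rcases Nat.div_eq_self.mp hcard with h6 | h6
      · omega
      · exact h6
    exact Nat.Coprime.symm h5
  refine ⟨x, y, orderOf x, orderOf y, r, hclosure, rfl, rfl, hr, hgcd, ?_, hr1, hrn⟩
  rw [hn, hm]
  have h2 : Nat.card H = (commutator G).index := hH.symm.index_eq_card.symm
  rw [h2]
  exact (IsZGroup.coprime_commutator_index G).symm

end Cfsg.Agent.S3379
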