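import Cfsg.Statements.S3381
import Mathlib

set_option autoImplicit false
open Cfsg

namespace Cfsg.Agent.S3381

section aux

variable {q : ℕ} [hq : Fact q.Prime] {V : Type*} [AddCommGroup V] [Module (ZMod q) V]
  {G : Type*} [Group G] (ρ : G →* (V ≃ₗ[ZMod q] V))

/-- Fixed vectors. -/
def Fx (t : G) : Submodule (ZMod q) V := LinearMap.ker ((ρ t).toLinearMap - LinearMap.id)

theorem mem_Fx {t : G} {v : V} : v ∈ Fx ρ t ↔ ρ t v = v := by
  simp [Fx, sub_eq_zero]

theorem stab_unique [Finite G] (hstab : ∀ v : V, v ≠ 0 → Nat.card {g : G // ρ g v = v} = 2) {v : V}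
    (hv : v ≠ 0) {s t : G} (hs : s ≠ 1) (ht : t ≠ 1) (hsv : ρ s v = v) (htv : ρ t v = v) :
    s = t := by
  obtain ⟨x, y, hxy, huniv⟩ := Nat.card_eq_two_iff.mp (hstab v hv)
  have mem : ∀ g : {g : G // ρ g v = v}, g.1 = x.1 ∨ g.1 = y.1 := by
    intro g
    have : g ∈ ({x, y} : Set {g : G // ρ g v = v}) := by rw [huniv]; trivial
    rcases this with h | h
    · left; exact congrArg Subtype.val h
    · right; exact congrArg Subtype.val h
  have h1 := mem ⟨1, by simp⟩
  have h2 := mem ⟨s, hsv⟩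
  have h3 := mem ⟨t, htv⟩
  simp only at h1 h2 h3
  rcases h1 with h1 | h1 <;> rcases h2 with h2 | h2 <;> rcases h3 with h3 | h3 <;>
    first
      | exact absurd (h2.trans h1.symm) hs
      | exact absurd (h3.trans h1.symm) ht
      | exact h2.trans h3.symm

theorem exists_stab (hstab : ∀ v : V, v ≠ 0 → Nat.card {g : G // ρ g v = v} = 2) {v : V}
    (hv : v ≠ 0) : ∃ t : G, t ≠ 1 ∧ ρ t v = v := by
  obtain ⟨x, y, hxy, -⟩ := Nat.card_eq_two_iff.mp (hstab v hv)
  by_cases hx : x.1 = 1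
  · refine ⟨y.1, ?_, y.2⟩
    intro hy
    exact hxy (Subtype.ext (hx.trans hy.symm))
  · exact ⟨x.1, hx, x.2⟩

theorem involution_of_stab [Finite G] (hstab : ∀ v : V, v ≠ 0 → Nat.card {g : G // ρ g v = v} = 2)
    {v : V} (hv : v ≠ 0) {t : G} (ht : t ≠ 1) (htv : ρ t v = v) : t * t = 1 := by
  by_contra hne
  have h1 : ρ (t * t) v = v := by
    rw [map_mul, LinearEquiv.mul_apply, htv, htv]
  have h2 := stab_unique ρ hstab hv hne ht h1 htv
  exact ht (mul_eq_left.mp h2)

theorem rr {t : G} (ht : t * t = 1) (x : V) : ρ t (ρ t x) = x := by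
  rw [← LinearEquiv.mul_apply, ← map_mul, ht, map_one]
  rfl

theorem q_ne_two [Finite G] (hρ : Function.Injective ρ)
    (hstab : ∀ v : V, v ≠ 0 → Nat.card {g : G // ρ g v = v} = 2) (z : G) (hz : z * z = 1)
    (hz1 : z ≠ 1) (hzc : ∀ g, g * z = z * g) : q ≠ 2 := by
  intro h2
  subst h2
  have hchar : ∀ v : V, v + v = 0 := by
    intro v
    have h1 : (1 + 1 : ZMod 2) • v = v + v := by rw [add_smul, one_smul]
    have h : (1 + 1 : ZMod 2) = 0 := CharTwo.add_self_eq_zero 1
    rw [← h1, h, zero_smul]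
  obtain ⟨u, hu⟩ : ∃ u, ρ z u ≠ u := by
    by_contra hcon
    push_neg at hcon
    apply hz1
    apply hρ
    rw [map_one]
    ext v
    exact hcon v
  have hw₀ : u + ρ z u ≠ 0 := by
    intro h
    apply hu
    exact add_left_cancel (h.trans (hchar u).symm)
  have hzw : ρ z (u + ρ z u) = u + ρ z u := by
    rw [map_add, rr ρ hz, add_comm]
  have hu0 : u ≠ 0 := by
    intro h
    apply hu
    rw [h, map_zero]
  obtain ⟨t, ht1, htu⟩ := exists_stab ρ hstab hu0
  have htt := involution_of_stab ρ hstab hu0 ht1 htu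
  have htz : t ≠ z := by
    intro h
    rw [h] at htu
    exact hu htu
  have hcomm : ∀ x, ρ z (ρ t x) = ρ t (ρ z x) := by
    intro x
    rw [← LinearEquiv.mul_apply, ← LinearEquiv.mul_apply, ← map_mul, ← map_mul, hzc t]
  set w₀ := u + ρ z u with hw₀def
  by_cases hw' : w₀ + ρ t w₀ = 0
  · have hfix : ρ t w₀ = w₀ := add_left_cancel (hw'.trans (hchar w₀).symm)
    exact htz (stab_unique ρ hstab hw₀ ht1 hz1 hfix hzw)
  · have hfix_t : ρ t (w₀ + ρ t w₀) = w₀ + ρ t w₀ := by
      rw [map_add, rr ρ htt, add_comm]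
    have hfix_z : ρ z (w₀ + ρ t w₀) = w₀ + ρ t w₀ := by
      rw [map_add, hzw, hcomm, hzw]
    exact htz (stab_unique ρ hstab hw' ht1 hz1 hfix_t hfix_z)

theorem two_cancel (h2 : q ≠ 2) (v : V) (h : v + v = 0) : v = 0 := by
  have h20 : (2 : ZMod q) ≠ 0 := by
    intro h0
    have : ((2 : ℕ) : ZMod q) = 0 := by exact_mod_cast h0
    rw [ZMod.natCast_eq_zero_iff] at this
    exact h2 ((Nat.prime_dvd_prime_iff_eq hq.out Nat.prime_two).mp this)
  have h3 : (2 : ZMod q) • v = 0 := by rw [two_smul, h]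
  exact (smul_eq_zero.mp h3).resolve_left h20

theorem central_neg [Finite G] (h2 : q ≠ 2) (hρ : Function.Injective ρ)
    (hstab : ∀ v : V, v ≠ 0 → Nat.card {g : G // ρ g v = v} = 2) (z : G) (hz : z * z = 1)
    (hz1 : z ≠ 1) (hzc : ∀ g, g * z = z * g) (v : V) : ρ z v = -v := by
  by_contra hv
  have hodd := two_cancel (q := q) (V := V) h2
  have ha0 : v + ρ z v ≠ 0 := by
    intro h
    exact hv (eq_neg_of_add_eq_zero_right h)
  have hza : ρ z (v + ρ z v) = v + ρ z v := by
    rw [map_add, rr ρ hz, add_comm]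
  obtain ⟨u, hu⟩ : ∃ u, ρ z u ≠ u := by
    by_contra hcon
    push_neg at hcon
    apply hz1
    apply hρ
    rw [map_one]
    ext v
    exact hcon v
  have hb0 : u - ρ z u ≠ 0 := by
    intro h
    exact hu (sub_eq_zero.mp h).symm
  have hzb : ρ z (u - ρ z u) = -(u - ρ z u) := by
    rw [map_sub, rr ρ hz]
    abel
  generalize v + ρ z v = a at ha0 hza
  generalize u - ρ z u = b at hb0 hzb
  have hc0 : a + b ≠ 0 := by
    intro h
    have h3 : ρ z (a + b) = 0 := by rw [h, map_zero]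
    rw [map_add, hza, hzb] at h3
    apply ha0
    apply hodd
    have : a + a = (a + b) + (a + -b) := by abel
    rw [this, h, h3, add_zero]
  obtain ⟨t, ht1, htc⟩ := exists_stab ρ hstab hc0
  have hcomm : ∀ x, ρ z (ρ t x) = ρ t (ρ z x) := by
    intro x
    rw [← LinearEquiv.mul_apply, ← LinearEquiv.mul_apply, ← map_mul, ← map_mul, hzc t]
  have h4 : ρ t a + ρ t b = a + b := by rw [← map_add, htc]
  have h5 : ρ t a - ρ t b = a - b := by
    have h6 := congrArg (ρ z) h4
    rw [map_add, map_add, hcomm, hcomm, hza, hzb, map_neg] at h6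
    rw [sub_eq_add_neg, sub_eq_add_neg]
    exact h6
  have h7 : ρ t a = a := by
    have h8 : (ρ t a - a) + (ρ t a - a) = 0 := by
      have : (ρ t a - a) + (ρ t a - a) = (ρ t a + ρ t b - (a + b)) + (ρ t a - ρ t b - (a - b)) := by
        abel
      rw [this, h4, h5]
      abel
    exact sub_eq_zero.mp (hodd _ h8)
  have htz : t = z := stab_unique ρ hstab ha0 ht1 hz1 h7 hza
  subst htz
  have h9 : ρ t (a + b) = a + -b := by rw [map_add, hza, hzb]
  rw [htc] at h9
  apply hb0
  apply hodd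
  have h10 := add_left_cancel h9
  have : b + b = b - -b := by abel
  rw [this, sub_eq_zero]
  exact h10

theorem card_mul_le {A B : Submodule (ZMod q) V} [Finite V] (h : A ⊓ B = ⊥) :
    Nat.card A * Nat.card B ≤ Nat.card V := by
  rw [← Nat.card_prod]
  apply Nat.card_le_card_of_injective (fun p : A × B => (p.1 : V) + p.2)
  rintro ⟨a, b⟩ ⟨a', b'⟩ he
  simp only at he
  have h1 : (a : V) - a' ∈ A ⊓ B := by
    refine Submodule.mem_inf.mpr ⟨A.sub_mem a.2 a'.2, ?_⟩
    have : (a : V) - a' = (b' : V) - b := by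
      rw [sub_eq_sub_iff_add_eq_add, he, add_comm]
    rw [this]
    exact B.sub_mem b'.2 b.2
  rw [h, Submodule.mem_bot, sub_eq_zero] at h1
  have h2 : (a : V) = a' := h1
  have h3 : (b : V) = b' := by
    rw [h2] at he
    exact add_left_cancel he
  exact Prod.ext (Subtype.ext h2) (Subtype.ext h3)

theorem card_mul_eq {A B : Submodule (ZMod q) V} [Finite V] (h : A ⊓ B = ⊥)
    (h2 : ∀ v : V, ∃ a ∈ A, ∃ b ∈ B, a + b = v) :
    Nat.card A * Nat.card B = Nat.card V := by
  apply le_antisymm (card_mul_le h)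
  rw [← Nat.card_prod]
  apply Nat.card_le_card_of_surjective (fun p : A × B => (p.1 : V) + p.2)
  intro v
  obtain ⟨a, ha, b, hb, rfl⟩ := h2 v
  exact ⟨(⟨a, ha⟩, ⟨b, hb⟩), rfl⟩

theorem card_nonzero {A : Submodule (ZMod q) V} [Finite V] :
    Nat.card {v : V // v ∈ A ∧ v ≠ 0} + 1 = Nat.card A := by
  have h1 : Nat.card {v : V // v ∈ A ∧ v ≠ 0} = Set.ncard ((A : Set V) \ {0}) := by
    rw [← Nat.card_coe_set_eq]
    rfl
  have h2 : Nat.card A = Set.ncard (A : Set V) := by
    rw [← Nat.card_coe_set_eq]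
    rfl
  rw [h1, h2]
  exact Set.ncard_diff_singleton_add_one A.zero_mem (Set.toFinite _)

end aux

/-- Let G be a finite group acting faithfully and linearly on a non-trivial finite vector space V over the field with q elements (q prime) so that every non-zero vector has a stabilizer of order 2, and suppose G has a central involution. Then V has q^(2r) elements for some r and G contains exactly q^r + 1 non-central involutions. -/
theorem result
    (q : ℕ) [Fact q.Prime] {V : Type*} [AddCommGroup V] [Module (ZMod q) V] [Finite V] [Nontrivial V]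
    {G : Type*} [Group G] [Finite G] (ρ : G →* (V ≃ₗ[ZMod q] V)) (hρ : Function.Injective ρ)
    (hstab : ∀ v : V, v ≠ 0 → Nat.card {g : G // ρ g v = v} = 2)
    (z : G) (hz : orderOf z = 2) (hzc : z ∈ Subgroup.center G) :
    ∃ r : ℕ, Nat.card V = q ^ (2 * r) ∧
      Nat.card {g : G // orderOf g = 2 ∧ g ∉ Subgroup.center G} = q ^ r + 1 := by
  classical
  haveI : Fintype G := Fintype.ofFinite G
  have hzz : z * z = 1 := by rw [← pow_two, ← hz, pow_orderOf_eq_one]
  have hz1 : z ≠ 1 := by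
    intro h
    rw [h, orderOf_one] at hz
    omega
  have hzcc : ∀ g, g * z = z * g := fun g => (Subgroup.mem_center_iff.mp hzc g)
  have hq2 : q ≠ 2 := q_ne_two ρ hρ hstab z hzz hz1 hzcc
  have hodd := two_cancel (q := q) (V := V) hq2
  have h20 : (2 : ZMod q) ≠ 0 := by
    intro h0
    have : ((2 : ℕ) : ZMod q) = 0 := by exact_mod_cast h0
    rw [ZMod.natCast_eq_zero_iff] at this
    exact hq2 ((Nat.prime_dvd_prime_iff_eq (Fact.out : q.Prime) Nat.prime_two).mp this)
  have hzneg := central_neg ρ hq2 hρ hstab z hzz hz1 hzcc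
  let I := {g : G // orderOf g = 2 ∧ g ∉ Subgroup.center G}
  have hIinv : ∀ t : I, t.1 * t.1 = 1 := by
    intro t
    have := pow_orderOf_eq_one t.1
    rw [t.2.1, pow_two] at this
    exact this
  have hI1 : ∀ t : I, t.1 ≠ 1 := by
    intro t h
    have := t.2.1
    rw [h, orderOf_one] at this
    omega
  -- each non-zero vector has a stabilizer in `I`
  have hexI : ∀ v : V, v ≠ 0 → ∃ t : I, ρ t.1 v = v := by
    intro v hv
    obtain ⟨t, ht1, htv⟩ := exists_stab ρ hstab hv
    have htt := involution_of_stab ρ hstab hv ht1 htv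
    refine ⟨⟨t, orderOf_eq_prime (by rw [pow_two, htt]) ht1, ?_⟩, htv⟩
    intro hc
    have h1 := central_neg ρ hq2 hρ hstab t htt ht1 (fun g => Subgroup.mem_center_iff.mp hc g) v
    rw [htv] at h1
    apply hv
    apply hodd
    nth_rewrite 1 [h1]
    simp
  have hIuniq : ∀ (s t : I) (v : V), v ≠ 0 → ρ s.1 v = v → ρ t.1 v = v → s = t := by
    intro s t v hv hs ht
    exact Subtype.ext (stab_unique ρ hstab hv (hI1 s) (hI1 t) hs ht)
  -- `z t`
  have hne : ∀ t : I, t.1 ≠ z := fun t h => t.2.2 (h ▸ hzc)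
  have hzt : ∀ t : I, orderOf (z * t.1) = 2 ∧ z * t.1 ∉ Subgroup.center G := by
    intro t
    constructor
    · refine orderOf_eq_prime ?_ ?_
      · have : (z * t.1) ^ 2 = (z * z) * (t.1 * t.1) := by
          rw [pow_two, mul_assoc, ← mul_assoc t.1, hzcc t.1]
          group
        rw [this, hzz, hIinv, one_mul]
      · intro h
        have h1 : t.1 = z := by
          have := eq_inv_of_mul_eq_one_right h
          rw [this, inv_eq_of_mul_eq_one_left hzz]
        exact hne t h1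
    · intro h
      apply t.2.2
      have h1 : t.1 = z⁻¹ * (z * t.1) := by group
      rw [h1]
      exact Subgroup.mul_mem _ (Subgroup.inv_mem _ hzc) h
  let bar : I → I := fun t => ⟨z * t.1, hzt t⟩
  have hbar : ∀ (t : I) (v : V), ρ (bar t).1 v = -ρ t.1 v := by
    intro t v
    change ρ (z * t.1) v = _
    rw [map_mul, LinearEquiv.mul_apply, hzneg]
  have hinf : ∀ s t : I, s ≠ t → Fx ρ s.1 ⊓ Fx ρ t.1 = ⊥ := by
    intro s t hst
    rw [eq_bot_iff]
    intro v hv
    rw [Submodule.mem_bot]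
    by_contra hv0
    have hv' := Submodule.mem_inf.mp hv
    exact hst (hIuniq s t v hv0 ((mem_Fx ρ).mp hv'.1) ((mem_Fx ρ).mp hv'.2))
  have hbarne : ∀ t : I, t ≠ bar t := by
    intro t h
    have h1 : t.1 = z * t.1 := congrArg Subtype.val h
    exact hz1 (mul_eq_right.mp h1.symm)
  have hbarbar : ∀ t : I, bar (bar t) = t := by
    intro t
    apply Subtype.ext
    change z * (z * t.1) = t.1
    rw [← mul_assoc, hzz, one_mul]
  have hsum : ∀ t : I, Nat.card (Fx ρ t.1) * Nat.card (Fx ρ (bar t).1) = Nat.card V := by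
    intro t
    apply card_mul_eq (hinf t (bar t) (hbarne t))
    intro v
    refine ⟨(2 : ZMod q)⁻¹ • (v + ρ t.1 v), ?_, (2 : ZMod q)⁻¹ • (v - ρ t.1 v), ?_, ?_⟩
    · rw [mem_Fx, map_smul, map_add, rr ρ (hIinv t), add_comm]
    · rw [mem_Fx, hbar, map_smul, map_sub, rr ρ (hIinv t), ← smul_neg, neg_sub]
    · rw [← smul_add]
      have : v + ρ t.1 v + (v - ρ t.1 v) = (2 : ZMod q) • v := by
        rw [two_smul]; abel
      rw [this, smul_smul, inv_mul_cancel₀ h20, one_smul]
  have hnz : ∀ t : I, ∃ a ∈ Fx ρ t.1, a ≠ 0 := by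
    intro t
    by_contra hcon
    push_neg at hcon
    apply hne t
    apply hρ
    ext u
    have h1 : u + ρ t.1 u ∈ Fx ρ t.1 := by
      rw [mem_Fx, map_add, rr ρ (hIinv t), add_comm]
    have h2 := hcon _ h1
    rw [hzneg]
    exact eq_neg_of_add_eq_zero_right h2
  have hother : ∀ t : I, ∃ t' : I, t' ≠ t ∧ t' ≠ bar t := by
    intro t
    obtain ⟨a, ha, ha0⟩ := hnz t
    obtain ⟨b, hb, hb0⟩ := hnz (bar t)
    have hab : a + b ≠ 0 := by
      intro h
      have h1 : a = -b := eq_neg_of_add_eq_zero_left h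
      have h2 : a ∈ Fx ρ t.1 ⊓ Fx ρ (bar t).1 := by
        refine Submodule.mem_inf.mpr ⟨ha, ?_⟩
        rw [h1]
        exact Submodule.neg_mem _ hb
      rw [hinf t (bar t) (hbarne t), Submodule.mem_bot] at h2
      exact ha0 h2
    obtain ⟨t', ht'⟩ := hexI _ hab
    refine ⟨t', ?_, ?_⟩
    · rintro rfl
      have h1 : ρ t'.1 b = b := by
        rw [map_add, (mem_Fx ρ).mp ha] at ht'
        exact add_left_cancel ht'
      have h2 : b ∈ Fx ρ t'.1 ⊓ Fx ρ (bar t').1 :=
        Submodule.mem_inf.mpr ⟨(mem_Fx ρ).mpr h1, hb⟩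
      rw [hinf t' (bar t') (hbarne t'), Submodule.mem_bot] at h2
      exact hb0 h2
    · rintro rfl
      have h1 : ρ (bar t).1 a = a := by
        rw [map_add, (mem_Fx ρ).mp hb] at ht'
        exact add_right_cancel ht'
      have h2 : a ∈ Fx ρ t.1 ⊓ Fx ρ (bar t).1 :=
        Submodule.mem_inf.mpr ⟨ha, (mem_Fx ρ).mpr h1⟩
      rw [hinf t (bar t) (hbarne t), Submodule.mem_bot] at h2
      exact ha0 h2
  have hsq : ∀ t : I, Nat.card (Fx ρ t.1) * Nat.card (Fx ρ t.1) = Nat.card V := by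
    intro t
    obtain ⟨t', h1, h2⟩ := hother t
    have hpos : ∀ u : I, 0 < Nat.card (Fx ρ u.1) := fun u => Nat.card_pos
    have e1 := card_mul_le (hinf t' t h1)
    have e2 := card_mul_le (hinf t' (bar t) h2)
    have e3 := card_mul_le (hinf t t' h1.symm)
    have e4 := card_mul_le (hinf t (bar t') (by
      rintro rfl
      apply h2
      exact (hbarbar t').symm))
    have e5 := card_mul_le (hinf (bar t) t' h2.symm)
    have e6 := card_mul_le (hinf (bar t) (bar t') (by
      intro h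
      apply h1
      have := congrArg bar h
      rw [hbarbar, hbarbar] at this
      exact this.symm))
    have s1 := hsum t
    have s2 := hsum t'
    -- `a t' ≤ a (bar t)`
    have i1 : Nat.card (Fx ρ t'.1) ≤ Nat.card (Fx ρ (bar t).1) := by
      rw [← s1, mul_comm (Nat.card (Fx ρ t.1))] at e1
      exact Nat.le_of_mul_le_mul_right e1 (hpos t)
    have i2 : Nat.card (Fx ρ t'.1) ≤ Nat.card (Fx ρ t.1) := by
      rw [← s1] at e2
      exact Nat.le_of_mul_le_mul_right e2 (hpos (bar t))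
    have i3 : Nat.card (Fx ρ t.1) ≤ Nat.card (Fx ρ t'.1) := by
      rw [← s2] at e4
      exact Nat.le_of_mul_le_mul_right e4 (hpos (bar t'))
    have i4 : Nat.card (Fx ρ (bar t).1) ≤ Nat.card (Fx ρ t'.1) := by
      rw [← s2] at e6
      exact Nat.le_of_mul_le_mul_right e6 (hpos (bar t'))
    have i5 : Nat.card (Fx ρ (bar t).1) = Nat.card (Fx ρ t.1) := by omega
    rw [← s1, i5]
  obtain ⟨v₀, hv₀⟩ := exists_ne (0 : V)
  obtain ⟨t₀, ht₀⟩ := hexI v₀ hv₀
  have hconst : ∀ t : I, Nat.card (Fx ρ t.1) = Nat.card (Fx ρ t₀.1) := by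
    intro t
    apply Nat.mul_self_inj.mp
    rw [hsq, hsq]
  let r := Module.finrank (ZMod q) (Fx ρ t₀.1)
  have ha : Nat.card (Fx ρ t₀.1) = q ^ r := by
    rw [Module.natCard_eq_pow_finrank (K := ZMod q), Nat.card_zmod]
  refine ⟨r, ?_, ?_⟩
  · rw [← hsq t₀, ha, ← pow_add, two_mul]
  -- the count
  have hcount : Nat.card {v : V // v ≠ 0} + 1 = Nat.card V := by
    have h1 : Nat.card {v : V // v ≠ 0} = Set.ncard ((Set.univ : Set V) \ {0}) := by
      rw [← Nat.card_coe_set_eq]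
      apply Nat.card_congr
      exact ⟨fun v => ⟨v.1, trivial, v.2⟩, fun v => ⟨v.1, v.2.2⟩, fun _ => rfl, fun _ => rfl⟩
    have h2 : Nat.card V = Set.ncard (Set.univ : Set V) := by
      rw [Set.ncard_univ]
    rw [h1, h2]
    exact Set.ncard_diff_singleton_add_one (Set.mem_univ _) (Set.toFinite _)
  choose τ hτ using (fun v : {v : V // v ≠ 0} => hexI v.1 v.2)
  let e : {v : V // v ≠ 0} ≃ Σ t : I, {v : V // v ∈ Fx ρ t.1 ∧ v ≠ 0} :=
    { toFun := fun v => ⟨τ v, v.1, (mem_Fx ρ).mpr (hτ v), v.2⟩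
      invFun := fun p => ⟨p.2.1, p.2.2.2⟩
      left_inv := fun v => rfl
      right_inv := by
        rintro ⟨t, v, hv, hv0⟩
        have h1 : τ ⟨v, hv0⟩ = t := hIuniq _ _ v hv0 (hτ ⟨v, hv0⟩) ((mem_Fx ρ).mp hv)
        subst h1
        rfl }
  have hc2 := Nat.card_congr e
  haveI : Fintype I := Fintype.ofFinite I
  rw [Nat.card_sigma] at hc2
  have hc3 : ∀ t : I, Nat.card {v : V // v ∈ Fx ρ t.1 ∧ v ≠ 0} + 1 = q ^ r := by
    intro t
    rw [card_nonzero, hconst, ha]
  have hc4 : ∑ t : I, Nat.card {v : V // v ∈ Fx ρ t.1 ∧ v ≠ 0} = Fintype.card I * (q ^ r - 1) := by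
    rw [Finset.sum_congr rfl (g := fun _ => q ^ r - 1), Finset.sum_const, Finset.card_univ, smul_eq_mul]
    · intro t _
      have := hc3 t
      omega
  rw [hc4] at hc2
  have hq2' : 2 ≤ q ^ r := by
    have h1 : 1 < Nat.card (Fx ρ t₀.1) := by
      obtain ⟨a, ha', ha0⟩ := hnz t₀
      haveI : Nontrivial (Fx ρ t₀.1) := ⟨⟨⟨a, ha'⟩, 0, fun h => ha0 (congrArg Subtype.val h)⟩⟩
      exact Finite.one_lt_card
    rw [ha] at h1
    omega
  have hV : Nat.card V = q ^ r * q ^ r := by rw [← hsq t₀, ha]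
  rw [Nat.card_eq_fintype_card (α := I)]
  -- `a² - 1 = |I| (a - 1)`
  have h3 : (Fintype.card I) * (q ^ r - 1) + 1 = q ^ r * q ^ r := by
    rw [← hc2, hcount, hV]
  obtain ⟨A, hA⟩ : ∃ A, q ^ r = A + 1 := ⟨q ^ r - 1, by omega⟩
  rw [hA] at h3 hq2' ⊢
  simp only [Nat.add_sub_cancel] at h3
  have hA0 : 0 < A := by omega
  have h4 : Fintype.card I * A = (A + 1 + 1) * A := by nlinarith
  exact Nat.eq_of_mul_eq_mul_right hA0 h4

end Cfsg.Agent.S3381
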