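import Cfsg.Statements.S3383
import Mathlib

set_option autoImplicit false
open Cfsg

namespace Cfsg.Agent.S3383

open scoped Pointwise in
theorem mem_conj_smul {L : Type*} [Group L] (H : Subgroup L) (g x : L) :
    x ∈ MulAut.conj g • H ↔ g⁻¹ * x * g ∈ H := by
  rw [Subgroup.mem_pointwise_smul_iff_inv_smul_mem]
  simp [MulAut.smul_def, MulAut.conj_inv_apply]

open scoped Pointwise in
theorem normal_dichotomy {L : Type*} [Group L] [Finite L]
    (H : Subgroup L) (hH : Cfsg.IsFrobeniusComplement H)
    (K : Subgroup L) (hK : (K : Set L) = Cfsg.frobeniusKernel H) (N : Subgroup L) (hN : N.Normal) :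
    K ≤ N ∨ N ≤ K := by
  classical
  have hmem : ∀ x : L, x ∈ K ↔ x = 1 ∨ ∀ g : L, g⁻¹ * x * g ∉ H := by
    intro x
    have : x ∈ K ↔ x ∈ (K : Set L) := Iff.rfl
    rw [this, hK]
    simp only [Cfsg.frobeniusKernel, Set.mem_setOf_eq, mem_conj_smul]
  by_cases hNK : N ≤ K
  · exact Or.inr hNK
  left
  -- an element of `N ∩ H`
  obtain ⟨y₀, hy₀N, hy₀K⟩ := SetLike.not_le_iff_exists.mp hNK
  rw [hmem] at hy₀K
  push Not at hy₀K
  obtain ⟨hy₀1, g, hg⟩ := hy₀K
  set y := g⁻¹ * y₀ * g with hy
  have hyN : y ∈ N := by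
    have := hN.conj_mem y₀ hy₀N g⁻¹
    simpa using this
  have hy1 : y ≠ 1 := by
    intro h
    apply hy₀1
    have : g * y * g⁻¹ = y₀ := by rw [hy]; group
    rw [← this, h]
    simp
  have hKn : K.Normal := by
    constructor
    intro n hn c
    rw [hmem] at hn ⊢
    rcases hn with rfl | hn
    · left; simp
    · right
      intro d
      have := hn (c⁻¹ * d)
      simpa [mul_assoc] using this
  -- the commutator map
  have hinter : ∀ u ∈ K, u * y * u⁻¹ = y → u = 1 := by
    intro u huK hu
    by_contra hu1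
    have huH : u ∈ H := by
      by_contra huH
      have h1 := hH.2.2 u huH
      have h2 : y ∈ H ⊓ (MulAut.conj u • H) := by
        refine Subgroup.mem_inf.mpr ⟨hg, ?_⟩
        rw [mem_conj_smul]
        have : u⁻¹ * y * u = y := by
          calc u⁻¹ * y * u = u⁻¹ * (u * y * u⁻¹) * u := by rw [hu]
            _ = y := by group
        rw [this]
        exact hg
      rw [h1, Subgroup.mem_bot] at h2
      exact hy1 h2
    have := ((hmem u).mp huK).resolve_left hu1 1
    apply this
    simpa using huH
  let f : K → (K ⊓ N : Subgroup L) := fun k =>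
    ⟨y⁻¹ * (k : L)⁻¹ * y * k, by
      constructor
      · have h1 : y⁻¹ * (k : L)⁻¹ * y ∈ K := by
          have := hKn.conj_mem _ (K.inv_mem k.2) y⁻¹
          simpa using this
        exact K.mul_mem h1 k.2
      · have h1 : (k : L)⁻¹ * y * k ∈ N := by
          have := hN.conj_mem y hyN (k : L)⁻¹
          simpa using this
        have h2 := N.mul_mem (N.inv_mem hyN) h1
        simpa [mul_assoc] using h2⟩
  have hf : Function.Injective f := by
    intro a b hab
    have h1 : y⁻¹ * (a : L)⁻¹ * y * a = y⁻¹ * (b : L)⁻¹ * y * b := congrArg Subtype.val hab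
    have h2 : (a : L)⁻¹ * y * a = (b : L)⁻¹ * y * b := by
      have h3 : y⁻¹ * ((a : L)⁻¹ * y * a) = y⁻¹ * ((b : L)⁻¹ * y * b) := by
        simpa [mul_assoc] using h1
      exact mul_left_cancel h3
    have h3 := hinter ((b : L) * (a : L)⁻¹) (K.mul_mem b.2 (K.inv_mem a.2)) (by
      calc (b : L) * (a : L)⁻¹ * y * ((b : L) * (a : L)⁻¹)⁻¹
          = (b : L) * ((a : L)⁻¹ * y * a) * (b : L)⁻¹ := by group
        _ = (b : L) * ((b : L)⁻¹ * y * b) * (b : L)⁻¹ := by rw [h2]
        _ = y := by group)
    apply Subtype.ext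
    rw [mul_inv_eq_one] at h3
    exact h3.symm
  have hcard : Nat.card K ≤ Nat.card (K ⊓ N : Subgroup L) := Nat.card_le_card_of_injective f hf
  have heq : K ⊓ N = K := Subgroup.eq_of_le_of_card_ge inf_le_left hcard
  exact inf_eq_left.mp heq

/-- Let H be a Frobenius complement in a finite group L and K the Frobenius kernel (as a subgroup). Then K is characteristic in L, and every normal subgroup of L either contains K or is contained in K. -/
theorem result {L : Type*} [Group L] [Finite L]
    (H : Subgroup L) (hH : Cfsg.IsFrobeniusComplement H)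
    (K : Subgroup L) (hK : (K : Set L) = Cfsg.frobeniusKernel H) :
    K.Characteristic ∧ ∀ N : Subgroup L, N.Normal → K ≤ N ∨ N ≤ K := by
  classical
  have hdich := normal_dichotomy H hH K hK
  refine ⟨?_, hdich⟩
  have hKn : K.Normal := by
    constructor
    intro n hn c
    have h1 : n ∈ (K : Set L) := hn
    have h2 : c * n * c⁻¹ ∈ (K : Set L) := by
      rw [hK] at h1 ⊢
      rcases h1 with rfl | h1
      · left; simp
      · right
        intro g
        have := h1 (c⁻¹ * g)
        rw [mem_conj_smul] at this ⊢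
        simpa [mul_assoc] using this
    exact h2
  rw [Subgroup.characteristic_iff_map_eq]
  intro φ
  have hn : (K.map φ.toMonoidHom).Normal := Subgroup.Normal.map hKn _ φ.surjective
  have hcard : Nat.card (K.map φ.toMonoidHom) = Nat.card K :=
    Subgroup.card_map_of_injective φ.injective
  rcases hdich _ hn with h | h
  · exact (Subgroup.eq_of_le_of_card_ge h hcard.le).symm
  · exact Subgroup.eq_of_le_of_card_ge h hcard.ge

end Cfsg.Agent.S3383
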