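import Cfsg.Statements.S3419
import Mathlib
import Cfsg.Agent.Lib.Cl.AnSpec2

set_option autoImplicit false
open Cfsg

namespace Cfsg.Agent.S3419

/-- Let n ≥ 5 and let G be a finite group with the same order and the same set of element orders as the alternating group of degree n. Then G is not solvable. -/
theorem result {G : Type*} [Group G] [Finite G] (n : ℕ) (hn : 5 ≤ n)
    (hcard : Nat.card G = Nat.card ↥(alternatingGroup (Fin n)))
    (hspec : Set.range (orderOf : G → ℕ) = Set.range (orderOf : ↥(alternatingGroup (Fin n)) → ℕ)) :
    ¬ Group.IsSolvable G := by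
  exact Cfsg.Agent.Lib.Cl.AnSpec.not_solvable n hn hcard hspec

end Cfsg.Agent.S3419
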