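import Cfsg.Statements.S3430
import Mathlib
import Cfsg.Agent.Lib.Amalgam.Zsig

set_option autoImplicit false
open Cfsg

namespace Cfsg.Agent.S3430


open Cfsg.Agent.Lib.Amalgam.Zsig Polynomial

/-- The conclusion of the statement. -/
def Good (q n : ℕ) : Prop :=
  ∃ p : ℕ, p.Prime ∧ p ∣ q ^ n - 1 ∧ (∀ i : ℕ, 1 ≤ i → i < n → ¬ p ∣ q ^ i - 1) ∧ (n + 1 < p ∨ p ^ 2 ∣ q ^ n - 1)

lemma good_of (q n p : ℕ) (hp : p.Prime) (h1 : p ∣ q ^ n - 1)
    (h2 : ∀ i, i < n → 1 ≤ i → ¬ p ∣ q ^ i - 1) (h3 : n + 1 < p) : Good q n :=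
  ⟨p, hp, h1, fun i hi hi' => h2 i hi' hi, Or.inl h3⟩

lemma wit_2_3 : Good 2 3 := good_of 2 3 7 (by norm_num) (by norm_num) (by decide +kernel) (by norm_num)
lemma wit_2_5 : Good 2 5 := good_of 2 5 31 (by norm_num) (by norm_num) (by decide +kernel) (by norm_num)
lemma wit_2_7 : Good 2 7 := good_of 2 7 127 (by norm_num) (by norm_num) (by decide +kernel) (by norm_num)
lemma wit_2_8 : Good 2 8 := good_of 2 8 17 (by norm_num) (by norm_num) (by decide +kernel) (by norm_num)
lemma wit_2_9 : Good 2 9 := good_of 2 9 73 (by norm_num) (by norm_num) (by decide +kernel) (by norm_num)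
lemma wit_2_11 : Good 2 11 := good_of 2 11 23 (by norm_num) (by norm_num) (by decide +kernel) (by norm_num)
lemma wit_2_13 : Good 2 13 := good_of 2 13 8191 (by norm_num) (by norm_num) (by decide +kernel) (by norm_num)
lemma wit_2_14 : Good 2 14 := good_of 2 14 43 (by norm_num) (by norm_num) (by decide +kernel) (by norm_num)
lemma wit_2_15 : Good 2 15 := good_of 2 15 151 (by norm_num) (by norm_num) (by decide +kernel) (by norm_num)
lemma wit_2_16 : Good 2 16 := good_of 2 16 257 (by norm_num) (by norm_num) (by decide +kernel) (by norm_num)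
lemma wit_2_20 : Good 2 20 := good_of 2 20 41 (by norm_num) (by norm_num) (by decide +kernel) (by norm_num)
lemma wit_2_21 : Good 2 21 := good_of 2 21 337 (by norm_num) (by norm_num) (by decide +kernel) (by norm_num)
lemma wit_2_22 : Good 2 22 := good_of 2 22 683 (by norm_num) (by norm_num) (by decide +kernel) (by norm_num)
lemma wit_2_24 : Good 2 24 := good_of 2 24 241 (by norm_num) (by norm_num) (by decide +kernel) (by norm_num)
lemma wit_2_26 : Good 2 26 := good_of 2 26 2731 (by norm_num) (by norm_num) (by decide +kernel) (by norm_num)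
lemma wit_2_28 : Good 2 28 := good_of 2 28 113 (by norm_num) (by norm_num) (by decide +kernel) (by norm_num)
lemma wit_2_30 : Good 2 30 := good_of 2 30 331 (by norm_num) (by norm_num) (by decide +kernel) (by norm_num)
lemma wit_2_32 : Good 2 32 := good_of 2 32 65537 (by norm_num) (by norm_num) (by decide +kernel) (by norm_num)
lemma wit_2_34 : Good 2 34 := good_of 2 34 43691 (by norm_num) (by norm_num) (by decide +kernel) (by norm_num)
lemma wit_2_36 : Good 2 36 := good_of 2 36 109 (by norm_num) (by norm_num) (by decide +kernel) (by norm_num)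
lemma wit_2_38 : Good 2 38 := good_of 2 38 174763 (by norm_num) (by norm_num) (by decide +kernel) (by norm_num)
lemma wit_2_40 : Good 2 40 := good_of 2 40 61681 (by norm_num) (by norm_num) (by decide +kernel) (by norm_num)
lemma wit_2_42 : Good 2 42 := good_of 2 42 5419 (by norm_num) (by norm_num) (by decide +kernel) (by norm_num)
lemma wit_2_48 : Good 2 48 := good_of 2 48 97 (by norm_num) (by norm_num) (by decide +kernel) (by norm_num)
lemma wit_2_54 : Good 2 54 := good_of 2 54 87211 (by norm_num) (by norm_num) (by decide +kernel) (by norm_num)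
lemma wit_2_60 : Good 2 60 := good_of 2 60 1321 (by norm_num) (by norm_num) (by decide +kernel) (by norm_num)
lemma wit_2_66 : Good 2 66 := good_of 2 66 20857 (by norm_num) (by norm_num) (by decide +kernel) (by norm_num)
lemma wit_3_3 : Good 3 3 := good_of 3 3 13 (by norm_num) (by norm_num) (by decide +kernel) (by norm_num)
lemma wit_4_3 : Good 4 3 := good_of 4 3 7 (by norm_num) (by norm_num) (by decide +kernel) (by norm_num)
lemma wit_4_4 : Good 4 4 := good_of 4 4 17 (by norm_num) (by norm_num) (by decide +kernel) (by norm_num)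
lemma wit_5_4 : Good 5 4 := good_of 5 4 13 (by norm_num) (by norm_num) (by decide +kernel) (by norm_num)
lemma wit_3_5 : Good 3 5 := good_of 3 5 11 (by norm_num) (by norm_num) (by decide +kernel) (by norm_num)
lemma wit_4_6 : Good 4 6 := good_of 4 6 13 (by norm_num) (by norm_num) (by decide +kernel) (by norm_num)
lemma wit_6_6 : Good 6 6 := good_of 6 6 31 (by norm_num) (by norm_num) (by decide +kernel) (by norm_num)
lemma wit_7_6 : Good 7 6 := good_of 7 6 43 (by norm_num) (by norm_num) (by decide +kernel) (by norm_num)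
lemma wit_3_8 : Good 3 8 := good_of 3 8 41 (by norm_num) (by norm_num) (by decide +kernel) (by norm_num)
lemma wit_3_9 : Good 3 9 := good_of 3 9 757 (by norm_num) (by norm_num) (by decide +kernel) (by norm_num)
lemma wit_3_10 : Good 3 10 := good_of 3 10 61 (by norm_num) (by norm_num) (by decide +kernel) (by norm_num)
lemma wit_4_10 : Good 4 10 := good_of 4 10 41 (by norm_num) (by norm_num) (by decide +kernel) (by norm_num)
lemma wit_3_12 : Good 3 12 := good_of 3 12 73 (by norm_num) (by norm_num) (by decide +kernel) (by norm_num)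
lemma wit_4_12 : Good 4 12 := good_of 4 12 241 (by norm_num) (by norm_num) (by decide +kernel) (by norm_num)
lemma wit_3_14 : Good 3 14 := good_of 3 14 547 (by norm_num) (by norm_num) (by decide +kernel) (by norm_num)
lemma wit_3_16 : Good 3 16 := good_of 3 16 193 (by norm_num) (by norm_num) (by decide +kernel) (by norm_num)
lemma wit_3_18 : Good 3 18 := good_of 3 18 37 (by norm_num) (by norm_num) (by decide +kernel) (by norm_num)
lemma wit_3_20 : Good 3 20 := good_of 3 20 1181 (by norm_num) (by norm_num) (by decide +kernel) (by norm_num)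
lemma wit_3_24 : Good 3 24 := good_of 3 24 6481 (by norm_num) (by norm_num) (by decide +kernel) (by norm_num)
lemma wit_3_30 : Good 3 30 := good_of 3 30 271 (by norm_num) (by norm_num) (by decide +kernel) (by norm_num)

def wA (n : ℕ) : ℕ := if 2 ∣ n then 4 else 1
def wB (n : ℕ) : ℕ := if 3 ∣ n then 9 else 8

lemma wA_le (n : ℕ) : wA n ≤ 4 := by unfold wA; split_ifs <;> omega
lemma wB_le (n : ℕ) : wB n ≤ 9 := by unfold wB; split_ifs <;> omega

lemma wA_mul {a b : ℕ} (h : Nat.Coprime a b) : wA (a * b) = wA a * wA b := by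
  unfold wA
  by_cases h1 : 2 ∣ a <;> by_cases h2 : 2 ∣ b
  · have := Nat.dvd_gcd h1 h2
    rw [h] at this
    omega
  · simp [h1, h2, Nat.prime_two.dvd_mul]
  · simp [h1, h2, Nat.prime_two.dvd_mul]
  · simp [h1, h2, Nat.prime_two.dvd_mul]

lemma wB_mul {a b : ℕ} (h : Nat.Coprime a b) : 8 * wB (a * b) = wB a * wB b := by
  unfold wB
  by_cases h1 : 3 ∣ a <;> by_cases h2 : 3 ∣ b
  · have := Nat.dvd_gcd h1 h2
    rw [h] at this
    omega
  · simp [h1, h2, Nat.prime_three.dvd_mul]
  · simp [h1, h2, Nat.prime_three.dvd_mul]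
  · simp [h1, h2, Nat.prime_three.dvd_mul]

lemma totient_cube_bound : ∀ n : ℕ, 0 < n → 8 * n ^ 2 ≤ wA n * wB n * n.totient ^ 3 := by
  intro n
  induction n using Nat.recOnPosPrimePosCoprime with
  | zero => intro h; omega
  | one => intro _; simp [wA, wB]
  | prime_pow p a hp ha =>
    intro _
    obtain ⟨b, rfl⟩ : ∃ b, a = b + 1 := ⟨a - 1, by omega⟩
    rw [Nat.totient_prime_pow_succ hp]
    have hp2 := hp.two_le
    by_cases hp2' : p = 2
    · subst hp2'
      have hA : wA (2 ^ (b + 1)) = 4 := by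
        unfold wA
        rw [if_pos (Dvd.intro_left (2 ^ b) (by rw [pow_succ]))]
      have hB : wB (2 ^ (b + 1)) = 8 := by
        unfold wB
        rw [if_neg]
        intro h
        have := Nat.prime_three.dvd_of_dvd_pow h
        norm_num at this
      rw [hA, hB]
      have h1 : 1 ≤ 2 ^ b := Nat.one_le_two_pow
      have h2 : (2 ^ (b + 1)) ^ 2 = 4 * (2 ^ b) ^ 2 := by ring
      have h3 : (2 ^ b * (2 - 1)) ^ 3 = (2 ^ b) ^ 3 := by simp
      rw [h2, h3]
      have h4 : (2 ^ b) ^ 2 ≤ (2 ^ b) ^ 3 := Nat.pow_le_pow_right h1 (by norm_num)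
      nlinarith
    · have hA : wA (p ^ (b + 1)) = 1 := by
        unfold wA
        rw [if_neg]
        intro h
        have := Nat.prime_two.dvd_of_dvd_pow h
        exact hp2' ((Nat.prime_dvd_prime_iff_eq Nat.prime_two hp).mp this).symm
      rw [hA, one_mul]
      by_cases hp3' : p = 3
      · subst hp3'
        have hB : wB (3 ^ (b + 1)) = 9 := by
          unfold wB
          rw [if_pos (Dvd.intro_left (3 ^ b) (by rw [pow_succ]))]
        rw [hB]
        have h1 : 1 ≤ 3 ^ b := Nat.one_le_pow _ _ (by norm_num)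
        have h2 : (3 ^ (b + 1)) ^ 2 = 9 * (3 ^ b) ^ 2 := by ring
        have h3 : (3 ^ b * (3 - 1)) ^ 3 = 8 * (3 ^ b) ^ 3 := by
          norm_num
          ring
        rw [h2, h3]
        have h4 : (3 ^ b) ^ 2 ≤ (3 ^ b) ^ 3 := Nat.pow_le_pow_right h1 (by norm_num)
        nlinarith
      · have hB : wB (p ^ (b + 1)) = 8 := by
          unfold wB
          rw [if_neg]
          intro h
          have := Nat.prime_three.dvd_of_dvd_pow h
          exact hp3' ((Nat.prime_dvd_prime_iff_eq Nat.prime_three hp).mp this).symm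
        rw [hB]
        have hp5 : 5 ≤ p := by
          by_contra hc
          have : p = 4 := by omega
          subst this
          exact absurd hp (by norm_num)
        obtain ⟨c, rfl⟩ : ∃ c, p = c + 1 := ⟨p - 1, by omega⟩
        simp only [Nat.add_sub_cancel]
        have hc4 : 4 ≤ c := by omega
        have hcube : (c + 1) ^ 2 ≤ c ^ 3 := by nlinarith [sq_nonneg (c : ℤ)]
        have h1 : 1 ≤ (c + 1) ^ b := Nat.one_le_pow _ _ (by omega)
        have h2 : ((c + 1) ^ (b + 1)) ^ 2 = ((c + 1) ^ b) ^ 2 * (c + 1) ^ 2 := by ring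
        have h3 : ((c + 1) ^ b * c) ^ 3 = ((c + 1) ^ b) ^ 3 * c ^ 3 := by ring
        rw [h2, h3]
        have h4 : ((c + 1) ^ b) ^ 2 ≤ ((c + 1) ^ b) ^ 3 := Nat.pow_le_pow_right h1 (by norm_num)
        have h5 := Nat.mul_le_mul h4 hcube
        nlinarith
  | coprime a b ha hb hab iha ihb =>
    intro _
    have h1 := iha (by omega)
    have h2 := ihb (by omega)
    have h3 := Nat.mul_le_mul h1 h2
    rw [Nat.totient_mul hab, wA_mul hab]
    have h4 := wB_mul hab
    have h5 : 8 * (8 * (a * b) ^ 2) ≤ 8 * (wA a * wA b * wB (a * b) * (a.totient * b.totient) ^ 3) := by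
      calc 8 * (8 * (a * b) ^ 2) = 8 * a ^ 2 * (8 * b ^ 2) := by ring
        _ ≤ wA a * wB a * a.totient ^ 3 * (wA b * wB b * b.totient ^ 3) := h3
        _ = wA a * wA b * (wB a * wB b) * (a.totient * b.totient) ^ 3 := by ring
        _ = wA a * wA b * (8 * wB (a * b)) * (a.totient * b.totient) ^ 3 := by rw [h4]
        _ = 8 * (wA a * wA b * wB (a * b) * (a.totient * b.totient) ^ 3) := by ring
    exact Nat.le_of_mul_le_mul_left h5 (by norm_num)

lemma totient_bound (n : ℕ) (hn : 0 < n) : 2 * n ^ 2 ≤ 9 * n.totient ^ 3 := by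
  have h1 := totient_cube_bound n hn
  have h2 : wA n * wB n ≤ 4 * 9 := Nat.mul_le_mul (wA_le n) (wB_le n)
  have h3 := Nat.mul_le_mul_right (n.totient ^ 3) h2
  omega

lemma exp_bound : ∀ t : ℕ, 31 ≤ t → 2 ^ t * (9 * t ^ 3) < 3 ^ t := by
  intro t ht
  induction t, ht using Nat.le_induction with
  | base => norm_num
  | succ t ht ih =>
    have h1 : 2 * (9 * (t + 1) ^ 3) ≤ 3 * (9 * t ^ 3) := by
      obtain ⟨c, rfl⟩ : ∃ c, t = c + 31 := ⟨t - 31, by omega⟩
      ring_nf
      nlinarith [Nat.zero_le c, Nat.zero_le (c ^ 2), Nat.zero_le (c ^ 3)]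
    calc 2 ^ (t + 1) * (9 * (t + 1) ^ 3)
        = 2 ^ t * (2 * (9 * (t + 1) ^ 3)) := by ring
      _ ≤ 2 ^ t * (3 * (9 * t ^ 3)) := Nat.mul_le_mul_left _ h1
      _ = 3 * (2 ^ t * (9 * t ^ 3)) := by ring
      _ < 3 * 3 ^ t := by omega
      _ = 3 ^ (t + 1) := by ring

def E2 : List ℕ := [3, 4, 5, 6, 7, 8, 9, 10, 11, 12, 13, 14, 15, 16, 18, 20, 21, 22, 24, 26, 28, 30, 32, 34, 36, 38, 40, 42, 48, 54, 60, 66]

lemma fin_range_aux : (List.range 350).all (fun n => !(decide (3 ≤ n)) || !(decide (n.totient < 31)) ||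
    !(decide (3 ^ n.totient ≤ 2 ^ n.totient * (n * (n + 1)))) || E2.contains n) = true := by
  decide +kernel

lemma fin_range (n : ℕ) (hn : n < 350) (h3 : 3 ≤ n) (ht : n.totient < 31)
    (hb : 3 ^ n.totient ≤ 2 ^ n.totient * (n * (n + 1))) : n ∈ E2 := by
  have h := List.all_eq_true.mp fin_range_aux n (List.mem_range.mpr hn)
  simp only [Bool.or_eq_true, Bool.not_eq_true', decide_eq_false_iff_not, not_not, h3, ht, hb,
    not_true_eq_false, false_or, or_false, List.contains_iff_mem] at h
  exact h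

lemma mem_E2 (n : ℕ) (hn : 3 ≤ n) (h : 3 ^ n.totient ≤ 2 ^ n.totient * (n * (n + 1))) : n ∈ E2 := by
  have hb := totient_bound n (by omega)
  by_cases ht : n.totient < 31
  · refine fin_range n ?_ hn ht h
    have h1 : n.totient ≤ 30 := by omega
    have h2 : n.totient ^ 3 ≤ 30 ^ 3 := Nat.pow_le_pow_left h1 3
    nlinarith
  · exfalso
    have h1 := exp_bound n.totient (by omega)
    have h2 : n * (n + 1) ≤ 9 * n.totient ^ 3 := by nlinarith
    have h3 := Nat.mul_le_mul_left (2 ^ n.totient) h2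
    omega

/-! ### Lower bounds at `q = 2` -/

lemma cyc_real_le (m : ℕ) {a : ℤ} (ha : 2 ≤ a) : cyc m a ≤ (a + 1) ^ m.totient := by
  have h1 := cyclotomic_eval_le_add_one_pow_totient (q := (a : ℝ)) (by exact_mod_cast (by omega : (1:ℤ) < a)) m
  rw [cyc_real] at h1
  exact_mod_cast h1

lemma real_le_cyc (m : ℕ) {a : ℤ} (ha : 2 ≤ a) : (a - 1) ^ m.totient ≤ cyc m a := by
  have h1 := sub_one_pow_totient_le_cyclotomic_eval (q := (a : ℝ)) (by exact_mod_cast (by omega : (1:ℤ) < a)) m
  rw [cyc_real] at h1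
  exact_mod_cast h1

lemma pow_aux1 : ∀ r : ℕ, 2 ≤ r → 3 ^ r ≤ 2 ^ r * (2 ^ r - 1) := by
  intro r hr
  induction r, hr using Nat.le_induction with
  | base => norm_num
  | succ r hr ih =>
    have h1 : 2 ≤ 2 ^ r := by
      calc 2 = 2 ^ 1 := by norm_num
        _ ≤ 2 ^ r := Nat.pow_le_pow_right (by norm_num) (by omega)
    have h2 : 2 ^ (r + 1) - 1 = 2 * 2 ^ r - 1 := by rw [pow_succ]; ring_nf
    rw [h2, pow_succ 3, pow_succ 2]
    obtain ⟨x, hx⟩ : ∃ x, 2 ^ r = x + 1 := ⟨2 ^ r - 1, by omega⟩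
    rw [hx] at ih ⊢
    have h3 : 2 * (x + 1) - 1 = 2 * x + 1 := by omega
    have h4 : (x + 1) - 1 = x := by omega
    rw [h4] at ih
    rw [mul_comm (x + 1) 2, h3]
    nlinarith

lemma pow_aux2 : ∀ r : ℕ, 3 ≤ r → 3 ^ r ≤ 2 ^ (r - 1) * (2 ^ r - 1) := by
  intro r hr
  induction r, hr using Nat.le_induction with
  | base => norm_num
  | succ r hr ih =>
    have h1 : 2 ≤ 2 ^ r := by
      calc 2 = 2 ^ 1 := by norm_num
        _ ≤ 2 ^ r := Nat.pow_le_pow_right (by norm_num) (by omega)
    obtain ⟨s, rfl⟩ : ∃ s, r = s + 1 := ⟨r - 1, by omega⟩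
    have h5 : s + 1 + 1 - 1 = s + 1 := by omega
    have h6 : s + 1 - 1 = s := by omega
    rw [h5]
    rw [h6] at ih
    rw [pow_succ 3]
    obtain ⟨x, hx⟩ : ∃ x, 2 ^ (s + 1) = x + 1 := ⟨2 ^ (s + 1) - 1, by omega⟩
    have h7 : 2 ^ (s + 1 + 1) = 2 * (x + 1) := by rw [pow_succ, hx]; ring
    have h8 : 2 ^ (s + 1) = 2 * 2 ^ s := by ring
    rw [h7, hx]
    rw [hx] at ih
    have h3 : 2 * (x + 1) - 1 = 2 * x + 1 := by omega
    have h4 : (x + 1) - 1 = x := by omega
    rw [h4] at ih
    rw [h3]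
    have h9 : x + 1 = 2 * 2 ^ s := by omega
    nlinarith [Nat.zero_le (2 ^ s), Nat.zero_le x]

lemma lower_dvd (m r : ℕ) (hr : r.Prime) (hm : r ∣ m) (hm0 : 0 < m) :
    (3 : ℤ) ^ (m * r).totient ≤ 2 ^ (m * r).totient * cyc (m * r) 2 := by
  have h2le : 2 ≤ r := hr.two_le
  rw [cyc_expand_of_dvd hr hm]
  have htot : (m * r).totient = r * m.totient := by
    rw [mul_comm m r, Nat.totient_mul_of_prime_of_dvd hr hm]
  rw [htot, pow_mul, pow_mul]
  have h1 : ((2 : ℤ) ^ r - 1) ^ m.totient ≤ cyc m (2 ^ r) := by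
    refine real_le_cyc m ?_
    calc (2 : ℤ) = 2 ^ 1 := by norm_num
      _ ≤ 2 ^ r := pow_le_pow_right₀ (by norm_num) (by omega)
  have h3 : ((3 : ℤ) ^ r) ≤ 2 ^ r * (2 ^ r - 1) := by
    have h4 := pow_aux1 r h2le
    have h5 : 1 ≤ 2 ^ r := Nat.one_le_two_pow
    zify [h5] at h4
    exact h4
  calc ((3 : ℤ) ^ r) ^ m.totient ≤ (2 ^ r * (2 ^ r - 1)) ^ m.totient :=
        pow_le_pow_left₀ (by positivity) h3 _
    _ = (2 ^ r) ^ m.totient * (2 ^ r - 1) ^ m.totient := mul_pow _ _ _
    _ ≤ (2 ^ r) ^ m.totient * cyc m (2 ^ r) := mul_le_mul_of_nonneg_left h1 (by positivity)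

lemma lower_not_dvd (m r : ℕ) (hr : r.Prime) (hr3 : 3 ≤ r) (hm : ¬ r ∣ m) (hm0 : 0 < m) :
    (3 : ℤ) ^ (m * r).totient ≤ 2 ^ (m * r).totient * cyc (m * r) 2 := by
  have hcop : Nat.Coprime m r := ((Nat.Prime.coprime_iff_not_dvd hr).mpr hm).symm
  have hexp := cyc_expand_of_not_dvd hr hm (2 : ℤ)
  have htot : (m * r).totient = (r - 1) * m.totient := by
    rw [Nat.totient_mul hcop, Nat.totient_prime hr, mul_comm]
  rw [htot, pow_mul, pow_mul]
  have h1 : ((2 : ℤ) ^ r - 1) ^ m.totient ≤ cyc m (2 ^ r) := by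
    refine real_le_cyc m ?_
    calc (2 : ℤ) = 2 ^ 1 := by norm_num
      _ ≤ 2 ^ r := pow_le_pow_right₀ (by norm_num) (by omega)
  have h2 : cyc m 2 ≤ 3 ^ m.totient := by
    have := cyc_real_le m (a := 2) (le_refl _)
    norm_num at this
    exact this
  have h0 : 0 < cyc (m * r) 2 := cyc_pos (le_refl _)
  have h3 : ((3 : ℤ) ^ r) ≤ 2 ^ (r - 1) * (2 ^ r - 1) := by
    have h4 := pow_aux2 r hr3
    have h5 : 1 ≤ 2 ^ r := Nat.one_le_two_pow
    zify [h5] at h4
    exact h4
  have h6 : ((3 : ℤ) ^ r) ^ m.totient ≤ (2 ^ (r - 1)) ^ m.totient * (cyc (m * r) 2 * 3 ^ m.totient) := by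
    calc ((3 : ℤ) ^ r) ^ m.totient ≤ (2 ^ (r - 1) * (2 ^ r - 1)) ^ m.totient :=
          pow_le_pow_left₀ (by positivity) h3 _
      _ = (2 ^ (r - 1)) ^ m.totient * (2 ^ r - 1) ^ m.totient := mul_pow _ _ _
      _ ≤ (2 ^ (r - 1)) ^ m.totient * cyc m (2 ^ r) := mul_le_mul_of_nonneg_left h1 (by positivity)
      _ = (2 ^ (r - 1)) ^ m.totient * (cyc (m * r) 2 * cyc m 2) := by rw [hexp]
      _ ≤ (2 ^ (r - 1)) ^ m.totient * (cyc (m * r) 2 * 3 ^ m.totient) :=
          mul_le_mul_of_nonneg_left (mul_le_mul_of_nonneg_left h2 h0.le) (by positivity)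
  have h7 : ((3 : ℤ) ^ r) ^ m.totient = ((3 : ℤ) ^ (r - 1)) ^ m.totient * 3 ^ m.totient := by
    rw [← mul_pow, ← pow_succ]
    congr 2
    omega
  rw [h7, ← mul_assoc] at h6
  exact le_of_mul_le_mul_right (by rwa [mul_assoc] at h6 ⊢) (by positivity)

lemma lower_two (n : ℕ) (hn : 3 ≤ n) : (3 : ℤ) ^ n.totient ≤ 2 ^ n.totient * cyc n 2 := by
  by_cases hodd : ∃ r, r.Prime ∧ r ∣ n ∧ r ≠ 2
  · obtain ⟨r, hr, hrn, hr2⟩ := hodd
    obtain ⟨m, rfl⟩ := hrn
    have hm0 : 0 < m := by
      rcases Nat.eq_zero_or_pos m with h | h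
      · rw [h] at hn; omega
      · exact h
    rw [mul_comm r m]
    have hr3 : 3 ≤ r := by
      have := hr.two_le
      omega
    by_cases hd : r ∣ m
    · exact lower_dvd m r hr hd hm0
    · exact lower_not_dvd m r hr hr3 hd hm0
  · push Not at hodd
    obtain ⟨k, hk⟩ : ∃ k, n = 2 ^ k :=
      ⟨_, Nat.eq_prime_pow_of_unique_prime_dvd (by omega) (fun {s} hs hsn => hodd s hs hsn)⟩
    obtain ⟨j, rfl⟩ : ∃ j, k = j + 2 := by
      refine ⟨k - 2, ?_⟩
      have : 2 ≤ k := by
        by_contra hc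
        have : k = 0 ∨ k = 1 := by omega
        rcases this with rfl | rfl <;> simp at hk <;> omega
      omega
    have h1 : n = 2 ^ (j + 1) * 2 := by rw [hk]; ring
    rw [h1]
    exact lower_dvd (2 ^ (j + 1)) 2 Nat.prime_two (dvd_pow_self _ (by omega)) (by positivity)

/-! ### The upper bound -/

lemma order_dvd (q n l : ℕ) (hn : 0 < n) (hl : l.Prime) (hq : 2 ≤ q) (h1 : l ∣ q ^ n - 1)
    (h2 : ∀ i : ℕ, 1 ≤ i → i < n → ¬ l ∣ q ^ i - 1) : n ∣ l - 1 := by
  haveI := Fact.mk hl
  set x : ZMod l := (q : ZMod l) with hx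
  have hone : ∀ m : ℕ, l ∣ q ^ m - 1 ↔ x ^ m = 1 := by
    intro m
    have hpos : 1 ≤ q ^ m := Nat.one_le_pow _ _ (by omega)
    rw [← ZMod.natCast_eq_zero_iff, Nat.cast_sub hpos, sub_eq_zero]
    simp [hx]
  have hxn : x ^ n = 1 := (hone n).mp h1
  have hxne : x ≠ 0 := by
    intro h
    rw [h, zero_pow hn.ne'] at hxn
    exact zero_ne_one hxn
  have hord : orderOf x = n := by
    have hd : orderOf x ∣ n := orderOf_dvd_of_pow_eq_one hxn
    have hpos : 0 < orderOf x := Nat.pos_of_dvd_of_pos hd hn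
    have hle := Nat.le_of_dvd hn hd
    by_contra hne
    exact h2 (orderOf x) hpos (by omega) ((hone _).mpr (pow_orderOf_eq_one x))
  rw [← hord]
  exact orderOf_dvd_of_pow_eq_one (ZMod.pow_card_sub_one_eq_one hxne)

lemma upper (q n : ℕ) (hq : 2 ≤ q) (hn : 3 ≤ n) (hno : ¬ Good q n) :
    cyc n q ≤ ((n * (n + 1) : ℕ) : ℤ) := by
  have hq' : (2 : ℤ) ≤ q := by exact_mod_cast hq
  have hpos := cyc_pos (n := n) hq'
  obtain ⟨N, hN⟩ : ∃ N : ℕ, cyc n q = N := ⟨(cyc n q).toNat, (Int.toNat_of_nonneg hpos.le).symm⟩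
  have hNpos : 0 < N := by
    rw [hN] at hpos
    exact_mod_cast hpos
  have hNdvd : N ∣ q ^ n - 1 := by
    have h1 := cyc_dvd n (q : ℤ)
    rw [hN] at h1
    have h2 : 1 ≤ q ^ n := Nat.one_le_pow _ _ (by omega)
    have h3 : ((q ^ n - 1 : ℕ) : ℤ) = (q : ℤ) ^ n - 1 := by
      rw [Nat.cast_sub h2]; simp
    rw [← h3] at h1
    exact_mod_cast h1
  have hkey : ∀ l : ℕ, l.Prime → l ∣ N → ¬ l ^ 2 ∣ N ∧ l ∣ n * (n + 1) := by
    intro l hl hlN
    by_cases hprim : ∃ k, 0 < k ∧ k < n ∧ l ∣ q ^ k - 1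
    · obtain ⟨k, hk0, hkn, hlk⟩ := hprim
      have hlN' : (l : ℤ) ∣ cyc n q := by
        rw [hN]
        exact_mod_cast hlN
      obtain ⟨d, j, _, hj, hnd, hsq⟩ := key q n l hq hn hl hlN' k hk0 hkn hlk
      constructor
      · intro h
        apply hsq
        rw [hN]
        exact_mod_cast h
      · refine Dvd.dvd.mul_right ?_ _
        rw [hnd]
        exact Dvd.dvd.mul_left (dvd_pow_self l (by omega)) d
    · push Not at hprim
      have hprim' : ∀ i : ℕ, 1 ≤ i → i < n → ¬ l ∣ q ^ i - 1 :=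
        fun i h1 h2 => hprim i h1 h2
      have hln := hlN.trans hNdvd
      have hd := order_dvd q n l (by omega) hl hq hln hprim'
      have hge : n + 1 ≤ l := by
        have := Nat.le_of_dvd (by have := hl.two_le; omega) hd
        have := hl.two_le
        omega
      have hnot : ¬ (n + 1 < l ∨ l ^ 2 ∣ q ^ n - 1) := fun h => hno ⟨l, hl, hln, hprim', h⟩
      push Not at hnot
      have hl1 : l = n + 1 := by omega
      constructor
      · intro h
        exact hnot.2 (h.trans hNdvd)
      · rw [hl1]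
        exact Dvd.intro_left _ rfl
  have hdvd : N ∣ n * (n + 1) := by
    have hM : n * (n + 1) ≠ 0 := by positivity
    rw [← Nat.factorization_prime_le_iff_dvd hNpos.ne' hM]
    intro l hl
    by_cases hlN : l ∣ N
    · obtain ⟨h1, h2⟩ := hkey l hl hlN
      have h3 : N.factorization l ≤ 1 := by
        by_contra hc
        apply h1
        exact (hl.pow_dvd_iff_le_factorization hNpos.ne').mpr (by omega)
      have h4 : 1 ≤ (n * (n + 1)).factorization l :=
        (hl.dvd_iff_one_le_factorization hM).mp h2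
      omega
    · rw [Nat.factorization_eq_zero_of_not_dvd hlN]
      omega
  rw [hN]
  exact_mod_cast Nat.le_of_dvd (by positivity) hdvd

lemma case_two (q : ℕ) (hq : 2 ≤ q) (h1 : ¬ ∃ s t : ℕ, t ≤ 1 ∧ q + 1 = 2 ^ s * 3 ^ t) : Good q 2 := by
  have hprime_part : ∀ p : ℕ, p.Prime → p ∣ q + 1 → p ≠ 2 → Good q 2 ∨ p = 3 := by
    intro p hp hpd hp2
    by_cases hp3 : p = 3
    · exact Or.inr hp3
    · left
      have hge : 5 ≤ p := by
        have := hp.two_le
        by_contra hc
        have : p = 4 := by omega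
        subst this
        exact absurd hp (by norm_num)
      refine ⟨p, hp, ?_, ?_, Or.inl (by omega)⟩
      · have : q ^ 2 - 1 = (q + 1) * (q - 1) := by
          obtain ⟨c, rfl⟩ : ∃ c, q = c + 1 := ⟨q - 1, by omega⟩
          simp only [Nat.add_sub_cancel]
          have : (c + 1) ^ 2 = (c + 1 + 1) * c + 1 := by ring
          omega
        rw [this]
        exact Dvd.dvd.mul_right hpd _
      · intro i hi hi2
        have : i = 1 := by omega
        subst this
        simp only [pow_one]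
        intro h
        have h3 : p ∣ (q + 1) - (q - 1) := Nat.dvd_sub hpd h
        have h4 : (q + 1) - (q - 1) = 2 := by omega
        rw [h4] at h3
        have := Nat.le_of_dvd (by norm_num) h3
        omega
  -- every odd prime divisor of `q + 1` is `3`, unless we are done
  by_contra hno
  have hall : ∀ p : ℕ, p.Prime → p ∣ q + 1 → p = 2 ∨ p = 3 := by
    intro p hp hpd
    by_cases hp2 : p = 2
    · exact Or.inl hp2
    · rcases hprime_part p hp hpd hp2 with h | h
      · exact absurd h hno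
      · exact Or.inr h
  -- write `q + 1 = 2 ^ s * 3 ^ t`
  have hfac : q + 1 = 2 ^ (q + 1).factorization 2 * 3 ^ (q + 1).factorization 3 := by
    have hne : q + 1 ≠ 0 := by omega
    conv_lhs => rw [← Nat.factorization_prod_pow_eq_self hne]
    rw [Finsupp.prod]
    have hsupp : (q + 1).factorization.support ⊆ {2, 3} := by
      intro p hp
      rw [Nat.support_factorization, Nat.mem_primeFactors] at hp
      simpa using hall p hp.1 hp.2.1
    rw [Finset.prod_subset hsupp (fun p _ hp => by rw [Finsupp.notMem_support_iff.mp hp, pow_zero])]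
    rw [Finset.prod_pair (by norm_num)]
  by_cases ht : (q + 1).factorization 3 ≤ 1
  · exact h1 ⟨_, _, ht, hfac⟩
  · -- `9 ∣ q + 1`
    apply hno
    have h9 : 3 ^ 2 ∣ q + 1 := by
      rw [hfac]
      exact Dvd.dvd.mul_left (pow_dvd_pow 3 (by omega)) _
    have hq2 : q ^ 2 - 1 = (q + 1) * (q - 1) := by
      obtain ⟨c, rfl⟩ : ∃ c, q = c + 1 := ⟨q - 1, by omega⟩
      simp only [Nat.add_sub_cancel]
      have : (c + 1) ^ 2 = (c + 1 + 1) * c + 1 := by ring
      omega
    refine ⟨3, Nat.prime_three, ?_, ?_, Or.inr ?_⟩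
    · rw [hq2]
      exact Dvd.dvd.mul_right ((dvd_pow_self 3 (by norm_num)).trans h9) _
    · intro i hi hi2
      have : i = 1 := by omega
      subst this
      simp only [pow_one]
      intro h
      have h3 : 3 ∣ q + 1 := (dvd_pow_self 3 (by norm_num)).trans h9
      have h4 : 3 ∣ (q + 1) - (q - 1) := Nat.dvd_sub h3 h
      have h5 : (q + 1) - (q - 1) = 2 := by omega
      rw [h5] at h4
      norm_num at h4
    · rw [hq2]
      exact Dvd.dvd.mul_right h9 _

lemma case_ge (q n : ℕ) (hq : 2 ≤ q) (hn : 3 ≤ n)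
    (h2 : ¬ (q = 2 ∧ (n = 4 ∨ n = 6 ∨ n = 10 ∨ n = 12 ∨ n = 18)))
    (h3 : ¬ (q = 3 ∧ (n = 4 ∨ n = 6))) (h4 : ¬ (q = 5 ∧ n = 6)) : Good q n := by
  by_contra hno
  have hup := upper q n hq hn hno
  by_cases hq2 : q = 2
  · subst hq2
    have hlow := lower_two n hn
    have hB : 3 ^ n.totient ≤ 2 ^ n.totient * (n * (n + 1)) := by
      have h5 : (2 : ℤ) ^ n.totient * cyc n ((2 : ℕ) : ℤ) ≤ 2 ^ n.totient * ((n * (n + 1) : ℕ) : ℤ) :=
        mul_le_mul_of_nonneg_left hup (by positivity)
      have h6 : (3 : ℤ) ^ n.totient ≤ 2 ^ n.totient * ((n * (n + 1) : ℕ) : ℤ) := by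
        refine hlow.trans ?_
        simpa using h5
      exact_mod_cast h6
    have hmem := mem_E2 n hn hB
    apply hno
    simp only [E2, List.mem_cons, List.not_mem_nil, or_false] at hmem
    rcases hmem with rfl | rfl | rfl | rfl | rfl | rfl | rfl | rfl | rfl | rfl | rfl | rfl | rfl | rfl | rfl | rfl | rfl | rfl | rfl | rfl | rfl | rfl | rfl | rfl | rfl | rfl | rfl | rfl | rfl | rfl | rfl | rfl
    · exact wit_2_3
    · exact absurd ⟨rfl, by omega⟩ h2
    · exact wit_2_5
    · exact absurd ⟨rfl, by omega⟩ h2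
    · exact wit_2_7
    · exact wit_2_8
    · exact wit_2_9
    · exact absurd ⟨rfl, by omega⟩ h2
    · exact wit_2_11
    · exact absurd ⟨rfl, by omega⟩ h2
    · exact wit_2_13
    · exact wit_2_14
    · exact wit_2_15
    · exact wit_2_16
    · exact absurd ⟨rfl, by omega⟩ h2
    · exact wit_2_20
    · exact wit_2_21
    · exact wit_2_22
    · exact wit_2_24
    · exact wit_2_26
    · exact wit_2_28
    · exact wit_2_30
    · exact wit_2_32
    · exact wit_2_34
    · exact wit_2_36
    · exact wit_2_38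
    · exact wit_2_40
    · exact wit_2_42
    · exact wit_2_48
    · exact wit_2_54
    · exact wit_2_60
    · exact wit_2_66
  · have hq3 : 3 ≤ q := by omega
    have hq' : (2 : ℤ) ≤ q := by exact_mod_cast hq
    have hlow := lt_cyc (n := n) (by omega) hq'
    have hb : (q - 1) ^ n.totient < n * (n + 1) := by
      have h5 : ((q : ℤ) - 1) ^ n.totient < ((n * (n + 1) : ℕ) : ℤ) := lt_of_lt_of_le hlow hup
      have h6 : ((q - 1 : ℕ) : ℤ) = (q : ℤ) - 1 := by
        rw [Nat.cast_sub (by omega)]; simp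
      rw [← h6] at h5
      exact_mod_cast h5
    have hB : 3 ^ n.totient ≤ 2 ^ n.totient * (n * (n + 1)) := by
      have h7 : 2 ^ n.totient ≤ (q - 1) ^ n.totient := Nat.pow_le_pow_left (by omega) _
      calc 3 ^ n.totient ≤ 4 ^ n.totient := Nat.pow_le_pow_left (by norm_num) _
        _ = 2 ^ n.totient * 2 ^ n.totient := by rw [← mul_pow]; norm_num
        _ ≤ 2 ^ n.totient * (n * (n + 1)) := Nat.mul_le_mul_left _ (by omega)
    have hmem := mem_E2 n hn hB
    apply hno
    simp only [E2, List.mem_cons, List.not_mem_nil, or_false] at hmem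
    rcases hmem with rfl | rfl | rfl | rfl | rfl | rfl | rfl | rfl | rfl | rfl | rfl | rfl | rfl | rfl | rfl | rfl | rfl | rfl | rfl | rfl | rfl | rfl | rfl | rfl | rfl | rfl | rfl | rfl | rfl | rfl | rfl | rfl
    · -- n = 3
      have hphi : Nat.totient 3 = 2 := by decide +kernel
      rw [hphi] at hb
      have hQ : q < 5 := by
        by_contra hc
        have h5 : 4 ^ 2 ≤ (q - 1) ^ 2 := Nat.pow_le_pow_left (by omega) _
        norm_num at h5 hb
        omega
      interval_cases q
      · exact wit_3_3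
      · exact wit_4_3
    · -- n = 4
      have hphi : Nat.totient 4 = 2 := by decide +kernel
      rw [hphi] at hb
      have hQ : q < 6 := by
        by_contra hc
        have h5 : 5 ^ 2 ≤ (q - 1) ^ 2 := Nat.pow_le_pow_left (by omega) _
        norm_num at h5 hb
        omega
      interval_cases q
      · exact absurd ⟨rfl, by omega⟩ h3
      · exact wit_4_4
      · exact wit_5_4
    · -- n = 5
      have hphi : Nat.totient 5 = 4 := by decide +kernel
      rw [hphi] at hb
      have hQ : q < 4 := by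
        by_contra hc
        have h5 : 3 ^ 4 ≤ (q - 1) ^ 4 := Nat.pow_le_pow_left (by omega) _
        norm_num at h5 hb
        omega
      interval_cases q
      · exact wit_3_5
    · -- n = 6
      have hphi : Nat.totient 6 = 2 := by decide +kernel
      rw [hphi] at hb
      have hQ : q < 8 := by
        by_contra hc
        have h5 : 7 ^ 2 ≤ (q - 1) ^ 2 := Nat.pow_le_pow_left (by omega) _
        norm_num at h5 hb
        omega
      interval_cases q
      · exact absurd ⟨rfl, by omega⟩ h3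
      · exact wit_4_6
      · exact absurd ⟨rfl, rfl⟩ h4
      · exact wit_6_6
      · exact wit_7_6
    · -- n = 7
      have hphi : Nat.totient 7 = 6 := by decide +kernel
      rw [hphi] at hb
      have h5 : 2 ^ 6 ≤ (q - 1) ^ 6 := Nat.pow_le_pow_left (by omega) _
      norm_num at h5 hb
      omega
    · -- n = 8
      have hphi : Nat.totient 8 = 4 := by decide +kernel
      rw [hphi] at hb
      have hQ : q < 4 := by
        by_contra hc
        have h5 : 3 ^ 4 ≤ (q - 1) ^ 4 := Nat.pow_le_pow_left (by omega) _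
        norm_num at h5 hb
        omega
      interval_cases q
      · exact wit_3_8
    · -- n = 9
      have hphi : Nat.totient 9 = 6 := by decide +kernel
      rw [hphi] at hb
      have hQ : q < 4 := by
        by_contra hc
        have h5 : 3 ^ 6 ≤ (q - 1) ^ 6 := Nat.pow_le_pow_left (by omega) _
        norm_num at h5 hb
        omega
      interval_cases q
      · exact wit_3_9
    · -- n = 10
      have hphi : Nat.totient 10 = 4 := by decide +kernel
      rw [hphi] at hb
      have hQ : q < 5 := by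
        by_contra hc
        have h5 : 4 ^ 4 ≤ (q - 1) ^ 4 := Nat.pow_le_pow_left (by omega) _
        norm_num at h5 hb
        omega
      interval_cases q
      · exact wit_3_10
      · exact wit_4_10
    · -- n = 11
      have hphi : Nat.totient 11 = 10 := by decide +kernel
      rw [hphi] at hb
      have h5 : 2 ^ 10 ≤ (q - 1) ^ 10 := Nat.pow_le_pow_left (by omega) _
      norm_num at h5 hb
      omega
    · -- n = 12
      have hphi : Nat.totient 12 = 4 := by decide +kernel
      rw [hphi] at hb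
      have hQ : q < 5 := by
        by_contra hc
        have h5 : 4 ^ 4 ≤ (q - 1) ^ 4 := Nat.pow_le_pow_left (by omega) _
        norm_num at h5 hb
        omega
      interval_cases q
      · exact wit_3_12
      · exact wit_4_12
    · -- n = 13
      have hphi : Nat.totient 13 = 12 := by decide +kernel
      rw [hphi] at hb
      have h5 : 2 ^ 12 ≤ (q - 1) ^ 12 := Nat.pow_le_pow_left (by omega) _
      norm_num at h5 hb
      omega
    · -- n = 14
      have hphi : Nat.totient 14 = 6 := by decide +kernel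
      rw [hphi] at hb
      have hQ : q < 4 := by
        by_contra hc
        have h5 : 3 ^ 6 ≤ (q - 1) ^ 6 := Nat.pow_le_pow_left (by omega) _
        norm_num at h5 hb
        omega
      interval_cases q
      · exact wit_3_14
    · -- n = 15
      have hphi : Nat.totient 15 = 8 := by decide +kernel
      rw [hphi] at hb
      have h5 : 2 ^ 8 ≤ (q - 1) ^ 8 := Nat.pow_le_pow_left (by omega) _
      norm_num at h5 hb
      omega
    · -- n = 16
      have hphi : Nat.totient 16 = 8 := by decide +kernel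
      rw [hphi] at hb
      have hQ : q < 4 := by
        by_contra hc
        have h5 : 3 ^ 8 ≤ (q - 1) ^ 8 := Nat.pow_le_pow_left (by omega) _
        norm_num at h5 hb
        omega
      interval_cases q
      · exact wit_3_16
    · -- n = 18
      have hphi : Nat.totient 18 = 6 := by decide +kernel
      rw [hphi] at hb
      have hQ : q < 4 := by
        by_contra hc
        have h5 : 3 ^ 6 ≤ (q - 1) ^ 6 := Nat.pow_le_pow_left (by omega) _
        norm_num at h5 hb
        omega
      interval_cases q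
      · exact wit_3_18
    · -- n = 20
      have hphi : Nat.totient 20 = 8 := by decide +kernel
      rw [hphi] at hb
      have hQ : q < 4 := by
        by_contra hc
        have h5 : 3 ^ 8 ≤ (q - 1) ^ 8 := Nat.pow_le_pow_left (by omega) _
        norm_num at h5 hb
        omega
      interval_cases q
      · exact wit_3_20
    · -- n = 21
      have hphi : Nat.totient 21 = 12 := by decide +kernel
      rw [hphi] at hb
      have h5 : 2 ^ 12 ≤ (q - 1) ^ 12 := Nat.pow_le_pow_left (by omega) _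
      norm_num at h5 hb
      omega
    · -- n = 22
      have hphi : Nat.totient 22 = 10 := by decide +kernel
      rw [hphi] at hb
      have h5 : 2 ^ 10 ≤ (q - 1) ^ 10 := Nat.pow_le_pow_left (by omega) _
      norm_num at h5 hb
      omega
    · -- n = 24
      have hphi : Nat.totient 24 = 8 := by decide +kernel
      rw [hphi] at hb
      have hQ : q < 4 := by
        by_contra hc
        have h5 : 3 ^ 8 ≤ (q - 1) ^ 8 := Nat.pow_le_pow_left (by omega) _
        norm_num at h5 hb
        omega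
      interval_cases q
      · exact wit_3_24
    · -- n = 26
      have hphi : Nat.totient 26 = 12 := by decide +kernel
      rw [hphi] at hb
      have h5 : 2 ^ 12 ≤ (q - 1) ^ 12 := Nat.pow_le_pow_left (by omega) _
      norm_num at h5 hb
      omega
    · -- n = 28
      have hphi : Nat.totient 28 = 12 := by decide +kernel
      rw [hphi] at hb
      have h5 : 2 ^ 12 ≤ (q - 1) ^ 12 := Nat.pow_le_pow_left (by omega) _
      norm_num at h5 hb
      omega
    · -- n = 30
      have hphi : Nat.totient 30 = 8 := by decide +kernel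
      rw [hphi] at hb
      have hQ : q < 4 := by
        by_contra hc
        have h5 : 3 ^ 8 ≤ (q - 1) ^ 8 := Nat.pow_le_pow_left (by omega) _
        norm_num at h5 hb
        omega
      interval_cases q
      · exact wit_3_30
    · -- n = 32
      have hphi : Nat.totient 32 = 16 := by decide +kernel
      rw [hphi] at hb
      have h5 : 2 ^ 16 ≤ (q - 1) ^ 16 := Nat.pow_le_pow_left (by omega) _
      norm_num at h5 hb
      omega
    · -- n = 34
      have hphi : Nat.totient 34 = 16 := by decide +kernel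
      rw [hphi] at hb
      have h5 : 2 ^ 16 ≤ (q - 1) ^ 16 := Nat.pow_le_pow_left (by omega) _
      norm_num at h5 hb
      omega
    · -- n = 36
      have hphi : Nat.totient 36 = 12 := by decide +kernel
      rw [hphi] at hb
      have h5 : 2 ^ 12 ≤ (q - 1) ^ 12 := Nat.pow_le_pow_left (by omega) _
      norm_num at h5 hb
      omega
    · -- n = 38
      have hphi : Nat.totient 38 = 18 := by decide +kernel
      rw [hphi] at hb
      have h5 : 2 ^ 18 ≤ (q - 1) ^ 18 := Nat.pow_le_pow_left (by omega) _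
      norm_num at h5 hb
      omega
    · -- n = 40
      have hphi : Nat.totient 40 = 16 := by decide +kernel
      rw [hphi] at hb
      have h5 : 2 ^ 16 ≤ (q - 1) ^ 16 := Nat.pow_le_pow_left (by omega) _
      norm_num at h5 hb
      omega
    · -- n = 42
      have hphi : Nat.totient 42 = 12 := by decide +kernel
      rw [hphi] at hb
      have h5 : 2 ^ 12 ≤ (q - 1) ^ 12 := Nat.pow_le_pow_left (by omega) _
      norm_num at h5 hb
      omega
    · -- n = 48
      have hphi : Nat.totient 48 = 16 := by decide +kernel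
      rw [hphi] at hb
      have h5 : 2 ^ 16 ≤ (q - 1) ^ 16 := Nat.pow_le_pow_left (by omega) _
      norm_num at h5 hb
      omega
    · -- n = 54
      have hphi : Nat.totient 54 = 18 := by decide +kernel
      rw [hphi] at hb
      have h5 : 2 ^ 18 ≤ (q - 1) ^ 18 := Nat.pow_le_pow_left (by omega) _
      norm_num at h5 hb
      omega
    · -- n = 60
      have hphi : Nat.totient 60 = 16 := by decide +kernel
      rw [hphi] at hb
      have h5 : 2 ^ 16 ≤ (q - 1) ^ 16 := Nat.pow_le_pow_left (by omega) _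
      norm_num at h5 hb
      omega
    · -- n = 66
      have hphi : Nat.totient 66 = 20 := by decide +kernel
      rw [hphi] at hb
      have h5 : 2 ^ 20 ≤ (q - 1) ^ 20 := Nat.pow_le_pow_left (by omega) _
      norm_num at h5 hb
      omega


/-- Let q, n ≥ 2 be integers. Unless (n = 2 and q + 1 = 2^s·3^t for some s ≥ 0 and t ≤ 1), or (q = 2 and n ∈ {4, 6, 10, 12, 18}), or (q = 3 and n ∈ {4, 6}), or (q, n) = (5, 6), there is a prime p dividing q^n − 1 but no q^i − 1 with 1 ≤ i < n (a primitive prime divisor), such that p > n + 1 or p² divides q^n − 1. -/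
theorem result (q n : ℕ) (hq : 2 ≤ q) (hn : 2 ≤ n)
    (h1 : ¬ (n = 2 ∧ ∃ s t : ℕ, t ≤ 1 ∧ q + 1 = 2 ^ s * 3 ^ t))
    (h2 : ¬ (q = 2 ∧ (n = 4 ∨ n = 6 ∨ n = 10 ∨ n = 12 ∨ n = 18)))
    (h3 : ¬ (q = 3 ∧ (n = 4 ∨ n = 6))) (h4 : ¬ (q = 5 ∧ n = 6)) :
    ∃ p : ℕ, p.Prime ∧ p ∣ q ^ n - 1 ∧ (∀ i : ℕ, 1 ≤ i → i < n → ¬ p ∣ q ^ i - 1) ∧ (n + 1 < p ∨ p ^ 2 ∣ q ^ n - 1) := by
  rcases (by omega : n = 2 ∨ 3 ≤ n) with rfl | hn3
  · exact case_two q hq (fun h => h1 ⟨rfl, h⟩)
  · exact case_ge q n hq hn3 h2 h3 h4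

end Cfsg.Agent.S3430
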