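import Cfsg.Statements.S3704
import Mathlib

set_option autoImplicit false
open Cfsg

namespace Cfsg.Agent.S3704

section incidence

variable {G Ω : Type*} [Group G] [MulAction G Ω]

open Classical in
/-- The incidence entry: is `x` in the translate `c • O`? -/
noncomputable def inc (H : Subgroup G) (O : Set Ω) (x : Ω) (c : G ⧸ H) : ℚ :=
  if (c.out)⁻¹ • x ∈ O then 1 else 0

open Classical in
lemma inc_mk (H : Subgroup G) (O : Set Ω) (hinv : ∀ h ∈ H, ∀ x, h • x ∈ O ↔ x ∈ O) (x : Ω) (g : G) :
    inc H O x (g : G ⧸ H) = if g⁻¹ • x ∈ O then (1 : ℚ) else 0 := by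
  unfold inc
  obtain ⟨h, hh⟩ := QuotientGroup.mk_out_eq_mul H g
  rw [hh, mul_inv_rev, mul_smul]
  have := hinv (h : G)⁻¹ (H.inv_mem h.2) (g⁻¹ • x)
  simp only [this]

lemma inc_smul (H : Subgroup G) (O : Set Ω) (hinv : ∀ h ∈ H, ∀ x, h • x ∈ O ↔ x ∈ O) (x : Ω) (g : G)
    (c : G ⧸ H) : inc H O (g • x) (g • c) = inc H O x c := by
  classical
  induction c using QuotientGroup.induction_on with
  | H k =>
    rw [MulAction.Quotient.smul_coe, inc_mk H O hinv, inc_mk H O hinv]
    simp [mul_smul]

lemma inc_nonneg (H : Subgroup G) (O : Set Ω) (x : Ω) (c : G ⧸ H) : 0 ≤ inc H O x c := by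
  classical
  unfold inc; split_ifs <;> norm_num

lemma inc_eq_zero_or_one (H : Subgroup G) (O : Set Ω) (x : Ω) (c : G ⧸ H) :
    inc H O x c = 0 ∨ inc H O x c = 1 := by
  classical
  unfold inc; split_ifs <;> simp

lemma inc_le_one (H : Subgroup G) (O : Set Ω) (x : Ω) (c : G ⧸ H) : inc H O x c ≤ 1 := by
  classical
  unfold inc; split_ifs <;> norm_num

/-- `∑ c, inc O x c * inc O' y c`. -/
noncomputable def pair (H : Subgroup G) [Fintype (G ⧸ H)] (O O' : Set Ω) (x y : Ω) : ℚ :=
  ∑ c : G ⧸ H, inc H O x c * inc H O' y c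

lemma pair_smul (H : Subgroup G) [Fintype (G ⧸ H)] (O O' : Set Ω)
    (hinv : ∀ h ∈ H, ∀ x, h • x ∈ O ↔ x ∈ O) (hinv' : ∀ h ∈ H, ∀ x, h • x ∈ O' ↔ x ∈ O')
    (g : G) (x y : Ω) : pair H O O' (g • x) (g • y) = pair H O O' x y := by
  unfold pair
  rw [← Equiv.sum_comp (MulAction.toPerm g : Equiv.Perm (G ⧸ H))]
  refine Finset.sum_congr rfl fun c _ => ?_
  rw [MulAction.toPerm_apply, inc_smul H O hinv, inc_smul H O' hinv']

/-- The main point: three disjoint nonempty `H`-invariant sets are impossible. -/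
theorem no_three [Finite G] [Finite Ω] (h2 : MulAction.IsMultiplyPretransitive G Ω 2)
    (H : Subgroup G) (hidx : H.index = Nat.card Ω) (O : Fin 3 → Set Ω)
    (hinv : ∀ i, ∀ h ∈ H, ∀ x, h • x ∈ O i ↔ x ∈ O i)
    (p : Fin 3 → Ω) (hp : ∀ i j, p i ∈ O j ↔ i = j) : False := by
  classical
  have hfinQ : Finite (G ⧸ H) := inferInstance
  letI := Fintype.ofFinite Ω
  letI : Fintype (G ⧸ H) := Fintype.ofFinite _
  have h01 : p 0 ≠ p 1 := by
    intro h
    have h3 : p 1 ∈ O 0 := by rw [← h, hp]
    rw [hp] at h3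
    exact absurd h3 (by decide)
  -- the invariant values
  let b : Fin 3 → ℚ := fun i => pair H (O 0) (O i) (p 0) (p 1)
  let d : Fin 3 → ℚ := fun i => pair H (O 0) (O i) (p 0) (p 0)
  have htrans : MulAction.IsPretransitive G Ω := MulAction.isPretransitive_of_is_two_pretransitive
  have hform : ∀ i x y, pair H (O 0) (O i) x y = (if x = y then d i - b i else 0) + b i := by
    intro i x y
    by_cases hxy : x = y
    · subst hxy
      simp only [if_true, sub_add_cancel]
      obtain ⟨g, hg⟩ := MulAction.exists_smul_eq G (p 0) x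
      show _ = pair H (O 0) (O i) (p 0) (p 0)
      rw [← hg, pair_smul H _ _ (hinv 0) (hinv i)]
    · simp only [hxy, if_false, zero_add]
      obtain ⟨g, hg, hg'⟩ := MulAction.is_two_pretransitive_iff.1 h2 h01 hxy
      show _ = pair H (O 0) (O i) (p 0) (p 1)
      rw [← hg, ← hg', pair_smul H _ _ (hinv 0) (hinv i)]
  have hb0 : 0 ≤ b 0 := Finset.sum_nonneg fun c _ => mul_nonneg (inc_nonneg _ _ _ _) (inc_nonneg _ _ _ _)
  have ha0 : 0 < d 0 - b 0 := by
    show 0 < pair H (O 0) (O 0) (p 0) (p 0) - pair H (O 0) (O 0) (p 0) (p 1)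
    unfold pair
    rw [← Finset.sum_sub_distrib]
    apply Finset.sum_pos' (s := Finset.univ)
    · intro c _
      rw [← mul_sub]
      rcases inc_eq_zero_or_one H (O 0) (p 0) c with h | h
      · rw [h, zero_mul]
      · rw [h, one_mul]
        linarith [inc_le_one H (O 0) (p 1) c]
    · refine ⟨((1 : G) : G ⧸ H), Finset.mem_univ _, ?_⟩
      rw [inc_mk H _ (hinv 0), inc_mk H _ (hinv 0)]
      have h1 : p 0 ∈ O 0 := (hp 0 0).2 rfl
      have h3 : p 1 ∉ O 0 := fun h => absurd ((hp 1 0).1 h) (by decide)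
      simp [h1, h3]
  -- the matrix
  let A : Matrix Ω (G ⧸ H) ℚ := fun x c => inc H (O 0) x c
  have hT : ∀ (v : Ω → ℚ) (x : Ω), A.mulVec (A.transpose.mulVec v) x
      = (d 0 - b 0) * v x + b 0 * ∑ y, v y := by
    intro v x
    have h1 : A.mulVec (A.transpose.mulVec v) x = ∑ y, pair H (O 0) (O 0) x y * v y := by
      have hAx : ∀ (Y : G ⧸ H → ℚ) x, A.mulVec Y x = ∑ c, inc H (O 0) x c * Y c := fun _ _ => rfl
      have hAt : ∀ (v : Ω → ℚ) c, A.transpose.mulVec v c = ∑ y, inc H (O 0) y c * v y := fun _ _ => rfl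
      rw [hAx]
      simp only [hAt, pair, Finset.mul_sum, Finset.sum_mul]
      rw [Finset.sum_comm]
      refine Finset.sum_congr rfl fun y _ => Finset.sum_congr rfl fun c _ => ?_
      ring
    rw [h1]
    simp only [hform, add_mul, ite_mul, zero_mul, Finset.sum_add_distrib, Finset.mul_sum]
    simp
  let T : (Ω → ℚ) →ₗ[ℚ] (Ω → ℚ) := A.mulVecLin ∘ₗ A.transpose.mulVecLin
  have hTinj : Function.Injective T := by
    rw [injective_iff_map_eq_zero]
    intro v hv
    have h1 : ∀ x, (d 0 - b 0) * v x + b 0 * ∑ y, v y = 0 := by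
      intro x
      rw [← hT]
      exact congrFun hv x
    have h2 : (d 0 - b 0 + Fintype.card Ω * b 0) * ∑ y, v y = 0 := by
      have h3 : ∑ x, ((d 0 - b 0) * v x + b 0 * ∑ y, v y) = 0 :=
        Finset.sum_eq_zero fun x _ => h1 x
      rw [Finset.sum_add_distrib, ← Finset.mul_sum, Finset.sum_const, Finset.card_univ, nsmul_eq_mul] at h3
      linarith
    have h3 : 0 < d 0 - b 0 + Fintype.card Ω * b 0 := by positivity
    have h4 : ∑ y, v y = 0 := by
      rcases mul_eq_zero.1 h2 with h | h
      · exact absurd h h3.ne'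
      · exact h
    funext x
    have h5 := h1 x
    rw [h4, mul_zero, add_zero] at h5
    rcases mul_eq_zero.1 h5 with h | h
    · exact absurd h ha0.ne'
    · exact h
  have hTsurj : Function.Surjective T := LinearMap.injective_iff_surjective.1 hTinj
  have hAsurj : Function.Surjective A.mulVecLin := fun w => by
    obtain ⟨v, hv⟩ := hTsurj w
    exact ⟨A.transpose.mulVecLin v, hv⟩
  have hfr : Module.finrank ℚ (G ⧸ H → ℚ) = Module.finrank ℚ (Ω → ℚ) := by
    rw [Module.finrank_fintype_fun_eq_card, Module.finrank_fintype_fun_eq_card,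
      ← Nat.card_eq_fintype_card, ← Nat.card_eq_fintype_card, ← hidx]
    rfl
  have hAinj : Function.Injective A.mulVecLin :=
    (LinearMap.injective_iff_surjective_of_finrank_eq_finrank hfr).2 hAsurj
  -- the linear relation
  let M : Matrix (Fin 2) (Fin 3) ℚ := fun r i => if r = 0 then d i - b i else b i
  have hker : LinearMap.ker M.mulVecLin ≠ ⊥ := M.mulVecLin.ker_ne_bot_of_finrank_lt (by simp)
  obtain ⟨c, hc, hc0⟩ := (Submodule.ne_bot_iff _).1 hker
  have hc1 : ∑ i, (d i - b i) * c i = 0 := by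
    have h0 : ∑ i, M 0 i * c i = 0 := congrFun (LinearMap.mem_ker.1 hc) 0
    simpa [M] using h0
  have hc2 : ∑ i, b i * c i = 0 := by
    have h0 : ∑ i, M 1 i * c i = 0 := congrFun (LinearMap.mem_ker.1 hc) 1
    simpa [M] using h0
  apply hc0
  funext j
  -- `Y y`
  let Y : Ω → (G ⧸ H) → ℚ := fun y e => ∑ i, c i * inc H (O i) y e
  have hY : ∀ y, Y y = 0 := by
    intro y
    apply hAinj
    rw [map_zero]
    funext x
    have h1 : A.mulVecLin (Y y) x = ∑ i, pair H (O 0) (O i) x y * c i := by
      have hAx : ∀ (Y : G ⧸ H → ℚ) x, A.mulVecLin Y x = ∑ c, inc H (O 0) x c * Y c := fun _ _ => rfl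
      rw [hAx]
      simp only [Y, pair, Finset.mul_sum, Finset.sum_mul]
      rw [Finset.sum_comm]
      refine Finset.sum_congr rfl fun i _ => Finset.sum_congr rfl fun e _ => ?_
      ring
    rw [h1]
    show _ = (0 : ℚ)
    by_cases hxy : x = y
    · simp only [hform, hxy, if_true, add_mul, Finset.sum_add_distrib]
      rw [hc1, hc2, add_zero]
    · simp only [hform, hxy, if_false, zero_add]
      exact hc2
  have h3 := congrFun (hY (p j)) ((1 : G) : G ⧸ H)
  simp only [Y] at h3
  rw [Finset.sum_eq_single j] at h3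
  · rw [inc_mk H _ (hinv j)] at h3
    have h1 : p j ∈ O j := (hp j j).2 rfl
    simpa [h1] using h3
  · intro i _ hij
    rw [inc_mk H _ (hinv i)]
    have h4 : p j ∉ O i := fun h => hij ((hp j i).1 h).symm
    simp [h4]
  · intro h
    exact absurd (Finset.mem_univ _) h

end incidence

/-- Let G be a finite group acting faithfully and 2-transitively on a finite set Ω of size n, and let H be a subgroup of index n in G which is not transitive on Ω and fixes no point of Ω. Then H has exactly two orbits on Ω. -/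
theorem result {G Ω : Type*} [Group G] [Finite G] [MulAction G Ω] [FaithfulSMul G Ω] [Finite Ω] (h2 : MulAction.IsMultiplyPretransitive G Ω 2) (H : Subgroup G) (hidx : H.index = Nat.card Ω) (hnt : ¬ MulAction.IsPretransitive H Ω) (hfix : ∀ a : Ω, ∃ h : H, h • a ≠ a) : Nat.card (MulAction.orbitRel.Quotient H Ω) = 2 := by
  classical
  have hne : Nonempty Ω := by
    by_contra h
    rw [not_nonempty_iff] at h
    have h1 : Nat.card Ω = 0 := Nat.card_of_isEmpty
    have h3 := H.index_ne_zero_of_finite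
    omega
  have hfin : Finite (MulAction.orbitRel.Quotient H Ω) := inferInstance
  letI := Fintype.ofFinite (MulAction.orbitRel.Quotient H Ω)
  rw [Nat.card_eq_fintype_card]
  have h1 : ¬ Fintype.card (MulAction.orbitRel.Quotient H Ω) ≤ 1 := by
    intro h
    apply hnt
    rw [MulAction.pretransitive_iff_subsingleton_quotient]
    exact Fintype.card_le_one_iff_subsingleton.1 h
  have h3 : ¬ 2 < Fintype.card (MulAction.orbitRel.Quotient H Ω) := by
    intro h
    obtain ⟨q0, q1, q2, h01, h02, h12⟩ := Fintype.two_lt_card_iff.1 h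
    let q : Fin 3 → MulAction.orbitRel.Quotient H Ω := ![q0, q1, q2]
    have hqinj : Function.Injective q := by
      intro i j hij
      fin_cases i <;> fin_cases j <;> simp_all [q]
    refine no_three h2 H hidx (fun i => MulAction.orbit H (q i).out) ?_ (fun i => (q i).out) ?_
    · intro i h hh x
      have h6 : h • x = (⟨h, hh⟩ : H) • x := rfl
      rw [h6]
      constructor
      · rintro ⟨k, hk⟩
        refine ⟨(⟨h, hh⟩ : H)⁻¹ * k, ?_⟩
        have hk' : k • (q i).out = (⟨h, hh⟩ : H) • x := hk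
        show ((⟨h, hh⟩ : H)⁻¹ * k) • (q i).out = x
        rw [mul_smul, hk', inv_smul_smul]
      · rintro ⟨k, hk⟩
        refine ⟨(⟨h, hh⟩ : H) * k, ?_⟩
        have hk' : k • (q i).out = x := hk
        show ((⟨h, hh⟩ : H) * k) • (q i).out = _
        rw [mul_smul, hk']
    · intro i j
      constructor
      · intro hmem
        apply hqinj
        have h4 : (MulAction.orbitRel H Ω).r (q i).out (q j).out := hmem
        have h5 := Quotient.sound h4
        simpa using h5
      · rintro rfl
        exact MulAction.mem_orbit_self _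
  omega

end Cfsg.Agent.S3704
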