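import Cfsg.Statements.S3707
import Mathlib

set_option autoImplicit false
open Cfsg

namespace Cfsg.Agent.S3707

section counting

variable {G Ω : Type*} [Group G] [MulAction G Ω]

/-- number of group elements moving the pair `(p, q)` into `Γ`. -/
noncomputable def cnt [Finite G] (Γ : Set Ω) (p q : Ω) : ℕ :=
  Nat.card {g : G // g • p ∈ Γ ∧ g • q ∈ Γ}

lemma cnt_smul [Finite G] (Γ : Set Ω) (p q : Ω) (h : G) :
    cnt (G := G) Γ (h • p) (h • q) = cnt (G := G) Γ p q := by
  unfold cnt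
  refine Nat.card_congr ((Equiv.mulRight h).subtypeEquiv ?_)
  intro g
  simp [mul_smul]

lemma cnt_eq [Finite G] (h2 : MulAction.IsMultiplyPretransitive G Ω 2) (Γ : Set Ω) {p q p' q' : Ω}
    (hpq : p ≠ q) (hpq' : p' ≠ q') :
    cnt (G := G) Γ p q = cnt (G := G) Γ p' q' := by
  obtain ⟨g, rfl, rfl⟩ := MulAction.is_two_pretransitive_iff.1 h2 hpq hpq'
  exact (cnt_smul Γ p q g).symm

/-- The double count: `∑_{q ≠ b} cnt b q = N (m - 1)`. -/
lemma cnt_sum [Fintype G] [Fintype Ω] [DecidableEq Ω] (Γ : Set Ω) (b : Ω) :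
    ∑ q ∈ (Finset.univ.erase b : Finset Ω), cnt (G := G) Γ b q
      = Nat.card {g : G // g • b ∈ Γ} * (Γ.ncard - 1) := by
  classical
  let A : Finset G := Finset.univ.filter (fun g => g • b ∈ Γ)
  have hN : Nat.card {g : G // g • b ∈ Γ} = A.card := by
    rw [Nat.card_eq_fintype_card, Fintype.card_subtype]
  have hc : ∀ q, cnt (G := G) Γ b q = (A.filter (fun g => g • q ∈ Γ)).card := by
    intro q
    unfold cnt
    rw [Nat.card_eq_fintype_card, Fintype.card_subtype, Finset.filter_filter]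
  simp_rw [hc]
  have := Finset.sum_card_bipartiteAbove_eq_sum_card_bipartiteBelow
    (s := (Finset.univ.erase b : Finset Ω)) (t := A) (fun q g => g • q ∈ Γ)
  simp only [Finset.bipartiteAbove, Finset.bipartiteBelow] at this
  rw [this, hN, Finset.sum_const_nat (m := Γ.ncard - 1)]
  intro g hg
  have hgb : g • b ∈ Γ := by simpa [A] using hg
  have h1 : (Finset.univ.filter (fun q : Ω => g • q ∈ Γ)).card = Γ.ncard := by
    have : ((Finset.univ.filter (fun q : Ω => g • q ∈ Γ) : Finset Ω) : Set Ω) = (fun x => g⁻¹ • x) '' Γ := by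
      ext x
      simp only [Finset.coe_filter, Finset.mem_univ, true_and, Set.mem_setOf_eq, Set.mem_image]
      constructor
      · intro hx
        exact ⟨g • x, hx, by simp⟩
      · rintro ⟨y, hy, rfl⟩
        simpa using hy
    rw [← Set.ncard_coe_finset, this, Set.ncard_image_of_injective _ (MulAction.injective g⁻¹)]
  have h2 : (Finset.univ.erase b).filter (fun q : Ω => g • q ∈ Γ)
      = (Finset.univ.filter (fun q : Ω => g • q ∈ Γ)).erase b := by
    ext x; simp [and_comm]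
  rw [h2, Finset.card_erase_of_mem (by simpa using hgb), h1]

/-- Separation: a translate through `b` avoiding `a` and `c`. -/
lemma separation [Finite G] [Finite Ω] (h2 : MulAction.IsMultiplyPretransitive G Ω 2) (Γ : Set Ω)
    (hm : 2 ≤ Γ.ncard) (hn : 2 * Γ.ncard ≤ Nat.card Ω) {a b c : Ω} (hab : a ≠ b) (hbc : b ≠ c) :
    ∃ g : G, g • b ∈ Γ ∧ g • a ∉ Γ ∧ g • c ∉ Γ := by
  classical
  letI := Fintype.ofFinite G
  letI := Fintype.ofFinite Ω
  by_contra hcon
  push Not at hcon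
  have hf : ∀ q : Ω, q ≠ b → cnt (G := G) Γ b q = cnt (G := G) Γ b a := fun q hq =>
    cnt_eq h2 Γ hq.symm hab.symm
  have hsum := cnt_sum (G := G) Γ b
  rw [Finset.sum_congr rfl (fun q hq => hf q (Finset.ne_of_mem_erase hq)), Finset.sum_const,
    Finset.card_erase_of_mem (Finset.mem_univ b), Finset.card_univ, smul_eq_mul] at hsum
  -- `N ≤ 2 f`
  have hNle : Nat.card {g : G // g • b ∈ Γ} ≤ cnt (G := G) Γ b a + cnt (G := G) Γ b c := by
    have hf2 := hf c hbc.symm
    unfold cnt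
    rw [Nat.card_eq_fintype_card, Nat.card_eq_fintype_card, Nat.card_eq_fintype_card,
      Fintype.card_subtype, Fintype.card_subtype, Fintype.card_subtype]
    refine le_trans (Finset.card_le_card ?_) (Finset.card_union_le _ _)
    intro g hg
    simp only [Finset.mem_filter, Finset.mem_univ, true_and, Finset.mem_union] at hg ⊢
    by_cases hga : g • a ∈ Γ
    · exact Or.inl ⟨hg, hga⟩
    · exact Or.inr ⟨hg, hcon g hg hga⟩
  have hf2 := hf c hbc.symm
  rw [hf2] at hNle
  have hNpos : 0 < Nat.card {g : G // g • b ∈ Γ} := by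
    have : Γ.Nonempty := by
      rw [← Set.ncard_pos]; omega
    obtain ⟨y, hy⟩ := this
    have hne : b ≠ a := hab.symm
    have : Nonempty {g : G // g • b ∈ Γ} := by
      have : ∃ g : G, g • b = y := by
        have htr : MulAction.IsPretransitive G Ω := MulAction.isPretransitive_of_is_two_pretransitive
        exact MulAction.exists_smul_eq G b y
      obtain ⟨g, hg⟩ := this
      exact ⟨⟨g, hg ▸ hy⟩⟩
    exact Nat.card_pos
  rw [Nat.card_eq_fintype_card (α := Ω)] at hn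
  set N := Nat.card {g : G // g • b ∈ Γ}
  set f := cnt (G := G) Γ b a
  set n := Fintype.card Ω
  set m := Γ.ncard
  have h3 : (n - 1) * f = N * (m - 1) := hsum
  have h4 : N * (n - 1) ≤ 2 * f * (n - 1) := Nat.mul_le_mul_right _ (by omega)
  have h5 : N * (n - 1) ≤ N * (2 * (m - 1)) := by
    calc N * (n - 1) ≤ 2 * f * (n - 1) := h4
      _ = 2 * ((n - 1) * f) := by ring
      _ = N * (2 * (m - 1)) := by rw [h3]; ring
  have h6 := Nat.le_of_mul_le_mul_left h5 hNpos
  omega

end counting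

section main

variable {G Ω : Type*} [Group G] [MulAction G Ω]

/-- No nontrivial block for the point stabilizer (Ω-level form). -/
lemma no_block [Finite G] [Finite Ω] (h2 : MulAction.IsMultiplyPretransitive G Ω 2) (Γ : Set Ω)
    (hm : 2 ≤ Γ.ncard) (hn : 2 * Γ.ncard ≤ Nat.card Ω)
    (htr : ∀ x ∈ Γ, ∀ y ∈ Γ, ∃ g : G, (∀ z ∉ Γ, g • z = z) ∧ g • x = y)
    (a : Ω) (Λ : Set Ω) (haΛ : a ∉ Λ)
    (hblock : ∀ h : G, h • a = a → ∀ x ∈ Λ, h • x ∈ Λ → ∀ y ∈ Λ, h • y ∈ Λ)
    {x y z : Ω} (hx : x ∈ Λ) (hy : y ∈ Λ) (hxy : x ≠ y) (hz : z ∉ Λ) (hza : z ≠ a) : False := by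
  classical
  have hxa : x ≠ a := fun h => haΛ (h ▸ hx)
  have hya : y ≠ a := fun h => haΛ (h ▸ hy)
  -- Jordan property of translates
  have hj : ∀ (g : G) (p q : Ω), g • p ∈ Γ → g • q ∈ Γ →
      ∃ j : G, (∀ w, g • w ∉ Γ → j • w = w) ∧ j • p = q := by
    intro g p q hp hq
    obtain ⟨j0, hj0, hj1⟩ := htr _ hp _ hq
    refine ⟨g⁻¹ * j0 * g, ?_, ?_⟩
    · intro w hw
      simp [mul_smul, hj0 _ hw]
    · simp [mul_smul, hj1]
  have hcardsub : ∀ g : G, (∀ t ∈ Λ, g • t ∈ Γ) → Λ.ncard ≤ Γ.ncard := by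
    intro g hg
    have : (fun t => g • t) '' Λ ⊆ Γ := by
      rintro _ ⟨t, ht, rfl⟩
      exact hg t ht
    calc Λ.ncard = ((fun t => g • t) '' Λ).ncard :=
          (Set.ncard_image_of_injective _ (MulAction.injective g)).symm
      _ ≤ Γ.ncard := Set.ncard_le_ncard this (Set.toFinite _)
  -- (A) the translate inside the block
  have hA : Γ.ncard < Λ.ncard := by
    obtain ⟨g, hg1, hg2, hg3⟩ := separation (G := G) h2 Γ hm hn (a := a) (b := x) (c := y) hxa.symm hxy
    have hsub : ∀ t : Ω, g • t ∈ Γ → t ∈ Λ := by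
      intro t ht
      obtain ⟨j, hj1, hj2⟩ := hj g x t hg1 ht
      have hja : j • a = a := hj1 a hg2
      have hjy : j • y = y := hj1 y hg3
      rw [← hj2]
      exact hblock j hja y hy (by rw [hjy]; exact hy) x hx
    have h3 : (fun t => g⁻¹ • t) '' Γ ⊆ Λ := by
      rintro _ ⟨t, ht, rfl⟩
      apply hsub
      simpa using ht
    have h4 : (fun t => g⁻¹ • t) '' Γ ⊂ Λ := by
      refine ⟨h3, fun h5 => ?_⟩
      obtain ⟨t, ht, rfl⟩ := h5 hy
      apply hg3
      simpa using ht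
    calc Γ.ncard = ((fun t => g⁻¹ • t) '' Γ).ncard :=
          (Set.ncard_image_of_injective _ (MulAction.injective g⁻¹)).symm
      _ < Λ.ncard := Set.ncard_lt_ncard h4 (Set.toFinite _)
  -- (B) translates avoiding `a` and meeting the block lie in the block
  have hB : ∀ g : G, g • a ∉ Γ → ∀ u ∈ Λ, g • u ∈ Γ → ∀ t, g • t ∈ Γ → t ∈ Λ := by
    intro g hga u hu hgu t ht
    have : ∃ w ∈ Λ, g • w ∉ Γ := by
      by_contra hcon
      push Not at hcon
      have := hcardsub g hcon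
      omega
    obtain ⟨w, hw, hgw⟩ := this
    obtain ⟨j, hj1, hj2⟩ := hj g u t hgu ht
    rw [← hj2]
    exact hblock j (hj1 a hga) w hw (by rw [hj1 w hgw]; exact hw) u hu
  -- (C), (D)
  have hD : ∀ y' : Ω, y' ∉ Λ → y' ≠ a → ∀ g : G, g • x ∈ Γ → g • a ∈ Γ → g • y' ∈ Γ := by
    intro y' hy' hy'a
    have hxy' : x ≠ y' := fun h => hy' (h ▸ hx)
    have hsub : {g : G | g • x ∈ Γ ∧ g • y' ∈ Γ} ⊆ {g : G | g • x ∈ Γ ∧ g • a ∈ Γ} := by
      rintro g ⟨h1, h3⟩
      refine ⟨h1, ?_⟩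
      by_contra hga
      exact hy' (hB g hga x hx h1 y' h3)
    have hceq : Nat.card {g : G // g • x ∈ Γ ∧ g • y' ∈ Γ} = Nat.card {g : G // g • x ∈ Γ ∧ g • a ∈ Γ} :=
      cnt_eq h2 Γ hxy' hxa
    have heq : {g : G | g • x ∈ Γ ∧ g • y' ∈ Γ} = {g : G | g • x ∈ Γ ∧ g • a ∈ Γ} := by
      apply Set.eq_of_subset_of_ncard_le hsub _ (Set.toFinite _)
      exact le_of_eq hceq.symm
    intro g h1 h3
    have : g ∈ {g : G | g • x ∈ Γ ∧ g • y' ∈ Γ} := by
      rw [heq]; exact ⟨h1, h3⟩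
    exact this.2
  -- (E)
  obtain ⟨p, hp, q, hq, hpq⟩ : Γ.Nontrivial := by
    rw [← Set.one_lt_ncard_iff_nontrivial]; omega
  obtain ⟨g1, hg1, hg2⟩ := MulAction.is_two_pretransitive_iff.1 h2 hxa hpq
  obtain ⟨h, hh1, hh2⟩ := MulAction.is_two_pretransitive_iff.1 h2 hxa hza
  have hcont : ∀ t ∈ Λ, (g1 * h) • t ∈ Γ := by
    intro t ht
    rw [mul_smul]
    apply hD (h • t) _ _ g1 (by rw [hg1]; exact hp) (by rw [hg2]; exact hq)
    · intro hc
      have := hblock h hh2 t ht hc x hx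
      rw [hh1] at this
      exact hz this
    · intro hc
      have : h • t = h • a := by rw [hh2, hc]
      have h5 : t = a := smul_left_cancel h this
      exact haΛ (h5 ▸ ht)
  have := hcardsub _ hcont
  omega

end main

/-- Let G be a finite primitive permutation group on Ω of degree n and Γ ⊂ Ω a subset with 1 < #Γ ≤ n/2 such that the pointwise stabilizer of Ω ∖ Γ is transitive on Γ. Then G is 3-transitive on Ω. -/
theorem result {G Ω : Type*} [Group G] [Finite G] [MulAction G Ω] [FaithfulSMul G Ω] [Finite Ω] (hprim : MulAction.IsPreprimitive G Ω) (Γ : Set Ω) (h1 : 1 < Γ.ncard) (h2 : 2 * Γ.ncard ≤ Nat.card Ω) (htr : ∀ x ∈ Γ, ∀ y ∈ Γ, ∃ g : G, (∀ z ∉ Γ, g • z = z) ∧ g • x = y) : MulAction.IsMultiplyPretransitive G Ω 3 := by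
  classical
  have hm : 2 ≤ Γ.ncard := h1
  have hc := Set.ncard_add_ncard_compl Γ
  -- 2-transitivity
  have hJ : MulAction.IsPretransitive ↥(fixingSubgroup G Γᶜ) ↥(SubMulAction.ofFixingSubgroup G Γᶜ) := by
    constructor
    rintro ⟨x, hx⟩ ⟨y, hy⟩
    have hx' : x ∈ Γ := by
      rw [SubMulAction.mem_ofFixingSubgroup_iff] at hx; simpa using hx
    have hy' : y ∈ Γ := by
      rw [SubMulAction.mem_ofFixingSubgroup_iff] at hy; simpa using hy
    obtain ⟨g, hg1, hg2⟩ := htr x hx' y hy'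
    refine ⟨⟨g, ?_⟩, Subtype.ext hg2⟩
    rw [mem_fixingSubgroup_iff]
    intro z hz
    exact hg1 z hz
  obtain ⟨k, hk⟩ : ∃ k, Γᶜ.ncard = k + 1 := ⟨Γᶜ.ncard - 1, by omega⟩
  have h2t : MulAction.IsMultiplyPretransitive G Ω 2 :=
    hprim.is_two_pretransitive hk (by omega) hJ
  have htrG : MulAction.IsPretransitive G Ω := MulAction.isPretransitive_of_is_two_pretransitive
  -- a point outside `Γ`
  obtain ⟨a, ha⟩ : ∃ a, a ∉ Γ := by
    by_contra hcon
    push Not at hcon
    have : Γ = Set.univ := Set.eq_univ_of_forall hcon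
    rw [this, Set.ncard_univ] at h2
    omega
  have h3eq : (3 : ℕ) = Nat.succ 2 := rfl
  rw [h3eq, SubMulAction.ofStabilizer.isMultiplyPretransitive (a := a)]
  -- primitivity of the stabilizer
  have hSt : MulAction.IsPretransitive (MulAction.stabilizer G a) (SubMulAction.ofStabilizer G a) := by
    rw [← MulAction.is_one_pretransitive_iff, ← SubMulAction.ofStabilizer.isMultiplyPretransitive]
    exact h2t
  have hSp : MulAction.IsPreprimitive (MulAction.stabilizer G a) (SubMulAction.ofStabilizer G a) := by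
    refine { hSt with isTrivialBlock_of_isBlock := ?_ }
    intro B hB
    by_contra hnt
    unfold MulAction.IsTrivialBlock at hnt
    push Not at hnt
    obtain ⟨⟨x, hx, y, hy, hxy⟩, hB2⟩ := hnt
    obtain ⟨z, hz⟩ := (Set.ne_univ_iff_exists_notMem _).1 hB2
    refine no_block h2t Γ hm h2 htr a (Subtype.val '' B) (by rintro ⟨b, _, hb⟩; exact b.2 hb) ?_
      (x := x) (y := y) (z := z) ⟨x, hx, rfl⟩ ⟨y, hy, rfl⟩ (fun h => hxy (Subtype.ext h)) ?_ z.2
    · rintro h hha _ ⟨u, hu, rfl⟩ ⟨v, hv, hvu⟩ _ ⟨w, hw, rfl⟩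
      have hh : h ∈ MulAction.stabilizer G a := hha
      have hs : (⟨h, hh⟩ : MulAction.stabilizer G a) • u = v := by
        apply Subtype.ext
        exact hvu.symm
      have hb := (MulAction.isBlock_iff_smul_eq_of_mem.1 hB) hu (by rw [hs]; exact hv)
      have : (⟨h, hh⟩ : MulAction.stabilizer G a) • w ∈ B := by
        rw [← hb]; exact Set.smul_mem_smul_set hw
      exact ⟨_, this, rfl⟩
    · rintro ⟨w, hw, hwz⟩
      have : w = z := Subtype.ext hwz
      exact hz (this ▸ hw)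
  -- Jordan set in the stabilizer
  set s' : Set (SubMulAction.ofStabilizer G a) := Subtype.val ⁻¹' Γᶜ with hs'
  have hmemstab : ∀ g : G, (∀ z ∉ Γ, g • z = z) → g ∈ MulAction.stabilizer G a := fun g hg => hg a ha
  have hJ' : MulAction.IsPretransitive ↥(fixingSubgroup (MulAction.stabilizer G a) s')
      ↥(SubMulAction.ofFixingSubgroup (MulAction.stabilizer G a) s') := by
    constructor
    rintro ⟨x, hx⟩ ⟨y, hy⟩
    have hx' : (x : Ω) ∈ Γ := by
      rw [SubMulAction.mem_ofFixingSubgroup_iff] at hx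
      simpa [hs'] using hx
    have hy' : (y : Ω) ∈ Γ := by
      rw [SubMulAction.mem_ofFixingSubgroup_iff] at hy
      simpa [hs'] using hy
    obtain ⟨g, hg1, hg2⟩ := htr x hx' y hy'
    refine ⟨⟨⟨g, hmemstab g hg1⟩, ?_⟩, ?_⟩
    · rw [mem_fixingSubgroup_iff]
      intro z hz
      apply Subtype.ext
      exact hg1 z hz
    · apply Subtype.ext
      apply Subtype.ext
      exact hg2
  -- cardinalities
  have hc1 := SubMulAction.nat_card_ofStabilizer_add_one_eq G a
  have hcs' : s'.ncard + 1 = Γᶜ.ncard := by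
    have h5 : Subtype.val '' s' = Γᶜ \ {a} := by
      ext x
      constructor
      · rintro ⟨y, hy, rfl⟩
        exact ⟨hy, y.2⟩
      · rintro ⟨hx, hxa⟩
        exact ⟨⟨x, hxa⟩, hx, rfl⟩
    rw [← Set.ncard_image_of_injective s' Subtype.val_injective, h5]
    exact Set.ncard_sdiff_singleton_add_one ha (Set.toFinite _)
  obtain ⟨k', hk'⟩ : ∃ k', s'.ncard = k' + 1 := ⟨s'.ncard - 1, by omega⟩
  exact hSp.is_two_pretransitive hk' (by omega) hJ'

end Cfsg.Agent.S3707
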