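import Cfsg.Statements.S3733
import Mathlib

set_option autoImplicit false
open Cfsg

namespace Cfsg.Agent.S3733

/-- Let A and V be subgroups of a finite group with V abelian and nontrivial and A normalizing V. Suppose a nonempty finite family of proper subgroups of A partitions A: every non-identity element of A lies in exactly one member. If the number of members minus one is coprime to the order of V, then some member B of the family has a non-identity fixed point on V, that is V ∩ C(B) ≠ 1. -/
theorem result {G : Type*} [Group G] [Finite G] (A V : Subgroup G) (hVab : IsMulCommutative V) (hV : V ≠ ⊥) (hAV : A ≤ Subgroup.normalizer (V : Set G)) (𝒜 : Finset (Subgroup G)) (hne : 𝒜.Nonempty) (hprop : ∀ B ∈ 𝒜, B < A) (hpart : ∀ a ∈ A, a ≠ 1 → ∃! B, B ∈ 𝒜 ∧ a ∈ B) (hk : (𝒜.card - 1).Coprime (Nat.card V)) : ∃ B ∈ 𝒜, V ⊓ Subgroup.centralizer (B : Set G) ≠ ⊥ := by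
  classical
  by_contra hcon
  push Not at hcon
  have _ := Fintype.ofFinite G
  let _ : CommGroup V := { (inferInstance : Group V) with mul_comm := hVab.is_comm.comm }
  -- conjugation by elements of A preserves V
  have hconj : ∀ a ∈ A, ∀ v ∈ V, a * v * a⁻¹ ∈ V := by
    intro a ha v hv
    exact (Subgroup.mem_normalizer_iff.mp (hAV ha) v).mp hv
  let φ : A → V →* V := fun a => MonoidHom.mk' (fun v => ⟨a * v * (a : G)⁻¹, hconj a a.2 v v.2⟩) (by
    intro v w; ext; simp [mul_assoc])
  have φval : ∀ (a : A) (v : V), ((φ a v : V) : G) = a * v * (a : G)⁻¹ := fun a v => rfl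
  have φmul : ∀ (a b : A) (v : V), φ a (φ b v) = φ (a * b) v := by
    intro a b v; ext; simp [φval, mul_assoc]
  have φone : ∀ v : V, φ 1 v = v := by intro v; ext; simp [φval]
  let N : Subgroup G → V → V := fun B v => ∏ a : A, if (a : G) ∈ B then φ a v else 1
  -- elements of `B ≤ A` fix the norm
  have hfix : ∀ (B : Subgroup G) (v : V) (b : A), (b : G) ∈ B → φ b (N B v) = N B v := by
    intro B v b hb
    show φ b (∏ a : A, if (a : G) ∈ B then φ a v else 1) = ∏ a : A, if (a : G) ∈ B then φ a v else 1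
    rw [map_prod]
    refine Fintype.prod_equiv (Equiv.mulLeft b) _ _ ?_
    intro a
    have hiff : ((b * a : A) : G) ∈ B ↔ (a : G) ∈ B := by
      rw [Subgroup.coe_mul]; exact Subgroup.mul_mem_cancel_left B hb
    show φ b (if (a : G) ∈ B then φ a v else 1) = if ((b * a : A) : G) ∈ B then φ (b * a) v else 1
    by_cases ha : (a : G) ∈ B
    · rw [if_pos ha, if_pos (hiff.mpr ha), φmul]
    · rw [if_neg ha, if_neg (fun h => ha (hiff.mp h)), map_one]
  -- fixed points vanish
  have hzero : ∀ (B : Subgroup G), B ∈ 𝒜 → ∀ x : V, (∀ b : A, (b : G) ∈ B → φ b x = x) → x = 1 := by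
    intro B hB x hx
    have hBA : B ≤ A := (hprop B hB).le
    have hmem : (x : G) ∈ V ⊓ Subgroup.centralizer (B : Set G) := by
      refine ⟨x.2, ?_⟩
      show (x : G) ∈ Subgroup.centralizer (B : Set G)
      rw [Subgroup.mem_centralizer_iff]
      intro b hb
      have := congrArg Subtype.val (hx ⟨b, hBA hb⟩ hb)
      rw [φval] at this
      simp only at this
      rw [mul_inv_eq_iff_eq_mul] at this
      exact this
    rw [hcon B hB, Subgroup.mem_bot] at hmem
    exact Subtype.ext hmem
  have hNB : ∀ B ∈ 𝒜, ∀ v : V, N B v = 1 := by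
    intro B hB v
    exact hzero B hB _ (fun b hb => hfix B v b hb)
  have hNA : ∀ v : V, N A v = 1 := by
    intro v
    obtain ⟨B, hB⟩ := hne
    exact hzero B hB _ (fun b _ => hfix A v b b.2)
  -- the counting identity
  have hid : ∀ v : V, ∏ B ∈ 𝒜, N B v = N A v * v ^ (𝒜.card - 1) := by
    intro v
    have h1 : ∏ B ∈ 𝒜, N B v = ∏ a : A, ∏ B ∈ 𝒜, if (a : G) ∈ B then φ a v else 1 := by
      show ∏ B ∈ 𝒜, ∏ a : A, (if (a : G) ∈ B then φ a v else 1) = _
      exact Finset.prod_comm
    have h2 : ∀ a : A, (∏ B ∈ 𝒜, if (a : G) ∈ B then φ a v else 1)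
        = φ a v * (if a = 1 then v ^ (𝒜.card - 1) else 1) := by
      intro a
      rw [Finset.prod_ite, Finset.prod_const_one, mul_one, Finset.prod_const]
      by_cases ha1 : a = 1
      · subst ha1
        have : (𝒜.filter (fun B => ((1 : A) : G) ∈ B)) = 𝒜 := by
          apply Finset.filter_true_of_mem
          intro B _
          exact B.one_mem
        rw [this, φone, if_pos rfl, ← pow_succ']
        congr 1
        have := Finset.card_pos.mpr hne
        omega
      · have ha1' : (a : G) ≠ 1 := fun h => ha1 (Subtype.ext h)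
        obtain ⟨B₀, ⟨hB₀, haB₀⟩, huniq⟩ := hpart a a.2 ha1'
        have : (𝒜.filter (fun B => (a : G) ∈ B)) = {B₀} := by
          ext B
          simp only [Finset.mem_filter, Finset.mem_singleton]
          constructor
          · rintro ⟨h1, h2⟩; exact huniq B ⟨h1, h2⟩
          · rintro rfl; exact ⟨hB₀, haB₀⟩
        rw [this, Finset.card_singleton, pow_one, if_neg ha1, mul_one]
    rw [h1, Finset.prod_congr rfl (fun a _ => h2 a), Finset.prod_mul_distrib]
    congr 1
    · show _ = ∏ a : A, if (a : G) ∈ A then φ a v else 1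
      exact Finset.prod_congr rfl (fun a _ => by rw [if_pos a.2])
    · rw [Finset.prod_ite_eq']; simp
  have hpow : ∀ v : V, v ^ (𝒜.card - 1) = 1 := by
    intro v
    have := hid v
    rw [Finset.prod_eq_one (fun B hB => hNB B hB v), hNA v, one_mul] at this
    exact this.symm
  apply hV
  rw [Subgroup.eq_bot_iff_forall]
  intro x hx
  have h1 : (⟨x, hx⟩ : V) ^ (𝒜.card - 1) = 1 := hpow ⟨x, hx⟩
  have h2 : (⟨x, hx⟩ : V) ^ (Nat.card V) = 1 := pow_card_eq_one'
  have h3 := pow_gcd_eq_one.mpr ⟨h1, h2⟩
  rw [hk.gcd_eq_one, pow_one] at h3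
  exact congrArg Subtype.val h3

end Cfsg.Agent.S3733
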