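import Cfsg.Statements.S3734
import Cfsg.Agent.Lib.PGroup.AbelianAct
-- import your own Cfsg.Agent.* helpers here

set_option autoImplicit false
open Cfsg

namespace Cfsg.Agent.S3734

open Cfsg.Agent.Lib.PGroup.AbelianAct
open scoped commutatorElement

/-- Let A and G be subgroups of a finite group with A abelian, A normalizing G and the orders of A and G coprime. Then G is generated by the fixed-point subgroups C_G(B) of those subgroups B of A for which A/B is cyclic (that is, A = ⟨B, a⟩ for some a), and [G, A] is generated by the commutator subgroups [C_G(B), A] over the same subgroups B. -/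
theorem result {X : Type*} [Group X] [Finite X] (A G : Subgroup X) (hAab : IsMulCommutative A) (hAG : A ≤ Subgroup.normalizer (G : Set X)) (hcop : (Nat.card A).Coprime (Nat.card G)) : (⨆ B ∈ {B : Subgroup X | B ≤ A ∧ ∃ a ∈ A, B ⊔ Subgroup.zpowers a = A}, G ⊓ Subgroup.centralizer (B : Set X)) = G ∧ (⨆ B ∈ {B : Subgroup X | B ≤ A ∧ ∃ a ∈ A, B ⊔ Subgroup.zpowers a = A}, ⁅G ⊓ Subgroup.centralizer (B : Set X), A⁆) = ⁅G, A⁆ := by
  classical
  have hAc : ∀ a ∈ A, ∀ b ∈ A, a * b = b * a := fun a ha b hb => by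
    have := hAab.is_comm.comm ⟨a, ha⟩ ⟨b, hb⟩
    exact congrArg Subtype.val this
  have hAsol : Group.IsSolvable A := by
    letI : CommGroup A := { (inferInstance : Group A) with mul_comm := fun a b => Subtype.ext (hAc a a.2 b b.2) }
    infer_instance
  set 𝓑 : Set (Subgroup X) := {B : Subgroup X | B ≤ A ∧ ∃ a ∈ A, B ⊔ Subgroup.zpowers a = A} with h𝓑
  set H : Subgroup X := ⨆ B ∈ 𝓑, G ⊓ Subgroup.centralizer (B : Set X) with hHdef
  have hHG : H ≤ G := iSup₂_le fun B _ => inf_le_left
  have hgen : ∀ B ∈ 𝓑, G ⊓ Subgroup.centralizer (B : Set X) ≤ H := fun B hB =>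
    le_iSup₂_of_le (f := fun B (_ : B ∈ 𝓑) => G ⊓ Subgroup.centralizer (B : Set X)) B hB le_rfl
  -- elements centralizing `B` and normalizing `G` normalize `G ⊓ C(B)`
  have hconj : ∀ (B : Subgroup X) (g : X), g ∈ Subgroup.normalizer (G : Set X) → g ∈ Subgroup.centralizer (B : Set X) →
      ∀ x ∈ G ⊓ Subgroup.centralizer (B : Set X), g * x * g⁻¹ ∈ G ⊓ Subgroup.centralizer (B : Set X) := by
    intro B g hg hgB x hx
    refine Subgroup.mem_inf.mpr ⟨(Subgroup.mem_normalizer_iff.mp hg x).mp hx.1, ?_⟩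
    exact mul_mem (mul_mem hgB hx.2) (inv_mem hgB)
  have hA_C : ∀ B : Subgroup X, B ≤ A → A ≤ Subgroup.centralizer (B : Set X) := by
    intro B hB a ha
    refine Subgroup.mem_centralizer_iff.mpr fun b hb => ?_
    exact hAc b (hB hb) a ha
  have hAH : A ≤ Subgroup.normalizer (H : Set X) := by
    intro a ha
    apply mem_normalizer_of_conj
    have hle : H ≤ H.comap (MulAut.conj a).toMonoidHom := by
      refine iSup₂_le fun B hB x hx => ?_
      exact hgen B hB (hconj B a (hAG ha) (hA_C B hB.1 ha) x hx)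
    exact fun x hx => hle hx
  have hGH : G ≤ H := by
    refine Subgroup.eq_of_le_of_card_ge hHG ?_ |>.symm ▸ le_rfl
    apply Nat.le_of_dvd Nat.card_pos
    apply (Nat.factorization_prime_le_iff_dvd Nat.card_pos.ne' Nat.card_pos.ne').mp
    intro q hq
    haveI : Fact q.Prime := ⟨hq⟩
    obtain ⟨P, hP⟩ := Cfsg.Agent.Lib.Hall.exists_invariant_sylow A G hAG hcop (Or.inl hAsol) q
    let Q : Subgroup X := (P : Subgroup G).map G.subtype
    have hQG : Q ≤ G := Subgroup.map_subtype_le _
    have hQp : IsPGroup q Q := P.2.map _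
    have hQH : Q ≤ H := by
      refine invariant_pgroup_le A Q H hAc hP
        (Nat.Coprime.coprime_dvd_right (Subgroup.card_dvd_of_le hQG) hcop) hQp hAH ?_
      intro B hBA hBc x hx
      exact hgen B ⟨hBA, hBc⟩ ⟨hQG hx.1, hx.2⟩
    have hc : Nat.card Q = q ^ (Nat.card G).factorization q := by
      rw [Subgroup.card_map_of_injective G.subtype_injective]
      exact P.card_eq_multiplicity
    have hd : q ^ (Nat.card G).factorization q ∣ Nat.card H := by
      rw [← hc]
      exact Subgroup.card_dvd_of_le hQH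
    exact (Nat.Prime.pow_dvd_iff_le_factorization hq Nat.card_pos.ne').mp hd
  refine ⟨le_antisymm hHG hGH, ?_⟩
  -- second part
  set U : Subgroup X := ⨆ B ∈ 𝓑, ⁅G ⊓ Subgroup.centralizer (B : Set X), A⁆ with hUdef
  have hUgen : ∀ B ∈ 𝓑, ⁅G ⊓ Subgroup.centralizer (B : Set X), A⁆ ≤ U := fun B hB =>
    le_iSup₂_of_le (f := fun B (_ : B ∈ 𝓑) => ⁅G ⊓ Subgroup.centralizer (B : Set X), A⁆) B hB le_rfl
  have hUle : U ≤ ⁅G, A⁆ := iSup₂_le fun B _ => Subgroup.commutator_mono inf_le_left le_rfl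
  have hUG : U ≤ G := hUle.trans (Cfsg.Agent.Lib.Hall.commutator_le_of_normalizes hAG)
  have hnorm_D : ∀ B ∈ 𝓑, A ≤ Subgroup.normalizer ((G ⊓ Subgroup.centralizer (B : Set X) : Subgroup X) : Set X) := by
    intro B hB a ha
    exact mem_normalizer_of_conj (hconj B a (hAG ha) (hA_C B hB.1 ha))
  -- `C_G(A)` normalizes `U`
  have hCN : G ⊓ Subgroup.centralizer (A : Set X) ≤ Subgroup.normalizer (U : Set X) := by
    intro c hc
    apply mem_normalizer_of_conj
    have hle : U ≤ U.comap (MulAut.conj c).toMonoidHom := by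
      refine iSup₂_le fun B hB => ?_
      have hcB : c ∈ Subgroup.centralizer (B : Set X) := by
        refine Subgroup.mem_centralizer_iff.mpr fun b hb => ?_
        exact Subgroup.mem_centralizer_iff.mp hc.2 b (hB.1 hb)
      have hcD : c ∈ Subgroup.normalizer ((G ⊓ Subgroup.centralizer (B : Set X) : Subgroup X) : Set X) :=
        mem_normalizer_of_conj (hconj B c (Subgroup.le_normalizer hc.1) hcB)
      have hcA : c ∈ Subgroup.normalizer ((A : Subgroup X) : Set X) :=
        Cfsg.Agent.Lib.Hall.mem_normalizer_of_mem_centralizer hc.2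
      have h1 := Cfsg.Agent.Lib.Hall.le_normalizer_commutator_of_normalizes hcD hcA
      intro x hx
      exact hUgen B hB ((Subgroup.mem_normalizer_iff.mp h1 x).mp hx)
    exact fun x hx => hle hx
  -- `G = U ⊔ C_G(A)`
  have hGsup : G ≤ U ⊔ (G ⊓ Subgroup.centralizer (A : Set X)) := by
    refine hGH.trans (iSup₂_le fun B hB => ?_)
    have h1 := Cfsg.Agent.Lib.Hall.commutator_sup_centralizer A (G ⊓ Subgroup.centralizer (B : Set X))
      (hnorm_D B hB) (Nat.Coprime.coprime_dvd_right (Subgroup.card_dvd_of_le inf_le_left) hcop) (Or.inl hAsol)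
    rw [← h1]
    refine sup_le ((hUgen B hB).trans le_sup_left) (le_trans ?_ le_sup_right)
    exact inf_le_inf_right _ inf_le_left
  have hGN : G ≤ Subgroup.normalizer (U : Set X) :=
    hGsup.trans (sup_le Subgroup.le_normalizer hCN)
  -- `A` acts trivially modulo `U`
  let T : Subgroup X :=
    { carrier := {g | g ∈ G ∧ ∀ a ∈ A, ⁅g, a⁆ ∈ U}
      mul_mem' := by
        rintro g h ⟨hg, hg2⟩ ⟨hh, hh2⟩
        refine ⟨mul_mem hg hh, fun a ha => ?_⟩
        have e : ⁅g * h, a⁆ = (g * ⁅h, a⁆ * g⁻¹) * ⁅g, a⁆ := by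
          simp only [commutatorElement_def]; group
        rw [e]
        exact mul_mem ((Subgroup.mem_normalizer_iff.mp (hGN hg) _).mp (hh2 a ha)) (hg2 a ha)
      one_mem' := ⟨one_mem _, fun a _ => by simp⟩
      inv_mem' := by
        rintro g ⟨hg, hg2⟩
        refine ⟨inv_mem hg, fun a ha => ?_⟩
        have e : ⁅g⁻¹, a⁆ = g⁻¹ * ⁅g, a⁆⁻¹ * g⁻¹⁻¹ := by
          simp only [commutatorElement_def]; group
        rw [e]
        exact (Subgroup.mem_normalizer_iff.mp (hGN (inv_mem hg)) _).mp (inv_mem (hg2 a ha)) }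
  have hHT : H ≤ T := by
    refine iSup₂_le fun B hB x hx => ⟨hx.1, fun a ha => ?_⟩
    exact hUgen B hB (Subgroup.commutator_mem_commutator hx ha)
  apply le_antisymm hUle
  rw [Subgroup.commutator_le]
  intro g hg a ha
  exact (hHT (hGH hg)).2 a ha

end Cfsg.Agent.S3734
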