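import Cfsg.Statements.S3735
import Cfsg.Agent.Lib.FF.SylowIn
-- import your own Cfsg.Agent.* helpers here

set_option autoImplicit false
open Cfsg Cfsg.Agent.Lib.FF

namespace Cfsg.Agent.S3735

/-- Clifford's Theorem for actions on finite abelian groups, first part. Let H and V be subgroups of a finite group with V abelian and H normalizing V, and let A be a normal subgroup of H. If every H-invariant subgroup of V has an H-invariant complement in V, then every A-invariant subgroup of V has an A-invariant complement in V. -/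
theorem result {G : Type*} [Group G] [Finite G] (H A V : Subgroup G) (hVab : IsMulCommutative V) (hHV : H ≤ Subgroup.normalizer (V : Set G)) (hAH : A ≤ H) (hAn : H ≤ Subgroup.normalizer (A : Set G)) (hss : ∀ U : Subgroup G, U ≤ V → H ≤ Subgroup.normalizer (U : Set G) → ∃ W : Subgroup G, W ≤ V ∧ H ≤ Subgroup.normalizer (W : Set G) ∧ U ⊓ W = ⊥ ∧ U ⊔ W = V) (U : Subgroup G) (hUV : U ≤ V) (hAU : A ≤ Subgroup.normalizer (U : Set G)) : ∃ W : Subgroup G, W ≤ V ∧ A ≤ Subgroup.normalizer (W : Set G) ∧ U ⊓ W = ⊥ ∧ U ⊔ W = V := by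
  classical
  -- commuting subgroups: products
  have hsupmem : ∀ X Y : Subgroup G, X ≤ V → Y ≤ V → ∀ z ∈ X ⊔ Y, ∃ x ∈ X, ∃ y ∈ Y, x * y = z := by
    intro X Y hX hY
    have hcomm : ∀ x ∈ X, ∀ y ∈ Y, x * y = y * x := by
      intro x hx y hy
      have := hVab.is_comm.comm (⟨x, hX hx⟩ : V) ⟨y, hY hy⟩
      exact congrArg Subtype.val this
    let M : Subgroup G :=
      { carrier := {z | ∃ x ∈ X, ∃ y ∈ Y, x * y = z}
        mul_mem' := by
          rintro _ _ ⟨x1, hx1, y1, hy1, rfl⟩ ⟨x2, hx2, y2, hy2, rfl⟩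
          refine ⟨x1 * x2, X.mul_mem hx1 hx2, y1 * y2, Y.mul_mem hy1 hy2, ?_⟩
          have := hcomm x2 hx2 y1 hy1
          calc x1 * x2 * (y1 * y2) = x1 * (x2 * y1) * y2 := by group
            _ = x1 * (y1 * x2) * y2 := by rw [this]
            _ = _ := by group
        one_mem' := ⟨1, X.one_mem, 1, Y.one_mem, by simp⟩
        inv_mem' := by
          rintro _ ⟨x, hx, y, hy, rfl⟩
          refine ⟨x⁻¹, X.inv_mem hx, y⁻¹, Y.inv_mem hy, ?_⟩
          rw [mul_inv_rev]
          have := hcomm x hx y hy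
          calc x⁻¹ * y⁻¹ = (y * x)⁻¹ := by group
            _ = (x * y)⁻¹ := by rw [this]
            _ = y⁻¹ * x⁻¹ := by group }
    have hle : X ⊔ Y ≤ M := by
      refine sup_le (fun x hx => ⟨x, hx, 1, Y.one_mem, mul_one x⟩) (fun y hy => ⟨1, X.one_mem, y, hy, one_mul y⟩)
    exact fun z hz => hle hz
  -- invariance
  let Inv : Subgroup G → Prop := fun X => X ≤ V ∧ A ≤ Subgroup.normalizer (X : Set G)
  let Mn : Subgroup G → Prop := fun X => Inv X ∧ X ≠ ⊥ ∧ ∀ Y, Inv Y → Y ≤ X → Y = ⊥ ∨ Y = X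
  have hHV' : ∀ h ∈ H, V.map (MulAut.conj h).toMonoidHom = V := fun h hh =>
    mem_normalizer_iff_conj.mp (hHV hh)
  have hconjA : ∀ h ∈ H, ∀ a ∈ A, h * a * h⁻¹ ∈ A := fun h hh a ha =>
    (Subgroup.mem_normalizer_iff.mp (hAn hh) a).mp ha
  have hInvConj : ∀ h ∈ H, ∀ X, Inv X → Inv (X.map (MulAut.conj h).toMonoidHom) := by
    intro h hh X hX
    refine ⟨?_, ?_⟩
    · have := conj_mono h hX.1
      rwa [hHV' h hh] at this
    · intro a ha
      rw [mem_normalizer_iff_conj, conj_mul_conj]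
      have e : a * h = h * (h⁻¹ * a * h⁻¹⁻¹) := by group
      rw [e, ← conj_mul_conj]
      congr 1
      exact mem_normalizer_iff_conj.mp (hX.2 (hconjA h⁻¹ (H.inv_mem hh) a ha))
  have hback : ∀ (h : G) (X : Subgroup G), (X.map (MulAut.conj h).toMonoidHom).map (MulAut.conj h⁻¹).toMonoidHom = X := by
    intro h X
    rw [conj_mul_conj, inv_mul_cancel, conj_one']
  have hback' : ∀ (h : G) (X : Subgroup G), (X.map (MulAut.conj h⁻¹).toMonoidHom).map (MulAut.conj h).toMonoidHom = X := by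
    intro h X
    rw [conj_mul_conj, mul_inv_cancel, conj_one']
  have hMnConj : ∀ h ∈ H, ∀ X, Mn X → Mn (X.map (MulAut.conj h).toMonoidHom) := by
    intro h hh X hX
    refine ⟨hInvConj h hh X hX.1, ?_, ?_⟩
    · intro e
      apply hX.2.1
      rw [← hback h X, e]
      simp
    · intro Y hY hle
      have hle' : Y.map (MulAut.conj h⁻¹).toMonoidHom ≤ X := by
        have := conj_mono h⁻¹ hle
        rwa [hback] at this
      rcases hX.2.2 _ (hInvConj h⁻¹ (H.inv_mem hh) Y hY) hle' with e | e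
      · left
        rw [← hback' h Y, e]
        simp
      · right
        rw [← hback' h Y, e]
  have hAH : ∀ X, H ≤ Subgroup.normalizer (X : Set G) → A ≤ Subgroup.normalizer (X : Set G) :=
    fun X hX => hAH.trans hX
  set S : Subgroup G := sSup {X | Mn X} with hS
  have hSV : S ≤ V := sSup_le (fun X hX => hX.1.1)
  have hSnorm : H ≤ Subgroup.normalizer (S : Set G) := by
    intro h hh
    rw [mem_normalizer_iff_conj]
    apply Subgroup.eq_of_le_of_card_ge
    · rw [hS, Subgroup.map_le_iff_le_comap]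
      refine sSup_le (fun X hX => ?_)
      rw [← Subgroup.map_le_iff_le_comap]
      exact le_sSup (hMnConj h hh X hX)
    · rw [card_conj]
  -- existence of minimal subgroups
  have hexMin : ∀ W, Inv W → W ≠ ⊥ → ∃ X, Mn X ∧ X ≤ W := by
    intro W hW hne
    obtain ⟨X, hX, hmin⟩ := (wellFounded_lt : WellFounded ((· < ·) : Subgroup G → Subgroup G → Prop)).has_min
      {Y | Inv Y ∧ Y ≠ ⊥ ∧ Y ≤ W} ⟨W, hW, hne, le_rfl⟩
    refine ⟨X, ⟨hX.1, hX.2.1, ?_⟩, hX.2.2⟩
    intro Y hY hle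
    by_contra hcon
    push Not at hcon
    exact hmin Y ⟨hY, hcon.1, hle.trans hX.2.2⟩ (lt_of_le_of_ne hle hcon.2)
  -- `S = V`
  have hSeq : S = V := by
    obtain ⟨W, hWV, hWn, hinf, hsup⟩ := hss S hSV hSnorm
    by_cases hW : W = ⊥
    · rw [hW, sup_bot_eq] at hsup
      exact hsup
    · obtain ⟨X, hX, hXW⟩ := hexMin W ⟨hWV, hAH W hWn⟩ hW
      exfalso
      apply hX.2.1
      have : X ≤ S ⊓ W := le_inf (le_sSup hX) hXW
      rw [hinf] at this
      exact le_bot_iff.mp this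
  -- the complement
  obtain ⟨W, hW, hmax⟩ := (wellFounded_gt : WellFounded ((· > ·) : Subgroup G → Subgroup G → Prop)).has_min
    {Y | Inv Y ∧ U ⊓ Y = ⊥} ⟨⊥, ⟨bot_le, by
      intro a _
      rw [mem_normalizer_iff_conj]
      simp⟩, inf_bot_eq U⟩
  refine ⟨W, hW.1.1, hW.1.2, hW.2, ?_⟩
  have hUW : Inv (U ⊔ W) := by
    refine ⟨sup_le hUV hW.1.1, ?_⟩
    intro a ha
    rw [mem_normalizer_iff_conj, Subgroup.map_sup, mem_normalizer_iff_conj.mp (hAU ha),
      mem_normalizer_iff_conj.mp (hW.1.2 ha)]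
  apply le_antisymm (sup_le hUV hW.1.1)
  rw [← hSeq]
  refine sSup_le (fun X hX => ?_)
  by_contra hnot
  have hInf : Inv (X ⊓ (U ⊔ W)) := by
    refine ⟨inf_le_left.trans hX.1.1, ?_⟩
    intro a ha
    rw [mem_normalizer_iff_conj, Subgroup.map_inf _ _ _ (MulEquiv.injective _),
      mem_normalizer_iff_conj.mp (hX.1.2 ha), mem_normalizer_iff_conj.mp (hUW.2 ha)]
  have hXbot : X ⊓ (U ⊔ W) = ⊥ := by
    rcases hX.2.2 _ hInf inf_le_left with e | e
    · exact e
    · exfalso
      apply hnot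
      rw [← e]
      exact inf_le_right
  have hW' : W ⊔ X ∈ {Y | Inv Y ∧ U ⊓ Y = ⊥} := by
    refine ⟨⟨sup_le hW.1.1 hX.1.1, ?_⟩, ?_⟩
    · intro a ha
      rw [mem_normalizer_iff_conj, Subgroup.map_sup, mem_normalizer_iff_conj.mp (hW.1.2 ha),
        mem_normalizer_iff_conj.mp (hX.1.2 ha)]
    · rw [eq_bot_iff]
      intro u hu
      obtain ⟨huU, huW⟩ := Subgroup.mem_inf.mp hu
      obtain ⟨w, hw, x, hx, rfl⟩ := hsupmem W X hW.1.1 hX.1.1 u huW
      have hx1 : x = 1 := by
        have h1 : x ∈ X ⊓ (U ⊔ W) := by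
          refine Subgroup.mem_inf.mpr ⟨hx, ?_⟩
          have : x = w⁻¹ * (w * x) := by group
          rw [this]
          exact mul_mem (le_sup_right (a := U) (W.inv_mem hw)) (le_sup_left (b := W) huU)
        rw [hXbot] at h1
        exact Subgroup.mem_bot.mp h1
      subst hx1
      rw [mul_one] at huU ⊢
      have : w ∈ U ⊓ W := Subgroup.mem_inf.mpr ⟨huU, hw⟩
      rw [hW.2] at this
      exact this
  have hlt : W < W ⊔ X := by
    refine lt_of_le_of_ne le_sup_left ?_
    intro e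
    apply hnot
    have : X ≤ W := by
      rw [e]; exact le_sup_right
    exact this.trans le_sup_right
  exact hmax _ hW' hlt

end Cfsg.Agent.S3735
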