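import Cfsg.Statements.S3740
import Mathlib
import Cfsg.Agent.Lib.Classical.Dick.R3

set_option autoImplicit false
open Cfsg

namespace Cfsg.Agent.S3740

/-- Let F be a finite field of odd characteristic p and let a be a p-element of SL₂(F) normalizing a subgroup R of order prime to p with [R, a] ≠ 1. Then p = 3, R is a quaternion group of order 8, and R⟨a⟩ is isomorphic to SL₂(3). -/
theorem result (F : Type) [Field F] [Fintype F] {p : ℕ} [Fact p.Prime] [CharP F p] (hp : p ≠ 2) (a : Matrix.SpecialLinearGroup (Fin 2) F) (ha : IsPGroup p ↥(Subgroup.zpowers a)) (R : Subgroup (Matrix.SpecialLinearGroup (Fin 2) F)) (hR : (Nat.card R).Coprime p) (haR : a ∈ Subgroup.normalizer (R : Set (Matrix.SpecialLinearGroup (Fin 2) F))) (hnt : ⁅R, Subgroup.zpowers a⁆ ≠ ⊥) : p = 3 ∧ Nonempty (↥R ≃* QuaternionGroup 2) ∧ Nonempty (↥(R ⊔ Subgroup.zpowers a) ≃* Matrix.SpecialLinearGroup (Fin 2) (ZMod 3)) := by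
  obtain ⟨c, hc⟩ := IsPGroup.iff_orderOf.mp ha ⟨a, Subgroup.mem_zpowers a⟩
  have hc' : a ^ p ^ c = 1 := by
    have h := pow_orderOf_eq_one (⟨a, Subgroup.mem_zpowers a⟩ : Subgroup.zpowers a)
    rw [hc] at h
    exact congrArg Subtype.val h
  have hex : ∃ r₀ ∈ R, r₀ * a ≠ a * r₀ := by
    by_contra hall
    push Not at hall
    apply hnt
    rw [Subgroup.commutator_eq_bot_iff_le_centralizer]
    intro y hy
    rw [Subgroup.mem_centralizer_iff]
    intro z hz
    obtain ⟨k, rfl⟩ := Subgroup.mem_zpowers_iff.mp hz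
    have h1 : Commute y a := (hall y hy)
    exact (h1.zpow_right k).symm.eq
  obtain ⟨r₀, hr₀, hra⟩ := hex
  exact Cfsg.Agent.Lib.Classical.Dick.r3_main p hp a hc' R hR haR hr₀ hra

end Cfsg.Agent.S3740
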