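import Cfsg.Statements.S3741
import Mathlib
import Cfsg.Agent.Lib.PGroup.Pairing

set_option autoImplicit false
open Cfsg

namespace Cfsg.Agent.S3741

open Cfsg.Agent.Lib.PGroup in
/-- Let A and B be subgroups of a finite p-group with [A, B] ≤ A ∩ B and [A, B] of order at most p. Then |A : C_A(B)| = |B : C_B(A)|. -/
theorem result {G : Type*} [Group G] [Finite G] {p : ℕ} [Fact p.Prime] (hG : IsPGroup p G) (A B : Subgroup G) (hAB : ⁅A, B⁆ ≤ A ⊓ B) (hcard : Nat.card ↥⁅A, B⁆ ≤ p) : (A ⊓ Subgroup.centralizer (B : Set G)).relIndex A = (B ⊓ Subgroup.centralizer (A : Set G)).relIndex B := by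
  classical
  by_cases hZ : ⁅A, B⁆ = ⊥
  · have h1 : A ≤ Subgroup.centralizer (B : Set G) := Subgroup.commutator_eq_bot_iff_le_centralizer.mp hZ
    have h2 : B ≤ Subgroup.centralizer (A : Set G) := by
      intro b hb
      rw [Subgroup.mem_centralizer_iff]
      intro a ha
      exact ((Subgroup.mem_centralizer_iff.mp (h1 ha)) b hb).symm
    rw [inf_eq_left.mpr h1, inf_eq_left.mpr h2, Subgroup.relIndex_self, Subgroup.relIndex_self]
  · -- `[A, B]` has order `p`
    have hpZ : IsPGroup p ↥⁅A, B⁆ := hG.to_subgroup _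
    have hp := (Fact.out : p.Prime)
    have hcardZ : Nat.card ↥⁅A, B⁆ = p := by
      obtain ⟨n, hn⟩ := IsPGroup.iff_card.mp hpZ
      have hn0 : n ≠ 0 := by
        rintro rfl
        rw [pow_zero] at hn
        exact hZ (Subgroup.eq_bot_of_card_eq _ hn)
      have hle : n ≤ 1 := by
        by_contra h
        push Not at h
        have : p ^ 2 ≤ p ^ n := Nat.pow_le_pow_right hp.pos h
        have h3 : p < p ^ 2 := by nlinarith [hp.one_lt]
        omega
      have : n = 1 := by omega
      rw [hn, this, pow_one]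
    -- work inside `H = A ⊔ B`
    let H : Subgroup G := A ⊔ B
    let Z : Subgroup G := ⁅A, B⁆
    have hHN : H ≤ Subgroup.normalizer ((⁅A, B⁆ : Subgroup G) : Set G) :=
      sup_le (le_normalizer_commutator_left A B) (le_normalizer_commutator_right A B)
    have hZH : Z ≤ H := (hAB.trans inf_le_left).trans le_sup_left
    have hnorm : (Z.subgroupOf H).Normal := by
      constructor
      intro n hn g
      rw [Subgroup.mem_subgroupOf] at hn ⊢
      exact (Subgroup.mem_normalizer_iff.mp (hHN g.2) n).mp hn
    have hcardZH : Nat.card ↥(Z.subgroupOf H) = p := by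
      rw [← hcardZ]
      exact Nat.card_congr (Subgroup.subgroupOfEquivOfLe hZH).toEquiv
    have hcent := le_center_of_normal_of_card_eq_prime (G := H) (hG.to_subgroup H) (Z.subgroupOf H) hcardZH
    have hcomm : ∀ z ∈ Z, ∀ x ∈ H, z * x = x * z := by
      intro z hz x hx
      have hz' : (⟨z, hZH hz⟩ : H) ∈ Z.subgroupOf H := by
        rw [Subgroup.mem_subgroupOf]; exact hz
      have := (Subgroup.mem_center_iff.mp (hcent hz')) ⟨x, hx⟩
      exact (congrArg Subtype.val this).symm
    apply relIndex_centralizer_eq_of_central_commutator A B (by rw [hcardZ]; exact hp)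
    · intro z hz a ha; exact hcomm z hz a (le_sup_left (a := A) ha)
    · intro z hz b hb; exact hcomm z hz b (le_sup_right (b := B) hb)
    · exact hAB.trans inf_le_left

end Cfsg.Agent.S3741
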