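import Cfsg.Statements.S3742
-- import your own Cfsg.Agent.* helpers here

set_option autoImplicit false
open Cfsg

namespace Cfsg.Agent.S3742

open Equiv QuaternionGroup

abbrev Q := QuaternionGroup 2

def rx : Perm (Fin 4) := c[0,2,1,3]
def ry : Perm (Fin 4) := c[0,3,2,1]
def rz : Perm (Fin 4) := c[0,1,3,2]

/-- The four-cycle corresponding to an element of order four (the rotation of the cube). -/
def rot (x : Q) : Perm (Fin 4) :=
  if x = a 1 then rx else if x = a 3 then rx⁻¹ else if x = xa 0 then ry else if x = xa 2 then ry⁻¹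
  else if x = xa 3 then rz else rz⁻¹

def unrot (p : Perm (Fin 4)) : Q :=
  if p = rx then a 1 else if p = rx⁻¹ then a 3 else if p = ry then xa 0 else if p = ry⁻¹ then xa 2
  else if p = rz then xa 3 else xa 1

def psi (g : Perm (Fin 4)) (x : Q) : Q :=
  if x = a 0 ∨ x = a 2 then x else unrot (g * rot x * g⁻¹)

set_option maxRecDepth 100000 in
theorem D4 : ∀ x, psi 1 x = x := by decide +kernel

set_option maxRecDepth 100000 in
theorem D3 : ∀ g, (∀ x, psi g x = x) → g = 1 := by decide +kernel

set_option maxRecDepth 100000 in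
theorem D1 : ∀ g x y, psi g (x * y) = psi g x * psi g y := by decide +kernel

set_option maxRecDepth 100000 in
theorem D5 : ∀ g x, ¬ (x = a 0 ∨ x = a 2) →
    ¬ (psi g x = a 0 ∨ psi g x = a 2) ∧ rot (psi g x) = g * rot x * g⁻¹ := by decide +kernel

set_option maxRecDepth 100000 in
theorem D6 : ∀ x y : Q, ¬ (x = a 0 ∨ x = a 2) → ¬ (y = a 0 ∨ y = a 2) → rot x = rot y → x = y := by
  decide +kernel

theorem D2 (g h : Perm (Fin 4)) (x : Q) : psi (g * h) x = psi g (psi h x) := by
  by_cases hx : x = a 0 ∨ x = a 2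
  · have e : ∀ k : Perm (Fin 4), psi k x = x := fun k => if_pos hx
    rw [e, e, e]
  · obtain ⟨h1, h2⟩ := D5 h x hx
    obtain ⟨h3, h4⟩ := D5 g _ h1
    obtain ⟨h5, h6⟩ := D5 (g * h) x hx
    refine D6 _ _ h5 h3 ?_
    rw [h6, h4, h2]
    simp only [mul_inv_rev, mul_assoc]

/-- The homomorphism from `S₄`. -/
def psiHom : Perm (Fin 4) →* MulAut Q :=
  MonoidHom.mk' (fun g =>
    { toFun := psi g
      invFun := psi g⁻¹
      left_inv := fun x => by
        rw [← D2, inv_mul_cancel, D4]
      right_inv := fun x => by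
        rw [← D2, mul_inv_cancel, D4]
      map_mul' := D1 g }) (fun g h => by
    ext x
    exact D2 g h x)

theorem gen_form : ∀ x : Q, ∃ e : Fin 2, ∃ k : Fin 4,
    x = (xa 0 : Q) ^ (e : ℕ) * (a 1 : Q) ^ (k : ℕ) := by
  decide

/-- The admissible images of the generators. -/
def adm : Finset (Q × Q) :=
  Finset.univ.filter fun p => p.1 ^ 2 ≠ 1 ∧ p.2 ^ 2 ≠ 1 ∧ p.2 ≠ p.1 ∧ p.2 ≠ p.1⁻¹

theorem adm_card : adm.card = 24 := by decide +kernel

theorem card_aut_le : Nat.card (MulAut Q) ≤ Nat.factorial 4 := by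
  classical
  let f : MulAut Q → {p // p ∈ adm} := fun σ => ⟨(σ (a 1), σ (xa 0)), by
    have hinj := σ.injective
    have h1 : (a 1 : Q) ^ 2 ≠ 1 := by decide
    have h2 : (xa 0 : Q) ^ 2 ≠ 1 := by decide
    have h3 : (xa 0 : Q) ≠ a 1 := by decide
    have h4 : (xa 0 : Q) ≠ (a 1)⁻¹ := by decide
    rw [adm, Finset.mem_filter]
    refine ⟨Finset.mem_univ _, ?_, ?_, ?_, ?_⟩
    · intro h
      rw [← map_pow, ← map_one σ] at h
      exact h1 (hinj h)
    · intro h
      rw [← map_pow, ← map_one σ] at h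
      exact h2 (hinj h)
    · intro h
      exact h3 (hinj h)
    · intro h
      rw [← map_inv] at h
      exact h4 (hinj h)⟩
  have hf : Function.Injective f := by
    intro σ τ h
    have h0 : ((σ (a 1), σ (xa 0)) : Q × Q) = (τ (a 1), τ (xa 0)) := congrArg Subtype.val h
    have h1 : σ (a 1) = τ (a 1) := congrArg Prod.fst h0
    have h2 : σ (xa 0) = τ (xa 0) := congrArg Prod.snd h0
    ext x
    obtain ⟨e, k, rfl⟩ := gen_form x
    simp only [map_mul, map_pow, h1, h2]
  have := Nat.card_le_card_of_injective f hf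
  refine this.trans ?_
  rw [Nat.card_eq_fintype_card, Fintype.card_coe, adm_card]
  decide

/-- The automorphism group of the quaternion group of order 8 is isomorphic to the symmetric group of degree 4. -/
theorem result : Nonempty (MulAut (QuaternionGroup 2) ≃* Equiv.Perm (Fin 4)) := by
  have hinj : Function.Injective psiHom := by
    intro g h hgh
    have h1 : psiHom (g * h⁻¹) = 1 := by
      rw [map_mul, map_inv, hgh, mul_inv_cancel]
    have h2 : g * h⁻¹ = 1 := D3 _ (fun x => by
      have := congrArg (fun σ : MulAut Q => σ x) h1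
      exact this)
    exact mul_inv_eq_one.1 h2
  have hbij : Function.Bijective psiHom := hinj.bijective_of_nat_card_le (by
    rw [Nat.card_eq_fintype_card (α := Perm (Fin 4)), Fintype.card_perm]
    exact card_aut_le)
  exact ⟨(MulEquiv.ofBijective psiHom hbij).symm⟩

end Cfsg.Agent.S3742
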