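import Cfsg.Statements.S3743
import Mathlib
import Cfsg.Agent.Lib.Core.Subnormal
import Cfsg.Agent.Lib.PGroup.Basic

set_option autoImplicit false
open Cfsg

namespace Cfsg.Agent.S3743

open Cfsg.Agent.Lib.Core Subgroup

variable {π : Set ℕ}

private def IsPi (π : Set ℕ) {G : Type*} [Group G] (N : Subgroup G) : Prop :=
  ∀ p : ℕ, p.Prime → p ∣ Nat.card N → p ∈ π

private theorem isPi_sup {G : Type*} [Group G] [Finite G] {N M : Subgroup G} [N.Normal] [M.Normal]
    (hN : IsPi π N) (hM : IsPi π M) : IsPi π (N ⊔ M) := by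
  intro p hp hd
  have h1 := Cfsg.Agent.Lib.PGroup.card_inf_mul_relIndex N (N ⊔ M)
  rw [inf_eq_left.mpr le_sup_left, Subgroup.relIndex_sup_left] at h1
  rw [← h1] at hd
  rcases (Nat.Prime.dvd_mul hp).mp hd with h | h
  · exact hN p hp h
  · exact hM p hp (h.trans (Subgroup.relIndex_dvd_card N M))

private theorem piCore_isPi (G : Type*) [Group G] [Finite G] : IsPi π (piCore π G) := by
  apply sSup_mem_of_sup_closed (fun N : Subgroup G => IsPi π N)
  · intro p hp hd
    simp only [Subgroup.card_bot, Nat.dvd_one] at hd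
    exact absurd hd hp.one_lt.ne'
  · intro N M hN hM h1 h2
    exact isPi_sup h1 h2

private instance piCore_char (G : Type*) [Group G] : (piCore π G).Characteristic := by
  apply sSup_characteristic_of_forall
  rintro N ⟨hN, hn⟩ f
  refine ⟨hN.comap _, ?_⟩
  have e : (N.comap f.toMonoidHom) ≃ N :=
    { toFun := fun x => ⟨f x.1, x.2⟩
      invFun := fun y => ⟨f.symm y.1, by simpa using y.2⟩
      left_inv := fun x => by ext; simp
      right_inv := fun y => by ext; simp }
  intro p hp hd
  rw [Nat.card_congr e] at hd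
  exact hn p hp hd

private theorem subnormal_pi {G : Type*} [Group G] [Finite G] (H : Subgroup G)
    (hsub : H.IsSubnormal) (hn : IsPi π H) : H ≤ piCore π G := by
  refine subnormal_le_of_normal_core (fun X _ => piCore π X) ?_
    (fun X _ H => IsPi π H) ?_ ?_ G H hsub hn
  · intro X _ _ N _
    apply le_sSup
    refine ⟨Cfsg.Agent.Lib.PGroup.map_subtype_normal_of_characteristic N _, ?_⟩
    intro p hp hd
    rw [Subgroup.card_map_of_injective N.subtype_injective] at hd
    exact piCore_isPi _ p hp hd
  · intro X _ _ h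
    apply le_antisymm le_top
    exact le_sSup ⟨Subgroup.normal_top, h⟩
  · intro X _ _ H K hHK h p hp hd
    rw [Nat.card_congr (Subgroup.subgroupOfEquivOfLe hHK).toEquiv] at hd
    exact h p hp hd

/-- In a finite group G, every subnormal nilpotent subgroup lies in the Fitting subgroup F(G), and, for a set of primes π, every subnormal subgroup all of whose prime divisors lie in π lies in O_π(G). -/
theorem result {G : Type*} [Group G] [Finite G] (A : Subgroup G) (hA : A.IsSubnormal) : (Group.IsNilpotent A → A ≤ Cfsg.fittingSubgroup G) ∧ ∀ π : Set ℕ, (∀ p : ℕ, p.Prime → p ∣ Nat.card A → p ∈ π) → A ≤ Cfsg.piCore π G := by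
  refine ⟨subnormal_nilpotent_le_fitting A hA, fun π h => subnormal_pi A hA h⟩

end Cfsg.Agent.S3743
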