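import Cfsg.Statements.S3745
import Cfsg.Agent.Lib.PGroup.PiHall
import Cfsg.Agent.Lib.Hall.CoprimeSylow
-- import your own Cfsg.Agent.* helpers here

set_option autoImplicit false
open Cfsg

namespace Cfsg.Agent.S3745

open Cfsg.Agent.Lib.PGroup.PiHall
open scoped Pointwise

/-- Coprime action on a solvable group and Hall subgroups. Let A and G be subgroups of a finite group with A normalizing G, the orders of A and G coprime, and G solvable, and let π be a set of primes. Then (a) G has an A-invariant Hall π-subgroup; (b) any two A-invariant Hall π-subgroups of G are conjugate by an element of C_G(A); (c) every A-invariant π-subgroup of G lies in an A-invariant Hall π-subgroup of G. -/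
theorem result {X : Type*} [Group X] [Finite X] (A G : Subgroup X) (hAG : A ≤ Subgroup.normalizer (G : Set X)) (hcop : (Nat.card A).Coprime (Nat.card G)) (hsolv : Group.IsSolvable G) (π : Set ℕ) : (∃ H : Subgroup X, Cfsg.IsPiHallOf π H G ∧ A ≤ Subgroup.normalizer (H : Set X)) ∧ (∀ H₁ H₂ : Subgroup X, Cfsg.IsPiHallOf π H₁ G → A ≤ Subgroup.normalizer (H₁ : Set X) → Cfsg.IsPiHallOf π H₂ G → A ≤ Subgroup.normalizer (H₂ : Set X) → ∃ c ∈ G ⊓ Subgroup.centralizer (A : Set X), H₂ = H₁.map (MulAut.conj c).toMonoidHom) ∧ (∀ U : Subgroup X, U ≤ G → A ≤ Subgroup.normalizer (U : Set X) → (∀ p : ℕ, p.Prime → p ∣ Nat.card U → p ∈ π) → ∃ H : Subgroup X, Cfsg.IsPiHallOf π H G ∧ A ≤ Subgroup.normalizer (H : Set X) ∧ U ≤ H) := by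
  classical
  have hdis : G ⊓ A = ⊥ := by
    rw [inf_comm]; exact Cfsg.Agent.Lib.Hall.inf_eq_bot_of_coprime' hcop
  -- part (c)
  have hmain : ∀ U : Subgroup X, U ≤ G → A ≤ Subgroup.normalizer (U : Set X) →
      (∀ p : ℕ, p.Prime → p ∣ Nat.card U → p ∈ π) →
      ∃ H : Subgroup X, Cfsg.IsPiHallOf π H G ∧ A ≤ Subgroup.normalizer (H : Set X) ∧ U ≤ H := by
    intro U hUG hAU hUπ
    let σ : Set ℕ := π ∪ {r | r ∣ Nat.card A}
    let Y : Subgroup X := G ⊔ A
    have hGY : G ≤ Y := le_sup_left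
    have hAY : A ≤ Y := le_sup_right
    let N : Subgroup Y := G.subgroupOf Y
    haveI hNn : N.Normal :=
      (Subgroup.normal_subgroupOf_iff_le_normalizer hGY).mpr (sup_le Subgroup.le_normalizer hAG)
    have hcY : Nat.card Y = Nat.card G * Nat.card A := Cfsg.Agent.Lib.Hall.card_sup_of_normalizes G A hAG hdis
    have hcN : Nat.card N = Nat.card G := Cfsg.Agent.Lib.Coprime.card_subgroupOf_of_le hGY
    have hidx : N.index = Nat.card A := by
      have h1 := N.card_mul_index
      rw [hcN, hcY] at h1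
      exact Nat.eq_of_mul_eq_mul_left Nat.card_pos h1
    have hsolN : Group.IsSolvable N := by
      haveI := hsolv
      exact solvable_of_solvable_injective (f := (Subgroup.subgroupOfEquivOfLe hGY).toMonoidHom)
        (Subgroup.subgroupOfEquivOfLe hGY).injective
    have hdisU : U ⊓ A = ⊥ := by
      rw [eq_bot_iff]
      intro x hx
      have h1 : x ∈ G ⊓ A := ⟨hUG hx.1, hx.2⟩
      rw [hdis] at h1
      exact h1
    have hVY : U ⊔ A ≤ Y := sup_le (hUG.trans hGY) hAY
    have hVs : IsSig σ ((U ⊔ A).subgroupOf Y) := by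
      intro r hr hd
      rw [Cfsg.Agent.Lib.Coprime.card_subgroupOf_of_le hVY,
        Cfsg.Agent.Lib.Hall.card_sup_of_normalizes U A hAU hdisU] at hd
      rcases (Nat.Prime.dvd_mul hr).mp hd with h | h
      · exact Or.inl (hUπ r hr h)
      · exact Or.inr h
    obtain ⟨S, hS, hVS⟩ := hall_le σ N hsolN (fun r _ hd => Or.inr (by rwa [hidx] at hd)) _ hVs
    let S' : Subgroup X := S.map Y.subtype
    have hcS' : Nat.card S' = Nat.card S := Subgroup.card_map_of_injective Y.subtype_injective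
    have hVS' : U ⊔ A ≤ S' := by
      intro x hx
      exact ⟨⟨x, hVY hx⟩, hVS hx, rfl⟩
    refine ⟨S' ⊓ G, ⟨inf_le_right, ?_, ?_⟩, ?_, le_inf (le_sup_left.trans hVS') hUG⟩
    · intro r hr hd
      have h1 : r ∣ Nat.card S := hcS' ▸ hd.trans (Subgroup.card_dvd_of_le inf_le_left)
      rcases hS.1 r hr h1 with h | h
      · exact h
      · exfalso
        have h2 : r ∣ Nat.card G := hd.trans (Subgroup.card_dvd_of_le inf_le_right)
        have h3 : r ∣ Nat.card A := h
        exact hr.one_lt.ne' (Nat.eq_one_of_dvd_coprimes hcop h3 h2)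
    · intro r hr hrπ hd
      have h1 := Cfsg.Agent.Lib.PSolv.card_inf_mul_relIndex (S' ⊓ G) G
      rw [inf_eq_left.mpr inf_le_right] at h1
      have h2 := Cfsg.Agent.Lib.PSolv.card_inf_mul_relIndex S N
      have h3 : Nat.card (S ⊓ N : Subgroup Y) = Nat.card (S' ⊓ G : Subgroup X) := by
        have h4 : (S ⊓ N).map Y.subtype = S' ⊓ G := by
          rw [Subgroup.map_inf _ _ _ Y.subtype_injective]
          congr 1
          show (G.subgroupOf Y).map Y.subtype = G
          rw [Subgroup.subgroupOf_map_subtype, inf_eq_left.mpr hGY]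
        rw [← h4]
        exact (Subgroup.card_map_of_injective Y.subtype_injective).symm
      rw [h3, hcN] at h2
      have h5 : (S' ⊓ G).relIndex G = S.relIndex N :=
        Nat.eq_of_mul_eq_mul_left Nat.card_pos (h1.trans h2.symm)
      rw [h5] at hd
      exact hS.2 r hr (Or.inl hrπ) (hd.trans (Cfsg.Agent.Lib.PSolv.relIndex_dvd_index_of_normal_right S N))
    · intro a ha
      have ha1 : a ∈ Subgroup.normalizer ((S' : Subgroup X) : Set X) :=
        Subgroup.le_normalizer (hVS' (Subgroup.mem_sup_right ha))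
      have ha2 := hAG ha
      rw [Subgroup.mem_normalizer_iff] at ha1 ha2 ⊢
      intro x
      constructor
      · rintro ⟨h1, h2⟩
        exact ⟨(ha1 x).mp h1, (ha2 x).mp h2⟩
      · rintro ⟨h1, h2⟩
        exact ⟨(ha1 x).mpr h1, (ha2 x).mpr h2⟩
  refine ⟨?_, ?_, fun U hU hAU hUπ => hmain U hU hAU hUπ⟩
  · obtain ⟨H, h1, h2, -⟩ := hmain ⊥ bot_le (fun a _ => by
      rw [Subgroup.mem_normalizer_iff]
      intro x
      simp only [SetLike.mem_coe, Subgroup.mem_bot]
      constructor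
      · rintro rfl; simp
      · intro h
        simpa using h) (fun p hp hd => by
      rw [Subgroup.card_bot] at hd
      exact absurd (Nat.dvd_one.mp hd) hp.one_lt.ne')
    exact ⟨H, h1, h2⟩
  · -- part (b): Glauberman
    intro H₁ H₂ hH₁ hA₁ hH₂ hA₂
    let S₁ : Set (Subgroup X) := {H | Cfsg.IsPiHallOf π H G}
    have hconj : ∀ Q ∈ S₁, ∀ g ∈ Subgroup.normalizer (G : Set X), MulAut.conj g • Q ∈ S₁ := by
      rintro Q ⟨h1, h2, h3⟩ g hg
      have hc : Nat.card ↥(MulAut.conj g • Q) = Nat.card Q := Cfsg.Agent.Lib.Coprime.card_map_conj Q g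
      have hle : MulAut.conj g • Q ≤ G := by
        rintro _ ⟨q, hq, rfl⟩
        exact (Subgroup.mem_normalizer_iff.mp hg q).mp (h1 hq)
      refine ⟨hle, fun r hr hd => h2 r hr (hc ▸ hd), fun r hr hrπ hd => h3 r hr hrπ ?_⟩
      have e1 := Cfsg.Agent.Lib.PSolv.card_inf_mul_relIndex (MulAut.conj g • Q) G
      have e2 := Cfsg.Agent.Lib.PSolv.card_inf_mul_relIndex Q G
      rw [inf_eq_left.mpr hle, hc] at e1
      rw [inf_eq_left.mpr h1] at e2
      have e3 := Nat.eq_of_mul_eq_mul_left Nat.card_pos (e1.trans e2.symm)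
      rwa [e3] at hd
    have htrans : ∀ Q ∈ S₁, ∀ R ∈ S₁, ∃ k ∈ G, MulAut.conj k • Q = R := by
      intro Q hQ R hR
      have hsolT : Group.IsSolvable (⊤ : Subgroup G) := by
        haveI := hsolv
        exact solvable_of_surjective (f := (Subgroup.topEquiv (G := G)).symm.toMonoidHom)
          (Subgroup.topEquiv (G := G)).symm.surjective
      obtain ⟨-, hdom⟩ := hall_main π _ G ⊤ rfl hsolT (fun r hr hd => by
        rw [Subgroup.index_top] at hd
        exact absurd (Nat.dvd_one.mp hd) hr.one_lt.ne')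
      have hconv : ∀ W ∈ S₁, IsPiHall π (W.subgroupOf G) := by
        rintro W ⟨h1, h2, h3⟩
        refine ⟨fun r hr hd => h2 r hr ?_, fun r hr hrπ hd => h3 r hr hrπ hd⟩
        rwa [Cfsg.Agent.Lib.Coprime.card_subgroupOf_of_le h1] at hd
      obtain ⟨g, hg⟩ := hdom _ (hconv R hR) _ (hconv Q hQ).1
      obtain ⟨g', hg'⟩ := hdom _ (hconv Q hQ) _ (hconv R hR).1
      have hcard : Nat.card R ≤ Nat.card Q := by
        have h1 : R.map (MulAut.conj (g' : X)).toMonoidHom ≤ Q := by
          rintro _ ⟨u, hu, rfl⟩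
          exact hg' ⟨u, hR.1 hu⟩ hu
        rw [← Cfsg.Agent.Lib.Coprime.card_map_conj R (g' : X)]
        exact Subgroup.card_le_of_le h1
      refine ⟨g, g.2, ?_⟩
      exact (Cfsg.Agent.Lib.Coprime.eq_map_conj_of_forall_mem
        (fun x hx => hg ⟨x, hQ.1 hx⟩ hx) hcard).symm
    have hne : S₁.Nonempty := ⟨H₁, hH₁⟩
    obtain ⟨-, h2⟩ := Cfsg.Agent.Lib.Hall.exists_invariant_of_conj_transitive A G hAG hcop (Or.inr hsolv) S₁ hne
      (fun Q hQ k hk => hconj Q hQ k (Subgroup.le_normalizer hk))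
      (fun Q hQ a ha => hconj Q hQ a (hAG ha)) htrans
    obtain ⟨c, hc, he⟩ := h2 H₁ hH₁ H₂ hH₂ hA₁ hA₂
    exact ⟨c, hc, he.symm⟩

end Cfsg.Agent.S3745
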