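import Cfsg.Statements.S3746
import Cfsg.Agent.Lib.FStar.Basic
-- import your own Cfsg.Agent.* helpers here

set_option autoImplicit false
open Cfsg

namespace Cfsg.Agent.S3746

open Subgroup

/-- Let Z ≤ Z(G) be a central subgroup of a finite group G and E a subgroup of G containing Z whose image E/Z is a component of G/Z (subnormal and quasisimple). Then the derived subgroup [E, E] is a component of G. -/
theorem result {G : Type*} [Group G] [Finite G] (Z : Subgroup G) (hZ : Z ≤ Subgroup.center G) [Z.Normal] (E : Subgroup G) (hZE : Z ≤ E) (hE : Cfsg.IsComponent (E.map (QuotientGroup.mk' Z))) : Cfsg.IsComponent ⁅E, E⁆ := by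
  classical
  have hsurj := QuotientGroup.mk'_surjective Z
  have hker : (QuotientGroup.mk' Z).ker = Z := QuotientGroup.ker_mk' Z
  -- `E = E' Z`
  have hperf : ⁅E.map (QuotientGroup.mk' Z), E.map (QuotientGroup.mk' Z)⁆ = E.map (QuotientGroup.mk' Z) :=
    Cfsg.Agent.Lib.FStar.qs_subgroup_perfect hE.2
  have hmapE : (⁅E, E⁆ : Subgroup G).map (QuotientGroup.mk' Z) = E.map (QuotientGroup.mk' Z) := by
    rw [Subgroup.map_commutator, hperf]
  have hcomap : ∀ K : Subgroup G, (K.map (QuotientGroup.mk' Z)).comap (QuotientGroup.mk' Z) = K ⊔ Z := by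
    intro K
    rw [Subgroup.comap_map_eq, hker]
  have hEsup : E = ⁅E, E⁆ ⊔ Z := by
    have h1 := hcomap E
    rw [sup_eq_left.2 hZE] at h1
    rw [← hcomap, hmapE, h1]
  have hcen : ∀ a ∈ (⁅E, E⁆ : Subgroup G), ∀ b ∈ Z, a * b = b * a := fun a _ b hb =>
    Subgroup.mem_center_iff.1 (hZ hb) a
  have hZZ : ⁅Z, Z⁆ = ⊥ := by
    rw [Cfsg.Agent.Lib.FStar.commutator_eq_bot_iff_forall]
    intro a ha b _
    exact (Subgroup.mem_center_iff.1 (hZ ha) b).symm
  have hperf2 : ⁅(⁅E, E⁆ : Subgroup G), (⁅E, E⁆ : Subgroup G)⁆ = ⁅E, E⁆ := by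
    refine le_antisymm (Subgroup.commutator_le_self _) ?_
    have h1 := Cfsg.Agent.Lib.FStar.commutator_sup_le_of_commuting hcen
    rw [← hEsup, hZZ, sup_bot_eq] at h1
    exact h1
  have hX : commutator ↥(⁅E, E⁆ : Subgroup G) = ⊤ :=
    (Subgroup.isPerfect_iff.mpr hperf2).commutator_eq_top
  have hle : (⁅E, E⁆ : Subgroup G) ≤ E := Subgroup.commutator_le_self E
  let f : ↥(⁅E, E⁆ : Subgroup G) →* ↥(E.map (QuotientGroup.mk' Z)) :=
    ((QuotientGroup.mk' Z).comp (⁅E, E⁆ : Subgroup G).subtype).codRestrict _ (fun x =>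
      ⟨x, hle x.2, rfl⟩)
  have hf : Function.Surjective f := by
    rintro ⟨y, hy⟩
    rw [← hmapE] at hy
    obtain ⟨x, hx, rfl⟩ := hy
    exact ⟨⟨x, hx⟩, rfl⟩
  have hk : f.ker ≤ center ↥(⁅E, E⁆ : Subgroup G) := by
    intro x hx
    rw [MonoidHom.mem_ker] at hx
    have h1 : ((x : G) : G ⧸ Z) = 1 := congrArg Subtype.val hx
    have h2 : (x : G) ∈ Z := (QuotientGroup.eq_one_iff _).1 h1
    rw [Subgroup.mem_center_iff]
    intro g
    exact Subtype.ext (Subgroup.mem_center_iff.1 (hZ h2) g)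
  refine ⟨?_, Cfsg.Agent.Lib.FStar.qs_of_surjective_of_perfect hX hE.2 f hf hk⟩
  have hEsn : E.IsSubnormal := by
    have h1 := hE.1.comap (QuotientGroup.mk' Z)
    rw [hcomap, sup_eq_left.2 hZE] at h1
    exact h1
  refine Subgroup.IsSubnormal.trans hle ?_ hEsn
  refine Subgroup.Normal.isSubnormal ?_
  have h3 : (⁅E, E⁆ : Subgroup G).subgroupOf E = commutator E := by
    rw [← Subgroup.map_subtype_commutator, Subgroup.subgroupOf, Subgroup.comap_map_eq_self_of_injective E.subtype_injective]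
  rw [h3]
  infer_instance

end Cfsg.Agent.S3746
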