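import Cfsg.Statements.S3747
import Cfsg.Agent.Lib.FStar.GenFitting
import Cfsg.Agent.Lib.FStar.Layer
-- import your own Cfsg.Agent.* helpers here

set_option autoImplicit false
open Cfsg

namespace Cfsg.Agent.S3747

open Subgroup Cfsg.Agent.Lib.FStar
open scoped commutatorElement

variable {G : Type*} [Group G] [Finite G]

theorem center_conj_bot (K : Subgroup G) (hc : center ↥K = ⊥) (g : G) :
    center ↥(K.map (MulAut.conj g).toMonoidHom) = ⊥ := by
  rw [eq_bot_iff]
  rintro ⟨z, k, hk, hkz⟩ hz
  have hk1 : (⟨k, hk⟩ : K) ∈ center ↥K := by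
    rw [mem_center_iff]
    rintro ⟨y, hy⟩
    have hmem : g * y * g⁻¹ ∈ K.map (MulAut.conj g).toMonoidHom := ⟨y, hy, rfl⟩
    have h1 := mem_center_iff.1 hz ⟨_, hmem⟩
    have h2 : (g * y * g⁻¹) * z = z * (g * y * g⁻¹) := congrArg Subtype.val h1
    have hz' : z = g * k * g⁻¹ := hkz.symm
    rw [hz'] at h2
    apply Subtype.ext
    show y * k = k * y
    have h3 : g * (y * k) * g⁻¹ = g * (k * y) * g⁻¹ := by
      calc g * (y * k) * g⁻¹ = (g * y * g⁻¹) * (g * k * g⁻¹) := by group
        _ = (g * k * g⁻¹) * (g * y * g⁻¹) := h2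
        _ = g * (k * y) * g⁻¹ := by group
    exact mul_left_cancel (mul_right_cancel h3)
  rw [hc, mem_bot] at hk1
  have hk2 : k = 1 := congrArg Subtype.val hk1
  apply Subtype.ext
  show z = 1
  rw [← hkz, hk2]
  exact map_one _

/-- (a) the normal closure of a centre-free component is a minimal normal subgroup. -/
theorem minimal_closure (K : Subgroup G) (hK : IsComponent K) (hc : center ↥K = ⊥) :
    normalClosure (K : Set G) ≠ ⊥ ∧ ∀ N : Subgroup G, N.Normal → N ≤ normalClosure (K : Set G) →
      N = ⊥ ∨ N = normalClosure (K : Set G) := by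
  classical
  have hKN : K ≤ normalClosure (K : Set G) := subset_normalClosure
  have hK1 : K ≠ ⊥ := qs_subgroup_ne_bot hK.2
  refine ⟨fun h => hK1 (le_bot_iff.1 (h ▸ hKN)), ?_⟩
  intro M hM hMN
  haveI := hM
  rcases component_le_or_commute_of_normal hK M with h | h
  · right
    exact le_antisymm hMN (normalClosure_le_normal h)
  · left
    -- the finite family of conjugates
    let T : Finset (Subgroup G) :=
      (Set.toFinite {L : Subgroup G | ∃ g : G, L = K.map (MulAut.conj g).toMonoidHom}).toFinset
    have hT : ∀ L, L ∈ T ↔ ∃ g : G, L = K.map (MulAut.conj g).toMonoidHom := fun L => by simp [T]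
    have hcomp : ∀ L ∈ T, IsComponent L := by
      intro L hL
      obtain ⟨g, rfl⟩ := (hT L).1 hL
      exact component_map_conj g hK
    have hsup : T.sup (fun L => L) = normalClosure (K : Set G) := by
      apply le_antisymm
      · refine Finset.sup_le fun L hL => ?_
        obtain ⟨g, rfl⟩ := (hT L).1 hL
        rintro _ ⟨k, hk, rfl⟩
        exact (normalClosure_normal (s := (K : Set G))).conj_mem k (hKN hk) g
      · haveI hsn : (T.sup (fun L => L)).Normal := by
          refine ⟨fun n hn g => ?_⟩
          have hle : T.sup (fun L => L) ≤ (T.sup (fun L => L)).comap (MulAut.conj g).toMonoidHom := by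
            refine Finset.sup_le fun L hL => ?_
            obtain ⟨h', rfl⟩ := (hT L).1 hL
            rintro _ ⟨k, hk, rfl⟩
            have hmem : (K.map (MulAut.conj (g * h')).toMonoidHom) ∈ T := (hT _).2 ⟨_, rfl⟩
            refine Finset.le_sup (f := fun L : Subgroup G => L) hmem ⟨k, hk, ?_⟩
            show (g * h') * k * (g * h')⁻¹ = g * (h' * k * h'⁻¹) * g⁻¹
            group
          exact hle hn
        refine normalClosure_le_normal ?_
        intro k hk
        have hmem : (K.map (MulAut.conj (1 : G)).toMonoidHom) ∈ T := (hT _).2 ⟨1, rfl⟩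
        exact Finset.le_sup (f := fun L : Subgroup G => L) hmem ⟨k, hk, by simp⟩
    have hcomm : ∀ L ∈ T, ∀ a ∈ L, ∀ x ∈ M, a * x = x * a := by
      intro L hL a ha x hx
      obtain ⟨g, rfl⟩ := (hT L).1 hL
      obtain ⟨k, hk, rfl⟩ := ha
      have hx' : g⁻¹ * x * g⁻¹⁻¹ ∈ M := hM.conj_mem x hx g⁻¹
      have h1 := mul_comm_of_commutator_eq_bot h hk hx'
      simp only [inv_inv] at h1
      show g * k * g⁻¹ * x = x * (g * k * g⁻¹)
      calc g * k * g⁻¹ * x = g * (k * (g⁻¹ * x * g)) * g⁻¹ := by group
        _ = g * ((g⁻¹ * x * g) * k) * g⁻¹ := by rw [h1]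
        _ = _ := by group
    rw [eq_bot_iff]
    intro x hx
    have hxN := hMN hx
    rw [← hsup] at hxN
    have key := mem_sup_center_of_commuting (G := G) (fun L : Subgroup G => L) T
      (fun i hi j hj hij a ha b hb =>
        mul_comm_of_commutator_eq_bot (component_commute (hcomp i hi) (hcomp j hj) hij) ha hb)
      x hxN (by
        intro y hy
        have hle : T.sup (fun L => L) ≤ centralizer ({x} : Set G) := by
          refine Finset.sup_le fun L hL => ?_
          intro a ha
          rw [mem_centralizer_singleton_iff]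
          exact hcomm L hL a ha x hx
        exact mem_centralizer_singleton_iff.1 (hle hy))
    have hbot : (T.sup fun i : Subgroup G => (center i).map i.subtype) = ⊥ := by
      rw [eq_bot_iff]
      refine Finset.sup_le fun L hL => ?_
      obtain ⟨g, rfl⟩ := (hT L).1 hL
      rw [center_conj_bot K hc g, Subgroup.map_bot]
    rw [hbot] at key
    exact key

theorem center_bot_of_fitting (hF : fittingSubgroup G = ⊥) (K : Subgroup G) (hK : IsComponent K) :
    center ↥K = ⊥ := by
  have hsn : ((center ↥K).map K.subtype).IsSubnormal :=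
    Subgroup.IsSubnormal.trans' (Subgroup.Normal.isSubnormal inferInstance) hK.1
  have hnil : Group.IsNilpotent ((center ↥K).map K.subtype) := by
    refine isNilpotent_of_comm ?_
    rintro ⟨_, a, ha, rfl⟩ ⟨_, b, hb, rfl⟩
    apply Subtype.ext
    show ((a : K) : G) * (b : K) = ((b : K) : G) * (a : K)
    exact congrArg Subtype.val (mem_center_iff.1 hb a)
  have h1 := le_fitting_of_subnormal_nilpotent hsn hnil
  rw [hF, le_bot_iff] at h1
  exact (Subgroup.map_eq_bot_iff_of_injective _ K.subtype_injective).1 h1

theorem qs_of_simple {S : Type*} [Group S] [Finite S] (hs : IsSimpleGroup S)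
    (hna : ¬ ∀ a b : S, a * b = b * a) : IsQuasisimple S := by
  have hc : center S = ⊥ := by
    rcases (inferInstance : (center S).Normal).eq_bot_or_eq_top with h | h
    · exact h
    · exfalso
      apply hna
      intro a b
      have : b ∈ center S := by rw [h]; trivial
      exact mem_center_iff.1 this a
  have hcm : commutator S = ⊤ := by
    rcases (inferInstance : (commutator S).Normal).eq_bot_or_eq_top with h | h
    · exfalso
      apply hna
      intro a b
      have h1 : ⁅a, b⁆ ∈ commutator S := Subgroup.commutator_mem_commutator (mem_top a) (mem_top b)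
      rw [h, mem_bot] at h1
      exact commutatorElement_eq_one_iff_mul_comm.1 h1
    · exact h
  refine ⟨⟨hcm⟩, ?_⟩
  exact ((QuotientGroup.quotientMulEquivOfEq hc).trans QuotientGroup.quotientBot).isSimpleGroup

/-- A nontrivial normal subgroup contains a component when `F(G) = 1`. -/
theorem exists_simple_le (N : Subgroup G) (hN : N ≠ ⊥) (hF : fittingSubgroup G = ⊥) [hNn : N.Normal] :
    ∃ S : Subgroup G, IsComponent S ∧ S ≤ N := by
  classical
  obtain ⟨S, ⟨hS1, hS2, hS3⟩, hmin⟩ := (Set.toFinite {S : Subgroup G | S ≠ ⊥ ∧ S ≤ N ∧ S.IsSubnormal}).exists_minimal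
    ⟨N, hN, le_rfl, hNn.isSubnormal⟩
  have hnt : Nontrivial S := (Subgroup.nontrivial_iff_ne_bot S).2 hS1
  have hsimple : IsSimpleGroup S := by
    refine ⟨fun A hA => ?_⟩
    by_cases hA1 : A = ⊥
    · exact Or.inl hA1
    · right
      have hmapne : A.map S.subtype ≠ ⊥ := fun h => hA1
        ((Subgroup.map_eq_bot_iff_of_injective _ S.subtype_injective).1 h)
      have hmaple : A.map S.subtype ≤ S := Subgroup.map_subtype_le A
      have h1 := hmin ⟨hmapne, hmaple.trans hS2, Subgroup.IsSubnormal.trans' hA.isSubnormal hS3⟩ hmaple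
      rw [eq_top_iff]
      intro a _
      obtain ⟨b, hb, hab⟩ := h1 a.2
      have : b = a := Subtype.ext hab
      exact this ▸ hb
  have hna : ¬ ∀ a b : S, a * b = b * a := by
    intro hc
    have hnil : Group.IsNilpotent S := isNilpotent_of_comm hc
    have h1 := le_fitting_of_subnormal_nilpotent hS3 hnil
    rw [hF, le_bot_iff] at h1
    exact hS1 h1
  exact ⟨S, ⟨hS3, qs_of_simple hsimple hna⟩, hS2⟩

/-- Let G be a finite group. (a) If K is a component of G with trivial centre, then the normal closure of K in G is a minimal normal subgroup of G. (b) If the Fitting subgroup of G is trivial, then the layer E(G) is generated by the minimal normal subgroups of G. -/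
theorem result {G : Type*} [Group G] [Finite G] : (∀ K : Subgroup G, Cfsg.IsComponent K → Subgroup.center ↥K = ⊥ → (Subgroup.normalClosure (K : Set G) ≠ ⊥ ∧ ∀ N : Subgroup G, N.Normal → N ≤ Subgroup.normalClosure (K : Set G) → N = ⊥ ∨ N = Subgroup.normalClosure (K : Set G))) ∧ (Cfsg.fittingSubgroup G = ⊥ → sSup {N : Subgroup G | N ≠ ⊥ ∧ N.Normal ∧ ∀ N' : Subgroup G, N'.Normal → N' ≤ N → N' = ⊥ ∨ N' = N} = Cfsg.layer G) := by
  classical
  refine ⟨fun K hK hc => minimal_closure K hK hc, fun hF => ?_⟩
  apply le_antisymm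
  · refine sSup_le ?_
    rintro N ⟨hN1, hNn, hNmin⟩
    haveI := hNn
    obtain ⟨S, hS⟩ := exists_simple_le N hN1 hF
    have hSN : S ≤ N := hS.2
    have hSl : S ≤ layer G := Cfsg.Agent.Lib.FStar.component_le_layer hS.1
    have hSne : S ≠ ⊥ := Cfsg.Agent.Lib.FStar.qs_subgroup_ne_bot hS.1.2
    have hnorm : (N ⊓ layer G).Normal := inferInstance
    rcases hNmin _ hnorm inf_le_left with h | h
    · exact absurd (le_bot_iff.1 (h ▸ le_inf hSN hSl)) hSne
    · rw [← h]
      exact inf_le_right
  · refine sSup_le ?_
    intro K hK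
    have hc := center_bot_of_fitting hF K hK
    obtain ⟨h1, h2⟩ := minimal_closure K hK hc
    have hKle : K ≤ normalClosure (K : Set G) := subset_normalClosure
    refine hKle.trans (le_sSup ⟨h1, normalClosure_normal, h2⟩)

end Cfsg.Agent.S3747
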