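import Cfsg.Statements.S3748
import Cfsg.Agent.Lib.Subnormal.Join
import Cfsg.Agent.S0064
import Cfsg.Agent.Lib.Core.Subnormal
-- import your own Cfsg.Agent.* helpers here

set_option autoImplicit false
open Cfsg

namespace Cfsg.Agent.S3748

/-- Call a proper subgroup M of G primitive when M = N_G(N) for every non-trivial normal subgroup N of M. If M is a primitive subgroup of the finite group G, then no non-trivial subnormal subgroup of G is contained in M; in particular M ∩ F(G) = 1. -/
theorem result {G : Type*} [Group G] [Finite G] (M : Subgroup G) (hM : M ≠ ⊤) (hprim : ∀ N : Subgroup G, N ≤ M → M ≤ Subgroup.normalizer (N : Set G) → N ≠ ⊥ → Subgroup.normalizer (N : Set G) = M) : (∀ L : Subgroup G, L.IsSubnormal → L ≤ M → L = ⊥) ∧ M ⊓ Cfsg.fittingSubgroup G = ⊥ := by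
  have hK : Cfsg.Agent.Lib.Subnormal.subnormalCore M = ⊥ := by
    by_contra hne
    have h1 := hprim _ (Cfsg.Agent.Lib.Subnormal.subnormalCore_le M)
      (Cfsg.Agent.Lib.Subnormal.le_normalizer_subnormalCore M) hne
    have h2 := Cfsg.Agent.Lib.Subnormal.subnormalCore_eq_top_of_normalizer_le h1.le
    have h3 := Cfsg.Agent.Lib.Subnormal.subnormalCore_le M
    rw [h2] at h3
    exact hM (top_le_iff.mp h3)
  have hL : ∀ L : Subgroup G, L.IsSubnormal → L ≤ M → L = ⊥ := by
    intro L hL hLM
    have := Cfsg.Agent.Lib.Subnormal.le_subnormalCore hL hLM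
    rw [hK] at this
    exact le_bot_iff.mp this
  refine ⟨hL, hL _ ?_ inf_le_left⟩
  -- `M ⊓ F(G)` is subnormal since `F(G)` is nilpotent and normal
  have hF : (Cfsg.fittingSubgroup G).Normal := inferInstance
  have hFnil : Group.IsNilpotent (Cfsg.fittingSubgroup G) := Cfsg.Agent.Lib.Core.isNilpotent_fittingSubgroup G
  have h1 : ((M ⊓ Cfsg.fittingSubgroup G).subgroupOf (Cfsg.fittingSubgroup G)).IsSubnormal :=
    Cfsg.Agent.S0064.result.mp hFnil _
  exact Subgroup.IsSubnormal.trans inf_le_right h1 hF.isSubnormal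

end Cfsg.Agent.S3748
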