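import Cfsg.Statements.S3749
import Cfsg.Agent.Lib.Hall.CoprimeLemmas
import Cfsg.Agent.Lib.FStar.Hyperplane
-- import your own Cfsg.Agent.* helpers here

set_option autoImplicit false
open Cfsg

namespace Cfsg.Agent.S3749

open scoped Pointwise

/-- Call a proper subgroup M of G primitive when M = N_G(N) for every non-trivial normal subgroup N of M. Let M be a primitive subgroup of the finite group G, p a prime with O_p(M) ≠ 1, and N a normal subgroup of G with M ∩ N = 1. Then p does not divide the order of N; for every prime q there is exactly one Sylow q-subgroup of N normalized by M; and if the order of N has at least two prime divisors then M is not a maximal subgroup of G. -/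
theorem result {G : Type*} [Group G] [Finite G] (M : Subgroup G) (hM : M ≠ ⊤) (hprim : ∀ N : Subgroup G, N ≤ M → M ≤ Subgroup.normalizer (N : Set G) → N ≠ ⊥ → Subgroup.normalizer (N : Set G) = M) {p : ℕ} [Fact p.Prime] (hOp : Cfsg.pCore p ↥M ≠ ⊥) (N : Subgroup G) [N.Normal] (hMN : M ⊓ N = ⊥) : ¬ p ∣ Nat.card N ∧ (∀ q : ℕ, [Fact q.Prime] → ∃! Q : Sylow q ↥N, M ≤ Subgroup.normalizer ((Q : Subgroup ↥N).map N.subtype : Set G)) ∧ ((∃ q r : ℕ, q.Prime ∧ r.Prime ∧ q ≠ r ∧ q ∣ Nat.card N ∧ r ∣ Nat.card N) → ¬ IsCoatom M) := by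
  classical
  -- the normal `p`-subgroup `A` of `M`
  let A : Subgroup G := (Cfsg.pCore p ↥M).map M.subtype
  have hAM : A ≤ M := Subgroup.map_subtype_le _
  have hAp : IsPGroup p A :=
    IsPGroup.of_equiv (Cfsg.Agent.Lib.Core.pCore_isPGroup p ↥M)
      ((Cfsg.pCore p ↥M).equivMapOfInjective M.subtype M.subtype_injective)
  have hMA : M ≤ Subgroup.normalizer (A : Set G) := by
    intro m hm
    rw [Subgroup.mem_normalizer_iff]
    have hn := Cfsg.Agent.Lib.Core.pCore_normal p ↥M
    have key : ∀ m ∈ M, ∀ x ∈ A, m * x * m⁻¹ ∈ A := by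
      rintro m hm _ ⟨x, hx, rfl⟩
      exact ⟨⟨m, hm⟩ * x * (⟨m, hm⟩ : M)⁻¹, hn.conj_mem x hx _, rfl⟩
    intro x
    refine ⟨key m hm x, fun h => ?_⟩
    have := key m⁻¹ (M.inv_mem hm) _ h
    simpa [mul_assoc] using this
  have hA1 : A ≠ ⊥ := by
    intro h
    apply hOp
    exact (Subgroup.map_eq_bot_iff_of_injective _ M.subtype_injective).mp h
  have hnA : Subgroup.normalizer (A : Set G) = M := hprim A hAM hMA hA1
  -- `A` acts on `N` without fixed points
  have hfree : ∀ n ∈ N, (∀ a ∈ A, a * n * a⁻¹ = n) → n = 1 := by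
    intro n hn hfix
    have h1 : n ∈ M := by
      rw [← hnA, Subgroup.mem_normalizer_iff]
      have key : n ∈ Subgroup.centralizer (A : Set G) := by
        rw [Subgroup.mem_centralizer_iff]
        intro a ha
        have := hfix a ha
        calc a * n = (a * n * a⁻¹) * a := by group
          _ = n * a := by rw [this]
      exact fun x => (Subgroup.mem_normalizer_iff.mp
        (Cfsg.Agent.Lib.Hall.mem_normalizer_of_mem_centralizer key) x)
    have h2 : n ∈ M ⊓ N := Subgroup.mem_inf.mpr ⟨h1, hn⟩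
    rw [hMN] at h2
    exact (Subgroup.mem_bot).mp h2
  have hNnorm : ∀ g : G, g ∈ Subgroup.normalizer (N : Set G) := by
    intro g
    rw [Subgroup.mem_normalizer_iff]
    intro x
    refine ⟨fun h => (inferInstance : N.Normal).conj_mem x h g, fun h => ?_⟩
    have := (inferInstance : N.Normal).conj_mem _ h g⁻¹
    simpa [mul_assoc] using this
  have hAN : ∀ a ∈ A, ∀ x ∈ N, a * x * a⁻¹ ∈ N := fun a _ x hx =>
    (inferInstance : N.Normal).conj_mem x hx a
  -- (1)
  have h1 : ¬ p ∣ Nat.card N := by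
    intro hdvd
    letI := Cfsg.Agent.Lib.FStar.conjActionOn A N hAN
    have hmod := hAp.card_modEq_card_fixedPoints (α := N)
    have hfix : Nat.card (MulAction.fixedPoints A N) = 1 := by
      rw [Nat.card_eq_one_iff_unique]
      refine ⟨⟨?_⟩, ⟨⟨1, ?_⟩⟩⟩
      · rintro ⟨x, hx⟩ ⟨y, hy⟩
        have key : ∀ z : N, z ∈ MulAction.fixedPoints A N → z = 1 := by
          intro z hz
          apply Subtype.ext
          refine hfree z z.2 (fun a ha => ?_)
          have := hz ⟨a, ha⟩
          exact congrArg Subtype.val this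
        apply Subtype.ext
        show x = y
        rw [key x hx, key y hy]
      · intro a
        exact smul_one a
    rw [hfix] at hmod
    have h3 : Nat.card N % p = 1 % p := hmod
    rw [Nat.mod_eq_zero_of_dvd hdvd] at h3
    have h4 : 1 % p = 1 := Nat.mod_eq_of_lt (Fact.out : p.Prime).one_lt
    omega
  have hANn : A ≤ Subgroup.normalizer (N : Set G) := fun a _ => hNnorm a
  have hcop : (Nat.card A).Coprime (Nat.card N) := by
    obtain ⟨k, hk⟩ := IsPGroup.iff_card.mp hAp
    rw [hk]
    exact Nat.Coprime.pow_left k ((Nat.Prime.coprime_iff_not_dvd Fact.out).mpr h1)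
  have hsol : Group.IsSolvable A ∨ Group.IsSolvable N := by
    left
    haveI : Group.IsNilpotent A := hAp.isNilpotent
    infer_instance
  -- (2)
  have h2 : ∀ q : ℕ, [Fact q.Prime] → ∃! Q : Sylow q ↥N,
      M ≤ Subgroup.normalizer ((Q : Subgroup ↥N).map N.subtype : Set G) := by
    intro q _
    have huniq : ∀ P Q : Sylow q N,
        A ≤ Subgroup.normalizer ((P : Subgroup N).map N.subtype : Set G) →
        A ≤ Subgroup.normalizer ((Q : Subgroup N).map N.subtype : Set G) → P = Q := by
      intro P Q hP hQ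
      obtain ⟨c, hc, hcPQ⟩ :=
        Cfsg.Agent.Lib.Hall.exists_centralizer_conj_sylow A N hANn hcop hsol q P Q hP hQ
      have hc1 : (c : N) = 1 := by
        apply Subtype.ext
        refine hfree c c.2 (fun a ha => ?_)
        have := Subgroup.mem_centralizer_iff.mp hc a ha
        rw [this]
        group
      rw [hc1] at hcPQ
      rw [← hcPQ]
      simp
    obtain ⟨P, hP⟩ := Cfsg.Agent.Lib.Hall.exists_invariant_sylow A N hANn hcop hsol q
    refine ⟨P, ?_, fun Q hQ => huniq Q P (hAM.trans hQ) hP⟩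
    intro m hm
    -- conjugate of `P` by `m`
    have hmem := Cfsg.Agent.Lib.Hall.sylowIn_conj_mem N q (Q := (P : Subgroup N).map N.subtype)
      ⟨P, rfl⟩ (hNnorm m)
    obtain ⟨P', hP'⟩ := hmem
    have hP'A : A ≤ Subgroup.normalizer ((P' : Subgroup N).map N.subtype : Set G) := by
      intro a ha
      have hm1 : m⁻¹ * a * m ∈ A := by
        have := (Subgroup.mem_normalizer_iff.mp (hMA (M.inv_mem hm)) a).mp ha
        simpa using this
      have hP1 := hP hm1
      show a ∈ Subgroup.normalizer _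
      simp only at hP'
      rw [hP', Subgroup.mem_normalizer_iff]
      intro x
      have h3 := Subgroup.mem_normalizer_iff.mp hP1 (m⁻¹ * x * m)
      have e1 : x ∈ MulAut.conj m • (P : Subgroup N).map N.subtype ↔
          m⁻¹ * x * m ∈ (P : Subgroup N).map N.subtype := by
        rw [Subgroup.mem_pointwise_smul_iff_inv_smul_mem]
        simp [MulAut.smul_def, MulAut.conj_apply, mul_assoc]
      have e2 : a * x * a⁻¹ ∈ MulAut.conj m • (P : Subgroup N).map N.subtype ↔
          m⁻¹ * (a * x * a⁻¹) * m ∈ (P : Subgroup N).map N.subtype := by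
        rw [Subgroup.mem_pointwise_smul_iff_inv_smul_mem]
        simp [MulAut.smul_def, MulAut.conj_apply, mul_assoc]
      rw [e1, e2, h3]
      have e3 : m⁻¹ * a * m * (m⁻¹ * x * m) * (m⁻¹ * a * m)⁻¹ = m⁻¹ * (a * x * a⁻¹) * m := by group
      rw [e3]
    have hPP' := huniq P' P hP'A hP
    subst hPP'
    rw [Subgroup.mem_normalizer_iff]
    intro x
    simp only at hP'
    have e : ∀ y : G, y ∈ (P' : Subgroup N).map N.subtype ↔
        m⁻¹ * y * m ∈ (P' : Subgroup N).map N.subtype := by
      intro y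
      conv_lhs => rw [hP']
      rw [Subgroup.mem_pointwise_smul_iff_inv_smul_mem]
      simp [MulAut.smul_def, MulAut.conj_apply, mul_assoc]
    constructor
    · intro hx
      rw [e]
      simpa [mul_assoc] using hx
    · intro hx
      rw [e] at hx
      simpa [mul_assoc] using hx
  refine ⟨h1, h2, ?_⟩
  -- (3)
  rintro ⟨q, r, hq, hr, hqr, hqd, hrd⟩ hcoat
  haveI : Fact q.Prime := ⟨hq⟩
  obtain ⟨Q, hQ, -⟩ := h2 q
  let R : Subgroup G := (Q : Subgroup N).map N.subtype
  have hRN : R ≤ N := Subgroup.map_subtype_le _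
  have hcardR : Nat.card R = Nat.card (Q : Subgroup N) :=
    (Nat.card_congr ((Q : Subgroup N).equivMapOfInjective N.subtype N.subtype_injective).toEquiv).symm
  have hR1 : R ≠ ⊥ := by
    intro h
    have h1 : Nat.card R = 1 := by rw [h]; exact Subgroup.card_bot
    rw [hcardR] at h1
    -- Sylow trivial but `q ∣ |N|`
    have h2 : Nat.card (Q : Subgroup N) = q ^ (Nat.card N).factorization q := Q.card_eq_multiplicity
    rw [h1] at h2
    have h3 : (Nat.card N).factorization q ≠ 0 := by
      have : 0 < (Nat.card N).factorization q :=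
        hq.factorization_pos_of_dvd Nat.card_pos.ne' hqd
      omega
    have h4 : 1 < q ^ (Nat.card N).factorization q := Nat.one_lt_pow h3 hq.one_lt
    omega
  have hlt : M < M ⊔ R := by
    refine lt_of_le_of_ne le_sup_left (fun h => hR1 ?_)
    have h2 : R ≤ M := by
      rw [h]
      exact le_sup_right
    rw [eq_bot_iff]
    intro x hx
    have h3 : x ∈ M ⊓ N := Subgroup.mem_inf.mpr ⟨h2 hx, hRN hx⟩
    rwa [hMN] at h3
  have htop : M ⊔ R = ⊤ := hcoat.2 _ hlt
  have hNR : N ≤ R := by
    intro n hn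
    have hn' : n ∈ R ⊔ M := by
      rw [sup_comm, htop]
      exact Subgroup.mem_top n
    obtain ⟨x, hx, m, hm, rfl⟩ := Cfsg.Agent.Lib.Hall.exists_mul_of_mem_sup_normalizes hQ hn'
    have hm' : m ∈ N := by
      have : m = x⁻¹ * (x * m) := by group
      rw [this]
      exact N.mul_mem (N.inv_mem (hRN hx)) hn
    have h4 : m ∈ M ⊓ N := Subgroup.mem_inf.mpr ⟨hm, hm'⟩
    rw [hMN] at h4
    rw [(Subgroup.mem_bot).mp h4, mul_one]
    exact hx
  have hcardN : Nat.card N = Nat.card R := by
    rw [le_antisymm hNR hRN]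
  have hqp : IsPGroup q (Q : Subgroup N) := Q.isPGroup'
  obtain ⟨k, hk⟩ := IsPGroup.iff_card.mp hqp
  rw [hcardN, hcardR, hk] at hrd
  exact hqr ((Nat.prime_dvd_prime_iff_eq hr hq).mp (hr.dvd_of_dvd_pow hrd)).symm

end Cfsg.Agent.S3749
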