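import Cfsg.Statements.S3750
import Cfsg.Agent.Lib.Hall.CoprimeLemmas
import Cfsg.Agent.Lib.FStar.Layer
import Cfsg.Agent.Lib.Core.Basic
import Cfsg.Agent.Lib.PGroup.Basic
-- import your own Cfsg.Agent.* helpers here

set_option autoImplicit false
open Cfsg

namespace Cfsg.Agent.S3750

/-- Call a proper subgroup M of G primitive when M = N_G(N) for every non-trivial normal subgroup N of M. Let M be a primitive subgroup of the finite group G and N a normal subgroup of G with M ∩ F*(N) ≠ 1. Then F(G) = 1 and F*(N) = F*(G) = E(G); in particular every minimal normal subgroup of G is contained in N. -/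
theorem result {G : Type*} [Group G] [Finite G] (M : Subgroup G) (hM : M ≠ ⊤) (hprim : ∀ N : Subgroup G, N ≤ M → M ≤ Subgroup.normalizer (N : Set G) → N ≠ ⊥ → Subgroup.normalizer (N : Set G) = M) (N : Subgroup G) [N.Normal] (hMF : M ⊓ (Cfsg.generalizedFittingSubgroup ↥N).map N.subtype ≠ ⊥) : Cfsg.fittingSubgroup G = ⊥ ∧ (Cfsg.generalizedFittingSubgroup ↥N).map N.subtype = Cfsg.generalizedFittingSubgroup G ∧ Cfsg.generalizedFittingSubgroup G = Cfsg.layer G ∧ ∀ K : Subgroup G, K.Normal → K ≠ ⊥ → (∀ K' : Subgroup G, K'.Normal → K' ≤ K → K' = ⊥ ∨ K' = K) → K ≤ N := by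
  classical
  let Fs : Subgroup G := (Cfsg.generalizedFittingSubgroup ↥N).map N.subtype
  have hFs : Fs = Cfsg.generalizedFittingSubgroup G ⊓ N :=
    (Cfsg.Agent.Lib.FStar.gen_inf_normal N).symm
  have hFsN : Fs.Normal := by
    rw [hFs]
    infer_instance
  have hFsle : Fs ≤ N := Subgroup.map_subtype_le _
  let A : Subgroup G := M ⊓ Fs
  have hAM : A ≤ M := inf_le_left
  have hMA : M ≤ Subgroup.normalizer (A : Set G) := by
    intro m hm
    apply Cfsg.Agent.Lib.Hall.mem_normalizer_of_conj_le
    intro a ha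
    exact Subgroup.mem_inf.mpr ⟨M.mul_mem (M.mul_mem hm (Subgroup.mem_inf.mp ha).1) (M.inv_mem hm),
      hFsN.conj_mem _ (Subgroup.mem_inf.mp ha).2 m⟩
  have hnA : Subgroup.normalizer (A : Set G) = M := hprim A hAM hMA hMF
  have hCM : Subgroup.centralizer (A : Set G) ≤ M := by
    rw [← hnA]
    intro c hc
    exact Cfsg.Agent.Lib.Hall.mem_normalizer_of_mem_centralizer hc
  have htop : ∀ L : Subgroup G, L.Normal → Subgroup.normalizer (L : Set G) = ⊤ := by
    intro L hL
    rw [eq_top_iff]
    intro g _
    rw [Subgroup.mem_normalizer_iff]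
    intro x
    refine ⟨fun h => hL.conj_mem x h g, fun h => ?_⟩
    have := hL.conj_mem _ h g⁻¹
    simpa [mul_assoc] using this
  have hbot : ∀ L : Subgroup G, L.Normal → L ≤ M → L = ⊥ := by
    intro L hL hLM
    by_contra h
    have h1 := hprim L hLM (by rw [htop L hL]; exact le_top) h
    apply hM
    rw [← h1, htop L hL]
  have hAN : A ≤ N := inf_le_right.trans hFsle
  have hL1 : ∀ L : Subgroup G, L.Normal → ⁅L, N⁆ = ⊥ → L = ⊥ := by
    intro L hL h
    refine hbot L hL (le_trans ?_ hCM)
    have h2 := Subgroup.commutator_eq_bot_iff_le_centralizer.mp h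
    intro l hl
    rw [Subgroup.mem_centralizer_iff]
    intro a ha
    exact (Subgroup.mem_centralizer_iff.mp (h2 hl) a (hAN ha))
  have hCN : Subgroup.centralizer (N : Set G) = ⊥ := by
    apply hL1 _ inferInstance
    rw [Subgroup.commutator_eq_bot_iff_le_centralizer]
  -- (1) `F(G) = 1`
  have hF : Cfsg.fittingSubgroup G = ⊥ := by
    by_contra hR
    haveI hRn : (Cfsg.fittingSubgroup G).Normal := Cfsg.Agent.Lib.Core.fittingSubgroup_normal G
    haveI hRnil : Group.IsNilpotent (Cfsg.fittingSubgroup G) :=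
      Cfsg.Agent.Lib.Core.isNilpotent_fittingSubgroup G
    set R := Cfsg.fittingSubgroup G with hRdef
    have hW : (Cfsg.fittingSubgroup ↥N).map N.subtype = R ⊓ N :=
      Cfsg.Agent.Lib.FStar.fitting_map_of_subnormal N (inferInstance : N.Normal).isSubnormal
    have hWne : R ⊓ N ≠ ⊥ := by
      intro hw
      apply hR
      apply hL1 R hRn
      have := Subgroup.commutator_le_inf R N
      rw [hw] at this
      exact le_bot_iff.mp this
    have hWR : ((R ⊓ N).subgroupOf R) ≠ ⊥ := by
      intro h
      apply hWne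
      rw [eq_bot_iff]
      intro x hx
      have h1 : (⟨x, (Subgroup.mem_inf.mp hx).1⟩ : R) ∈ (R ⊓ N).subgroupOf R := hx
      rw [h] at h1
      have h2 := (Subgroup.mem_bot).mp h1
      have h3 := congrArg Subtype.val h2
      exact (Subgroup.mem_bot).mpr h3
    haveI : ((R ⊓ N).subgroupOf R).Normal := inferInstance
    have hz := Cfsg.Agent.Lib.Core.normal_inf_center_ne_bot ((R ⊓ N).subgroupOf R) hWR
    obtain ⟨z, hz1⟩ := Subgroup.ne_bot_iff_exists_ne_one.mp hz
    have hzN : (((z : R) : G)) ∈ R ⊓ N := (Subgroup.mem_inf.mp z.2).1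
    have hzc : (z : R) ∈ Subgroup.center R := (Subgroup.mem_inf.mp z.2).2
    have hz0 : ((z : R) : G) ≠ 1 := by
      intro h
      apply hz1
      apply Subtype.ext
      apply Subtype.ext
      exact h
    -- `z` centralizes `F*(N)`
    have hzF : Fs ≤ Subgroup.centralizer ({((z : R) : G)} : Set G) := by
      show (Cfsg.generalizedFittingSubgroup ↥N).map N.subtype ≤ _
      unfold Cfsg.generalizedFittingSubgroup
      rw [Subgroup.map_sup]
      refine sup_le ?_ ?_
      · rintro _ ⟨l, hl, rfl⟩
        have hz3 : ((z : R) : G) ∈ (Cfsg.fittingSubgroup ↥N).map N.subtype := by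
          rw [hW]
          exact hzN
        obtain ⟨w, hw, hwz⟩ := hz3
        have h4 := Cfsg.Agent.Lib.FStar.mul_comm_of_commutator_eq_bot
          (Cfsg.Agent.Lib.FStar.layer_commute_fitting (G := ↥N)) hl hw
        rw [Subgroup.mem_centralizer_iff]
        intro y hy
        rw [Set.mem_singleton_iff] at hy
        rw [hy, ← hwz]
        exact (congrArg Subtype.val h4).symm
      · rw [hW]
        intro y hy
        rw [Subgroup.mem_centralizer_iff]
        intro t ht
        rw [Set.mem_singleton_iff] at ht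
        rw [ht]
        have h5 := (Subgroup.mem_center_iff.mp hzc) ⟨y, (Subgroup.mem_inf.mp hy).1⟩
        exact (congrArg Subtype.val h5).symm
    have hzM : ((z : R) : G) ∈ M := by
      apply hCM
      rw [Subgroup.mem_centralizer_iff]
      intro a ha
      have h6 := Subgroup.mem_centralizer_iff.mp (hzF (Subgroup.mem_inf.mp ha).2) _ rfl
      exact h6.symm
    -- `B = M ∩ R`
    let B : Subgroup G := M ⊓ R
    have hBne : B ≠ ⊥ := by
      intro h
      have h7 : ((z : R) : G) ∈ B := Subgroup.mem_inf.mpr ⟨hzM, (z : R).2⟩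
      rw [h] at h7
      exact hz0 ((Subgroup.mem_bot).mp h7)
    have hMB : M ≤ Subgroup.normalizer (B : Set G) := by
      intro m hm
      apply Cfsg.Agent.Lib.Hall.mem_normalizer_of_conj_le
      intro a ha
      exact Subgroup.mem_inf.mpr ⟨M.mul_mem (M.mul_mem hm (Subgroup.mem_inf.mp ha).1) (M.inv_mem hm),
        hRn.conj_mem _ (Subgroup.mem_inf.mp ha).2 m⟩
    have hnB := hprim B inf_le_left hMB hBne
    let Z : Subgroup G := (Subgroup.center R).map R.subtype
    have hZn : Z.Normal := Cfsg.Agent.Lib.PGroup.map_subtype_normal_of_characteristic _ _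
    have hZM : Z ≤ M := by
      rintro _ ⟨c, hc, rfl⟩
      rw [← hnB]
      apply Cfsg.Agent.Lib.Hall.mem_normalizer_of_mem_centralizer
      rw [Subgroup.mem_centralizer_iff]
      intro b hb
      have h8 := (Subgroup.mem_center_iff.mp hc) ⟨b, (Subgroup.mem_inf.mp hb).2⟩
      exact (congrArg Subtype.val h8)
    have hZ := hbot Z hZn hZM
    have hc1 : Subgroup.center R = ⊥ :=
      (Subgroup.map_eq_bot_iff_of_injective _ R.subtype_injective).mp hZ
    have hRR : (⊤ : Subgroup R) ≠ ⊥ := by
      intro h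
      apply hR
      rw [eq_bot_iff]
      intro x hx
      have h9 : (⟨x, hx⟩ : R) ∈ (⊤ : Subgroup R) := Subgroup.mem_top _
      rw [h] at h9
      have := congrArg Subtype.val ((Subgroup.mem_bot).mp h9)
      exact (Subgroup.mem_bot).mpr this
    have := Cfsg.Agent.Lib.Core.normal_inf_center_ne_bot (⊤ : Subgroup R) hRR
    rw [hc1] at this
    simp at this
  -- the layer lies in `N`
  have hlayer : Cfsg.layer G ≤ N := by
    refine sSup_le fun K hK => ?_
    rcases Cfsg.Agent.Lib.FStar.component_le_or_commute_of_normal hK N with h | h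
    · exact h
    · exfalso
      have h1 : K ≤ Subgroup.centralizer (N : Set G) :=
        Subgroup.commutator_eq_bot_iff_le_centralizer.mp h
      rw [hCN] at h1
      exact Cfsg.Agent.Lib.FStar.qs_subgroup_ne_bot hK.2 (le_bot_iff.mp h1)
  have hgen : Cfsg.generalizedFittingSubgroup G = Cfsg.layer G := by
    unfold Cfsg.generalizedFittingSubgroup
    rw [hF, sup_bot_eq]
  refine ⟨hF, ?_, hgen, ?_⟩
  · show Fs = _
    rw [hFs, hgen]
    exact inf_eq_left.mpr hlayer
  · intro K hKn hKne hKmin
    rcases hKmin (K ⊓ N) inferInstance inf_le_left with h | h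
    · exfalso
      apply hKne
      apply hL1 K hKn
      have := Subgroup.commutator_le_inf K N
      rw [h] at this
      exact le_bot_iff.mp this
    · exact inf_eq_left.mp h

end Cfsg.Agent.S3750
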