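import Cfsg.Statements.S3751
import Cfsg.Agent.Lib.PGroup.PrimPair
-- import your own Cfsg.Agent.* helpers here

set_option autoImplicit false
open Cfsg

namespace Cfsg.Agent.S3751

open Cfsg.Agent.Lib.PGroup.PrimPair

/-- Two distinct subgroups M₁, M₂ of G form a primitive pair when, for {i, j} = {1, 2}, every non-trivial normal subgroup A of M_i contained in M₁ ∩ M₂ satisfies N_{M_j}(A) = M₁ ∩ M₂; the pair has characteristic p when moreover C_{M_i}(O_p(M_i)) ≤ O_p(M_i) for both i and O_p(M₁)O_p(M₂) ≤ M₁ ∩ M₂. Let G be a finite group, p a prime dividing its order, with O_p(G) = 1 and every p-local subgroup of characteristic p. Then either G has a primitive pair of characteristic p, or every maximal p-local subgroup M of G is strongly p-embedded in G: M is a proper subgroup, p divides its order, and for every g ∉ M the order of M ∩ gMg⁻¹ is prime to p. -/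
theorem result {G : Type*} [Group G] [Finite G] {p : ℕ} [Fact p.Prime] (hloc : Cfsg.IsOfLocalCharacteristic p G) (hOp : Cfsg.pCore p G = ⊥) : (∃ M₁ M₂ : Subgroup G, M₁ ≠ M₂ ∧ (∀ A : Subgroup G, A ≠ ⊥ → A ≤ M₁ ⊓ M₂ → (M₁ ≤ Subgroup.normalizer (A : Set G) → M₂ ⊓ Subgroup.normalizer (A : Set G) = M₁ ⊓ M₂) ∧ (M₂ ≤ Subgroup.normalizer (A : Set G) → M₁ ⊓ Subgroup.normalizer (A : Set G) = M₁ ⊓ M₂)) ∧ Subgroup.centralizer (Cfsg.pCore p ↥M₁ : Set ↥M₁) ≤ Cfsg.pCore p ↥M₁ ∧ Subgroup.centralizer (Cfsg.pCore p ↥M₂ : Set ↥M₂) ≤ Cfsg.pCore p ↥M₂ ∧ (Cfsg.pCore p ↥M₁).map M₁.subtype ⊔ (Cfsg.pCore p ↥M₂).map M₂.subtype ≤ M₁ ⊓ M₂) ∨ (∀ M : Subgroup G, (∃ T : Subgroup G, IsPGroup p T ∧ T ≠ ⊥ ∧ M = Subgroup.normalizer (T : Set G)) → (∀ L : Subgroup G, (∃ T : Subgroup G, IsPGroup p T ∧ T ≠ ⊥ ∧ L = Subgroup.normalizer (T : Set G)) → M ≤ L → L = M) → M ≠ ⊤ ∧ p ∣ Nat.card M ∧ ∀ g : G, g ∉ M → ¬ p ∣ Nat.card ↥(M ⊓ M.map (MulAut.conj g).toMonoidHom)) := by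
  classical
  have hchar : ∀ M : Subgroup G, IsLoc p M →
      Subgroup.centralizer (Cfsg.pCore p ↥M : Set ↥M) ≤ Cfsg.pCore p ↥M := by
    rintro _ ⟨T, hT, hne, rfl⟩
    exact hloc.2 T hT hne
  by_cases h : ∃ M₁ M₂ : Subgroup G, IsMaxLoc p M₁ ∧ IsMaxLoc p M₂ ∧ M₁ ≠ M₂ ∧
      p ∣ Nat.card ↥(M₁ ⊓ M₂)
  · left
    obtain ⟨M₁, M₂, h1, h2, h3, h4, h5⟩ := exists_pair h
    refine ⟨M₁, M₂, h3, ?_, hchar M₁ h1.1, hchar M₂ h2.1, ?_⟩
    · intro A hne hA
      constructor
      · intro hn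
        have := le_antisymm (normalizer_le_of_normal h1 (hchar M₁ h1.1) hne
          (hA.trans inf_le_left) hn) hn
        rw [this, inf_comm]
      · intro hn
        have := le_antisymm (normalizer_le_of_normal h2 (hchar M₂ h2.1) hne
          (hA.trans inf_le_right) hn) hn
        rw [this]
    · exact sup_le (le_inf (Qm_le M₁) h4) (le_inf h5 (Qm_le M₂))
  · right
    intro M hloc' hmax
    have hM : IsMaxLoc p M := ⟨hloc', hmax⟩
    refine ⟨loc_ne_top hOp hloc', ?_, ?_⟩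
    · obtain ⟨T, hT, hne, hMT, hTM⟩ := IsLoc.le_normalizer_T (p := p) hloc'
      obtain ⟨k, hk⟩ := IsPGroup.iff_card.mp hT
      have hk0 : k ≠ 0 := by
        intro h0
        rw [h0, pow_zero] at hk
        exact hne (Subgroup.eq_bot_of_card_eq T hk)
      have h1 : p ∣ Nat.card T := by
        rw [hk]
        exact dvd_pow_self p hk0
      exact h1.trans (Subgroup.card_dvd_of_le hTM)
    · intro g hg hdvd
      apply h
      refine ⟨M, cj g M, hM, hM.cj g, ?_, hdvd⟩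
      intro h8
      apply hg
      apply normalizer_self_le hM
      rw [Subgroup.mem_normalizer_iff]
      intro x
      constructor
      · intro hx
        have h9 : g * x * g⁻¹ ∈ cj g M := by
          rw [mem_cj]
          have : g⁻¹ * (g * x * g⁻¹) * g = x := by group
          rwa [this]
        rwa [← h8] at h9
      · intro hx
        have h9 : g * x * g⁻¹ ∈ cj g M := by rwa [← h8]
        rw [mem_cj] at h9
        have : g⁻¹ * (g * x * g⁻¹) * g = x := by group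
        rwa [this] at h9

end Cfsg.Agent.S3751
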