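import Cfsg.Statements.S3760
import Cfsg.Agent.Lib.FF.SylowIn
-- import your own Cfsg.Agent.* helpers here

set_option autoImplicit false
open Cfsg

namespace Cfsg.Agent.S3760

/-- Let the group G act transitively on a set X, let x ∈ X with stabilizer H = G_x, and let K ≤ H. Then N_G(K) acts transitively on the set of fixed points of K if and only if every G-conjugate of K contained in H is already an H-conjugate of K. -/
theorem result {G : Type*} [Group G] {X : Type*} [MulAction G X] (htrans : ∀ a b : X, ∃ g : G, g • a = b) (x : X) (K : Subgroup G) (hK : K ≤ MulAction.stabilizer G x) : (∀ a b : X, (∀ k ∈ K, k • a = a) → (∀ k ∈ K, k • b = b) → ∃ g ∈ Subgroup.normalizer (K : Set G), g • a = b) ↔ ∀ g : G, K.map (MulAut.conj g).toMonoidHom ≤ MulAction.stabilizer G x → ∃ h ∈ MulAction.stabilizer G x, K.map (MulAut.conj g).toMonoidHom = K.map (MulAut.conj h).toMonoidHom := by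
  classical
  have hconj : ∀ (g : G) (y : X), (∀ k ∈ K, k • y = y) ↔ K ≤ MulAction.stabilizer G y := by
    intro g y
    rfl
  constructor
  · intro hT g hg
    -- `g⁻¹ x` is fixed by `K`
    have hfix : ∀ k ∈ K, k • (g⁻¹ • x) = g⁻¹ • x := by
      intro k hk
      have h1 : g * k * g⁻¹ ∈ MulAction.stabilizer G x := hg ⟨k, hk, rfl⟩
      have h2 : (g * k * g⁻¹) • x = x := h1
      calc k • (g⁻¹ • x) = g⁻¹ • ((g * k * g⁻¹) • x) := by
            simp only [smul_smul]; congr 1; group
        _ = g⁻¹ • x := by rw [h2]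
    obtain ⟨n, hn, hnx⟩ := hT _ x hfix (fun k hk => hK hk)
    refine ⟨g * n⁻¹, ?_, ?_⟩
    · show (g * n⁻¹) • x = x
      have : n⁻¹ • x = g⁻¹ • x := by
        rw [inv_smul_eq_iff]; exact hnx.symm
      rw [mul_smul, this, smul_inv_smul]
    · have e : K.map (MulAut.conj n⁻¹).toMonoidHom = K :=
        Cfsg.Agent.Lib.FF.mem_normalizer_iff_conj.mp (inv_mem hn)
      rw [← Cfsg.Agent.Lib.FF.conj_mul_conj, e]
  · intro hC
    -- every fixed point is in the `N_G(K)`-orbit of `x`
    have horb : ∀ a : X, (∀ k ∈ K, k • a = a) → ∃ n ∈ Subgroup.normalizer (K : Set G), n • x = a := by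
      intro a ha
      obtain ⟨g, rfl⟩ := htrans x a
      have hle : K.map (MulAut.conj g⁻¹).toMonoidHom ≤ MulAction.stabilizer G x := by
        rintro _ ⟨k, hk, rfl⟩
        show (g⁻¹ * k * g⁻¹⁻¹) • x = x
        have h2 : k • g • x = g • x := ha k hk
        simp only [inv_inv, mul_smul]
        rw [h2, inv_smul_smul]
      obtain ⟨h, hh, e⟩ := hC g⁻¹ hle
      refine ⟨g * h, ?_, ?_⟩
      · rw [Cfsg.Agent.Lib.FF.mem_normalizer_iff_conj]
        rw [← Cfsg.Agent.Lib.FF.conj_mul_conj, ← e, Cfsg.Agent.Lib.FF.conj_mul_conj, mul_inv_cancel,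
          Cfsg.Agent.Lib.FF.conj_one']
      · rw [mul_smul]
        have : h • x = x := hh
        rw [this]
    intro a b ha hb
    obtain ⟨n₁, hn₁, rfl⟩ := horb a ha
    obtain ⟨n₂, hn₂, rfl⟩ := horb b hb
    refine ⟨n₂ * n₁⁻¹, mul_mem hn₂ (inv_mem hn₁), ?_⟩
    rw [mul_smul, inv_smul_smul]

end Cfsg.Agent.S3760
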