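import Cfsg.Statements.S3764
import Mathlib
import Cfsg.Agent.Lib.PGroup.HHGroup
-- import your own Cfsg.Agent.* helpers here

set_option autoImplicit false
open Cfsg

namespace Cfsg.Agent.S3764

open Subgroup Cfsg.Agent.Lib.Hall Cfsg.Agent.Lib.PGroup.HH

/-- Let p, q, r be distinct primes and let X, Q, V be subgroups of a finite group with X of order r, Q an extraspecial q-group normalized by X with C_Q(X) = Z(Q), and V an elementary abelian p-group normalized by X and Q on which XQ acts faithfully ((X ⊔ Q) ∩ C(V) = 1). If C_V(X) = 1, then q = 2, r = 2^n + 1 for some n, and Q has order 2^(2n+1). -/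
theorem result {G : Type*} [Group G] [Finite G] {p q r : ℕ} (hp : p.Prime) (hq : q.Prime) (hr : r.Prime) (hpq : p ≠ q) (hpr : p ≠ r) (hqr : q ≠ r) (X Q V : Subgroup G) (hX : Nat.card X = r) (hQ : Cfsg.IsExtraspecial q ↥Q) (hXQ : X ≤ Subgroup.normalizer (Q : Set G)) (hCQ : Q ⊓ Subgroup.centralizer (X : Set G) = (Subgroup.center ↥Q).map Q.subtype) (hV : Cfsg.IsElementaryAbelian p V) (hXV : X ≤ Subgroup.normalizer (V : Set G)) (hQV : Q ≤ Subgroup.normalizer (V : Set G)) (hfaith : (X ⊔ Q) ⊓ Subgroup.centralizer (V : Set G) = ⊥) (hCV : V ⊓ Subgroup.centralizer (X : Set G) = ⊥) : q = 2 ∧ ∃ n : ℕ, r = 2 ^ n + 1 ∧ Nat.card Q = 2 ^ (2 * n + 1) := by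
  classical
  haveI hpF : Fact p.Prime := ⟨hp⟩
  haveI := Fintype.ofFinite ↥Q
  obtain ⟨hcV, hexpV⟩ := hV
  haveI : Fact (IsElem p V) := ⟨⟨hcV.is_comm.comm, fun a => Subtype.ext (hexpV _ a.2)⟩⟩
  have hr1 : 1 < Nat.card X := hX ▸ hr.one_lt
  haveI : Nontrivial X := Finite.one_lt_card_iff_nontrivial.mp hr1
  obtain ⟨⟨x₀, hx₀X⟩, hx₀1⟩ := exists_ne (1 : X)
  have hx₀ne : x₀ ≠ 1 := fun h => hx₀1 (Subtype.ext h)
  have hx₀r : x₀ ^ r = 1 := by
    have := pow_card_eq_one' (x := (⟨x₀, hx₀X⟩ : X))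
    rw [hX] at this
    exact congrArg Subtype.val this
  have hcentX : ∀ g : G, x₀ * g * x₀⁻¹ = g → g ∈ Subgroup.centralizer (X : Set G) := by
    intro g hg
    rw [Subgroup.mem_centralizer_iff]
    intro a ha
    obtain ⟨k, rfl⟩ := exists_pow_of_prime_card hr hX hx₀X hx₀ne ha
    have hc : Commute x₀ g := mul_inv_eq_iff_eq_mul.mp hg
    exact (hc.pow_left k).eq
  let σ : ↥Q ≃* ↥Q := normalizerAut Q (hXQ hx₀X)
  have hσ : ∀ g, σ^[r] g = g := by
    intro g
    apply Subtype.ext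
    rw [normalizerAut_iter, hx₀r]
    simp
  have hfix : ∀ g, σ g = g → g ∈ Subgroup.center ↥Q := by
    intro g hg
    have h1 : x₀ * (g : G) * x₀⁻¹ = g := congrArg Subtype.val hg
    have h2 : (g : G) ∈ Q ⊓ Subgroup.centralizer (X : Set G) := ⟨g.2, hcentX _ h1⟩
    rw [hCQ] at h2
    obtain ⟨z, hz, e⟩ := h2
    have : z = g := Subtype.ext e
    rwa [← this]
  have hfixz : ∀ g ∈ Subgroup.center ↥Q, σ g = g := by
    intro g hg
    have h2 : (g : G) ∈ Q ⊓ Subgroup.centralizer (X : Set G) := by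
      rw [hCQ]
      exact ⟨g, hg, rfl⟩
    apply Subtype.ext
    show x₀ * (g : G) * x₀⁻¹ = g
    have := Subgroup.mem_centralizer_iff.mp h2.2 x₀ hx₀X
    rw [this]
    group
  let tQ : ↥Q →* MulAut V := (nAct V).comp (Subgroup.inclusion hQV)
  let act : ↥Q →* Module.End (ZMod p) (EMod p V) := (eEnd (p := p)).comp tQ
  have hact : Function.Injective act := by
    rw [injective_iff_map_eq_one]
    intro g hg
    have h1 : tQ g = 1 := by
      ext v
      exact eEnd_eq_one hg ▸ rfl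
    have h2 : (g : G) ∈ (X ⊔ Q) ⊓ Subgroup.centralizer (V : Set G) := by
      refine Subgroup.mem_inf.mpr ⟨(le_sup_right : Q ≤ X ⊔ Q) g.2, ?_⟩
      rw [Subgroup.mem_centralizer_iff]
      intro v hv
      have h3 := congrArg (fun f : MulAut V => ((f ⟨v, hv⟩ : V) : G)) h1
      have h4 : (g : G) * v * (g : G)⁻¹ = v := h3
      exact (mul_inv_eq_iff_eq_mul.mp h4).symm
    rw [hfaith, Subgroup.mem_bot] at h2
    exact Subtype.ext h2
  let x' : normalizer (V : Set G) := ⟨x₀, hXV hx₀X⟩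
  let y₀ : Module.End (ZMod p) (EMod p V) := eEnd (nAct V x')
  have hy₀ : ∀ g, y₀ * act g = act (σ g) * y₀ := by
    intro g
    show eEnd _ * eEnd _ = eEnd _ * eEnd _
    rw [← map_mul, ← map_mul]
    congr 1
    ext v
    show x₀ * ((g : G) * v * (g : G)⁻¹) * x₀⁻¹ =
      (x₀ * (g : G) * x₀⁻¹) * (x₀ * v * x₀⁻¹) * (x₀ * (g : G) * x₀⁻¹)⁻¹
    group
  have hy₀r : y₀ ^ r = 1 := by
    show (eEnd (nAct V x')) ^ r = 1
    rw [← map_pow, ← map_pow]
    have : x' ^ r = 1 := Subtype.ext hx₀r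
    rw [this, map_one, map_one]
  have hfree : ∀ v, y₀ v = v → v = 0 := by
    intro v hv
    have h1 : x₀ * ((eTo v : V) : G) * x₀⁻¹ = (eTo v : V) :=
      congrArg (fun w : EMod p V => ((eTo w : V) : G)) hv
    have h2 : ((eTo v : V) : G) ∈ V ⊓ Subgroup.centralizer (X : Set G) :=
      ⟨(eTo v : V).2, hcentX _ h1⟩
    rw [hCV, Subgroup.mem_bot] at h2
    have h3 : eTo v = 1 := Subtype.ext h2
    exact h3
  haveI : Nontrivial V := by
    by_contra hcon
    rw [not_nontrivial_iff_subsingleton] at hcon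
    apply hx₀ne
    have h2 : x₀ ∈ (X ⊔ Q) ⊓ Subgroup.centralizer (V : Set G) := by
      refine Subgroup.mem_inf.mpr ⟨(le_sup_left : X ≤ X ⊔ Q) hx₀X, ?_⟩
      rw [Subgroup.mem_centralizer_iff]
      intro v hv
      have h3 : (⟨v, hv⟩ : V) = 1 := Subsingleton.elim _ _
      have h4 : v = 1 := congrArg Subtype.val h3
      rw [h4, one_mul, mul_one]
    rwa [hfaith, Subgroup.mem_bot] at h2
  exact extra_module (p := p) (M := EMod p V) hq hr hpq hpr hqr hQ act hact σ hσ hfix hfixz y₀ hy₀ hy₀r hfree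

end Cfsg.Agent.S3764
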