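import Cfsg.Statements.S3765
import Mathlib
import Cfsg.Agent.Lib.PGroup.HHModule
-- import your own Cfsg.Agent.* helpers here

set_option autoImplicit false
open Cfsg

namespace Cfsg.Agent.S3765

open Subgroup Cfsg.Agent.Lib.Hall Cfsg.Agent.Lib.PGroup.HH

/-- Let p, q, r be distinct primes and let X, Q, V be subgroups of a finite group with X of order r normalizing the q-group Q and acting faithfully on it (X ∩ C(Q) = 1), and V a nontrivial elementary abelian p-group normalized by X and Q on which XQ acts faithfully. If q = 2 and r has the form 2^n + 1, assume in addition that Q is abelian. Then C_V(X) ≠ 1. -/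
theorem result {G : Type*} [Group G] [Finite G] {p q r : ℕ} (hp : p.Prime) (hq : q.Prime) (hr : r.Prime) (hpq : p ≠ q) (hpr : p ≠ r) (hqr : q ≠ r) (X Q V : Subgroup G) (hX : Nat.card X = r) (hQ : IsPGroup q Q) (hXQ : X ≤ Subgroup.normalizer (Q : Set G)) (hXfaith : X ⊓ Subgroup.centralizer (Q : Set G) = ⊥) (hV : Cfsg.IsElementaryAbelian p V) (hV1 : V ≠ ⊥) (hXV : X ≤ Subgroup.normalizer (V : Set G)) (hQV : Q ≤ Subgroup.normalizer (V : Set G)) (hfaith : (X ⊔ Q) ⊓ Subgroup.centralizer (V : Set G) = ⊥) (hexc : q = 2 → (∃ n : ℕ, r = 2 ^ n + 1) → IsMulCommutative Q) : V ⊓ Subgroup.centralizer (X : Set G) ≠ ⊥ := by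
  classical
  intro hCV
  haveI hpF : Fact p.Prime := ⟨hp⟩
  haveI := Fintype.ofFinite ↥Q
  obtain ⟨hcV, hexpV⟩ := hV
  haveI : Fact (IsElem p V) := ⟨⟨hcV.is_comm.comm, fun a => Subtype.ext (hexpV _ a.2)⟩⟩
  have hr1 : 1 < Nat.card X := hX ▸ hr.one_lt
  haveI : Nontrivial X := Finite.one_lt_card_iff_nontrivial.mp hr1
  obtain ⟨⟨x₀, hx₀X⟩, hx₀1⟩ := exists_ne (1 : X)
  have hx₀ne : x₀ ≠ 1 := fun h => hx₀1 (Subtype.ext h)
  have hx₀r : x₀ ^ r = 1 := by
    have := pow_card_eq_one' (x := (⟨x₀, hx₀X⟩ : X))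
    rw [hX] at this
    exact congrArg Subtype.val this
  have hcentX : ∀ g : G, x₀ * g * x₀⁻¹ = g → g ∈ Subgroup.centralizer (X : Set G) := by
    intro g hg
    rw [Subgroup.mem_centralizer_iff]
    intro a ha
    obtain ⟨k, rfl⟩ := exists_pow_of_prime_card hr hX hx₀X hx₀ne ha
    have hc : Commute x₀ g := mul_inv_eq_iff_eq_mul.mp hg
    exact (hc.pow_left k).eq
  let σ : ↥Q ≃* ↥Q := normalizerAut Q (hXQ hx₀X)
  have hr1' : r ^ 1 = r := pow_one r
  have hr0 : r ^ (1 - 1) = 1 := by simp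
  have hσ : ∀ g, σ^[r ^ 1] g = g := by
    intro g
    rw [hr1']
    apply Subtype.ext
    rw [normalizerAut_iter, hx₀r]
    simp
  let tQ : ↥Q →* MulAut V := (nAct V).comp (Subgroup.inclusion hQV)
  let act : ↥Q →* Module.End (ZMod p) (EMod p V) := (eEnd (p := p)).comp tQ
  have hact : Function.Injective act := by
    rw [injective_iff_map_eq_one]
    intro g hg
    have h1 : tQ g = 1 := by
      ext v
      exact eEnd_eq_one hg ▸ rfl
    have h2 : (g : G) ∈ (X ⊔ Q) ⊓ Subgroup.centralizer (V : Set G) := by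
      refine Subgroup.mem_inf.mpr ⟨(le_sup_right : Q ≤ X ⊔ Q) g.2, ?_⟩
      rw [Subgroup.mem_centralizer_iff]
      intro v hv
      have h3 := congrArg (fun f : MulAut V => ((f ⟨v, hv⟩ : V) : G)) h1
      have h4 : (g : G) * v * (g : G)⁻¹ = v := h3
      exact (mul_inv_eq_iff_eq_mul.mp h4).symm
    rw [hfaith, Subgroup.mem_bot] at h2
    exact Subtype.ext h2
  let x' : normalizer (V : Set G) := ⟨x₀, hXV hx₀X⟩
  let y₀ : Module.End (ZMod p) (EMod p V) := eEnd (nAct V x')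
  have hy₀ : ∀ g, y₀ * act g = act (σ g) * y₀ := by
    intro g
    show eEnd _ * eEnd _ = eEnd _ * eEnd _
    rw [← map_mul, ← map_mul]
    congr 1
    ext v
    show x₀ * ((g : G) * v * (g : G)⁻¹) * x₀⁻¹ =
      (x₀ * (g : G) * x₀⁻¹) * (x₀ * v * x₀⁻¹) * (x₀ * (g : G) * x₀⁻¹)⁻¹
    group
  have hy₀r : y₀ ^ r ^ 1 = 1 := by
    rw [hr1']
    show (eEnd (nAct V x')) ^ r = 1
    rw [← map_pow, ← map_pow]
    have : x' ^ r = 1 := Subtype.ext hx₀r
    rw [this, map_one, map_one]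
  have hfree : ∀ v, y₀ v = v → v = 0 := by
    intro v hv
    have h1 : x₀ * ((eTo v : V) : G) * x₀⁻¹ = (eTo v : V) :=
      congrArg (fun w : EMod p V => ((eTo w : V) : G)) hv
    have h2 : ((eTo v : V) : G) ∈ V ⊓ Subgroup.centralizer (X : Set G) :=
      ⟨(eTo v : V).2, hcentX _ h1⟩
    rw [hCV, Subgroup.mem_bot] at h2
    have h3 : eTo v = 1 := Subtype.ext h2
    exact h3
  haveI : Nontrivial V := by
    by_contra hcon
    rw [not_nontrivial_iff_subsingleton] at hcon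
    apply hV1
    rw [eq_bot_iff]
    intro v hv
    have h3 : (⟨v, hv⟩ : V) = 1 := Subsingleton.elim _ _
    exact congrArg Subtype.val h3
  have hex : ∃ g, act (g⁻¹ * σ^[r ^ (1 - 1)] g) ≠ 1 := by
    have hnc : x₀ ∉ Subgroup.centralizer (Q : Set G) := by
      intro h
      have : x₀ ∈ X ⊓ Subgroup.centralizer (Q : Set G) := ⟨hx₀X, h⟩
      rw [hXfaith, Subgroup.mem_bot] at this
      exact hx₀ne this
    rw [Subgroup.mem_centralizer_iff] at hnc
    push Not at hnc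
    obtain ⟨g, hg, hgne⟩ := hnc
    refine ⟨⟨g, hg⟩, fun h => ?_⟩
    rw [hr0, Function.iterate_one] at h
    have h1 : (⟨g, hg⟩ : ↥Q)⁻¹ * σ ⟨g, hg⟩ = 1 := hact (by rw [h, map_one])
    have h2 : σ ⟨g, hg⟩ = ⟨g, hg⟩ := by
      have := congrArg (fun t => (⟨g, hg⟩ : ↥Q) * t) h1
      simpa using this
    have h3 : x₀ * g * x₀⁻¹ = g := congrArg Subtype.val h2
    exact hgne (mul_inv_eq_iff_eq_mul.mp h3).symm
  obtain ⟨⟨a, b, hab⟩, ⟨n, m₀, hn, hm₀, hm₀m, harith⟩, -⟩ :=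
    hh_module (c := p) (M := EMod p V) hq hr hpq hpr hqr.symm one_pos (Or.inr rfl) y₀ hy₀r hfree hQ act σ hσ hy₀ hex
  have hm₀1 : m₀ = 1 := by omega
  rw [hm₀1, hr1'] at harith
  have hq2 : q = 2 := by
    have hNq : 2 ≤ q ^ n := by
      calc 2 ≤ q := hq.two_le
        _ ≤ q ^ n := Nat.le_self_pow hn.ne' q
    rcases hr.eq_two_or_odd' with h2 | h2
    · exfalso
      omega
    · have h4 : Even (q ^ n) := by
        rw [← harith] at h2
        by_contra hne
        have h3 : Odd (q ^ n) := Nat.not_even_iff_odd.mp hne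
        exact (Nat.not_even_iff_odd.mpr h2) (h3.add_odd odd_one)
      have h6 := Nat.Prime.dvd_of_dvd_pow Nat.prime_two h4.two_dvd
      exact ((Nat.prime_dvd_prime_iff_eq Nat.prime_two hq).mp h6).symm
  subst hq2
  have hcm := hexc rfl ⟨n, harith.symm⟩
  exact hab (hcm.is_comm.comm a b)

end Cfsg.Agent.S3765
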