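import Cfsg.Statements.S3767
import Cfsg.Agent.Lib.Coprime.CycCent3
import Cfsg.Agent.Lib.Char.Extraspecial
import Mathlib

set_option autoImplicit false
open Cfsg

namespace Cfsg.Agent.S3767

open scoped ComplexConjugate
open Cfsg.Agent.Lib.Char Cfsg.Agent.Lib.Coprime Cfsg.Agent.Lib.Coprime.CycCent

/-- A faithful irreducible character of an extraspecial group. -/
theorem exists_irr {P : Type*} [Group P] [Finite P] {p : ℕ} [Fact p.Prime] (hP : Cfsg.IsExtraspecial p P) (n : ℕ)
    (hn : Nat.card P = p ^ (2 * n + 1)) :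
    ∃ χ : P → ℂ, IsIrrCharacter P χ ∧ χ 1 = (p : ℂ) ^ n ∧ ∀ x, x ∉ Subgroup.center P → χ x = 0 := by
  classical
  have hc : commutator P = Subgroup.center P := hP.1.2.2
  have hZ : Nat.card (Subgroup.center P) = p := hP.2
  have hpp : p.Prime := Fact.out
  obtain ⟨-, h2⟩ := extraspecial_degrees hc hZ hn
  have h3 : Nonempty {χ : IrrCharacter P // (χ : P → ℂ) 1 = (p : ℂ) ^ n} := by
    apply (Nat.card_pos_iff.mp ?_).1
    rw [h2]
    exact Nat.sub_pos_of_lt hpp.one_lt
  obtain ⟨⟨⟨χ, hχ⟩, hχ1⟩⟩ := h3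
  refine ⟨χ, hχ, hχ1, fun x hx => ?_⟩
  obtain ⟨m, ρ, hρ, rfl⟩ := hχ
  rcases extraspecial_rep_dichotomy hc hZ ρ hρ with h | ⟨h, -⟩
  · exfalso
    subst h
    have h4 : ρ.character 1 = (p : ℂ) ^ n := hχ1
    rw [Representation.char_one] at h4
    simp only [Module.finrank_fin_fun, Nat.cast_one] at h4
    have h5 : p ^ n = 1 := by exact_mod_cast h4.symm
    have hn0 : n = 0 := by
      by_contra h6
      exact (Nat.one_lt_pow h6 hpp.one_lt).ne' h5
    subst hn0
    apply hx
    have h7 : Subgroup.center P = ⊤ := by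
      apply Subgroup.eq_top_of_card_eq
      rw [hZ, hn]
      simp
    rw [h7]
    trivial
  · exact h x hx

/-- Let P be an extraspecial p-group of order p^(2n+1) and H a cyclic group of order h prime to p acting on P (inside a common finite group: H normalizes P) so that C_P(x) = Z(P) for every non-identity x ∈ H. Then h divides p^n + 1 or h divides p^n − 1. -/
theorem result {G : Type*} [Group G] [Finite G] {p : ℕ} [Fact p.Prime] (P H : Subgroup G) (hP : Cfsg.IsExtraspecial p ↥P) (n : ℕ) (hn : Nat.card P = p ^ (2 * n + 1)) (hH : IsCyclic H) (hcop : (Nat.card H).Coprime p) (hHP : H ≤ Subgroup.normalizer (P : Set G)) (hfix : ∀ x ∈ H, x ≠ 1 → P ⊓ Subgroup.centralizer {x} = (Subgroup.center ↥P).map P.subtype) : Nat.card H ∣ p ^ n + 1 ∨ Nat.card H ∣ p ^ n - 1 := by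
  classical
  have hpp : p.Prime := Fact.out
  by_cases hH1 : H = ⊥
  · left
    have : Nat.card H = 1 := by
      rw [hH1]
      exact Nat.card_unique
    rw [this]
    exact one_dvd _
  let T : Subgroup G := P ⊔ H
  have hPT : P ≤ T := le_sup_left
  have hHT : H ≤ T := le_sup_right
  letI : Fintype T := Fintype.ofFinite _
  let Z : Subgroup G := (Subgroup.center ↥P).map P.subtype
  have hZP : Z ≤ P := by
    rintro _ ⟨z, -, rfl⟩
    exact z.2
  have hZmem : ∀ (y : P), (y : G) ∈ Z ↔ y ∈ Subgroup.center ↥P := by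
    intro y
    constructor
    · rintro ⟨z, hz, h⟩
      have : z = y := Subtype.ext h
      rwa [← this]
    · intro hy
      exact ⟨y, hy, rfl⟩
  let K : Subgroup T := P.subgroupOf T
  let W₁ : Subgroup T := H.subgroupOf T
  let W₂ : Subgroup T := Z.subgroupOf T
  have hcardP : Nat.card K = p ^ (2 * n + 1) := by
    rw [← hn]
    exact Nat.card_congr (Subgroup.subgroupOfEquivOfLe hPT).toEquiv
  have hcardH : Nat.card W₁ = Nat.card H := Nat.card_congr (Subgroup.subgroupOfEquivOfLe hHT).toEquiv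
  have hcopKW : (Nat.card K).Coprime (Nat.card W₁) := by
    rw [hcardP, hcardH]
    exact Nat.Coprime.pow_left _ hcop.symm
  have hnormal : K.Normal := Subgroup.normal_subgroupOf_of_le_normalizer (sup_le Subgroup.le_normalizer hHP)
  have hinf : K ⊓ W₁ = ⊥ := by
    rw [eq_bot_iff]
    intro x hx
    have h1 : orderOf x ∣ Nat.card K := Subgroup.orderOf_dvd_natCard K hx.1
    have h2 : orderOf x ∣ Nat.card W₁ := Subgroup.orderOf_dvd_natCard W₁ hx.2
    have h3 := Nat.eq_one_of_dvd_coprimes hcopKW h1 h2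
    rw [orderOf_eq_one_iff] at h3
    rw [h3]
    exact Subgroup.one_mem _
  have hsup : K ⊔ W₁ = ⊤ := by
    show P.subgroupOf T ⊔ H.subgroupOf T = ⊤
    rw [← Subgroup.subgroupOf_sup hPT hHT]
    exact Subgroup.subgroupOf_self T
  have hne : W₁ ≠ ⊥ := by
    intro h
    apply hH1
    rw [eq_bot_iff]
    intro x hx
    have h1 : (⟨x, hHT hx⟩ : T) ∈ W₁ := hx
    rw [h] at h1
    have h2 := (Subgroup.mem_bot).mp h1
    have h3 := congrArg Subtype.val h2
    simpa using h3
  have hcyc : IsCyclic W₁ := by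
    haveI := hH
    exact isCyclic_of_surjective (Subgroup.subgroupOfEquivOfLe hHT).symm (Subgroup.subgroupOfEquivOfLe hHT).symm.surjective
  have hcomm : ∀ a ∈ W₂, ∀ b ∈ W₂, a * b = b * a := by
    intro a ha b hb
    obtain ⟨z, hz, hza⟩ := ha
    obtain ⟨z', hz', hzb⟩ := hb
    apply Subtype.ext
    show (a : G) * b = b * a
    have ha' : (z : G) = a := hza
    have hb' : (z' : G) = b := hzb
    rw [← ha', ← hb']
    have := (Subgroup.mem_center_iff.mp hz z')
    exact (congrArg Subtype.val this).symm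
  have hle : W₂ ≤ K := fun x hx => hZP hx
  have hcent : ∀ x ∈ W₁, x ≠ 1 → K ⊓ Subgroup.centralizer ({x} : Set T) = W₂ := by
    intro x hx hx1
    have hx1' : (x : G) ≠ 1 := by simpa using hx1
    have h1 := hfix x hx hx1'
    ext y
    have h2 : (y : G) ∈ P ⊓ Subgroup.centralizer ({(x : G)} : Set G) ↔ (y : G) ∈ Z := by rw [h1]
    constructor
    · rintro ⟨hy1, hy2⟩
      refine h2.mp ⟨hy1, ?_⟩
      have hy2' : y ∈ Subgroup.centralizer ({x} : Set T) := hy2
      rw [Subgroup.mem_centralizer_singleton_iff] at hy2'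
      exact Subgroup.mem_centralizer_singleton_iff.mpr (congrArg Subtype.val hy2')
    · intro hy
      have h3 := h2.mpr hy
      refine ⟨h3.1, ?_⟩
      have h4 : y ∈ Subgroup.centralizer ({x} : Set T) := by
        rw [Subgroup.mem_centralizer_singleton_iff]
        apply Subtype.ext
        exact Subgroup.mem_centralizer_singleton_iff.mp h3.2
      exact h4
  have S : Setup K W₁ W₂ := ⟨hnormal, hinf, hsup, hne, hcyc, hcopKW, hcomm, hle, hcent⟩
  obtain ⟨χ, hχ, hχ1, hχ0⟩ := exists_irr hP n hn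
  let e : K ≃* P := Subgroup.subgroupOfEquivOfLe hPT
  have heval : ∀ y : K, ((e y : P) : G) = ((y : T) : G) := fun y => rfl
  let θ : K → ℂ := χ ∘ e
  have hθ : IsIrrCharacter K θ := isIrr_comp_equiv e hχ
  have hθ0 : ∀ y : K, (y : T) ∉ W₂ → θ y = 0 := by
    intro y hy
    refine hχ0 _ fun h => hy ?_
    exact (hZmem _).mpr h
  have hfixθ : ∀ x ∈ W₁, Fix S.normal x θ := by
    intro x hx n'
    by_cases hn' : (n' : T) ∈ W₂
    · have h1 := S.commute hx hn'
      congr 1
      apply Subtype.ext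
      show x * (n' : T) * x⁻¹ = n'
      rw [h1.symm.eq]
      group
    · rw [hθ0 n' hn', hθ0 _ ?_]
      intro h
      apply hn'
      have h1 := S.commute hx h
      have h2 : (n' : T) = x⁻¹ * (x * (n' : T) * x⁻¹) * x := by group
      have h3 : x⁻¹ * (x * (n' : T) * x⁻¹) * x = x * (n' : T) * x⁻¹ := by
        rw [mul_assoc, h1.eq]
        group
      rw [h2, h3]
      exact h
  obtain ⟨X, hX, hext, hdet⟩ := S.exists_canonical hθ hfixθ
  have hG : IsIrrCharacter K (fun g : K => X g) := by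
    have : (fun g : K => X g) = θ := funext hext
    rw [this]
    exact hθ
  obtain ⟨ε, N, hε, hN⟩ := S.degree_sign hX hG hdet
  have hX1 : X 1 = (p : ℂ) ^ n := by
    have h1 := hext 1
    have h2 : θ 1 = χ 1 := by
      show χ (e 1) = χ 1
      rw [map_one]
    rw [← hχ1, ← h2, ← h1]
    rfl
  rw [hX1, hcardH] at hN
  have hN' : ((p : ℤ) ^ n - ε : ℤ) = N * (Nat.card H : ℤ) := by exact_mod_cast hN
  have hpos : 1 ≤ p ^ n := Nat.one_le_pow _ _ hpp.pos
  rcases hε with rfl | rfl
  · right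
    have h3 : (Nat.card H : ℤ) ∣ ((p ^ n - 1 : ℕ) : ℤ) := by
      rw [Nat.cast_sub hpos]
      push_cast
      exact ⟨N, by rw [hN']; ring⟩
    exact_mod_cast h3
  · left
    have h3 : (Nat.card H : ℤ) ∣ ((p ^ n + 1 : ℕ) : ℤ) := by
      push_cast
      refine ⟨N, ?_⟩
      have : (p : ℤ) ^ n + 1 = (p : ℤ) ^ n - (-1) := by ring
      rw [this, hN']
      ring
    exact_mod_cast h3

end Cfsg.Agent.S3767
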