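import Cfsg.Statements.S3768
import Cfsg.Agent.Lib.FrobThm.Basic
import Cfsg.Agent.Lib.Hall.Frobenius
import Cfsg.Agent.Lib.Degree.CodPrime
import Cfsg.Agent.Lib.Transfer.Frobenius
import Mathlib

set_option autoImplicit false
open Cfsg

namespace Cfsg.Agent.S3768

/-- Let G be a finite Frobenius group with Frobenius complement R and Frobenius kernel K (the identity together with the elements in no conjugate of R), and let N be a normal subgroup of G not containing K. Then G/N is a Frobenius group with Frobenius complement RN/N whose Frobenius kernel is the image of K. -/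
theorem result {G : Type*} [Group G] [Finite G] (R : Subgroup G) (hR : Cfsg.IsFrobeniusComplement R) (N : Subgroup G) [N.Normal] (hKN : ¬ Cfsg.frobeniusKernel R ⊆ N) : Cfsg.IsFrobeniusComplement (R.map (QuotientGroup.mk' N)) ∧ Cfsg.frobeniusKernel (R.map (QuotientGroup.mk' N)) = QuotientGroup.mk' N '' Cfsg.frobeniusKernel R := by
  classical
  obtain ⟨K, hKset, hKn, hc⟩ := Cfsg.Agent.Lib.FrobThm.frobenius_theorem R hR
  have hKmem : ∀ x, x ∈ K ↔ x ∈ Cfsg.frobeniusKernel R := fun x => by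
    rw [← hKset]; rfl
  have hdisj : ∀ x, x ∈ K → x ∈ R → x = 1 := fun x h1 h2 =>
    Subgroup.disjoint_def.mp hc.disjoint h1 h2
  -- the commutator map is bijective on K
  have hsurj : ∀ r ∈ R, r ≠ 1 → ∀ v ∈ K, ∃ k ∈ K, k * r * k⁻¹ * r⁻¹ = v := by
    intro r hr hr1
    let φ : K → K := fun k => ⟨k * r * (k : G)⁻¹ * r⁻¹, by
      have h1 : r * (k : G)⁻¹ * r⁻¹ ∈ K := hKn.conj_mem _ (K.inv_mem k.2) r
      have h2 := K.mul_mem k.2 h1
      simpa [mul_assoc] using h2⟩
    have hinj : Function.Injective φ := by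
      intro a b hab
      have h1 : (a : G) * r * (a : G)⁻¹ * r⁻¹ = b * r * (b : G)⁻¹ * r⁻¹ := congrArg Subtype.val hab
      have h2 : (b : G)⁻¹ * a ∈ Subgroup.centralizer ({r} : Set G) := by
        rw [Subgroup.mem_centralizer_singleton_iff]
        have h3 : (a : G) * r * (a : G)⁻¹ = b * r * (b : G)⁻¹ := mul_right_cancel h1
        have h4 : (b : G)⁻¹ * a * r * (a : G)⁻¹ * b = r := by
          calc (b : G)⁻¹ * a * r * (a : G)⁻¹ * b = (b : G)⁻¹ * ((a : G) * r * (a : G)⁻¹) * b := by group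
            _ = r := by rw [h3]; group
        calc (b : G)⁻¹ * a * r = ((b : G)⁻¹ * a * r * (a : G)⁻¹ * b) * ((b : G)⁻¹ * a) := by group
          _ = r * ((b : G)⁻¹ * a) := by rw [h4]
      have h5 := Cfsg.Agent.Lib.Hall.centralizer_le_of_mem_complement hR hr hr1 h2
      have h6 : (b : G)⁻¹ * a ∈ K := K.mul_mem (K.inv_mem b.2) a.2
      have h7 := hdisj _ h6 h5
      apply Subtype.ext
      rw [inv_mul_eq_one] at h7
      exact h7.symm
    have hs := (Finite.injective_iff_surjective).mp hinj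
    intro v hv
    obtain ⟨k, hk⟩ := hs ⟨v, hv⟩
    exact ⟨k, k.2, congrArg Subtype.val hk⟩
  -- N lies in K
  have hNK : N ≤ K := by
    intro n hn
    by_contra hnK
    rw [hKmem] at hnK
    simp only [Cfsg.Agent.Lib.Hall.mem_kernel_iff, not_or] at hnK
    obtain ⟨hn1, hn2⟩ := hnK
    push Not at hn2
    obtain ⟨g, hg⟩ := hn2
    have hr : g⁻¹ * n * g ∈ R := by
      rw [Subgroup.mem_pointwise_smul_iff_inv_smul_mem] at hg
      simpa [MulAut.smul_def, MulAut.conj_apply] using hg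
    have hrN : g⁻¹ * n * g ∈ N := by
      have := ‹N.Normal›.conj_mem n hn g⁻¹
      simpa using this
    have hr1 : g⁻¹ * n * g ≠ 1 := by
      intro h
      apply hn1
      have : n = g * (g⁻¹ * n * g) * g⁻¹ := by group
      rw [this, h]; group
    apply hKN
    intro v hv
    have hv' : v ∈ K := by rw [hKmem]; exact hv
    obtain ⟨k, hk, rfl⟩ := hsurj _ hr hr1 v hv'
    have h1 := ‹N.Normal›.conj_mem _ hrN k
    have h2 : (g⁻¹ * n * g)⁻¹ ∈ N := N.inv_mem hrN
    exact N.mul_mem h1 h2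
  set π := QuotientGroup.mk' N with hπ
  have hπs : Function.Surjective π := QuotientGroup.mk'_surjective N
  let Kb : Subgroup (G ⧸ N) := K.map π
  let Rb : Subgroup (G ⧸ N) := R.map π
  have hKbn : Kb.Normal := hKn.map π hπs
  have hinf : Kb ⊓ Rb = ⊥ := by
    rw [eq_bot_iff]
    rintro x ⟨⟨k, hk, rfl⟩, ⟨r, hr, hrx⟩⟩
    have h1 : π r = π k := hrx
    have h2 : k⁻¹ * r ∈ N := by
      have : (k : G ⧸ N) = (r : G ⧸ N) := h1.symm
      exact QuotientGroup.eq.mp this
    have h3 : r ∈ K := by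
      have : r = k * (k⁻¹ * r) := by group
      rw [this]
      exact K.mul_mem hk (hNK h2)
    have h4 := hdisj r h3 hr
    rw [Subgroup.mem_bot, ← h1, h4, map_one]
  have hsup : Kb ⊔ Rb = ⊤ := by
    show K.map π ⊔ R.map π = ⊤
    rw [← Subgroup.map_sup, hc.sup_eq_top, ← MonoidHom.range_eq_map, MonoidHom.range_eq_top]
    exact hπs
  have hcb : Kb.IsComplement' Rb := Cfsg.Agent.Lib.Transfer.isComplement'_of_inf_sup Kb Rb hinf hsup
  have hfix : ∀ h ∈ Rb, h ≠ 1 → ∀ u ∈ Kb, h * u * h⁻¹ = u → u = 1 := by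
    rintro h ⟨r, hr, rfl⟩ hh1 u hu hfx
    have hr1 : r ≠ 1 := fun h0 => hh1 (by rw [h0, map_one])
    let f : Kb → Kb := fun w => ⟨w * π r * (w : G ⧸ N)⁻¹ * (π r)⁻¹, by
      have h1 : π r * (w : G ⧸ N)⁻¹ * (π r)⁻¹ ∈ Kb := hKbn.conj_mem _ (Kb.inv_mem w.2) _
      have h2 := Kb.mul_mem w.2 h1
      simpa [mul_assoc] using h2⟩
    have hfs : Function.Surjective f := by
      rintro ⟨v, w, hw, rfl⟩
      obtain ⟨k, hk, rfl⟩ := hsurj r hr hr1 w hw
      refine ⟨⟨π k, k, hk, rfl⟩, ?_⟩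
      apply Subtype.ext
      show π k * π r * (π k)⁻¹ * (π r)⁻¹ = π (k * r * k⁻¹ * r⁻¹)
      simp
    have hfi := (Finite.injective_iff_surjective).mpr hfs
    have h1 : f ⟨u, hu⟩ = f 1 := by
      apply Subtype.ext
      show u * π r * u⁻¹ * (π r)⁻¹ = (1 : G ⧸ N) * π r * (1 : G ⧸ N)⁻¹ * (π r)⁻¹
      have h2 : u * π r = π r * u := by
        calc u * π r = (π r * u * (π r)⁻¹) * π r := by rw [hfx]
          _ = π r * u := by group
      rw [h2]; group
    have h2 := hfi h1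
    exact congrArg Subtype.val h2
  obtain ⟨hti, hker⟩ := Cfsg.Agent.Lib.Degree.frobenius_of_fixedPointFree Kb Rb hcb hfix
  refine ⟨⟨?_, ?_, hti⟩, ?_⟩
  · intro h0
    apply hR.1
    rw [eq_bot_iff]
    intro r hr
    have h1 : π r ∈ Rb := ⟨r, hr, rfl⟩
    have h2 : π r = 1 := by
      have : Rb = ⊥ := h0
      rw [this] at h1
      exact h1
    have h3 : r ∈ N := (QuotientGroup.eq_one_iff r).mp h2
    exact hdisj r (hNK h3) hr
  · intro h0
    apply hKN
    intro v hv
    have hv' : v ∈ K := by rw [hKmem]; exact hv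
    have h1 : π v ∈ Kb := ⟨v, hv', rfl⟩
    have h2 : π v ∈ Rb := by
      have : Rb = ⊤ := h0
      rw [this]; trivial
    have h3 : π v ∈ Kb ⊓ Rb := ⟨h1, h2⟩
    rw [hinf] at h3
    exact (QuotientGroup.eq_one_iff v).mp h3
  · show Cfsg.frobeniusKernel Rb = _
    rw [hker, ← hKset]
    rfl

end Cfsg.Agent.S3768
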