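import Cfsg.Statements.S3769
import Cfsg.Agent.Lib.PGroup.HHModule
import Cfsg.Agent.Lib.Hall.CoprimeSylow
import Cfsg.Agent.Lib.PSolv.Basic
-- import your own Cfsg.Agent.* helpers here

set_option autoImplicit false
open Cfsg

namespace Cfsg.Agent.S3769

open Subgroup Cfsg.Agent.Lib.Hall Cfsg.Agent.Lib.PGroup.HH

/-- Core: an element of prime order acting without fixed points on `V` and normalizing a `q`-subgroup. -/
theorem core {X : Type*} [Group X] [Finite X] (V Q : Subgroup X) {ℓ q r : ℕ} (hℓ : ℓ.Prime) (hq : q.Prime)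
    (hr : r.Prime) (hrodd : Odd r) (hq2 : q ≠ 2) (hℓq : ℓ ≠ q) (hℓr : ℓ ≠ r) (hrq : r ≠ q)
    (hV : Cfsg.IsElementaryAbelian ℓ V) (hV1 : V ≠ ⊥) (hQ : IsPGroup q Q)
    (hQV : Q ≤ normalizer (V : Set X))
    {x₀ : X} (hx₀V : x₀ ∈ normalizer (V : Set X)) (hx₀Q : x₀ ∈ normalizer (Q : Set X))
    (hx₀r : x₀ ^ r = 1)
    (hfix : ∀ v ∈ V, x₀ * v * x₀⁻¹ = v → v = 1) (g : X) (hg : g ∈ Q) :
    g⁻¹ * (x₀ * g * x₀⁻¹) ∈ centralizer (V : Set X) := by
  classical
  haveI hpF : Fact ℓ.Prime := ⟨hℓ⟩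
  haveI := Fintype.ofFinite ↥Q
  obtain ⟨hcV, hexpV⟩ := hV
  haveI : Fact (IsElem ℓ V) := ⟨⟨hcV.is_comm.comm, fun a => Subtype.ext (hexpV _ a.2)⟩⟩
  let σ : ↥Q ≃* ↥Q := normalizerAut Q hx₀Q
  have hr1' : r ^ 1 = r := pow_one r
  have hr0 : r ^ (1 - 1) = 1 := by simp
  have hσ : ∀ g, σ^[r ^ 1] g = g := by
    intro g
    rw [hr1']
    apply Subtype.ext
    rw [normalizerAut_iter, hx₀r]
    simp
  let tQ : ↥Q →* MulAut V := (nAct V).comp (Subgroup.inclusion hQV)
  let act : ↥Q →* Module.End (ZMod ℓ) (EMod ℓ V) := (eEnd (p := ℓ)).comp tQ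
  let x' : normalizer (V : Set X) := ⟨x₀, hx₀V⟩
  let y₀ : Module.End (ZMod ℓ) (EMod ℓ V) := eEnd (nAct V x')
  have hy₀ : ∀ g, y₀ * act g = act (σ g) * y₀ := by
    intro g
    show eEnd _ * eEnd _ = eEnd _ * eEnd _
    rw [← map_mul, ← map_mul]
    congr 1
    ext v
    show x₀ * ((g : X) * v * (g : X)⁻¹) * x₀⁻¹ =
      (x₀ * (g : X) * x₀⁻¹) * (x₀ * v * x₀⁻¹) * (x₀ * (g : X) * x₀⁻¹)⁻¹
    group
  have hy₀r : y₀ ^ r ^ 1 = 1 := by
    rw [hr1']
    show (eEnd (nAct V x')) ^ r = 1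
    rw [← map_pow, ← map_pow]
    have : x' ^ r = 1 := Subtype.ext hx₀r
    rw [this, map_one, map_one]
  have hfree : ∀ v, y₀ v = v → v = 0 := by
    intro v hv
    have h1 : x₀ * ((eTo v : V) : X) * x₀⁻¹ = (eTo v : V) :=
      congrArg (fun w : EMod ℓ V => ((eTo w : V) : X)) hv
    have h3 : eTo v = 1 := Subtype.ext (hfix _ (eTo v : V).2 h1)
    exact h3
  haveI : Nontrivial V := by
    by_contra hcon
    rw [not_nontrivial_iff_subsingleton] at hcon
    apply hV1
    rw [eq_bot_iff]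
    intro v hv
    have h3 : (⟨v, hv⟩ : V) = 1 := Subsingleton.elim _ _
    exact congrArg Subtype.val h3
  by_contra hcon
  have hex : ∃ g, act (g⁻¹ * σ^[r ^ (1 - 1)] g) ≠ 1 := by
    refine ⟨⟨g, hg⟩, fun h => hcon ?_⟩
    rw [hr0, Function.iterate_one] at h
    have h1 : tQ ((⟨g, hg⟩ : ↥Q)⁻¹ * σ ⟨g, hg⟩) = 1 := by
      ext v
      exact eEnd_eq_one h ▸ rfl
    rw [mem_centralizer_iff]
    intro v hv
    have h3 := congrArg (fun f : MulAut V => ((f ⟨v, hv⟩ : V) : X)) h1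
    have h4 : (g⁻¹ * (x₀ * g * x₀⁻¹)) * v * (g⁻¹ * (x₀ * g * x₀⁻¹))⁻¹ = v := h3
    exact (mul_inv_eq_iff_eq_mul.mp h4).symm
  obtain ⟨-, ⟨n, m₀, hn, hm₀, hm₀m, harith⟩, -⟩ :=
    hh_module (c := ℓ) (M := EMod ℓ V) hq hr hℓq hℓr hrq one_pos (Or.inr rfl) y₀ hy₀r hfree hQ act σ hσ hy₀ hex
  have hm₀1 : m₀ = 1 := by omega
  rw [hm₀1, hr1'] at harith
  apply hq2
  have h4 : Even (q ^ n) := by
    rw [← harith] at hrodd
    by_contra hne
    have h3 : Odd (q ^ n) := Nat.not_even_iff_odd.mp hne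
    exact (Nat.not_even_iff_odd.mpr hrodd) (h3.add_odd odd_one)
  have h6 := Nat.Prime.dvd_of_dvd_pow Nat.prime_two h4.two_dvd
  exact ((Nat.prime_dvd_prime_iff_eq Nat.prime_two hq).mp h6).symm

/-- Let G and V be subgroups of a finite group with G solvable of odd order normalizing V, V an elementary abelian ℓ-group for a prime ℓ not dividing the order of G, and suppose G has a normal Hall subgroup K with a complement R of prime order. If C_V(R) = 1, then [R, K] centralizes V. -/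
theorem result {X : Type*} [Group X] [Finite X] (G : Subgroup X) (hsolv : Group.IsSolvable G) (hodd : Odd (Nat.card G)) (V : Subgroup X) {ℓ : ℕ} (hℓ : ℓ.Prime) (hV : Cfsg.IsElementaryAbelian ℓ V) (hℓG : ¬ ℓ ∣ Nat.card G) (hGV : G ≤ Subgroup.normalizer (V : Set X)) (K R : Subgroup X) (hKG : K ≤ G) (hKn : G ≤ Subgroup.normalizer (K : Set X)) (hHall : (Nat.card K).Coprime (K.relIndex G)) (hRG : R ≤ G) (hR : (Nat.card R).Prime) (hKR : K ⊓ R = ⊥) (hKRG : K ⊔ R = G) (hCV : V ⊓ Subgroup.centralizer (R : Set X) = ⊥) : ⁅R, K⁆ ≤ Subgroup.centralizer (V : Set X) := by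
  classical
  by_cases hV1 : V = ⊥
  · subst hV1
    intro x _
    rw [Subgroup.mem_centralizer_iff]
    intro v hv
    have hv1 : v = 1 := by simpa using hv
    simp [hv1]
  have hRK : K.relIndex G = Nat.card R := by
    -- inside `G`
    have hKle : K ≤ G := hKG
    have hcard : Nat.card G = Nat.card K * Nat.card R := by
      -- work in `G`: `K` is normal
      let K₀ : Subgroup G := K.subgroupOf G
      let R₀ : Subgroup G := R.subgroupOf G
      haveI hK₀ : K₀.Normal := by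
        refine ⟨fun n hn g => ?_⟩
        have h1 := (Subgroup.mem_normalizer_iff.mp (hKn g.2) (n : X)).mp hn
        exact h1
      have h1 := Cfsg.Agent.Lib.PSolv.card_sup_mul_card_inf R₀ K₀
      have h2 : R₀ ⊔ K₀ = ⊤ := by
        rw [eq_top_iff]
        intro g _
        have hg : (g : X) ∈ K ⊔ R := by rw [hKRG]; exact g.2
        have hmap : (R₀ ⊔ K₀).map G.subtype = G := by
          rw [Subgroup.map_sup]
          have e1 : R₀.map G.subtype = R := by
            rw [Subgroup.map_subgroupOf_eq_of_le hRG]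
          have e2 : K₀.map G.subtype = K := by
            rw [Subgroup.map_subgroupOf_eq_of_le hKG]
          rw [e1, e2, sup_comm, hKRG]
        have hg' : (g : X) ∈ (R₀ ⊔ K₀).map G.subtype := by rw [hmap]; exact g.2
        obtain ⟨g', hg', he⟩ := hg'
        have : g' = g := Subtype.ext he
        exact this ▸ hg'
      have h3 : R₀ ⊓ K₀ = ⊥ := by
        rw [eq_bot_iff]
        intro g hg
        have : (g : X) ∈ K ⊓ R := ⟨hg.2, hg.1⟩
        rw [hKR, Subgroup.mem_bot] at this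
        exact Subgroup.mem_bot.mpr (Subtype.ext this)
      rw [h2, h3] at h1
      have e1 : Nat.card (⊤ : Subgroup G) = Nat.card G := Nat.card_congr Subgroup.topEquiv.toEquiv
      have e2 : Nat.card (⊥ : Subgroup G) = 1 := Subgroup.card_bot
      have e3 : Nat.card R₀ = Nat.card R := by
        exact Nat.card_congr (Subgroup.subgroupOfEquivOfLe hRG).toEquiv
      have e4 : Nat.card K₀ = Nat.card K := by
        exact Nat.card_congr (Subgroup.subgroupOfEquivOfLe hKG).toEquiv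
      rw [e1, e2, e3, e4, mul_one] at h1
      rw [h1, mul_comm]
    have h2 : Nat.card K * K.relIndex G = Nat.card G := by
      have := Cfsg.Agent.Lib.PGroup.card_inf_mul_relIndex K G
      rwa [inf_eq_left.mpr hKG] at this
    have hpos : 0 < Nat.card K := Nat.card_pos
    exact Nat.eq_of_mul_eq_mul_left hpos (h2.trans hcard)
  rw [hRK] at hHall
  set r := Nat.card R with hrdef
  have hdvdR : r ∣ Nat.card G := by
    exact Subgroup.card_dvd_of_le hRG
  have hdvdK : Nat.card K ∣ Nat.card G := Subgroup.card_dvd_of_le hKG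
  have hrodd : Odd r := Odd.of_dvd_nat hodd hdvdR
  have hr1 : 1 < Nat.card R := hR.one_lt
  haveI : Nontrivial R := Finite.one_lt_card_iff_nontrivial.mp hr1
  obtain ⟨⟨x₀, hx₀X⟩, hx₀1⟩ := exists_ne (1 : R)
  have hx₀ne : x₀ ≠ 1 := fun h => hx₀1 (Subtype.ext h)
  have hx₀r : x₀ ^ r = 1 := by
    have := pow_card_eq_one' (x := (⟨x₀, hx₀X⟩ : R))
    exact congrArg Subtype.val this
  have hRN : R ≤ normalizer (K : Set X) := hRG.trans hKn
  have hRcomm : Group.IsSolvable R := by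
    haveI := (Subgroup.card_dvd_of_le hRG)
    exact solvable_of_solvable_injective (f := Subgroup.inclusion hRG)
      (Subgroup.inclusion_injective hRG)
  have hfix : ∀ v ∈ V, x₀ * v * x₀⁻¹ = v → v = 1 := by
    intro v hv h
    have h2 : v ∈ V ⊓ centralizer (R : Set X) := by
      refine Subgroup.mem_inf.mpr ⟨hv, Subgroup.mem_centralizer_iff.mpr ?_⟩
      intro a ha
      obtain ⟨k, rfl⟩ := exists_pow_of_prime_card hR rfl hx₀X hx₀ne ha
      have hc : Commute x₀ v := mul_inv_eq_iff_eq_mul.mp h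
      exact (hc.pow_left k).eq
    rw [hCV, Subgroup.mem_bot] at h2
    exact h2
  have hx₀V : x₀ ∈ normalizer (V : Set X) := hGV (hRG hx₀X)
  have hKV : K ≤ normalizer (V : Set X) := hKG.trans hGV
  let x' : normalizer (V : Set X) := ⟨x₀, hx₀V⟩
  let tK : ↥K →* MulAut V := (nAct V).comp (Subgroup.inclusion hKV)
  let K' : Subgroup ↥K := (Subgroup.centralizer {nAct V x'}).comap tK
  have hK' : K' = ⊤ := by
    by_contra hne
    have hidx : K'.index ≠ 1 := fun h => hne (Subgroup.index_eq_one.mp h)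
    obtain ⟨q, hq, hqd⟩ := Nat.exists_prime_and_dvd hidx
    haveI : Fact q.Prime := ⟨hq⟩
    have hqK : q ∣ Nat.card K := hqd.trans (Subgroup.index_dvd_card K')
    obtain ⟨P, hP⟩ := exists_invariant_sylow R K hRN
      hHall.symm (Or.inl hRcomm) q
    have hPle : (P : Subgroup K) ≤ K' := by
      intro g hg
      have hQ : IsPGroup q ((P : Subgroup K).map K.subtype) :=
        P.isPGroup'.map K.subtype
      have hQV : (P : Subgroup K).map K.subtype ≤ normalizer (V : Set X) :=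
        (Subgroup.map_subtype_le _).trans hKV
      have hq2 : q ≠ 2 := by
        rintro rfl
        have h2 : 2 ∣ Nat.card G := hqK.trans hdvdK
        exact (Nat.not_even_iff_odd.mpr hodd) (even_iff_two_dvd.mpr h2)
      have hℓq : ℓ ≠ q := by
        rintro rfl
        exact hℓG (hqK.trans hdvdK)
      have hℓr : ℓ ≠ r := by
        intro h
        exact hℓG (h ▸ hdvdR)
      have hrq : r ≠ q := by
        intro h
        have h1 : r ∣ Nat.card K := h ▸ hqK
        have h2 := Nat.Coprime.eq_one_of_dvd hHall.symm h1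
        exact hR.one_lt.ne' h2
      have hc := core V ((P : Subgroup K).map K.subtype) hℓ hq hR hrodd hq2 hℓq hℓr hrq hV hV1 hQ hQV hx₀V
        (hP hx₀X) hx₀r hfix (g : X) ⟨g, hg, rfl⟩
      show tK g ∈ Subgroup.centralizer {nAct V x'}
      rw [Subgroup.mem_centralizer_singleton_iff]
      ext v
      have hw : x₀ * (v : X) * x₀⁻¹ ∈ V := (Subgroup.mem_normalizer_iff.mp hx₀V (v : X)).mp v.2
      have h1 := (Subgroup.mem_centralizer_iff.mp hc) _ hw
      show (g : X) * (x₀ * (v : X) * x₀⁻¹) * (g : X)⁻¹ = x₀ * ((g : X) * (v : X) * (g : X)⁻¹) * x₀⁻¹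
      calc (g : X) * (x₀ * (v : X) * x₀⁻¹) * (g : X)⁻¹
          = (g : X) * ((x₀ * (v : X) * x₀⁻¹) * ((g : X)⁻¹ * (x₀ * (g : X) * x₀⁻¹))) * (x₀ * (g : X)⁻¹ * x₀⁻¹) := by group
        _ = (g : X) * (((g : X)⁻¹ * (x₀ * (g : X) * x₀⁻¹)) * (x₀ * (v : X) * x₀⁻¹)) * (x₀ * (g : X)⁻¹ * x₀⁻¹) := by rw [h1]
        _ = x₀ * ((g : X) * (v : X) * (g : X)⁻¹) * x₀⁻¹ := by group
    have h3 := Subgroup.index_dvd_of_le hPle
    exact P.not_dvd_index (hqd.trans h3)
  rw [Subgroup.commutator_le]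
  intro g hg h hh
  obtain ⟨k, rfl⟩ := exists_pow_of_prime_card hR rfl hx₀X hx₀ne hg
  have h1 : (⟨h, hh⟩ : ↥K) ∈ K' := by rw [hK']; exact Subgroup.mem_top _
  have h2 : tK ⟨h, hh⟩ ∈ Subgroup.centralizer {nAct V x'} := h1
  rw [Subgroup.mem_centralizer_singleton_iff] at h2
  have h3 : Commute (nAct V x') (tK ⟨h, hh⟩) := h2.symm
  have h4 := h3.pow_left k
  let h' : normalizer (V : Set X) := ⟨h, hKV hh⟩
  have h5 : nAct V (x' ^ k * h' * (x' ^ k)⁻¹ * h'⁻¹) = 1 := by
    simp only [map_mul, map_inv, map_pow]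
    have h6 : nAct V h' = tK ⟨h, hh⟩ := rfl
    rw [h6, h4.eq]
    group
  rw [Subgroup.mem_centralizer_iff]
  intro v hv
  have h7 := congrArg (fun f : MulAut V => ((f ⟨v, hv⟩ : V) : X)) h5
  have h8 : (x₀ ^ k * h * (x₀ ^ k)⁻¹ * h⁻¹) * v * (x₀ ^ k * h * (x₀ ^ k)⁻¹ * h⁻¹)⁻¹ = v := h7
  exact (mul_inv_eq_iff_eq_mul.mp h8).symm


end Cfsg.Agent.S3769
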