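-- Statement S3770: the derived subgroup of the kernel centralizes V.
import Cfsg.Statements.S3770
import Cfsg.Agent.Lib.FrobThm.Basic
import Cfsg.Agent.Lib.FrobThm.FixedPointFree
import Cfsg.Agent.Lib.Hall.Frobenius
import Mathlib

set_option autoImplicit false
open Cfsg
open scoped commutatorElement

namespace Cfsg.Agent.S3770

section Core
variable {G₀ A F : Type*} [Group G₀] [Finite G₀] [Field F] [AddCommGroup A] [Module F A]
  (ρ : G₀ →* Module.End F A)

noncomputable local instance instFS (S : Subgroup G₀) : Fintype S := Fintype.ofFinite S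

/-- Sum over a subgroup. -/
noncomputable def T (S : Subgroup G₀) (v : A) : A := ∑ s : S, ρ (s : G₀) v

theorem T_fix (S : Subgroup G₀) (v : A) {g : G₀} (hg : g ∈ S) : ρ g (T ρ S v) = T ρ S v := by
  unfold T
  rw [map_sum]
  refine Fintype.sum_equiv (Equiv.mulLeft (⟨g, hg⟩ : S)) _ _ fun c => ?_
  simp [map_mul]

theorem T_mul (S : Subgroup G₀) (v : A) {g : G₀} (hg : g ∈ S) : T ρ S (ρ g v) = T ρ S v := by
  unfold T
  refine Fintype.sum_equiv (Equiv.mulRight (⟨g, hg⟩ : S)) _ _ fun c => ?_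
  simp [map_mul]

theorem T_add (S : Subgroup G₀) (v w : A) : T ρ S (v + w) = T ρ S v + T ρ S w := by
  unfold T
  simp [Finset.sum_add_distrib]

theorem T_smul (S : Subgroup G₀) (c : F) (v : A) : T ρ S (c • v) = c • T ρ S v := by
  unfold T
  simp [Finset.smul_sum]

theorem T_sub (S : Subgroup G₀) (v w : A) : T ρ S (v - w) = T ρ S v - T ρ S w := by
  unfold T
  simp [Finset.sum_sub_distrib]

theorem T_sum (S : Subgroup G₀) {ι : Type*} (s : Finset ι) (f : ι → A) :
    T ρ S (∑ i ∈ s, f i) = ∑ i ∈ s, T ρ S (f i) := by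
  unfold T
  simp only [map_sum]
  exact Finset.sum_comm

theorem T_conj (S : Subgroup G₀) {y : G₀} (h1 : ∀ s ∈ S, y * s * y⁻¹ ∈ S) (h2 : ∀ s ∈ S, y⁻¹ * s * y ∈ S)
    (v : A) : T ρ S (ρ y v) = ρ y (T ρ S v) := by
  unfold T
  rw [map_sum]
  let φ : S ≃ S :=
    { toFun := fun s => ⟨y⁻¹ * s * y, h2 _ s.2⟩
      invFun := fun s => ⟨y * s * y⁻¹, h1 _ s.2⟩
      left_inv := fun s => by ext; simp [mul_assoc]
      right_inv := fun s => by ext; simp [mul_assoc] }
  refine Fintype.sum_equiv φ _ _ fun c => ?_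
  simp only [φ, Equiv.coe_fn_mk]
  rw [← Module.End.mul_apply, ← Module.End.mul_apply, ← map_mul, ← map_mul]
  congr 2
  group

theorem T_of_fix (S : Subgroup G₀) (v : A) (h : ∀ s ∈ S, ρ s v = v) :
    T ρ S v = ((Nat.card S : ℕ) : F) • v := by
  unfold T
  have : ∀ s : S, ρ (s : G₀) v = v := fun s => h s s.2
  simp only [this, Finset.sum_const, Finset.card_univ, Nat.card_eq_fintype_card]
  rw [Nat.cast_smul_eq_nsmul]

/-- The averaging identity for a Frobenius action. -/
theorem avg (S R : Subgroup G₀) (hn : ∀ y ∈ R, ∀ s ∈ S, y * s * y⁻¹ ∈ S)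
    (hfpf : ∀ y ∈ R, y ≠ 1 → ∀ s ∈ S, y * s = s * y → s = 1) (v : A)
    (h0 : ∀ y ∈ R, T ρ S (ρ y v) = 0) :
    ((Nat.card S : ℕ) : F) • v = ∑ s : S, ρ (s : G₀)⁻¹ (T ρ R (ρ (s : G₀) v)) := by
  have h1 : ∀ s : S, ρ (s : G₀)⁻¹ (T ρ R (ρ (s : G₀) v)) =
      ∑ y : R, ρ ((s : G₀)⁻¹ * (y : G₀) * s) v := by
    intro s
    unfold T
    rw [map_sum]
    refine Finset.sum_congr rfl fun y _ => ?_
    simp [map_mul]
  simp only [h1]
  rw [Finset.sum_comm]
  rw [Finset.sum_eq_single (1 : R)]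
  · simp only [Subgroup.coe_one, mul_one, inv_mul_cancel, map_one, Module.End.one_apply]
    simp only [Finset.sum_const, Finset.card_univ, Nat.card_eq_fintype_card]
    rw [Nat.cast_smul_eq_nsmul]
  · intro y _ hy
    have hy1 : (y : G₀) ≠ 1 := fun h => hy (Subtype.ext h)
    let θ : S → S := fun s => ⟨(s : G₀)⁻¹ * ((y : G₀) * s * (y : G₀)⁻¹),
      S.mul_mem (S.inv_mem s.2) (hn _ y.2 _ s.2)⟩
    have hinj : Function.Injective θ := by
      intro a b hab
      have hab' : (a : G₀)⁻¹ * ((y : G₀) * a * (y : G₀)⁻¹) = (b : G₀)⁻¹ * ((y : G₀) * b * (y : G₀)⁻¹) :=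
        congrArg Subtype.val hab
      have h2 : (b : G₀) * (a : G₀)⁻¹ = 1 := by
        apply hfpf _ y.2 hy1 _ (S.mul_mem b.2 (S.inv_mem a.2))
        have h3 : (a : G₀)⁻¹ * (y : G₀) * a = (b : G₀)⁻¹ * (y : G₀) * b := by
          have := congrArg (fun t => t * (y : G₀)) hab'
          simpa [mul_assoc] using this
        have h4 : (b : G₀) * (a : G₀)⁻¹ * (y : G₀) * ((a : G₀) * (b : G₀)⁻¹) = y := by
          calc (b : G₀) * (a : G₀)⁻¹ * (y : G₀) * ((a : G₀) * (b : G₀)⁻¹)
              = (b : G₀) * ((a : G₀)⁻¹ * (y : G₀) * a) * (b : G₀)⁻¹ := by group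
            _ = (b : G₀) * ((b : G₀)⁻¹ * (y : G₀) * b) * (b : G₀)⁻¹ := by rw [h3]
            _ = y := by group
        calc (y : G₀) * ((b : G₀) * (a : G₀)⁻¹)
            = ((b : G₀) * (a : G₀)⁻¹ * (y : G₀) * ((a : G₀) * (b : G₀)⁻¹)) * ((b : G₀) * (a : G₀)⁻¹) := by rw [h4]
          _ = (b : G₀) * (a : G₀)⁻¹ * y := by group
      exact Subtype.ext (by
        have := mul_inv_eq_one.mp h2
        exact this.symm)
    have hbij : Function.Bijective θ := ⟨hinj, Finite.injective_iff_surjective.mp hinj⟩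
    have h3 := h0 y y.2
    unfold T at h3
    rw [← h3]
    refine Fintype.sum_bijective θ hbij _ _ fun s => ?_
    simp only [θ]
    rw [← Module.End.mul_apply, ← map_mul]
    congr 2
    group
  · intro h
    exact absurd (Finset.mem_univ _) h

/-- Elements of `K` acting centrally. -/
def centZ (K : Subgroup G₀) : Subgroup G₀ where
  carrier := {z | z ∈ K ∧ ∀ g ∈ K, ρ (z * g) = ρ (g * z)}
  mul_mem' {a b} ha hb := ⟨K.mul_mem ha.1 hb.1, fun g hg => by
    calc ρ (a * b * g) = ρ a * ρ (b * g) := by rw [mul_assoc, map_mul]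
      _ = ρ a * ρ (g * b) := by rw [hb.2 g hg]
      _ = ρ (a * g) * ρ b := by rw [map_mul, map_mul, mul_assoc]
      _ = ρ (g * a) * ρ b := by rw [ha.2 g hg]
      _ = ρ (g * (a * b)) := by rw [← map_mul, mul_assoc]⟩
  one_mem' := ⟨K.one_mem, fun g _ => by simp⟩
  inv_mem' {a} ha := ⟨K.inv_mem ha.1, fun g hg => by
    have := ha.2 (a⁻¹ * g * a⁻¹) (K.mul_mem (K.mul_mem (K.inv_mem ha.1) hg) (K.inv_mem ha.1))
    have e1 : a * (a⁻¹ * g * a⁻¹) = g * a⁻¹ := by group
    have e2 : (a⁻¹ * g * a⁻¹) * a = a⁻¹ * g := by group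
    rw [e1, e2] at this
    exact this.symm⟩

theorem exists_central (K : Subgroup G₀) (hnil : Group.IsNilpotent K)
    (hne : ¬ ∀ g ∈ K, ρ g = 1) : ∃ z ∈ centZ ρ K, ρ z ≠ 1 := by
  classical
  let f : K →* (Module.End F A)ˣ := (ρ.toHomUnits).comp K.subtype
  let H₁ := f.range
  haveI : Group.IsNilpotent H₁ := Group.nilpotent_of_surjective f.rangeRestrict f.rangeRestrict_surjective
  have hc : Subgroup.center H₁ ≠ ⊥ := by
    intro hc
    have hall : ∀ n, Subgroup.upperCentralSeries H₁ n = ⊥ := by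
      intro n
      induction n with
      | zero => rfl
      | succ n ih =>
        rw [eq_bot_iff]
        intro x hx
        rw [Subgroup.mem_upperCentralSeries_succ_iff] at hx
        have : x ∈ Subgroup.center H₁ := by
          rw [Subgroup.mem_center_iff]
          intro y
          have h1 := hx y
          rw [ih, Subgroup.mem_bot] at h1
          have h2 : x * y * x⁻¹ * y⁻¹ = 1 := h1
          have h3 : x * y = y * x := by
            calc x * y = (x * y * x⁻¹ * y⁻¹) * (y * x) := by group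
              _ = y * x := by rw [h2, one_mul]
          exact h3.symm
        rw [hc] at this
        exact this
    obtain ⟨n, hn⟩ := Group.IsNilpotent.nilpotent (G := H₁)
    have htop : (⊤ : Subgroup H₁) = ⊥ := by rw [← hn, hall n]
    apply hne
    intro g hg
    have h1 : (⟨f ⟨g, hg⟩, ⟨⟨g, hg⟩, rfl⟩⟩ : H₁) ∈ (⊤ : Subgroup H₁) := Subgroup.mem_top _
    rw [htop, Subgroup.mem_bot] at h1
    have h2 : f ⟨g, hg⟩ = 1 := congrArg Subtype.val h1
    have h3 : ((f ⟨g, hg⟩ : (Module.End F A)ˣ) : Module.End F A) = 1 := by rw [h2]; rfl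
    exact h3
  obtain ⟨c, hcm, hc1⟩ := (Subgroup.bot_or_exists_ne_one _).resolve_left hc
  obtain ⟨z, hz⟩ := c.2
  refine ⟨z, ⟨z.2, fun g hg => ?_⟩, ?_⟩
  · have h1 := (Subgroup.mem_center_iff.mp hcm) ⟨f ⟨g, hg⟩, ⟨⟨g, hg⟩, rfl⟩⟩
    have h2 : f ⟨g, hg⟩ * f z = f z * f ⟨g, hg⟩ := by
      have := congrArg Subtype.val h1
      simpa [← hz] using this
    have h3 := congrArg Units.val h2
    simp only [Units.val_mul] at h3
    have h4 : ∀ w : K, ((f w : (Module.End F A)ˣ) : Module.End F A) = ρ w := fun w => rfl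
    rw [h4, h4] at h3
    rw [map_mul, map_mul]
    exact h3.symm
  · intro h
    apply hc1
    apply Subtype.ext
    show (c : (Module.End F A)ˣ) = 1
    rw [← hz]
    apply Units.ext
    exact h

/-- A vector moved to zero by the sum kills the whole kernel of the sum. -/
theorem kill (S R : Subgroup G₀) (hn : ∀ y ∈ R, ∀ s ∈ S, y * s * y⁻¹ ∈ S)
    (hfpf : ∀ y ∈ R, y ≠ 1 → ∀ s ∈ S, y * s = s * y → s = 1)
    (hcard : ((Nat.card S : ℕ) : F) ≠ 0) (e : A)
    (he : ∀ v : A, (∀ y ∈ R, ρ y v = v) → ∃ c : F, v = c • e)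
    (hTe : T ρ S e ≠ 0) (v : A) (hv : T ρ S v = 0) : v = 0 := by
  have hn' : ∀ y ∈ R, ∀ s ∈ S, y⁻¹ * s * y ∈ S := fun y hy s hs => by
    simpa using hn y⁻¹ (R.inv_mem hy) s hs
  have hc : ∀ y ∈ R, ∀ w, T ρ S (ρ y w) = ρ y (T ρ S w) := fun y hy w =>
    T_conj ρ S (hn y hy) (hn' y hy) w
  have h1 := avg ρ S R hn hfpf v (fun y hy => by rw [hc y hy, hv, map_zero])
  have h2 : ∀ s : S, T ρ R (ρ (s : G₀) v) = 0 := by
    intro s
    obtain ⟨c, hc1⟩ := he (T ρ R (ρ (s : G₀) v)) (fun y hy => T_fix ρ R _ hy)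
    have h3 : T ρ S (T ρ R (ρ (s : G₀) v)) = 0 := by
      have h5 : T ρ R (ρ (s : G₀) v) = ∑ y : R, ρ (y : G₀) (ρ (s : G₀) v) := rfl
      rw [h5, T_sum]
      refine Finset.sum_eq_zero fun y _ => ?_
      rw [hc _ y.2, T_mul ρ S v s.2, hv, map_zero]
    rw [hc1, T_smul] at h3
    have h4 : c = 0 := by
      rcases smul_eq_zero.mp h3 with h | h
      · exact h
      · exact absurd h hTe
    rw [hc1, h4, zero_smul]
  simp only [h2, map_zero, Finset.sum_const_zero] at h1
  exact (smul_eq_zero.mp h1).resolve_left hcard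

theorem T_T_eq (S : Subgroup G₀) (hcard : ((Nat.card S : ℕ) : F) ≠ 0) (v : A) :
    T ρ S (v - ((Nat.card S : ℕ) : F)⁻¹ • T ρ S v) = 0 := by
  rw [T_sub, T_smul, T_of_fix ρ S (T ρ S v) (fun s hs => T_fix ρ S v hs), smul_smul,
    inv_mul_cancel₀ hcard, one_smul, sub_self]

/-- The core of the statement: a Frobenius action with a one-dimensional space of fixed points of the
complement forces the nilpotent kernel to act as an abelian group. -/
theorem core (K R : Subgroup G₀) (hKn : ∀ y ∈ R, ∀ k ∈ K, y * k * y⁻¹ ∈ K)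
    (hfpf : ∀ y ∈ R, y ≠ 1 → ∀ k ∈ K, y * k = k * y → k = 1)
    (hnil : Group.IsNilpotent K)
    (hcard : ((Nat.card K : ℕ) : F) ≠ 0)
    (e : A) (he0 : ∀ y ∈ R, ρ y e = e)
    (he : ∀ v : A, (∀ y ∈ R, ρ y v = v) → ∃ c : F, v = c • e) :
    ∀ g ∈ K, ∀ h ∈ K, ρ (g * h) = ρ (h * g) := by
  classical
  have hKn' : ∀ y ∈ R, ∀ s ∈ K, y⁻¹ * s * y ∈ K := fun y hy s hs => by
    simpa using hKn y⁻¹ (R.inv_mem hy) s hs
  have hcK : ∀ y ∈ R, ∀ w, T ρ K (ρ y w) = ρ y (T ρ K w) := fun y hy w =>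
    T_conj ρ K (hKn y hy) (hKn' y hy) w
  by_cases hTK : T ρ K e = 0
  swap
  · -- the kernel fixes everything
    have h0 := kill ρ K R hKn hfpf hcard e he hTK
    have hall : ∀ g ∈ K, ∀ v, ρ g v = v := by
      intro g hg v
      have h1 := h0 _ (T_T_eq ρ K hcard v)
      have h2 : v = ((Nat.card K : ℕ) : F)⁻¹ • T ρ K v := sub_eq_zero.mp h1
      rw [h2, map_smul, T_fix ρ K v hg]
    intro g hg h hh
    ext v
    rw [hall _ (K.mul_mem hg hh), hall _ (K.mul_mem hh hg)]
  by_cases htriv : ∀ g ∈ K, ρ g = 1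
  · intro g hg h hh
    rw [map_mul, map_mul, htriv g hg, htriv h hh]
  obtain ⟨z₀, hz₀, hz₀1⟩ := exists_central ρ K hnil htriv
  set Z := centZ ρ K with hZdef
  have hZK : Z ≤ K := fun z hz => hz.1
  have hZc : ∀ z ∈ Z, ∀ g ∈ K, ρ (z * g) = ρ (g * z) := fun z hz => hz.2
  have hZn : ∀ y ∈ R, ∀ z ∈ Z, y * z * y⁻¹ ∈ Z := by
    intro y hy z hz
    refine ⟨hKn y hy z (hZK hz), fun g hg => ?_⟩
    have h1 := hZc z hz _ (hKn' y hy g hg)
    calc ρ (y * z * y⁻¹ * g) = ρ y * ρ (z * (y⁻¹ * g * y)) * ρ y⁻¹ := by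
          simp only [map_mul, mul_assoc, map_inv]
          simp [← map_mul, mul_assoc]
      _ = ρ y * ρ ((y⁻¹ * g * y) * z) * ρ y⁻¹ := by rw [h1]
      _ = ρ (g * (y * z * y⁻¹)) := by
          simp only [← map_mul]
          congr 1
          group
  have hZn' : ∀ y ∈ R, ∀ s ∈ Z, y⁻¹ * s * y ∈ Z := fun y hy s hs => by
    simpa using hZn y⁻¹ (R.inv_mem hy) s hs
  have hcZ : ∀ y ∈ R, ∀ w, T ρ Z (ρ y w) = ρ y (T ρ Z w) := fun y hy w =>
    T_conj ρ Z (hZn y hy) (hZn' y hy) w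
  have hZcard : ((Nat.card Z : ℕ) : F) ≠ 0 := by
    intro h
    apply hcard
    obtain ⟨m, hm⟩ := Subgroup.card_dvd_of_le hZK
    rw [hm, Nat.cast_mul, h, zero_mul]
  have hZfpf : ∀ y ∈ R, y ≠ 1 → ∀ s ∈ Z, y * s = s * y → s = 1 := fun y hy h1 s hs =>
    hfpf y hy h1 s (hZK hs)
  -- `e` lies in the kernel of the sum over `Z`
  have hTZ : T ρ Z e = 0 := by
    by_contra hTZ
    have h0 := kill ρ Z R hZn hZfpf hZcard e he hTZ
    apply hz₀1
    ext v
    have h1 := h0 _ (T_T_eq ρ Z hZcard v)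
    have h2 : v = ((Nat.card Z : ℕ) : F)⁻¹ • T ρ Z v := sub_eq_zero.mp h1
    rw [h2, map_smul, T_fix ρ Z v hz₀]
    rfl
  -- the fixed points of `Z` in the kernel of the sum over `K` vanish
  have hW : ∀ u, T ρ K u = 0 → (∀ z ∈ Z, ρ z u = u) → u = 0 := by
    intro u hu huZ
    have h1 := avg ρ K R hKn hfpf u (fun y hy => by rw [hcK y hy, hu, map_zero])
    have h2 : ∀ k : K, T ρ R (ρ (k : G₀) u) = 0 := by
      intro k
      set w := T ρ R (ρ (k : G₀) u) with hw
      obtain ⟨c, hc⟩ := he w (fun y hy => T_fix ρ R _ hy)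
      have hfixZ : ∀ z ∈ Z, ρ z w = w := by
        intro z hz
        rw [hw]
        unfold T
        rw [map_sum]
        refine Finset.sum_congr rfl fun y _ => ?_
        have h3 : y⁻¹ * z * y ∈ Z := by
          have := hZn' y y.2 z hz
          simpa using this
        have h4 := hZc _ (hZn' y y.2 z hz) k k.2
        have h5 : ρ z (ρ (y : G₀) (ρ (k : G₀) u)) =
            ρ (y : G₀) (ρ (((y : G₀)⁻¹ * z * y) * k) u) := by
          simp only [← Module.End.mul_apply, ← map_mul]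
          congr 2
          group
        rw [h5, h4, map_mul, Module.End.mul_apply, huZ _ (hZn' y y.2 z hz)]
      have h6 : T ρ Z w = ((Nat.card Z : ℕ) : F) • w := T_of_fix ρ Z w hfixZ
      have h7 : T ρ Z w = 0 := by rw [hc, T_smul, hTZ, smul_zero]
      rw [h7] at h6
      exact (smul_eq_zero.mp h6.symm).resolve_left hZcard
    simp only [h2, map_zero, Finset.sum_const_zero] at h1
    exact (smul_eq_zero.mp h1).resolve_left hcard
  -- hence the sum over `Z` vanishes on the kernel of the sum over `K`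
  have hV1 : ∀ v, T ρ K v = 0 → T ρ Z v = 0 := by
    intro v hv
    have h1 : ((Nat.card Z : ℕ) : F)⁻¹ • T ρ Z v = 0 := by
      apply hW
      · rw [T_smul]
        have h2 : T ρ K (T ρ Z v) = 0 := by
          have h5 : T ρ Z v = ∑ z : Z, ρ (z : G₀) v := rfl
          rw [h5, T_sum]
          refine Finset.sum_eq_zero fun z _ => ?_
          rw [T_mul ρ K v (hZK z.2), hv]
        rw [h2, smul_zero]
      · intro z hz
        rw [map_smul, T_fix ρ Z v hz]
    exact (smul_eq_zero.mp h1).resolve_left (inv_ne_zero hZcard)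
  -- the span of the action of `Z`
  let 𝔸 : Submodule F (Module.End F A) := Submodule.span F (ρ '' (Z : Set G₀))
  have h𝔸 : ∀ a ∈ 𝔸, ∀ g ∈ K, a * ρ g = ρ g * a := by
    intro a ha g hg
    induction ha using Submodule.span_induction with
    | mem x hx =>
      obtain ⟨z, hz, rfl⟩ := hx
      rw [← map_mul, ← map_mul]
      exact hZc z hz g hg
    | zero => simp
    | add x y _ _ hx hy => rw [add_mul, mul_add, hx, hy]
    | smul c x _ hx => rw [smul_mul_assoc, mul_smul_comm, hx]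
  have h𝔸2 : ∀ a ∈ 𝔸, ∀ b ∈ 𝔸, a * b = b * a := by
    intro a ha b hb
    induction hb using Submodule.span_induction with
    | mem x hx =>
      obtain ⟨z, hz, rfl⟩ := hx
      exact h𝔸 a ha z (hZK hz)
    | zero => simp
    | add x y _ _ hx hy => rw [add_mul, mul_add, hx, hy]
    | smul c x _ hx => rw [smul_mul_assoc, mul_smul_comm, hx]
  have hRep : ∀ v, T ρ K v = 0 → ∃ a ∈ 𝔸, v = a e := by
    intro v hv
    have hvZ := hV1 v hv
    have h1 := avg ρ Z R hZn hZfpf v (fun y hy => by rw [hcZ y hy, hvZ, map_zero])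
    have h2 : ∀ z : Z, ∃ c : F, T ρ R (ρ (z : G₀) v) = c • e := fun z =>
      he _ (fun y hy => T_fix ρ R _ hy)
    choose c hc using h2
    refine ⟨((Nat.card Z : ℕ) : F)⁻¹ • ∑ z : Z, c z • ρ ((z : G₀)⁻¹), ?_, ?_⟩
    · refine Submodule.smul_mem _ _ (Submodule.sum_mem _ fun z _ => Submodule.smul_mem _ _ ?_)
      exact Submodule.subset_span ⟨_, Z.inv_mem z.2, rfl⟩
    · have h3 : (((Nat.card Z : ℕ) : F)⁻¹ • ∑ z : Z, c z • ρ ((z : G₀)⁻¹)) e =
          ((Nat.card Z : ℕ) : F)⁻¹ • ∑ z : Z, ρ (z : G₀)⁻¹ (T ρ R (ρ (z : G₀) v)) := by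
        rw [LinearMap.smul_apply, LinearMap.sum_apply]
        congr 1
        refine Finset.sum_congr rfl fun z _ => ?_
        rw [hc, map_smul, LinearMap.smul_apply]
      rw [h3, ← h1, smul_smul, inv_mul_cancel₀ hZcard, one_smul]
  have hTg : ∀ g ∈ K, T ρ K (ρ g e) = 0 := fun g hg => by rw [T_mul ρ K e hg, hTK]
  have heK : ∀ g ∈ K, ∀ h ∈ K, ρ (g * h) e = ρ (h * g) e := by
    intro g hg h hh
    obtain ⟨a, ha, hae⟩ := hRep _ (hTg g hg)
    obtain ⟨b, hb, hbe⟩ := hRep _ (hTg h hh)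
    have h1 : ρ (g * h) e = b (a e) := by
      rw [map_mul, Module.End.mul_apply, hbe, ← Module.End.mul_apply, ← h𝔸 b hb g hg,
        Module.End.mul_apply, hae]
    have h2 : ρ (h * g) e = a (b e) := by
      rw [map_mul, Module.End.mul_apply, hae, ← Module.End.mul_apply, ← h𝔸 a ha h hh,
        Module.End.mul_apply, hbe]
    rw [h1, h2, ← Module.End.mul_apply, ← Module.End.mul_apply, h𝔸2 a ha b hb]
  intro g hg h hh
  ext w
  have h1 := T_T_eq ρ K hcard w
  set u := ((Nat.card K : ℕ) : F)⁻¹ • T ρ K w with hu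
  obtain ⟨a, ha, hae⟩ := hRep _ h1
  have hufix : ∀ k ∈ K, ρ k u = u := fun k hk => by
    rw [hu, map_smul, T_fix ρ K w hk]
  have hw : w = u + a e := by rw [← hae]; abel
  have hcomm : ∀ k ∈ K, ρ k (a e) = a (ρ k e) := fun k hk => by
    rw [← Module.End.mul_apply, ← h𝔸 a ha k hk, Module.End.mul_apply]
  rw [hw, map_add, map_add, hufix _ (K.mul_mem hg hh), hufix _ (K.mul_mem hh hg),
    hcomm _ (K.mul_mem hg hh), hcomm _ (K.mul_mem hh hg), heK g hg h hh]

end Core

/-- Multiplicative form of `core`, with the module structure given. -/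
theorem core_mul_aux {G₀ V : Type*} [Group G₀] [Finite G₀] [CommGroup V] {ℓ : ℕ} [Fact ℓ.Prime]
    [Module (ZMod ℓ) (Additive V)] (act : G₀ →* MulAut V) (K R : Subgroup G₀)
    (hKn : ∀ y ∈ R, ∀ k ∈ K, y * k * y⁻¹ ∈ K)
    (hfpf : ∀ y ∈ R, y ≠ 1 → ∀ k ∈ K, y * k = k * y → k = 1)
    (hnil : Group.IsNilpotent K) (hcop : ¬ ℓ ∣ Nat.card K)
    (e : V) (he0 : ∀ y ∈ R, act y e = e)
    (he : ∀ v : V, (∀ y ∈ R, act y v = v) → ∃ k : ℤ, v = e ^ k) :
    ∀ g ∈ K, ∀ h ∈ K, ∀ v, act (g * h) v = act (h * g) v := by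
  let L : G₀ → (Additive V →+ Additive V) := fun g =>
    { toFun := fun a => Additive.ofMul (act g a.toMul)
      map_zero' := by
        show Additive.ofMul (act g 1) = 0
        rw [map_one]
        rfl
      map_add' := fun a b => by
        show Additive.ofMul (act g (a.toMul * b.toMul)) = _
        rw [map_mul]
        rfl }
  let ρf : G₀ → Module.End (ZMod ℓ) (Additive V) := fun g => AddMonoidHom.toZModLinearMap ℓ (L g)
  have hρ1 : ρf 1 = 1 := by
    apply LinearMap.ext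
    intro a
    show Additive.ofMul (act 1 a.toMul) = a
    rw [map_one]
    rfl
  have hρ2 : ∀ g h, ρf (g * h) = ρf g * ρf h := by
    intro g h
    apply LinearMap.ext
    intro a
    show Additive.ofMul (act (g * h) a.toMul) = _
    rw [map_mul]
    rfl
  let ρ : G₀ →* Module.End (ZMod ℓ) (Additive V) := ⟨⟨ρf, hρ1⟩, hρ2⟩
  have hρ : ∀ (g : G₀) (a : Additive V), (ρ g a : Additive V) = Additive.ofMul (act g a.toMul) :=
    fun g a => rfl
  have hcard : ((Nat.card K : ℕ) : ZMod ℓ) ≠ 0 := by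
    intro h
    exact hcop ((ZMod.natCast_eq_zero_iff _ _).mp h)
  have := core ρ K R hKn hfpf hnil hcard (Additive.ofMul e) (fun y hy => by
    rw [hρ]
    exact congrArg Additive.ofMul (he0 y hy)) (fun v hv => by
    obtain ⟨k, hk⟩ := he v.toMul (fun y hy => by
      have := hv y hy
      rw [hρ] at this
      exact congrArg Additive.toMul this)
    refine ⟨(k : ZMod ℓ), ?_⟩
    rw [Int.cast_smul_eq_zsmul]
    show v = Additive.ofMul (e ^ k)
    rw [← hk]
    rfl)
  intro g hg h hh v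
  have h1 := this g hg h hh
  have h2 := congrArg (fun f => f (Additive.ofMul v)) h1
  exact congrArg Additive.toMul h2

/-- Multiplicative form of `core`. -/
theorem core_mul {G₀ V : Type*} [Group G₀] [Finite G₀] [CommGroup V] {ℓ : ℕ} [Fact ℓ.Prime]
    (hexp : ∀ v : V, v ^ ℓ = 1) (act : G₀ →* MulAut V) (K R : Subgroup G₀)
    (hKn : ∀ y ∈ R, ∀ k ∈ K, y * k * y⁻¹ ∈ K)
    (hfpf : ∀ y ∈ R, y ≠ 1 → ∀ k ∈ K, y * k = k * y → k = 1)
    (hnil : Group.IsNilpotent K) (hcop : ¬ ℓ ∣ Nat.card K)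
    (e : V) (he0 : ∀ y ∈ R, act y e = e)
    (he : ∀ v : V, (∀ y ∈ R, act y v = v) → ∃ k : ℤ, v = e ^ k) :
    ∀ g ∈ K, ∀ h ∈ K, ∀ v, act (g * h) v = act (h * g) v := by
  have hA : ∀ a : Additive V, ℓ • a = 0 := fun a => hexp a.toMul
  letI : Module (ZMod ℓ) (Additive V) := AddCommGroup.zmodModule hA
  exact core_mul_aux act K R hKn hfpf hnil hcop e he0 he

/-- Let G and V be subgroups of a finite group with G a Frobenius group with complement R of prime order and kernel K, G normalizing V, and V an elementary abelian ℓ-group for a prime ℓ not dividing the order of G. If C_V(R) has order ℓ, then the derived subgroup of K centralizes V. -/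
theorem result {X : Type*} [Group X] [Finite X] (G : Subgroup X) (V : Subgroup X) {ℓ : ℕ} (hℓ : ℓ.Prime) (hV : Cfsg.IsElementaryAbelian ℓ V) (hℓG : ¬ ℓ ∣ Nat.card G) (hGV : G ≤ Subgroup.normalizer (V : Set X)) (R : Subgroup ↥G) (hR : Cfsg.IsFrobeniusComplement R) (hRp : (Nat.card R).Prime) (hCV : Nat.card ↥(V ⊓ Subgroup.centralizer ((R.map G.subtype : Subgroup X) : Set X)) = ℓ) : ⁅Subgroup.closure (Subtype.val '' Cfsg.frobeniusKernel R), Subgroup.closure (Subtype.val '' Cfsg.frobeniusKernel R)⁆ ≤ Subgroup.centralizer (V : Set X) := by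
  classical
  haveI : Fact ℓ.Prime := ⟨hℓ⟩
  haveI : IsMulCommutative V := hV.1
  obtain ⟨K, hKset, hKn, hc⟩ := Cfsg.Agent.Lib.FrobThm.frobenius_theorem R hR
  have hdisj : ∀ x, x ∈ K → x ∈ R → x = 1 := fun x h1 h2 =>
    Subgroup.disjoint_def.mp hc.disjoint h1 h2
  have hfpf : ∀ y ∈ R, y ≠ 1 → ∀ k ∈ K, y * k = k * y → k = 1 := by
    intro y hy hy1 k hk hyk
    exact hdisj k hk (Cfsg.Agent.Lib.Hall.centralizer_le_of_mem_complement hR hy hy1
      (Subgroup.mem_centralizer_singleton_iff.mpr hyk.symm))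
  have hcoe : Subgroup.closure (Subtype.val '' Cfsg.frobeniusKernel R) = K.map G.subtype := by
    rw [← hKset, Subgroup.closure_eq_of_le (K.map G.subtype)]
    · intro x hx
      obtain ⟨y, hy, rfl⟩ := hx
      exact ⟨y, hy, rfl⟩
    · intro x hx
      obtain ⟨y, hy, rfl⟩ := hx
      exact Subgroup.subset_closure ⟨y, hy, rfl⟩
  rw [hcoe]
  -- nilpotency of the kernel
  have hnil : Group.IsNilpotent K := by
    haveI : Nontrivial R := Finite.one_lt_card_iff_nontrivial.mp hRp.one_lt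
    obtain ⟨⟨y, hy⟩, hy1⟩ := exists_ne (1 : R)
    have hy1' : y ≠ 1 := fun h => hy1 (Subtype.ext h)
    refine Cfsg.Agent.Lib.FrobThm.fpf_nilpotent hRp (MulAut.conjNormal y) ?_ ?_
    · intro x hx
      have h2 : ((MulAut.conjNormal y x : K) : G) = y * x * y⁻¹ := MulAut.conjNormal_apply y x
      rw [hx] at h2
      have h3 : y * (x : G) = x * y := by
        calc y * (x : G) = (y * x * y⁻¹) * y := by group
          _ = x * y := by rw [← h2]
      exact Subtype.ext (hfpf y hy hy1' x x.2 h3)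
    · intro x
      have h2 : ∀ n : ℕ, ∀ x : K, (MulAut.conjNormal (H := K) y)^[n] x = MulAut.conjNormal (H := K) (y ^ n) x := by
        intro n
        induction n with
        | zero => intro x; simp
        | succ n ih =>
          intro x
          rw [Function.iterate_succ_apply', ih, pow_succ', map_mul]
          rfl
      rw [h2]
      have h3 : y ^ Nat.card R = 1 := by
        have := pow_card_eq_one' (x := (⟨y, hy⟩ : R))
        exact congrArg Subtype.val this
      rw [h3, map_one]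
      rfl
  -- the action on `V`
  have hconj : ∀ g : G, ∀ v ∈ V, (g : X) * v * (g : X)⁻¹ ∈ V := fun g v hv =>
    (Subgroup.mem_normalizer_iff.mp (hGV g.2) v).mp hv
  let act : G →* MulAut V :=
    { toFun := fun g =>
        { toFun := fun v => ⟨(g : X) * v * (g : X)⁻¹, hconj g v v.2⟩
          invFun := fun v => ⟨(g : X)⁻¹ * v * (g : X), by
            have := hconj g⁻¹ v v.2
            simpa using this⟩
          left_inv := fun v => by ext; simp [mul_assoc]
          right_inv := fun v => by ext; simp [mul_assoc]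
          map_mul' := fun v w => by
            ext
            simp [mul_assoc] }
      map_one' := by
        ext v
        simp
      map_mul' := fun g h => by
        ext v
        simp [mul_assoc] }
  have hact : ∀ g v, ((act g v : V) : X) = (g : X) * v * (g : X)⁻¹ := fun g v => rfl
  -- the generator of the fixed points
  haveI : Fact (Nat.card ↥(V ⊓ Subgroup.centralizer ((R.map G.subtype : Subgroup X) : Set X))).Prime := ⟨hCV ▸ hℓ⟩
  haveI : IsCyclic ↥(V ⊓ Subgroup.centralizer ((R.map G.subtype : Subgroup X) : Set X)) :=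
    isCyclic_of_prime_card rfl
  obtain ⟨e₀, he₀⟩ := IsCyclic.exists_generator (α := ↥(V ⊓ Subgroup.centralizer ((R.map G.subtype : Subgroup X) : Set X)))
  have he₀V : (e₀ : X) ∈ V := (Subgroup.mem_inf.mp e₀.2).1
  have he₀C : (e₀ : X) ∈ Subgroup.centralizer ((R.map G.subtype : Subgroup X) : Set X) := (Subgroup.mem_inf.mp e₀.2).2
  letI : CommGroup V := IsMulCommutative.instCommGroup
  have hmain := core_mul (ℓ := ℓ) (V := V) (fun v => Subtype.ext (by simpa using hV.2 v v.2)) act K R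
    (fun y _ k hk => hKn.conj_mem k hk y) hfpf hnil
    (fun h => hℓG (h.trans (Subgroup.card_subgroup_dvd_card K))) ⟨e₀, he₀V⟩
    (fun y hy => by
      apply Subtype.ext
      rw [hact]
      have h1 := (Subgroup.mem_centralizer_iff.mp he₀C) (y : X) ⟨y, hy, rfl⟩
      change (y : X) * (e₀ : X) * (y : X)⁻¹ = e₀
      rw [h1.symm.symm]
      group)
    (fun v hv => by
      have hvC : (v : X) ∈ V ⊓ Subgroup.centralizer ((R.map G.subtype : Subgroup X) : Set X) := by
        refine Subgroup.mem_inf.mpr ⟨v.2, ?_⟩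
        rw [Subgroup.mem_centralizer_iff]
        rintro _ ⟨y, hy, rfl⟩
        have h1 := congrArg Subtype.val (hv y hy)
        rw [hact] at h1
        show (y : X) * v = v * (y : X)
        calc (y : X) * v = ((y : X) * v * (y : X)⁻¹) * y := by group
          _ = v * y := by rw [h1]
      obtain ⟨k, hk⟩ := Subgroup.mem_zpowers_iff.mp (he₀ ⟨v, hvC⟩)
      refine ⟨k, ?_⟩
      apply Subtype.ext
      have h2 := congrArg Subtype.val hk
      exact h2.symm.trans ((Subgroup.coe_zpow _ e₀ k).trans (Subgroup.coe_zpow V ⟨e₀, he₀V⟩ k).symm))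
  rw [Subgroup.commutator_le]
  rintro _ ⟨g, hg, rfl⟩ _ ⟨h, hh, rfl⟩
  rw [Subgroup.mem_centralizer_iff]
  intro v hv
  -- conjugate `v` back by `h * g`
  have hu : ((h * g : G) : X)⁻¹ * v * ((h * g : G) : X) ∈ V := by
    have := hconj (h * g)⁻¹ v hv
    simpa using this
  have h1 := hmain g hg h hh ⟨_, hu⟩
  have h2 := congrArg Subtype.val h1
  rw [hact, hact] at h2
  simp only [Subgroup.coe_mul, G.subtype_apply] at h2 ⊢
  rw [commutatorElement_def]
  set a : X := (g : X) with ha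
  set b : X := (h : X) with hb
  have h3 : (a * b) * ((b * a)⁻¹ * v * (b * a)) * (a * b)⁻¹ = v := by
    rw [h2]
    group
  calc v * (a * b * a⁻¹ * b⁻¹)
      = ((a * b) * ((b * a)⁻¹ * v * (b * a)) * (a * b)⁻¹) * (a * b * a⁻¹ * b⁻¹) := by rw [h3]
    _ = a * b * a⁻¹ * b⁻¹ * v := by group

end Cfsg.Agent.S3770
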