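import Cfsg.Statements.S3771
import Cfsg.Agent.Lib.PGroup.MaxNormal
-- import your own Cfsg.Agent.* helpers here

set_option autoImplicit false
open Cfsg

namespace Cfsg.Agent.S3771

/-- Let p be a prime and R a finite p-group of p-rank at most 2 (no elementary abelian subgroup of order p³) in which every element has order dividing p. Then R has order at most p³. -/
theorem result {R : Type*} [Group R] [Finite R] {p : ℕ} [Fact p.Prime] (hR : IsPGroup p R) (hrank : Cfsg.PRankLE p 2 R) (hexp : ∀ x : R, x ^ p = 1) : Nat.card R ≤ p ^ 3 := by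
  classical
  have hpp := (Fact.out : p.Prime)
  have _ : Group.IsNilpotent R := hR.isNilpotent
  obtain ⟨A, hAn, hAc, hC⟩ := Cfsg.Agent.Lib.PGroup.exists_normal_abelian_self_centralizing (G := R)
  have h1 : Nat.card A ≤ p ^ 2 := hrank A hAc (fun a _ => hexp a)
  obtain ⟨k, hk⟩ := IsPGroup.iff_card.mp (hR.to_subgroup A)
  have hk2 : k ≤ 2 := by
    rw [hk] at h1
    exact (Nat.pow_le_pow_iff_right hpp.one_lt).mp h1
  by_cases hk3 : k = 2
  · subst hk3
    exact Cfsg.Agent.Lib.PGroup.card_le_of_self_centralizing_card_sq hR hk hC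
  · have hle : A ≤ Subgroup.center R := by
      have hk01 : k = 0 ∨ k = 1 := by omega
      rcases hk01 with rfl | rfl
      · rw [pow_zero] at hk
        rw [Subgroup.eq_bot_of_card_eq A hk]
        exact bot_le
      · rw [pow_one] at hk
        exact Cfsg.Agent.Lib.PGroup.le_center_of_normal_of_card_eq_prime hR A hk
    have htop : A = ⊤ := by
      rw [eq_top_iff]
      refine le_trans ?_ hC
      intro x _
      apply Subgroup.mem_centralizer_iff.mpr
      intro a ha
      exact (Subgroup.mem_center_iff.mp (hle ha) x).symm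
    have h2 : Nat.card R = Nat.card A := by rw [htop, Subgroup.card_top]
    rw [h2]
    calc Nat.card A ≤ p ^ 2 := h1
      _ ≤ p ^ 3 := Nat.pow_le_pow_right hpp.pos (by norm_num)

end Cfsg.Agent.S3771
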