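import Cfsg.Statements.S3773
import Mathlib
import Cfsg.Agent.Lib.PGroup.CWGroup
import Cfsg.Agent.Lib.Transfer.Frat
-- import your own Cfsg.Agent.* helpers here

set_option autoImplicit false
open Cfsg

namespace Cfsg.Agent.S3773

open scoped commutatorElement

/-- Let G be a finite 2-group of nilpotency class at most 2 and exponent dividing 4 in which the elements x with x² = 1 form a subgroup N. Then |G| ≤ |N|³, and |G| < |N|³ unless G is special. -/
theorem result {G : Type*} [Group G] [Finite G] (hG : IsPGroup 2 G) (hcl : (⊤ : Subgroup G).lowerCentralSeries 2 = ⊥) (hexp : ∀ x : G, x ^ 4 = 1) (hN : ∀ x y : G, x ^ 2 = 1 → y ^ 2 = 1 → (x * y) ^ 2 = 1) : Nat.card G ≤ Nat.card {x : G // x ^ 2 = 1} ^ 3 ∧ (¬ Cfsg.IsSpecial 2 G → Nat.card G < Nat.card {x : G // x ^ 2 = 1} ^ 3) := by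
  classical
  have hG4 : ∀ x : G, (x ^ 2) ^ 2 = 1 := fun x => by rw [← pow_mul]; exact hexp x
  have hcen : ∀ x y z : G, z * ⁅x, y⁆ = ⁅x, y⁆ * z := by
    intro x y z
    have h1 : ⁅⁅x, y⁆, z⁆ ∈ (⊤ : Subgroup G).lowerCentralSeries 2 := by
      rw [show (2 : ℕ) = 1 + 1 from rfl, Subgroup.lowerCentralSeries_succ]
      refine Subgroup.commutator_mem_commutator ?_ (Subgroup.mem_top _)
      rw [Subgroup.top_lowerCentralSeries_one]
      exact Subgroup.commutator_mem_commutator (Subgroup.mem_top _) (Subgroup.mem_top _)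
    rw [hcl, Subgroup.mem_bot, commutatorElement_eq_one_iff_mul_comm] at h1
    exact h1.symm
  have hleft : ∀ x y z : G, ⁅x * y, z⁆ = ⁅x, z⁆ * ⁅y, z⁆ := by
    intro x y z
    have hc := hcen y z x
    rw [commutatorElement_def, commutatorElement_def] at *
    calc x * y * z * (x * y)⁻¹ * z⁻¹ = x * (y * z * y⁻¹ * z⁻¹) * (z * x⁻¹ * z⁻¹) := by group
      _ = (y * z * y⁻¹ * z⁻¹) * x * (z * x⁻¹ * z⁻¹) := by rw [hc]
      _ = (y * z * y⁻¹ * z⁻¹) * (x * z * x⁻¹ * z⁻¹) := by group
      _ = _ := by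
        have := hcen x z (y * z * y⁻¹ * z⁻¹)
        rw [commutatorElement_def] at this
        exact this
  have hsqm : ∀ x y : G, (x * y) ^ 2 = x ^ 2 * y ^ 2 * ⁅y, x⁆ := by
    intro x y
    have hc := hcen y x
    have hyx : y * x = ⁅y, x⁆ * x * y := by
      rw [commutatorElement_def]; group
    generalize ⁅y, x⁆ = c at *
    calc (x * y) ^ 2 = x * (y * x) * y := by rw [pow_two]; group
      _ = (x * c) * x * y * y := by rw [hyx]; group
      _ = c * x * x * y * y := by rw [hc x]
      _ = c * (x * x * y * y) := by group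
      _ = (x * x * y * y) * c := by rw [hc]
      _ = _ := by rw [pow_two, pow_two]; group
  have hinv2 : ∀ x : G, x ^ 2 = 1 → (x⁻¹) ^ 2 = 1 := fun x hx => by rw [inv_pow, hx, inv_one]
  have hc2 : ∀ x y : G, ⁅y, x⁆ ^ 2 = 1 := by
    intro x y
    have h1 : ⁅y, x⁆ = (y ^ 2)⁻¹ * (x ^ 2)⁻¹ * (x * y) ^ 2 := by
      rw [hsqm]
      have := hcen y x (x ^ 2 * y ^ 2)
      group
    rw [h1]
    exact hN _ _ (hN _ _ (hinv2 _ (hG4 y)) (hinv2 _ (hG4 x))) (hG4 _)
  have hsqc : ∀ x z : G, z * x ^ 2 = x ^ 2 * z := by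
    intro x z
    have h1 : ⁅x ^ 2, z⁆ = 1 := by
      rw [pow_two, hleft, ← pow_two]
      exact hc2 z x
    rw [commutatorElement_eq_one_iff_mul_comm] at h1
    exact h1.symm
  let Φ : Subgroup G := Subgroup.closure (Set.range fun x : G => x ^ 2)
  have hΦc : Φ ≤ Subgroup.center G := by
    rw [Subgroup.closure_le]
    rintro _ ⟨x, rfl⟩
    exact Subgroup.mem_center_iff.mpr (fun z => hsqc x z)
  have hS : Cfsg.Agent.Lib.PGroup.CW.Sq Φ := by
    refine ⟨hΦc, ?_, fun x => Subgroup.subset_closure ⟨x, rfl⟩⟩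
    intro φ hφ
    induction hφ using Subgroup.closure_induction with
    | mem x hx =>
      obtain ⟨y, rfl⟩ := hx
      exact hG4 y
    | one => simp
    | mul a b ha hb iha ihb =>
      have hcomm : Commute a b := (Subgroup.mem_center_iff.mp (hΦc ha) b).symm
      rw [hcomm.mul_pow, iha, ihb, one_mul]
    | inv a _ iha => exact hinv2 a iha
  haveI hΦn : Φ.Normal := hS.normal
  let N : Subgroup G :=
    { carrier := {x | x ^ 2 = 1}
      mul_mem' := fun {a b} ha hb => hN a b ha hb
      one_mem' := by simp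
      inv_mem' := fun {a} ha => hinv2 a ha }
  have hΦN : Φ ≤ N := fun φ hφ => hS.two φ hφ
  let π := QuotientGroup.mk' Φ
  have hπ : Function.Surjective π := QuotientGroup.mk'_surjective Φ
  have hk : π.ker = Φ := QuotientGroup.ker_mk' Φ
  have hcN : Nat.card N = Nat.card Φ * Nat.card (N.map π) := by
    have h1 := Cfsg.Agent.Lib.Core.card_comap_of_surjective π hπ (N.map π)
    rw [Subgroup.comap_map_eq_self (by rw [hk]; exact hΦN), hk] at h1
    exact h1
  have hcA : Nat.card (N.map π) = Nat.card {v : G ⧸ Φ // ((Cfsg.Agent.Lib.PGroup.CW.qf hS v : Φ) : G) = 1} := by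
    apply Nat.card_congr
    apply Equiv.subtypeEquivRight
    intro v
    obtain ⟨x, rfl⟩ := QuotientGroup.mk_surjective v
    rw [Cfsg.Agent.Lib.PGroup.CW.qf_mk]
    constructor
    · rintro ⟨n, hn, hne⟩
      have h1 := Cfsg.Agent.Lib.PGroup.CW.qf_mk hS n
      have h2 : ((n : G) : G ⧸ Φ) = x := hne
      rw [h2, Cfsg.Agent.Lib.PGroup.CW.qf_mk] at h1
      rw [h1]
      exact hn
    · intro h
      exact ⟨x, h, rfl⟩
  have hbound := hS.card_quot_le hN
  rw [← hcA] at hbound
  have hcG : Nat.card G = Nat.card (G ⧸ Φ) * Nat.card Φ := Subgroup.card_eq_card_quotient_mul_card_subgroup Φ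
  have hcI : Nat.card {x : G // x ^ 2 = 1} = Nat.card N := rfl
  rw [hcI, hcN, hcG]
  set a := Nat.card (N.map π) with ha
  set c := Nat.card Φ with hc
  set d := Nat.card (G ⧸ Φ) with hd
  have ha0 : 0 < a := Nat.card_pos
  have hc0 : 0 < c := Nat.card_pos
  have hd0 : 0 < d := Nat.card_pos
  constructor
  · calc d * c ≤ (a * c ^ 2) * c := Nat.mul_le_mul_right _ hbound
      _ = a * c ^ 3 := by ring
      _ ≤ a ^ 3 * c ^ 3 := by
        apply Nat.mul_le_mul_right
        calc a = a ^ 1 := (pow_one a).symm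
          _ ≤ a ^ 3 := Nat.pow_le_pow_right ha0 (by norm_num)
      _ = (c * a) ^ 3 := by ring
  · intro hns
    by_contra hcon
    push Not at hcon
    apply hns
    have h1 : a ^ 3 * c ^ 3 ≤ a * c ^ 3 := by
      calc a ^ 3 * c ^ 3 = (c * a) ^ 3 := by ring
        _ ≤ d * c := hcon
        _ ≤ (a * c ^ 2) * c := Nat.mul_le_mul_right _ hbound
        _ = a * c ^ 3 := by ring
    have h2 : a ^ 3 ≤ a := Nat.le_of_mul_le_mul_right h1 (by positivity)
    have ha1 : a = 1 := by
      by_contra hne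
      have : 2 ≤ a := by omega
      have h3 : a ^ 3 ≥ 2 ^ 2 * a := by
        calc a ^ 3 = a ^ 2 * a := by ring
          _ ≥ 2 ^ 2 * a := Nat.mul_le_mul_right _ (Nat.pow_le_pow_left this 2)
      omega
    have h3 : c ^ 2 ≤ d := by
      rw [ha1] at hcon
      have : c ^ 2 * c ≤ d * c := by
        calc c ^ 2 * c = (c * 1) ^ 3 := by ring
          _ ≤ d * c := hcon
      exact Nat.le_of_mul_le_mul_right this hc0
    have h4 : d = c ^ 2 := by
      rw [ha1, one_mul] at hbound
      omega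
    have hZ0 : ∀ x : G, x ^ 2 = 1 → x ∈ Φ := by
      intro x hx
      have h5 : π x ∈ N.map π := ⟨x, hx, rfl⟩
      have h6 : (N.map π) = ⊥ := Subgroup.eq_bot_of_card_eq _ ha1
      rw [h6, Subgroup.mem_bot] at h5
      have h7 : x ∈ π.ker := h5
      rwa [hk] at h7
    have e1 : Φ = Subgroup.center G := le_antisymm hΦc (hS.center_le hZ0 h4)
    have hcomm : commutator G ≤ Φ := by
      rw [commutator_def, Subgroup.commutator_le]
      intro x _ y _
      exact hS.comm_mem x y
    have e2 : frattini G = Φ := by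
      apply le_antisymm
      · exact Cfsg.Agent.Lib.Transfer.frattini_le_of_elementary hG Φ hcomm hS.sq
      · rw [Subgroup.closure_le]
        rintro _ ⟨x, rfl⟩
        exact Cfsg.Agent.Lib.Transfer.pow_mem_frattini hG x
    have e3 : commutator G = Φ := by
      apply le_antisymm hcomm
      apply hS.commutators_generate hZ0 h4
      intro x y
      rw [commutator_def]
      exact Subgroup.commutator_mem_commutator (Subgroup.mem_top _) (Subgroup.mem_top _)
    refine ⟨hG, ?_, ?_⟩
    · rw [e2, e1]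
    · rw [e3, e1]


end Cfsg.Agent.S3773
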