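import Cfsg.Statements.S3774
-- import your own Cfsg.Agent.* helpers here

set_option autoImplicit false
open Cfsg

namespace Cfsg.Agent.S3774

/-- Let G be a nontrivial finite 2-group whose automorphism group permutes the involutions of G transitively. Then every involution of G is central, so that the involutions together with 1 form the subgroup Ω₁(Z(G)), and if this subgroup has order q then |G| is a power of q. -/
theorem result {G : Type*} [Group G] [Finite G] [Nontrivial G] (hG : IsPGroup 2 G) (htrans : ∀ x y : G, x ≠ 1 → x ^ 2 = 1 → y ≠ 1 → y ^ 2 = 1 → ∃ a : MulAut G, a x = y) : (∀ x : G, x ^ 2 = 1 → x ∈ Subgroup.center G) ∧ ∃ m : ℕ, Nat.card G = Nat.card {z : G // z ^ 2 = 1} ^ m := by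
  classical
  haveI : Fact (Nat.Prime 2) := ⟨Nat.prime_two⟩
  have := Fintype.ofFinite G
  -- a central involution
  haveI hcn : Nontrivial (Subgroup.center G) := hG.center_nontrivial
  obtain ⟨z0, hz0⟩ : ∃ z0 : Subgroup.center G, orderOf z0 = 2 := by
    apply exists_prime_orderOf_dvd_card'
    have hpc : IsPGroup 2 (Subgroup.center G) := hG.to_subgroup _
    obtain ⟨k, hk⟩ := IsPGroup.iff_card.mp hpc
    rw [hk]
    rcases k with _ | k
    · exfalso
      rw [pow_zero] at hk
      have := (Nat.card_eq_one_iff_unique.mp hk).1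
      exact not_subsingleton _ this
    · rw [pow_succ]
      exact Dvd.intro_left _ rfl
  have hz0' : ((z0 : G)) ^ 2 = 1 := by
    have h1 : z0 ^ 2 = 1 := by rw [← hz0]; exact pow_orderOf_eq_one z0
    have := congrArg Subtype.val h1
    simpa using this
  have hz0ne : (z0 : G) ≠ 1 := by
    intro e
    have : z0 = 1 := Subtype.ext e
    rw [this, orderOf_one] at hz0
    omega
  have hcent : ∀ x : G, x ^ 2 = 1 → x ∈ Subgroup.center G := by
    intro x hx
    by_cases hx1 : x = 1
    · rw [hx1]; exact one_mem _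
    obtain ⟨a, rfl⟩ := htrans (z0 : G) x hz0ne hz0' hx1 hx
    rw [Subgroup.mem_center_iff]
    intro y
    have h1 : (z0 : G) * a.symm y = a.symm y * z0 :=
      ((Subgroup.mem_center_iff.mp z0.2) (a.symm y)).symm
    have h2 := congrArg a h1
    simpa [map_mul] using h2.symm
  refine ⟨hcent, ?_⟩
  -- the subgroup of involutions
  let Om : Subgroup G :=
    { carrier := {z | z ^ 2 = 1}
      mul_mem' := by
        intro x y hx hy
        have hc : Commute x y := by
          have := (Subgroup.mem_center_iff.mp (hcent x hx)) y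
          exact this.symm
        show (x * y) ^ 2 = 1
        rw [hc.mul_pow, show x ^ 2 = 1 from hx, show y ^ 2 = 1 from hy, one_mul]
      one_mem' := by show (1 : G) ^ 2 = 1; simp
      inv_mem' := by
        intro x hx
        show x⁻¹ ^ 2 = 1
        rw [inv_pow, show x ^ 2 = 1 from hx, inv_one] }
  have hOmcard : Nat.card {z : G // z ^ 2 = 1} = Nat.card Om := rfl
  rw [hOmcard]
  have hz0Om : (z0 : G) ∈ Om := hz0'
  obtain ⟨r, hr⟩ := IsPGroup.iff_card.mp (hG.to_subgroup Om)
  obtain ⟨n, hn⟩ := IsPGroup.iff_card.mp hG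
  -- the retraction onto involutions
  have hord : ∀ s : G, s ≠ 1 → ∃ k, orderOf s = 2 ^ (k + 1) := by
    intro s hs
    obtain ⟨k, hk⟩ := hG s
    have hk' : s ^ 2 ^ k = 1 := hk
    obtain ⟨j, _, hj⟩ := (Nat.dvd_prime_pow Nat.prime_two).mp (orderOf_dvd_of_pow_eq_one hk')
    rcases j with _ | j
    · exact absurd (orderOf_eq_one_iff.mp (by simpa using hj)) hs
    · exact ⟨j, hj⟩
  let ρ : {s : G // s ≠ 1} → {t : Om // t ≠ 1} := fun s =>
    ⟨⟨s.1 ^ (orderOf s.1 / 2), by
        show (s.1 ^ (orderOf s.1 / 2)) ^ 2 = 1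
        obtain ⟨k, hk⟩ := hord s.1 s.2
        rw [← pow_mul, Nat.div_mul_cancel (by rw [hk, pow_succ]; exact Dvd.intro_left _ rfl),
          pow_orderOf_eq_one]⟩, by
        intro e
        have e' : s.1 ^ (orderOf s.1 / 2) = 1 := congrArg Subtype.val e
        obtain ⟨k, hk⟩ := hord s.1 s.2
        have hpos : 0 < orderOf s.1 / 2 := by
          rw [hk, pow_succ, Nat.mul_div_cancel _ (by norm_num)]
          positivity
        have hlt : orderOf s.1 / 2 < orderOf s.1 := by
          rw [hk, pow_succ, Nat.mul_div_cancel _ (by norm_num)]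
          have : 0 < 2 ^ k := by positivity
          omega
        exact pow_ne_one_of_lt_orderOf hpos.ne' hlt e'⟩
  let t0 : {t : Om // t ≠ 1} := ⟨⟨z0, hz0Om⟩, fun e => hz0ne (congrArg Subtype.val e)⟩
  have hfib : ∀ t, Nat.card {s // ρ s = t} = Nat.card {s // ρ s = t0} := by
    intro t
    obtain ⟨a, ha⟩ := htrans ((t0.1 : Om) : G) ((t.1 : Om) : G) hz0ne hz0'
      (fun e => t.2 (Subtype.ext e)) t.1.2
    have hmap : ∀ s : {s : G // s ≠ 1}, ((ρ ⟨a s.1, fun e => s.2 (by simpa using e)⟩).1 : G) = a ((ρ s).1 : G) := by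
      intro s
      show (a s.1) ^ (orderOf (a s.1) / 2) = a (s.1 ^ (orderOf s.1 / 2))
      rw [MulEquiv.orderOf_eq, map_pow]
    refine (Nat.card_congr ?_).symm
    refine
      { toFun := fun s => ⟨⟨a s.1.1, fun e => s.1.2 (by simpa using e)⟩, ?_⟩
        invFun := fun s => ⟨⟨a.symm s.1.1, fun e => s.1.2 (by simpa using e)⟩, ?_⟩
        left_inv := ?_
        right_inv := ?_ }
    · apply Subtype.ext
      apply Subtype.ext
      rw [hmap s.1, s.2]
      exact ha
    · have h1 := hmap ⟨a.symm s.1.1, fun e => s.1.2 (by simpa using e)⟩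
      apply Subtype.ext
      apply Subtype.ext
      apply a.injective
      rw [← h1]
      have h2 : (⟨a (a.symm s.1.1), fun e => s.1.2 (by simpa using e)⟩ : {s : G // s ≠ 1}) = s.1 :=
        Subtype.ext (by simp)
      simp only
      rw [h2, s.2]
      exact ha.symm
    · intro s
      apply Subtype.ext
      apply Subtype.ext
      simp
    · intro s
      apply Subtype.ext
      apply Subtype.ext
      simp
  have hcount : Nat.card {s : G // s ≠ 1} =
      Nat.card {t : Om // t ≠ 1} * Nat.card {s // ρ s = t0} := by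
    have := Fintype.ofFinite {t : Om // t ≠ 1}
    have h1 : Nat.card {s : G // s ≠ 1} = Nat.card (Σ t, {s // ρ s = t}) :=
      Nat.card_congr (Equiv.sigmaFiberEquiv ρ).symm
    rw [h1, Nat.card_sigma, Finset.sum_congr rfl (fun t _ => hfib t), Finset.sum_const,
      smul_eq_mul, Finset.card_univ, Nat.card_eq_fintype_card, Nat.card_eq_fintype_card]
  have hcS : Nat.card {s : G // s ≠ 1} = Nat.card G - 1 := by
    have := Fintype.ofFinite {s : G // s ≠ 1}
    rw [Nat.card_eq_fintype_card, Nat.card_eq_fintype_card, Fintype.card_subtype_compl,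
      Fintype.card_subtype_eq]
  have hcT : Nat.card {t : Om // t ≠ 1} = Nat.card Om - 1 := by
    have := Fintype.ofFinite Om
    have := Fintype.ofFinite {t : Om // t ≠ 1}
    rw [Nat.card_eq_fintype_card, Nat.card_eq_fintype_card, Fintype.card_subtype_compl,
      Fintype.card_subtype_eq]
  rw [hcS, hcT, hn, hr] at hcount
  have hdvd : 2 ^ r - 1 ∣ 2 ^ n - 1 := ⟨_, hcount⟩
  have hgcd := Nat.pow_sub_one_gcd_pow_sub_one 2 r n
  have h2 : 2 ^ r - 1 = 2 ^ (Nat.gcd r n) - 1 := by
    rw [← hgcd]; exact (Nat.gcd_eq_left hdvd).symm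
  have h3 : 2 ^ r = 2 ^ (Nat.gcd r n) := by
    have h4 : 1 ≤ 2 ^ r := Nat.one_le_two_pow
    have h5 : 1 ≤ 2 ^ (Nat.gcd r n) := Nat.one_le_two_pow
    omega
  have h6 : r = Nat.gcd r n := Nat.pow_right_injective (le_refl 2) h3
  have h7 : r ∣ n := by rw [h6]; exact Nat.gcd_dvd_right r n
  obtain ⟨m, rfl⟩ := h7
  exact ⟨m, by rw [hn, hr, pow_mul]⟩

end Cfsg.Agent.S3774
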