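import Cfsg.Statements.S3775
import Mathlib
import Cfsg.Agent.Lib.PGroup.AbAut
-- import your own Cfsg.Agent.* helpers here

set_option autoImplicit false
open Cfsg

namespace Cfsg.Agent.S3775

/-- Let A be a finite abelian p-group and X a group of automorphisms of A of order prime to p. Call a subgroup of A invariant when every element of X maps it onto itself. Then the following are equivalent: (i) A is not the direct product of two nontrivial invariant subgroups; (ii) every invariant subgroup of A is one of the subgroups Ω_i(A) = {a : a^(p^i) = 1}; (iii) the subgroup Ω₁(A) of elements of order dividing p has no invariant subgroups other than 1 and itself. -/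
theorem result {A : Type*} [CommGroup A] [Finite A] {p : ℕ} [Fact p.Prime] (hA : IsPGroup p A) (X : Subgroup (MulAut A)) (hX : (Nat.card X).Coprime p) : ((¬ ∃ B C : Subgroup A, B ≠ ⊥ ∧ C ≠ ⊥ ∧ (∀ x ∈ X, B.map x.toMonoidHom = B) ∧ (∀ x ∈ X, C.map x.toMonoidHom = C) ∧ B ⊓ C = ⊥ ∧ B ⊔ C = ⊤) ↔ (∀ B : Subgroup A, (∀ x ∈ X, B.map x.toMonoidHom = B) → ∃ i : ℕ, ∀ a : A, a ∈ B ↔ a ^ p ^ i = 1)) ∧ ((∀ B : Subgroup A, (∀ x ∈ X, B.map x.toMonoidHom = B) → ∃ i : ℕ, ∀ a : A, a ∈ B ↔ a ^ p ^ i = 1) ↔ (∀ B : Subgroup A, (∀ x ∈ X, B.map x.toMonoidHom = B) → (∀ b ∈ B, b ^ p = 1) → B = ⊥ ∨ ∀ a : A, a ∈ B ↔ a ^ p = 1)) := by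
  open Cfsg.Agent.Lib.PGroup.AbAut in
  have hII : P3 X p (⊤ : Subgroup A) → ∀ B : Subgroup A, (∀ x ∈ X, B.map x.toMonoidHom = B) →
      ∃ i : ℕ, ∀ a : A, a ∈ B ↔ a ^ p ^ i = 1 := by
    intro h3 B hB
    obtain ⟨i, hi⟩ := P2_of_P3 hA _ ⊤ rfl inv_top h3 B le_top (inv_iff.mp hB)
    exact ⟨i, fun a => hi a trivial⟩
  open Cfsg.Agent.Lib.PGroup.AbAut in
  constructor
  · constructor
    · intro hI
      apply hII
      apply P3_of_P1 hA hX _ ⊤ rfl inv_top
      intro B₁ B₂ hB₁ hB₂ hinf hsup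
      by_contra hcon
      push Not at hcon
      exact hI ⟨B₁, B₂, hcon.1, hcon.2, inv_iff.mpr hB₁, inv_iff.mpr hB₂, hinf, hsup⟩
    · rintro hI ⟨B, C, hB, hC, hBi, hCi, hinf, -⟩
      obtain ⟨i, hi⟩ := hI B hBi
      obtain ⟨j, hj⟩ := hI C hCi
      have hmono : ∀ (i j : ℕ) (a : A), i ≤ j → a ^ p ^ i = 1 → a ^ p ^ j = 1 := by
        intro i j a hij h
        obtain ⟨k, rfl⟩ := Nat.exists_eq_add_of_le hij
        rw [pow_add, pow_mul, h, one_pow]
      rcases le_total i j with hij | hij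
      · have hle : B ≤ C := fun a ha => (hj a).mpr (hmono i j a hij ((hi a).mp ha))
        rw [inf_eq_left.mpr hle] at hinf
        exact hB hinf
      · have hle : C ≤ B := fun a ha => (hi a).mpr (hmono j i a hij ((hj a).mp ha))
        rw [inf_eq_right.mpr hle] at hinf
        exact hC hinf
  · constructor
    · intro h2 B hBi hBp
      obtain ⟨i, hi⟩ := h2 B hBi
      rcases i with _ | i
      · left
        rw [eq_bot_iff]
        intro a ha
        have := (hi a).mp ha
        simpa using this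
      · right
        intro a
        refine ⟨fun ha => hBp a ha, fun hap => (hi a).mpr ?_⟩
        rw [pow_succ', pow_mul, hap, one_pow]
    · intro h3
      apply hII
      intro B _ hBinv hBp
      rcases h3 B (inv_iff.mpr hBinv) hBp with h4 | h4
      · exact Or.inl h4
      · exact Or.inr (fun a _ hap => (h4 a).mpr hap)

end Cfsg.Agent.S3775
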