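import Mathlib
import Cfsg.Statements.S3778
-- import your own Cfsg.Agent.* helpers here

set_option autoImplicit false
open Cfsg

namespace Cfsg.Agent.S3778


open Subgroup
open scoped commutatorElement

variable {G : Type*} [Group G]

set_option quotPrecheck false in
local notation "γ" => (⊤ : Subgroup G).lowerCentralSeries

theorem lcs_normal' (k : ℕ) : (γ k).Normal := inferInstance

theorem lcs_succ_le (k : ℕ) : γ (k + 1) ≤ γ k :=
  Subgroup.lowerCentralSeries_antitone (⊤ : Subgroup G) (Nat.le_succ k)

/-- The subgroup of elements centralizing `γ i / γ (i+2)`. -/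
def cC (i : ℕ) : Subgroup G where
  carrier := {g | ∀ x ∈ γ i, ⁅x, g⁆ ∈ γ (i + 2)}
  one_mem' := by
    intro x _
    simp only [commutatorElement_one_right]
    exact Subgroup.one_mem _
  mul_mem' := by
    intro a b ha hb x hx
    have h1 := ha x hx
    have h2 := hb x hx
    have h3 : ⁅x, a * b⁆ = ⁅x, a⁆ * (a * ⁅x, b⁆ * a⁻¹) := by
      simp only [commutatorElement_def]; group
    rw [h3]
    exact Subgroup.mul_mem _ h1 ((lcs_normal' (i + 2)).conj_mem _ h2 a)
  inv_mem' := by
    intro a ha x hx
    have h1 := ha x hx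
    have h3 : ⁅x, a⁻¹⁆ = a⁻¹ * ⁅x, a⁆⁻¹ * a⁻¹⁻¹ := by
      simp only [commutatorElement_def]; group
    rw [h3]
    exact (lcs_normal' (i + 2)).conj_mem _ (Subgroup.inv_mem _ h1) a⁻¹

theorem mem_cC {i : ℕ} {g : G} : g ∈ cC i ↔ ∀ x ∈ γ i, ⁅x, g⁆ ∈ γ (i + 2) := Iff.rfl

theorem cC_ne_top {i : ℕ} (h : γ (i + 1) ≠ ⊥) (hc : ∃ n, γ n = ⊥) : cC (G := G) i ≠ ⊤ := by
  intro hT
  apply h
  have h1 : γ (i + 1) ≤ γ (i + 2) := by
    rw [Subgroup.lowerCentralSeries_succ (⊤ : Subgroup G) i]
    rw [Subgroup.commutator_le]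
    intro x hx g _
    have : g ∈ cC (G := G) i := by rw [hT]; trivial
    exact this x hx
  have h2 : ∀ k, γ (i + 1) ≤ γ (i + 1 + k) := by
    intro k
    induction k with
    | zero => exact le_rfl
    | succ k ih =>
      have h3 : ∀ j, γ (i + 1) ≤ γ (i + 2) → γ (i + 1 + j) ≤ γ (i + 2 + j) := by
        intro j hj
        induction j with
        | zero => exact hj
        | succ j ihj =>
          have := ihj
          show γ (i + 1 + j + 1) ≤ γ (i + 2 + j + 1)
          rw [Subgroup.lowerCentralSeries_succ, Subgroup.lowerCentralSeries_succ]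
          exact Subgroup.commutator_mono this le_rfl
      refine ih.trans ?_
      have := h3 k h1
      have e : i + 2 + k = i + 1 + (k + 1) := by omega
      rwa [e] at this
  obtain ⟨n, hn⟩ := hc
  have h4 := h2 n
  have h5 : γ (i + 1 + n) ≤ γ n :=
    Subgroup.lowerCentralSeries_antitone (⊤ : Subgroup G) (by omega)
  rw [hn] at h5
  exact le_bot_iff.mp (h4.trans h5)

/-- `D k = γ k ⊔ C(g)`. -/
noncomputable def dD (g : G) (k : ℕ) : Subgroup G := γ k ⊔ Subgroup.centralizer {g}

theorem dD_succ_le (g : G) (k : ℕ) : dD g (k + 1) ≤ dD g k :=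
  sup_le_sup_right (lcs_succ_le k) _

theorem not_mem_dD {g x : G} {k : ℕ} (hx : ⁅x, g⁆ ∉ γ (k + 2)) : x ∉ dD g (k + 1) := by
  intro hmem
  apply hx
  haveI : (γ (k + 1)).Normal := lcs_normal' (k + 1)
  obtain ⟨y, hy, w, hw, rfl⟩ := Subgroup.mem_sup_of_normal_left.mp (show x ∈ γ (k + 1) ⊔ _ from hmem)
  have hw' : w * g = g * w := by
    have := Subgroup.mem_centralizer_iff.mp hw g (Set.mem_singleton g)
    exact this.symm
  have e : ⁅y * w, g⁆ = ⁅y, g⁆ := by
    simp only [commutatorElement_def]
    have : y * w * g * (y * w)⁻¹ * g⁻¹ = y * (w * g) * w⁻¹ * y⁻¹ * g⁻¹ := by group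
    rw [this, hw']
    group
  rw [e, show k + 2 = (k + 1) + 1 from rfl, Subgroup.lowerCentralSeries_succ]
  exact Subgroup.commutator_mem_commutator hy trivial

/-- The number of `i < n` with `g ∉ C i`. -/
noncomputable def cnt [Fintype G] (g : G) (n : ℕ) : ℕ := by
  classical exact ((Finset.range n).filter (fun i => g ∉ cC (G := G) i)).card

section
variable [Fintype G] {p : ℕ} [hp : Fact p.Prime]

theorem pow_cnt_le (hG : IsPGroup p G) (g : G) (n : ℕ) :
    p ^ cnt g n ≤ (dD g n).index := by
  classical
  induction n with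
  | zero =>
    have : dD g 0 = ⊤ := by
      unfold dD
      rw [Subgroup.lowerCentralSeries_zero, top_sup_eq]
    rw [this, Subgroup.index_top]
    simp [cnt]
  | succ n ih =>
    have h1 : (dD g (n + 1)).relIndex (dD g n) * (dD g n).index = (dD g (n + 1)).index :=
      Subgroup.relIndex_mul_index (dD_succ_le g n)
    by_cases h : g ∈ cC (G := G) n
    · have e : cnt g (n + 1) = cnt g n := by
        unfold cnt
        rw [Finset.range_add_one, Finset.filter_insert, if_neg (by simpa using h)]
      rw [e]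
      refine ih.trans ?_
      rw [← h1]
      have hpos : 0 < (dD g (n + 1)).relIndex (dD g n) := Nat.pos_of_ne_zero (by
        intro h0
        rw [h0, zero_mul] at h1
        exact Subgroup.index_ne_zero_of_finite h1.symm)
      exact Nat.le_mul_of_pos_left _ hpos
    · have e : cnt g (n + 1) = cnt g n + 1 := by
        unfold cnt
        rw [Finset.range_add_one, Finset.filter_insert, if_pos h,
          Finset.card_insert_of_notMem (by simp)]
      rw [e, pow_succ]
      have hrel : p ≤ (dD g (n + 1)).relIndex (dD g n) := by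
        rw [mem_cC] at h
        push Not at h
        obtain ⟨x, hx, hx'⟩ := h
        have hxn : x ∉ dD g (n + 1) := not_mem_dD hx'
        have hxD : x ∈ dD g n := Subgroup.mem_sup_left hx
        have hne : (dD g (n + 1)).relIndex (dD g n) ≠ 1 := by
          intro h1
          exact hxn (Subgroup.relIndex_eq_one.mp h1 hxD)
        obtain ⟨m, hm⟩ := IsPGroup.iff_card.mp hG
        have h2 : (dD g (n + 1)).relIndex (dD g n) ∣ Nat.card G := by
          have h3 := Subgroup.relIndex_dvd_card (dD g (n + 1)) (dD g n)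
          exact h3.trans (Subgroup.card_subgroup_dvd_card _)
        rw [hm] at h2
        obtain ⟨j, -, hj⟩ := (Nat.dvd_prime_pow hp.out).mp h2
        rw [hj] at hne ⊢
        have : j ≠ 0 := by rintro rfl; simp at hne
        calc p = p ^ 1 := (pow_one p).symm
          _ ≤ p ^ j := Nat.pow_le_pow_right hp.out.pos (Nat.one_le_iff_ne_zero.mpr this)
      rw [← h1, mul_comm]
      exact Nat.mul_le_mul hrel ih

theorem cnt_le (hG : IsPGroup p G) (b : ℕ)
    (hb : ∀ x : G, (Subgroup.centralizer ({x} : Set G)).index ≤ p ^ b) (g : G) (n : ℕ) :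
    cnt g n ≤ b := by
  have h1 := pow_cnt_le hG g n
  have h2 : (dD g n).index ≤ (Subgroup.centralizer ({g} : Set G)).index := by
    apply Nat.le_of_dvd
    · exact Nat.pos_of_ne_zero Subgroup.index_ne_zero_of_finite
    · exact Subgroup.index_dvd_of_le le_sup_right
  have h3 := (h1.trans h2).trans (hb g)
  exact (Nat.pow_le_pow_iff_right hp.out.one_lt).mp h3

theorem cnt_one (n : ℕ) : cnt (1 : G) n = 0 := by
  classical
  unfold cnt
  rw [Finset.card_eq_zero, Finset.filter_eq_empty_iff]
  intro i _
  simp [Subgroup.one_mem]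

/-- Double counting. -/
theorem main_ineq (hG : IsPGroup p G) (b n : ℕ)
    (hb : ∀ x : G, (Subgroup.centralizer ({x} : Set G)).index ≤ p ^ b)
    (hne : ∀ i < n, cC (G := G) i ≠ ⊤) :
    n * (p - 1) * Fintype.card G ≤ p * ((Fintype.card G - 1) * b) := by
  classical
  have h1 : ∑ g : G, cnt g n = ∑ i ∈ Finset.range n, (Finset.univ.filter (fun g : G => g ∉ cC (G := G) i)).card := by
    unfold cnt
    simp only [Finset.card_filter]
    rw [Finset.sum_comm]
  have h2 : ∀ i ∈ Finset.range n, (p - 1) * Fintype.card G ≤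
      p * (Finset.univ.filter (fun g : G => g ∉ cC (G := G) i)).card := by
    intro i hi
    have hi' := hne i (Finset.mem_range.mp hi)
    have h3 : (Finset.univ.filter (fun g : G => g ∉ cC (G := G) i)).card +
        Nat.card (cC (G := G) i) = Fintype.card G := by
      have h4 := Finset.card_filter_add_card_filter_not (s := (Finset.univ : Finset G))
        (fun g : G => g ∉ cC (G := G) i)
      have h5 : (Finset.univ.filter (fun g : G => ¬ g ∉ cC (G := G) i)).card =
          Nat.card (cC (G := G) i) := by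
        rw [Nat.card_eq_fintype_card, Fintype.card_subtype]
        congr 1
        ext g; simp
      rw [← h5]
      simpa using h4
    have h6 : p * Nat.card (cC (G := G) i) ≤ Fintype.card G := by
      have h7 := Subgroup.card_mul_index (cC (G := G) i)
      rw [← Nat.card_eq_fintype_card, ← h7, mul_comm p]
      refine Nat.mul_le_mul_left _ ?_
      have hidx : (cC (G := G) i).index ≠ 1 := fun h => hi' (Subgroup.index_eq_one.mp h)
      obtain ⟨m, hm⟩ := IsPGroup.iff_card.mp hG
      have h2 := Subgroup.index_dvd_card (cC (G := G) i)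
      rw [hm] at h2
      obtain ⟨j, -, hj⟩ := (Nat.dvd_prime_pow hp.out).mp h2
      rw [hj] at hidx ⊢
      have : j ≠ 0 := by rintro rfl; simp at hidx
      calc p = p ^ 1 := (pow_one p).symm
        _ ≤ p ^ j := Nat.pow_le_pow_right hp.out.pos (Nat.one_le_iff_ne_zero.mpr this)
    have hp1 : 1 ≤ p := hp.out.one_lt.le
    obtain ⟨q, rfl⟩ : ∃ q, p = q + 1 := ⟨p - 1, by omega⟩
    simp only [Nat.add_sub_cancel]
    nlinarith
  have h3 : n * ((p - 1) * Fintype.card G) ≤
      p * ∑ i ∈ Finset.range n, (Finset.univ.filter (fun g : G => g ∉ cC (G := G) i)).card := by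
    rw [Finset.mul_sum]
    have := Finset.sum_le_sum h2
    simpa using this
  have h4 : ∑ g : G, cnt g n ≤ (Fintype.card G - 1) * b := by
    have h5 : ∑ g : G, cnt g n = ∑ g ∈ Finset.univ.erase (1 : G), cnt g n := by
      rw [← Finset.add_sum_erase Finset.univ _ (Finset.mem_univ (1 : G)), cnt_one, zero_add]
    rw [h5]
    have h6 : ∑ g ∈ Finset.univ.erase (1 : G), cnt g n ≤
        ∑ g ∈ Finset.univ.erase (1 : G), b :=
      Finset.sum_le_sum (fun g _ => cnt_le hG b hb g n)
    refine h6.trans ?_
    simp [Finset.card_erase_of_mem]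
  rw [← h1] at h3
  calc n * (p - 1) * Fintype.card G = n * ((p - 1) * Fintype.card G) := by ring
    _ ≤ _ := h3
    _ ≤ _ := Nat.mul_le_mul_left _ h4

end

/-- If G is a finite p-group in which every conjugacy class has at most p^b elements (every element has centralizer of index at most p^b), then G is abelian when b = 0, and when b ≥ 1 its nilpotency class c satisfies (c − 1)(p − 1) < bp, that is c < bp/(p − 1) + 1, and hence c ≤ 2b. -/
theorem result {G : Type*} [Group G] [Finite G] {p : ℕ} [Fact p.Prime] (hG : IsPGroup p G) (b : ℕ) (hb : ∀ x : G, (Subgroup.centralizer ({x} : Set G)).index ≤ p ^ b) : ∃ c : ℕ, (⊤ : Subgroup G).lowerCentralSeries c = ⊥ ∧ (b ≠ 0 → (c - 1) * (p - 1) < b * p ∧ c ≤ 2 * b) ∧ (b = 0 → c ≤ 1) := by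
  classical
  haveI := Fintype.ofFinite G
  have hp := (Fact.out : p.Prime)
  haveI : Group.IsNilpotent G := hG.isNilpotent
  have hex : ∃ n, (⊤ : Subgroup G).lowerCentralSeries n = ⊥ :=
    _root_.nilpotent_iff_lowerCentralSeries.1 inferInstance
  refine ⟨Nat.find hex, Nat.find_spec hex, ?_, ?_⟩
  all_goals
    obtain ⟨c, hc⟩ : ∃ c, c = Nat.find hex := ⟨_, rfl⟩
    rw [← hc]
    have hlt : ∀ i, i + 1 < c → (⊤ : Subgroup G).lowerCentralSeries (i + 1) ≠ ⊥ := by
      intro i hi
      rw [hc] at hi
      exact Nat.find_min hex hi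
    have hne : ∀ i < c - 1, cC (G := G) i ≠ ⊤ := by
      intro i hi
      exact cC_ne_top (hlt i (by omega)) hex
    have hmain := main_ineq hG b (c - 1) hb hne
    have hcard : 0 < Fintype.card G := Fintype.card_pos
    have hp2 := hp.two_le
  · intro hb0
    have hb1 : 0 < b := Nat.pos_of_ne_zero hb0
    have h1 : (c - 1) * (p - 1) < b * p := by
      by_contra hcon
      push Not at hcon
      have h2 : b * p * Fintype.card G ≤ (c - 1) * (p - 1) * Fintype.card G :=
        Nat.mul_le_mul_right _ hcon
      have h3 := h2.trans hmain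
      have h4 : p * ((Fintype.card G - 1) * b) < b * p * Fintype.card G := by
        have h5 : (Fintype.card G - 1) * b < Fintype.card G * b :=
          Nat.mul_lt_mul_of_pos_right (by omega) hb1
        calc p * ((Fintype.card G - 1) * b) < p * (Fintype.card G * b) :=
              Nat.mul_lt_mul_of_pos_left h5 hp.pos
          _ = b * p * Fintype.card G := by ring
      omega
    refine ⟨h1, ?_⟩
    by_contra hcon
    push Not at hcon
    have h2 : 2 * b ≤ c - 1 := by omega
    have h3 : 2 * b * (p - 1) ≤ (c - 1) * (p - 1) := Nat.mul_le_mul_right _ h2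
    have h4 : p ≤ 2 * (p - 1) := by omega
    have h5 : b * p ≤ b * (2 * (p - 1)) := Nat.mul_le_mul_left _ h4
    have h6 : b * (2 * (p - 1)) = 2 * b * (p - 1) := by ring
    omega
  · intro hb0
    subst hb0
    rw [mul_zero, mul_zero] at hmain
    by_contra hcon
    push Not at hcon
    have h1 : 0 < (c - 1) * (p - 1) * Fintype.card G :=
      Nat.mul_pos (Nat.mul_pos (by omega) (by omega)) hcard
    omega

end Cfsg.Agent.S3778
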