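import Cfsg.Statements.S3779
import Mathlib
import Cfsg.Agent.Lib.PGroup.LieHKK
-- import your own Cfsg.Agent.* helpers here

set_option autoImplicit false
open Cfsg

namespace Cfsg.Agent.S3779

/-- Let G be a finite group with an automorphism of prime order p fixing only the identity. Then G is nilpotent; if p = 2 then G is abelian, if p = 3 then G has class at most 2, and in general the class of G is at most ξ = 1 + (p−1) + (p−1)² + ⋯ + (p−1)^(n−1) with n = 2^(p−1) − 1 (the Higman–Kreknin–Kostrikin bound). -/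
theorem result {G : Type*} [Group G] [Finite G] {p : ℕ} (hp : p.Prime) (α : MulAut G) (hα : orderOf α = p) (hfpf : ∀ g : G, α g = g → g = 1) : (p = 2 → (⊤ : Subgroup G).lowerCentralSeries 1 = ⊥) ∧ (p = 3 → (⊤ : Subgroup G).lowerCentralSeries 2 = ⊥) ∧ (⊤ : Subgroup G).lowerCentralSeries (Finset.sum (Finset.range (2 ^ (p - 1) - 1)) (fun i => (p - 1) ^ i)) = ⊥ := by
  haveI : Fact p.Prime := ⟨hp⟩
  have hα' : ∀ x : G, α^[p] x = x := by
    intro x
    have h1 : α ^ p = 1 := by rw [← hα]; exact pow_orderOf_eq_one α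
    have h2 : ∀ k : ℕ, (α ^ k) x = α^[k] x := by
      intro k
      induction k with
      | zero => rfl
      | succ k ih =>
        rw [pow_succ', Function.iterate_succ_apply', MulAut.mul_apply, ih]
    rw [← h2, h1]
    rfl
  refine ⟨?_, ?_, ?_⟩
  · intro h2
    subst h2
    exact Cfsg.Agent.Lib.PGroup.HKK.Gm_eq_bot_of_graded α hfpf hα'
      (fun S hS h0 a => Cfsg.Agent.Lib.PGroup.HKK.LC_one_two hS h0 a)
  · intro h3
    subst h3
    exact Cfsg.Agent.Lib.PGroup.HKK.Gm_eq_bot_of_graded α hfpf hα'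
      (fun S hS h0 a => Cfsg.Agent.Lib.PGroup.HKK.LC_two_three hS h0 a)
  · exact Cfsg.Agent.Lib.PGroup.HKK.Gm_eq_bot_of_graded α hfpf hα'
      (fun S hS h0 a => Cfsg.Agent.Lib.PGroup.HKK.LC_eq_bot hS h0 a)


end Cfsg.Agent.S3779
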