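import Cfsg.Statements.S3780
import Cfsg.Agent.Lib.PGroup.Rank
-- import your own Cfsg.Agent.* helpers here

set_option autoImplicit false
open Cfsg

namespace Cfsg.Agent.S3780

/-- Let V be a finite abelian p-group and α an automorphism of V of order p whose fixed-point subgroup has order p^n. Then V can be generated by pn elements: some subset of V with at most pn elements generates V. -/
theorem result {V : Type*} [CommGroup V] [Finite V] {p : ℕ} [Fact p.Prime] (hV : IsPGroup p V) (α : MulAut V) (hα : orderOf α = p) (n : ℕ) (hfix : Nat.card {v : V // α v = v} = p ^ n) : ∃ S : Finset V, S.card ≤ p * n ∧ Subgroup.closure (S : Set V) = ⊤ := by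
  classical
  have hpp := (Fact.out : p.Prime)
  -- `Ω₁`
  let Ω : Subgroup V :=
    { carrier := {v | v ^ p = 1}
      mul_mem' := by
        intro a b ha hb
        show (a * b) ^ p = 1
        rw [mul_pow, show a ^ p = 1 from ha, show b ^ p = 1 from hb, one_mul]
      one_mem' := by show (1 : V) ^ p = 1; simp
      inv_mem' := by
        intro a ha
        show a⁻¹ ^ p = 1
        rw [inv_pow, show a ^ p = 1 from ha, inv_one] }
  have hαΩ : ∀ v ∈ Ω, α v ∈ Ω := by
    intro v hv
    show (α v) ^ p = 1
    rw [← map_pow, show v ^ p = 1 from hv, map_one]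
  -- the endomorphism `α - 1`
  let F : Ω →* Ω :=
    { toFun := fun v => ⟨α v.1 * v.1⁻¹, Ω.mul_mem (hαΩ _ v.2) (Ω.inv_mem v.2)⟩
      map_one' := by
        apply Subtype.ext
        show α 1 * (1 : V)⁻¹ = 1
        simp
      map_mul' := by
        intro x y
        apply Subtype.ext
        show α (x.1 * y.1) * (x.1 * y.1)⁻¹ = (α x.1 * x.1⁻¹) * (α y.1 * y.1⁻¹)
        rw [map_mul, mul_inv]
        exact mul_mul_mul_comm _ _ _ _ }
  -- `F ^ p = 1` via the endomorphism ring
  have hF : ∀ v : Ω, F^[p] v = 1 := by
    let a' : Module.End ℤ (Additive Ω) :=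
      AddMonoidHom.toIntLinearMap (MonoidHom.toAdditive
        { toFun := fun v : Ω => (⟨α v.1, hαΩ _ v.2⟩ : Ω)
          map_one' := by apply Subtype.ext; simp
          map_mul' := by intro x y; apply Subtype.ext; simp })
    have ha'v : ∀ x : Additive Ω, (((a' x).toMul : Ω) : V) = α ((x.toMul : Ω) : V) := fun _ => rfl
    have hval : ∀ (j : ℕ) (x : Additive Ω), (((a' ^ j) x).toMul : V) = (α ^ j) (x.toMul : V) := by
      intro j
      induction j with
      | zero => intro x; rfl
      | succ j ih =>
        intro x
        have e : (a' ^ (j + 1)) x = a' ((a' ^ j) x) := by rw [pow_succ', Module.End.mul_apply]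
        rw [e, ha'v, ih, pow_succ', MulAut.mul_apply]
    have hap : ∀ x, (a' ^ p) x = x := by
      intro x
      apply Additive.toMul.injective
      apply Subtype.ext
      have h1 := hval p x
      rw [← hα, pow_orderOf_eq_one] at h1
      rw [hα] at h1
      exact h1
    have hp0 : ∀ z : Additive Ω, p • z = 0 := by
      intro z
      apply Additive.toMul.injective
      apply Subtype.ext
      show ((z.toMul : V)) ^ p = 1
      exact z.toMul.2
    set N : Module.End ℤ (Additive Ω) := a' + (-1) with hN
    have hNp : ∀ x, (N ^ p) x = 0 := by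
      obtain ⟨r, hr⟩ := Commute.exists_add_pow_prime_eq hpp (Commute.neg_one_right a')
      intro x
      have h1 : ((p : Module.End ℤ (Additive Ω)) * a' * (-1) * r) x = 0 := by
        simp only [Module.End.mul_apply, Module.End.natCast_apply]
        exact hp0 _
      rw [hN, hr, LinearMap.add_apply, LinearMap.add_apply, h1, add_zero, hap]
      rcases hpp.eq_two_or_odd' with rfl | hodd
      · rw [neg_one_sq, Module.End.one_apply, ← two_nsmul]
        exact hp0 x
      · rw [hodd.neg_one_pow, LinearMap.neg_apply, Module.End.one_apply]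
        exact add_neg_cancel x
    have hrel : ∀ (j : ℕ) (v : Ω), (F^[j] v) = ((N ^ j) (Additive.ofMul v)).toMul := by
      intro j
      induction j with
      | zero => intro v; rfl
      | succ j ih =>
        intro v
        have e : (N ^ (j + 1)) (Additive.ofMul v) = N ((N ^ j) (Additive.ofMul v)) := by
          rw [pow_succ', Module.End.mul_apply]
        rw [Function.iterate_succ_apply', ih, e]
        rfl
    intro v
    rw [hrel, hNp]
    rfl
  have hbound := Cfsg.Agent.Lib.PGroup.card_le_card_ker_pow_of_iterate F p hF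
  have hker : Nat.card F.ker ≤ p ^ n := by
    rw [← hfix]
    refine Nat.card_le_card_of_injective (fun x : F.ker => (⟨(x.1 : V), ?_⟩ : {v : V // α v = v})) ?_
    · have hx : F x.1 = 1 := x.2
      have h1 : α (x.1 : V) * ((x.1 : V))⁻¹ = 1 := congrArg Subtype.val hx
      exact mul_inv_eq_one.mp h1
    · intro x y hxy
      have h := congrArg (fun z : {v : V // α v = v} => (z : V)) hxy
      exact Subtype.ext (Subtype.ext h)
  obtain ⟨S, hS, hScard⟩ := Cfsg.Agent.Lib.PGroup.exists_generating_finset hV
  have hΩcard : Nat.card {v : V // v ^ p = 1} = Nat.card Ω := rfl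
  rw [hΩcard] at hScard
  refine ⟨S, ?_, hS⟩
  have h1 : p ^ S.card ≤ p ^ (n * p) := by
    calc p ^ S.card ≤ Nat.card Ω := hScard
      _ ≤ (Nat.card F.ker) ^ p := hbound
      _ ≤ (p ^ n) ^ p := Nat.pow_le_pow_left hker p
      _ = p ^ (n * p) := (pow_mul _ _ _).symm
  have h2 := (Nat.pow_le_pow_iff_right hpp.one_lt).mp h1
  rw [mul_comm] at h2
  exact h2

end Cfsg.Agent.S3780
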