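import Cfsg.Statements.S3781
-- import your own Cfsg.Agent.* helpers here

set_option autoImplicit false
open Cfsg

namespace Cfsg.Agent.S3781

open Subgroup

variable {G : Type*} [Group G]

theorem lcs_normal (N : Subgroup G) [hN : N.Normal] (k : ℕ) : (N.lowerCentralSeries k).Normal := by
  induction k with
  | zero => exact hN
  | succ k ih =>
    rw [Subgroup.lowerCentralSeries_succ]
    infer_instance

/-- The three subgroups lemma modulo a normal subgroup. -/
theorem three_mod {H₁ H₂ H₃ L : Subgroup G} [hL : L.Normal] (h1 : ⁅⁅H₂, H₃⁆, H₁⁆ ≤ L)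
    (h2 : ⁅⁅H₃, H₁⁆, H₂⁆ ≤ L) : ⁅⁅H₁, H₂⁆, H₃⁆ ≤ L := by
  have hb : ∀ K : Subgroup G, K ≤ L → K.map (QuotientGroup.mk' L) = ⊥ := by
    intro K hK
    rw [Subgroup.map_eq_bot_iff, QuotientGroup.ker_mk']
    exact hK
  have h1' := hb _ h1
  have h2' := hb _ h2
  simp only [Subgroup.map_commutator] at h1' h2'
  have h3 := Subgroup.commutator_commutator_eq_bot_of_rotate h1' h2'
  simp only [← Subgroup.map_commutator] at h3
  rw [Subgroup.map_eq_bot_iff, QuotientGroup.ker_mk'] at h3
  exact h3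

/-- The chain `U₀ = U`, `U_{j+1} = [U_j, G] V`. -/
def uU (U V : Subgroup G) : ℕ → Subgroup G
  | 0 => U
  | j + 1 => ⁅uU U V j, ⊤⁆ ⊔ V

theorem uU_normal (U V : Subgroup G) [hU : U.Normal] [hV : V.Normal] (j : ℕ) : (uU U V j).Normal := by
  induction j with
  | zero => exact hU
  | succ j ih =>
    show (⁅uU U V j, ⊤⁆ ⊔ V).Normal
    infer_instance

theorem le_uU (U V : Subgroup G) (hVU : V ≤ U) (j : ℕ) : V ≤ uU U V j := by
  cases j with
  | zero => exact hVU
  | succ j => exact le_sup_right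

theorem comm_uU (U V : Subgroup G) (j : ℕ) : ⁅uU U V j, ⊤⁆ ≤ uU U V (j + 1) := le_sup_left

theorem comm_gamma (U V : Subgroup G) [U.Normal] [V.Normal] (k : ℕ) : ∀ j,
    ⁅uU U V j, (⊤ : Subgroup G).lowerCentralSeries k⁆ ≤ uU U V (j + k + 1) := by
  induction k with
  | zero => intro j; exact comm_uU U V j
  | succ k ih =>
    intro j
    haveI := uU_normal U V (j + (k + 1) + 1)
    rw [Subgroup.lowerCentralSeries_succ, Subgroup.commutator_comm]
    refine three_mod ?_ ?_
    · rw [Subgroup.commutator_comm ⊤]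
      have h1 := ih (j + 1)
      have e : j + 1 + k + 1 = j + (k + 1) + 1 := by omega
      rw [e] at h1
      exact (Subgroup.commutator_mono (comm_uU U V j) le_rfl).trans h1
    · refine (Subgroup.commutator_mono (ih j) le_rfl).trans ?_
      exact comm_uU U V (j + k + 1)

theorem three_chain (U V : Subgroup G) [U.Normal] [V.Normal] (_hVU : V ≤ U) (m : ℕ) (hm : uU U V m = V) :
    ⁅U, (⊤ : Subgroup G).lowerCentralSeries m⁆ ≤ ⁅V, ⊤⁆ := by
  have key : ∀ d, d ≤ m → ⁅uU U V (m - d), (⊤ : Subgroup G).lowerCentralSeries d⁆ ≤ ⁅V, ⊤⁆ := by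
    intro d
    induction d with
    | zero =>
      intro _
      simp only [Nat.sub_zero, hm]
      exact le_rfl
    | succ d ih =>
      intro hd
      obtain ⟨j, hj⟩ : ∃ j, j = m - (d + 1) := ⟨_, rfl⟩
      rw [← hj, Subgroup.lowerCentralSeries_succ, Subgroup.commutator_comm]
      have e1 : m - d = j + 1 := by omega
      have e2 : j + d + 1 = m := by omega
      refine three_mod ?_ ?_
      · rw [Subgroup.commutator_comm ⊤]
        have h1 := ih (by omega)
        rw [e1] at h1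
        exact (Subgroup.commutator_mono (comm_uU U V j) le_rfl).trans h1
      · have h1 := comm_gamma U V d j
        rw [e2, hm] at h1
        exact Subgroup.commutator_mono h1 le_rfl
  have := key m le_rfl
  rwa [Nat.sub_self] at this

theorem eq_bot_of_le_comm [Group.IsNilpotent G] (K : Subgroup G) (h : K ≤ ⁅K, ⊤⁆) : K = ⊥ := by
  obtain ⟨n, hn⟩ := _root_.nilpotent_iff_lowerCentralSeries.1 (inferInstance : Group.IsNilpotent G)
  have key : ∀ k, K ≤ (⊤ : Subgroup G).lowerCentralSeries k := by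
    intro k
    induction k with
    | zero => exact le_top
    | succ k ih =>
      rw [Subgroup.lowerCentralSeries_succ]
      exact h.trans (Subgroup.commutator_mono ih le_rfl)
  have := key n
  rw [hn] at this
  exact le_bot_iff.1 this

variable [Finite G] {p : ℕ} [hp : Fact p.Prime]

/-- One step of the descent. -/
theorem descent_step (hG : IsPGroup p G) (V W : Subgroup G) [hV : V.Normal] [hW : W.Normal]
    (hVW : V ≤ W) (hne : W ≠ V) : V.relIndex (⁅W, ⊤⁆ ⊔ V) * p ≤ V.relIndex W := by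
  have hW'W : ⁅W, ⊤⁆ ⊔ V ≤ W := sup_le (Subgroup.commutator_le_left W ⊤) hVW
  have hne' : ¬ W ≤ ⁅W, ⊤⁆ ⊔ V := by
    intro hle
    apply hne
    haveI : Group.IsNilpotent (G ⧸ V) := (hG.of_surjective (QuotientGroup.mk' V)
      (QuotientGroup.mk'_surjective V)).isNilpotent
    have h1 : W.map (QuotientGroup.mk' V) ≤ ⁅W.map (QuotientGroup.mk' V), ⊤⁆ := by
      have h2 := Subgroup.map_mono (f := QuotientGroup.mk' V) hle
      rw [Subgroup.map_sup, Subgroup.map_commutator, QuotientGroup.map_mk'_self, sup_bot_eq,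
        Subgroup.map_top_of_surjective _ (QuotientGroup.mk'_surjective V)] at h2
      exact h2
    have h3 := eq_bot_of_le_comm _ h1
    rw [Subgroup.map_eq_bot_iff, QuotientGroup.ker_mk'] at h3
    exact le_antisymm h3 hVW
  have hmul := Subgroup.relIndex_mul_relIndex (H := V) (K := ⁅W, ⊤⁆ ⊔ V) (L := W) le_sup_right hW'W
  rw [← hmul]
  refine Nat.mul_le_mul_left _ ?_
  have hne1 : (⁅W, ⊤⁆ ⊔ V).relIndex W ≠ 1 := fun h => hne' (Subgroup.relIndex_eq_one.1 h)
  have hWp : IsPGroup p W := hG.to_subgroup W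
  obtain ⟨c, hc⟩ := IsPGroup.iff_card.1 hWp
  have hd : (⁅W, ⊤⁆ ⊔ V).relIndex W ∣ p ^ c := hc ▸ Subgroup.index_dvd_card _
  obtain ⟨k, -, hk⟩ := (Nat.dvd_prime_pow hp.out).1 hd
  rw [hk] at hne1 ⊢
  have hk0 : k ≠ 0 := by
    rintro rfl
    exact hne1 (pow_zero p)
  exact Nat.le_self_pow hk0 p

theorem descent {U : Subgroup G} [hU : U.Normal] (hG : IsPGroup p G) (V : Subgroup G) [hV : V.Normal]
    (hVU : V ≤ U) {m : ℕ} (hlt : V.relIndex U < p ^ (m + 1)) : uU U V m = V := by
  have hpp : p.Prime := hp.out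
  have key : ∀ j, uU U V j = V ∨ V.relIndex (uU U V j) * p ^ j ≤ V.relIndex U := by
    intro j
    induction j with
    | zero => right; simp [uU]
    | succ j ih =>
      haveI := uU_normal U V j
      rcases ih with h | h
      · left
        show ⁅uU U V j, ⊤⁆ ⊔ V = V
        rw [h, sup_eq_right]
        exact Subgroup.commutator_le_left V ⊤
      · by_cases hj : uU U V j = V
        · left
          show ⁅uU U V j, ⊤⁆ ⊔ V = V
          rw [hj, sup_eq_right]
          exact Subgroup.commutator_le_left V ⊤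
        · right
          have h1 := descent_step hG V (uU U V j) (le_uU U V hVU j) hj
          calc V.relIndex (uU U V (j + 1)) * p ^ (j + 1)
              = (V.relIndex (⁅uU U V j, ⊤⁆ ⊔ V) * p) * p ^ j := by
                show V.relIndex (⁅uU U V j, ⊤⁆ ⊔ V) * p ^ (j + 1) = _
                ring
            _ ≤ V.relIndex (uU U V j) * p ^ j := Nat.mul_le_mul_right _ h1
            _ ≤ _ := h
  by_contra hne
  rcases key m with h | h
  · exact hne h
  · haveI := uU_normal U V m
    have h1 := descent_step hG V (uU U V m) (le_uU U V hVU m) hne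
    have hpos : 0 < V.relIndex (⁅uU U V m, ⊤⁆ ⊔ V) :=
      Nat.pos_of_ne_zero (Subgroup.index_ne_zero_of_finite)
    have h2 : p ≤ V.relIndex (uU U V m) := by
      calc p = 1 * p := (one_mul p).symm
        _ ≤ V.relIndex (⁅uU U V m, ⊤⁆ ⊔ V) * p := Nat.mul_le_mul_right _ hpos
        _ ≤ _ := h1
    have h3 : p * p ^ m ≤ V.relIndex U := by
      calc p * p ^ m ≤ V.relIndex (uU U V m) * p ^ m := Nat.mul_le_mul_right _ h2
        _ ≤ _ := h
    rw [pow_succ, mul_comm] at hlt
    omega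

/-- Let G be a finite p-group and n ≥ 1, and write γ_1(G) = G, γ_{k+1}(G) = [γ_k(G), G], and likewise γ_k(N) for a subgroup N. Let N be a normal subgroup of G contained in γ_n(G). If i > 1 and γ_{i+1}(N) ≠ 1, then |γ_i(N) : γ_{i+1}(N)| ≥ p^n. -/
theorem result {G : Type*} [Group G] [Finite G] {p : ℕ} [Fact p.Prime] (hG : IsPGroup p G) (n : ℕ) (hn : 1 ≤ n) (N : Subgroup G) [N.Normal] (hN : N ≤ (⊤ : Subgroup G).lowerCentralSeries (n - 1)) (i : ℕ) (hi : 1 < i) (hne : N.lowerCentralSeries i ≠ ⊥) : p ^ n ≤ (N.lowerCentralSeries i).relIndex (N.lowerCentralSeries (i - 1)) := by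
  classical
  have hpp : p.Prime := Fact.out
  haveI hnil : Group.IsNilpotent G := hG.isNilpotent
  obtain ⟨a, rfl⟩ : ∃ a, i = a + 1 := ⟨i - 1, by omega⟩
  simp only [Nat.add_sub_cancel]
  obtain ⟨U, hU⟩ : ∃ U : Subgroup G, U = N.lowerCentralSeries a := ⟨_, rfl⟩
  obtain ⟨V, hV⟩ : ∃ V : Subgroup G, V = N.lowerCentralSeries (a + 1) := ⟨_, rfl⟩
  have hVeq : V = ⁅U, N⁆ := by rw [hU, hV]; rfl
  haveI hUn : U.Normal := by rw [hU]; exact lcs_normal N a
  haveI hVn : V.Normal := by rw [hVeq]; infer_instance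
  have hVU : V ≤ U := by
    rw [hVeq]
    exact Subgroup.commutator_le_left U N
  rw [← hU, ← hV]
  rw [← hV] at hne
  by_contra hlt
  push_neg at hlt
  obtain ⟨m, rfl⟩ : ∃ m, n = m + 1 := ⟨n - 1, by omega⟩
  simp only [Nat.add_sub_cancel] at hN
  have hUm := descent hG V hVU hlt
  have hT := three_chain U V hVU m hUm
  exact hne (eq_bot_of_le_comm V (by
    calc V = ⁅U, N⁆ := hVeq
      _ ≤ ⁅U, (⊤ : Subgroup G).lowerCentralSeries m⁆ := Subgroup.commutator_mono le_rfl hN
      _ ≤ ⁅V, ⊤⁆ := hT))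

end Cfsg.Agent.S3781
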