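-- Statement S3783: p-length bounded by the exponent when the Sylow q-subgroups are abelian.
import Cfsg.Statements.S3783
import Cfsg.Agent.Lib.PGroup.AxLemma
import Cfsg.Agent.Lib.PGroup.PLength2
import Cfsg.Agent.Lib.PLocal.PSeries
import Cfsg.Agent.Lib.Transfer.Frat
import Cfsg.Agent.Lib.PGroup.PLength
import Mathlib

set_option autoImplicit false
open Cfsg

namespace Cfsg.Agent.S3783

open Subgroup Cfsg.Agent.Lib.Core Cfsg.Agent.Lib.PSolv

universe u

section Avg
variable {Γ V : Type*} [Group Γ] [Finite Γ] [CommGroup V] (act : Γ →* MulAut V)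

noncomputable local instance instFS (S : Subgroup Γ) : Fintype S := Fintype.ofFinite S

/-- Product over a subgroup. -/
noncomputable def T (S : Subgroup Γ) (v : V) : V := ∏ s : S, act s v

theorem T_fix (S : Subgroup Γ) (v : V) {g : Γ} (hg : g ∈ S) : act g (T act S v) = T act S v := by
  unfold T
  rw [map_prod]
  refine Fintype.prod_equiv (Equiv.mulLeft (⟨g, hg⟩ : S)) _ _ fun c => ?_
  simp [map_mul]

theorem T_pow (S : Subgroup Γ) (v : V) (k : ℕ) : T act S (v ^ k) = T act S v ^ k := by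
  unfold T
  simp [map_pow, Finset.prod_pow]

theorem T_mul (S : Subgroup Γ) (v w : V) : T act S (v * w) = T act S v * T act S w := by
  unfold T
  simp [map_mul, Finset.prod_mul_distrib]

theorem T_inv (S : Subgroup Γ) (v : V) : T act S v⁻¹ = (T act S v)⁻¹ := by
  unfold T
  simp [map_inv, Finset.prod_inv_distrib]

theorem T_conj (S : Subgroup Γ) {y : Γ} (h1 : ∀ s ∈ S, y * s * y⁻¹ ∈ S) (h2 : ∀ s ∈ S, y⁻¹ * s * y ∈ S)
    (v : V) : T act S (act y v) = act y (T act S v) := by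
  unfold T
  rw [map_prod]
  let φ : S ≃ S :=
    { toFun := fun s => ⟨y⁻¹ * s * y, h2 _ s.2⟩
      invFun := fun s => ⟨y * s * y⁻¹, h1 _ s.2⟩
      left_inv := fun s => by ext; simp [mul_assoc]
      right_inv := fun s => by ext; simp [mul_assoc] }
  refine Fintype.prod_equiv φ _ _ fun c => ?_
  simp only [φ, Equiv.coe_fn_mk]
  have e : (c : Γ) * y = y * (y⁻¹ * c * y) := by group
  calc act (c : Γ) (act y v) = act ((c : Γ) * y) v := by rw [map_mul, MulAut.mul_apply]
    _ = act (y * (y⁻¹ * c * y)) v := by rw [e]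
    _ = act y (act (y⁻¹ * c * y) v) := by rw [map_mul, MulAut.mul_apply]

theorem T_of_fix (S : Subgroup Γ) (v : V) (h : ∀ s ∈ S, act s v = v) :
    T act S v = v ^ Nat.card S := by
  unfold T
  have : ∀ s : S, act (s : Γ) v = v := fun s => h s s.2
  simp only [this, Finset.prod_const, Finset.card_univ, Nat.card_eq_fintype_card]

/-- The averaging identity. -/
theorem avg_range (B : Subgroup Γ) (x : Γ) (N : ℕ) (hN : 0 < N)
    (hxB : ∀ i : ℕ, ∀ b ∈ B, x ^ i * b * (x ^ i)⁻¹ ∈ B)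
    (hxB' : ∀ i : ℕ, ∀ b ∈ B, (x ^ i)⁻¹ * b * x ^ i ∈ B)
    (hfpf : ∀ i, 0 < i → i < N → ∀ b ∈ B, x ^ i * b = b * x ^ i → b = 1)
    (u : V) (hu : T act B u = 1) :
    u ^ Nat.card B = ∏ b : B, act (b : Γ)⁻¹ (∏ i ∈ Finset.range N, act (x ^ i) (act (b : Γ) u)) := by
  have h1 : ∀ b : B, act (b : Γ)⁻¹ (∏ i ∈ Finset.range N, act (x ^ i) (act (b : Γ) u)) =
      ∏ i ∈ Finset.range N, act ((b : Γ)⁻¹ * x ^ i * b) u := by
    intro b
    rw [map_prod]
    refine Finset.prod_congr rfl fun i _ => ?_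
    simp [map_mul]
  simp only [h1]
  rw [Finset.prod_comm]
  rw [Finset.prod_eq_single 0]
  · simp only [pow_zero, mul_one, inv_mul_cancel, map_one, MulAut.one_apply]
    simp only [Finset.prod_const, Finset.card_univ, Nat.card_eq_fintype_card]
  · intro i hi hi0
    have hi1 : i < N := Finset.mem_range.mp hi
    have hipos : 0 < i := Nat.pos_of_ne_zero hi0
    let θ : B → B := fun s => ⟨(s : Γ)⁻¹ * (x ^ i * s * (x ^ i)⁻¹),
      B.mul_mem (B.inv_mem s.2) (hxB i _ s.2)⟩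
    have hinj : Function.Injective θ := by
      intro a b hab
      have hab' : (a : Γ)⁻¹ * (x ^ i * a * (x ^ i)⁻¹) = (b : Γ)⁻¹ * (x ^ i * b * (x ^ i)⁻¹) :=
        congrArg Subtype.val hab
      have h2 : (b : Γ) * (a : Γ)⁻¹ = 1 := by
        apply hfpf i hipos hi1 _ (B.mul_mem b.2 (B.inv_mem a.2))
        have h3 : (a : Γ)⁻¹ * x ^ i * a = (b : Γ)⁻¹ * x ^ i * b := by
          have := congrArg (fun t => t * x ^ i) hab'
          simpa [mul_assoc] using this
        have h4 : (b : Γ) * (a : Γ)⁻¹ * x ^ i * ((a : Γ) * (b : Γ)⁻¹) = x ^ i := by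
          calc (b : Γ) * (a : Γ)⁻¹ * x ^ i * ((a : Γ) * (b : Γ)⁻¹)
              = (b : Γ) * ((a : Γ)⁻¹ * x ^ i * a) * (b : Γ)⁻¹ := by group
            _ = (b : Γ) * ((b : Γ)⁻¹ * x ^ i * b) * (b : Γ)⁻¹ := by rw [h3]
            _ = x ^ i := by group
        calc x ^ i * ((b : Γ) * (a : Γ)⁻¹)
            = ((b : Γ) * (a : Γ)⁻¹ * x ^ i * ((a : Γ) * (b : Γ)⁻¹)) * ((b : Γ) * (a : Γ)⁻¹) := by rw [h4]
          _ = (b : Γ) * (a : Γ)⁻¹ * x ^ i := by group
      exact Subtype.ext (by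
        have := mul_inv_eq_one.mp h2
        exact this.symm)
    have hbij : Function.Bijective θ := ⟨hinj, Finite.injective_iff_surjective.mp hinj⟩
    have h3 : T act B (act (x ^ i) u) = 1 := by
      rw [T_conj act B (hxB i) (hxB' i), hu, map_one]
    unfold T at h3
    rw [← h3]
    refine Fintype.prod_bijective θ hbij _ _ fun s => ?_
    simp only [θ]
    have e : (s : Γ)⁻¹ * x ^ i * s = (s : Γ)⁻¹ * (x ^ i * s * (x ^ i)⁻¹) * x ^ i := by group
    rw [e, map_mul, MulAut.mul_apply]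
  · intro h
    exact absurd (Finset.mem_range.mpr hN) h

/-- Some vector has a nontrivial norm. -/
theorem exists_tau_ne {p : ℕ} [Fact p.Prime] [Finite V] (hV : IsPGroup p V)
    (B : Subgroup Γ) (x : Γ) (N : ℕ) (hN : 0 < N)
    (hxB : ∀ i : ℕ, ∀ b ∈ B, x ^ i * b * (x ^ i)⁻¹ ∈ B)
    (hxB' : ∀ i : ℕ, ∀ b ∈ B, (x ^ i)⁻¹ * b * x ^ i ∈ B)
    (hfpf : ∀ i, 0 < i → i < N → ∀ b ∈ B, x ^ i * b = b * x ^ i → b = 1)
    (hcop : ¬ p ∣ Nat.card B) {b₀ : Γ} (hb₀ : b₀ ∈ B) {v₀ : V} (hne : act b₀ v₀ ≠ v₀) :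
    ∃ w : V, ∏ i ∈ Finset.range N, act (x ^ i) w ≠ 1 := by
  by_contra hall
  push Not at hall
  have hpow : Function.Injective (fun v : V => v ^ Nat.card B) := (hV.powEquiv' hcop).injective
  have hker : ∀ u, T act B u = 1 → u = 1 := by
    intro u hu
    have h1 := avg_range act B x N hN hxB hxB' hfpf u hu
    simp only [hall, map_one, Finset.prod_const_one] at h1
    apply hpow
    simpa using h1
  have hv : ∀ v : V, v ^ Nat.card B = T act B v := by
    intro v
    have h1 : T act B (v ^ Nat.card B * (T act B v)⁻¹) = 1 := by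
      rw [T_mul, T_inv, T_pow, T_of_fix act B (T act B v) (fun s hs => T_fix act B v hs)]
      simp
    have h2 := hker _ h1
    exact mul_inv_eq_one.mp h2
  apply hne
  apply hpow
  show (act b₀ v₀) ^ Nat.card B = v₀ ^ Nat.card B
  rw [← map_pow, hv, T_fix act B v₀ hb₀]

end Avg

section B
variable {Γ : Type*} [Group Γ] [Finite Γ] {p : ℕ} [Fact p.Prime]

/-- The subgroup on which the powers of `x` act without fixed points. -/
theorem exists_B (hstep : PStep p Γ) (hO : Cfsg.pCore p Γ = ⊥)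
    (hab : ∀ (q : ℕ) [Fact q.Prime], q ≠ p → ∀ Q : Sylow q Γ, ∀ a ∈ (Q : Subgroup Γ), ∀ b ∈ (Q : Subgroup Γ), a * b = b * a)
    (n : ℕ) (x : Γ) (hx : x ^ p ^ (n + 1) = 1) (hy : x ^ p ^ n ≠ 1) :
    ∃ B : Subgroup Γ, B ≠ ⊥ ∧ ¬ p ∣ Nat.card B ∧ (∀ i : ℕ, ∀ b ∈ B, x ^ i * b * (x ^ i)⁻¹ ∈ B) ∧
      (∀ i : ℕ, ∀ b ∈ B, (x ^ i)⁻¹ * b * x ^ i ∈ B) ∧
      ∀ i, 0 < i → i < p ^ (n + 1) → ∀ b ∈ B, x ^ i * b = b * x ^ i → b = 1 := by
  classical
  have hp : p.Prime := Fact.out
  set z := x ^ p ^ n with hz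
  have hzp : z ^ p = 1 := by
    rw [hz, ← pow_mul, ← pow_succ]
    exact hx
  set U := pPrimeCore p Γ with hU
  haveI hUn : U.Normal := pPrimeCore_normal p Γ
  have hUc : (Nat.card U).Coprime p := pPrimeCore_coprime p Γ
  have hzU : ¬ U ≤ centralizer ({z} : Set Γ) := by
    intro hle
    have hzc : z ∈ centralizer (U : Set Γ) := by
      rw [Subgroup.mem_centralizer_iff]
      intro u hu
      have := hle hu
      rw [Subgroup.mem_centralizer_singleton_iff] at this
      exact this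
    have hzU := Cfsg.Agent.Lib.PGroup.AxLemma.centralizer_pPrimeCore_le hstep hO hzc
    apply hy
    have h1 : z ^ Nat.card U = 1 := by
      have := congrArg Subtype.val (pow_card_eq_one' (x := (⟨z, hzU⟩ : U)))
      exact this
    exact Cfsg.Agent.Lib.FStar.eq_one_of_pow_of_coprime (p := p) (n := 1) (by simpa using hzp) h1 hUc
  have hAU : zpowers x ≤ normalizer (U : Set Γ) := by
    rw [Subgroup.normalizer_eq_top_iff.mpr hUn]
    exact le_top
  have hcopA : (Nat.card (zpowers x)).Coprime (Nat.card U) := by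
    rw [Nat.card_zpowers]
    exact Nat.Coprime.coprime_dvd_left (orderOf_dvd_of_pow_eq_one hx) (hUc.symm.pow_left (n + 1))
  have hsol : Group.IsSolvable (zpowers x) ∨ Group.IsSolvable U := Or.inl inferInstance
  have hex : ∃ (q : ℕ) (_ : Fact q.Prime) (Q : Sylow q U),
      zpowers x ≤ normalizer (((Q : Subgroup U).map U.subtype : Subgroup Γ) : Set Γ) ∧
        ¬ (Q : Subgroup U).map U.subtype ≤ centralizer ({z} : Set Γ) := by
    by_contra hno
    push Not at hno
    exact hzU (Cfsg.Agent.Lib.PGroup.AxLemma.le_of_invariant_sylows hAU hcopA hsol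
      (fun q inst P hP => hno q inst P hP))
  obtain ⟨q, hq, Q, hQn, hQc⟩ := hex
  set A : Subgroup Γ := (Q : Subgroup U).map U.subtype with hA
  have hApg : IsPGroup q A := Q.isPGroup'.map U.subtype
  have hqp : q ≠ p := by
    intro e
    subst e
    apply hQc
    rintro _ ⟨u, hu, rfl⟩
    obtain ⟨k, hk⟩ := Q.isPGroup' ⟨u, hu⟩
    have h1 : ((u : Γ)) ^ q ^ k = 1 := by
      have := congrArg (fun t => ((t : Q) : U)) hk
      have := congrArg Subtype.val this
      simpa using this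
    have h2 : (u : Γ) ^ Nat.card U = 1 := by
      have := congrArg Subtype.val (pow_card_eq_one' (x := u))
      exact this
    have h3 := Cfsg.Agent.Lib.FStar.eq_one_of_pow_of_coprime (p := q) h1 h2 hUc
    show (u : Γ) ∈ _
    rw [h3]
    exact Subgroup.one_mem _
  have hAc : ∀ a ∈ A, ∀ b ∈ A, a * b = b * a := by
    obtain ⟨S, hS⟩ := hApg.exists_le_sylow
    intro a ha b hb
    exact hab q hqp S a (hS ha) b (hS hb)
  have hxA : ∀ c ∈ zpowers x, ∀ a ∈ A, c * a * c⁻¹ ∈ A := fun c hc a ha =>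
    (Subgroup.mem_normalizer_iff.mp (hQn hc) a).mp ha
  have hzmem : z ∈ zpowers x := npow_mem_zpowers x _
  have hzA : ∀ a ∈ A, z * a * z⁻¹ ∈ A := hxA z hzmem
  let B : Subgroup Γ :=
    { carrier := {b | ∃ a ∈ A, b = a⁻¹ * (z * a * z⁻¹)}
      mul_mem' := by
        rintro _ _ ⟨a₁, ha₁, rfl⟩ ⟨a₂, ha₂, rfl⟩
        refine ⟨a₁ * a₂, A.mul_mem ha₁ ha₂, ?_⟩
        set b₁ := a₁⁻¹ * (z * a₁ * z⁻¹) with hb₁
        have hb₁A : b₁ ∈ A := A.mul_mem (A.inv_mem ha₁) (hzA a₁ ha₁)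
        have h1 := hAc _ (A.inv_mem ha₂) _ hb₁A
        calc b₁ * (a₂⁻¹ * (z * a₂ * z⁻¹)) = (b₁ * a₂⁻¹) * (z * a₂ * z⁻¹) := by group
          _ = (a₂⁻¹ * b₁) * (z * a₂ * z⁻¹) := by rw [h1]
          _ = (a₁ * a₂)⁻¹ * (z * (a₁ * a₂) * z⁻¹) := by rw [hb₁]; group
      one_mem' := ⟨1, A.one_mem, by simp⟩
      inv_mem' := by
        rintro _ ⟨a, ha, rfl⟩
        refine ⟨a⁻¹, A.inv_mem ha, ?_⟩
        have h1 := hAc _ ha _ (A.inv_mem (hzA a ha))
        calc (a⁻¹ * (z * a * z⁻¹))⁻¹ = (z * a * z⁻¹)⁻¹ * a := by group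
          _ = a * (z * a * z⁻¹)⁻¹ := h1.symm
          _ = a⁻¹⁻¹ * (z * a⁻¹ * z⁻¹) := by group }
  have hBA : B ≤ A := by
    rintro _ ⟨a, ha, rfl⟩
    exact A.mul_mem (A.inv_mem ha) (hzA a ha)
  have hBconj : ∀ c ∈ zpowers x, ∀ b ∈ B, c * b * c⁻¹ ∈ B := by
    rintro c hc _ ⟨a, ha, rfl⟩
    refine ⟨c * a * c⁻¹, hxA c hc a ha, ?_⟩
    have hcz : c * z = z * c := by
      obtain ⟨k, rfl⟩ := hc
      exact ((Commute.refl x).zpow_left k |>.pow_right (p ^ n))
    have h1 : z = c * z * c⁻¹ := by rw [hcz]; group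
    have h2 : c * (a⁻¹ * (z * a * z⁻¹)) * c⁻¹ =
        (c * a * c⁻¹)⁻¹ * ((c * z * c⁻¹) * (c * a * c⁻¹) * (c * z * c⁻¹)⁻¹) := by group
    rw [h2, ← h1]
  have hzfix : ∀ b ∈ B, z * b = b * z → b = 1 := by
    rintro b hb hzb
    obtain ⟨a, ha, hab'⟩ := hb
    have hcomm : Commute z b := hzb
    have hzab : z * a * z⁻¹ = a * b := by rw [hab']; group
    have hj : ∀ j : ℕ, z ^ j * a * (z ^ j)⁻¹ = a * b ^ j := by
      intro j
      induction j with
      | zero => simp
      | succ j ih =>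
        have h1 : z * b ^ j * z⁻¹ = b ^ j := by
          have := (hcomm.pow_right j).eq
          rw [this]
          group
        calc z ^ (j + 1) * a * (z ^ (j + 1))⁻¹ = z * (z ^ j * a * (z ^ j)⁻¹) * z⁻¹ := by
              rw [pow_succ']
              group
          _ = z * (a * b ^ j) * z⁻¹ := by rw [ih]
          _ = (z * a * z⁻¹) * (z * b ^ j * z⁻¹) := by group
          _ = a * b * b ^ j := by rw [hzab, h1]
          _ = a * b ^ (j + 1) := by rw [pow_succ', mul_assoc]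
    have h1 := hj p
    rw [hzp] at h1
    have h2 : b ^ p = 1 := by
      have : a = a * b ^ p := by simpa using h1
      exact (mul_eq_left.mp this.symm)
    have hbA : b ∈ A := hBA ⟨a, ha, hab'⟩
    obtain ⟨k, hk⟩ := hApg ⟨b, hbA⟩
    have h3 : b ^ q ^ k = 1 := by
      have := congrArg Subtype.val hk
      simpa using this
    have hcop : p.Coprime (q ^ k) := Nat.Coprime.pow_right k ((Nat.coprime_primes hp Fact.out).2 hqp.symm)
    have h4 : orderOf b ∣ Nat.gcd p (q ^ k) :=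
      Nat.dvd_gcd (orderOf_dvd_of_pow_eq_one h2) (orderOf_dvd_of_pow_eq_one h3)
    rw [hcop] at h4
    exact orderOf_eq_one_iff.mp (Nat.dvd_one.mp h4)
  refine ⟨B, ?_, ?_, ?_, ?_, ?_⟩
  · intro hB
    apply hQc
    intro a ha
    rw [Subgroup.mem_centralizer_singleton_iff]
    have h1 : a⁻¹ * (z * a * z⁻¹) ∈ B := ⟨a, ha, rfl⟩
    rw [hB, Subgroup.mem_bot] at h1
    have h2 : z * a * z⁻¹ = a := (inv_mul_eq_one.mp h1).symm
    calc a * z = (z * a * z⁻¹) * z := by rw [h2]
      _ = z * a := by group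
  · intro hpd
    have hBp : IsPGroup q B := hApg.to_le hBA
    obtain ⟨k, hk⟩ := IsPGroup.iff_card.mp hBp
    rw [hk] at hpd
    have := (Nat.prime_dvd_prime_iff_eq hp Fact.out).mp (hp.dvd_of_dvd_pow hpd)
    exact hqp this.symm
  · intro i b hb
    exact hBconj (x ^ i) (npow_mem_zpowers x i) b hb
  · intro i b hb
    have := hBconj (x ^ i)⁻¹ (Subgroup.inv_mem _ (npow_mem_zpowers x i)) b hb
    simpa using this
  · intro i hi0 hi1 b hb hcomm
    obtain ⟨t, u, hu, rfl⟩ := Nat.exists_eq_pow_mul_and_not_dvd (Nat.pos_iff_ne_zero.mp hi0) p hp.ne_one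
    have htn : t ≤ n := by
      have h1 : p ^ t ≤ p ^ t * u := Nat.le_mul_of_pos_right _ (Nat.pos_of_ne_zero (by
        rintro rfl
        simp at hu))
      have h2 : p ^ t < p ^ (n + 1) := lt_of_le_of_lt h1 hi1
      have := (Nat.pow_lt_pow_iff_right hp.one_lt).mp h2
      omega
    have hc1 : Commute (z ^ u) b := by
      have e : z ^ u = (x ^ (p ^ t * u)) ^ p ^ (n - t) := by
        rw [hz, ← pow_mul, ← pow_mul]
        congr 1
        have : p ^ n = p ^ t * p ^ (n - t) := by rw [← pow_add]; congr 1; omega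
        rw [this]
        ring
      rw [e]
      exact Commute.pow_left hcomm _
    have hcop : u.Coprime p := ((Nat.Prime.coprime_iff_not_dvd hp).mpr hu).symm
    obtain ⟨w, hw⟩ := Nat.exists_mul_mod_eq_one_of_coprime hcop hp.one_lt
    have h1 : (z ^ u) ^ w = z := by
      rw [← pow_mul, pow_eq_pow_mod _ hzp, hw.2, pow_one]
    have hc2 : Commute z b := by
      rw [← h1]
      exact hc1.pow_left w
    exact hzfix b hb hc2

end B

/-- The conjugation action on the abelianization of a normal subgroup. -/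
noncomputable def conjAb {G : Type*} [Group G] (P : Subgroup G) [P.Normal] : G →* MulAut (Abelianization P) where
  toFun g := (MulAut.conjNormal (H := P) g).abelianizationCongr
  map_one' := by
    ext v
    obtain ⟨a, rfl⟩ := QuotientGroup.mk_surjective v
    show Abelianization.of _ = _
    simp
    rfl
  map_mul' g h := by
    ext v
    obtain ⟨a, rfl⟩ := QuotientGroup.mk_surjective v
    show Abelianization.of _ = Abelianization.of _
    simp

section Key
variable {G : Type*} [Group G] [Finite G] {p : ℕ} [Fact p.Prime]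

theorem conjAb_of (P : Subgroup G) [P.Normal] (g : G) (a : P) :
    conjAb P g (Abelianization.of a) = Abelianization.of (MulAut.conjNormal (H := P) g a) := rfl

theorem conjAb_self (P : Subgroup G) [P.Normal] {a : G} (ha : a ∈ P) : conjAb P a = 1 := by
  ext v
  obtain ⟨b, rfl⟩ := QuotientGroup.mk_surjective v
  show conjAb P a (Abelianization.of b) = Abelianization.of b
  rw [conjAb_of]
  have h : MulAut.conjNormal (H := P) a b = (⟨a, ha⟩ : P) * b * (⟨a, ha⟩ : P)⁻¹ := by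
    apply Subtype.ext
    rw [MulAut.conjNormal_apply]
    rfl
  rw [h, map_mul, map_mul, map_inv]
  simp

/-- The power formula. -/
theorem pow_formula (P : Subgroup G) [hP : P.Normal] (u : P) (x : G) (k : ℕ) :
    ∃ c : P, ((u : G) * x) ^ k = c * x ^ k ∧
      Abelianization.of c = ∏ i ∈ Finset.range k, conjAb P (x ^ i) (Abelianization.of u) := by
  induction k with
  | zero => exact ⟨1, by simp, by simp⟩
  | succ k ih =>
    obtain ⟨c, hc, hc2⟩ := ih
    refine ⟨c * MulAut.conjNormal (H := P) (x ^ k) u, ?_, ?_⟩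
    · rw [pow_succ, hc, Subgroup.coe_mul, MulAut.conjNormal_apply]
      group
    · rw [Finset.prod_range_succ, ← hc2, map_mul, conjAb_of]

/-- The kernel of the action on the abelianization of `O_p(G)`. -/
theorem ker_conjAb_le (hstep : PStep p G) (hO : pPrimeCore p G = ⊥) :
    (conjAb (pCore p G)).ker ≤ pCore p G := by
  classical
  have hp : p.Prime := Fact.out
  set P := pCore p G with hP
  haveI hPn : P.Normal := pCore_normal p G
  have hPp : IsPGroup p P := pCore_isPGroup p G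
  have hCn : (conjAb P).ker.Normal := inferInstance
  apply le_pCore hCn
  -- the kernel is a `p`-group
  intro c
  obtain ⟨a, m, hm, hord⟩ := Nat.exists_eq_pow_mul_and_not_dvd (orderOf_pos (c : G)).ne' p hp.ne_one
  -- the `p'`-part is trivial
  set d : G := (c : G) ^ p ^ a with hd
  have hdm : d ^ m = 1 := by
    rw [hd, ← pow_mul, ← hord, pow_orderOf_eq_one]
  have hmc : m.Coprime p := ((Nat.Prime.coprime_iff_not_dvd hp).mpr hm).symm
  have hdker : d ∈ (conjAb P).ker := Subgroup.pow_mem _ c.2 _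
  have hdcen : zpowers d ≤ centralizer (P : Set G) := by
    apply Cfsg.Agent.Lib.Hall.le_centralizer_of_frattini (zpowers d) P
    · rw [Subgroup.normalizer_eq_top_iff.mpr hPn]
      exact le_top
    · rw [Nat.card_zpowers]
      obtain ⟨k, hk⟩ := IsPGroup.iff_card.mp (IsPGroup.to_subgroup hPp (frattini P))
      rw [hk]
      exact Nat.Coprime.coprime_dvd_left (orderOf_dvd_of_pow_eq_one hdm) (hmc.pow_right k)
    · intro g hg k hk
      have hgker : g ∈ (conjAb P).ker := by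
        obtain ⟨i, rfl⟩ := hg
        exact Subgroup.zpow_mem _ hdker i
      have h1 : conjAb P g (Abelianization.of (⟨k, hk⟩ : P)) = Abelianization.of (⟨k, hk⟩ : P) := by
        rw [MonoidHom.mem_ker.mp hgker]
        rfl
      rw [conjAb_of] at h1
      have h2 : (MulAut.conjNormal (H := P) g ⟨k, hk⟩)⁻¹ * ⟨k, hk⟩ ∈ commutator P := QuotientGroup.eq.mp h1
      have h3 : (MulAut.conjNormal (H := P) g ⟨k, hk⟩) * (⟨k, hk⟩ : P)⁻¹ ∈ commutator P := by
        have h5 := (inferInstance : (commutator P).Normal).conj_mem _ (Subgroup.inv_mem _ h2) ((MulAut.conjNormal (H := P) g ⟨k, hk⟩))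
        have e2 : (MulAut.conjNormal (H := P) g ⟨k, hk⟩) * ((MulAut.conjNormal (H := P) g ⟨k, hk⟩)⁻¹ * ⟨k, hk⟩)⁻¹ * (MulAut.conjNormal (H := P) g ⟨k, hk⟩)⁻¹ =
            (MulAut.conjNormal (H := P) g ⟨k, hk⟩) * (⟨k, hk⟩ : P)⁻¹ := by group
        rwa [e2] at h5
      have h6 := Cfsg.Agent.Lib.Transfer.commutator_le_frattini hPp h3
      refine ⟨_, h6, ?_⟩
      simp [MulAut.conjNormal_apply]
  have hdC : d ∈ centralizer (P : Set G) := hdcen (mem_zpowers d)
  have hdP : d ∈ P := centralizer_pCore_le hstep hO hdC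
  obtain ⟨b, hb⟩ := hPp ⟨d, hdP⟩
  have hb' : d ^ p ^ b = 1 := by
    have := congrArg Subtype.val hb
    simpa using this
  have hd1 : d = 1 := Cfsg.Agent.Lib.FStar.eq_one_of_pow_of_coprime (p := p) hb' hdm hmc
  refine ⟨a, Subtype.ext ?_⟩
  simpa using hd1

theorem hab_quot {H : Type*} [Group H] (f : G →* H) (hf : Function.Surjective f)
    (hab : ∀ (q : ℕ) [Fact q.Prime], q ≠ p → ∀ Q : Sylow q G, ∀ a ∈ (Q : Subgroup G), ∀ b ∈ (Q : Subgroup G), a * b = b * a) :
    ∀ (q : ℕ) [Fact q.Prime], q ≠ p → ∀ Q : Sylow q H, ∀ a ∈ (Q : Subgroup H), ∀ b ∈ (Q : Subgroup H), a * b = b * a := by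
  intro q _ hq Q a ha b hb
  haveI : Finite H := Finite.of_surjective f hf
  obtain ⟨S, rfl⟩ := Sylow.mapSurjective_surjective hf q Q
  obtain ⟨a₀, ha₀, rfl⟩ := ha
  obtain ⟨b₀, hb₀, rfl⟩ := hb
  rw [← map_mul, ← map_mul, hab q hq S a₀ ha₀ b₀ hb₀]

/-- Lifting `p`-elements. -/
theorem pelt_lift {H : Type*} [Group H] (f : G →* H) (hf : Function.Surjective f) (y : H)
    (hy : ∃ k, y ^ p ^ k = 1) : ∃ g : G, f g = y ∧ ∃ k, g ^ p ^ k = 1 := by
  have hp : p.Prime := Fact.out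
  obtain ⟨k, hk⟩ := hy
  obtain ⟨g₀, rfl⟩ := hf y
  obtain ⟨a, m, hm, hord⟩ := Nat.exists_eq_pow_mul_and_not_dvd (orderOf_pos g₀).ne' p hp.ne_one
  have hmc : (p ^ k).Coprime m :=
    Nat.Coprime.pow_left k ((Nat.Prime.coprime_iff_not_dvd hp).mpr hm)
  by_cases hk1 : p ^ k = 1
  · rw [hk1, pow_one] at hk
    refine ⟨g₀ ^ m, ?_, a, ?_⟩
    · rw [map_pow, hk, one_pow]
    · rw [← pow_mul, mul_comm, ← hord, pow_orderOf_eq_one]
  have hk2 : 1 < p ^ k := by
    have := Nat.pos_of_ne_zero (pow_ne_zero k hp.ne_zero)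
    omega
  obtain ⟨w, hw⟩ := Nat.exists_mul_mod_eq_one_of_coprime hmc.symm hk2
  refine ⟨g₀ ^ (m * w), ?_, a, ?_⟩
  · rw [map_pow, pow_eq_pow_mod _ hk, hw.2, pow_one]
  · rw [← pow_mul, show m * w * p ^ a = (p ^ a * m) * w by ring, ← hord, pow_mul, pow_orderOf_eq_one, one_pow]

/-- **The key step.** -/
theorem key (hstep : PStep p G) (hO : pPrimeCore p G = ⊥)
    (hab : ∀ (q : ℕ) [Fact q.Prime], q ≠ p → ∀ Q : Sylow q G, ∀ a ∈ (Q : Subgroup G), ∀ b ∈ (Q : Subgroup G), a * b = b * a)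
    (n : ℕ) (hN : ∀ g : G, (∃ k, g ^ p ^ k = 1) → g ^ p ^ (n + 1) = 1) (x : G) (hx : ∃ k, x ^ p ^ k = 1) :
    x ^ p ^ n ∈ pCore p G := by
  classical
  have hp : p.Prime := Fact.out
  by_contra hy
  set P := pCore p G with hP
  haveI hPn : P.Normal := pCore_normal p G
  have hPp : IsPGroup p P := pCore_isPGroup p G
  let π := QuotientGroup.mk' P
  have hπ : Function.Surjective π := QuotientGroup.mk'_surjective P
  have hxN := hN x hx
  have hxb : (π x) ^ p ^ (n + 1) = 1 := by rw [← map_pow, hxN, map_one]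
  have hyb : (π x) ^ p ^ n ≠ 1 := by
    intro h
    rw [← map_pow] at h
    exact hy ((QuotientGroup.eq_one_iff _).mp h)
  obtain ⟨B, hB, hcop, hxB, hxB', hfpf⟩ := exists_B (hstep.quotient P) pCore_quotient_pCore_eq_bot
    (hab_quot π hπ hab) n (π x) hxb hyb
  let act : (G ⧸ P) →* MulAut (Abelianization P) :=
    QuotientGroup.lift P (conjAb P) (fun a ha => conjAb_self P ha)
  have hact : ∀ g, act (π g) = conjAb P g := fun g => rfl
  obtain ⟨b₀, hb₀, hb₀1⟩ := (Subgroup.bot_or_exists_ne_one B).resolve_left hB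
  obtain ⟨c, rfl⟩ := hπ b₀
  have hc1 : conjAb P c ≠ 1 := by
    intro h
    apply hb₀1
    exact (QuotientGroup.eq_one_iff _).mpr (ker_conjAb_le hstep hO (MonoidHom.mem_ker.mpr h))
  obtain ⟨v₀, hv₀⟩ : ∃ v₀, act (π c) v₀ ≠ v₀ := by
    by_contra hall
    push Not at hall
    apply hc1
    ext v
    have := hall v
    rw [hact] at this
    rw [this]
    rfl
  have hV : IsPGroup p (Abelianization P) :=
    hPp.of_surjective (Abelianization.of) QuotientGroup.mk_surjective
  obtain ⟨w, hw⟩ := exists_tau_ne act hV B (π x) (p ^ (n + 1)) (pow_pos hp.pos _) hxB hxB' hfpf hcop hb₀ hv₀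
  obtain ⟨u, rfl⟩ := QuotientGroup.mk_surjective w
  obtain ⟨c₁, hc₁, hc₂⟩ := pow_formula P u x (p ^ (n + 1))
  rw [hxN, mul_one] at hc₁
  -- `u * x` is a `p`-element
  obtain ⟨m, hm⟩ := hPp c₁
  have hm' : (c₁ : G) ^ p ^ m = 1 := by
    have := congrArg Subtype.val hm
    simpa using this
  have hpel : ∃ k, ((u : G) * x) ^ p ^ k = 1 := by
    refine ⟨n + 1 + m, ?_⟩
    rw [pow_add, pow_mul, hc₁, hm']
  have h1 := hN _ hpel
  rw [hc₁] at h1
  have h2 : c₁ = 1 := Subtype.ext h1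
  apply hw
  have h3 : ∀ i, act ((π x) ^ i) = conjAb P (x ^ i) := fun i => by
    rw [← map_pow]
    rfl
  simp only [h3]
  have h4 : ∏ i ∈ Finset.range (p ^ (n + 1)), conjAb P (x ^ i) (Abelianization.of u) = 1 := by
    rw [← hc₂, h2, map_one]
  exact h4

end Key

/-- The statement for `PStep` groups. -/
theorem main {p : ℕ} [Fact p.Prime] : ∀ (n : ℕ) (G : Type u) [Group G] [Finite G], PStep p G →
    (∀ (q : ℕ) [Fact q.Prime], q ≠ p → ∀ Q : Sylow q G, ∀ a ∈ (Q : Subgroup G), ∀ b ∈ (Q : Subgroup G), a * b = b * a) →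
    (∀ g : G, (∃ k, g ^ p ^ k = 1) → g ^ p ^ n = 1) → Cfsg.PLengthLE p n G := by
  have hp : p.Prime := Fact.out
  intro n
  induction n with
  | zero =>
    intro G _ _ _ _ h
    rw [Cfsg.Agent.Lib.PGroup.plength_zero_iff]
    rw [Nat.coprime_comm, Nat.Prime.coprime_iff_not_dvd hp]
    intro hd
    obtain ⟨g, hg⟩ := exists_prime_orderOf_dvd_card' p hd
    have h1 : g ^ p ^ 1 = 1 := by rw [pow_one, ← hg, pow_orderOf_eq_one]
    have h2 := h g ⟨1, h1⟩
    rw [pow_zero, pow_one] at h2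
    rw [h2, orderOf_one] at hg
    exact hp.one_lt.ne hg
  | succ n ih =>
    intro G _ _ hstep hab h
    set U₁ := (upperPSeries p G 1).1 with hU₁
    set W := (upperPSeries p G 2).1 with hW
    have hO : pPrimeCore p (G ⧸ U₁) = ⊥ := Cfsg.Agent.Lib.PLocal.pPrimeCore_quotient_upper 0 (by simp)
    have hWdef : W = (pCore p (G ⧸ U₁)).comap (QuotientGroup.mk' U₁) :=
      Cfsg.Agent.Lib.PLocal.upperPSeries_succ_odd 1 (by decide)
    have hsurj₁ := QuotientGroup.mk'_surjective U₁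
    have hkey : ∀ x : G, (∃ k, x ^ p ^ k = 1) → x ^ p ^ n ∈ W := by
      intro x hx
      rw [hWdef, Subgroup.mem_comap, map_pow]
      apply key (hstep.quotient U₁) hO (hab_quot _ hsurj₁ hab) n
      · intro y hy
        obtain ⟨g, rfl, hg⟩ := pelt_lift (p := p) (QuotientGroup.mk' U₁) hsurj₁ y hy
        rw [← map_pow, h g hg, map_one]
      · obtain ⟨k, hk⟩ := hx
        exact ⟨k, by rw [← map_pow, hk, map_one]⟩
    have hsurj := QuotientGroup.mk'_surjective W
    have hih := ih (G ⧸ W) (hstep.quotient W) (hab_quot _ hsurj hab) (by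
      intro y hy
      obtain ⟨g, rfl, hg⟩ := pelt_lift (p := p) (QuotientGroup.mk' W) hsurj y hy
      rw [← map_pow]
      exact (QuotientGroup.eq_one_iff _).mpr (hkey g hg))
    have hshift := Cfsg.Agent.Lib.PLocal.upperPSeries_shift (p := p) (QuotientGroup.mk' W) hsurj
      (QuotientGroup.ker_mk' W) (2 * n + 1)
    show (upperPSeries p G (2 * (n + 1) + 1)).1 = ⊤
    have e : 2 * (n + 1) + 1 = 2 * n + 1 + 2 := by ring
    rw [e, hshift]
    have hih' : (upperPSeries p (G ⧸ W) (2 * n + 1)).1 = ⊤ := hih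
    rw [hih', Subgroup.comap_top]

/-- Let G be a finite p-soluble group in which, for every prime q ≠ p, the Sylow q-subgroups are abelian. If the Sylow p-subgroups of G have exponent dividing p^n, then G has p-length at most n. -/
theorem result {G : Type*} [Group G] [Finite G] {p : ℕ} [Fact p.Prime] (hG : Cfsg.IsPSolvable p G) (hab : ∀ (q : ℕ) [Fact q.Prime], q ≠ p → ∀ Q : Sylow q G, IsMulCommutative (Q : Subgroup G)) (n : ℕ) (hexp : ∀ (P : Sylow p G), ∀ x ∈ (P : Subgroup G), x ^ p ^ n = 1) : Cfsg.PLengthLE p n G := by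
  have hp : p.Prime := Fact.out
  refine main n G (pStep_of_isPSolvable hp hG) ?_ ?_
  · intro q _ hq Q a ha b hb
    haveI := hab q hq Q
    have := mul_comm' (⟨a, ha⟩ : (Q : Subgroup G)) ⟨b, hb⟩
    exact congrArg Subtype.val this
  · rintro g ⟨k, hk⟩
    have hg : IsPGroup p (zpowers g) := by
      rw [IsPGroup.iff_card, Nat.card_zpowers]
      have h1 : orderOf g ∣ p ^ k := orderOf_dvd_of_pow_eq_one hk
      obtain ⟨j, -, hj⟩ := (Nat.dvd_prime_pow hp).mp h1
      exact ⟨j, hj⟩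
    obtain ⟨P, hP⟩ := hg.exists_le_sylow
    exact hexp P g (hP (mem_zpowers g))

end Cfsg.Agent.S3783
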