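import Cfsg.Statements.S3784
import Mathlib

set_option autoImplicit false
open Cfsg

namespace Cfsg.Agent.S3784

private theorem odd_sum_aux (q : ℤ) (hq : Odd q) (c : ℕ) :
    ∃ T : ℤ, Odd T ∧ q ^ (2 * c + 1) + 1 = (q + 1) * T := by
  induction c with
  | zero => exact ⟨1, odd_one, by simp⟩
  | succ c ih =>
    obtain ⟨T, hT, e⟩ := ih
    refine ⟨q ^ 2 * T - q + 1, ?_, ?_⟩
    · have : Odd (q ^ 2 * T) := (hq.pow).mul hT
      have h2 : Even (q ^ 2 * T - q) := this.sub_odd hq
      exact h2.add_one
    · have e2 : q ^ (2 * (c + 1) + 1) = q ^ 2 * q ^ (2 * c + 1) := by ring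
      rw [e2]
      have e3 : q ^ (2 * c + 1) = (q + 1) * T - 1 := by linarith
      rw [e3]; ring

private theorem odd_sum_aux' (q : ℤ) (hq : Odd q) (c : ℕ) :
    ∃ T : ℤ, Odd T ∧ q ^ (2 * c + 1) - 1 = (q - 1) * T := by
  induction c with
  | zero => exact ⟨1, odd_one, by simp⟩
  | succ c ih =>
    obtain ⟨T, hT, e⟩ := ih
    refine ⟨q ^ 2 * T + q + 1, ?_, ?_⟩
    · have : Odd (q ^ 2 * T) := (hq.pow).mul hT
      have h2 : Even (q ^ 2 * T + q) := this.add_odd hq
      exact h2.add_one
    · have e2 : q ^ (2 * (c + 1) + 1) = q ^ 2 * q ^ (2 * c + 1) := by ring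
      rw [e2]
      have e3 : q ^ (2 * c + 1) = (q - 1) * T + 1 := by linarith
      rw [e3]; ring

/-- An odd divisor (in `ℤ`) of a power of two is a unit. -/
private theorem odd_dvd_two_pow (T : ℤ) (hT : Odd T) (a : ℕ) (h : T ∣ 2 ^ a) : T.natAbs = 1 := by
  have h1 : T.natAbs ∣ 2 ^ a := by
    have := Int.natAbs_dvd_natAbs.mpr h
    simpa [Int.natAbs_pow] using this
  have h2 : Odd T.natAbs := Int.natAbs_odd.mpr hT
  have h3 : Nat.Coprime T.natAbs (2 ^ a) := by
    apply Nat.Coprime.pow_right
    exact h2.coprime_two_right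
  exact Nat.Coprime.eq_one_of_dvd h3 h1

theorem result (p q a b : ℕ) (hp : p.Prime) (hq : q.Prime) (ha : 1 ≤ a) (hb : 1 ≤ b) (h : p ^ a = q ^ b + 1) : (p = 2 ∧ b = 1 ∧ a.Prime ∧ q + 1 = 2 ^ a) ∨ (q = 2 ∧ a = 1 ∧ (∃ m : ℕ, b = 2 ^ m) ∧ p = 2 ^ b + 1) ∨ (p ^ a = 9 ∧ q ^ b = 8) := by
  have hq2 := hq.two_le
  have hp2 := hp.two_le
  have hqb : q ≤ q ^ b := Nat.le_self_pow (by omega) q
  by_cases hp' : p = 2
  · subst hp'
    left
    have hqodd : Odd q := by
      rcases hq.eq_two_or_odd' with h2 | h2
      · subst h2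
        exfalso
        have h3 : Even (2 ^ a) := (even_two).pow_of_ne_zero (by omega)
        have h4 : Even (2 ^ b) := (even_two).pow_of_ne_zero (by omega)
        rw [h] at h3
        exact (Nat.not_even_iff_odd.mpr h4.add_one) h3
      · exact h2
    -- `b` is odd
    rcases Nat.even_or_odd' b with ⟨c, hc | hc⟩
    · exfalso
      subst hc
      -- `q^(2c) ≡ 1 mod 4`
      have hq4 : (q ^ c) ^ 2 % 4 = 1 := by
        have : Odd (q ^ c) := hqodd.pow
        obtain ⟨k, hk⟩ := this
        rw [hk]
        have : (2 * k + 1) ^ 2 = 4 * (k ^ 2 + k) + 1 := by ring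
        rw [this]; omega
      have e : q ^ (2 * c) = (q ^ c) ^ 2 := by ring
      rw [e] at h
      have h4 : 2 ^ a % 4 = 2 := by rw [h]; omega
      have ha1 : a = 1 := by
        by_contra hne
        have : 2 ≤ a := by omega
        obtain ⟨k, rfl⟩ := Nat.exists_eq_add_of_le this
        rw [pow_add] at h4
        omega
      subst ha1
      have : 2 ≤ (q ^ c) ^ 2 := by
        have h5 : q ^ (2 * c) = (q ^ c) ^ 2 := e
        rw [← h5]; omega
      omega
    · subst hc
      obtain ⟨T, hT, e⟩ := odd_sum_aux (q : ℤ) (by exact_mod_cast hqodd) c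
      have hZ : ((2 : ℤ)) ^ a = (q : ℤ) ^ (2 * c + 1) + 1 := by exact_mod_cast h
      have hdvd : T ∣ 2 ^ a := by rw [hZ, e]; exact Dvd.intro_left _ rfl
      have hT1 := odd_dvd_two_pow T hT a hdvd
      have hTpos : T = 1 := by
        rcases Int.natAbs_eq T with h6 | h6
        · rw [hT1] at h6; exact_mod_cast h6
        · rw [hT1] at h6
          exfalso
          rw [h6] at e
          have : (0 : ℤ) < (q : ℤ) ^ (2 * c + 1) + 1 := by positivity
          have h7 : (0 : ℤ) < (q : ℤ) + 1 := by positivity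
          push_cast at e
          nlinarith
      rw [hTpos, mul_one] at e
      have e' : q ^ (2 * c + 1) = q := by
        have : (q : ℤ) ^ (2 * c + 1) = q := by linarith
        exact_mod_cast this
      have hc0 : c = 0 := by
        by_contra hne
        have h1 : q ^ 1 < q ^ (2 * c + 1) :=
          Nat.pow_lt_pow_right (by omega) (by omega)
        rw [pow_one] at h1
        omega
      subst hc0
      simp only [Nat.mul_zero, Nat.zero_add, pow_one] at h ⊢
      refine ⟨trivial, trivial, ?_, h.symm⟩
      have hq' : (2 ^ a - 1).Prime := by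
        have : 2 ^ a - 1 = q := by omega
        rwa [this]
      have ha1 : a ≠ 1 := by
        rintro rfl
        omega
      exact (Nat.prime_of_pow_sub_one_prime ha1 hq').2
  · -- `p` is odd so `q = 2`
    have hpodd : Odd p := hp.eq_two_or_odd'.resolve_left hp'
    have hq' : q = 2 := by
      rcases hq.eq_two_or_odd' with h2 | h2
      · exact h2
      · exfalso
        have h3 : Odd (p ^ a) := hpodd.pow
        have h4 : Odd (q ^ b) := h2.pow
        rw [h] at h3
        exact (Nat.not_odd_iff_even.mpr h4.add_one) h3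
    subst hq'
    right
    rcases Nat.even_or_odd' a with ⟨c, hc | hc⟩
    · -- even
      right
      subst hc
      have hc1 : 1 ≤ c := by omega
      have hpc : 3 ≤ p ^ c := by
        have h1 : p ≤ p ^ c := Nat.le_self_pow (by omega) p
        have : 3 ≤ p := by
          rcases hpodd with ⟨k, hk⟩
          omega
        omega
      obtain ⟨x, hx⟩ : ∃ x, p ^ c = x + 1 := ⟨p ^ c - 1, by omega⟩
      have e1 : x * (x + 2) = 2 ^ b := by
        have e : p ^ (2 * c) = (p ^ c) ^ 2 := by ring
        rw [e, hx] at h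
        have : (x + 1) ^ 2 = x * (x + 2) + 1 := by ring
        omega
      have h1 : x ∣ 2 ^ b := ⟨x + 2, e1.symm⟩
      have h2 : x + 2 ∣ 2 ^ b := ⟨x, by rw [← e1]; ring⟩
      obtain ⟨i, -, hi⟩ := (Nat.dvd_prime_pow Nat.prime_two).mp h1
      obtain ⟨j, -, hj⟩ := (Nat.dvd_prime_pow Nat.prime_two).mp h2
      have hx3 : x = 2 := by
        rcases i with _ | _ | i
        · -- x = 1
          simp at hi
          subst hi
          have h3 : 3 = 2 ^ j := hj
          rcases j with _ | _ | j
          · omega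
          · omega
          · rw [pow_add] at h3; omega
        · simpa using hi
        · -- x = 4 * 2^i, x + 2 = 2^j
          rcases j with _ | _ | j
          · omega
          · omega
          · rw [pow_add] at hj hi; omega
      subst hx3
      have e : p ^ (2 * c) = (p ^ c) ^ 2 := by ring
      refine ⟨by rw [e, hx]; norm_num, ?_⟩
      rw [e, hx] at h
      omega
    · -- odd
      left
      subst hc
      obtain ⟨T, hT, e⟩ := odd_sum_aux' (p : ℤ) (by exact_mod_cast hpodd) c
      have hZ : ((p : ℤ)) ^ (2 * c + 1) = (2 : ℤ) ^ b + 1 := by exact_mod_cast h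
      have hdvd : T ∣ 2 ^ b := by
        have : (2 : ℤ) ^ b = (p - 1) * T := by rw [← e]; linarith
        rw [this]; exact Dvd.intro_left _ rfl
      have hT1 := odd_dvd_two_pow T hT b hdvd
      have hTpos : T = 1 := by
        rcases Int.natAbs_eq T with h6 | h6
        · rw [hT1] at h6; exact_mod_cast h6
        · rw [hT1] at h6
          exfalso
          rw [h6] at e
          have h8 : (p : ℤ) ^ (2 * c + 1) = (2 : ℤ) ^ b + 1 := hZ
          have h9 : (0 : ℤ) < (2 : ℤ) ^ b := by positivity
          have h7 : (1 : ℤ) ≤ (p : ℤ) - 1 := by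
            have : (2 : ℤ) ≤ p := by exact_mod_cast hp2
            linarith
          push_cast at e
          nlinarith
      rw [hTpos, mul_one] at e
      have e' : p ^ (2 * c + 1) = p := by
        have : (p : ℤ) ^ (2 * c + 1) = p := by linarith
        exact_mod_cast this
      have hc0 : c = 0 := by
        by_contra hne
        have h1 : p ^ 1 < p ^ (2 * c + 1) :=
          Nat.pow_lt_pow_right (by omega) (by omega)
        rw [pow_one] at h1
        omega
      subst hc0
      simp only [Nat.mul_zero, Nat.zero_add, pow_one] at h ⊢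
      refine ⟨trivial, trivial, ?_, h⟩
      rw [h] at hp
      exact Nat.pow_of_pow_add_prime (by omega) (by omega) hp

end Cfsg.Agent.S3784
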