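-- Statement S3788: a cyclic normal subgroup of a Sylow subgroup lies in O_{p',p}(G).
import Cfsg.Statements.S3788
import Cfsg.Agent.S3783
import Cfsg.Agent.Lib.PGroup.AxLemma
import Cfsg.Agent.Lib.Fusion.GlaubS4
import Cfsg.Agent.Lib.FrobThm.S4Free
import Cfsg.Agent.Lib.Transfer.Frat
import Mathlib

set_option autoImplicit false
open Cfsg

namespace Cfsg.Agent.S3788

open Subgroup Cfsg.Agent.Lib.Core Cfsg.Agent.Lib.PSolv Cfsg.Agent.S3783

section Step
variable {Γ : Type*} [Group Γ] [Finite Γ] {p : ℕ} [Fact p.Prime]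

/-- The Frattini argument for a subgroup normalized by `x`. -/
theorem frattini_lift {q : ℕ} [Fact q.Prime] (M : Subgroup Γ) (S : Sylow q M) {x : Γ}
    (hx : x ∈ normalizer (M : Set Γ)) :
    ∃ m ∈ M, m⁻¹ * x ∈ normalizer (((S : Subgroup M).map M.subtype : Subgroup Γ) : Set Γ) := by
  classical
  let φ : MulAut M := Cfsg.Agent.Lib.Hall.normalizerAut M hx
  have hφ : ∀ k : M, ((φ k : M) : Γ) = x * k * x⁻¹ := fun k => Cfsg.Agent.Lib.Hall.normalizerAut_coe M hx k
  obtain ⟨m, hm⟩ := MulAction.exists_smul_eq M S (φ • S)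
  refine ⟨m, m.2, ?_⟩
  apply Cfsg.Agent.Lib.Hall.mem_normalizer_of_conj_le
  rintro _ ⟨s, hs, rfl⟩
  have h1 : φ s ∈ ((φ • S : Sylow q M) : Subgroup M) := by
    rw [Sylow.pointwise_smul_def]
    exact Subgroup.smul_mem_pointwise_smul s φ _ hs
  rw [← hm, Sylow.smul_def, Sylow.pointwise_smul_def] at h1
  obtain ⟨s', hs', hs'e⟩ := (Subgroup.mem_smul_pointwise_iff_exists _ _ _).mp h1
  refine ⟨s', hs', ?_⟩
  have h2 : (m : Γ) * s' * (m : Γ)⁻¹ = x * s * x⁻¹ := by
    have := congrArg Subtype.val hs'e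
    rw [hφ] at this
    simpa [MulAut.smul_def, MulAut.conj_apply] using this
  show (s' : Γ) = (m : Γ)⁻¹ * x * s * ((m : Γ)⁻¹ * x)⁻¹
  calc (s' : Γ) = (m : Γ)⁻¹ * ((m : Γ) * s' * (m : Γ)⁻¹) * m := by group
    _ = (m : Γ)⁻¹ * (x * s * x⁻¹) * m := by rw [h2]
    _ = (m : Γ)⁻¹ * x * s * ((m : Γ)⁻¹ * x)⁻¹ := by group

/-- Centralizing a coprime subgroup from fixed commutators. -/
theorem odd_step {W S₁ : Subgroup Γ} [hWn : W.Normal] (hWc : ∀ a ∈ W, ∀ b ∈ W, a * b = b * a)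
    (hWpg : IsPGroup p W) (hCW : centralizer (W : Set Γ) ≤ W) {x₀ : Γ}
    (hx₀ : x₀ ∈ normalizer (S₁ : Set Γ)) (hS₁W : ∀ s ∈ S₁, s ∈ W → s = 1) (hcop : ¬ p ∣ Nat.card S₁)
    (hC : ∀ v ∈ W, ∀ s ∈ S₁, s * (x₀ * v * x₀⁻¹ * v⁻¹) * s⁻¹ = x₀ * v * x₀⁻¹ * v⁻¹) :
    ∀ s ∈ S₁, x₀ * s = s * x₀ := by
  classical
  haveI hcomm : IsMulCommutative W := ⟨⟨fun a b => Subtype.ext (hWc a a.2 b b.2)⟩⟩
  let act : Γ →* MulAut W := MulAut.conjNormal
  have hact : ∀ g (v : W), ((act g v : W) : Γ) = g * v * g⁻¹ := fun g v => MulAut.conjNormal_apply g v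
  letI : CommGroup W := IsMulCommutative.instCommGroup
  have hpow : Function.Injective (fun v : W => v ^ Nat.card S₁) := (hWpg.powEquiv' hcop).injective
  have hx₀1 : ∀ s ∈ S₁, x₀ * s * x₀⁻¹ ∈ S₁ := fun s hs => (Subgroup.mem_normalizer_iff.mp hx₀ s).mp hs
  have hx₀2 : ∀ s ∈ S₁, x₀⁻¹ * s * x₀ ∈ S₁ := fun s hs => by
    have := (Subgroup.mem_normalizer_iff.mp (Subgroup.inv_mem _ hx₀) s).mp hs
    simpa using this
  -- the kernel of the product is fixed by `x₀`
  have hker : ∀ v : W, T act S₁ v = 1 → act x₀ v = v := by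
    intro v hv
    have h1 : T act S₁ (act x₀ v) = 1 := by
      rw [T_conj act S₁ hx₀1 hx₀2, hv, map_one]
    set e' : W := act x₀ v * v⁻¹ with he'
    have he'coe : (e' : Γ) = x₀ * v * x₀⁻¹ * (v : Γ)⁻¹ := by
      rw [he']
      show ((act x₀ v : W) : Γ) * (v : Γ)⁻¹ = _
      rw [hact]
    have h2 : T act S₁ e' = 1 := by
      rw [he', T_mul, T_inv, h1, hv]
      simp
    have h3 : T act S₁ e' = e' ^ Nat.card S₁ := by
      apply T_of_fix
      intro s hs
      apply Subtype.ext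
      rw [hact, he'coe]
      exact hC v v.2 s hs
    rw [h3] at h2
    have h4 : e' = 1 := by
      apply hpow
      simpa using h2
    exact mul_inv_eq_one.mp h4
  intro s hs
  set c : Γ := x₀ * s * x₀⁻¹ * s⁻¹ with hc
  have hcS : c ∈ S₁ := S₁.mul_mem (hx₀1 s hs) (S₁.inv_mem hs)
  have hcact : ∀ v : W, act c v = v := by
    intro v
    set f := T act S₁ v with hf
    set g := v ^ Nat.card S₁ * f⁻¹ with hg
    have hTg : T act S₁ g = 1 := by
      rw [hg, T_mul, T_inv, T_pow, T_of_fix act S₁ f (fun s hs => T_fix act S₁ v hs)]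
      simp [hf]
    have h1 : act c f = f := T_fix act S₁ v hcS
    have hs2 : ∀ t ∈ S₁, s⁻¹ * t * s⁻¹⁻¹ ∈ S₁ := fun t ht =>
      S₁.mul_mem (S₁.mul_mem (S₁.inv_mem hs) ht) (S₁.inv_mem (S₁.inv_mem hs))
    have hs3 : ∀ t ∈ S₁, s⁻¹⁻¹ * t * s⁻¹ ∈ S₁ := fun t ht =>
      S₁.mul_mem (S₁.mul_mem (S₁.inv_mem (S₁.inv_mem hs)) ht) (S₁.inv_mem hs)
    have hg1 : T act S₁ (act s⁻¹ g) = 1 := by
      rw [T_conj act S₁ hs2 hs3, hTg, map_one]
    have hxg1 : act x₀ (act s⁻¹ g) = act s⁻¹ g := hker _ hg1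
    have hxg : act x₀ g = g := hker _ hTg
    have hxg1' : act x₀⁻¹ (act s⁻¹ g) = act s⁻¹ g := by
      conv_lhs => rw [← hxg1]
      rw [← MulAut.mul_apply, ← map_mul]
      simp
    have h2 : act c g = g := by
      have e1 : act c = act x₀ * act s * act x₀⁻¹ * act s⁻¹ := by
        rw [hc]
        simp only [map_mul]
      rw [e1]
      show act x₀ (act s (act x₀⁻¹ (act s⁻¹ g))) = g
      rw [hxg1']
      have h4 : act s (act s⁻¹ g) = g := by
        rw [← MulAut.mul_apply, ← map_mul, mul_inv_cancel, map_one, MulAut.one_apply]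
      rw [h4, hxg]
    apply hpow
    show (act c v) ^ Nat.card S₁ = v ^ Nat.card S₁
    have h3 : v ^ Nat.card S₁ = g * f := by rw [hg]; simp
    rw [← map_pow, h3, map_mul, h1, h2]
  have hcC : c ∈ centralizer (W : Set Γ) := by
    rw [Subgroup.mem_centralizer_iff]
    intro w hw
    have := congrArg Subtype.val (hcact ⟨w, hw⟩)
    rw [hact] at this
    have h5 : c * w * c⁻¹ = w := this
    calc w * c = (c * w * c⁻¹) * c := by rw [h5]
      _ = c * w := by group
  have hc1 : c = 1 := hS₁W c hcS (hCW hcC)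
  have h6 : x₀ * s * x₀⁻¹ = s := by
    rw [hc] at hc1
    exact mul_inv_eq_one.mp hc1
  calc x₀ * s = (x₀ * s * x₀⁻¹) * x₀ := by group
    _ = s * x₀ := by rw [h6]

/-- The power of a `q`-part. -/
theorem part_power {H : Type*} [Group H] {q : ℕ} (hq : q.Prime) (f : Γ →* H) (τ₀ : Γ) {b : ℕ} (hb : f τ₀ ^ q ^ b = 1) :
    ∃ n i : ℕ, (τ₀ ^ n) ^ q ^ i = 1 ∧ f (τ₀ ^ n) = f τ₀ := by
  obtain ⟨a, m, hm, hord⟩ := Nat.exists_eq_pow_mul_and_not_dvd (orderOf_pos τ₀).ne' q hq.ne_one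
  have hmc : (q ^ b).Coprime m :=
    Nat.Coprime.pow_left b ((Nat.Prime.coprime_iff_not_dvd hq).mpr hm)
  by_cases hk1 : q ^ b = 1
  · rw [hk1, pow_one] at hb
    refine ⟨m, a, ?_, ?_⟩
    · rw [← pow_mul, mul_comm, ← hord, pow_orderOf_eq_one]
    · rw [map_pow, hb, one_pow]
  have hk2 : 1 < q ^ b := by
    have := Nat.pos_of_ne_zero (pow_ne_zero b hq.ne_zero)
    omega
  obtain ⟨w, hw⟩ := Nat.exists_mul_mod_eq_one_of_coprime hmc.symm hk2
  refine ⟨m * w, a, ?_, ?_⟩
  · rw [← pow_mul, show m * w * q ^ a = (q ^ a * m) * w by ring, ← hord, pow_mul, pow_orderOf_eq_one, one_pow]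
  · rw [map_pow, pow_eq_pow_mod _ hb, hw.2, pow_one]

/-- **The main lemma in the Frattini quotient.** -/
theorem lemmaO (hstep : PStep p Γ)
    (hWc : ∀ a ∈ pCore p Γ, ∀ b ∈ pCore p Γ, a * b = b * a)
    (hWp : ∀ w ∈ pCore p Γ, w ^ p = 1)
    (hCW : centralizer (pCore p Γ : Set Γ) ≤ pCore p Γ)
    (x : Γ) (hxp : ∃ k, x ^ p ^ k = 1)
    (hcomm : ∀ w ∈ pCore p Γ, x * w * x⁻¹ * w⁻¹ ∈ zpowers x)
    (h : p ≠ 2 ∨ ¬ Involves (Equiv.Perm (Fin 4)) Γ) : x ∈ pCore p Γ := by
  classical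
  have hp : p.Prime := Fact.out
  by_contra hxW
  set W := pCore p Γ with hW
  haveI hWn : W.Normal := pCore_normal p Γ
  have hWpg : IsPGroup p W := pCore_isPGroup p Γ
  -- the commutator map
  let e : Γ → Γ := fun w => x * w * x⁻¹ * w⁻¹
  have hedef : ∀ w, e w = x * w * x⁻¹ * w⁻¹ := fun w => rfl
  have heW : ∀ w ∈ W, e w ∈ W := fun w hw => W.mul_mem (hWn.conj_mem w hw x) (W.inv_mem hw)
  have hex : ∀ w ∈ W, Commute x (e w) := by
    intro w hw
    obtain ⟨k, hk⟩ := hcomm w hw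
    have h1 : e w = x ^ k := hk.symm
    rw [h1]
    exact (Commute.refl x).zpow_right k
  have hxw : ∀ w ∈ W, x * w * x⁻¹ = w * e w := by
    intro w hw
    have h1 := hWc _ (heW w hw) _ hw
    rw [← h1, hedef]
    group
  have hpow : ∀ w ∈ W, ∀ i : ℕ, x ^ i * w * (x ^ i)⁻¹ = w * e w ^ i := by
    intro w hw i
    induction i with
    | zero => simp
    | succ i ih =>
      have h1 : x * e w ^ i * x⁻¹ = e w ^ i := by
        rw [((hex w hw).pow_right i).eq]
        group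
      calc x ^ (i + 1) * w * (x ^ (i + 1))⁻¹ = x * (x ^ i * w * (x ^ i)⁻¹) * x⁻¹ := by
            rw [pow_succ']
            group
        _ = x * (w * e w ^ i) * x⁻¹ := by rw [ih]
        _ = (x * w * x⁻¹) * (x * e w ^ i * x⁻¹) := by group
        _ = w * e w * e w ^ i := by rw [hxw w hw, h1]
        _ = w * e w ^ (i + 1) := by rw [pow_succ', mul_assoc]
  have hupW : x ^ p ∈ W := by
    apply hCW
    rw [Subgroup.mem_centralizer_iff]
    intro w hw
    have h1 := hpow w hw p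
    rw [hWp _ (heW w hw), mul_one] at h1
    calc w * x ^ p = (x ^ p * w * (x ^ p)⁻¹) * x ^ p := by rw [h1]
      _ = x ^ p * w := by group
  -- elements of `⟨x⟩ ∩ W` lie in `⟨x ^ p⟩`
  have hS4 : ∀ y ∈ zpowers x, y ∈ W → y ∈ zpowers (x ^ p) := by
    intro y hy hyW
    obtain ⟨n, rfl⟩ := (mem_powers_iff_mem_zpowers.mpr hy)
    by_cases hd : p ∣ n
    · obtain ⟨t, rfl⟩ := hd
      simp only
      rw [pow_mul]
      exact npow_mem_zpowers _ t
    · exfalso
      apply hxW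
      have hc : n.Coprime p := ((Nat.Prime.coprime_iff_not_dvd hp).mpr hd).symm
      obtain ⟨w, hw⟩ := Nat.exists_mul_mod_eq_one_of_coprime hc hp.one_lt
      have h1 : (x ^ n) ^ w = x * (x ^ p) ^ (n * w / p) := by
        rw [← pow_mul, ← pow_mul]
        conv_lhs => rw [← Nat.mod_add_div (n * w) p, hw.2, pow_add, pow_one]
      have h2 : x = (x ^ n) ^ w * ((x ^ p) ^ (n * w / p))⁻¹ := by
        rw [h1]
        group
      rw [h2]
      exact W.mul_mem (W.pow_mem hyW _) (W.inv_mem (W.pow_mem hupW _))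
  have heu : ∀ w ∈ W, e w ∈ zpowers (x ^ p) := fun w hw => hS4 _ (hcomm w hw) (heW w hw)
  have hu1 : x ^ p ≠ 1 := by
    intro hu
    apply hxW
    apply hCW
    rw [Subgroup.mem_centralizer_iff]
    intro w hw
    have h1 := heu w hw
    rw [hu, Subgroup.zpowers_one_eq_bot, Subgroup.mem_bot] at h1
    have h2 : x * w * x⁻¹ = w := by
      have := hxw w hw
      rwa [h1, mul_one] at this
    calc w * x = (x * w * x⁻¹) * x := by rw [h2]
      _ = x * w := by group
  -- the quotient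
  let π := QuotientGroup.mk' W
  have hπ : Function.Surjective π := QuotientGroup.mk'_surjective W
  have hπW : ∀ g, π g = 1 ↔ g ∈ W := fun g => QuotientGroup.eq_one_iff g
  have hx1 : π x ≠ 1 := fun h => hxW ((hπW x).mp h)
  have hxbp : π x ^ p = 1 := by
    rw [← map_pow]
    exact (hπW _).mpr hupW
  have hO : pCore p (Γ ⧸ W) = ⊥ := pCore_quotient_pCore_eq_bot
  have hstepb : PStep p (Γ ⧸ W) := hstep.quotient W
  set U := pPrimeCore p (Γ ⧸ W) with hU
  haveI hUn : U.Normal := pPrimeCore_normal p (Γ ⧸ W)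
  have hUc : (Nat.card U).Coprime p := pPrimeCore_coprime p (Γ ⧸ W)
  have hzU : ¬ U ≤ centralizer ({π x} : Set (Γ ⧸ W)) := by
    intro hle
    have hzc : π x ∈ centralizer (U : Set (Γ ⧸ W)) := by
      rw [Subgroup.mem_centralizer_iff]
      intro u hu
      have := hle hu
      rw [Subgroup.mem_centralizer_singleton_iff] at this
      exact this
    have hzU := Cfsg.Agent.Lib.PGroup.AxLemma.centralizer_pPrimeCore_le hstepb hO hzc
    apply hx1
    have h1 : π x ^ Nat.card U = 1 := by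
      have := congrArg Subtype.val (pow_card_eq_one' (x := (⟨π x, hzU⟩ : U)))
      exact this
    exact Cfsg.Agent.Lib.FStar.eq_one_of_pow_of_coprime (p := p) (n := 1) (by simpa using hxbp) h1 hUc
  have hAU : zpowers (π x) ≤ normalizer (U : Set (Γ ⧸ W)) := by
    rw [Subgroup.normalizer_eq_top_iff.mpr hUn]
    exact le_top
  have hcopA : (Nat.card (zpowers (π x))).Coprime (Nat.card U) := by
    rw [Nat.card_zpowers]
    exact Nat.Coprime.coprime_dvd_left (orderOf_dvd_of_pow_eq_one hxbp) hUc.symm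
  have hsol : Group.IsSolvable (zpowers (π x)) ∨ Group.IsSolvable U := Or.inl inferInstance
  have hex' : ∃ (q : ℕ) (_ : Fact q.Prime) (Q : Sylow q U),
      zpowers (π x) ≤ normalizer (((Q : Subgroup U).map U.subtype : Subgroup (Γ ⧸ W)) : Set (Γ ⧸ W)) ∧
        ¬ (Q : Subgroup U).map U.subtype ≤ centralizer ({π x} : Set (Γ ⧸ W)) := by
    by_contra hno
    push Not at hno
    exact hzU (Cfsg.Agent.Lib.PGroup.AxLemma.le_of_invariant_sylows hAU hcopA hsol
      (fun q inst P hP => hno q inst P hP))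
  obtain ⟨q, hqf, Q, hQn, hQc⟩ := hex'
  have hq : q.Prime := Fact.out
  set Sb : Subgroup (Γ ⧸ W) := (Q : Subgroup U).map U.subtype with hSb
  have hSbp : IsPGroup q Sb := Q.isPGroup'.map U.subtype
  have hqp : q ≠ p := by
    intro e'
    subst e'
    apply hQc
    rintro _ ⟨u, hu, rfl⟩
    obtain ⟨k, hk⟩ := Q.isPGroup' ⟨u, hu⟩
    have h1 : ((u : Γ ⧸ W)) ^ q ^ k = 1 := by
      have := congrArg (fun t => ((t : Q) : U)) hk
      have := congrArg Subtype.val this
      simpa using this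
    have h2 : (u : Γ ⧸ W) ^ Nat.card U = 1 := by
      have := congrArg Subtype.val (pow_card_eq_one' (x := u))
      exact this
    have h3 := Cfsg.Agent.Lib.FStar.eq_one_of_pow_of_coprime (p := q) h1 h2 hUc
    show (u : Γ ⧸ W) ∈ _
    rw [h3]
    exact Subgroup.one_mem _
  have hxS : ∀ s ∈ Sb, π x * s * (π x)⁻¹ ∈ Sb := fun s hs =>
    (Subgroup.mem_normalizer_iff.mp (hQn (mem_zpowers _)) s).mp hs
  obtain ⟨sb, hsb, hsbc⟩ := SetLike.not_le_iff_exists.mp hQc
  rw [Subgroup.mem_centralizer_singleton_iff] at hsbc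
  rcases eq_or_ne p 2 with hp2 | hp2
  · -- the prime two
    subst hp2
    have hinv : ¬ Involves (Equiv.Perm (Fin 4)) Γ := h.resolve_left (fun h => h rfl)
    apply hinv
    obtain ⟨g, rfl⟩ := hπ sb
    set τ₀ := x * (g * x * g⁻¹)⁻¹ with hτ₀
    have hτb : π τ₀ ∈ Sb := by
      have e1 : π τ₀ = (π x * π g * (π x)⁻¹) * (π g)⁻¹ := by
        rw [hτ₀]
        simp only [map_mul, map_inv]
        group
      rw [e1]
      exact Sb.mul_mem (hxS _ hsb) (Sb.inv_mem hsb)
    have hτ1 : π τ₀ ≠ 1 := by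
      intro h1
      apply hsbc
      have e1 : π τ₀ = (π x * π g * (π x)⁻¹) * (π g)⁻¹ := by
        rw [hτ₀]
        simp only [map_mul, map_inv]
        group
      rw [e1] at h1
      have h2 : π x * π g * (π x)⁻¹ = π g := mul_inv_eq_one.mp h1
      calc π g * π x = (π x * π g * (π x)⁻¹) * π x := by rw [h2]
        _ = π x * π g := by group
    obtain ⟨b, hb⟩ := hSbp ⟨π τ₀, hτb⟩
    have hb' : π τ₀ ^ q ^ b = 1 := by
      have := congrArg Subtype.val hb
      simpa using this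
    obtain ⟨n, i, hn1, hn2⟩ := part_power hq π τ₀ hb'
    obtain ⟨k, hk⟩ := hxp
    refine Cfsg.Agent.Lib.Fusion.involves_of_two_valued (W := W) hWc (a := x) (u := x ^ 2) (g := g)
      (τ := τ₀ ^ n) (i := i) (j := k) (q := q) hupW hu1 ?_ ?_ ?_ hk ?_ hq (fun h => hqp h) hn1 ?_
    · rw [← pow_two]
      exact hWp _ hupW
    · exact (Commute.refl x).pow_right 2 |>.eq
    · intro w hw
      obtain ⟨j, hj⟩ := heu w hw
      have hu2 : (x ^ 2) ^ 2 = 1 := hWp _ hupW
      rcases Int.even_or_odd' j with ⟨t, rfl | rfl⟩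
      · left
        have h1 : e w = 1 := by
          rw [← hj]
          show (x ^ 2) ^ (2 * t) = 1
          rw [zpow_mul]
          have : (x ^ 2) ^ (2 : ℤ) = 1 := by exact_mod_cast hu2
          rw [this, one_zpow]
        exact h1
      · right
        have h1 : e w = x ^ 2 := by
          rw [← hj]
          show (x ^ 2) ^ (2 * t + 1) = x ^ 2
          rw [zpow_add, zpow_mul]
          have : (x ^ 2) ^ (2 : ℤ) = 1 := by exact_mod_cast hu2
          rw [this, one_zpow]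
          simp
        exact h1
    · apply Subgroup.pow_mem
      rw [hτ₀]
      exact Subgroup.mul_mem _ (Subgroup.mem_sup_left (mem_zpowers x))
        (Subgroup.inv_mem _ (Subgroup.mem_sup_right (mem_zpowers _)))
    · intro hc
      have h1 := hCW hc
      have h2 := (hπW _).mpr h1
      rw [hn2] at h2
      exact hτ1 h2
  · -- odd primes
    have hp3 : 2 < p := lt_of_le_of_ne hp.two_le (Ne.symm hp2)
    set M : Subgroup Γ := Sb.comap π with hM
    have hxM : x ∈ normalizer (M : Set Γ) := by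
      apply Cfsg.Agent.Lib.Hall.mem_normalizer_of_conj_le
      intro m hm
      show π (x * m * x⁻¹) ∈ Sb
      rw [map_mul, map_mul, map_inv]
      exact hxS _ hm
    obtain ⟨S₀⟩ : Nonempty (Sylow q M) := inferInstance
    set S₁ : Subgroup Γ := (S₀ : Subgroup M).map M.subtype with hS₁
    obtain ⟨m, hm, hmn⟩ := frattini_lift M S₀ hxM
    -- `M = W S₀`
    have hsup : W.subgroupOf M ⊔ (S₀ : Subgroup M) = ⊤ := by
      have h1 : (W.subgroupOf M ⊔ (S₀ : Subgroup M)).index ∣ (S₀ : Subgroup M).index :=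
        Subgroup.index_dvd_of_le le_sup_right
      have h2 : (W.subgroupOf M ⊔ (S₀ : Subgroup M)).index ∣ (W.subgroupOf M).index :=
        Subgroup.index_dvd_of_le le_sup_left
      have h3 : (W.subgroupOf M).index = Nat.card Sb := by
        have e1 : W = (⊥ : Subgroup (Γ ⧸ W)).comap π := by
          rw [MonoidHom.comap_bot, QuotientGroup.ker_mk']
        have e2 : W.relIndex M = ((⊥ : Subgroup (Γ ⧸ W)).comap π).relIndex M := by rw [← e1]
        show W.relIndex M = _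
        rw [e2, Subgroup.relIndex_comap, hM, Subgroup.map_comap_eq_self_of_surjective hπ,
          Subgroup.relIndex_bot_left]
      obtain ⟨k, hk⟩ := IsPGroup.iff_card.mp hSbp
      rw [h3, hk] at h2
      obtain ⟨l, -, hl⟩ := (Nat.dvd_prime_pow hq).mp h2
      have hl0 : l = 0 := by
        by_contra hl0
        apply S₀.not_dvd_index
        refine dvd_trans ?_ h1
        rw [hl]
        exact dvd_pow_self q hl0
      rw [hl0, pow_zero] at hl
      exact Subgroup.index_eq_one.mp hl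
    have hdecomp : ∀ m ∈ M, ∃ h ∈ W, ∃ s ∈ S₁, m = h * s := by
      intro m hm
      have h1 : (⟨m, hm⟩ : M) ∈ W.subgroupOf M ⊔ (S₀ : Subgroup M) := by
        rw [hsup]
        exact Subgroup.mem_top _
      haveI : (W.subgroupOf M).Normal := inferInstance
      obtain ⟨h, hh, s, hs, hhs⟩ := Subgroup.mem_sup_of_normal_left.mp h1
      exact ⟨h, hh, s, ⟨s, hs, rfl⟩, congrArg Subtype.val hhs.symm⟩
    obtain ⟨h₀, hh₀, s₀, hs₀, rfl⟩ := hdecomp m hm
    obtain ⟨x₀, hx₀def⟩ : ∃ x₀, x₀ = h₀⁻¹ * x := ⟨_, rfl⟩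
    have hx₀n : x₀ ∈ normalizer (S₁ : Set Γ) := by
      have e1 : x₀ = s₀ * ((h₀ * s₀)⁻¹ * x) := by
        rw [hx₀def]
        group
      rw [e1]
      exact Subgroup.mul_mem _ (Subgroup.le_normalizer hs₀) hmn
    have hxx₀ : x = h₀ * x₀ := by
      rw [hx₀def]
      group
    have hπx₀ : π x₀ = π x := by
      rw [hx₀def, map_mul, map_inv, (hπW _).mpr hh₀]
      simp
    have hact : ∀ w ∈ W, x₀ * w * x₀⁻¹ = x * w * x⁻¹ := by
      intro w hw
      have h1 := hWn.conj_mem w hw x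
      have h2 := hWc _ hh₀ _ h1
      rw [hx₀def]
      calc h₀⁻¹ * x * w * (h₀⁻¹ * x)⁻¹ = h₀⁻¹ * ((x * w * x⁻¹) * h₀) := by group
        _ = h₀⁻¹ * (h₀ * (x * w * x⁻¹)) := by rw [h2]
        _ = x * w * x⁻¹ := by group
    have hS₁q : IsPGroup q S₁ := S₀.isPGroup'.map M.subtype
    have hpq : p.Coprime q := (Nat.coprime_primes hp hq).2 hqp.symm
    have hS₁W : ∀ s ∈ S₁, s ∈ W → s = 1 := by
      intro s hs hsW
      obtain ⟨k₁, hk₁⟩ := hS₁q ⟨s, hs⟩
      have h1 : s ^ q ^ k₁ = 1 := by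
        have := congrArg Subtype.val hk₁
        simpa using this
      have h2 : s ^ p = 1 := hWp s hsW
      have h3 : orderOf s ∣ Nat.gcd p (q ^ k₁) :=
        Nat.dvd_gcd (orderOf_dvd_of_pow_eq_one h2) (orderOf_dvd_of_pow_eq_one h1)
      rw [Nat.Coprime.pow_right k₁ hpq] at h3
      exact orderOf_eq_one_iff.mp (Nat.dvd_one.mp h3)
    have hcopS : ¬ p ∣ Nat.card S₁ := by
      obtain ⟨k, hk⟩ := IsPGroup.iff_card.mp hS₁q
      rw [hk]
      intro hd
      exact hqp ((Nat.prime_dvd_prime_iff_eq hp hq).mp (hp.dvd_of_dvd_pow hd)).symm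
    have hyW : x₀ ^ p ∈ W := (hπW _).mp (by rw [map_pow, hπx₀, hxbp])
    have hyS : ∀ s ∈ S₁, x₀ ^ p * s = s * x₀ ^ p := by
      intro s hs
      have hyn : x₀ ^ p ∈ normalizer (S₁ : Set Γ) := Subgroup.pow_mem _ hx₀n p
      have h1 : x₀ ^ p * s * (x₀ ^ p)⁻¹ ∈ S₁ := (Subgroup.mem_normalizer_iff.mp hyn s).mp hs
      have h2 : x₀ ^ p * s * (x₀ ^ p)⁻¹ * s⁻¹ ∈ S₁ := S₁.mul_mem h1 (S₁.inv_mem hs)
      have h3 : x₀ ^ p * s * (x₀ ^ p)⁻¹ * s⁻¹ ∈ W := by
        have e1 : x₀ ^ p * s * (x₀ ^ p)⁻¹ * s⁻¹ = x₀ ^ p * (s * (x₀ ^ p)⁻¹ * s⁻¹) := by group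
        rw [e1]
        exact W.mul_mem hyW (hWn.conj_mem _ (W.inv_mem hyW) s)
      have h4 := hS₁W _ h2 h3
      have h5 : x₀ ^ p * s * (x₀ ^ p)⁻¹ = s := mul_inv_eq_one.mp h4
      calc x₀ ^ p * s = (x₀ ^ p * s * (x₀ ^ p)⁻¹) * x₀ ^ p := by group
        _ = s * x₀ ^ p := by rw [h5]
    have hpow0 : ∀ w ∈ W, ∀ n : ℕ, x₀ ^ n * w * (x₀ ^ n)⁻¹ = w * e w ^ n := by
      intro w hw n
      induction n with
      | zero => simp
      | succ n ih =>
        have h1 : x * e w ^ n * x⁻¹ = e w ^ n := by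
          rw [((hex w hw).pow_right n).eq]
          group
        calc x₀ ^ (n + 1) * w * (x₀ ^ (n + 1))⁻¹ = x₀ * (x₀ ^ n * w * (x₀ ^ n)⁻¹) * x₀⁻¹ := by
              rw [pow_succ']
              group
          _ = x₀ * (w * e w ^ n) * x₀⁻¹ := by rw [ih]
          _ = x * (w * e w ^ n) * x⁻¹ := hact _ (W.mul_mem hw (W.pow_mem (heW w hw) n))
          _ = (x * w * x⁻¹) * (x * e w ^ n * x⁻¹) := by group
          _ = w * e w * e w ^ n := by rw [hxw w hw, h1]
          _ = w * e w ^ (n + 1) := by rw [pow_succ', mul_assoc]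
    obtain ⟨E, hE⟩ : ∃ E, E = e h₀ := ⟨_, rfl⟩
    have hEW : E ∈ W := hE ▸ heW h₀ hh₀
    have hform : ∀ n : ℕ, (h₀ * x₀) ^ n = h₀ ^ n * E ^ (n.choose 2) * x₀ ^ n := by
      intro n
      induction n with
      | zero => simp
      | succ n ih =>
        have h1 := hpow0 h₀ hh₀ n
        rw [← hE] at h1
        have h2 : x₀ ^ n * h₀ = h₀ * E ^ n * x₀ ^ n := by
          rw [← h1]
          group
        have hc : E ^ (n.choose 2) * h₀ = h₀ * E ^ (n.choose 2) :=
          (Commute.pow_left (show Commute E h₀ from hWc _ hEW _ hh₀) _).eq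
        have e3 : (n + 1).choose 2 = n.choose 2 + n := by
          have := Nat.choose_succ_succ' n 1
          rw [Nat.choose_one_right] at this
          rw [this]
          ring
        calc (h₀ * x₀) ^ (n + 1) = (h₀ * x₀) ^ n * (h₀ * x₀) := pow_succ _ _
          _ = h₀ ^ n * E ^ (n.choose 2) * x₀ ^ n * (h₀ * x₀) := by rw [ih]
          _ = h₀ ^ n * E ^ (n.choose 2) * (x₀ ^ n * h₀) * x₀ := by simp only [mul_assoc]
          _ = h₀ ^ n * E ^ (n.choose 2) * (h₀ * E ^ n * x₀ ^ n) * x₀ := by rw [h2]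
          _ = h₀ ^ n * (E ^ (n.choose 2) * h₀) * E ^ n * (x₀ ^ n * x₀) := by simp only [mul_assoc]
          _ = h₀ ^ n * (h₀ * E ^ (n.choose 2)) * E ^ n * (x₀ ^ n * x₀) := by rw [hc]
          _ = h₀ ^ (n + 1) * E ^ ((n + 1).choose 2) * x₀ ^ (n + 1) := by
              rw [e3, pow_add E, pow_succ h₀, pow_succ x₀]
              simp only [mul_assoc]
    have hxp₀ : x ^ p = x₀ ^ p := by
      have h1 : x ^ p = (h₀ * x₀) ^ p := by rw [← hxx₀]
      rw [h1, hform p, hWp _ hh₀, one_mul]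
      obtain ⟨t, ht⟩ := hp.dvd_choose_self (k := 2) (by norm_num) hp3
      rw [ht, pow_mul, hWp _ hEW, one_pow, one_mul]
    have hC : ∀ v ∈ W, ∀ s ∈ S₁, s * (x₀ * v * x₀⁻¹ * v⁻¹) * s⁻¹ = x₀ * v * x₀⁻¹ * v⁻¹ := by
      intro v hv s hs
      have h1 : x₀ * v * x₀⁻¹ * v⁻¹ = e v := by rw [hact v hv, hedef]
      rw [h1]
      obtain ⟨j, hj⟩ := heu v hv
      have hc1 : Commute s (x ^ p) := by
        rw [hxp₀]
        exact (hyS s hs).symm
      have hc2 : Commute s (e v) := by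
        rw [← hj]
        exact hc1.zpow_right j
      rw [hc2.eq]
      group
    have hcen := odd_step (W := W) hWc hWpg hCW hx₀n hS₁W hcopS hC
    obtain ⟨m₁, rfl⟩ := hπ sb
    obtain ⟨h₁, hh₁, s₁, hs₁, rfl⟩ := hdecomp m₁ hsb
    apply hsbc
    rw [map_mul, (hπW _).mpr hh₁, one_mul]
    have h1 := congrArg π (hcen s₁ hs₁)
    rw [map_mul, map_mul, hπx₀] at h1
    exact h1.symm

end Step

section Main
variable {G : Type*} [Group G] [Finite G] {p : ℕ} [Fact p.Prime]

theorem main_core (hstep : PStep p G) (hO : pPrimeCore p G = ⊥) (P : Sylow p G) (A : Subgroup G)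
    (hAP : A ≤ (P : Subgroup G)) (hAn : (P : Subgroup G) ≤ Subgroup.normalizer (A : Set G))
    (hA : IsCyclic A) (h : p ≠ 2 ∨ ¬ Involves (Equiv.Perm (Fin 4)) G) : A ≤ pCore p G := by
  classical
  have hp : p.Prime := Fact.out
  set Q := pCore p G with hQ
  haveI hQn : Q.Normal := pCore_normal p G
  have hQp : IsPGroup p Q := pCore_isPGroup p G
  let F : Subgroup G := (frattini Q).map Q.subtype
  haveI hFn : F.Normal := inferInstance
  have hFQ : F ≤ Q := Subgroup.map_subtype_le _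
  have hFp : IsPGroup p F := hQp.to_le hFQ
  let π₁ := QuotientGroup.mk' F
  have hπ₁ : Function.Surjective π₁ := QuotientGroup.mk'_surjective F
  have hπF : ∀ g, π₁ g = 1 ↔ g ∈ F := fun g => QuotientGroup.eq_one_iff g
  have hcore : pCore p (G ⧸ F) = Q.map π₁ := by
    apply le_antisymm
    · have hker : IsPGroup p π₁.ker := by
        rw [QuotientGroup.ker_mk']
        exact hFp
      have hpg : IsPGroup p ((pCore p (G ⧸ F)).comap π₁) :=
        IsPGroup.comap_of_ker_isPGroup (pCore_isPGroup p (G ⧸ F)) π₁ hker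
      have hcn : ((pCore p (G ⧸ F)).comap π₁).Normal := (pCore_normal p (G ⧸ F)).comap π₁
      have h1 : (pCore p (G ⧸ F)).comap π₁ ≤ Q := le_pCore hcn hpg
      calc pCore p (G ⧸ F) = ((pCore p (G ⧸ F)).comap π₁).map π₁ :=
            (Subgroup.map_comap_eq_self_of_surjective hπ₁ _).symm
        _ ≤ Q.map π₁ := Subgroup.map_mono h1
    · exact map_pCore_le_of_surjective π₁ hπ₁
  have hcommQ : ∀ a ∈ Q, ∀ b ∈ Q, π₁ a * π₁ b = π₁ b * π₁ a := by
    intro a ha b hb
    have h1 : (⟨a, ha⟩ : Q) * ⟨b, hb⟩ * (⟨a, ha⟩ : Q)⁻¹ * (⟨b, hb⟩ : Q)⁻¹ ∈ commutator Q := by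
      rw [commutator_def]
      exact Subgroup.commutator_mem_commutator (Subgroup.mem_top _) (Subgroup.mem_top _)
    have h2 := Cfsg.Agent.Lib.Transfer.commutator_le_frattini hQp h1
    have h3 : a * b * a⁻¹ * b⁻¹ ∈ F := ⟨_, h2, rfl⟩
    have h4 := (hπF _).mpr h3
    simp only [map_mul, map_inv] at h4
    have h5 : π₁ a * π₁ b * (π₁ a)⁻¹ = π₁ b := mul_inv_eq_one.mp h4
    calc π₁ a * π₁ b = (π₁ a * π₁ b * (π₁ a)⁻¹) * π₁ a := by group
      _ = π₁ b * π₁ a := by rw [h5]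
  have hCW : centralizer (pCore p (G ⧸ F) : Set (G ⧸ F)) ≤ pCore p (G ⧸ F) := by
    rw [hcore]
    haveI hQmn : (Q.map π₁).Normal := hQn.map π₁ hπ₁
    have hCn : ((centralizer ((Q.map π₁ : Subgroup (G ⧸ F)) : Set (G ⧸ F))).comap π₁).Normal := Subgroup.Normal.comap inferInstance π₁
    have hCp : IsPGroup p ((centralizer ((Q.map π₁ : Subgroup (G ⧸ F)) : Set (G ⧸ F))).comap π₁) := by
      intro c
      obtain ⟨a, m, hm, hord⟩ := Nat.exists_eq_pow_mul_and_not_dvd (orderOf_pos (c : G)).ne' p hp.ne_one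
      set d : G := (c : G) ^ p ^ a with hd
      have hdm : d ^ m = 1 := by
        rw [hd, ← pow_mul, ← hord, pow_orderOf_eq_one]
      have hmc : m.Coprime p := ((Nat.Prime.coprime_iff_not_dvd hp).mpr hm).symm
      have hdC : d ∈ (centralizer ((Q.map π₁ : Subgroup (G ⧸ F)) : Set (G ⧸ F))).comap π₁ := Subgroup.pow_mem _ c.2 _
      have hdcen : zpowers d ≤ centralizer (Q : Set G) := by
        apply Cfsg.Agent.Lib.Hall.le_centralizer_of_frattini (zpowers d) Q
        · rw [Subgroup.normalizer_eq_top_iff.mpr hQn]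
          exact le_top
        · rw [Nat.card_zpowers]
          obtain ⟨k, hk⟩ := IsPGroup.iff_card.mp (IsPGroup.to_subgroup hQp (frattini Q))
          rw [hk]
          exact Nat.Coprime.coprime_dvd_left (orderOf_dvd_of_pow_eq_one hdm) (hmc.pow_right k)
        · intro g hg k hk
          have hgC : g ∈ (centralizer ((Q.map π₁ : Subgroup (G ⧸ F)) : Set (G ⧸ F))).comap π₁ := by
            obtain ⟨i, rfl⟩ := hg
            exact Subgroup.zpow_mem _ hdC i
          have h1 := (Subgroup.mem_centralizer_iff.mp hgC) (π₁ k) ⟨k, hk, rfl⟩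
          apply (hπF _).mp
          simp only [map_mul, map_inv]
          have h2 : π₁ k * π₁ g = π₁ g * π₁ k := h1
          rw [← h2]
          group
      have hdP : d ∈ Q := centralizer_pCore_le hstep hO (hdcen (mem_zpowers d))
      obtain ⟨b, hb⟩ := hQp ⟨d, hdP⟩
      have hb' : d ^ p ^ b = 1 := by
        have := congrArg Subtype.val hb
        simpa using this
      have hd1 : d = 1 := Cfsg.Agent.Lib.FStar.eq_one_of_pow_of_coprime (p := p) hb' hdm hmc
      exact ⟨a, Subtype.ext hd1⟩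
    have hle := le_pCore hCn hCp
    intro g hg
    obtain ⟨g₀, rfl⟩ := hπ₁ g
    exact ⟨g₀, hle hg, rfl⟩
  obtain ⟨a, ha⟩ := IsCyclic.exists_generator (α := A)
  have hamem : ∀ y ∈ A, ∃ j : ℤ, (a : G) ^ j = y := by
    intro y hy
    obtain ⟨j, hj⟩ := Subgroup.mem_zpowers_iff.mp (ha ⟨y, hy⟩)
    refine ⟨j, ?_⟩
    have := congrArg Subtype.val hj
    simpa using this
  have hmain : π₁ (a : G) ∈ pCore p (G ⧸ F) := by
    apply lemmaO (hstep.quotient F)
    · intro u hu v hv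
      rw [hcore] at hu hv
      obtain ⟨k₁, hk₁, rfl⟩ := hu
      obtain ⟨k₂, hk₂, rfl⟩ := hv
      exact hcommQ k₁ hk₁ k₂ hk₂
    · intro w hw
      rw [hcore] at hw
      obtain ⟨k, hk, rfl⟩ := hw
      have h1 := Cfsg.Agent.Lib.Transfer.pow_mem_frattini hQp (⟨k, hk⟩ : Q)
      have h2 : k ^ p ∈ F := ⟨_, h1, rfl⟩
      rw [← map_pow]
      exact (hπF _).mpr h2
    · exact hCW
    · obtain ⟨k, hk⟩ := P.isPGroup' ⟨a, hAP a.2⟩
      refine ⟨k, ?_⟩
      have h1 : (a : G) ^ p ^ k = 1 := by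
        have := congrArg Subtype.val hk
        simpa using this
      rw [← map_pow, h1, map_one]
    · intro w hw
      rw [hcore] at hw
      obtain ⟨k, hk, rfl⟩ := hw
      have hkP : k ∈ (P : Subgroup G) := pCore_le_sylow P hk
      have h1 : k * (a : G)⁻¹ * k⁻¹ ∈ A :=
        (Subgroup.mem_normalizer_iff.mp (hAn hkP) _).mp (A.inv_mem a.2)
      have h2 : (a : G) * k * (a : G)⁻¹ * k⁻¹ ∈ A := by
        have e1 : (a : G) * k * (a : G)⁻¹ * k⁻¹ = (a : G) * (k * (a : G)⁻¹ * k⁻¹) := by group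
        rw [e1]
        exact A.mul_mem a.2 h1
      obtain ⟨j, hj⟩ := hamem _ h2
      refine ⟨j, ?_⟩
      show (π₁ a) ^ j = π₁ a * π₁ k * (π₁ a)⁻¹ * (π₁ k)⁻¹
      rw [← map_zpow, hj]
      simp only [map_mul, map_inv]
    · rcases h with h | h
      · exact Or.inl h
      · exact Or.inr (Cfsg.Agent.Lib.FrobThm.Rel.not_involves_quotient h F)
  rw [hcore] at hmain
  obtain ⟨k, hk, hke⟩ := hmain
  have haQ : (a : G) ∈ Q := by
    have h1 : k⁻¹ * a ∈ F := QuotientGroup.eq.mp hke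
    have h2 := Q.mul_mem hk (hFQ h1)
    simpa using h2
  intro y hy
  obtain ⟨j, rfl⟩ := hamem y hy
  exact Q.zpow_mem haQ j

end Main

/-- Let G be a finite p-soluble group, P a Sylow p-subgroup of G and A a cyclic normal subgroup of P. If p is odd, or if no section of G is isomorphic to the symmetric group of degree 4, then A ≤ O_{p',p}(G). -/
theorem result {G : Type*} [Group G] [Finite G] {p : ℕ} [Fact p.Prime] (hG : Cfsg.IsPSolvable p G) (P : Sylow p G) (A : Subgroup G) (hAP : A ≤ (P : Subgroup G)) (hAn : (P : Subgroup G) ≤ Subgroup.normalizer (A : Set G)) (hA : IsCyclic A) (h : p ≠ 2 ∨ ¬ Cfsg.Involves (Equiv.Perm (Fin 4)) G) : A ≤ Cfsg.pPrimePCore p G := by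
  classical
  have hp : p.Prime := Fact.out
  have hstep := pStep_of_isPSolvable hp hG
  set N := pPrimeCore p G with hN
  let π := QuotientGroup.mk' N
  have hπ : Function.Surjective π := QuotientGroup.mk'_surjective N
  have hcyc : IsCyclic (A.map π) :=
    isCyclic_of_surjective (π.subgroupMap A) (π.subgroupMap_surjective A)
  have hmain := main_core (hstep.quotient N) pPrimeCore_quotient_eq_bot (P.mapSurjective hπ) (A.map π)
    (Subgroup.map_mono hAP) (by
      rintro _ ⟨p₀, hp₀, rfl⟩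
      apply Cfsg.Agent.Lib.Hall.mem_normalizer_of_conj_le
      rintro _ ⟨a₀, ha₀, rfl⟩
      exact ⟨p₀ * a₀ * p₀⁻¹, (Subgroup.mem_normalizer_iff.mp (hAn hp₀) a₀).mp ha₀, by
        simp only [map_mul, map_inv]⟩) hcyc (by
      rcases h with h | h
      · exact Or.inl h
      · exact Or.inr (Cfsg.Agent.Lib.FrobThm.Rel.not_involves_quotient h N))
  intro a ha
  exact hmain ⟨a, ha, rfl⟩

end Cfsg.Agent.S3788
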