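import Cfsg.Statements.S3789
import Mathlib
import Cfsg.Agent.Lib.QuadK.Red
import Cfsg.Agent.Lib.Cl.OddLength
import Cfsg.Agent.Lib.Amalgam.Embedded3
import Cfsg.Agent.S3783

set_option autoImplicit false
open Cfsg

namespace Cfsg.Agent.S3789


universe u

open Subgroup Cfsg.Agent.Lib.Core Cfsg.Agent.Lib.PSolv Cfsg.Agent.Lib.PGroup.HH Cfsg.Agent.Lib.QuadK
open scoped commutatorElement

section dS
variable {G : Type*} [Group G]

/-- The derived series of a subgroup, inside the ambient group. -/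
def dS (P : Subgroup G) : ℕ → Subgroup G
  | 0 => P
  | d + 1 => ⁅dS P d, dS P d⁆

theorem dS_succ (P : Subgroup G) (d : ℕ) : dS P (d + 1) = ⁅dS P d, dS P d⁆ := rfl

theorem dS_eq (P : Subgroup G) (d : ℕ) : (derivedSeries ↥P d).map P.subtype = dS P d := by
  induction d with
  | zero =>
    rw [derivedSeries_zero, ← MonoidHom.range_eq_map, Subgroup.range_subtype]
    rfl
  | succ d ih =>
    rw [derivedSeries_succ, Subgroup.map_commutator, ih, dS_succ]

theorem dS_map {H : Type*} [Group H] (f : G →* H) (P : Subgroup G) (d : ℕ) : (dS P d).map f = dS (P.map f) d := by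
  induction d with
  | zero => rfl
  | succ d ih => rw [dS_succ, dS_succ, Subgroup.map_commutator, ih]

theorem dS_le (P : Subgroup G) (d : ℕ) : dS P d ≤ P := by
  induction d with
  | zero => exact le_rfl
  | succ d ih =>
    rw [dS_succ]
    exact Subgroup.commutator_le.mpr fun a ha b hb =>
      P.mul_mem (P.mul_mem (P.mul_mem (ih ha) (ih hb)) (P.inv_mem (ih ha))) (P.inv_mem (ih hb))

theorem dS_conj (P : Subgroup G) (d : ℕ) : ∀ a ∈ P, ∀ y ∈ dS P d, a * y * a⁻¹ ∈ dS P d := by
  induction d with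
  | zero =>
    intro a ha y hy
    exact P.mul_mem (P.mul_mem ha hy) (P.inv_mem ha)
  | succ d ih =>
    intro a ha y hy
    have hle : dS P (d + 1) ≤ (dS P (d + 1)).comap (MulAut.conj a).toMonoidHom := by
      rw [dS_succ]
      apply Subgroup.commutator_le.mpr
      intro t ht s hs
      show a * ⁅t, s⁆ * a⁻¹ ∈ ⁅dS P d, dS P d⁆
      have e : a * ⁅t, s⁆ * a⁻¹ = ⁅a * t * a⁻¹, a * s * a⁻¹⁆ := by
        simp only [commutatorElement_def]; group
      rw [e]
      exact Subgroup.commutator_mem_commutator (ih a ha t ht) (ih a ha s hs)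
    exact hle hy

end dS

/-- The faithful module `O_p / Φ(O_p)`. -/
theorem exists_module {X : Type u} [Group X] [Finite X] {p : ℕ} [Fact p.Prime] (hstep : PStep p X)
    (hO : pPrimeCore p X = ⊥) :
    ∃ (W₀ : Type u) (_ : CommGroup W₀) (_ : Finite W₀) (_ : Fact (IsElem p W₀)) (π : pCore p X →* W₀)
      (σ₀ : X →* MulAut W₀), Function.Surjective π ∧
      (∀ (x : X) (v : pCore p X), σ₀ x (π v) = π (MulAut.conjNormal x v)) ∧
      pCore p X ≤ σ₀.ker ∧ σ₀.ker ≤ pCore p X := by
  classical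
  have hpp : p.Prime := Fact.out
  set V : Subgroup X := pCore p X with hVdef
  haveI hVn : V.Normal := pCore_normal p X
  have hVp : IsPGroup p V := pCore_isPGroup p X
  have hcent : centralizer (V : Set X) ≤ V := centralizer_pCore_le hstep hO
  obtain ⟨W₀, inst, π, σ₀, hπ, hW, hσ₀, hker⟩ := Cfsg.Agent.Lib.Cl.exists_frattini_module p V hVp
  haveI hfin : Finite W₀ := Finite.of_surjective π hπ
  haveI hfact : Fact (IsElem p W₀) := ⟨⟨mul_comm, hW⟩⟩
  have hVtriv : V ≤ σ₀.ker := by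
    intro x hx
    rw [MonoidHom.mem_ker]
    ext w
    obtain ⟨v, rfl⟩ := hπ w
    rw [hσ₀, MulAut.one_apply]
    have h1 : MulAut.conjNormal x v = ⟨x, hx⟩ * v * (⟨x, hx⟩ : V)⁻¹ := by
      apply Subtype.ext
      simp [MulAut.conjNormal_apply]
    rw [h1, map_mul, map_mul, map_inv, mul_comm (π _) (π v), mul_inv_cancel_right]
  have hker2 : σ₀.ker ≤ V := by
    apply le_pCore inferInstance
    intro c
    obtain ⟨k, hk⟩ := Cfsg.Agent.Lib.FStar.exists_pow_orderOf_coprime (p := p) (c : X)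
    refine ⟨k, ?_⟩
    apply Subtype.ext
    show (c : X) ^ p ^ k = 1
    set a : X := (c : X) ^ p ^ k with ha'
    have ha : a ∈ σ₀.ker := pow_mem c.2 _
    have hA : zpowers a ≤ centralizer (V : Set X) := by
      apply Cfsg.Agent.Lib.Hall.le_centralizer_of_frattini (zpowers a) V
      · rw [Subgroup.normalizer_eq_top_iff.mpr hVn]
        exact le_top
      · rw [Nat.card_zpowers]
        have h5 : IsPGroup p (frattini V) := hVp.to_subgroup _
        obtain ⟨n, hn⟩ := h5.exists_card_eq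
        rw [hn]
        exact Nat.Coprime.pow_right n hk
      · intro b hb k' hk'
        have hb' : b ∈ σ₀.ker := (zpowers_le.2 ha) hb
        have h1 : σ₀ b (π ⟨k', hk'⟩) = π ⟨k', hk'⟩ := by
          rw [MonoidHom.mem_ker] at hb'
          rw [hb']
          rfl
        rw [hσ₀] at h1
        have h2 : (MulAut.conjNormal b ⟨k', hk'⟩ : V) * (⟨k', hk'⟩ : V)⁻¹ ∈ π.ker := by
          rw [MonoidHom.mem_ker, map_mul, map_inv, h1, mul_inv_cancel]
        rw [hker] at h2
        refine ⟨_, h2, ?_⟩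
        simp [MulAut.conjNormal_apply]
    have haV : a ∈ V := hcent (hA (mem_zpowers a))
    obtain ⟨n, hn⟩ := hVp ⟨a, haV⟩
    have hn' : a ^ p ^ n = 1 := by simpa using congrArg Subtype.val hn
    exact Cfsg.Agent.Lib.FStar.eq_one_of_pow_of_coprime hn' (pow_orderOf_eq_one a) hk
  exact ⟨W₀, inst, hfin, hfact, π, σ₀, hπ, hσ₀, hVtriv, hker2⟩

/-- **The key step**: the last term of the derived series of a Sylow subgroup lies in `O_p`. -/
theorem step {X : Type u} [Group X] [Finite X] {p : ℕ} [Fact p.Prime] (hp2 : p ≠ 2) (hstep : PStep p X)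
    (hO : pPrimeCore p X = ⊥) (P : Sylow p X) (e : ℕ) (h : dS (P : Subgroup X) (e + 1) = ⊥) :
    dS (P : Subgroup X) e ≤ pCore p X := by
  classical
  have hpp : p.Prime := Fact.out
  set V : Subgroup X := pCore p X with hVdef
  haveI hVn : V.Normal := pCore_normal p X
  have hVP : V ≤ P := pCore_le_sylow P
  have hcent : centralizer (V : Set X) ≤ V := centralizer_pCore_le hstep hO
  have hAab : ∀ a ∈ dS (P : Subgroup X) e, ∀ b ∈ dS (P : Subgroup X) e, a * b = b * a := by
    intro a ha b hb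
    have h1 : ⁅a, b⁆ ∈ dS (P : Subgroup X) (e + 1) := Subgroup.commutator_mem_commutator ha hb
    rw [h, Subgroup.mem_bot, commutatorElement_eq_one_iff_mul_comm] at h1
    exact h1
  rcases e with _ | f
  · intro a ha
    apply hcent
    rw [Subgroup.mem_centralizer_iff]
    intro v hv
    exact hAab v (hVP hv) a ha
  -- the module
  by_contra hnot
  set A := dS (P : Subgroup X) (f + 1) with hA
  set B := dS (P : Subgroup X) f with hB
  have hAB : A = ⁅B, B⁆ := rfl
  obtain ⟨W₀, inst, hfin, hfact, π, σ₀, hπ, hσ₀, hVtriv, hker2⟩ := exists_module hstep hO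
  let π₀ : X →* X ⧸ V := QuotientGroup.mk' V
  have hπ₀ : Function.Surjective π₀ := QuotientGroup.mk'_surjective V
  have hπ₀1 : ∀ g, π₀ g = 1 ↔ g ∈ V := fun g => QuotientGroup.eq_one_iff g
  let σ : X ⧸ V →* MulAut W₀ := QuotientGroup.lift V σ₀ (fun x hx => hVtriv hx)
  have hσx : ∀ x : X, σ (π₀ x) = σ₀ x := fun x => rfl
  have hσinj : Function.Injective σ := by
    rw [injective_iff_map_eq_one]
    intro g hg
    induction g using QuotientGroup.induction_on with
    | H x =>
      have h1 : σ₀ x = 1 := hg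
      exact (QuotientGroup.eq_one_iff x).2 (hker2 h1)
  let ρ : X ⧸ V →* Module.End (ZMod p) (EMod p W₀) := (eEnd (p := p)).comp σ
  have hρinj : Function.Injective ρ := by
    intro a b hab
    apply hσinj
    have h1 : eEnd (p := p) (σ a) = eEnd (p := p) (σ b) := hab
    have h2 : eEnd (p := p) ((σ a)⁻¹ * σ b) = 1 := by
      rw [map_mul, ← h1, ← map_mul, inv_mul_cancel, map_one]
    have h3 := eEnd_eq_one (p := p) h2
    rw [inv_mul_eq_one] at h3
    exact h3
  -- the action on generators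
  let cm : X → V → V := fun g u => (MulAut.conjNormal g u) * u⁻¹
  have hcm : ∀ g u, ((cm g u : V) : X) = g * u * g⁻¹ * (u : X)⁻¹ := by
    intro g u
    show ((MulAut.conjNormal g u : V) : X) * (u : X)⁻¹ = _
    rw [MulAut.conjNormal_apply]
  have hρact : ∀ (g : X) (u : V), (ρ (π₀ g) - 1) (eOf p (π u)) = eOf p (π (cm g u)) := by
    intro g u
    have h1 : ρ (π₀ g) (eOf p (π u)) = eOf p (π (MulAut.conjNormal g u)) := by
      show eEnd (p := p) (σ (π₀ g)) (eOf p (π u)) = _
      rw [eEnd_apply, hσx, eTo_eOf, hσ₀]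
    rw [LinearMap.sub_apply, Module.End.one_apply, h1]
    show _ = eOf p (π (MulAut.conjNormal g u * u⁻¹))
    rw [map_mul, map_inv, sub_eq_add_neg]
    rfl
  have hgenV : ∀ v : EMod p W₀, ∃ u : V, v = eOf p (π u) := by
    intro v
    obtain ⟨u, hu⟩ := hπ (eTo v)
    exact ⟨u, by rw [hu]; rfl⟩
  have hcm1 : ∀ (g : X) (u : V), g * u = u * g → cm g u = 1 := by
    intro g u hgu
    apply Subtype.ext
    rw [hcm, hgu]
    simp
  have hzero : eOf p (π (1 : V)) = (0 : EMod p W₀) := by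
    rw [map_one]
    rfl
  -- the central element
  have hPbar : IsPGroup p ((P : Subgroup X).map π₀) := P.isPGroup'.map π₀
  have hAbarne : A.map π₀ ≠ ⊥ := by
    intro h0
    apply hnot
    intro a ha
    have h1 : π₀ a ∈ A.map π₀ := ⟨a, ha, rfl⟩
    rw [h0, Subgroup.mem_bot] at h1
    exact (hπ₀1 a).mp h1
  obtain ⟨xb, hxbA, hxbord, hxbc⟩ := Cfsg.Agent.Lib.Amalgam.exists_central_in_normal hPbar
    (Subgroup.map_mono (dS_le _ _))
    (by
      rintro _ ⟨a, ha, rfl⟩
      apply Cfsg.Agent.Lib.Hall.mem_normalizer_of_conj_le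
      rintro _ ⟨y, hy, rfl⟩
      exact ⟨a * y * a⁻¹, dS_conj _ _ a ha y hy, by simp only [map_mul, map_inv]⟩)
    hAbarne
  obtain ⟨x, hxA, rfl⟩ := hxbA
  have hx1 : π₀ x ≠ 1 := by
    intro h1
    rw [h1, orderOf_one] at hxbord
    exact hpp.one_lt.ne hxbord
  have hxp : π₀ x ^ p = 1 := by
    rw [← hxbord, pow_orderOf_eq_one]
  have hxV : ∀ u : V, (cm x u : X) ∈ A := by
    intro u
    rw [hcm]
    have h1 : (u : X) * x⁻¹ * (u : X)⁻¹ ∈ A := dS_conj _ _ _ (hVP u.2) _ (A.inv_mem hxA)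
    have e : x * u * x⁻¹ * (u : X)⁻¹ = x * ((u : X) * x⁻¹ * (u : X)⁻¹) := by group
    rw [e]
    exact A.mul_mem hxA h1
  have hN : (ρ (π₀ x) - 1) * (ρ (π₀ x) - 1) = 0 := by
    apply LinearMap.ext
    intro v
    obtain ⟨u, rfl⟩ := hgenV v
    rw [Module.End.mul_apply, hρact, hρact, hcm1 x _ (hAab x hxA _ (hxV u)), hzero]
    rfl
  have hq : ∀ a ∈ B.map π₀, (ρ (π₀ x) - 1) * ((ρ a - 1) * (ρ a - 1)) = 0 := by
    rintro _ ⟨a, ha, rfl⟩
    apply LinearMap.ext
    intro v
    obtain ⟨u, rfl⟩ := hgenV v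
    rw [Module.End.mul_apply, Module.End.mul_apply, hρact, hρact, hρact]
    have h1 : (cm a u : X) ∈ B := by
      rw [hcm]
      have h2 : (u : X) * a⁻¹ * (u : X)⁻¹ ∈ B := dS_conj _ _ _ (hVP u.2) _ (B.inv_mem ha)
      have e : a * u * a⁻¹ * (u : X)⁻¹ = a * ((u : X) * a⁻¹ * (u : X)⁻¹) := by group
      rw [e]
      exact B.mul_mem ha h2
    have h3 : (cm a (cm a u) : X) ∈ A := by
      rw [hcm, hAB]
      exact Subgroup.commutator_mem_commutator ha h1
    rw [hcm1 x _ (hAab x hxA _ h3), hzero]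
    rfl
  refine core_thm hp2 (hstep.quotient V) pCore_quotient_pCore_eq_bot ρ hρinj (π₀ x) hxp hx1 (B.map π₀)
    (hPbar.to_le (Subgroup.map_mono (dS_le _ _))) ?_ ?_ hN hq
  · rw [← Subgroup.map_commutator]
    exact ⟨x, hxA, rfl⟩
  · intro a ha
    exact (hxbc a (Subgroup.map_mono (dS_le _ _) ha)).symm

/-- The induction. -/
theorem main {p : ℕ} [Fact p.Prime] (hp2 : p ≠ 2) : ∀ (d : ℕ) (G : Type u) [Group G] [Finite G], PStep p G →
    (∀ P : Sylow p G, dS (P : Subgroup G) d = ⊥) → Cfsg.PLengthLE p d G := by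
  have hp : p.Prime := Fact.out
  intro d
  induction d with
  | zero =>
    intro G _ _ _ h
    rw [Cfsg.Agent.Lib.PGroup.plength_zero_iff]
    rw [Nat.coprime_comm, Nat.Prime.coprime_iff_not_dvd hp]
    intro hd
    obtain ⟨P⟩ : Nonempty (Sylow p G) := inferInstance
    have h0 : (P : Subgroup G) = ⊥ := h P
    obtain ⟨g, hg⟩ := exists_prime_orderOf_dvd_card' p hd
    have hpg : IsPGroup p (zpowers g) := by
      rw [IsPGroup.iff_card, Nat.card_zpowers, hg]
      exact ⟨1, (pow_one p).symm⟩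
    obtain ⟨S, hS⟩ := hpg.exists_le_sylow
    have h1 : (S : Subgroup G) = ⊥ := h S
    have h2 := hS (mem_zpowers g)
    rw [h1, Subgroup.mem_bot] at h2
    rw [h2, orderOf_one] at hg
    exact hp.one_lt.ne hg
  | succ d ih =>
    intro G _ _ hstep h
    set U₁ := (upperPSeries p G 1).1 with hU₁
    set W := (upperPSeries p G 2).1 with hW
    have hO : pPrimeCore p (G ⧸ U₁) = ⊥ := Cfsg.Agent.Lib.PLocal.pPrimeCore_quotient_upper 0 (by simp)
    have hWdef : W = (pCore p (G ⧸ U₁)).comap (QuotientGroup.mk' U₁) :=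
      Cfsg.Agent.Lib.PLocal.upperPSeries_succ_odd 1 (by decide)
    have hsurj₁ := QuotientGroup.mk'_surjective U₁
    have hkey : ∀ P₀ : Sylow p G, dS (P₀ : Subgroup G) d ≤ W := by
      intro P₀ y hy
      rw [hWdef, Subgroup.mem_comap]
      let P₁ : Sylow p (G ⧸ U₁) := P₀.mapSurjective hsurj₁
      have hP₁ : (P₁ : Subgroup (G ⧸ U₁)) = (P₀ : Subgroup G).map (QuotientGroup.mk' U₁) := Sylow.coe_mapSurjective _ _
      have h1 : dS (P₁ : Subgroup (G ⧸ U₁)) (d + 1) = ⊥ := by
        rw [hP₁, ← dS_map, h P₀, Subgroup.map_bot]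
      have h2 := step hp2 (hstep.quotient U₁) hO P₁ d h1
      apply h2
      rw [hP₁, ← dS_map]
      exact ⟨y, hy, rfl⟩
    have hsurj := QuotientGroup.mk'_surjective W
    have hih := ih (G ⧸ W) (hstep.quotient W) (by
      intro P
      obtain ⟨P₀, rfl⟩ := Sylow.mapSurjective_surjective hsurj p P
      rw [Sylow.coe_mapSurjective, ← dS_map, eq_bot_iff]
      rintro _ ⟨y, hy, rfl⟩
      exact (QuotientGroup.eq_one_iff _).mpr (hkey P₀ hy))
    have hshift := Cfsg.Agent.Lib.PLocal.upperPSeries_shift (p := p) (QuotientGroup.mk' W) hsurj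
      (QuotientGroup.ker_mk' W) (2 * d + 1)
    show (upperPSeries p G (2 * (d + 1) + 1)).1 = ⊤
    have e : 2 * (d + 1) + 1 = 2 * d + 1 + 2 := by ring
    rw [e, hshift]
    have hih' : (upperPSeries p (G ⧸ W) (2 * d + 1)).1 = ⊤ := hih
    rw [hih', Subgroup.comap_top]

/-- Let p be an odd prime and G a finite p-soluble group whose Sylow p-subgroups have derived length at most d. Then G has p-length at most d. -/
theorem result {G : Type*} [Group G] [Finite G] {p : ℕ} [Fact p.Prime] (hp : p ≠ 2) (hG : Cfsg.IsPSolvable p G) (d : ℕ) (hd : ∀ P : Sylow p G, derivedSeries ↥(P : Subgroup G) d = ⊥) : Cfsg.PLengthLE p d G := by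
  have hpp : p.Prime := Fact.out
  refine main hp d G (pStep_of_isPSolvable hpp hG) ?_
  intro P
  rw [← dS_eq, hd P, Subgroup.map_bot]

end Cfsg.Agent.S3789
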