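import Cfsg.Statements.S3790
import Cfsg.Agent.Lib.PGroup.PLength2
import Cfsg.Agent.Lib.Core.Basic

set_option autoImplicit false
open Cfsg

namespace Cfsg.Agent.S3790

open Subgroup Cfsg.Agent.Lib.PGroup

universe u

theorem step (p : ℕ) [hp : Fact p.Prime] (q : ℕ) (hqp : q.Prime ∧ q ≠ p) (T : Finset ℕ)
    (hT : ∀ r ∈ T, r.Prime) (l : ℕ → ℕ) (M : ℕ)
    (ih : ∀ (G : Type u) [Group G] [Finite G], Group.IsSolvable G →
      (∀ s : ℕ, s.Prime → s ∣ Nat.card G → s ≠ p → s ∈ T) →
      (∀ r ∈ T, PLengthLE r (l r) G) → PLengthLE p M G) (k : ℕ) :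
    ∀ (G : Type u) [Group G] [Finite G], Group.IsSolvable G →
      (∀ s : ℕ, s.Prime → s ∣ Nat.card G → s ≠ p → s ∈ insert q T) →
      (∀ r ∈ T, PLengthLE r (l r) G) → PLengthLE q k G → PLengthLE p ((1 + k) * M) G := by
  classical
  haveI : Fact q.Prime := ⟨hqp.1⟩
  induction k with
  | zero =>
    intro G _ _ hG hcov hlen hq
    rw [add_zero, one_mul]
    refine ih G hG ?_ hlen
    intro s hs hsd hsp
    have h1 := hcov s hs hsd hsp
    rcases Finset.mem_insert.1 h1 with rfl | h2
    · have hc := plength_zero_iff.1 hq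
      exact absurd hsd ((Nat.Prime.coprime_iff_not_dvd hs).1 hc.symm)
    · exact h2
  | succ k ihk =>
    intro G _ _ hG hcov hlen hq
    haveI hK := uPS_normal (G := G) q 2
    have hsurj := QuotientGroup.mk'_surjective (uPS q G 2)
    have h1 : PLengthLE p ((1 + k) * M) (G ⧸ uPS q G 2) := by
      refine ihk _ inferInstance ?_ ?_ (plength_drop hq)
      · intro s hs hsd hsp
        refine hcov s hs (hsd.trans ?_) hsp
        exact Subgroup.card_quotient_dvd_card _
      · intro r hr
        haveI : Fact r.Prime := ⟨hT r hr⟩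
        exact PLengthLE.map (hlen r hr) _ hsurj
    -- the section `O_{q',q}(G)`
    obtain ⟨K, hKdef⟩ : ∃ K : Subgroup G, K = uPS q G 2 := ⟨_, rfl⟩
    obtain ⟨N, hNdef⟩ : ∃ N : Subgroup G, N = uPS q G 1 := ⟨_, rfl⟩
    have hNK : N ≤ K := by rw [hNdef, hKdef]; exact uPS_le_succ 1
    haveI hNn : N.Normal := by rw [hNdef]; exact uPS_normal q 1
    have hNc : (Nat.card N).Coprime q := by
      rw [hNdef, uPS_one]
      exact Cfsg.Agent.Lib.Core.pPrimeCore_coprime q G
    obtain ⟨m, hm⟩ : ∃ m : ℕ, N.relIndex K = q ^ m := by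
      rw [hNdef, hKdef]
      exact uPS_relIndex_odd (n := 1) (by decide)
    haveI hN' : (N.subgroupOf K).Normal := inferInstance
    have hcardN : Nat.card (N.subgroupOf K) = Nat.card N :=
      Nat.card_congr (Subgroup.subgroupOfEquivOfLe hNK).toEquiv
    have h2 : PLengthLE p M (N.subgroupOf K) := by
      refine ih _ inferInstance ?_ ?_
      · intro s hs hsd hsp
        rw [hcardN] at hsd
        have h3 := hcov s hs (hsd.trans (Subgroup.card_subgroup_dvd_card N)) hsp
        rcases Finset.mem_insert.1 h3 with rfl | h4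
        · exact absurd hsd ((Nat.Prime.coprime_iff_not_dvd hs).1 hNc.symm)
        · exact h4
      · intro r hr
        haveI : Fact r.Prime := ⟨hT r hr⟩
        exact PLengthLE.subgroup (PLengthLE.subgroup (hlen r hr) K) _
    have h3 : PLengthLE p 0 (K ⧸ N.subgroupOf K) := by
      rw [plength_zero_iff]
      have : Nat.card (K ⧸ N.subgroupOf K) = q ^ m := hm
      rw [this]
      exact Nat.Coprime.pow_left _ ((Nat.coprime_primes hqp.1 hp.out).2 hqp.2)
    have h4 : PLengthLE p (M + 0) K := plength_of_normal _ h2 h3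
    have h5 : PLengthLE p ((M + 0) + (1 + k) * M) G := by
      subst hKdef
      exact plength_of_normal _ h4 h1
    have e : (M + 0) + (1 + k) * M = (1 + (k + 1)) * M := by ring
    rwa [e] at h5

theorem main (p : ℕ) [hp : Fact p.Prime] (T : Finset ℕ) (l : ℕ → ℕ) :
    (∀ r ∈ T, r.Prime ∧ r ≠ p) →
    ∀ (G : Type u) [Group G] [Finite G], Group.IsSolvable G →
      (∀ s : ℕ, s.Prime → s ∣ Nat.card G → s ≠ p → s ∈ T) →
      (∀ r ∈ T, PLengthLE r (l r) G) → PLengthLE p (∏ r ∈ T, (1 + l r)) G := by
  classical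
  induction T using Finset.induction_on with
  | empty =>
    intro _ G _ _ _ hcov _
    rw [Finset.prod_empty]
    refine plength_of_isPGroup (IsPGroup.iff_card.2 ⟨_, Nat.eq_prime_pow_of_unique_prime_dvd
      Nat.card_pos.ne' ?_⟩)
    intro d hd hdd
    by_contra hne
    simpa using hcov d hd hdd hne
  | insert q T hq ih =>
    intro hT G _ _ hG hcov hlen
    rw [Finset.prod_insert hq]
    have hq' := hT q (Finset.mem_insert_self q T)
    haveI : Fact q.Prime := ⟨hq'.1⟩
    exact step p q hq' T (fun r hr => (hT r (Finset.mem_insert_of_mem hr)).1) l _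
      (fun G _ _ hG hc hlen' => ih (fun r hr => hT r (Finset.mem_insert_of_mem hr)) G hG hc hlen')
      (l q) G hG hcov (fun r hr => hlen r (Finset.mem_insert_of_mem hr))
      (hlen q (Finset.mem_insert_self q T))

/-- Let G be a finite solvable group and p a prime. Suppose p₁, …, p_r are distinct primes, all different from p, that include every prime dividing the order of G other than p, and that G has p_i-length at most l_i for each i. Then G has p-length at most the product of the numbers 1 + l_i. -/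
theorem result {G : Type*} [Group G] [Finite G] (hG : Group.IsSolvable G) (p : ℕ) [Fact p.Prime] (r : ℕ) (q : Fin r → ℕ) (hq : ∀ i, (q i).Prime ∧ q i ≠ p) (hinj : Function.Injective q) (hcover : ∀ s : ℕ, s.Prime → s ∣ Nat.card G → s ≠ p → ∃ i, q i = s) (l : Fin r → ℕ) (hl : ∀ i, Cfsg.PLengthLE (q i) (l i) G) : Cfsg.PLengthLE p (Finset.univ.prod fun i => 1 + l i) G := by
  classical
  let l' : ℕ → ℕ := fun s => if h : ∃ i, q i = s then l h.choose else 0
  have hl' : ∀ i, l' (q i) = l i := by
    intro i
    have h : ∃ j, q j = q i := ⟨i, rfl⟩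
    simp only [l', dif_pos h]
    rw [hinj h.choose_spec]
  have := main p (Finset.univ.image q) l' (by
      intro r hr
      obtain ⟨i, -, rfl⟩ := Finset.mem_image.1 hr
      exact hq i) G hG (by
      intro s hs hsd hsp
      obtain ⟨i, rfl⟩ := hcover s hs hsd hsp
      exact Finset.mem_image_of_mem _ (Finset.mem_univ _)) (by
      intro r hr
      obtain ⟨i, -, rfl⟩ := Finset.mem_image.1 hr
      rw [hl']
      exact hl i)
  rw [Finset.prod_image (fun a _ b _ h => hinj h)] at this
  simpa only [hl'] using this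

end Cfsg.Agent.S3790
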