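import Cfsg.Statements.S3791
import Cfsg.Agent.Lib.PGroup.PLength2
import Cfsg.Agent.Lib.Core.Basic

set_option autoImplicit false
open Cfsg

namespace Cfsg.Agent.S3791

open Subgroup Cfsg.Agent.Lib.PGroup

universe u

section DS

variable {G H : Type*} [Group G] [Group H]

/-- The derived series of a subgroup, inside the ambient group. -/
def dS (A : Subgroup G) : ℕ → Subgroup G
  | 0 => A
  | n + 1 => ⁅dS A n, dS A n⁆

theorem dS_mono {A B : Subgroup G} (h : A ≤ B) (n : ℕ) : dS A n ≤ dS B n := by
  induction n with
  | zero => exact h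
  | succ n ih => exact Subgroup.commutator_mono ih ih

theorem dS_top (n : ℕ) : derivedSeries G n = dS (⊤ : Subgroup G) n := by
  induction n with
  | zero => rfl
  | succ n ih =>
    rw [derivedSeries_succ, ih]
    rfl

theorem map_dS (f : G →* H) (A : Subgroup G) (n : ℕ) : (dS A n).map f = dS (A.map f) n := by
  induction n with
  | zero => rfl
  | succ n ih =>
    show (⁅dS A n, dS A n⁆ : Subgroup G).map f = ⁅dS (A.map f) n, dS (A.map f) n⁆
    rw [Subgroup.map_commutator, ih]

theorem map_subtype_derivedSeries (A : Subgroup G) (n : ℕ) :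
    (derivedSeries A n).map A.subtype = dS A n := by
  rw [dS_top, map_dS, ← MonoidHom.range_eq_map, Subgroup.range_subtype]

theorem dS_add (A : Subgroup G) (a b : ℕ) : dS (dS A a) b = dS A (a + b) := by
  induction b with
  | zero => rfl
  | succ b ih =>
    show ⁅dS (dS A a) b, dS (dS A a) b⁆ = ⁅dS A (a + b), dS A (a + b)⁆
    rw [ih]

end DS

theorem step_sylow {G H : Type*} [Group G] [Finite G] [Group H] [Finite H] (f : G →* H)
    (hf : Function.Surjective f) (p : ℕ) [Fact p.Prime] (d : ℕ)
    (hd : ∀ S : Sylow p G, dS (S : Subgroup G) d = ⊥) (S' : Sylow p H) :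
    dS (S' : Subgroup H) d = ⊥ := by
  obtain ⟨S, rfl⟩ := Sylow.mapSurjective_surjective hf p S'
  have : ((S.mapSurjective hf : Sylow p H) : Subgroup H) = (S : Subgroup G).map f := rfl
  rw [this, ← map_dS, hd, Subgroup.map_bot]

theorem main (r : ℕ) (q : Fin r → ℕ) (hq : ∀ i, (q i).Prime) (d : Fin r → ℕ) (L : ℕ) :
    ∀ (G : Type u) [Group G] [Finite G] (l : Fin r → ℕ), Group.IsSolvable G →
      (∑ i, l i = L) →
      (∀ s : ℕ, s.Prime → s ∣ Nat.card G → ∃ i, q i = s) →
      (∀ i, haveI := Fact.mk (hq i); ∀ S : Sylow (q i) G, dS (S : Subgroup G) (d i) = ⊥) →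
      (∀ i, Cfsg.PLengthLE (q i) (l i) G) →
      dS (⊤ : Subgroup G) (∑ i, d i * l i) = ⊥ := by
  classical
  induction L using Nat.strong_induction_on with
  | _ L IH =>
    intro G _ _ l hG hL hcov hd hl
    obtain ⟨D, hD⟩ : ∃ D, D = dS (⊤ : Subgroup G) (∑ i, d i * l i) := ⟨_, rfl⟩
    rw [← hD]
    have hprime : ∀ s : ℕ, s.Prime → (Nat.card D).Coprime s := by
      intro s hs
      by_cases hsd : s ∣ Nat.card G
      · obtain ⟨k, rfl⟩ := hcov s hs hsd
        haveI : Fact (q k).Prime := ⟨hq k⟩
        have hk0 : l k ≠ 0 := by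
          intro h0
          have := hl k
          rw [h0] at this
          exact (Nat.Prime.coprime_iff_not_dvd hs).1 (plength_zero_iff.1 this).symm hsd
        obtain ⟨lk, hlk⟩ : ∃ lk, l k = lk + 1 := Nat.exists_eq_succ_of_ne_zero hk0
        obtain ⟨l', hl'⟩ : ∃ l' : Fin r → ℕ, l' = Function.update l k lk := ⟨_, rfl⟩
        have e : ∀ c : Fin r → ℕ, ∑ i, c i * l i = ∑ i, c i * l' i + c k := by
          intro c
          rw [← Finset.add_sum_erase _ _ (Finset.mem_univ k),
            ← Finset.add_sum_erase (a := k) (f := fun i => c i * l' i) _ (Finset.mem_univ k)]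
          have h1 : ∑ i ∈ Finset.univ.erase k, c i * l i = ∑ i ∈ Finset.univ.erase k, c i * l' i := by
            refine Finset.sum_congr rfl fun i hi => ?_
            rw [hl', Function.update_of_ne (Finset.ne_of_mem_erase hi)]
          rw [h1, hlk, hl', Function.update_self]
          ring
        have hLlt : ∑ i, l' i < L := by
          have := e (fun _ => 1)
          simp only [one_mul] at this
          omega
        haveI hK := uPS_normal (G := G) (q k) 2
        have hsurj := QuotientGroup.mk'_surjective (uPS (q k) G 2)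
        have hih := IH _ hLlt (G ⧸ uPS (q k) G 2) l' inferInstance rfl
          (fun s hs hsd => hcov s hs (hsd.trans (Subgroup.card_quotient_dvd_card _)))
          (fun i => by
            haveI := Fact.mk (hq i)
            exact step_sylow _ hsurj (q i) (d i) (hd i))
          (fun i => by
            haveI := Fact.mk (hq i)
            by_cases hik : i = k
            · subst hik
              rw [hl', Function.update_self]
              have h0 := hl i
              rw [hlk] at h0
              exact plength_drop h0
            · rw [hl', Function.update_of_ne hik]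
              exact PLengthLE.map (hl i) _ hsurj)
        have hA : dS (⊤ : Subgroup G) (∑ i, d i * l' i) ≤ uPS (q k) G 2 := by
          have h1 := map_dS (QuotientGroup.mk' (uPS (q k) G 2)) (⊤ : Subgroup G) (∑ i, d i * l' i)
          rw [Subgroup.map_top_of_surjective _ hsurj, hih, Subgroup.map_eq_bot_iff,
            QuotientGroup.ker_mk'] at h1
          exact h1
        haveI hN := uPS_normal (G := G) (q k) 1
        have hB : dS (uPS (q k) G 2) (d k) ≤ uPS (q k) G 1 := by
          have hsurj' := QuotientGroup.mk'_surjective (uPS (q k) G 1)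
          have h2 : uPS (q k) G 2 = (pCore (q k) (G ⧸ uPS (q k) G 1)).comap
              (QuotientGroup.mk' (uPS (q k) G 1)) := uPS_succ_odd (q k) (n := 1) (by decide)
          have h3 : (uPS (q k) G 2).map (QuotientGroup.mk' (uPS (q k) G 1)) ≤
              ((default : Sylow (q k) (G ⧸ uPS (q k) G 1)) : Subgroup _) := by
            rw [h2, Subgroup.map_comap_eq_self_of_surjective hsurj']
            exact Cfsg.Agent.Lib.Core.pCore_le_sylow _
          have h4 := step_sylow _ hsurj' (q k) (d k) (hd k) default
          have h5 := dS_mono h3 (d k)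
          rw [h4, ← map_dS, le_bot_iff, Subgroup.map_eq_bot_iff, QuotientGroup.ker_mk'] at h5
          exact h5
        have hDle : D ≤ uPS (q k) G 1 := by
          rw [hD, e d, ← dS_add]
          exact (dS_mono hA _).trans hB
        refine Nat.Coprime.coprime_dvd_left (Subgroup.card_dvd_of_le hDle) ?_
        rw [uPS_one]
        exact Cfsg.Agent.Lib.Core.pPrimeCore_coprime _ _
      · exact ((Nat.Prime.coprime_iff_not_dvd hs).2 fun h =>
          hsd (h.trans (Subgroup.card_subgroup_dvd_card D))).symm
    have hcard : Nat.card D = 1 := by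
      by_contra h1
      obtain ⟨s, hs, hsd⟩ := Nat.exists_prime_and_dvd h1
      exact (Nat.Prime.coprime_iff_not_dvd hs).1 (hprime s hs).symm hsd
    exact Subgroup.eq_bot_of_card_eq _ hcard

/-- The Hall–Higman bound on derived length: let G be a finite solvable group, let p₁, …, p_r be distinct primes that include every prime dividing the order of G, and suppose that for each i the Sylow p_i-subgroups of G have derived length at most d_i and G has p_i-length at most l_i. Then G has derived length at most Σ d_i l_i. -/
theorem result {G : Type*} [Group G] [Finite G] (hG : Group.IsSolvable G) (r : ℕ) (q : Fin r → ℕ) (hq : ∀ i, (q i).Prime) (hinj : Function.Injective q) (hcover : ∀ s : ℕ, s.Prime → s ∣ Nat.card G → ∃ i, q i = s) (d l : Fin r → ℕ) (hd : ∀ i, ∀ P : Subgroup G, (haveI := Fact.mk (hq i); ∃ S : Sylow (q i) G, (S : Subgroup G) = P) → derivedSeries ↥P (d i) = ⊥) (hl : ∀ i, Cfsg.PLengthLE (q i) (l i) G) : derivedSeries G (Finset.univ.sum fun i => d i * l i) = ⊥ := by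
  rw [dS_top]
  refine main r q hq d _ G l hG rfl hcover ?_ hl
  intro i S
  have := hd i S ⟨S, rfl⟩
  rw [← map_subtype_derivedSeries, this, Subgroup.map_bot]

end Cfsg.Agent.S3791
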