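import Cfsg.Statements.S3793
import Mathlib
import Cfsg.Agent.Lib.PGroup.HHSG3
-- import your own Cfsg.Agent.* helpers here

set_option autoImplicit false
open Cfsg

namespace Cfsg.Agent.S3793

open Subgroup Cfsg.Agent.Lib.PGroup.HH

/-- The Shult–Gross Theorem: let p be an odd prime and G a finite solvable group with an automorphism σ of order p^n fixing only the identity. Then G has Fitting height at most n: G has Fitting height at most m when there is a chain of normal subgroups 1 = F₀ ≤ F₁ ≤ ⋯ ≤ F_m = G with each F_{i+1}/F_i nilpotent. -/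
theorem result {G : Type*} [Group G] [Finite G] (hG : Group.IsSolvable G) {p : ℕ} (hp : p.Prime) (hp2 : p ≠ 2) (σ : MulAut G) (n : ℕ) (hσ : orderOf σ = p ^ n) (hfpf : ∀ g : G, σ g = g → g = 1) : ∃ F : Fin (n + 1) → Subgroup G, F 0 = ⊥ ∧ F (Fin.last n) = ⊤ ∧ Monotone F ∧ (∀ i, (F i).Normal) ∧ ∀ i : Fin n, ∃ k : ℕ, (F i.succ).lowerCentralSeries k ≤ F i.castSucc := by
  have hσK : ∀ g, σ^[p ^ n] g = g := by
    intro g
    have h1 : σ ^ p ^ n = 1 := by rw [← hσ]; exact pow_orderOf_eq_one σ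
    rw [← mulAut_pow_apply, h1]
    rfl
  obtain ⟨F, h0, hn, hm, hN, hk⟩ := chain_of_fpf hp hp2 n G hG σ hfpf hσK
  exact ⟨fun i => F i.1, h0, hn, fun a b hab => monotone_nat_of_le_succ hm hab, fun i => hN _,
    fun i => hk i.1 i.2⟩

end Cfsg.Agent.S3793
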