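import Cfsg.Statements.S3794
import Mathlib
import Cfsg.Agent.Lib.Fpf4.Main

set_option autoImplicit false
open Cfsg

namespace Cfsg.Agent.S3794

/-- Let G be a finite solvable group with an automorphism σ satisfying σ⁴ = 1 and fixing only the identity. Then the derived subgroup G' is nilpotent. -/
theorem result {G : Type*} [Group G] [Finite G] (hG : Group.IsSolvable G) (σ : MulAut G) (hσ : σ ^ 4 = 1) (hfpf : ∀ g : G, σ g = g → g = 1) : Group.IsNilpotent (commutator G) := by
  haveI := hG
  refine Cfsg.Agent.Lib.Fpf4.nilpotent_commutator σ.toMonoidHom ?_ hfpf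
  intro x
  have h := congrArg (fun f : MulAut G => f x) hσ
  simpa [pow_succ, MulAut.mul_apply] using h

end Cfsg.Agent.S3794
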