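import Cfsg.Statements.S3796
import Mathlib
import Cfsg.Agent.Lib.Ward.Main

set_option autoImplicit false
open Cfsg

namespace Cfsg.Agent.S3796

open Cfsg.Agent.Lib.Ward Subgroup SemidirectProduct

/-- Ward's Theorem: let G be a finite solvable group and A an elementary abelian group of automorphisms of G of order p² (p a prime) with no non-identity common fixed point. Then G has Fitting height at most 2: G has Fitting height at most m when there is a chain of normal subgroups 1 = F₀ ≤ F₁ ≤ ⋯ ≤ F_m = G with each F_{i+1}/F_i nilpotent. -/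
theorem result {G : Type*} [Group G] [Finite G] (hG : Group.IsSolvable G) {p : ℕ} (hp : p.Prime) (A : Subgroup (MulAut G)) (hA : Cfsg.IsElementaryAbelian p A) (hcard : Nat.card A = p ^ 2) (hfpf : ∀ g : G, (∀ a ∈ A, a g = g) → g = 1) : ∃ F : Fin (2 + 1) → Subgroup G, F 0 = ⊥ ∧ F (Fin.last 2) = ⊤ ∧ Monotone F ∧ (∀ i, (F i).Normal) ∧ ∀ i : Fin 2, ∃ k : ℕ, (F i.succ).lowerCentralSeries k ≤ F i.castSucc := by
  haveI := hG
  haveI : Fact p.Prime := ⟨hp⟩
  have hAp : IsPGroup p A := IsPGroup.of_card hcard
  have hcop : p.Coprime (Nat.card G) := by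
    letI act : MulAction A G :=
      { smul := fun a g => a.1 g
        one_smul := fun g => rfl
        mul_smul := fun a b g => rfl }
    have h1 := hAp.card_modEq_card_fixedPoints G
    have h2 : MulAction.fixedPoints A G = {1} := by
      ext g
      constructor
      · intro hg
        exact hfpf g (fun a ha => hg ⟨a, ha⟩)
      · rintro rfl a
        exact map_one a.1
    have h3 : Nat.card (({1} : Set G)) = 1 := by simp
    rw [h2, h3] at h1
    rw [Nat.Prime.coprime_iff_not_dvd hp]
    intro hd
    have h4 : Nat.card G % p = 1 % p := h1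
    rw [Nat.mod_eq_zero_of_dvd hd, Nat.mod_eq_of_lt hp.one_lt] at h4
    exact zero_ne_one h4
  let φ : A →* MulAut G := A.subtype
  haveI : IsMulCommutative A := hA.1
  haveI : Finite (G ⋊[φ] A) := Finite.of_equiv _ (SemidirectProduct.equivProd (φ := φ)).symm
  haveI hAs : Group.IsSolvable A := by
    haveI : Group.IsNilpotent A := hAp.isNilpotent
    infer_instance
  haveI : Group.IsSolvable (G ⋊[φ] A) :=
    solvable_of_ker_le_range (inl : G →* G ⋊[φ] A) (rightHom : G ⋊[φ] A →* A)
      (range_inl_eq_ker_rightHom (φ := φ)).ge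
  let d : WD (G ⋊[φ] A) :=
    { N := (inl : G →* G ⋊[φ] A).range
      A := (inr : A →* G ⋊[φ] A).range
      p := p
      hN := by
        rw [range_inl_eq_ker_rightHom]
        infer_instance
      hp := hp
      hcard := by
        rw [← hcard]
        exact Nat.card_congr (MonoidHom.ofInjective inr_injective).symm.toEquiv
      hexp := by
        rintro _ ⟨a, rfl⟩
        rw [← map_pow]
        have h1 : a ^ p = 1 := Subtype.ext (by simpa using hA.2 a a.2)
        rw [h1, map_one]
      hcop := by
        have h1 : Nat.card (inl : G →* G ⋊[φ] A).range = Nat.card G :=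
          Nat.card_congr (MonoidHom.ofInjective inl_injective).symm.toEquiv
        rw [h1]
        exact hcop
      hfix := by
        rintro _ ⟨g, rfl⟩ h
        have h1 : g = 1 := by
          apply hfpf
          intro a ha
          have h2 := h _ ⟨⟨a, ha⟩, rfl⟩
          have h3 : (inl (φ ⟨a, ha⟩ g) : G ⋊[φ] A) = inl g := by
            rw [inl_aut, h2, mul_assoc, ← map_mul, mul_inv_cancel, map_one, mul_one]
          exact inl_injective h3
        rw [h1, map_one] }
  obtain ⟨F, hFn, hFN, hFnil, k, hk⟩ := ward_aux _ _ d rfl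
  have hNtop : (⊤ : Subgroup G).map (inl : G →* G ⋊[φ] A) = d.N := by
    rw [← MonoidHom.range_eq_map]
  let F' : Subgroup G := F.comap (inl : G →* G ⋊[φ] A)
  have hF'n : F'.Normal := hFn.comap _
  have hF'map : F'.map (inl : G →* G ⋊[φ] A) = F := by
    rw [Subgroup.map_comap_eq]
    exact inf_eq_right.mpr hFN
  obtain ⟨k₀, hk₀⟩ := (isNilpotent_iff_lowerCentralSeries F).mp hFnil
  have h0 : F'.lowerCentralSeries k₀ ≤ ⊥ := by
    rw [le_bot_iff, ← Subgroup.map_eq_bot_iff_of_injective (F'.lowerCentralSeries k₀)
      (inl_injective (φ := φ)), map_lowerCentralSeries, hF'map]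
    exact hk₀
  have h1 : (⊤ : Subgroup G).lowerCentralSeries k ≤ F' := by
    apply Subgroup.map_le_iff_le_comap.mp
    rw [map_lowerCentralSeries, hNtop]
    exact hk
  refine ⟨![⊥, F', ⊤], rfl, rfl, ?_, ?_, ?_⟩
  · rw [Fin.monotone_iff_le_succ]
    intro i
    fin_cases i
    · exact bot_le
    · exact le_top
  · intro i
    fin_cases i
    · exact Subgroup.normal_bot
    · exact hF'n
    · exact Subgroup.normal_top
  · intro i
    fin_cases i
    · exact ⟨k₀, h0⟩
    · exact ⟨k, h1⟩

end Cfsg.Agent.S3796
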