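import Cfsg.Statements.S3800
import Mathlib
import Cfsg.Agent.Lib.FF.SylowIn
import Cfsg.Agent.Lib.PGroup.Basic

set_option autoImplicit false
open Cfsg

namespace Cfsg.Agent.S3800

open Cfsg.Agent.Lib.FF in
/-- Let G be a finite group, N a normal subgroup of G whose order is prime to p, and P a p-subgroup of G. Then in G/N the normalizer of the image of P is the image of N_G(P), and the centralizer of the image of P is the image of C_G(P). -/
theorem result {G : Type*} [Group G] [Finite G] {p : ℕ} [Fact p.Prime] (N : Subgroup G) [N.Normal] (hN : (Nat.card N).Coprime p) (P : Subgroup G) (hP : IsPGroup p P) : Subgroup.normalizer ((P.map (QuotientGroup.mk' N)) : Set (G ⧸ N)) = (Subgroup.normalizer (P : Set G)).map (QuotientGroup.mk' N) ∧ Subgroup.centralizer ((P.map (QuotientGroup.mk' N)) : Set (G ⧸ N)) = (Subgroup.centralizer (P : Set G)).map (QuotientGroup.mk' N) := by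
  classical
  have hp := (Fact.out : p.Prime)
  have hkey : ∀ g : G, QuotientGroup.mk' N g ∈ Subgroup.normalizer ((P.map (QuotientGroup.mk' N)) : Set (G ⧸ N)) →
      ∃ n ∈ N, n⁻¹ * g ∈ Subgroup.normalizer (P : Set G) := by
    intro g hg
    have hcomap : ∀ x : G, QuotientGroup.mk' N x ∈ P.map (QuotientGroup.mk' N) ↔ x ∈ P ⊔ N := by
      intro x
      rw [← Subgroup.mem_comap, Subgroup.comap_map_eq, QuotientGroup.ker_mk']
    have hnotdvd : ¬ p ∣ P.relIndex (P ⊔ N) := by
      rw [relIndex_sup_eq']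
      intro hd
      have h1 : P.relIndex N ∣ Nat.card N := Subgroup.relIndex_dvd_card P N
      have h2 : p ∣ Nat.card N := hd.trans h1
      have := Nat.Coprime.eq_one_of_dvd hN.symm h2
      exact hp.one_lt.ne' this
    have hS1 : IsSylowIn p P (P ⊔ N) := ⟨le_sup_left, hP, hnotdvd⟩
    have hle : P.map (MulAut.conj g).toMonoidHom ≤ P ⊔ N := by
      rintro _ ⟨q, hq, rfl⟩
      rw [← hcomap]
      have h3 : QuotientGroup.mk' N q ∈ P.map (QuotientGroup.mk' N) := ⟨q, hq, rfl⟩
      have h4 := (Subgroup.mem_normalizer_iff.mp hg _).mp h3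
      simpa [map_mul, map_inv] using h4
    have hS2 : IsSylowIn p (P.map (MulAut.conj g).toMonoidHom) (P ⊔ N) := by
      refine ⟨hle, hP.map _, ?_⟩
      intro hd
      apply hnotdvd
      have h5 : Nat.card ↥(P.map (MulAut.conj g).toMonoidHom) = Nat.card P := card_conj P g
      have h6 := Cfsg.Agent.Lib.PGroup.card_inf_mul_relIndex (P.map (MulAut.conj g).toMonoidHom) (P ⊔ N)
      have h7 := Cfsg.Agent.Lib.PGroup.card_inf_mul_relIndex P (P ⊔ N)
      rw [inf_of_le_left hle, h5] at h6
      rw [inf_of_le_left le_sup_left] at h7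
      have h8 : P.relIndex (P ⊔ N) = (P.map (MulAut.conj g).toMonoidHom).relIndex (P ⊔ N) := by
        have hpos : 0 < Nat.card P := Nat.card_pos
        apply Nat.eq_of_mul_eq_mul_left hpos
        rw [h6, h7]
      rw [h8]; exact hd
    obtain ⟨l, hl, hconj⟩ := hS1.exists_conj hS2
    rw [sup_comm] at hl
    obtain ⟨n, hn, q, hq, rfl⟩ := Subgroup.mem_sup_of_normal_left.mp hl
    refine ⟨n, hn, ?_⟩
    rw [mem_normalizer_iff_conj]
    have e0 : P.map (MulAut.conj (n * q)).toMonoidHom = P.map (MulAut.conj n).toMonoidHom := by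
      rw [← conj_mul_conj, conj_eq_of_mem hq]
    rw [e0] at hconj
    rw [← conj_mul_conj, ← hconj, conj_mul_conj, inv_mul_cancel, conj_one']
  have hN1 : Subgroup.normalizer ((P.map (QuotientGroup.mk' N)) : Set (G ⧸ N)) = (Subgroup.normalizer (P : Set G)).map (QuotientGroup.mk' N) := by
    apply le_antisymm
    · intro x hx
      obtain ⟨g, rfl⟩ := QuotientGroup.mk'_surjective N x
      obtain ⟨n, hn, h⟩ := hkey g hx
      refine ⟨_, h, ?_⟩
      have hn1 : QuotientGroup.mk' N n = 1 := (QuotientGroup.eq_one_iff n).mpr hn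
      rw [map_mul, map_inv, hn1]
      simp
    · exact Subgroup.le_normalizer_map _
  refine ⟨hN1, ?_⟩
  apply le_antisymm
  · intro x hx
    obtain ⟨g, rfl⟩ := QuotientGroup.mk'_surjective N x
    have hx' : QuotientGroup.mk' N g ∈ Subgroup.normalizer ((P.map (QuotientGroup.mk' N)) : Set (G ⧸ N)) :=
      Subgroup.centralizer_le_normalizer _ hx
    obtain ⟨n, hn, h⟩ := hkey g hx'
    have hmk : QuotientGroup.mk' N (n⁻¹ * g) = QuotientGroup.mk' N g := by
      have hn1 : QuotientGroup.mk' N n = 1 := (QuotientGroup.eq_one_iff n).mpr hn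
      rw [map_mul, map_inv, hn1]
      simp
    refine ⟨n⁻¹ * g, ?_, hmk⟩
    apply Subgroup.mem_centralizer_iff.mpr
    intro q hq
    set t := n⁻¹ * g with ht
    have hq' : t * q * t⁻¹ ∈ P := (Subgroup.mem_normalizer_iff.mp h q).mp hq
    have hcomm : t * q * t⁻¹ * q⁻¹ ∈ P := mul_mem hq' (inv_mem hq)
    have hcommN : t * q * t⁻¹ * q⁻¹ ∈ N := by
      rw [← QuotientGroup.eq_one_iff]
      have h1 := Subgroup.mem_centralizer_iff.mp hx (QuotientGroup.mk' N q) ⟨q, hq, rfl⟩
      have h2 : (QuotientGroup.mk' N q) * (QuotientGroup.mk' N t) = (QuotientGroup.mk' N t) * (QuotientGroup.mk' N q) := by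
        rw [hmk]; exact h1
      show QuotientGroup.mk' N (t * q * t⁻¹ * q⁻¹) = 1
      rw [map_mul, map_mul, map_mul, map_inv, map_inv, ← h2]
      group
    have hb : t * q * t⁻¹ * q⁻¹ = 1 := by
      -- element of `P ∩ N` is trivial
      have hPc : ∃ k, (t * q * t⁻¹ * q⁻¹) ^ p ^ k = 1 := by
        obtain ⟨k, hk⟩ := hP ⟨_, hcomm⟩
        exact ⟨k, by simpa using congrArg Subtype.val hk⟩
      obtain ⟨k, hk⟩ := hPc
      have h3 : orderOf (t * q * t⁻¹ * q⁻¹) ∣ p ^ k := orderOf_dvd_of_pow_eq_one hk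
      have h4 : orderOf (⟨_, hcommN⟩ : N) ∣ Nat.card N := orderOf_dvd_natCard _
      have h5 : orderOf (⟨_, hcommN⟩ : N) = orderOf (t * q * t⁻¹ * q⁻¹) :=
        Subgroup.orderOf_mk _ _
      rw [h5] at h4
      have h6 : Nat.Coprime (p ^ k) (Nat.card N) := (hN.symm).pow_left k
      have h7 := Nat.Coprime.eq_one_of_dvd (h6.coprime_dvd_left h3) h4
      exact orderOf_eq_one_iff.mp h7
    have : t * q = q * t := by
      have e : t * q = (t * q * t⁻¹ * q⁻¹) * (q * t) := by group
      rw [e, hb, one_mul]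
    exact this.symm
  · intro x hx
    obtain ⟨g, hg, rfl⟩ := hx
    apply Subgroup.mem_centralizer_iff.mpr
    rintro _ ⟨q, hq, rfl⟩
    have := Subgroup.mem_centralizer_iff.mp hg q hq
    rw [← map_mul, ← map_mul, this]

end Cfsg.Agent.S3800
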