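import Mathlib
import Cfsg.Statements.S3950
import Cfsg.Agent.Lib.Schur.Bil
import Cfsg.Agent.Lib.KnownSimple.Schur
-- import your own Cfsg.Agent.* helpers here

set_option autoImplicit false
open Cfsg

namespace Cfsg.Agent.S3950

open scoped commutatorElement


open Cfsg.Agent.Lib.Schur

/-- A non-cyclic finite abelian group has two independent characters to `ℤ/p`. -/
theorem exists_two_chars {G : Type*} [CommGroup G] [Finite G] (h : ¬ IsCyclic G) :
    ∃ (p : ℕ) (_ : Fact p.Prime) (lam mu : G →* Multiplicative (ZMod p)) (x y : G),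
      lam x = Multiplicative.ofAdd 1 ∧ mu x = 1 ∧ lam y = 1 ∧ mu y = Multiplicative.ofAdd 1 := by
  classical
  obtain ⟨ι, _, n, hn, ⟨e⟩⟩ := CommGroup.equiv_prod_multiplicative_zmod_of_finite G
  by_cases hco : Pairwise (Function.onFun Nat.Coprime n)
  · exfalso
    apply h
    let c := ZMod.prodEquivPi n hco
    let f : Multiplicative (ZMod (∏ i, n i)) →* G := MonoidHom.mk'
      (fun t => e.symm (fun i => Multiplicative.ofAdd (c (Multiplicative.toAdd t) i))) (by
        intro a b
        rw [← map_mul]
        congr 1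
        ext i
        show Multiplicative.ofAdd (c (Multiplicative.toAdd a + Multiplicative.toAdd b) i) = _
        rw [map_add]
        rfl)
    refine isCyclic_of_surjective f ?_
    intro g
    refine ⟨Multiplicative.ofAdd (c.symm (fun i => Multiplicative.toAdd (e g i))), ?_⟩
    show e.symm (fun i => Multiplicative.ofAdd (c (c.symm (fun i => Multiplicative.toAdd (e g i))) i)) = g
    rw [RingEquiv.apply_symm_apply]
    exact e.symm_apply_apply g
  · unfold Pairwise at hco
    push Not at hco
    obtain ⟨i, j, hij, hco⟩ := hco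
    obtain ⟨p, hp, hpi, hpj⟩ := Nat.Prime.not_coprime_iff_dvd.mp hco
    refine ⟨p, ⟨hp⟩, ?_⟩
    let ci : Multiplicative (ZMod (n i)) →* Multiplicative (ZMod p) :=
      AddMonoidHom.toMultiplicative (ZMod.castHom hpi (ZMod p)).toAddMonoidHom
    let cj : Multiplicative (ZMod (n j)) →* Multiplicative (ZMod p) :=
      AddMonoidHom.toMultiplicative (ZMod.castHom hpj (ZMod p)).toAddMonoidHom
    let evi : (∀ k, Multiplicative (ZMod (n k))) →* Multiplicative (ZMod (n i)) := Pi.evalMonoidHom _ i
    let evj : (∀ k, Multiplicative (ZMod (n k))) →* Multiplicative (ZMod (n j)) := Pi.evalMonoidHom _ j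
    let a : ∀ k, Multiplicative (ZMod (n k)) := Pi.mulSingle i (Multiplicative.ofAdd 1)
    let b : ∀ k, Multiplicative (ZMod (n k)) := Pi.mulSingle j (Multiplicative.ofAdd 1)
    have a_i : a i = Multiplicative.ofAdd 1 := Pi.mulSingle_eq_same _ _
    have a_j : a j = 1 := Pi.mulSingle_eq_of_ne (Ne.symm hij) _
    have b_i : b i = 1 := Pi.mulSingle_eq_of_ne hij _
    have b_j : b j = Multiplicative.ofAdd 1 := Pi.mulSingle_eq_same _ _
    refine ⟨ci.comp (evi.comp e.toMonoidHom), cj.comp (evj.comp e.toMonoidHom),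
      e.symm a, e.symm b, ?_, ?_, ?_, ?_⟩
    · show ci (evi (e (e.symm a))) = _
      rw [e.apply_symm_apply]
      show ci (a i) = _
      rw [a_i]
      show Multiplicative.ofAdd (ZMod.castHom hpi (ZMod p) 1) = _
      rw [map_one]
    · show cj (evj (e (e.symm a))) = _
      rw [e.apply_symm_apply]
      show cj (a j) = _
      rw [a_j, map_one]
    · show ci (evi (e (e.symm b))) = _
      rw [e.apply_symm_apply]
      show ci (b i) = _
      rw [b_i, map_one]
    · show cj (evj (e (e.symm b))) = _
      rw [e.apply_symm_apply]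
      show cj (b j) = _
      rw [b_j]
      show Multiplicative.ofAdd (ZMod.castHom hpj (ZMod p) 1) = _
      rw [map_one]

/-- A finite abelian group has trivial Schur multiplier if and only if it is cyclic. -/
theorem result {G : Type*} [CommGroup G] [Finite G] : Cfsg.HasCyclicSchurMultiplier G 1 ↔ IsCyclic G := by
  constructor
  · intro hM
    by_contra hcyc
    obtain ⟨p, hp, lam, mu, x, y, h1, h2, h3, h4⟩ := exists_two_chars hcyc
    have hstem := stem_bilOf lam mu (mul_comm x y) h1 h2 h3 h4
    obtain ⟨π, hπ⟩ := hM.2 (Tw (bilOf lam mu)) (Tw.proj (bilOf lam mu)) hstem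
    have hmem : Tw.incl (bilOf lam mu) (Multiplicative.ofAdd 1) ∈ (Tw.proj (bilOf lam mu)).ker := rfl
    obtain ⟨t, ht⟩ := hπ ⟨_, hmem⟩
    have ht1 : t = 1 := Subsingleton.elim (α := ZMod 1) _ _
    rw [ht1, map_one] at ht
    have h5 : Tw.incl (bilOf lam mu) (Multiplicative.ofAdd 1) = 1 :=
      (congrArg Subtype.val ht).symm
    have h6 : (Multiplicative.ofAdd (1 : ZMod p)) = 1 := Tw.incl_injective (h5.trans (map_one _).symm)
    have h7 : (1 : ZMod p) = 0 := h6
    exact one_ne_zero h7
  · intro hc
    apply Cfsg.Agent.Lib.KnownSimple.Schur.hasCyclic_one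
    intro Γ _ _ σ hσ
    have hcomm : ∀ a b : Γ, a * b = b * a :=
      (commGroupOfCyclicCenterQuotient σ hσ.2.1).mul_comm
    rw [eq_bot_iff]
    refine hσ.2.2.trans ?_
    rw [commutator_def, Subgroup.commutator_le]
    intro a _ b _
    rw [Subgroup.mem_bot, commutatorElement_eq_one_iff_mul_comm]
    exact hcomm a b

end Cfsg.Agent.S3950
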