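import Mathlib
import Cfsg.Statements.S3951
import Cfsg.Agent.Lib.Schur.Bil
-- import your own Cfsg.Agent.* helpers here

set_option autoImplicit false
open Cfsg

namespace Cfsg.Agent.S3951

open scoped commutatorElement


open Cfsg.Agent.Lib.Schur

/-- A stem extension of a two-generator abelian group, one generator of order dividing `n`,
has a kernel which is an image of `ℤ/n`. -/
theorem exists_surj_of_two_gen {G : Type*} [CommGroup G] {n : ℕ} [NeZero n] {x₀ y₀ : G}
    (hgen : ∀ g : G, ∃ i j : ℕ, g = x₀ ^ i * y₀ ^ j) (hy : y₀ ^ n = 1)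
    {Γ : Type*} [Group Γ] (σ : Γ →* G) (hσ : Cfsg.IsStemExtension σ) :
    ∃ π : Multiplicative (ZMod n) →* σ.ker, Function.Surjective π := by
  classical
  obtain ⟨a, ha⟩ := hσ.1 x₀
  obtain ⟨b, hb⟩ := hσ.1 y₀
  obtain ⟨c, hcdef⟩ : ∃ c, c = ⁅a, b⁆ := ⟨_, rfl⟩
  have hck : c ∈ σ.ker := by
    rw [hcdef, MonoidHom.mem_ker, map_commutatorElement, commutatorElement_eq_one_iff_mul_comm]
    exact mul_comm _ _
  have hcc : c ∈ Subgroup.center Γ := hσ.2.1 hck
  have hpow : ∀ k : ℕ, ⁅a, b ^ k⁆ = c ^ k := by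
    intro k
    induction k with
    | zero => simp
    | succ k ih =>
      have e : ⁅a, b ^ (k + 1)⁆ = ⁅a, b ^ k⁆ * (b ^ k * ⁅a, b⁆ * (b ^ k)⁻¹) := by
        simp only [commutatorElement_def, pow_succ]
        group
      rw [e, ih, ← hcdef, Subgroup.mem_center_iff.mp hcc (b ^ k), pow_succ]
      group
  have hcn : c ^ n = 1 := by
    rw [← hpow, commutatorElement_eq_one_iff_mul_comm]
    have h1 : b ^ n ∈ σ.ker := by
      rw [MonoidHom.mem_ker, map_pow, hb, hy]
    exact (Subgroup.mem_center_iff.mp (hσ.2.1 h1) a)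
  -- the commutator subgroup is generated by `c`
  have hN : (Subgroup.zpowers c).Normal := by
    apply normal_of_le_center'
    rw [Subgroup.zpowers_le]
    exact hcc
  have hle : commutator Γ ≤ Subgroup.zpowers c := by
    have key : ∀ g : Γ, ∃ (i j : ℕ), ∃ z ∈ Subgroup.center Γ, g = a ^ i * b ^ j * z := by
      intro g
      obtain ⟨i, j, hij⟩ := hgen (σ g)
      refine ⟨i, j, (a ^ i * b ^ j)⁻¹ * g, hσ.2.1 ?_, by group⟩
      rw [MonoidHom.mem_ker, map_mul, map_inv, hij, map_mul, map_pow, map_pow, ha, hb]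
      group
    have hq : Commute (QuotientGroup.mk' (Subgroup.zpowers c) a) (QuotientGroup.mk' (Subgroup.zpowers c) b) := by
      have h1 : QuotientGroup.mk' (Subgroup.zpowers c) ⁅a, b⁆ = 1 := by
        rw [← hcdef]
        exact (QuotientGroup.eq_one_iff _).2 (Subgroup.mem_zpowers c)
      rw [map_commutatorElement, commutatorElement_eq_one_iff_mul_comm] at h1
      exact h1
    rw [commutator_def, Subgroup.commutator_le]
    intro g _ h _
    obtain ⟨i, j, z, hz, rfl⟩ := key g
    obtain ⟨k, l, w, hw, rfl⟩ := key h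
    rw [comm_mul_central hz hw]
    rw [← QuotientGroup.eq_one_iff (N := Subgroup.zpowers c)]
    show QuotientGroup.mk' (Subgroup.zpowers c) ⁅a ^ i * b ^ j, a ^ k * b ^ l⁆ = 1
    rw [map_commutatorElement, commutatorElement_eq_one_iff_mul_comm]
    simp only [map_mul, map_pow]
    have hc1 : Commute (QuotientGroup.mk' (Subgroup.zpowers c) a ^ i * QuotientGroup.mk' (Subgroup.zpowers c) b ^ j)
        (QuotientGroup.mk' (Subgroup.zpowers c) a ^ k * QuotientGroup.mk' (Subgroup.zpowers c) b ^ l) := by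
      apply Commute.mul_left
      · apply Commute.mul_right
        · exact (Commute.refl _).pow_pow _ _
        · exact hq.pow_pow _ _
      · apply Commute.mul_right
        · exact hq.symm.pow_pow _ _
        · exact (Commute.refl _).pow_pow _ _
    exact hc1
  -- the map
  let c' : σ.ker := ⟨c, hck⟩
  have hc'n : c' ^ n = 1 := Subtype.ext hcn
  let f : ℤ →+ Additive σ.ker := zmultiplesHom (Additive σ.ker) (Additive.ofMul c')
  have hf : f n = 0 := by
    show ((n : ℕ) : ℤ) • Additive.ofMul c' = 0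
    rw [natCast_zsmul, ← ofMul_pow, hc'n]
    rfl
  let L : ZMod n →+ Additive σ.ker := ZMod.lift n ⟨f, hf⟩
  let π : Multiplicative (ZMod n) →* σ.ker := MonoidHom.mk'
    (fun t => Additive.toMul (L (Multiplicative.toAdd t))) (by
      intro p q
      show Additive.toMul (L (Multiplicative.toAdd p + Multiplicative.toAdd q)) = _
      rw [map_add]
      rfl)
  refine ⟨π, ?_⟩
  rintro ⟨y, hy'⟩
  have h1 : y ∈ Subgroup.zpowers c := hle (hσ.2.2 hy')
  obtain ⟨k, rfl⟩ := h1
  refine ⟨Multiplicative.ofAdd (k : ZMod n), ?_⟩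
  apply Subtype.ext
  show ((Additive.toMul (L (k : ZMod n)) : σ.ker) : Γ) = c ^ k
  have h2 : L (k : ZMod n) = f k := ZMod.lift_coe n ⟨f, hf⟩ k
  rw [h2]
  show ((Additive.toMul (k • Additive.ofMul c') : σ.ker) : Γ) = c ^ k
  rw [← ofMul_zpow]
  rfl

/-- For positive integers `m` and `n` with `n` dividing `m`, the Schur multiplier of the abelian group `ZMod m × ZMod n` (written multiplicatively) is cyclic of order `n`. In particular the elementary abelian group of order `p ^ 2` has multiplier of order `p`. -/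
theorem result (m n : ℕ) [NeZero m] [NeZero n] (hnm : n ∣ m) : Cfsg.HasCyclicSchurMultiplier (Multiplicative (ZMod m × ZMod n)) n := by
  classical
  have hlam : ∃ lam : Multiplicative (ZMod m × ZMod n) →* Multiplicative (ZMod n),
      ∀ t, lam t = Multiplicative.ofAdd (ZMod.castHom hnm (ZMod n) (Multiplicative.toAdd t).1) :=
    ⟨MonoidHom.mk' (fun t => Multiplicative.ofAdd (ZMod.castHom hnm (ZMod n) (Multiplicative.toAdd t).1)) (by
      intro a b
      show Multiplicative.ofAdd (ZMod.castHom hnm (ZMod n) ((Multiplicative.toAdd a).1 + (Multiplicative.toAdd b).1)) = _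
      rw [map_add]
      rfl), fun _ => rfl⟩
  have hmu : ∃ mu : Multiplicative (ZMod m × ZMod n) →* Multiplicative (ZMod n),
      ∀ t, mu t = Multiplicative.ofAdd (Multiplicative.toAdd t).2 :=
    ⟨MonoidHom.mk' (fun t => Multiplicative.ofAdd (Multiplicative.toAdd t).2) (fun _ _ => rfl), fun _ => rfl⟩
  obtain ⟨lam, hlam⟩ := hlam
  obtain ⟨mu, hmu⟩ := hmu
  let x₀ : Multiplicative (ZMod m × ZMod n) := Multiplicative.ofAdd (1, 0)
  let y₀ : Multiplicative (ZMod m × ZMod n) := Multiplicative.ofAdd (0, 1)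
  have h1 : lam x₀ = Multiplicative.ofAdd 1 := by
    rw [hlam]
    show Multiplicative.ofAdd (ZMod.castHom hnm (ZMod n) 1) = _
    rw [map_one]
  have h2 : mu x₀ = 1 := by
    rw [hmu]
    rfl
  have h3 : lam y₀ = 1 := by
    rw [hlam]
    show Multiplicative.ofAdd (ZMod.castHom hnm (ZMod n) 0) = _
    rw [map_zero]
    rfl
  have h4 : mu y₀ = Multiplicative.ofAdd 1 := by
    rw [hmu]
    rfl
  have hstem := stem_bilOf lam mu (mul_comm x₀ y₀) h1 h2 h3 h4
  refine ⟨⟨Tw (bilOf lam mu), inferInstance, inferInstance, Tw.proj (bilOf lam mu), hstem, ⟨Tw.kerEquiv _⟩⟩, ?_⟩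
  intro Γ _ _ σ hσ
  refine exists_surj_of_two_gen (x₀ := x₀) (y₀ := y₀) ?_ ?_ σ hσ
  · intro g
    refine ⟨(Multiplicative.toAdd g).1.val, (Multiplicative.toAdd g).2.val, ?_⟩
    have e : g = Multiplicative.ofAdd
        ((Multiplicative.toAdd g).1.val • ((1 : ZMod m), (0 : ZMod n)) +
          (Multiplicative.toAdd g).2.val • ((0 : ZMod m), (1 : ZMod n))) := by
      apply Multiplicative.toAdd.injective
      show Multiplicative.toAdd g = _
      ext
      · simp
      · simp
    conv_lhs => rw [e]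
    rw [ofAdd_add, ofAdd_nsmul, ofAdd_nsmul]
  · show Multiplicative.ofAdd ((0 : ZMod m), (1 : ZMod n)) ^ n = 1
    rw [← ofAdd_nsmul]
    have : n • ((0 : ZMod m), (1 : ZMod n)) = 0 := by
      ext
      · simp
      · simp
    rw [this]
    rfl

end Cfsg.Agent.S3951
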