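import Mathlib
import Cfsg.Statements.S3952
import Cfsg.Agent.Lib.Schur.Tools
import Cfsg.Agent.Lib.Char.Complete
import Cfsg.Agent.Lib.Char.DetExt
-- import your own Cfsg.Agent.* helpers here

set_option autoImplicit false
open Cfsg

namespace Cfsg.Agent.S3952


open Cfsg Cfsg.Agent.Lib.Char Cfsg.Agent.Lib.Schur

/-- In an irreducible representation a central subgroup inside the commutator subgroup acts by a
character of exponent dividing the degree. -/
theorem exists_central_char {Γ : Type*} [Group Γ] [Finite Γ] (Z : Subgroup Γ)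
    (hZc : Z ≤ Subgroup.center Γ) (hZd : Z ≤ commutator Γ) (χ : IrrCharacter Γ) :
    ∃ (n : ℕ) (ω : Z →* ℂˣ), (χ : Γ → ℂ) 1 = n ∧
      (∀ z : Z, (χ : Γ → ℂ) z = n * (ω z : ℂ)) ∧ ∀ z : Z, ω z ^ n = 1 := by
  classical
  obtain ⟨n, ρ, hirr, hχ⟩ := χ.2
  haveI : Nontrivial (Fin n → ℂ) := nontrivial_of_irr hirr
  have hfr : Module.finrank ℂ (Fin n → ℂ) = n := by simp
  have hsc : ∀ z : Z, ∃ c : ℂ, ρ (z : Γ) = c • 1 := by
    intro z
    apply schur_scalar ρ hirr
    intro g v
    have h1 : (z : Γ) * g = g * z := (Subgroup.mem_center_iff.mp (hZc z.2) g).symm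
    have h2 : ρ ((z : Γ) * g) v = ρ (g * (z : Γ)) v := by rw [h1]
    simpa [map_mul] using h2
  choose c hc using hsc
  have h1ne : (1 : Module.End ℂ (Fin n → ℂ)) ≠ 0 := one_ne_zero
  have hcinj : ∀ a b : ℂ, a • (1 : Module.End ℂ (Fin n → ℂ)) = b • 1 → a = b := by
    intro a b h
    obtain ⟨v, hv⟩ := exists_ne (0 : Fin n → ℂ)
    have h2 : a • v = b • v := by
      have := congrArg (fun f : Module.End ℂ (Fin n → ℂ) => f v) h
      simpa using this
    exact smul_left_injective ℂ hv h2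
  have hc1 : c 1 = 1 := by
    apply hcinj
    rw [← hc 1, one_smul]
    exact map_one ρ
  have hcm : ∀ a b, c (a * b) = c a * c b := by
    intro a b
    apply hcinj
    rw [← hc, mul_smul]
    have : ρ (((a * b : Z)) : Γ) = ρ (a : Γ) * ρ (b : Γ) := by
      rw [Subgroup.coe_mul, map_mul]
    rw [this, hc a, hc b, smul_mul_assoc, one_mul]
  let ω₀ : Z →* ℂ := ⟨⟨c, hc1⟩, hcm⟩
  have hω₀ : ∀ z, ω₀ z = c z := fun _ => rfl
  refine ⟨n, MonoidHom.toHomUnits ω₀, ?_, ?_, ?_⟩
  · rw [← hχ]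
    show LinearMap.trace ℂ (Fin n → ℂ) (ρ 1) = n
    rw [map_one ρ, LinearMap.trace_one, hfr]
  · intro z
    rw [← hχ]
    show LinearMap.trace ℂ (Fin n → ℂ) (ρ z) = n * c z
    rw [hc z, map_smul, LinearMap.trace_one, hfr, smul_eq_mul, mul_comm]
  · intro z
    apply Units.ext
    rw [Units.val_pow_eq_pow_val, Units.val_one]
    show c z ^ n = 1
    have h1 : detHom ρ z = 1 := by
      have h2 := Abelianization.commutator_subset_ker (detHom ρ) (hZd z.2)
      exact h2
    have h2 : (detHom ρ (z : Γ) : ℂ) = c z ^ n := by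
      rw [detHom_apply, hc z, LinearMap.det_smul, hfr]
      simp
    rw [← h2, h1, Units.val_one]

/-- If `A` is the Schur multiplier of the finite group `Q`, then the square of the exponent of `A` divides the order of `Q`. -/
theorem result {Q : Type*} [Group Q] [Finite Q] {A : Type*} [CommGroup A] (hA : Cfsg.HasSchurMultiplier Q A) : Monoid.exponent A ^ 2 ∣ Nat.card Q := by
  classical
  obtain ⟨⟨Γ, _, _, σ, hσ, ⟨e⟩⟩, -⟩ := hA
  haveI := Fintype.ofFinite Γ
  haveI : Fintype σ.ker := Fintype.ofFinite _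
  letI : CommGroup σ.ker :=
    { (inferInstance : Group σ.ker) with
      mul_comm := fun a b => Subtype.ext (Subgroup.mem_center_iff.mp (hσ.2.1 a.2) b).symm }
  have hexp : Monoid.exponent A = Monoid.exponent σ.ker := (Monoid.exponent_eq_of_mulEquiv e).symm
  rw [hexp]
  haveI := hasEnough σ.ker
  obtain ⟨E⟩ := CommGroup.monoidHom_mulEquiv_of_hasEnoughRootsOfUnity σ.ker ℂ
  obtain ⟨z₀, hz₀⟩ := Monoid.exists_orderOf_eq_exponent (G := σ.ker) (Monoid.ExponentExists.of_finite)
  let lam : σ.ker →* ℂˣ := E.symm z₀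
  have hlam : orderOf lam = Monoid.exponent σ.ker := by
    rw [← hz₀]
    exact MulEquiv.orderOf_eq E.symm z₀
  have key := exists_central_char σ.ker hσ.2.1 hσ.2.2
  choose n ω h1 h2 h3 using key
  -- the regular character
  have hreg : ∀ z : σ.ker, ∑ χ : IrrCharacter Γ, ((n χ : ℂ) ^ 2) * (ω χ z : ℂ) =
      if z = 1 then (Nat.card Γ : ℂ) else 0 := by
    intro z
    have h4 := congrFun (leftRegular_character_eq_sum (G := Γ)) (z : Γ)
    rw [leftRegular_character] at h4
    simp only [Finset.sum_apply, Pi.smul_apply, smul_eq_mul] at h4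
    have h5 : ((z : Γ) = 1) ↔ z = 1 := by
      constructor
      · intro h; exact Subtype.ext h
      · intro h; rw [h]; rfl
    simp only [h5] at h4
    rw [h4]
    refine Finset.sum_congr rfl fun χ _ => ?_
    rw [h1 χ, h2 χ z]
    ring
  -- orthogonality on the kernel
  have horth : ∀ χ : IrrCharacter Γ, ∑ z : σ.ker, (ω χ z : ℂ) * ((lam z)⁻¹ : ℂˣ) =
      if ω χ = lam then (Nat.card σ.ker : ℂ) else 0 := by
    intro χ
    let f : σ.ker →* ℂˣ := ω χ * lam⁻¹
    let f' : σ.ker →* ℂ := (Units.coeHom ℂ).comp f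
    have hf : ∀ z, (ω χ z : ℂ) * ((lam z)⁻¹ : ℂˣ) = f' z := by
      intro z
      show _ = ((ω χ z * (lam z)⁻¹ : ℂˣ) : ℂ)
      rw [Units.val_mul]
    simp only [hf]
    split_ifs with hl
    · have h6 : f' = 1 := by
        ext z
        show ((ω χ z * (lam z)⁻¹ : ℂˣ) : ℂ) = 1
        rw [hl, mul_inv_cancel, Units.val_one]
      rw [h6]
      simp
    · apply sum_hom_units_eq_zero
      intro h6
      apply hl
      ext z
      have h7 := DFunLike.congr_fun h6 z
      have h8 : ((ω χ z * (lam z)⁻¹ : ℂˣ) : ℂ) = 1 := h7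
      have h9 : ω χ z * (lam z)⁻¹ = 1 := Units.ext h8
      rw [mul_inv_eq_one.mp h9]
  -- the double sum
  have htotal : ∑ z : σ.ker, (∑ χ : IrrCharacter Γ, ((n χ : ℂ) ^ 2) * (ω χ z : ℂ)) * ((lam z)⁻¹ : ℂˣ) =
      (Nat.card Γ : ℂ) := by
    rw [Finset.sum_eq_single (1 : σ.ker)]
    · rw [hreg, if_pos rfl, map_one, inv_one, Units.val_one, mul_one]
    · intro z _ hz
      rw [hreg, if_neg hz, zero_mul]
    · intro h
      exact absurd (Finset.mem_univ _) h
  have htotal2 : ∑ χ : IrrCharacter Γ, ((n χ : ℂ) ^ 2) * (if ω χ = lam then (Nat.card σ.ker : ℂ) else 0) =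
      (Nat.card Γ : ℂ) := by
    rw [← htotal]
    simp only [Finset.sum_mul, ← horth, Finset.mul_sum]
    rw [Finset.sum_comm]
    refine Finset.sum_congr rfl fun z _ => Finset.sum_congr rfl fun χ _ => ?_
    ring
  -- translate to natural numbers
  let N : ℕ := ∑ χ ∈ Finset.univ.filter (fun χ : IrrCharacter Γ => ω χ = lam), n χ ^ 2
  have hN : (N : ℂ) * (Nat.card σ.ker : ℂ) = (Nat.card Γ : ℂ) := by
    rw [← htotal2]
    show ((∑ χ ∈ Finset.univ.filter (fun χ : IrrCharacter Γ => ω χ = lam), n χ ^ 2 : ℕ) : ℂ) * _ = _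
    push_cast
    rw [Finset.sum_filter, Finset.sum_mul]
    refine Finset.sum_congr rfl fun χ _ => ?_
    split_ifs
    · rfl
    · simp
  have hcardΓ : Nat.card Γ = Nat.card σ.ker * Nat.card Q := by
    have h4 := Subgroup.card_mul_index σ.ker
    rw [Subgroup.index_ker, MonoidHom.range_eq_top.mpr hσ.1, Subgroup.card_top] at h4
    exact h4.symm
  have hN' : N * Nat.card σ.ker = Nat.card Γ := by exact_mod_cast hN
  have hNQ : N = Nat.card Q := by
    rw [hcardΓ, mul_comm] at hN'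
    exact Nat.eq_of_mul_eq_mul_left Nat.card_pos hN'
  rw [← hNQ]
  apply Finset.dvd_sum
  intro χ hχ
  have hχ' : ω χ = lam := (Finset.mem_filter.mp hχ).2
  apply pow_dvd_pow_of_dvd
  rw [← hlam]
  apply orderOf_dvd_of_pow_eq_one
  ext z
  have h5 := h3 χ z
  rw [hχ'] at h5
  have h6 : ((lam ^ n χ) z) = 1 := by
    rw [MonoidHom.pow_apply]
    exact h5
  rw [h6]
  rfl

end Cfsg.Agent.S3952
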