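import Cfsg.Statements.S3953
import Mathlib
import Cfsg.Agent.Lib.Schur.Norm
import Cfsg.Agent.S3952
-- import your own Cfsg.Agent.* helpers here

set_option autoImplicit false
open Cfsg

namespace Cfsg.Agent.S3953

/-- Let `P` be a Sylow `p`-subgroup of the finite group `G`, let `A` be the Schur multiplier of `G` and `B` that of `P`. Then the `p`-primary component of `A` is isomorphic to a direct factor of `B`: there are subgroups `C` and `D` of `B` meeting trivially and generating `B`, with `C` isomorphic to the `p`-primary component of `A`. -/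
theorem result {G : Type*} [Group G] [Finite G] (p : ℕ) [Fact p.Prime] (P : Sylow p G) {A B : Type*} [CommGroup A] [CommGroup B] (hA : Cfsg.HasSchurMultiplier G A) (hB : Cfsg.HasSchurMultiplier P B) : ∃ C D : Subgroup B, C ⊓ D = ⊥ ∧ C ⊔ D = ⊤ ∧ Nonempty (CommGroup.primaryComponent A p ≃* C) := by
  classical
  open Cfsg.Agent.Lib.Schur in
  let κ := kap G
  have hκ : Function.Surjective κ := kap_surjective G
  let P' : Subgroup G := P
  haveI hfi : (HH κ P').FiniteIndex := by
    constructor
    rw [Subgroup.index_comap_of_surjective _ hκ]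
    exact Subgroup.index_ne_zero_of_finite
  have hidx : (HH κ P').index = P'.index := Subgroup.index_comap_of_surjective _ hκ
  obtain ⟨eA⟩ := mulEquiv_of_free hA κ hκ
  obtain ⟨eB⟩ := mulEquiv_of_free hB (kH κ P') (kH_surjective κ P' hκ)
  obtain ⟨t₀, c₀, h⟩ := exists_tr_cor κ P'
  rw [hidx] at h
  let t : A →* B := eB.symm.toMonoidHom.comp (t₀.comp eA.toMonoidHom)
  let c : B →* A := eA.symm.toMonoidHom.comp (c₀.comp eB.toMonoidHom)
  have hct : ∀ a, c (t a) = a ^ P'.index := by
    intro a
    show eA.symm (c₀ (eB (eB.symm (t₀ (eA a))))) = a ^ P'.index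
    rw [eB.apply_symm_apply, h, map_pow, eA.symm_apply_apply]
  have hfA : Finite A := by
    obtain ⟨⟨Γ, _, _, σ, _, ⟨e⟩⟩, -⟩ := hA
    exact Finite.of_equiv _ e.toEquiv
  -- `B` is a `p`-group
  have hpB : ∀ b : B, ∃ k : ℕ, b ^ p ^ k = 1 := by
    obtain ⟨n, hn⟩ := IsPGroup.iff_card.mp P.isPGroup'
    have h1 := Cfsg.Agent.S3952.result hB
    rw [hn] at h1
    have h2 : Monoid.exponent B ∣ p ^ n := (dvd_pow_self _ two_ne_zero).trans h1
    intro b
    refine ⟨n, ?_⟩
    obtain ⟨d, hd⟩ := h2
    rw [hd, pow_mul, Monoid.pow_exponent_eq_one, one_pow]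
  have hmem : ∀ a : A, a ∈ CommGroup.primaryComponent A p ↔ ∃ k : ℕ, a ^ p ^ k = 1 := fun _ => Iff.rfl
  let c' : B →* CommGroup.primaryComponent A p := c.codRestrict _ (by
    intro b
    obtain ⟨k, hk⟩ := hpB b
    rw [hmem]
    refine ⟨k, ?_⟩
    rw [← map_pow, hk, map_one])
  let t' : CommGroup.primaryComponent A p →* B := t.comp (CommGroup.primaryComponent A p).subtype
  have hct' : ∀ a, c' (t' a) = a ^ P'.index := by
    intro a
    apply Subtype.ext
    exact hct a
  -- the power map on the `p`-part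
  have hpA : IsPGroup p (CommGroup.primaryComponent A p) := by
    rintro ⟨a, ha⟩
    obtain ⟨k, hk⟩ := (hmem a).mp ha
    exact ⟨k, Subtype.ext hk⟩
  have hcop : (Nat.card (CommGroup.primaryComponent A p)).Coprime P'.index := by
    obtain ⟨n, hn⟩ := IsPGroup.iff_card.mp hpA
    rw [hn]
    exact Nat.Coprime.pow_left n ((Nat.Prime.coprime_iff_not_dvd Fact.out).2 P.not_dvd_index)
  let α := powCoprime hcop
  have hα : ∀ a, α a = a ^ P'.index := fun a => powCoprime_apply hcop a
  have htinj : Function.Injective t' := by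
    intro a b hab
    apply α.injective
    rw [hα, hα, ← hct', ← hct', hab]
  refine ⟨t'.range, c'.ker, ?_, ?_, ⟨MonoidHom.ofInjective htinj⟩⟩
  · rw [eq_bot_iff]
    rintro _ ⟨⟨a, rfl⟩, hb⟩
    have h1 : c' (t' a) = 1 := hb
    rw [hct', ← hα] at h1
    have h2 : a = 1 := α.injective (by rw [h1, hα, one_pow])
    rw [Subgroup.mem_bot, h2, map_one]
  · rw [eq_top_iff]
    intro b _
    obtain ⟨a, ha⟩ := α.surjective (c' b)
    have h1 : (t' a)⁻¹ * b ∈ c'.ker := by
      rw [MonoidHom.mem_ker, map_mul, map_inv, hct', ← hα, ha]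
      group
    have h2 : b = t' a * ((t' a)⁻¹ * b) := by group
    rw [h2]
    exact Subgroup.mul_mem_sup ⟨a, rfl⟩ h1

end Cfsg.Agent.S3953
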