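import Cfsg.Statements.S3954
import Mathlib
import Cfsg.Agent.Lib.Schur.Tools
import Cfsg.Agent.Lib.Transfer.Basic
-- import your own Cfsg.Agent.* helpers here

set_option autoImplicit false
open Cfsg

namespace Cfsg.Agent.S3954

/-- Let `U` be a subgroup of index `m` in the finite group `G`, let `A` be the Schur multiplier of `G` and `B` that of `U`. Then the subgroup of `m`-th powers of `A` is isomorphic to a subgroup of `B`. -/
theorem result {G : Type*} [Group G] [Finite G] (U : Subgroup G) {A B : Type*} [CommGroup A] [CommGroup B] (hA : Cfsg.HasSchurMultiplier G A) (hB : Cfsg.HasSchurMultiplier U B) : ∃ C : Subgroup B, Nonempty ((powMonoidHom U.index : A →* A).range ≃* C) := by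
  classical
  open Cfsg.Agent.Lib.Schur Cfsg.Agent.Lib.Transfer in
  obtain ⟨⟨Γ, _, _, σ, hσ, ⟨e⟩⟩, -⟩ := hA
  haveI hfB : Finite B := by
    obtain ⟨⟨Γ', _, _, σ', _, ⟨e'⟩⟩, -⟩ := hB
    exact Finite.of_equiv _ e'.toEquiv
  let Ũ : Subgroup Γ := U.comap σ
  let ξ : Ũ →* U := σ.subgroupComap U
  have hs : Function.Surjective ξ := σ.subgroupComap_surjective_of_surjective U hσ.1
  have hz : ξ.ker ≤ Subgroup.center Ũ := by
    intro x hx
    have h1 : (x : Γ) ∈ σ.ker := congrArg Subtype.val hx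
    rw [Subgroup.mem_center_iff]
    intro y
    apply Subtype.ext
    exact Subgroup.mem_center_iff.mp (hσ.2.1 h1) y
  obtain ⟨π, hπ⟩ := exists_range_eq hB ξ hs hz
  haveI : Ũ.FiniteIndex := Subgroup.finiteIndex_of_finite
  have hidx : Ũ.index = U.index := Subgroup.index_comap_of_surjective U hσ.1
  have hzU : ∀ z ∈ σ.ker, z ∈ Ũ := by
    intro z hz'
    have : σ z = 1 := hz'
    show σ z ∈ U
    rw [this]
    exact Subgroup.one_mem _
  -- the transfer argument
  have key : ∀ z (hz' : z ∈ σ.ker), (⟨z, hzU z hz'⟩ : Ũ) ^ U.index ∈ π.range := by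
    intro z hz'
    rw [hπ]
    refine Subgroup.mem_inf.mpr ⟨?_, ?_⟩
    · rw [MonoidHom.mem_ker, map_pow]
      have : ξ ⟨z, hzU z hz'⟩ = 1 := Subtype.ext hz'
      rw [this, one_pow]
    · have h1 : MonoidHom.transfer (Abelianization.of : Ũ →* Abelianization Ũ) z = 1 :=
        Abelianization.commutator_subset_ker (MonoidHom.transfer (Abelianization.of : Ũ →* Abelianization Ũ))
          (hσ.2.2 hz')
      have h2 := transfer_eq_pow_of_central (Abelianization.of : Ũ →* Abelianization Ũ)
        ⟨z, hzU z hz'⟩ (hσ.2.1 hz')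
      have h3 : MonoidHom.transfer (Abelianization.of : Ũ →* Abelianization Ũ) z =
          (Abelianization.of : Ũ →* Abelianization Ũ) ⟨z, hzU z hz'⟩ ^ Ũ.index := h2
      rw [h1, hidx, ← map_pow] at h3
      exact (QuotientGroup.eq_one_iff _).1 h3.symm
  -- the image of the `m`-th powers in `Ũ`
  let R₁ : Subgroup A := (powMonoidHom U.index : A →* A).range
  let f : R₁ →* Ũ :=
    (σ.ker.subtype.comp (e.symm.toMonoidHom.comp R₁.subtype)).codRestrict Ũ (fun x => hzU _ (e.symm x).2)
  have hf : Function.Injective f := by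
    intro a b hab
    have h0 : ((f a : Ũ) : Γ) = ((f b : Ũ) : Γ) := by rw [hab]
    have h1 : ((e.symm (a : A) : σ.ker) : Γ) = ((e.symm (b : A) : σ.ker) : Γ) := h0
    exact Subtype.ext (e.symm.injective (Subtype.ext h1))
  have hfr : f.range ≤ π.range := by
    rintro _ ⟨⟨_, a, rfl⟩, rfl⟩
    have h1 := key _ (e.symm a).2
    have h2 : f ⟨powMonoidHom U.index a, ⟨a, rfl⟩⟩ = (⟨((e.symm a : σ.ker) : Γ), hzU _ (e.symm a).2⟩ : Ũ) ^ U.index := by
      apply Subtype.ext
      show ((e.symm (a ^ U.index) : σ.ker) : Γ) = ((e.symm a : σ.ker) : Γ) ^ U.index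
      rw [map_pow]
      rfl
    rw [h2]
    exact h1
  let W : Subgroup B := f.range.comap π
  let π' : W →* f.range := (π.comp W.subtype).codRestrict f.range (fun b => b.2)
  have hπ' : Function.Surjective π' := by
    rintro ⟨y, hy⟩
    obtain ⟨b, hb⟩ := hfr hy
    refine ⟨⟨b, ?_⟩, Subtype.ext hb⟩
    show π b ∈ f.range
    rw [hb]
    exact hy
  let ι : R₁ ≃* f.range := MonoidHom.ofInjective hf
  let ψ : W →* R₁ := ι.symm.toMonoidHom.comp π'
  have hψ : Function.Surjective ψ := ι.symm.surjective.comp hπ'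
  obtain ⟨j, hj⟩ := exists_injective_of_surjective ψ hψ
  have hj' : Function.Injective (W.subtype.comp j) := W.subtype_injective.comp hj
  exact ⟨(W.subtype.comp j).range, ⟨MonoidHom.ofInjective hj'⟩⟩

end Cfsg.Agent.S3954
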