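import Cfsg.Statements.S3955
import Mathlib
import Cfsg.Agent.Lib.Schur.Rep
import Cfsg.Agent.Lib.Schur.Twist
-- import your own Cfsg.Agent.* helpers here

set_option autoImplicit false
open Cfsg

namespace Cfsg.Agent.S3955

/-- Let `Q` be a finite group with Schur multiplier `A`, and let `σ : Γ →* Q` be a finite stem extension whose kernel is isomorphic to `A` (a Schur covering group of `Q`). Then every homomorphism `γ` from `Q` to the quotient of `GL n ℂ` by its centre lifts along `σ`: there is a homomorphism `ρ : Γ →* GL n ℂ` which, followed by the quotient map, equals `γ ∘ σ`. -/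
theorem result {Q : Type*} [Group Q] [Finite Q] {A : Type*} [CommGroup A] (hA : Cfsg.HasSchurMultiplier Q A) {Γ : Type*} [Group Γ] [Finite Γ] (σ : Γ →* Q) (hσ : Cfsg.IsStemExtension σ) (hk : Nonempty (σ.ker ≃* A)) (n : ℕ) (γ : Q →* (GL (Fin n) ℂ ⧸ Subgroup.center (GL (Fin n) ℂ))) : ∃ ρ : Γ →* GL (Fin n) ℂ, (QuotientGroup.mk' (Subgroup.center (GL (Fin n) ℂ))).comp ρ = γ.comp σ := by
  classical
  open Cfsg.Agent.Lib.Schur in
  let Z := Subgroup.center (GL (Fin n) ℂ)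
  let mk : GL (Fin n) ℂ →* (GL (Fin n) ℂ ⧸ Z) := QuotientGroup.mk' Z
  have hmk : Function.Surjective mk := QuotientGroup.mk'_surjective Z
  have hmkk : mk.ker = Z := QuotientGroup.ker_mk' Z
  -- the extension of `Q` by the scalars
  let ξ : pb mk γ →* Q := pb2 mk γ
  have hξs : Function.Surjective ξ := pb2_surjective hmk
  have hξz : ξ.ker ≤ Subgroup.center (pb mk γ) := ker_pb2_le_center (by rw [hmkk])
  let Φ : GH Q →* GL (Fin n) ℂ := (pb1 mk γ).comp (liftH ξ hξs hξz)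
  have hΦ : ∀ x, mk (Φ x) = γ (kh Q x) := by
    intro x
    have h1 := pb_comm mk γ (liftH ξ hξs hξz x)
    have h2 : ξ (liftH ξ hξs hξz x) = kh Q x := xi_liftH ξ hξs hξz x
    rw [← h2]
    exact h1
  -- the complement
  obtain ⟨e₁⟩ := hk
  obtain ⟨e₂⟩ := mulEquiv_schurM hA
  have hfinA : Nat.card σ.ker = Nat.card (schurM Q) :=
    Nat.card_congr (e₁.toEquiv.trans e₂.toEquiv)
  obtain ⟨hle, hinf, -⟩ := ker_liftH_compl σ hσ hfinA
  let φ := liftH σ hσ.1 hσ.2.1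
  have hφs : Function.Surjective φ := liftH_surjective σ hσ.1 hσ.2.1 hσ.2.2
  let C := φ.ker
  have hCcomm : C ⊓ commutator (GH Q) = ⊥ := by
    rw [eq_bot_iff, ← hinf]
    rintro x ⟨h1, h2⟩
    exact Subgroup.mem_inf.mpr ⟨h1, Subgroup.mem_inf.mpr ⟨hle h1, h2⟩⟩
  have hCZ : ∀ c : C, Φ c ∈ Z := by
    intro c
    rw [← hmkk, MonoidHom.mem_ker, hΦ]
    have : kh Q c = 1 := hle c.2
    rw [this, map_one]
  let g : C →* Z := (Φ.comp C.subtype).codRestrict Z hCZ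
  letI : CommGroup (Subgroup.center (GL (Fin n) ℂ)) :=
    { (inferInstance : Group (Subgroup.center (GL (Fin n) ℂ))) with
      mul_comm := fun a b => Subtype.ext (Subgroup.mem_center_iff.mp a.2 b).symm }
  obtain ⟨f, hf⟩ := extend_char (Z := Subgroup.center (GL (Fin n) ℂ)) (center_GL_divisible (Fin n)) C hCcomm g
  -- the corrected map
  let ρh : GH Q →* GL (Fin n) ℂ := MonoidHom.mk' (fun x => Φ x * ((f x : GL (Fin n) ℂ))⁻¹) (by
    intro a b
    have h0 : ((f (a * b) : Subgroup.center (GL (Fin n) ℂ)) : GL (Fin n) ℂ) = (f a : GL (Fin n) ℂ) * (f b : GL (Fin n) ℂ) := by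
      rw [map_mul]
      rfl
    have h := Subgroup.mem_center_iff.mp (Subgroup.inv_mem _ (f a).2) (Φ b * ((f b : GL (Fin n) ℂ))⁻¹)
    rw [h0, map_mul]
    calc Φ a * Φ b * ((f a : GL (Fin n) ℂ) * (f b : GL (Fin n) ℂ))⁻¹
        = Φ a * (Φ b * ((f b : GL (Fin n) ℂ))⁻¹ * ((f a : GL (Fin n) ℂ))⁻¹) := by group
      _ = Φ a * (((f a : GL (Fin n) ℂ))⁻¹ * (Φ b * ((f b : GL (Fin n) ℂ))⁻¹)) := by rw [h]
      _ = _ := by group)
  have hρh : ∀ x, ρh x = Φ x * ((f x : GL (Fin n) ℂ))⁻¹ := fun _ => rfl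
  have hφρ : φ.ker ≤ ρh.ker := by
    intro c hc
    rw [MonoidHom.mem_ker, hρh]
    have h1 : f c = g ⟨c, hc⟩ := hf ⟨c, hc⟩
    rw [h1]
    show Φ c * (Φ c)⁻¹ = 1
    group
  let ρ : Γ →* GL (Fin n) ℂ := (φ.liftOfSurjective hφs) ⟨ρh, hφρ⟩
  have hρ : ∀ x, ρ (φ x) = ρh x := fun x => MonoidHom.liftOfRightInverse_comp_apply _ _ _ _ x
  refine ⟨ρ, ?_⟩
  ext y
  obtain ⟨x, rfl⟩ := hφs y
  show mk (ρ (φ x)) = γ (σ (φ x))
  rw [hρ, xi_liftH σ hσ.1 hσ.2.1, hρh, map_mul, hΦ]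
  have h2 : mk ((f x : GL (Fin n) ℂ))⁻¹ = 1 := by
    have : ((f x : GL (Fin n) ℂ))⁻¹ ∈ mk.ker := by
      rw [hmkk]
      exact Subgroup.inv_mem _ (f x).2
    exact this
  rw [h2, mul_one]

end Cfsg.Agent.S3955
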