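import Mathlib
import Cfsg.Statements.S3956
import Cfsg.Agent.Lib.Schur.Tools
-- import your own Cfsg.Agent.* helpers here

set_option autoImplicit false
universe u v
open Cfsg

namespace Cfsg.Agent.S3956

open scoped commutatorElement


open Cfsg.Agent.Lib.Schur

/-- The representation of `Δ` induced from a character of a central subgroup `ker τ`. -/
theorem exists_rep {Δ : Type*} {Q : Type*} [Group Δ] [Group Q] [Finite Q] (τ : Δ →* Q)
    (hs : Function.Surjective τ) (hz : τ.ker ≤ Subgroup.center Δ) (χ : τ.ker →* ℂˣ) :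
    ∃ (n : ℕ) (V : Δ →* GL (Fin n) ℂ), 0 < n ∧
      ∀ k : τ.ker, V k = Matrix.GeneralLinearGroup.scalar (Fin n) (χ k) := by
  classical
  haveI := Fintype.ofFinite Q
  let n := Fintype.card Q
  let e : Fin n ≃ Q := (Fintype.equivFin Q).symm
  let t : Q → Δ := Function.surjInv hs
  have ht : ∀ q, τ (t q) = q := Function.surjInv_eq hs
  let cc : Δ → Q → τ.ker := fun x q => ⟨(t (τ x * q))⁻¹ * x * t q, by
    rw [MonoidHom.mem_ker, map_mul, map_mul, map_inv, ht, ht]
    group⟩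
  have hcc : ∀ x y q, cc (x * y) q = cc x (τ y * q) * cc y q := by
    intro x y q
    apply Subtype.ext
    show (t (τ (x * y) * q))⁻¹ * (x * y) * t q =
      ((t (τ x * (τ y * q)))⁻¹ * x * t (τ y * q)) * ((t (τ y * q))⁻¹ * y * t q)
    rw [map_mul, mul_assoc (τ x)]
    group
  have hcc1 : ∀ q, cc 1 q = 1 := by
    intro q
    apply Subtype.ext
    show (t (τ 1 * q))⁻¹ * 1 * t q = 1
    rw [map_one, one_mul]
    group
  have hcck : ∀ (k : τ.ker) q, cc k q = k := by
    intro k q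
    apply Subtype.ext
    show (t (τ k * q))⁻¹ * k * t q = k
    have h1 : τ (k : Δ) = 1 := k.2
    rw [h1, one_mul, mul_assoc, ← Subgroup.mem_center_iff.mp (hz k.2) (t q)]
    group
  let M : Δ → Matrix (Fin n) (Fin n) ℂ := fun x => Matrix.of fun i j =>
    if e i = τ x * e j then ((χ (cc x (e j)) : ℂˣ) : ℂ) else 0
  have hM : ∀ x i j, M x i j = if e i = τ x * e j then ((χ (cc x (e j)) : ℂˣ) : ℂ) else 0 :=
    fun _ _ _ => rfl
  have hM1 : M 1 = 1 := by
    ext i j
    rw [hM, hcc1, map_one χ, Units.val_one, map_one τ, one_mul, Matrix.one_apply]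
    by_cases h : i = j
    · subst h; simp
    · rw [if_neg h, if_neg (fun h' => h (e.injective h'))]
  have hMmul : ∀ x y, M (x * y) = M x * M y := by
    intro x y
    ext i j
    rw [Matrix.mul_apply, Finset.sum_eq_single (e.symm (τ y * e j))]
    · rw [hM, hM, hM, Equiv.apply_symm_apply, if_pos rfl, map_mul τ, mul_assoc (τ x), hcc, map_mul χ]
      by_cases h : e i = τ x * (τ y * e j)
      · rw [if_pos h, if_pos h, Units.val_mul]
      · rw [if_neg h, if_neg h]
        simp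
    · intro l _ hl
      rw [hM y, if_neg, mul_zero]
      intro h
      apply hl
      rw [← h, Equiv.symm_apply_apply]
    · intro h
      exact absurd (Finset.mem_univ _) h
  let V₀ : Δ →* Matrix (Fin n) (Fin n) ℂ := ⟨⟨M, hM1⟩, hMmul⟩
  refine ⟨n, MonoidHom.toHomUnits V₀, Fintype.card_pos, ?_⟩
  intro k
  apply Units.ext
  ext i j
  show M k i j = _
  rw [hM, hcck, Matrix.GeneralLinearGroup.coe_scalar, Matrix.scalar_apply, Matrix.diagonal_apply]
  have h1 : τ (k : Δ) = 1 := k.2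
  rw [h1, one_mul]
  by_cases h : i = j
  · subst h; simp
  · rw [if_neg h, if_neg (fun h' => h (e.injective h'))]

/-- Let `σ : Γ →* Q` be a finite stem extension of the finite group `Q` such that every homomorphism from `Q` to the quotient of `GL n ℂ` by its centre, for every `n`, lifts along `σ` to a homomorphism `Γ →* GL n ℂ`. Then `σ` is a Schur covering group of `Q`: for every finite stem extension `τ : Δ →* Q` with `Δ` in the same universe as `Q`, the kernel of `τ` is a homomorphic image of the kernel of `σ`. -/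
theorem result {Q : Type u} [Group Q] [Finite Q] {Γ : Type v} [Group Γ] [Finite Γ] (σ : Γ →* Q) (hσ : Cfsg.IsStemExtension σ) (hlift : ∀ (n : ℕ) (γ : Q →* (GL (Fin n) ℂ ⧸ Subgroup.center (GL (Fin n) ℂ))), ∃ ρ : Γ →* GL (Fin n) ℂ, (QuotientGroup.mk' (Subgroup.center (GL (Fin n) ℂ))).comp ρ = γ.comp σ) (Δ : Type u) [Group Δ] [Finite Δ] (τ : Δ →* Q) (hτ : Cfsg.IsStemExtension τ) : ∃ π : σ.ker →* τ.ker, Function.Surjective π := by
  classical
  apply exists_surjective_of_pullback hσ hτ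
  intro p hp hp1
  -- the second coordinate is in the kernel
  have hd : (p : Γ × Δ).2 ∈ τ.ker := by
    have h1 : σ (p : Γ × Δ).1 = τ (p : Γ × Δ).2 := p.2
    have h2 : (p : Γ × Δ).1 = 1 := hp1
    rw [h2, map_one] at h1
    exact h1.symm
  letI : CommGroup τ.ker :=
    { (inferInstance : Group τ.ker) with
      mul_comm := fun a b => Subtype.ext (Subgroup.mem_center_iff.mp (hτ.2.1 a.2) b).symm }
  haveI : Finite τ.ker := inferInstance
  haveI := hasEnough τ.ker
  have hone : (⟨_, hd⟩ : τ.ker) = 1 := by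
    by_contra hne
    obtain ⟨χ, hχ⟩ := CommGroup.exists_apply_ne_one_of_hasEnoughRootsOfUnity τ.ker ℂ hne
    apply hχ
    obtain ⟨n, V, hn, hV⟩ := exists_rep τ hτ.1 hτ.2.1 χ
    let Z := Subgroup.center (GL (Fin n) ℂ)
    let mk : GL (Fin n) ℂ →* (GL (Fin n) ℂ ⧸ Z) := QuotientGroup.mk' Z
    have hVZ : τ.ker ≤ (mk.comp V).ker := by
      intro k hk
      have h1 := hV ⟨k, hk⟩
      have h2 : V k ∈ Z := by
        have h3 : V k = Matrix.GeneralLinearGroup.scalar (Fin n) (χ ⟨k, hk⟩) := h1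
        rw [h3]
        show _ ∈ Subgroup.center (GL (Fin n) ℂ)
        rw [Matrix.GeneralLinearGroup.center_eq_range_scalar]
        exact ⟨_, rfl⟩
      exact (QuotientGroup.eq_one_iff _).2 h2
    let γ : Q →* (GL (Fin n) ℂ ⧸ Z) := (τ.liftOfSurjective hτ.1) ⟨mk.comp V, hVZ⟩
    have hγ : ∀ x, γ (τ x) = mk (V x) := fun x => MonoidHom.liftOfRightInverse_comp_apply _ _ _ _ x
    obtain ⟨ρ, hρ⟩ := hlift n γ
    have hρ' : ∀ g, mk (ρ g) = γ (σ g) := fun g => DFunLike.congr_fun hρ g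
    -- the homomorphism on the pullback
    have hcen : ∀ q : pb σ τ, V (pb2 σ τ q) * (ρ (pb1 σ τ q))⁻¹ ∈ Subgroup.center (GL (Fin n) ℂ) := by
      intro q
      apply (QuotientGroup.eq_one_iff (N := Z) _).1
      show mk (V (pb2 σ τ q) * (ρ (pb1 σ τ q))⁻¹) = 1
      rw [map_mul, map_inv, hρ', ← hγ, pb_comm σ τ q]
      group
    let F : pb σ τ →* GL (Fin n) ℂ := MonoidHom.mk' (fun q => V (pb2 σ τ q) * (ρ (pb1 σ τ q))⁻¹) (by
      intro a b
      have h := Subgroup.mem_center_iff.mp (hcen a) (V (pb2 σ τ b) * (ρ (pb1 σ τ b))⁻¹)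
      simp only [map_mul]
      calc V (pb2 σ τ a) * V (pb2 σ τ b) * (ρ (pb1 σ τ a) * ρ (pb1 σ τ b))⁻¹
          = V (pb2 σ τ a) * (V (pb2 σ τ b) * (ρ (pb1 σ τ b))⁻¹) * (ρ (pb1 σ τ a))⁻¹ := by group
        _ = (V (pb2 σ τ a) * (ρ (pb1 σ τ a))⁻¹) * (ρ (pb1 σ τ a) * ((V (pb2 σ τ b) * (ρ (pb1 σ τ b))⁻¹)) * (ρ (pb1 σ τ a))⁻¹) := by group
        _ = (V (pb2 σ τ a) * (ρ (pb1 σ τ a))⁻¹) * (V (pb2 σ τ b) * (ρ (pb1 σ τ b))⁻¹) := by
            rw [Subgroup.mem_center_iff.mp (hcen b) (ρ (pb1 σ τ a))]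
            group)
    have hFp : ∀ q, F q = V (pb2 σ τ q) * (ρ (pb1 σ τ q))⁻¹ := fun _ => rfl
    have hFcomm : commutator (pb σ τ) ≤ F.ker := by
      rw [commutator_def, Subgroup.commutator_le]
      intro a _ b _
      rw [MonoidHom.mem_ker, map_commutatorElement, commutatorElement_eq_one_iff_mul_comm]
      exact (Subgroup.mem_center_iff.mp (hcen a) (F b)).symm
    have h1 : F p = 1 := hFcomm hp
    rw [hFp, hp1, map_one, inv_one, mul_one] at h1
    have h2 : V (p : Γ × Δ).2 = Matrix.GeneralLinearGroup.scalar (Fin n) (χ ⟨_, hd⟩) := hV ⟨_, hd⟩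
    have h3 : V (pb2 σ τ p) = V (p : Γ × Δ).2 := rfl
    rw [h3, h2] at h1
    -- read off an entry
    have h4 := congrArg (fun u : GL (Fin n) ℂ => (u : Matrix (Fin n) (Fin n) ℂ) ⟨0, hn⟩ ⟨0, hn⟩) h1
    simp only [Matrix.GeneralLinearGroup.coe_scalar, Units.val_one, Matrix.one_apply_eq,
      Matrix.scalar_apply, Matrix.diagonal_apply_eq] at h4
    exact Units.ext h4
  apply Subtype.ext
  apply Prod.ext
  · exact hp1
  · exact congrArg Subtype.val hone

end Cfsg.Agent.S3956
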