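import Cfsg.Statements.S3957
import Mathlib
import Cfsg.Agent.Lib.Schur.Tools
-- import your own Cfsg.Agent.* helpers here

set_option autoImplicit false
universe u v
open Cfsg

namespace Cfsg.Agent.S3957

/-- Let `Q` be a finite group with Schur multiplier `A` and let `τ : Δ →* Q` be a finite stem extension, `Δ` in the universe of `Q`. Then there is a finite stem extension `σ : Γ →* Q` with kernel isomorphic to `A` (a Schur covering group) and a surjective homomorphism `β : Γ →* Δ` with `τ ∘ β = σ`. -/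
theorem result {Q : Type u} [Group Q] [Finite Q] {A : Type v} [CommGroup A] (hA : Cfsg.HasSchurMultiplier Q A) {Δ : Type u} [Group Δ] [Finite Δ] (τ : Δ →* Q) (hτ : Cfsg.IsStemExtension τ) : ∃ (Γ : Type u) (_ : Group Γ) (_ : Finite Γ) (σ : Γ →* Q), Cfsg.IsStemExtension σ ∧ Nonempty (σ.ker ≃* A) ∧ ∃ β : Γ →* Δ, Function.Surjective β ∧ τ.comp β = σ := by
  classical
  open Cfsg.Agent.Lib.Schur in
  have hsurj := toKer_surjective τ hτ.1 hτ.2.1 hτ.2.2
  let φ := liftH τ hτ.1 hτ.2.1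
  have hle : φ.ker ≤ (kh Q).ker := by
    intro x hx
    rw [MonoidHom.mem_ker, ← xi_liftH τ hτ.1 hτ.2.1, MonoidHom.mem_ker.mp hx, map_one]
  have hsup : φ.ker ⊔ schurM Q = (kh Q).ker := by
    apply le_antisymm (sup_le hle (schurM_le_ker Q))
    intro x hx
    have h1 : φ x ∈ τ.ker := by
      rw [MonoidHom.mem_ker, xi_liftH]
      exact hx
    obtain ⟨m, hm⟩ := hsurj ⟨_, h1⟩
    have h2 : φ (m : GH Q) = φ x := congrArg Subtype.val hm
    have h3 : x * (m : GH Q)⁻¹ ∈ φ.ker := by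
      rw [MonoidHom.mem_ker, map_mul, map_inv, h2]
      group
    have h4 : x = x * (m : GH Q)⁻¹ * m := by group
    rw [h4]
    exact Subgroup.mul_mem_sup h3 m.2
  haveI : φ.ker.FiniteIndex := inferInstance
  obtain ⟨C, hC, hinf, hsup'⟩ := exists_compl_le φ.ker hle hsup
  obtain ⟨Γ, _, _, σ, q, hq, hqk, hσq, hσ, ⟨e⟩⟩ := exists_cover C (hC.trans hle) hinf hsup'
  obtain ⟨e'⟩ := mulEquiv_schurM hA
  refine ⟨Γ, inferInstance, inferInstance, σ, hσ, ⟨e.trans e'.symm⟩, ?_⟩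
  have hqφ : q.ker ≤ φ.ker := by rw [hqk]; exact hC
  let β : Γ →* Δ := (q.liftOfSurjective hq) ⟨φ, hqφ⟩
  have hβ : ∀ x, β (q x) = φ x := fun x => MonoidHom.liftOfRightInverse_comp_apply _ _ _ _ x
  refine ⟨β, ?_, ?_⟩
  · have hφs : Function.Surjective φ := liftH_surjective τ hτ.1 hτ.2.1 hτ.2.2
    intro d
    obtain ⟨x, hx⟩ := hφs d
    exact ⟨q x, (hβ x).trans hx⟩
  · ext y
    obtain ⟨x, rfl⟩ := hq y
    rw [MonoidHom.comp_apply, hβ, xi_liftH]
    exact (DFunLike.congr_fun hσq x).symm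

end Cfsg.Agent.S3957
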