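import Cfsg.Statements.S3958
import Mathlib
import Cfsg.Agent.Lib.Schur.Tools
-- import your own Cfsg.Agent.* helpers here

set_option autoImplicit false
universe u v
open Cfsg

namespace Cfsg.Agent.S3958

/-- Let `σ : Γ →* Q` be a finite stem extension of the finite group `Q` with `Γ` of trivial Schur multiplier. Then `σ` is a Schur covering group of `Q`: for every finite stem extension `τ : Δ →* Q` with `Δ` in the same universe as `Q`, the kernel of `τ` is a homomorphic image of the kernel of `σ`. -/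
theorem result {Q : Type u} [Group Q] [Finite Q] {Γ : Type v} [Group Γ] [Finite Γ] (σ : Γ →* Q) (hσ : Cfsg.IsStemExtension σ) (hΓ : Cfsg.HasCyclicSchurMultiplier Γ 1) (Δ : Type u) [Group Δ] [Finite Δ] (τ : Δ →* Q) (hτ : Cfsg.IsStemExtension τ) : ∃ π : σ.ker →* τ.ker, Function.Surjective π := by
  apply Cfsg.Agent.Lib.Schur.exists_surjective_of_pullback hσ hτ
  obtain ⟨π, hπ⟩ := Cfsg.Agent.Lib.Schur.exists_range_eq hΓ (Cfsg.Agent.Lib.Schur.pb1 σ τ)
    (Cfsg.Agent.Lib.Schur.pb1_surjective hτ.1) (Cfsg.Agent.Lib.Schur.ker_pb1_le_center hτ.2.1)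
  intro p hp hp1
  have h1 : p ∈ π.range := by
    rw [hπ]
    exact Subgroup.mem_inf.mpr ⟨hp1, hp⟩
  obtain ⟨a, rfl⟩ := h1
  have ha : a = 1 := Subsingleton.elim (α := ZMod 1) _ _
  rw [ha, map_one]

end Cfsg.Agent.S3958
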