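import Mathlib
import Cfsg.Statements.S3959
import Cfsg.Agent.Lib.Schur.Tensor
import Cfsg.Agent.Lib.Schur.Bil
import Cfsg.Agent.Lib.Schur.Twist
-- import your own Cfsg.Agent.* helpers here

set_option autoImplicit false
universe u v w
open Cfsg

namespace Cfsg.Agent.S3959

open scoped commutatorElement


open Cfsg.Agent.Lib.Schur

theorem map_mem_commutator {X Y : Type*} [Group X] [Group Y] (f : X →* Y) {x : X}
    (hx : x ∈ commutator X) : f x ∈ commutator Y := by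
  have h := Subgroup.mem_map_of_mem f hx
  rw [commutator_def, Subgroup.map_commutator] at h
  exact Subgroup.commutator_mono le_top le_top h

section Existence

variable {Q₁ : Type u} {Q₂ : Type v} [Group Q₁] [Group Q₂]
  {Γ₁ : Type u} {Γ₂ : Type v} [Group Γ₁] [Group Γ₂] (σ₁ : Γ₁ →* Q₁) (σ₂ : Γ₂ →* Q₂)

/-- The cocycle on `Γ₁ × Γ₂`. -/
noncomputable def bet : (Γ₁ × Γ₂) →* ((Γ₁ × Γ₂) →* Multiplicative (TT Q₁ Q₂)) :=
  MonoidHom.mk' (fun p => MonoidHom.mk' (fun q => Multiplicative.ofAdd (pureT (σ₁ p.1) (σ₂ q.2))) (by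
      intro q q'
      show Multiplicative.ofAdd (pureT (σ₁ p.1) (σ₂ (q.2 * q'.2))) = _
      rw [map_mul, pureT_mul_right, ofAdd_add])) (by
    intro p p'
    apply MonoidHom.ext
    intro q
    show Multiplicative.ofAdd (pureT (σ₁ (p.1 * p'.1)) (σ₂ q.2)) = _
    rw [map_mul, pureT_mul_left, ofAdd_add]
    rfl)

theorem bet_apply (p q : Γ₁ × Γ₂) :
    bet σ₁ σ₂ p q = Multiplicative.ofAdd (pureT (σ₁ p.1) (σ₂ q.2)) := rfl

/-- The extension of `Q₁ × Q₂`. -/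
noncomputable def sig : Tw (bet σ₁ σ₂) →* Q₁ × Q₂ :=
  (MonoidHom.prodMap σ₁ σ₂).comp (Tw.proj (bet σ₁ σ₂))

theorem sig_apply (p : Tw (bet σ₁ σ₂)) : sig σ₁ σ₂ p = (σ₁ p.g.1, σ₂ p.g.2) := rfl

/-- `Γ₁` in the extension. -/
noncomputable def ii₁ : Γ₁ →* Tw (bet σ₁ σ₂) :=
  MonoidHom.mk' (fun a => ⟨(a, 1), 1⟩) (by
    intro a a'
    refine Tw.ext ?_ ?_
    · show ((a * a', (1 : Γ₂)) : Γ₁ × Γ₂) = (a * a', 1 * 1)
      rw [mul_one]
    · show (1 : Multiplicative (TT Q₁ Q₂)) = 1 * 1 * Multiplicative.ofAdd (pureT (σ₁ a) (σ₂ 1))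
      rw [map_one, pureT_one_right]
      rfl)

/-- `Γ₂` in the extension. -/
noncomputable def ii₂ : Γ₂ →* Tw (bet σ₁ σ₂) :=
  MonoidHom.mk' (fun b => ⟨(1, b), 1⟩) (by
    intro b b'
    refine Tw.ext ?_ ?_
    · show ((1 : Γ₁), b * b') = (1 * 1, b * b')
      rw [mul_one]
    · show (1 : Multiplicative (TT Q₁ Q₂)) = 1 * 1 * Multiplicative.ofAdd (pureT (σ₁ 1) (σ₂ b'))
      rw [map_one, pureT_one_left]
      rfl)

theorem comm_ii (a : Γ₁) (b : Γ₂) :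
    ⁅ii₁ σ₁ σ₂ a, ii₂ σ₁ σ₂ b⁆ = Tw.incl _ (Multiplicative.ofAdd (pureT (σ₁ a) (σ₂ b))) := by
  have h := Tw.comm_lft (β := bet σ₁ σ₂) (x := (a, 1)) (y := (1, b)) (by simp)
  have h2 : bet σ₁ σ₂ (a, 1) (1, b) * (bet σ₁ σ₂ (1, b) (a, 1))⁻¹ =
      Multiplicative.ofAdd (pureT (σ₁ a) (σ₂ b)) := by
    rw [bet_apply, bet_apply]
    show _ * (Multiplicative.ofAdd (pureT (σ₁ 1) (σ₂ 1)))⁻¹ = _
    rw [map_one, pureT_one_left]
    simp
  rw [h2] at h
  exact h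

end Existence


/-- The universality part. -/
theorem univ_part {Q₁ : Type u} {Q₂ : Type v} [Group Q₁] [Group Q₂] [Finite Q₁] [Finite Q₂]
    {A B : Type w} [CommGroup A] [CommGroup B] (hA : Cfsg.HasSchurMultiplier Q₁ A)
    (hB : Cfsg.HasSchurMultiplier Q₂ B) {Δ : Type*} [Group Δ] (τ : Δ →* Q₁ × Q₂)
    (hτ : Cfsg.IsStemExtension τ) :
    ∃ π : A × B × Multiplicative (TT Q₁ Q₂) →* τ.ker, Function.Surjective π := by
  classical
  have hK := hτ.2.1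
  let fτ : Δ →* Q₁ := (MonoidHom.fst Q₁ Q₂).comp τ
  let sτ : Δ →* Q₂ := (MonoidHom.snd Q₁ Q₂).comp τ
  let Δ₁ : Subgroup Δ := sτ.ker
  let Δ₂ : Subgroup Δ := fτ.ker
  let s₁ : Q₁ → Δ := fun q => Function.surjInv hτ.1 (q, 1)
  let s₂ : Q₂ → Δ := fun q => Function.surjInv hτ.1 (1, q)
  have hs₁ : ∀ q, τ (s₁ q) = (q, 1) := fun q => Function.surjInv_eq hτ.1 _
  have hs₂ : ∀ q, τ (s₂ q) = (1, q) := fun q => Function.surjInv_eq hτ.1 _
  have hmem₁ : ∀ d, d ∈ Δ₁ ↔ (τ d).2 = 1 := fun _ => Iff.rfl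
  have hmem₂ : ∀ d, d ∈ Δ₂ ↔ (τ d).1 = 1 := fun _ => Iff.rfl
  let τ₁ : Δ₁ →* Q₁ := fτ.comp Δ₁.subtype
  let τ₂ : Δ₂ →* Q₂ := sτ.comp Δ₂.subtype
  have hτ₁' : ∀ x : Δ₁, τ₁ x = (τ (x : Δ)).1 := fun _ => rfl
  have hτ₂' : ∀ x : Δ₂, τ₂ x = (τ (x : Δ)).2 := fun _ => rfl
  have hτ₁s : Function.Surjective τ₁ := fun q =>
    ⟨⟨s₁ q, by rw [hmem₁, hs₁]⟩, by rw [hτ₁', hs₁]⟩
  have hτ₂s : Function.Surjective τ₂ := fun q =>
    ⟨⟨s₂ q, by rw [hmem₂, hs₂]⟩, by rw [hτ₂', hs₂]⟩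
  have hk₁ : ∀ x : Δ₁, τ₁ x = 1 → (x : Δ) ∈ τ.ker := fun x hx => Prod.ext hx x.2
  have hk₂ : ∀ x : Δ₂, τ₂ x = 1 → (x : Δ) ∈ τ.ker := fun x hx => Prod.ext x.2 hx
  have hτ₁z : τ₁.ker ≤ Subgroup.center Δ₁ := by
    intro x hx
    rw [Subgroup.mem_center_iff]
    intro y
    apply Subtype.ext
    exact Subgroup.mem_center_iff.mp (hK (hk₁ x hx)) y
  have hτ₂z : τ₂.ker ≤ Subgroup.center Δ₂ := by
    intro x hx
    rw [Subgroup.mem_center_iff]
    intro y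
    apply Subtype.ext
    exact Subgroup.mem_center_iff.mp (hK (hk₂ x hx)) y
  obtain ⟨π₁, hπ₁⟩ := exists_range_eq hA τ₁ hτ₁s hτ₁z
  obtain ⟨π₂, hπ₂⟩ := exists_range_eq hB τ₂ hτ₂s hτ₂z
  obtain ⟨Λ, hΛ⟩ := exists_pairing τ.ker hK s₁ s₂
    (by
      intro a b
      rw [MonoidHom.mem_ker, map_mul, map_inv, map_mul, hs₁, hs₁, hs₁]
      simp)
    (by
      intro a b
      rw [MonoidHom.mem_ker, map_mul, map_inv, map_mul, hs₂, hs₂, hs₂]
      simp)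
    (by
      intro a b
      rw [MonoidHom.mem_ker, map_commutatorElement, hs₁, hs₂, commutatorElement_eq_one_iff_mul_comm]
      simp)
  letI : CommGroup τ.ker :=
    { (inferInstance : Group τ.ker) with
      mul_comm := fun a b => Subtype.ext (Subgroup.mem_center_iff.mp (hK a.2) b).symm }
  let π₁' : A →* τ.ker := (Δ₁.subtype.comp π₁).codRestrict τ.ker (by
    intro a
    have h1 : π₁ a ∈ π₁.range := ⟨a, rfl⟩
    rw [hπ₁] at h1
    exact hk₁ _ (Subgroup.mem_inf.mp h1).1)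
  let π₂' : B →* τ.ker := (Δ₂.subtype.comp π₂).codRestrict τ.ker (by
    intro a
    have h1 : π₂ a ∈ π₂.range := ⟨a, rfl⟩
    rw [hπ₂] at h1
    exact hk₂ _ (Subgroup.mem_inf.mp h1).1)
  refine ⟨π₁'.coprod (π₂'.coprod Λ), ?_⟩
  -- surjectivity
  haveI hN₁ : Δ₁.Normal := sτ.normal_ker
  haveI hN₂ : Δ₂.Normal := fτ.normal_ker
  let D₁ : Subgroup Δ := ⁅Δ₁, Δ₁⁆
  let D₂ : Subgroup Δ := ⁅Δ₂, Δ₂⁆
  let L : Subgroup Δ := (τ.ker.subtype.comp Λ).range
  haveI hD₁ : D₁.Normal := Subgroup.commutator_normal _ _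
  haveI hD₂ : D₂.Normal := Subgroup.commutator_normal _ _
  have hLc : L ≤ Subgroup.center Δ := by
    rintro _ ⟨t, rfl⟩
    exact hK (Λ t).2
  haveI hL : L.Normal := normal_of_le_center' hLc
  let J : Subgroup Δ := (D₁ ⊔ D₂) ⊔ L
  haveI hJ : J.Normal := Subgroup.sup_normal _ _
  let q : Δ →* (Δ ⧸ J) := QuotientGroup.mk' J
  have hq : ∀ {x y : Δ}, ⁅x, y⁆ ∈ J → Commute (q x) (q y) := by
    intro x y h
    have h1 : q ⁅x, y⁆ = 1 := (QuotientGroup.eq_one_iff _).2 h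
    rw [map_commutatorElement, commutatorElement_eq_one_iff_mul_comm] at h1
    exact h1
  have c₁₁ : ∀ x ∈ Δ₁, ∀ y ∈ Δ₁, Commute (q x) (q y) := fun x hx y hy =>
    hq (Subgroup.mem_sup_left (Subgroup.mem_sup_left (Subgroup.commutator_mem_commutator hx hy)))
  have c₂₂ : ∀ x ∈ Δ₂, ∀ y ∈ Δ₂, Commute (q x) (q y) := fun x hx y hy =>
    hq (Subgroup.mem_sup_left (Subgroup.mem_sup_right (Subgroup.commutator_mem_commutator hx hy)))
  have c₁₂ : ∀ x ∈ Δ₁, ∀ y ∈ Δ₂, Commute (q x) (q y) := by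
    intro x hx y hy
    apply hq
    apply Subgroup.mem_sup_right
    have h1 : (s₁ (τ x).1)⁻¹ * x ∈ τ.ker := by
      rw [MonoidHom.mem_ker, map_mul, map_inv, hs₁]
      apply Prod.ext
      · simp
      · simpa using (hmem₁ x).1 hx
    have h2 : (s₂ (τ y).2)⁻¹ * y ∈ τ.ker := by
      rw [MonoidHom.mem_ker, map_mul, map_inv, hs₂]
      apply Prod.ext
      · simpa using (hmem₂ y).1 hy
      · simp
    have e1 : x = s₁ (τ x).1 * ((s₁ (τ x).1)⁻¹ * x) := by group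
    have e2 : y = s₂ (τ y).2 * ((s₂ (τ y).2)⁻¹ * y) := by group
    have e3 : ⁅x, y⁆ = ⁅s₁ (τ x).1, s₂ (τ y).2⁆ := by
      conv_lhs => rw [e1, e2]
      exact comm_mul_central (hK h1) (hK h2)
    rw [e3, ← hΛ]
    exact ⟨_, rfl⟩
  have hdec : ∀ a : Δ, ∃ a₁ ∈ Δ₁, ∃ a₂ ∈ Δ₂, a = a₁ * a₂ := by
    intro a
    refine ⟨s₁ (τ a).1, by rw [hmem₁, hs₁], (s₁ (τ a).1)⁻¹ * a, ?_, by group⟩
    rw [hmem₂, map_mul, map_inv, hs₁]
    simp
  have hcomm : commutator Δ ≤ J := by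
    rw [commutator_def, Subgroup.commutator_le]
    intro a _ b _
    obtain ⟨a₁, ha₁, a₂, ha₂, rfl⟩ := hdec a
    obtain ⟨b₁, hb₁, b₂, hb₂, rfl⟩ := hdec b
    rw [← QuotientGroup.eq_one_iff (N := J)]
    show q ⁅a₁ * a₂, b₁ * b₂⁆ = 1
    rw [map_commutatorElement, commutatorElement_eq_one_iff_mul_comm, map_mul, map_mul]
    have h : Commute (q a₁ * q a₂) (q b₁ * q b₂) := by
      apply Commute.mul_left
      · apply Commute.mul_right
        · exact c₁₁ _ ha₁ _ hb₁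
        · exact c₁₂ _ ha₁ _ hb₂
      · apply Commute.mul_right
        · exact (c₁₂ _ hb₁ _ ha₂).symm
        · exact c₂₂ _ ha₂ _ hb₂
    exact h
  rintro ⟨k, hk⟩
  have hkJ : k ∈ J := hcomm (hτ.2.2 hk)
  obtain ⟨u, hu, l, hl, rfl⟩ := Subgroup.mem_sup_of_normal_left.mp hkJ
  obtain ⟨d₁, hd₁, d₂, hd₂, rfl⟩ := Subgroup.mem_sup_of_normal_left.mp hu
  obtain ⟨t, rfl⟩ := hl
  have hτl : τ ((τ.ker.subtype.comp Λ) t) = 1 := (Λ t).2
  have hd₁' : (τ d₁).2 = 1 := (Subgroup.commutator_le_left Δ₁ Δ₁) hd₁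
  have hd₂' : (τ d₂).1 = 1 := (Subgroup.commutator_le_left Δ₂ Δ₂) hd₂
  have h0 : τ (d₁ * d₂ * (τ.ker.subtype.comp Λ) t) = 1 := hk
  rw [map_mul, map_mul, hτl, mul_one] at h0
  have h01 : (τ d₁).1 = 1 := by
    have := congrArg Prod.fst h0
    simpa [hd₂'] using this
  have h02 : (τ d₂).2 = 1 := by
    have := congrArg Prod.snd h0
    simpa [hd₁'] using this
  -- from `D₁` to the image of `A`
  have hd₁'' : d₁ ∈ (commutator Δ₁).map Δ₁.subtype := by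
    rw [Subgroup.map_subtype_commutator]
    exact hd₁
  have hd₂'' : d₂ ∈ (commutator Δ₂).map Δ₂.subtype := by
    rw [Subgroup.map_subtype_commutator]
    exact hd₂
  obtain ⟨x₁, hx₁, rfl⟩ := hd₁''
  obtain ⟨x₂, hx₂, rfl⟩ := hd₂''
  have hr₁ : x₁ ∈ π₁.range := by
    rw [hπ₁]
    exact Subgroup.mem_inf.mpr ⟨h01, hx₁⟩
  have hr₂ : x₂ ∈ π₂.range := by
    rw [hπ₂]
    exact Subgroup.mem_inf.mpr ⟨h02, hx₂⟩
  obtain ⟨a, rfl⟩ := hr₁
  obtain ⟨b, rfl⟩ := hr₂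
  refine ⟨(a, b, t), ?_⟩
  apply Subtype.ext
  show ((π₁' a * (π₂' b * Λ t) : τ.ker) : Δ) = _
  show (π₁ a : Δ) * ((π₂ b : Δ) * (Λ t : Δ)) = _
  show _ = (π₁ a : Δ) * (π₂ b : Δ) * (Λ t : Δ)
  rw [mul_assoc]

/-- Let `Q₁` and `Q₂` be finite groups with Schur multipliers `A` and `B`. Then the Schur multiplier of `Q₁ × Q₂` is isomorphic to `A × B × (Q₁ᵃᵇ ⊗ Q₂ᵃᵇ)`, the last factor being the tensor product over the integers of the commutator quotients, written multiplicatively. -/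
theorem result {Q₁ : Type u} {Q₂ : Type v} [Group Q₁] [Group Q₂] [Finite Q₁] [Finite Q₂] {A B : Type w} [CommGroup A] [CommGroup B] (hA : Cfsg.HasSchurMultiplier Q₁ A) (hB : Cfsg.HasSchurMultiplier Q₂ B) : Cfsg.HasSchurMultiplier (Q₁ × Q₂) (A × B × Multiplicative (TensorProduct ℤ (Additive (Abelianization Q₁)) (Additive (Abelianization Q₂)))) := by
  classical
  refine ⟨?_, ?_⟩
  · -- existence
    obtain ⟨Γ₁, _, _, σ₁, hσ₁, ⟨e₁⟩⟩ := hA.1
    obtain ⟨Γ₂, _, _, σ₂, hσ₂, ⟨e₂⟩⟩ := hB.1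
    have hker : ∀ p : Tw (bet σ₁ σ₂), p ∈ (sig σ₁ σ₂).ker → p.g.1 ∈ σ₁.ker ∧ p.g.2 ∈ σ₂.ker := by
      intro p hp
      have h := (sig_apply σ₁ σ₂ p).symm.trans hp
      exact ⟨congrArg Prod.fst h, congrArg Prod.snd h⟩
    have hstem : Cfsg.IsStemExtension (sig σ₁ σ₂) := by
      refine ⟨?_, ?_, ?_⟩
      · rintro ⟨q₁, q₂⟩
        obtain ⟨a, rfl⟩ := hσ₁.1 q₁
        obtain ⟨b, rfl⟩ := hσ₂.1 q₂
        exact ⟨⟨(a, b), 1⟩, rfl⟩
      · intro p hp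
        obtain ⟨h1, h2⟩ := hker p hp
        have h1' : σ₁ p.g.1 = 1 := h1
        have h2' : σ₂ p.g.2 = 1 := h2
        rw [Subgroup.mem_center_iff]
        intro q
        refine Tw.ext ?_ ?_
        · apply Prod.ext
          · exact Subgroup.mem_center_iff.mp (hσ₁.2.1 h1) q.g.1
          · exact Subgroup.mem_center_iff.mp (hσ₂.2.1 h2) q.g.2
        · show q.t * p.t * bet σ₁ σ₂ q.g p.g = p.t * q.t * bet σ₁ σ₂ p.g q.g
          rw [bet_apply, bet_apply, h1', h2', pureT_one_right, pureT_one_left, mul_comm q.t]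
      · intro p hp
        obtain ⟨h1, h2⟩ := hker p hp
        have h1' : σ₁ p.g.1 = 1 := h1
        have hdec : p = ii₁ σ₁ σ₂ p.g.1 * ii₂ σ₁ σ₂ p.g.2 * Tw.incl _ p.t := by
          refine Tw.ext ?_ ?_
          · apply Prod.ext
            · show p.g.1 = p.g.1 * 1 * 1
              simp
            · show p.g.2 = 1 * p.g.2 * 1
              simp
          · show p.t = (1 * 1 * bet σ₁ σ₂ (p.g.1, 1) (1, p.g.2)) * p.t *
              bet σ₁ σ₂ (p.g.1 * 1, 1 * p.g.2) 1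
            rw [bet_apply, bet_apply]
            show p.t = (1 * 1 * Multiplicative.ofAdd (pureT (σ₁ p.g.1) (σ₂ p.g.2))) * p.t *
              Multiplicative.ofAdd (pureT (σ₁ (p.g.1 * 1)) (σ₂ 1))
            rw [h1', map_one, pureT_one_left, pureT_one_right]
            simp
        have hincl : ∀ x : TT Q₁ Q₂, Tw.incl (bet σ₁ σ₂) (Multiplicative.ofAdd x) ∈ commutator (Tw (bet σ₁ σ₂)) := by
          apply TT_induction
          · exact Subgroup.one_mem _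
          · intro a b
            obtain ⟨a', rfl⟩ := hσ₁.1 a
            obtain ⟨b', rfl⟩ := hσ₂.1 b
            rw [← comm_ii]
            exact Subgroup.commutator_mem_commutator trivial trivial
          · intro x y hx hy
            rw [ofAdd_add, map_mul]
            exact Subgroup.mul_mem _ hx hy
        rw [hdec]
        exact Subgroup.mul_mem _ (Subgroup.mul_mem _ (map_mem_commutator _ (hσ₁.2.2 h1))
            (map_mem_commutator _ (hσ₂.2.2 h2)))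
          (hincl (Multiplicative.toAdd p.t))
    haveI : Finite (Multiplicative (TT Q₁ Q₂)) := inferInstanceAs (Finite (TT Q₁ Q₂))
    refine ⟨Tw (bet σ₁ σ₂), inferInstance, Finite.of_injective (fun x : Tw (bet σ₁ σ₂) => (x.g, x.t)) (by
      intro a b h
      refine Tw.ext ?_ ?_
      · exact congrArg Prod.fst h
      · exact congrArg Prod.snd h), sig σ₁ σ₂, hstem, ?_⟩
    let f : (sig σ₁ σ₂).ker →* A × B × Multiplicative (TT Q₁ Q₂) := MonoidHom.mk'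
      (fun p => (e₁ ⟨(p : Tw (bet σ₁ σ₂)).g.1, (hker _ p.2).1⟩, e₂ ⟨(p : Tw (bet σ₁ σ₂)).g.2, (hker _ p.2).2⟩,
        (p : Tw (bet σ₁ σ₂)).t)) (by
        intro p q
        apply Prod.ext
        · show e₁ ⟨_, _⟩ = e₁ _ * e₁ _
          rw [← map_mul]
          rfl
        apply Prod.ext
        · show e₂ ⟨_, _⟩ = e₂ _ * e₂ _
          rw [← map_mul]
          rfl
        · show (p : Tw (bet σ₁ σ₂)).t * (q : Tw (bet σ₁ σ₂)).t * bet σ₁ σ₂ (p : Tw (bet σ₁ σ₂)).g (q : Tw (bet σ₁ σ₂)).g =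
            (p : Tw (bet σ₁ σ₂)).t * (q : Tw (bet σ₁ σ₂)).t
          have h1' : σ₁ (p : Tw (bet σ₁ σ₂)).g.1 = 1 := (hker _ p.2).1
          rw [bet_apply, h1', pureT_one_left]
          simp)
    have hf : Function.Bijective f := by
      constructor
      · intro p q hpq
        have h1 := congrArg Prod.fst hpq
        have h2 := congrArg (fun x => x.2.1) hpq
        have h3 := congrArg (fun x => x.2.2) hpq
        have h1' := congrArg Subtype.val (e₁.injective h1)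
        have h2' := congrArg Subtype.val (e₂.injective h2)
        apply Subtype.ext
        refine Tw.ext ?_ ?_
        · exact Prod.ext h1' h2'
        · exact h3
      · rintro ⟨x, y, t⟩
        refine ⟨⟨⟨⟨((e₁.symm x : σ₁.ker) : Γ₁), ((e₂.symm y : σ₂.ker) : Γ₂)⟩, t⟩, ?_⟩, ?_⟩
        · show sig σ₁ σ₂ _ = 1
          rw [sig_apply]
          exact Prod.ext (e₁.symm x).2 (e₂.symm y).2
        · apply Prod.ext
          · show e₁ ⟨_, _⟩ = x
            rw [show (⟨((e₁.symm x : σ₁.ker) : Γ₁), _⟩ : σ₁.ker) = e₁.symm x from rfl, e₁.apply_symm_apply]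
          apply Prod.ext
          · show e₂ ⟨_, _⟩ = y
            rw [show (⟨((e₂.symm y : σ₂.ker) : Γ₂), _⟩ : σ₂.ker) = e₂.symm y from rfl, e₂.apply_symm_apply]
          · rfl
    exact ⟨MulEquiv.ofBijective f hf⟩
  · -- universality
    intro Δ _ _ τ hτ
    exact univ_part hA hB τ hτ

end Cfsg.Agent.S3959
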