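import Cfsg.Statements.S3960
import Mathlib
import Cfsg.Agent.Lib.Schur.Tools
-- import your own Cfsg.Agent.* helpers here

set_option autoImplicit false
universe u
open Cfsg

namespace Cfsg.Agent.S3960

/-- A finite perfect group `Q` has a universal central extension: a finite perfect group `G` in the universe of `Q` and a surjective homomorphism `π : G →* Q` with central kernel such that for every group `X` in that universe and every surjective homomorphism `ξ : X →* Q` with central kernel there is exactly one homomorphism `η : G →* X` with `ξ ∘ η = π`. -/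
theorem result {Q : Type u} [Group Q] [Finite Q] (hQ : Group.IsPerfect Q) : ∃ (G : Type u) (_ : Group G) (_ : Finite G) (π : G →* Q), Group.IsPerfect G ∧ Function.Surjective π ∧ π.ker ≤ Subgroup.center G ∧ ∀ (X : Type u) [Group X] (ξ : X →* Q), Function.Surjective ξ → ξ.ker ≤ Subgroup.center X → ∃! η : G →* X, ξ.comp η = π := by
  classical
  open Cfsg.Agent.Lib.Schur in
  haveI : Group.IsPerfect Q := hQ
  open Cfsg.Agent.Lib.Schur in
  have hcomm : ∀ x : GH Q, ∃ y ∈ commutator (GH Q), ∃ z ∈ Subgroup.center (GH Q), x = y * z := by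
    intro x
    have h1 : kh Q x ∈ commutator Q := Group.IsPerfect.mem_commutator
    have h2 := commutator_le_map_of_surjective (kh Q) (kh_surjective Q) h1
    obtain ⟨y, hy, hyx⟩ := h2
    refine ⟨y, hy, y⁻¹ * x, ker_kh_le_center Q ?_, by group⟩
    rw [MonoidHom.mem_ker, map_mul, map_inv, hyx]
    group
  open Cfsg.Agent.Lib.Schur in
  have hperf : Group.IsPerfect (commutator (GH Q)) := by
    rw [Subgroup.isPerfect_iff]
    apply le_antisymm (Subgroup.commutator_le_left _ _)
    conv_lhs => rw [commutator_def]
    rw [Subgroup.commutator_le]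
    intro a _ b _
    obtain ⟨y, hy, z, hz, rfl⟩ := hcomm a
    obtain ⟨y', hy', z', hz', rfl⟩ := hcomm b
    rw [comm_mul_central hz hz']
    exact Subgroup.commutator_mem_commutator hy hy'
  open Cfsg.Agent.Lib.Schur in
  refine ⟨commutator (GH Q), inferInstance, inferInstance, (kh Q).comp (commutator (GH Q)).subtype,
    hperf, ?_, ?_, ?_⟩
  · intro q
    have h1 : q ∈ commutator Q := Group.IsPerfect.mem_commutator
    have h2 := commutator_le_map_of_surjective (kh Q) (kh_surjective Q) h1
    obtain ⟨y, hy, rfl⟩ := h2
    exact ⟨⟨y, hy⟩, rfl⟩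
  · intro x hx
    rw [Subgroup.mem_center_iff]
    intro y
    apply Subtype.ext
    exact Subgroup.mem_center_iff.mp (ker_kh_le_center Q hx) y
  · intro X _ ξ hξ hz
    refine ⟨(liftH ξ hξ hz).comp (commutator (GH Q)).subtype, ?_, ?_⟩
    · ext x
      exact xi_liftH ξ hξ hz x
    · intro η hη
      apply eq_of_perfect ξ hz
      rw [hη]
      ext x
      exact (xi_liftH ξ hξ hz x).symm

end Cfsg.Agent.S3960
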