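import Cfsg.Statements.S3961
import Mathlib
import Cfsg.Agent.Lib.Schur.Tools
import Cfsg.Agent.Lib.KnownSimple.Schur
-- import your own Cfsg.Agent.* helpers here

set_option autoImplicit false
universe u v
open Cfsg

namespace Cfsg.Agent.S3961

open scoped commutatorElement

/-- Let `π : G →* Q` be a surjective homomorphism with central kernel from a finite perfect group `G` (a perfect cover of `Q`). Then `π` is universal, in the sense that every surjective homomorphism `ξ : X →* Q` with central kernel from a group `X` in the universe of `G` admits a homomorphism `η : G →* X` with `ξ ∘ η = π`, if and only if `G` has trivial Schur multiplier. -/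
theorem result {G : Type u} {Q : Type v} [Group G] [Group Q] [Finite G] (hG : Group.IsPerfect G) (π : G →* Q) (hπ : Function.Surjective π) (hker : π.ker ≤ Subgroup.center G) : (∀ (X : Type u) [Group X] (ξ : X →* Q), Function.Surjective ξ → ξ.ker ≤ Subgroup.center X → ∃ η : G →* X, ξ.comp η = π) ↔ Cfsg.HasCyclicSchurMultiplier G 1 := by
  classical
  open Cfsg.Agent.Lib.Schur in
  constructor
  · -- universal implies trivial multiplier
    intro huniv
    apply Cfsg.Agent.Lib.KnownSimple.Schur.hasCyclic_one
    intro Γ _ _ τ hτ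
    -- `Γ` is perfect
    have hΓ : commutator Γ = ⊤ := by
      rw [eq_top_iff]
      intro x _
      have h1 : τ x ∈ commutator G := Group.IsPerfect.mem_commutator
      obtain ⟨y, hy, hyx⟩ := commutator_le_map_of_surjective τ hτ.1 h1
      have h2 : y⁻¹ * x ∈ τ.ker := by
        rw [MonoidHom.mem_ker, map_mul, map_inv, hyx]
        group
      have h3 : x = y * (y⁻¹ * x) := by group
      rw [h3]
      exact Subgroup.mul_mem _ hy (hτ.2.2 h2)
    -- the composite has central kernel
    have hY : (π.comp τ).ker ≤ Subgroup.center Γ := by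
      have h0 : ⁅(π.comp τ).ker, (⊤ : Subgroup Γ)⁆ ≤ Subgroup.center Γ := by
        refine le_trans ?_ hτ.2.1
        rw [Subgroup.commutator_le]
        intro y hy g _
        have h2 : τ y ∈ π.ker := hy
        have h3 := hker h2
        rw [MonoidHom.mem_ker, map_commutatorElement, commutatorElement_eq_one_iff_mul_comm]
        exact (Subgroup.mem_center_iff.mp h3 _).symm
      have h1 : ⁅⁅(π.comp τ).ker, (⊤ : Subgroup Γ)⁆, (⊤ : Subgroup Γ)⁆ = ⊥ := by
        rw [eq_bot_iff, Subgroup.commutator_le]
        intro x hx g _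
        rw [Subgroup.mem_bot, commutatorElement_eq_one_iff_mul_comm]
        exact (Subgroup.mem_center_iff.mp (h0 hx) g).symm
      have h2 : ⁅⁅(⊤ : Subgroup Γ), (π.comp τ).ker⁆, (⊤ : Subgroup Γ)⁆ = ⊥ := by
        rw [Subgroup.commutator_comm (⊤ : Subgroup Γ) (π.comp τ).ker]
        exact h1
      have h3 := Subgroup.commutator_commutator_eq_bot_of_rotate h2 h1
      have h4 : ⁅(⊤ : Subgroup Γ), (⊤ : Subgroup Γ)⁆ = ⊤ := hΓ
      rw [h4] at h3
      intro y hy
      rw [Subgroup.mem_center_iff]
      intro g
      have h5 : ⁅g, y⁆ ∈ (⊥ : Subgroup Γ) := by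
        rw [← h3]
        exact Subgroup.commutator_mem_commutator trivial hy
      rw [Subgroup.mem_bot, commutatorElement_eq_one_iff_mul_comm] at h5
      exact h5
    obtain ⟨η, hη⟩ := huniv Γ (π.comp τ) (hπ.comp hτ.1) hY
    have h1 : τ.comp η = MonoidHom.id G := by
      apply eq_of_perfect π hker
      exact (MonoidHom.comp_assoc η τ π).symm.trans (hη.trans (MonoidHom.comp_id π).symm)
    have h1' : ∀ g, τ (η g) = g := fun g => DFunLike.congr_fun h1 g
    have h2 : commutator Γ ≤ η.range := by
      rw [commutator_def, Subgroup.commutator_le]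
      intro a _ b _
      have key : ∀ a : Γ, ∃ z ∈ Subgroup.center Γ, a = η (τ a) * z := by
        intro a
        refine ⟨(η (τ a))⁻¹ * a, hτ.2.1 ?_, by group⟩
        rw [MonoidHom.mem_ker, map_mul, map_inv, h1']
        group
      obtain ⟨z, hz, hza⟩ := key a
      obtain ⟨w, hw, hwb⟩ := key b
      rw [hza, hwb, comm_mul_central hz hw, ← map_commutatorElement]
      exact ⟨_, rfl⟩
    rw [eq_bot_iff]
    intro z hz
    have h3 : z ∈ commutator Γ := by rw [hΓ]; trivial
    obtain ⟨g, rfl⟩ := h2 h3
    have h4 : τ (η g) = 1 := hz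
    rw [h1'] at h4
    rw [h4, map_one]
    exact Subgroup.one_mem _
  · -- trivial multiplier implies universal
    intro hM X _ ξ hξ hz
    obtain ⟨ρ, hρ⟩ := exists_range_eq hM (pb1 π ξ) (pb1_surjective hξ) (ker_pb1_le_center hz)
    have hinj : ∀ p ∈ commutator (pb π ξ), pb1 π ξ p = 1 → p = 1 := by
      intro p hp hp1
      have h1 : p ∈ ρ.range := by
        rw [hρ]
        exact Subgroup.mem_inf.mpr ⟨hp1, hp⟩
      obtain ⟨a, rfl⟩ := h1
      have ha : a = 1 := Subsingleton.elim (α := ZMod 1) _ _
      rw [ha, map_one]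
    let a : commutator (pb π ξ) →* G := (pb1 π ξ).comp (commutator (pb π ξ)).subtype
    have ha : Function.Bijective a := by
      constructor
      · intro x y hxy
        have h2 : (x : pb π ξ) * (y : pb π ξ)⁻¹ = 1 := by
          apply hinj
          · exact Subgroup.mul_mem _ x.2 (Subgroup.inv_mem _ y.2)
          · rw [map_mul, map_inv]
            have : pb1 π ξ (x : pb π ξ) = pb1 π ξ (y : pb π ξ) := hxy
            rw [this]
            group
        exact Subtype.ext (mul_inv_eq_one.mp h2)
      · intro g
        have h1 : g ∈ commutator G := Group.IsPerfect.mem_commutator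
        obtain ⟨p, hp, rfl⟩ := commutator_le_map_of_surjective (pb1 π ξ) (pb1_surjective hξ) h1
        exact ⟨⟨p, hp⟩, rfl⟩
    let e := MulEquiv.ofBijective a ha
    refine ⟨(pb2 π ξ).comp ((commutator (pb π ξ)).subtype.comp e.symm.toMonoidHom), ?_⟩
    ext g
    have h1 : pb1 π ξ ((e.symm g : commutator (pb π ξ)) : pb π ξ) = g := e.apply_symm_apply g
    have h2 := pb_comm π ξ ((e.symm g : commutator (pb π ξ)) : pb π ξ)
    rw [h1] at h2
    exact h2.symm

end Cfsg.Agent.S3961
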