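import Cfsg.Statements.S3962
import Mathlib

set_option autoImplicit false
open Cfsg
open scoped commutatorElement

namespace Cfsg.Agent.S3962

/-- Let `G` be a perfect group and `π : G →* Q` a surjective homomorphism whose kernel is central. Then `π` maps the centre of `G` onto the centre of `Q`. Taking `π` to be the map to `G ⧸ Z(G)` shows that the central quotient of a perfect group has trivial centre. -/
theorem result {G Q : Type*} [Group G] [Group Q] (hG : Group.IsPerfect G) (π : G →* Q) (hπ : Function.Surjective π) (hker : π.ker ≤ Subgroup.center G) : (Subgroup.center G).map π = Subgroup.center Q := by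
  classical
  ext y
  constructor
  · rintro ⟨z, hz, rfl⟩
    rw [SetLike.mem_coe, Subgroup.mem_center_iff] at hz
    rw [Subgroup.mem_center_iff]
    intro q
    obtain ⟨g, rfl⟩ := hπ q
    rw [← map_mul, ← map_mul, hz g]
  · intro hy
    obtain ⟨g, rfl⟩ := hπ y
    refine ⟨g, ?_, rfl⟩
    rw [SetLike.mem_coe]
    rw [Subgroup.mem_center_iff] at hy
    have hmem : ∀ x, ⁅g, x⁆ ∈ Subgroup.center G := fun x => hker (by
      rw [MonoidHom.mem_ker, map_commutatorElement, commutatorElement_eq_one_iff_mul_comm]
      exact (hy (π x)).symm)
    have hcomm : ∀ (z : Subgroup.center G) (x : G), (z : G) * x = x * z := fun z x =>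
      (Subgroup.mem_center_iff.mp z.2 x).symm
    let φ : G →* Subgroup.center G :=
      { toFun := fun x => ⟨⁅g, x⁆, hmem x⟩
        map_one' := by ext; simp
        map_mul' := by
          intro x y
          ext
          have h1 : ⁅g, x * y⁆ = ⁅g, x⁆ * (x * ⁅g, y⁆ * x⁻¹) := by
            simp only [commutatorElement_def]; group
          have h2 := hcomm ⟨⁅g, y⁆, hmem y⟩ x
          show ⁅g, x * y⁆ = ⁅g, x⁆ * ⁅g, y⁆
          rw [h1, ← h2]; simp }
    have hk : commutator G ≤ φ.ker := by
      rw [commutator_def, Subgroup.commutator_le]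
      intro a _ b _
      rw [MonoidHom.mem_ker, map_commutatorElement, commutatorElement_eq_one_iff_mul_comm]
      exact Subtype.ext (hcomm _ _)
    have htop : φ.ker = ⊤ := by
      rw [eq_top_iff, ← hG.commutator_eq_top]; exact hk
    rw [Subgroup.mem_center_iff]
    intro x
    have hx : x ∈ φ.ker := by rw [htop]; trivial
    have h3 : ⁅g, x⁆ = 1 := congrArg Subtype.val hx
    rw [commutatorElement_eq_one_iff_mul_comm] at h3
    exact h3.symm

end Cfsg.Agent.S3962
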