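import Cfsg.Statements.S3963
import Mathlib
import Cfsg.Agent.Lib.Cl.DihMult

set_option autoImplicit false
open Cfsg

namespace Cfsg.Agent.S3963

/-- For every `n ≥ 1` the dicyclic (generalized quaternion) group of order `4 n` has trivial Schur multiplier. -/
theorem result (n : ℕ) [NeZero n] : Cfsg.HasCyclicSchurMultiplier (QuaternionGroup n) 1 := by
  apply Cfsg.Agent.Lib.Cl.DihMult.hasTrivial
  intro Γ _ _ σ hσ
  obtain ⟨w, hw, hσw, hk⟩ := Cfsg.Agent.Lib.Cl.DihMult.quat_core σ hσ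
  rw [eq_bot_iff]
  intro ζ hζ
  obtain ⟨k, rfl⟩ := hk ζ hζ
  rw [MonoidHom.mem_ker, map_pow, hσw, Cfsg.Agent.Lib.Cl.DihMult.a_pow, ← QuaternionGroup.a_zero] at hζ
  have h1 : (-2 : ZMod (2 * n)) * (k : ZMod (2 * n)) = 0 := QuaternionGroup.a.inj hζ
  have h2 : ((2 * k : ℕ) : ZMod (2 * n)) = 0 := by
    push_cast
    linear_combination -h1
  rw [ZMod.natCast_eq_zero_iff] at h2
  have h3 : n ∣ k := Nat.dvd_of_mul_dvd_mul_left (by norm_num) h2
  obtain ⟨l, rfl⟩ := h3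
  rw [Subgroup.mem_bot, pow_mul, hw, one_pow]


end Cfsg.Agent.S3963
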