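import Cfsg.Statements.S3964
import Mathlib
import Cfsg.Agent.Lib.Cl.DihMult

set_option autoImplicit false
open Cfsg

namespace Cfsg.Agent.S3964

/-- For odd `n` the dihedral group of order `2 n` has trivial Schur multiplier. -/
theorem result (n : ℕ) (hn : Odd n) : Cfsg.HasCyclicSchurMultiplier (DihedralGroup n) 1 := by
  haveI : NeZero n := ⟨by rintro rfl; simp at hn⟩
  haveI : Finite (DihedralGroup n) := inferInstance
  apply Cfsg.Agent.Lib.Cl.DihMult.hasTrivial
  intro Γ _ _ σ hσ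
  obtain ⟨w, hw, hσw, hk⟩ := Cfsg.Agent.Lib.Cl.DihMult.dih_core σ hσ
  rw [eq_bot_iff]
  intro ζ hζ
  obtain ⟨k, rfl⟩ := hk ζ hζ
  rw [MonoidHom.mem_ker, map_pow, hσw, DihedralGroup.r_pow, ← DihedralGroup.r_zero] at hζ
  have h1 : (-2 : ZMod n) * (k : ZMod n) = 0 := DihedralGroup.r.inj hζ
  have h2 : ((2 * k : ℕ) : ZMod n) = 0 := by
    push_cast
    linear_combination -h1
  rw [ZMod.natCast_eq_zero_iff] at h2
  have h3 : n ∣ k := by
    have hc : Nat.Coprime n 2 := by
      rw [Nat.coprime_two_right]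
      exact hn
    exact hc.dvd_of_dvd_mul_left h2
  obtain ⟨l, rfl⟩ := h3
  rw [Subgroup.mem_bot, pow_mul, hw, one_pow]


end Cfsg.Agent.S3964
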