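import Cfsg.Statements.S3965
import Mathlib
import Cfsg.Agent.Lib.Cl.DihMult2

set_option autoImplicit false
open Cfsg

namespace Cfsg.Agent.S3965

/-- For even `n ≥ 2` the dihedral group of order `2 n` has Schur multiplier cyclic of order `2`. -/
theorem result (n : ℕ) [NeZero n] (hn : Even n) : Cfsg.HasCyclicSchurMultiplier (DihedralGroup n) 2 := by
  haveI : NeZero (2 * n) := ⟨by have := NeZero.ne n; omega⟩
  constructor
  · refine ⟨DihedralGroup (2 * n), inferInstance, inferInstance, Cfsg.Agent.Lib.Cl.DihMult.dihQuot n,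
      Cfsg.Agent.Lib.Cl.DihMult.dihQuot_stem hn, ?_⟩
    have hc : Nat.card (Cfsg.Agent.Lib.Cl.DihMult.dihQuot n).ker = 2 := Cfsg.Agent.Lib.Cl.DihMult.card_ker_dihQuot
    have hc2 : Nat.card (Multiplicative (ZMod 2)) = 2 := by simp
    exact ⟨mulEquivOfPrimeCardEq hc hc2⟩
  · intro Γ _ _ σ hσ
    obtain ⟨w, hw, hσw, hk⟩ := Cfsg.Agent.Lib.Cl.DihMult.dih_core σ hσ
    obtain ⟨m, rfl⟩ := hn
    have hu : w ^ m ∈ σ.ker := by
      rw [MonoidHom.mem_ker, map_pow, hσw, DihedralGroup.r_pow, DihedralGroup.one_def]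
      congr 1
      have : ((m + m : ℕ) : ZMod (m + m)) = 0 := ZMod.natCast_self _
      push_cast at this
      linear_combination -this
    have hu2 : (w ^ m) ^ 2 = 1 := by
      rw [← pow_mul, mul_two]
      exact hw
    let u : σ.ker := ⟨w ^ m, hu⟩
    have hu2' : u ^ 2 = 1 := Subtype.ext hu2
    let π : Multiplicative (ZMod 2) →* σ.ker :=
      { toFun := fun x => u ^ (Multiplicative.toAdd x).val
        map_one' := by simp
        map_mul' := by
          intro a b
          simp only [toAdd_mul]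
          rw [ZMod.val_add, ← pow_add]
          exact (pow_eq_pow_mod _ hu2').symm }
    refine ⟨π, ?_⟩
    rintro ⟨ζ, hζ⟩
    obtain ⟨k, hkζ⟩ := hk ζ hζ
    have hζ' := hζ
    rw [← hkζ, MonoidHom.mem_ker, map_pow, hσw, DihedralGroup.r_pow, ← DihedralGroup.r_zero] at hζ'
    have h1 : (-2 : ZMod (m + m)) * (k : ZMod (m + m)) = 0 := DihedralGroup.r.inj hζ'
    have h2 : ((2 * k : ℕ) : ZMod (m + m)) = 0 := by
      push_cast
      linear_combination -h1
    rw [ZMod.natCast_eq_zero_iff] at h2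
    have hm : 0 < m := by
      have := NeZero.ne (m + m)
      omega
    have h3 : m ∣ k := by
      obtain ⟨c, hc⟩ := h2
      exact ⟨c, by nlinarith⟩
    obtain ⟨l, rfl⟩ := h3
    have hpar : ∀ l : ℕ, (u ^ l = 1 ∨ u ^ l = u) := by
      intro l
      rw [pow_eq_pow_mod l hu2']
      rcases Nat.mod_two_eq_zero_or_one l with h | h
      · left; rw [h, pow_zero]
      · right; rw [h, pow_one]
    have hζu : (⟨ζ, hζ⟩ : σ.ker) = u ^ l := by
      apply Subtype.ext
      show ζ = ((u ^ l : σ.ker) : Γ)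
      rw [Subgroup.coe_pow, ← hkζ, pow_mul]
    rcases hpar l with h | h
    · refine ⟨Multiplicative.ofAdd 0, ?_⟩
      rw [hζu, h]
      show u ^ (0 : ZMod 2).val = 1
      simp
    · refine ⟨Multiplicative.ofAdd 1, ?_⟩
      rw [hζu, h]
      show u ^ (1 : ZMod 2).val = u
      simp [ZMod.val_one]


end Cfsg.Agent.S3965
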