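import Cfsg.Statements.S3966
import Mathlib

set_option autoImplicit false
open Cfsg
open scoped commutatorElement

namespace Cfsg.Agent.S3966

/-- For even `n ≥ 2` the dicyclic group of order `4 n` is a stem extension of the dihedral group of order `2 n` with kernel of order `2`: there is a surjective homomorphism `QuaternionGroup n →* DihedralGroup n` whose kernel is central, lies in the commutator subgroup and has two elements. Together with the order of the multiplier this exhibits the dicyclic group as a Schur covering group of the dihedral group. -/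
theorem result (n : ℕ) [NeZero n] (hn : Even n) : ∃ σ : QuaternionGroup n →* DihedralGroup n, Cfsg.IsStemExtension σ ∧ Nat.card σ.ker = 2 := by
  classical
  have hn0 : n ≠ 0 := NeZero.ne n
  have hdvd : n ∣ 2 * n := Dvd.intro_left 2 rfl
  let c : ZMod (2 * n) →+* ZMod n := ZMod.castHom hdvd (ZMod n)
  have hcn : c (n : ZMod (2 * n)) = 0 := by simp [c]
  have hc2 : (n : ZMod (2 * n)) + n = 0 := by
    have : ((2 * n : ℕ) : ZMod (2 * n)) = 0 := ZMod.natCast_self _
    push_cast at this
    rw [← this]; ring
  let f : QuaternionGroup n → DihedralGroup n := fun x => match x with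
    | QuaternionGroup.a i => DihedralGroup.r (c i)
    | QuaternionGroup.xa i => DihedralGroup.sr (c i)
  have hfmul : ∀ x y, f (x * y) = f x * f y := by
    intro x y
    cases x <;> cases y <;> simp [f, QuaternionGroup.a_mul_a, QuaternionGroup.a_mul_xa,
      QuaternionGroup.xa_mul_a, QuaternionGroup.xa_mul_xa, DihedralGroup.r_mul_r,
      DihedralGroup.r_mul_sr, DihedralGroup.sr_mul_r, DihedralGroup.sr_mul_sr, map_add, map_sub, hcn]
  let σ : QuaternionGroup n →* DihedralGroup n := MonoidHom.mk' f hfmul
  have hσa : ∀ i, σ (QuaternionGroup.a i) = DihedralGroup.r (c i) := fun _ => rfl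
  have hσx : ∀ i, σ (QuaternionGroup.xa i) = DihedralGroup.sr (c i) := fun _ => rfl
  have hcsurj : Function.Surjective c := ZMod.castHom_surjective hdvd
  have hc0 : ∀ i : ZMod (2 * n), c i = 0 ↔ i = 0 ∨ i = (n : ZMod (2 * n)) := by
    intro i
    haveI : NeZero (2 * n) := ⟨by omega⟩
    constructor
    · intro h
      have h1 : ((i.val : ℕ) : ZMod (2 * n)) = i := ZMod.natCast_zmod_val i
      rw [← h1, map_natCast] at h
      rw [ZMod.natCast_eq_zero_iff] at h
      obtain ⟨k, hk⟩ := h
      have h2 : i.val < 2 * n := ZMod.val_lt i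
      have h3 : k < 2 := by
        rw [hk] at h2
        exact Nat.lt_of_mul_lt_mul_left (a := n) (by rw [mul_comm n 2]; exact h2)
      interval_cases k
      · left
        rw [← h1, hk]; simp
      · right
        rw [← h1, hk]; simp
    · rintro (rfl | rfl)
      · simp
      · exact hcn
  have hkera : ∀ x, x ∈ σ.ker ↔ x = QuaternionGroup.a 0 ∨ x = QuaternionGroup.a (n : ZMod (2 * n)) := by
    intro x
    rw [MonoidHom.mem_ker]
    cases x with
    | a i =>
      rw [hσa, DihedralGroup.one_def]
      simp only [DihedralGroup.r.injEq, QuaternionGroup.a.injEq]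
      exact hc0 i
    | xa i =>
      rw [hσx, DihedralGroup.one_def]
      constructor
      · intro h; cases h
      · rintro (h | h) <;> cases h
  have ha1 : QuaternionGroup.a (0 : ZMod (2 * n)) = (1 : QuaternionGroup n) := rfl
  have han : QuaternionGroup.a (n : ZMod (2 * n)) ∈ Subgroup.center (QuaternionGroup n) := by
    rw [Subgroup.mem_center_iff]
    intro y
    have hneg : (n : ZMod (2 * n)) = -(n : ZMod (2 * n)) := eq_neg_of_add_eq_zero_left hc2
    cases y with
    | a j =>
      simp only [QuaternionGroup.a_mul_a]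
      rw [add_comm]
    | xa j =>
      simp only [QuaternionGroup.a_mul_xa, QuaternionGroup.xa_mul_a]
      congr 1
      rw [sub_eq_add_neg, ← hneg]
  have hcomm : QuaternionGroup.a (n : ZMod (2 * n)) ∈ commutator (QuaternionGroup n) := by
    obtain ⟨m, hm⟩ := hn
    have h2 : QuaternionGroup.a (2 : ZMod (2 * n)) ∈ commutator (QuaternionGroup n) := by
      have h3 : QuaternionGroup.a (2 : ZMod (2 * n)) =
          ⁅(QuaternionGroup.a 1 : QuaternionGroup n), (QuaternionGroup.xa 0 : QuaternionGroup n)⁆ := by
        have hi1 : (QuaternionGroup.a 1 : QuaternionGroup n)⁻¹ = QuaternionGroup.a (-1) :=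
          inv_eq_of_mul_eq_one_right (by rw [QuaternionGroup.a_mul_a, add_neg_cancel]; rfl)
        have hi2 : (QuaternionGroup.xa 0 : QuaternionGroup n)⁻¹ = QuaternionGroup.xa (n : ZMod (2 * n)) :=
          inv_eq_of_mul_eq_one_right (by
            rw [QuaternionGroup.xa_mul_xa, sub_zero, hc2]; rfl)
        rw [commutatorElement_def, hi1, hi2]
        simp only [QuaternionGroup.a_mul_xa,
          QuaternionGroup.xa_mul_a, QuaternionGroup.xa_mul_xa]
        congr 1
        have : (n : ZMod (2 * n)) + (n : ZMod (2 * n)) = 0 := hc2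
        linear_combination (-1 : ZMod (2 * n)) * this
      rw [h3]
      exact Subgroup.commutator_mem_commutator (Subgroup.mem_top _) (Subgroup.mem_top _)
    have hpow : ∀ k : ℕ, (QuaternionGroup.a (2 : ZMod (2 * n))) ^ k =
        (QuaternionGroup.a ((2 * k : ℕ) : ZMod (2 * n)) : QuaternionGroup n) := by
      intro k
      induction k with
      | zero => simp
      | succ k ih =>
        rw [pow_succ, ih, QuaternionGroup.a_mul_a]
        congr 1
        push_cast
        ring
    have h4 : (QuaternionGroup.a (n : ZMod (2 * n)) : QuaternionGroup n) =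
        (QuaternionGroup.a (2 : ZMod (2 * n))) ^ m := by
      rw [hpow]
      congr 2
      omega
    rw [h4]
    exact Subgroup.pow_mem _ h2 m
  refine ⟨σ, ⟨?_, ?_, ?_⟩, ?_⟩
  · intro y
    cases y with
    | r i =>
      obtain ⟨j, rfl⟩ := hcsurj i
      exact ⟨QuaternionGroup.a j, rfl⟩
    | sr i =>
      obtain ⟨j, rfl⟩ := hcsurj i
      exact ⟨QuaternionGroup.xa j, rfl⟩
  · intro x hx
    rcases (hkera x).mp hx with rfl | rfl
    · rw [ha1]; exact Subgroup.one_mem _
    · exact han
  · intro x hx
    rcases (hkera x).mp hx with rfl | rfl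
    · rw [ha1]; exact Subgroup.one_mem _
    · exact hcomm
  · rw [Nat.card_eq_two_iff]
    refine ⟨⟨QuaternionGroup.a 0, (hkera _).mpr (Or.inl rfl)⟩,
      ⟨QuaternionGroup.a (n : ZMod (2 * n)), (hkera _).mpr (Or.inr rfl)⟩, ?_, ?_⟩
    · intro h
      have h1 := congrArg Subtype.val h
      simp only [QuaternionGroup.a.injEq] at h1
      have h2 : ((n : ℕ) : ZMod (2 * n)) = 0 := h1.symm
      rw [ZMod.natCast_eq_zero_iff] at h2
      have := Nat.le_of_dvd (Nat.pos_of_ne_zero hn0) h2
      omega
    · ext ⟨x, hx⟩
      simp only [Set.mem_insert_iff, Set.mem_singleton_iff, Set.mem_univ, iff_true, Subtype.mk.injEq]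
      exact (hkera x).mp hx

end Cfsg.Agent.S3966
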