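import Cfsg.Statements.S3967
import Mathlib
import Cfsg.Agent.Lib.Metacyc.Main

set_option autoImplicit false
open Cfsg

namespace Cfsg.Agent.S3967

/-- Let `m, n ≥ 1`, `r ≥ 1` with `r ^ n ≡ 1 (mod m)`, and `l` a natural number; put `d = gcd(m, r - 1)`, `t = m l / d` and `h = d · gcd(m, 1 + r + ⋯ + r^(n-1)) / m`. The group presented by generators `a, b` and relations `a ^ m = 1`, `b ^ n = a ^ t`, `b a b⁻¹ = a ^ r` (a metacyclic group of order `m n`) has Schur multiplier cyclic of order `gcd(l, h)`. -/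
theorem result (m n r l : ℕ) (hm : 0 < m) (hn : 0 < n) (hr : 0 < r) (hrn : r ^ n ≡ 1 [MOD m]) : Cfsg.HasCyclicSchurMultiplier (PresentedGroup ({FreeGroup.of true ^ m, (FreeGroup.of false) ^ n * (FreeGroup.of true ^ (m * l / Nat.gcd m (r - 1)))⁻¹, FreeGroup.of false * FreeGroup.of true * (FreeGroup.of false)⁻¹ * (FreeGroup.of true ^ r)⁻¹} : Set (FreeGroup Bool))) (Nat.gcd l (Nat.gcd m (r - 1) * Nat.gcd m (∑ i ∈ Finset.range n, r ^ i) / m)) := by
  classical
  obtain ⟨m', r', s', d, hd, hmd, hrd, hσ, hco, ht, hkk, hrn'⟩ := Cfsg.Agent.Lib.Metacyc.arith m n r l hm hr hrn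
  rw [← hd, hkk, ht]
  set S : Set (FreeGroup Bool) := {FreeGroup.of true ^ m, (FreeGroup.of false) ^ n * (FreeGroup.of true ^ (m' * l))⁻¹, FreeGroup.of false * FreeGroup.of true * (FreeGroup.of false)⁻¹ * (FreeGroup.of true ^ r)⁻¹} with hS
  let a : PresentedGroup S := PresentedGroup.of true
  let b : PresentedGroup S := PresentedGroup.of false
  have hdpos : 0 < d := by rw [hd]; exact Nat.gcd_pos_of_pos_left _ hm
  have hkpos : 0 < Nat.gcd l (Nat.gcd d s') :=
    Nat.gcd_pos_of_pos_right _ (Nat.gcd_pos_of_pos_left _ hdpos)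
  have hkd : Nat.gcd l (Nat.gcd d s') ∣ d := (Nat.gcd_dvd_right _ _).trans (Nat.gcd_dvd_left _ _)
  have hkl : Nat.gcd l (Nat.gcd d s') ∣ l := Nat.gcd_dvd_left _ _
  have hks : Nat.gcd l (Nat.gcd d s') ∣ s' := (Nat.gcd_dvd_right _ _).trans (Nat.gcd_dvd_right _ _)
  have hrel : ∀ w ∈ S, PresentedGroup.mk S w = 1 := fun w hw => PresentedGroup.one_of_mem hw
  have ha : a ^ m = 1 := by
    have := hrel (FreeGroup.of true ^ m) (by simp [hS])
    rwa [map_pow] at this
  have hb : b ^ n = a ^ (m' * l) := by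
    have := hrel ((FreeGroup.of false) ^ n * (FreeGroup.of true ^ (m' * l))⁻¹) (by simp [hS])
    rw [map_mul, map_inv, map_pow, map_pow] at this
    exact mul_inv_eq_one.mp this
  have hab : b * a * b⁻¹ = a ^ r := by
    have := hrel (FreeGroup.of false * FreeGroup.of true * (FreeGroup.of false)⁻¹ * (FreeGroup.of true ^ r)⁻¹) (by simp [hS])
    rw [map_mul, map_mul, map_mul, map_inv, map_inv, map_pow] at this
    exact mul_inv_eq_one.mp this
  have hgen : Subgroup.closure ({a, b} : Set (PresentedGroup S)) = ⊤ := by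
    rw [← PresentedGroup.closure_range_of S]
    congr 1
    ext x
    constructor
    · rintro (rfl | rfl)
      · exact ⟨true, rfl⟩
      · exact ⟨false, rfl⟩
    · rintro ⟨c, rfl⟩
      cases c
      · exact Or.inr rfl
      · exact Or.inl rfl
  have huniv : ∀ (Q : Type) [Group Q] (x y : Q), x ^ m = 1 → y ^ n = x ^ (m' * l) →
      y * x * y⁻¹ = x ^ r → ∃ f : PresentedGroup S →* Q, f a = x ∧ f b = y := by
    intro Q _ x y h1 h2 h3
    let f₀ : Bool → Q := fun c => if c then x else y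
    have hf₀ : ∀ w ∈ S, FreeGroup.lift f₀ w = 1 := by
      intro w hw
      rcases hw with rfl | rfl | rfl
      · simp [f₀, h1]
      · simp [f₀, h2]
      · simp [f₀, h3]
    exact ⟨PresentedGroup.toGroup hf₀, PresentedGroup.toGroup.of hf₀, PresentedGroup.toGroup.of hf₀⟩
  obtain ⟨h1, h2⟩ := Cfsg.Agent.Lib.Metacyc.exists_cover a b m n r l m' r' s' d _ hm hn hr hkpos hmd hrd hσ hkd hkl hks hrn' hco ha hb hab hgen huniv
  refine ⟨h1, ?_⟩
  intro E _ _ f hf
  exact Cfsg.Agent.Lib.Metacyc.stem_bound a b m n r l m' r' s' d _ hm hn hr hmd hrd hσ rfl hrn' hrn hco ha hb hab hgen h2 E f hf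

end Cfsg.Agent.S3967
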