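import Cfsg.Statements.S3968
import Cfsg.Agent.Lib.CharExtra.PrimeDegA
import Cfsg.Agent.Lib.LinHall.Main
import Cfsg.Agent.Lib.Degree.GalConj1
import Cfsg.Agent.Lib.Char.QuasiPrim

set_option autoImplicit false
open Cfsg

namespace Cfsg.Agent.S3968

/-- Let `p` be a prime and `G` a finite group with a faithful irreducible complex character of degree `p` (so `G` is an irreducible linear group in `p` variables). If `p ^ 2` divides the order of `G`, then the centre of `G` is nontrivial. -/
theorem result {G : Type*} [Group G] [Finite G] (p : ℕ) (hp : p.Prime) (χ : Cfsg.IrrCharacter G) (hdeg : χ.1 1 = p) (hfaith : ∀ g : G, χ.1 g = χ.1 1 → g = 1) (hdiv : p ^ 2 ∣ Nat.card G) : Subgroup.center G ≠ ⊥ := by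
  classical
  letI : Fintype G := Fintype.ofFinite G
  haveI : Fact p.Prime := ⟨hp⟩
  by_contra hbot
  have hbot' : Subgroup.center G = ⊥ := hbot
  let χf : G → ℂ := χ.1
  have hχ : Cfsg.IsCharacter G χf := Cfsg.Agent.Lib.Char.IsIrrCharacter.isCharacter χ.2
  have hdegp : Cfsg.charDegree χf = p := Cfsg.Agent.Lib.Char.charDegree_natCast hdeg
  have key : ∀ x : G, x ≠ 1 → ¬ p ∣ (Subgroup.centralizer ({x} : Set G)).index → χf x = 0 := by
    intro x hx hnd
    refine Cfsg.Agent.Lib.CharExtra.irr_vanish_of_coprime χ hfaith ?_ ?_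
    · rw [hbot']
      exact fun h => hx (Subgroup.mem_bot.mp h)
    · rw [show Cfsg.charDegree (χ : G → ℂ) = p from hdegp]
      exact (Nat.Prime.coprime_iff_not_dvd hp).mpr hnd
  let P : Sylow p G := default
  have hpP : p ^ 2 ∣ Nat.card P := P.pow_dvd_card_of_pow_dvd_card hdiv
  have hnd : ∀ x : G, (P : Subgroup G) ≤ Subgroup.centralizer ({x} : Set G) →
      ¬ p ∣ (Subgroup.centralizer ({x} : Set G)).index := by
    intro x hx h
    exact P.not_dvd_index (h.trans (Subgroup.index_dvd_of_le hx))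
  letI : Fintype (P : Subgroup G) := Fintype.ofFinite _
  let χP : ↥(P : Subgroup G) → ℂ := fun x => χf x
  have hχP : Cfsg.IsCharacter (P : Subgroup G) χP :=
    Cfsg.Agent.Lib.Char.IsCharacter.restrict (P : Subgroup G) hχ
  have hfaithP : ∀ g : (P : Subgroup G), χP g = χP 1 → g = 1 := by
    intro g hg
    exact Subtype.ext (hfaith g hg)
  -- a nontrivial central element of `P`
  have hPcard : 1 < Nat.card P := by
    have h1 : p ^ 2 ≤ Nat.card P := Nat.le_of_dvd Nat.card_pos hpP
    have h2 : 1 < p ^ 2 := Nat.one_lt_pow (by norm_num) hp.one_lt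
    omega
  haveI : Nontrivial (P : Subgroup G) := Finite.one_lt_card_iff_nontrivial.mp hPcard
  haveI := IsPGroup.center_nontrivial P.isPGroup'
  obtain ⟨z, hz⟩ := exists_ne (1 : Subgroup.center (P : Subgroup G))
  have hz1 : ((z : (P : Subgroup G)) : G) ≠ 1 := by
    intro h
    apply hz
    exact Subtype.ext (Subtype.ext h)
  have hzc : (P : Subgroup G) ≤ Subgroup.centralizer ({((z : (P : Subgroup G)) : G)} : Set G) := by
    intro y hy
    rw [Subgroup.mem_centralizer_singleton_iff]
    have := Subgroup.mem_center_iff.mp z.2 ⟨y, hy⟩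
    exact congrArg Subtype.val this
  have hz0 : χf ((z : (P : Subgroup G)) : G) = 0 := key _ hz1 (hnd _ hzc)
  -- `P` is abelian
  have hcomm : ∀ a b : (P : Subgroup G), a * b = b * a := by
    refine Cfsg.Agent.Lib.LinHall.comm_of_linear_constituents hχP hfaithP ?_
    intro ξ hξ hc
    have h1 := Cfsg.Agent.Lib.LinHall.charDegree_le_of_constituent hχP hξ hc
    have hdP : Cfsg.charDegree χP = p := Cfsg.Agent.Lib.Char.charDegree_natCast (by
      show χf ((1 : (P : Subgroup G)) : G) = p
      exact hdeg)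
    rw [hdP] at h1
    have h2 := Cfsg.Agent.Lib.Char.charDegree_dvd_card hξ
    obtain ⟨k, hk⟩ := IsPGroup.iff_card.mp P.isPGroup'
    rw [hk] at h2
    obtain ⟨j, hj, hj2⟩ := (Nat.dvd_prime_pow hp).mp h2
    have hξ1 := Cfsg.Agent.Lib.Char.map_one_eq_charDegree (Cfsg.Agent.Lib.Char.IsIrrCharacter.isCharacter hξ)
    rcases Nat.eq_zero_or_pos j with rfl | hjpos
    · rw [hξ1, hj2]
      simp
    · exfalso
      have h3 : p ≤ Cfsg.charDegree ξ := by
        rw [hj2]
        exact Nat.le_self_pow hjpos.ne' p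
      have h4 : Cfsg.charDegree ξ = p := le_antisymm h1 h3
      -- `χP = ξ` is irreducible
      have h5 := Cfsg.Agent.Lib.Char.isCharacter_sub_of_constituent hχP hξ hc
      have h6 : (χP - ξ) 1 = 0 := by
        simp only [Pi.sub_apply]
        rw [hξ1, h4]
        show χf ((1 : (P : Subgroup G)) : G) - p = 0
        have : χf ((1 : (P : Subgroup G)) : G) = p := hdeg
        rw [this, sub_self]
      have h7 := Cfsg.Agent.Lib.Char.IsCharacter.eq_zero_of_one h5 h6
      have h8 : χP = ξ := sub_eq_zero.mp h7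
      have h9 := Cfsg.Agent.Lib.Degree.norm_central (⟨ξ, hξ⟩ : Cfsg.IrrCharacter (P : Subgroup G)) z.2
      have h10 : ξ (z : (P : Subgroup G)) = 0 := by
        rw [← h8]
        exact hz0
      change ‖ξ (z : (P : Subgroup G))‖ = ‖ξ 1‖ at h9
      rw [h10, norm_zero] at h9
      have h11 := Cfsg.Agent.Lib.Char.map_one_ne_zero_of_irr hξ
      exact h11 (norm_eq_zero.mp h9.symm)
  -- all non-identity elements of `P` are zeros of `χ`
  have hzero : ∀ x : (P : Subgroup G), x ≠ 1 → χP x = 0 := by
    intro x hx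
    refine key x (fun h => hx (Subtype.ext h)) (hnd x ?_)
    intro y hy
    rw [Subgroup.mem_centralizer_singleton_iff]
    have := hcomm ⟨y, hy⟩ x
    exact (congrArg Subtype.val this)
  -- compute the multiplicity of the trivial character
  obtain ⟨n, hn⟩ := Cfsg.Agent.Lib.Char.classInner_isCharacter_nat hχP
    (Cfsg.Agent.Lib.Char.IsIrrCharacter.isCharacter Cfsg.Agent.Lib.Char.isIrrCharacter_one)
  rw [Cfsg.Agent.Lib.Char.classInner_def] at hn
  have hsum : ∑ g : (P : Subgroup G), χP g * (starRingEnd ℂ) 1 = p := by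
    rw [Finset.sum_eq_single 1]
    · simp only [map_one, mul_one]
      exact hdeg
    · intro b _ hb
      rw [hzero b hb, zero_mul]
    · intro h
      exact absurd (Finset.mem_univ _) h
  rw [hsum] at hn
  have hPc : ((Nat.card (P : Subgroup G) : ℕ) : ℂ) ≠ 0 := by
    exact_mod_cast Nat.card_pos.ne'
  have h12 : (p : ℂ) = (Nat.card (P : Subgroup G) : ℂ) * n := by
    rw [← hn]
    field_simp
  have h13 : p = Nat.card (P : Subgroup G) * n := by exact_mod_cast h12
  have h14 : Nat.card (P : Subgroup G) ∣ p := ⟨n, h13⟩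
  have h15 : p ^ 2 ∣ p := hpP.trans h14
  have h16 := Nat.le_of_dvd hp.pos h15
  have h17 : p < p ^ 2 := by
    calc p = p ^ 1 := (pow_one p).symm
      _ < p ^ 2 := Nat.pow_lt_pow_right hp.one_lt (by norm_num)
  omega

end Cfsg.Agent.S3968
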