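import Cfsg.Statements.S3969
import Mathlib
import Cfsg.Agent.S0014
import Cfsg.Agent.Lib.Transfer.AutCount
import Cfsg.Agent.Lib.Hall.CoprimeLemmas

set_option autoImplicit false
open Cfsg

namespace Cfsg.Agent.S3969


open Subgroup Cfsg

/-- Induced action on the Frattini quotient. -/
noncomputable def autQuot (T : Type*) [Group T] [Finite T] : MulAut T →* MulAut (T ⧸ frattini T) where
  toFun a := QuotientGroup.congr (frattini T) (frattini T) a
    (characteristic_iff_map_eq.mp (inferInstance : (frattini T).Characteristic) a)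
  map_one' := by
    ext x
    obtain ⟨y, rfl⟩ := QuotientGroup.mk_surjective x
    rfl
  map_mul' := by
    intro a b
    ext x
    obtain ⟨y, rfl⟩ := QuotientGroup.mk_surjective x
    rfl

theorem autQuot_apply {T : Type*} [Group T] [Finite T] (a : MulAut T) (t : T) :
    autQuot T a (t : T ⧸ frattini T) = ((a t : T) : T ⧸ frattini T) := rfl

/-- Let `P` be an abelian Sylow `p`-subgroup of the finite group `G`, generated by `d` elements (`d` its minimal number of generators). If the order of `G` is coprime to `(p - 1)(p ^ 2 - 1) ⋯ (p ^ d - 1)`, then `G` has a normal `p`-complement. (The classical statement needs only the largest number of cyclic factors of `P` of equal order in place of `d`; the form here follows from it.) -/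
theorem result {G : Type*} [Group G] [Finite G] (p : ℕ) [Fact p.Prime] (P : Sylow p G) (hab : IsMulCommutative (P : Subgroup G)) (hcop : Nat.Coprime (Nat.card G) (∏ i ∈ Finset.Icc 1 (Group.rank (P : Subgroup G)), (p ^ i - 1))) : Cfsg.HasNormalPComplement p G := by
  classical
  apply Cfsg.Agent.Lib.Transfer.hasNormalPComplement_of_burnside P
  by_contra h
  have hp : p.Prime := Fact.out
  let f := (P : Subgroup G).normalizerMonoidHom
  set T := ↥(P : Subgroup G) with hTdef
  -- `f` is nontrivial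
  have hkerT : (P : Subgroup G).subgroupOf (normalizer ((P : Subgroup G) : Set G)) ≤ f.ker := by
    rw [normalizerMonoidHom_ker]
    intro x hx
    rw [mem_subgroupOf] at hx ⊢
    rw [mem_centralizer_iff]
    intro y hy
    exact congrArg Subtype.val (hab.is_comm.comm ⟨y, hy⟩ ⟨x, hx⟩)
  have hne : f.range ≠ ⊥ := by
    intro hb
    apply h
    intro x hx
    have h1 : (⟨x, hx⟩ : normalizer ((P : Subgroup G) : Set G)) ∈ f.ker := by
      rw [MonoidHom.range_eq_bot_iff] at hb
      rw [hb]; trivial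
    rw [normalizerMonoidHom_ker] at h1
    exact h1
  have hcard1 : Nat.card f.range ≠ 1 := fun h1 => hne (card_eq_one.mp h1)
  obtain ⟨q, hq, hqd⟩ := Nat.exists_prime_and_dvd hcard1
  haveI : Fact q.Prime := ⟨hq⟩
  have hci : Nat.card f.range = f.ker.index := (index_ker f).symm
  have hdi : f.ker.index ∣ ((P : Subgroup G).subgroupOf (normalizer ((P : Subgroup G) : Set G))).index :=
    index_dvd_of_le hkerT
  have hrel : ((P : Subgroup G).subgroupOf (normalizer ((P : Subgroup G) : Set G))).index *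
      (normalizer ((P : Subgroup G) : Set G)).index = (P : Subgroup G).index :=
    relIndex_mul_index le_normalizer
  have hqp : q ≠ p := by
    rintro rfl
    apply P.not_dvd_index
    rw [← hrel]
    exact Dvd.dvd.mul_right (hqd.trans (hci ▸ hdi)) _
  have hqG : q ∣ Nat.card G := by
    refine hqd.trans ?_
    rw [hci]
    exact (index_dvd_card _).trans (card_subgroup_dvd_card _)
  obtain ⟨⟨a, ha⟩, hao⟩ := exists_prime_orderOf_dvd_card' q hqd
  have hao' : orderOf a = q := by simpa using hao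
  obtain ⟨⟨x, hx⟩, rfl⟩ := ha
  -- the `p'`-part of `x`
  have hTp : IsPGroup p T := P.2
  -- the induced automorphism of the Frattini quotient
  have hb1 : autQuot T (f ⟨x, hx⟩) ≠ 1 := by
    intro hb
    obtain ⟨e, m, hm, hem⟩ := Nat.exists_eq_pow_mul_and_not_dvd (n := orderOf x)
      (orderOf_pos x).ne' p hp.ne_one
    set x' := x ^ p ^ e with hx'
    have hordx' : orderOf x' = m := by
      rw [hx', orderOf_pow' _ (pow_pos hp.pos e).ne', hem,
        Nat.gcd_eq_right (Dvd.intro _ rfl)]
      exact Nat.mul_div_cancel_left _ (pow_pos hp.pos e)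
    have hx'N : x' ∈ normalizer ((P : Subgroup G) : Set G) := pow_mem hx _
    have hfx' : f ⟨x', hx'N⟩ = (f ⟨x, hx⟩) ^ p ^ e := by
      rw [← map_pow]; rfl
    have hzp : ∀ b ∈ zpowers x', ∃ hb : b ∈ normalizer ((P : Subgroup G) : Set G),
        autQuot T (f ⟨b, hb⟩) = 1 := by
      rintro _ ⟨i, rfl⟩
      refine ⟨zpow_mem hx'N i, ?_⟩
      have : (⟨(fun j : ℤ => x' ^ j) i, zpow_mem hx'N i⟩ : normalizer ((P : Subgroup G) : Set G)) =
          (⟨x', hx'N⟩ : normalizer ((P : Subgroup G) : Set G)) ^ i := rfl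
      rw [this, map_zpow, map_zpow, hfx', map_pow, hb, one_pow, one_zpow]
    have hle : zpowers x' ≤ centralizer ((P : Subgroup G) : Set G) := by
      apply Cfsg.Agent.Lib.Hall.le_centralizer_of_frattini (zpowers x') (P : Subgroup G)
      · rw [zpowers_le]; exact hx'N
      · rw [Nat.card_zpowers, hordx']
        have hΦ : IsPGroup p (frattini T) := hTp.to_subgroup _
        obtain ⟨k, hk⟩ := IsPGroup.iff_card.mp hΦ
        rw [hk]
        exact Nat.Coprime.pow_right _ ((Nat.Prime.coprime_iff_not_dvd hp).mpr hm).symm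
      · intro b hb k hk
        obtain ⟨hbN, hb2⟩ := hzp b hb
        have h3 : autQuot T (f ⟨b, hbN⟩) ((⟨k, hk⟩ : T) : T ⧸ frattini T) = ((⟨k, hk⟩ : T) : T ⧸ frattini T) := by
          rw [hb2]; rfl
        rw [autQuot_apply, eq_comm, QuotientGroup.eq] at h3
        have h4 : (f ⟨b, hbN⟩ ⟨k, hk⟩ : T) = ⟨b * k * b⁻¹, (mem_normalizer_iff.mp hbN k).mp hk⟩ := rfl
        rw [h4] at h3
        set u : T := ⟨b * k * b⁻¹, (mem_normalizer_iff.mp hbN k).mp hk⟩ with hu
        have h5 : u * (⟨k, hk⟩ : T)⁻¹ ∈ frattini T := by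
          have h6 := (inferInstance : (frattini T).Normal).conj_mem _ h3 (⟨k, hk⟩ : T)
          convert h6 using 1
          group
        exact ⟨_, h5, rfl⟩
    have hfx1 : f ⟨x', hx'N⟩ = 1 := by
      ext t
      show x' * (t : G) * x'⁻¹ = t
      have h7 := mem_centralizer_iff.mp (hle (mem_zpowers x')) (t : G) t.2
      rw [← h7]
      group
    rw [hfx'] at hfx1
    have h8 := orderOf_dvd_of_pow_eq_one hfx1
    rw [hao'] at h8
    exact hqp ((Nat.prime_dvd_prime_iff_eq hq hp).mp (hq.dvd_of_dvd_pow h8))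
  set b := autQuot T (f ⟨x, hx⟩) with hbdef
  have hbord : orderOf b = q := by
    apply orderOf_eq_prime _ hb1
    rw [hbdef, ← map_pow, ← hao', pow_orderOf_eq_one, map_one]
  have hmod := Cfsg.Agent.Lib.Transfer.card_modEq_fixedSubgroup b hbord
  obtain ⟨k, hk⟩ := IsPGroup.iff_card.mp hTp
  have hidx : (frattini T).index ∣ p ^ k := by
    rw [← hk]; exact index_dvd_card _
  obtain ⟨n, _, hn⟩ := (Nat.dvd_prime_pow hp).mp hidx
  have hV : Nat.card (T ⧸ frattini T) = p ^ n := hn
  rw [hV] at hmod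
  have hFd : Nat.card (Cfsg.Agent.Lib.Transfer.fixedSubgroupOf b) ∣ p ^ n := by
    rw [← hV]; exact card_subgroup_dvd_card _
  obtain ⟨c, hc, hc2⟩ := (Nat.dvd_prime_pow hp).mp hFd
  have hcn : c ≠ n := by
    intro he
    apply hb1
    have htop : Cfsg.Agent.Lib.Transfer.fixedSubgroupOf b = ⊤ := by
      apply eq_top_of_card_eq
      rw [hc2, he, hV]
    refine MulEquiv.ext fun v => ?_
    have : v ∈ Cfsg.Agent.Lib.Transfer.fixedSubgroupOf b := by rw [htop]; trivial
    exact this
  have hlt : c < n := lt_of_le_of_ne hc hcn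
  rw [hc2] at hmod
  have hdvd : q ∣ p ^ n - p ^ c := (Nat.modEq_iff_dvd' (Nat.pow_le_pow_right hp.pos hc)).mp hmod
  have hfact : p ^ n - p ^ c = p ^ c * (p ^ (n - c) - 1) := by
    rw [Nat.mul_sub, mul_one, ← pow_add, Nat.add_sub_cancel' hc]
  rw [hfact] at hdvd
  have hqnd : ¬ q ∣ p ^ c := fun h2 => hqp ((Nat.prime_dvd_prime_iff_eq hq hp).mp (hq.dvd_of_dvd_pow h2))
  have hdvd2 : q ∣ p ^ (n - c) - 1 := (hq.dvd_mul.mp hdvd).resolve_left hqnd
  obtain ⟨S, hS, hcl⟩ := Group.rank_spec T
  have hnr : n ≤ Group.rank T := by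
    rw [← hS]
    exact (Cfsg.Agent.S0014.result p n hTp hn).2 S hcl
  have hmem : n - c ∈ Finset.Icc 1 (Group.rank T) := by
    rw [Finset.mem_Icc]; omega
  have hdvd3 : q ∣ ∏ i ∈ Finset.Icc 1 (Group.rank T), (p ^ i - 1) :=
    hdvd2.trans (Finset.dvd_prod_of_mem _ hmem)
  have hg := Nat.dvd_gcd hqG hdvd3
  rw [hcop] at hg
  exact hq.one_lt.ne' (Nat.dvd_one.mp hg)

end Cfsg.Agent.S3969
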