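import Cfsg.Statements.S3970
import Mathlib
import Cfsg.Agent.S3969

set_option autoImplicit false
open Cfsg

namespace Cfsg.Agent.S3970


open Subgroup Cfsg

universe u

theorem coprime_factor {G : Type u} [Group G] [Finite G] {p : ℕ} [Fact p.Prime]
    (hmin : ∀ r : ℕ, r.Prime → r ∣ Nat.card G → p ≤ r) (P : Sylow p G)
    (hrk : Group.rank (P : Subgroup G) ≤ 2) (h12 : ¬ 12 ∣ Nat.card G) :
    Nat.Coprime (Nat.card G) (∏ i ∈ Finset.Icc 1 (Group.rank (P : Subgroup G)), (p ^ i - 1)) := by
  have hp : p.Prime := Fact.out
  apply Nat.Coprime.prod_right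
  intro i hi
  rw [Finset.mem_Icc] at hi
  apply Nat.coprime_of_dvd
  intro r hr hrG hrd
  have hr1 : ∀ {a : ℕ}, 0 < a → a < p → ¬ r ∣ a := by
    intro a ha hap hda
    have := Nat.le_of_dvd ha hda
    have := hmin r hr hrG
    omega
  have hp2 := hp.two_le
  have hi12 : i = 1 ∨ i = 2 := by omega
  rcases hi12 with h1' | h2'
  · subst h1'
    rw [pow_one] at hrd
    exact hr1 (by omega) (by omega) hrd
  · subst h2'
    have hfac : p ^ 2 - 1 = (p - 1) * (p + 1) := by
      obtain ⟨m, hm⟩ : ∃ m, p = m + 1 := ⟨p - 1, by omega⟩
      rw [hm]
      simp only [Nat.add_sub_cancel]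
      rw [show (m + 1) ^ 2 = m * (m + 1 + 1) + 1 by ring]
      simp
    rw [hfac] at hrd
    rcases (hr.dvd_mul).mp hrd with h1 | h1
    · exact hr1 (by omega) (by omega) h1
    · have hle := Nat.le_of_dvd (by omega) h1
      have hge := hmin r hr hrG
      have hcases : r = p ∨ r = p + 1 := by omega
      rcases hcases with h0 | hr2
      · rw [h0] at h1
        have : p ∣ 1 := (Nat.dvd_add_right (dvd_refl p)).mp h1
        exact hp.one_lt.ne' (Nat.dvd_one.mp this)
      · -- `p = 2`, `r = 3`
        have hp2' : p = 2 := by
          by_contra hne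
          have hodd : Odd p := hp.odd_of_ne_two hne
          have heven : Even (p + 1) := hodd.add_one
          rw [← hr2] at heven
          have := (hr.even_iff).mp heven
          omega
        have hr3 : r = 3 := by omega
        subst hr3
        -- the Sylow `2`-subgroup has rank `2`, hence order at least `4`
        have hP2 : IsPGroup p (P : Subgroup G) := P.2
        obtain ⟨k, hk⟩ := IsPGroup.iff_card.mp hP2
        have hkk : 2 ≤ k := by
          by_contra hlt
          have hk1 : k = 0 ∨ k = 1 := by omega
          have hcyc : IsCyclic (P : Subgroup G) := by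
            rcases hk1 with h0 | h0
            · subst h0
              have : Nat.card (P : Subgroup G) = 1 := by simpa using hk
              haveI : Subsingleton (P : Subgroup G) := (Nat.card_eq_one_iff_unique.mp this).1
              infer_instance
            · subst h0
              have : Nat.card (P : Subgroup G) = p := by simpa using hk
              exact isCyclic_of_prime_card this
          obtain ⟨g, hg⟩ := hcyc.exists_generator
          have hrank : Group.rank (P : Subgroup G) ≤ 1 := by
            have hcl : closure (({g} : Finset (P : Subgroup G)) : Set (P : Subgroup G)) = ⊤ := by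
              rw [eq_top_iff]
              intro x _
              have := hg x
              rw [Finset.coe_singleton]
              rw [mem_closure_singleton]
              exact mem_zpowers_iff.mp this
            simpa using Group.rank_le hcl
          omega
        have h4 : 4 ∣ Nat.card G := by
          have h5 : p ^ k ∣ Nat.card G := by
            rw [← hk]; exact card_subgroup_dvd_card _
          have h6 := (pow_dvd_pow p hkk).trans h5
          rw [hp2'] at h6
          simpa using h6
        apply h12
        have : Nat.Coprime 4 3 := by norm_num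
        exact this.mul_dvd_of_dvd_of_dvd h4 hrG

theorem solvable_aux (n : ℕ) : ∀ (G : Type u) [Group G] [Finite G], Nat.card G = n →
    (∀ p : ℕ, p.Prime → p ∣ Nat.card G → (∃ q : ℕ, q.Prime ∧ q ∣ Nat.card G ∧ p < q) →
      ∀ P : Sylow p G, IsMulCommutative (P : Subgroup G) ∧ Group.rank (P : Subgroup G) ≤ 2) →
    ¬ 12 ∣ Nat.card G → Group.IsSolvable G := by
  induction n using Nat.strong_induction_on with
  | _ n ih =>
    intro G _ _ hn h h12
    by_cases hone : Nat.card G = 1
    · haveI : Subsingleton G := (Nat.card_eq_one_iff_unique.mp hone).1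
      infer_instance
    obtain ⟨p, hpdef⟩ : ∃ p, p = Nat.minFac (Nat.card G) := ⟨_, rfl⟩
    have hp : p.Prime := hpdef ▸ Nat.minFac_prime hone
    haveI : Fact p.Prime := ⟨hp⟩
    have hpd : p ∣ Nat.card G := hpdef ▸ Nat.minFac_dvd _
    have hmin : ∀ r : ℕ, r.Prime → r ∣ Nat.card G → p ≤ r := fun r hr hd =>
      hpdef ▸ Nat.minFac_le_of_dvd hr.two_le hd
    by_cases hlarge : ∃ q : ℕ, q.Prime ∧ q ∣ Nat.card G ∧ p < q
    · obtain ⟨P⟩ : Nonempty (Sylow p G) := inferInstance
      obtain ⟨hab, hrk⟩ := h p hp hpd hlarge P
      have hcop := coprime_factor hmin P hrk h12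
      obtain ⟨P', N, hNn, hc⟩ := Cfsg.Agent.S3969.result p P hab hcop
      have hcard : Nat.card N * Nat.card (P' : Subgroup G) = Nat.card G := hc.card_mul
      have hP'card : 1 < Nat.card (P' : Subgroup G) := by
        by_contra hle
        have h1 : Nat.card (P' : Subgroup G) = 1 := by
          have : 0 < Nat.card (P' : Subgroup G) := Nat.card_pos
          omega
        apply P'.not_dvd_index
        have h2 := (P' : Subgroup G).card_mul_index
        rw [h1, one_mul] at h2
        rw [h2]
        exact hpd
      have hNpos : 0 < Nat.card N := Nat.card_pos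
      have hNlt : Nat.card N < n := by
        rw [← hn, ← hcard]
        exact lt_mul_of_one_lt_right hNpos hP'card
      have hNdvd : Nat.card N ∣ Nat.card G := Dvd.intro _ hcard
      have hNcop : (Nat.card N).Coprime p := Cfsg.Agent.Lib.Transfer.complement_card_coprime hc
      have hNsolv : Group.IsSolvable N := by
        apply ih _ hNlt (↥N) rfl
        · intro r hr hrN hq R
          haveI : Fact r.Prime := ⟨hr⟩
          have hrp : r ≠ p := by
            rintro rfl
            exact hr.one_lt.ne' (Nat.Coprime.eq_one_of_dvd hNcop.symm hrN)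
          have hrG : r ∣ Nat.card G := hrN.trans hNdvd
          obtain ⟨q, hq1, hq2, hq3⟩ := hq
          have hq' : ∃ q : ℕ, q.Prime ∧ q ∣ Nat.card G ∧ r < q := ⟨q, hq1, hq2.trans hNdvd, hq3⟩
          set R' : Subgroup G := (R : Subgroup ↥N).map N.subtype with hR'
          have hRe : ↥(R : Subgroup ↥N) ≃* ↥R' := (R : Subgroup ↥N).equivMapOfInjective N.subtype N.subtype_injective
          have hR'card : Nat.card R' = r ^ (Nat.card G).factorization r := by
            rw [← Nat.card_congr hRe.toEquiv, R.card_eq_multiplicity]
            congr 1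
            rw [← hcard, Nat.factorization_mul hNpos.ne' (Nat.card_pos (α := (P' : Subgroup G))).ne']
            obtain ⟨k, hk⟩ := IsPGroup.iff_card.mp P'.2
            rw [hk, Nat.factorization_pow, hp.factorization]
            simp [Finsupp.single_apply, hrp.symm]
          have hS := h r hr hrG hq' (Sylow.ofCard R' hR'card)
          have hS1 : IsMulCommutative ↥R' := hS.1
          have hS2 : Group.rank ↥R' ≤ 2 := hS.2
          refine ⟨⟨⟨fun a b => hRe.injective ?_⟩⟩, ?_⟩
          · rw [map_mul, map_mul]
            exact hS1.is_comm.comm _ _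
          · rw [Group.rank_congr hRe]
            exact hS2
        · intro h3
          exact h12 (h3.trans hNdvd)
      have hQ : IsPGroup p (G ⧸ N) := by
        rw [IsPGroup.iff_card]
        have h5 : Nat.card (G ⧸ N) = Nat.card (P' : Subgroup G) := hc.symm.index_eq_card
        rw [h5]
        exact IsPGroup.iff_card.mp P'.2
      haveI : Group.IsNilpotent (G ⧸ N) := hQ.isNilpotent
      haveI : Group.IsSolvable (G ⧸ N) := inferInstance
      exact Group.isSolvable_of_ker_le_range N.subtype (QuotientGroup.mk' N) (by
        rw [QuotientGroup.ker_mk']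
        intro x hx
        exact ⟨⟨x, hx⟩, rfl⟩)
    · have hall : ∀ {d : ℕ}, d.Prime → d ∣ Nat.card G → d = p := by
        intro d hd hdG
        have h1 := hmin d hd hdG
        by_contra hne
        exact hlarge ⟨d, hd, hdG, lt_of_le_of_ne h1 (Ne.symm hne)⟩
      have hG := Nat.eq_prime_pow_of_unique_prime_dvd Nat.card_pos.ne' hall
      have hGp : IsPGroup p G := IsPGroup.of_card hG
      haveI : Group.IsNilpotent G := hGp.isNilpotent
      infer_instance

/-- Let `G` be a finite group such that for every prime `p` dividing its order, other than the largest such prime, the Sylow `p`-subgroups are abelian and generated by at most two elements, and suppose `12` does not divide the order of `G`. Then `G` is solvable. In particular a group of cube-free order not divisible by `12` is solvable. -/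
theorem result {G : Type*} [Group G] [Finite G] (h : ∀ p : ℕ, p.Prime → p ∣ Nat.card G → (∃ q : ℕ, q.Prime ∧ q ∣ Nat.card G ∧ p < q) → ∀ P : Sylow p G, IsMulCommutative (P : Subgroup G) ∧ Group.rank (P : Subgroup G) ≤ 2) (h12 : ¬ 12 ∣ Nat.card G) : Group.IsSolvable G :=
  solvable_aux _ G rfl h h12

end Cfsg.Agent.S3970
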