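import Cfsg.Statements.S3971
import Cfsg.Agent.S0014
import Cfsg.Agent.Lib.Transfer.Frobenius
import Cfsg.Agent.Lib.Hall.CoprimeLemmas
import Mathlib

set_option autoImplicit false
open Cfsg

namespace Cfsg.Agent.S3971

open Subgroup

/-- A `2`-group with a cyclic subgroup of index at most two has Frattini index at most four. -/
theorem frattini_index_le {Q : Type*} [Group Q] [Finite Q] (hQ : IsPGroup 2 Q) (D : Subgroup Q)
    (hD : IsCyclic D) (hidx : D.index ≤ 2) : (frattini Q).index ≤ 4 := by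
  classical
  haveI : Fact (Nat.Prime 2) := ⟨Nat.prime_two⟩
  obtain ⟨k, hk⟩ := IsPGroup.iff_card.mp hQ
  have hdvd : (frattini Q).index ∣ 2 ^ k := by
    rw [← hk]; exact Subgroup.index_dvd_card _
  obtain ⟨n, -, hn⟩ := (Nat.dvd_prime_pow Nat.prime_two).mp hdvd
  obtain ⟨⟨d, hdD⟩, hd⟩ := hD.exists_generator
  have hDz : D = zpowers d := by
    apply le_antisymm
    · intro y hy
      obtain ⟨z, hz⟩ := hd ⟨y, hy⟩
      refine ⟨z, ?_⟩
      have := congrArg Subtype.val hz
      simpa using this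
    · exact (zpowers_le.mpr hdD)
  have key : ∃ t : Q, Subgroup.closure (({d, t} : Finset Q) : Set Q) = ⊤ := by
    by_cases hT : D = ⊤
    · refine ⟨1, ?_⟩
      rw [eq_top_iff, ← hT, hDz, zpowers_le]
      exact Subgroup.subset_closure (by simp)
    · obtain ⟨t, ht⟩ : ∃ t : Q, t ∉ D := by
        by_contra h
        push Not at h
        exact hT (eq_top_iff.mpr fun y _ => h y)
      refine ⟨t, ?_⟩
      have hi : D.index = 2 := by
        have h0 : D.index ≠ 0 := index_ne_zero_of_finite
        have h1 : D.index ≠ 1 := by rwa [Ne, index_eq_one]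
        omega
      rw [eq_top_iff]
      intro y _
      have hdC : D ≤ Subgroup.closure (({d, t} : Finset Q) : Set Q) := by
        rw [hDz, zpowers_le]
        exact Subgroup.subset_closure (by simp)
      have htC : t ∈ Subgroup.closure (({d, t} : Finset Q) : Set Q) :=
        Subgroup.subset_closure (by simp)
      by_cases hy : y ∈ D
      · exact hdC hy
      · have h2 : t⁻¹ * y ∈ D := by
          rw [Subgroup.mul_mem_iff_of_index_two hi]
          simp [ht, hy]
        have : y = t * (t⁻¹ * y) := by group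
        rw [this]
        exact mul_mem htC (hdC h2)
  obtain ⟨t, ht⟩ := key
  have hle := (Cfsg.Agent.S0014.result 2 n hQ hn).2 _ ht
  have h2 : ({d, t} : Finset Q).card ≤ 2 := Finset.card_le_two
  have hn2 : n ≤ 2 := hle.trans h2
  rw [hn]
  calc 2 ^ n ≤ 2 ^ 2 := Nat.pow_le_pow_right (by norm_num) hn2
    _ = 4 := by norm_num

variable {G : Type*} [Group G]

theorem map_frat (Q : Subgroup G) (e : Q ≃* Q) :
    (frattini Q).map (e : Q →* Q) = frattini Q :=
  Subgroup.characteristic_iff_map_eq.mp inferInstance e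

/-- The action of `N(Q)` on the Frattini quotient of `Q`. -/
noncomputable def psi (Q : Subgroup G) :
    (normalizer (Q : Set G)) →* Equiv.Perm (↥Q ⧸ frattini ↥Q) where
  toFun a := (QuotientGroup.congr (frattini Q) (frattini Q)
    (Cfsg.Agent.Lib.Hall.normalizerAut Q a.2) (map_frat Q _)).toEquiv
  map_one' := by
    ext q
    induction q using QuotientGroup.induction_on with
    | H k =>
      show QuotientGroup.congr (frattini Q) (frattini Q)
        (Cfsg.Agent.Lib.Hall.normalizerAut Q _) (map_frat Q _) (k : ↥Q ⧸ frattini ↥Q) = _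
      rw [QuotientGroup.congr_mk]
      show _ = (k : ↥Q ⧸ frattini ↥Q)
      congr 1
      apply Subtype.ext
      show (1 : G) * (k : G) * (1 : G)⁻¹ = k
      simp
  map_mul' a b := by
    ext q
    induction q using QuotientGroup.induction_on with
    | H k =>
      show QuotientGroup.congr (frattini Q) (frattini Q)
          (Cfsg.Agent.Lib.Hall.normalizerAut Q _) (map_frat Q _) (k : ↥Q ⧸ frattini ↥Q) =
        QuotientGroup.congr (frattini Q) (frattini Q)
          (Cfsg.Agent.Lib.Hall.normalizerAut Q _) (map_frat Q _)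
        (QuotientGroup.congr (frattini Q) (frattini Q)
          (Cfsg.Agent.Lib.Hall.normalizerAut Q _) (map_frat Q _) (k : ↥Q ⧸ frattini ↥Q))
      rw [QuotientGroup.congr_mk, QuotientGroup.congr_mk, QuotientGroup.congr_mk]
      congr 1
      apply Subtype.ext
      show ((a : G) * b) * (k : G) * ((a : G) * b)⁻¹ = a * (b * k * (b : G)⁻¹) * (a : G)⁻¹
      group

theorem psi_mk (Q : Subgroup G) (a : normalizer (Q : Set G)) (k : Q) :
    psi Q a (k : ↥Q ⧸ frattini ↥Q) =
      ((Cfsg.Agent.Lib.Hall.normalizerAut Q a.2 k : ↥Q) : ↥Q ⧸ frattini ↥Q) := by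
  show QuotientGroup.congr (frattini Q) (frattini Q)
    (Cfsg.Agent.Lib.Hall.normalizerAut Q _) (map_frat Q _) (k : ↥Q ⧸ frattini ↥Q) = _
  rw [QuotientGroup.congr_mk]

theorem htriv [Finite G] (Q : Subgroup G) {g : G} (hg : g ∈ normalizer (Q : Set G))
    (hcop : Nat.Coprime (orderOf g) 24) (hcard : (frattini Q).index ≤ 4) :
    ∀ a ∈ zpowers g, ∀ k ∈ Q, a * k * a⁻¹ * k⁻¹ ∈ (frattini Q).map Q.subtype := by
  have h1 : psi Q ⟨g, hg⟩ = 1 := by
    have hd1 : orderOf (psi Q ⟨g, hg⟩) ∣ orderOf g := by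
      have : orderOf (⟨g, hg⟩ : normalizer (Q : Set G)) = orderOf g := Subgroup.orderOf_mk g hg
      rw [← this]
      exact orderOf_map_dvd _ _
    have hd2 : orderOf (psi Q ⟨g, hg⟩) ∣ 24 := by
      have h0 : orderOf (psi Q ⟨g, hg⟩) ∣ Nat.card (Equiv.Perm (↥Q ⧸ frattini ↥Q)) :=
        orderOf_dvd_natCard _
      rw [Nat.card_perm] at h0
      have h3 : (Nat.card (↥Q ⧸ frattini ↥Q)).factorial ∣ 24 := by
        have h4 : Nat.card (↥Q ⧸ frattini ↥Q) = (frattini Q).index := rfl
        rw [h4]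
        have h5 : (frattini Q).index ≠ 0 := index_ne_zero_of_finite
        interval_cases h : (frattini Q).index <;> first | omega | decide
      exact h0.trans h3
    have := Nat.Coprime.eq_one_of_dvd (Nat.Coprime.coprime_dvd_left hd1 hcop) hd2
    exact orderOf_eq_one_iff.mp this
  rintro a ha k hk
  obtain ⟨z, rfl⟩ := mem_zpowers_iff.mp ha
  have hgz : g ^ z ∈ normalizer (Q : Set G) := zpow_mem hg z
  have h2 : psi Q ⟨g ^ z, hgz⟩ = 1 := by
    have : (⟨g ^ z, hgz⟩ : normalizer (Q : Set G)) = (⟨g, hg⟩ : normalizer (Q : Set G)) ^ z := by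
      apply Subtype.ext; simp
    rw [this, map_zpow, h1, one_zpow]
  have h3 := congrArg (fun π => π ((⟨k, hk⟩ : ↥Q) : ↥Q ⧸ frattini ↥Q)) h2
  simp only [psi_mk, Equiv.Perm.coe_one, id] at h3
  have h4 : (((Cfsg.Agent.Lib.Hall.normalizerAut Q hgz ⟨k, hk⟩ : ↥Q) * (⟨k, hk⟩ : ↥Q)⁻¹ : ↥Q) :
      ↥Q ⧸ frattini ↥Q) = 1 := by
    rw [QuotientGroup.mk_mul, QuotientGroup.mk_inv, h3, mul_inv_cancel]
  have h5 := (QuotientGroup.eq_one_iff _).mp h4
  exact ⟨_, h5, by simp [Cfsg.Agent.Lib.Hall.normalizerAut_coe]⟩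

theorem frob_hyp [Finite G] (P : Sylow 2 G) (x : G) (hidx : (zpowers x).relIndex (P : Subgroup G) ≤ 2)
    (h3 : ¬ 3 ∣ Nat.card G) : Cfsg.Agent.Lib.Transfer.FrobeniusHyp 2 (P : Subgroup G) := by
  haveI : Fact (Nat.Prime 2) := ⟨Nat.prime_two⟩
  intro Q hQ g hg hcop
  have hQ2 : IsPGroup 2 Q := P.isPGroup'.to_le hQ
  have hcyc : IsCyclic ((zpowers x).subgroupOf Q) := by
    let f : ((zpowers x).subgroupOf Q) →* zpowers x :=
      { toFun := fun y => ⟨(y : Q), y.2⟩, map_one' := rfl, map_mul' := fun _ _ => rfl }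
    apply isCyclic_of_injective f
    intro a b hab
    apply Subtype.ext; apply Subtype.ext
    exact congrArg (fun y : zpowers x => (y : G)) hab
  have hidxQ : ((zpowers x).subgroupOf Q).index ≤ 2 := by
    show (zpowers x).relIndex Q ≤ 2
    have h0 : (zpowers x).relIndex (P : Subgroup G) ≠ 0 := by
      show ((zpowers x).subgroupOf (P : Subgroup G)).index ≠ 0
      exact index_ne_zero_of_finite
    exact (Subgroup.relIndex_le_of_le_right hQ h0).trans hidx
  have hF := frattini_index_le hQ2 _ hcyc hidxQ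
  have hcop24 : Nat.Coprime (orderOf g) 24 := by
    have h24 : (24 : ℕ) = 2 ^ 3 * 3 := by norm_num
    rw [h24]
    apply Nat.Coprime.mul_right
    · exact Nat.Coprime.pow_right _ hcop
    · rw [Nat.coprime_comm, Nat.Prime.coprime_iff_not_dvd Nat.prime_three]
      exact fun h => h3 (h.trans (orderOf_dvd_natCard g))
  have hT := htriv Q hg hcop24 hF
  have hcopK : (Nat.card (zpowers g)).Coprime (Nat.card (frattini Q)) := by
    rw [Nat.card_zpowers]
    obtain ⟨m, hm⟩ := IsPGroup.iff_card.mp (hQ2.to_subgroup (frattini Q))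
    rw [hm]
    exact Nat.Coprime.pow_right _ hcop
  have hAK : zpowers g ≤ normalizer (Q : Set G) := zpowers_le.mpr hg
  have := Cfsg.Agent.Lib.Hall.le_centralizer_of_frattini (zpowers g) Q hAK hcopK hT
  exact this (mem_zpowers g)

/-- Let `G` be a finite group of order `2 ^ a * n` with `n` odd and not divisible by `3`, and suppose `G` has an element of order `2 ^ (a - 1)` (so a Sylow `2`-subgroup has a cyclic subgroup of index at most `2`). Then `G` has a normal subgroup of order `n`. -/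
theorem result {G : Type*} [Group G] [Finite G] (a n : ℕ) (hG : Nat.card G = 2 ^ a * n) (hn : Odd n) (h3 : ¬ 3 ∣ n) (hx : ∃ x : G, orderOf x = 2 ^ (a - 1)) : ∃ N : Subgroup G, N.Normal ∧ Nat.card N = n := by
  haveI : Fact (Nat.Prime 2) := ⟨Nat.prime_two⟩
  rcases Nat.eq_zero_or_pos a with rfl | ha
  · refine ⟨⊤, inferInstance, ?_⟩
    rw [Subgroup.card_top, hG]; simp
  obtain ⟨x, hx⟩ := hx
  have h2p : IsPGroup 2 (zpowers x) := by
    apply IsPGroup.of_card (n := a - 1)
    rw [Nat.card_zpowers, hx]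
  obtain ⟨P, hP⟩ := h2p.exists_le_sylow
  have hn0 : n ≠ 0 := by
    rintro rfl
    simp at hn
  have hcardP : Nat.card P = 2 ^ a := by
    rw [Sylow.card_eq_multiplicity, hG]
    have : Nat.factorization (2 ^ a * n) 2 = a := by
      rw [Nat.factorization_mul (by positivity) hn0]
      simp [Nat.Prime.factorization_self Nat.prime_two, Nat.factorization_eq_zero_of_not_dvd (Nat.not_even_iff_odd.mpr hn ∘ even_iff_two_dvd.mpr)]
    rw [this]
  have hidx : (zpowers x).relIndex (P : Subgroup G) ≤ 2 := by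
    have h1 : Nat.card ((zpowers x).subgroupOf (P : Subgroup G)) = 2 ^ (a - 1) := by
      rw [← hx, ← Nat.card_zpowers]
      exact Nat.card_congr (Subgroup.subgroupOfEquivOfLe hP).toEquiv
    have h2 := Subgroup.card_mul_index ((zpowers x).subgroupOf (P : Subgroup G))
    rw [h1, hcardP] at h2
    have h3 : (2 : ℕ) ^ a = 2 ^ (a - 1) * 2 := by
      rw [← pow_succ]; congr 1; omega
    rw [h3] at h2
    have h4 := Nat.eq_of_mul_eq_mul_left (by positivity) h2
    show ((zpowers x).subgroupOf (P : Subgroup G)).index ≤ 2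
    omega
  have h3G : ¬ 3 ∣ Nat.card G := by
    rw [hG]
    intro h
    rcases (Nat.Prime.dvd_mul Nat.prime_three).mp h with h | h
    · have := Nat.Prime.dvd_of_dvd_pow Nat.prime_three h
      omega
    · exact h3 h
  obtain ⟨N, hN, hc⟩ := Cfsg.Agent.Lib.Transfer.frobenius P (frob_hyp P x hidx h3G)
  refine ⟨N, hN, ?_⟩
  have := hc.card_mul
  rw [hcardP, hG, mul_comm] at this
  exact Nat.eq_of_mul_eq_mul_left (by positivity) this

end Cfsg.Agent.S3971
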