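import Cfsg.Statements.S3977
import Cfsg.Agent.S3976
import Mathlib

set_option autoImplicit false
open Cfsg

namespace Cfsg.Agent.S3977

open Subgroup

variable {G : Type*} [Group G] [Finite G] {p : ℕ} [Fact p.Prime] {m s : ℕ}

theorem mem_of_pow_eq_one (hG : Nat.card G = p ^ m) (hsm : s ≤ m)
    (huniq : ∀ H K : Subgroup G, Nat.card H = p ^ s → Nat.card K = p ^ s → H = K)
    {U : Subgroup G} (hU : Nat.card U = p ^ s) {x : G} {j : ℕ} (hj : j ≤ s) (hx : x ^ p ^ j = 1) :
    x ∈ U := by
  have hd : orderOf x ∣ p ^ j := orderOf_dvd_of_pow_eq_one hx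
  obtain ⟨i, hi, hi2⟩ := (Nat.dvd_prime_pow (Fact.out : p.Prime)).mp hd
  have hcz : Nat.card (zpowers x) = p ^ i := by rw [Nat.card_zpowers, hi2]
  have hdvd : p ^ s ∣ Nat.card G := by rw [hG]; exact pow_dvd_pow p hsm
  obtain ⟨K, hK, hle⟩ := Sylow.exists_subgroup_card_pow_prime_le p hdvd (zpowers x) hcz (hi.trans hj)
  have := huniq K U hK hU
  rw [← this]
  exact hle (mem_zpowers x)

theorem exists_gen (hG : Nat.card G = p ^ m) (hsm : s ≤ m)
    (huniq : ∀ H K : Subgroup G, Nat.card H = p ^ s → Nat.card K = p ^ s → H = K)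
    {U : Subgroup G} (hU : Nat.card U = p ^ s) (M : Subgroup G) (hM : Nat.card M = p ^ (s + 1)) :
    ∃ a ∈ M, M = zpowers a ∧ orderOf a = p ^ (s + 1) := by
  have hp : p.Prime := Fact.out
  have hlt : Nat.card U < Nat.card M := by
    rw [hU, hM]; exact Nat.pow_lt_pow_right hp.one_lt (by omega)
  obtain ⟨a, haM, haU⟩ : ∃ a ∈ M, a ∉ U := by
    by_contra h
    push Not at h
    have : M ≤ U := h
    exact absurd (Subgroup.card_le_of_le this) (by omega)
  have hord : orderOf a ∣ p ^ (s + 1) := by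
    have : a ^ p ^ (s + 1) = 1 := by
      have h1 : (⟨a, haM⟩ : M) ^ p ^ (s + 1) = 1 := by
        rw [← hM]; exact pow_card_eq_one'
      simpa using congrArg (fun y : M => (y : G)) h1
    exact orderOf_dvd_of_pow_eq_one this
  obtain ⟨i, hi, hi2⟩ := (Nat.dvd_prime_pow hp).mp hord
  have hi3 : i = s + 1 := by
    by_contra hne
    have : i ≤ s := by omega
    exact haU (mem_of_pow_eq_one hG hsm huniq hU this (by rw [← hi2]; exact pow_orderOf_eq_one a))
  subst hi3
  refine ⟨a, haM, ?_, hi2⟩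
  symm
  apply Subgroup.eq_of_le_of_card_ge (zpowers_le.mpr haM)
  rw [Nat.card_zpowers, hi2, hM]

/-- The class-two power formula. -/
theorem mul_pow_choose {a e z : G} (hza : Commute z a) (hze : Commute z e)
    (h : e * a = a * z * e) (n : ℕ) : (a * e) ^ n = a ^ n * e ^ n * z ^ (n.choose 2) := by
  have h1 : ∀ n : ℕ, e ^ n * a = a * z ^ n * e ^ n := by
    intro n
    induction n with
    | zero => simp
    | succ n ih =>
      have hzn : Commute (z ^ n) e := hze.pow_left n
      have hzen : Commute z (e ^ n) := hze.pow_right n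
      calc e ^ (n + 1) * a = e ^ n * (e * a) := by rw [pow_succ, mul_assoc]
        _ = (e ^ n * a) * z * e := by rw [h]; simp only [mul_assoc]
        _ = a * z ^ n * (e ^ n * z) * e := by rw [ih]; simp only [mul_assoc]
        _ = a * z ^ n * (z * e ^ n) * e := by rw [hzen.eq]
        _ = a * z ^ (n + 1) * e ^ (n + 1) := by rw [pow_succ z, pow_succ e]; simp only [mul_assoc]
  induction n with
  | zero => simp
  | succ n ih =>
    have hc : (n + 1).choose 2 = n.choose 2 + n := by
      rw [Nat.choose_succ_succ' n 1, Nat.choose_one_right, add_comm]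
    have hzc : Commute (z ^ n.choose 2) a := hza.pow_left _
    have hzn : Commute (z ^ n.choose 2) (e ^ n) := (hze.pow_pow _ _)
    have hzz : Commute (z ^ n.choose 2) (z ^ n) := (Commute.refl z).pow_pow _ _
    have hze' : Commute (z ^ n.choose 2) e := hze.pow_left _
    rw [pow_succ, ih, hc]
    calc a ^ n * e ^ n * z ^ n.choose 2 * (a * e)
        = a ^ n * e ^ n * (z ^ n.choose 2 * a) * e := by simp only [mul_assoc]
      _ = a ^ n * (e ^ n * a) * z ^ n.choose 2 * e := by rw [hzc.eq]; simp only [mul_assoc]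
      _ = a ^ n * (a * z ^ n * e ^ n) * z ^ n.choose 2 * e := by rw [h1]
      _ = a ^ n * a * z ^ n * (e ^ n * z ^ n.choose 2) * e := by simp only [mul_assoc]
      _ = a ^ n * a * z ^ n * (z ^ n.choose 2 * e ^ n) * e := by rw [hzn.eq]
      _ = a ^ n * a * (e ^ n * e) * (z ^ n * z ^ n.choose 2) := by
          have hzne : Commute (z ^ n * z ^ n.choose 2) (e ^ n * e) :=
            ((hze.pow_left _).pow_right n |>.mul_left ((hze.pow_left _).pow_right n)).mul_right
              ((hze.pow_left n).mul_left (hze.pow_left _))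
          calc a ^ n * a * z ^ n * (z ^ n.choose 2 * e ^ n) * e
              = a ^ n * a * (z ^ n * z ^ n.choose 2) * (e ^ n * e) := by simp only [mul_assoc]
            _ = a ^ n * a * ((e ^ n * e) * (z ^ n * z ^ n.choose 2)) := by
                rw [mul_assoc, hzne.eq]
            _ = _ := by simp only [mul_assoc]
      _ = a ^ (n + 1) * e ^ (n + 1) * z ^ (n.choose 2 + n) := by
          rw [pow_succ a, pow_succ e, add_comm (n.choose 2) n, pow_add z]

theorem uniq_step (hG : Nat.card G = p ^ m) (hs : 1 ≤ s) (hsm : s + 1 < m) (h2 : p ≠ 2 ∨ 2 ≤ s)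
    (huniq : ∀ H K : Subgroup G, Nat.card H = p ^ s → Nat.card K = p ^ s → H = K) :
    ∀ H K : Subgroup G, Nat.card H = p ^ (s + 1) → Nat.card K = p ^ (s + 1) → H = K := by
  have hp : p.Prime := Fact.out
  by_contra hcon
  push Not at hcon
  obtain ⟨H, K, hH, hK, hHK⟩ := hcon
  -- a normal subgroup of that order
  obtain ⟨M₁, hM₁n, hM₁⟩ : ∃ M₁ : Subgroup G, M₁.Normal ∧ Nat.card M₁ = p ^ (s + 1) := by
    have hc := Cfsg.Agent.S3976.result p m (s + 1) hp hG (by omega)
    by_contra hne
    push Not at hne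
    have : IsEmpty {H : Subgroup G // H.Normal ∧ Nat.card H = p ^ (s + 1)} :=
      ⟨fun x => hne x.1 x.2.1 x.2.2⟩
    rw [Nat.card_of_isEmpty] at hc
    have h1 : p ∣ 1 := (Nat.modEq_zero_iff_dvd.mp hc.symm)
    exact hp.one_lt.ne' (Nat.dvd_one.mp h1)
  obtain ⟨M₂, hM₂, hne⟩ : ∃ M₂ : Subgroup G, Nat.card M₂ = p ^ (s + 1) ∧ M₂ ≠ M₁ := by
    by_cases h : H = M₁
    · exact ⟨K, hK, fun hh => hHK (h.trans hh.symm)⟩
    · exact ⟨H, hH, h⟩
  have hsm' : s ≤ m := by omega
  obtain ⟨U, hU⟩ : ∃ U : Subgroup G, Nat.card U = p ^ s :=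
    Sylow.exists_subgroup_card_pow_prime p (by rw [hG]; exact pow_dvd_pow p hsm')
  have inU : ∀ {x : G} {j : ℕ}, j ≤ s → x ^ p ^ j = 1 → x ∈ U := fun hj hx =>
    mem_of_pow_eq_one hG hsm' huniq hU hj hx
  obtain ⟨a, haM, hMa, hoa⟩ := exists_gen hG hsm' huniq hU M₁ hM₁
  obtain ⟨b, hbM, hMb, hob⟩ := exists_gen hG hsm' huniq hU M₂ hM₂
  have powU : ∀ t : G, orderOf t = p ^ (s + 1) → U = zpowers (t ^ p) := by
    intro t ht
    apply huniq _ _ hU
    rw [Nat.card_zpowers, orderOf_pow_of_dvd hp.ne_zero (by rw [ht]; exact dvd_pow_self p (by omega)),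
      ht, pow_succ, Nat.mul_div_cancel _ hp.pos]
  have hUa := powU a hoa
  have hUb := powU b hob
  have ha1 : a ^ p ∈ zpowers (b ^ p) := by rw [← hUb, hUa]; exact mem_zpowers _
  obtain ⟨k, hk⟩ := mem_zpowers_iff.mp ha1
  set c : G := b ^ k with hc
  have hcp : c ^ p = a ^ p := by
    rw [hc, ← hk, ← zpow_natCast, ← zpow_natCast, ← zpow_mul, ← zpow_mul, mul_comm]
  have hcM₂ : c ∈ M₂ := by rw [hMb]; exact zpow_mem (mem_zpowers b) k
  have hcU : c ∉ U := by
    intro hcU
    have h1 : c ^ p ^ s = 1 := by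
      have h1 : (⟨c, hcU⟩ : U) ^ p ^ s = 1 := by rw [← hU]; exact pow_card_eq_one'
      simpa using congrArg (fun y : U => (y : G)) h1
    have h3 : a ^ p ^ s = 1 := by
      have : p ^ s = p * p ^ (s - 1) := by rw [← pow_succ']; congr 1; omega
      rw [this, pow_mul, ← hcp, ← pow_mul, ← this]; exact h1
    have h4 : orderOf a ∣ p ^ s := orderOf_dvd_of_pow_eq_one h3
    rw [hoa] at h4
    have := (Nat.pow_dvd_pow_iff_le_right hp.one_lt).mp h4
    omega
  have hcM₁ : c ∉ M₁ := by
    intro hcM₁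
    have h1 : Nat.card (M₁ ⊓ M₂ : Subgroup G) ∣ p ^ (s + 1) := by
      rw [← hM₂]; exact Subgroup.card_dvd_of_le inf_le_right
    obtain ⟨i, hi, hi2⟩ := (Nat.dvd_prime_pow hp).mp h1
    have hi3 : i ≠ s + 1 := by
      rintro rfl
      have h5 : M₂ ≤ M₁ := by
        have : M₁ ⊓ M₂ = M₂ := Subgroup.eq_of_le_of_card_ge inf_le_right (by rw [hi2, hM₂])
        rw [← this]; exact inf_le_left
      exact hne (Subgroup.eq_of_le_of_card_ge h5 (by rw [hM₁, hM₂]))
    have hi4 : i ≤ s := by omega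
    apply hcU
    apply inU hi4
    have h1 : (⟨c, ⟨hcM₁, hcM₂⟩⟩ : (M₁ ⊓ M₂ : Subgroup G)) ^ p ^ i = 1 := by
      rw [← hi2]; exact pow_card_eq_one'
    simpa using congrArg (fun y : (M₁ ⊓ M₂ : Subgroup G) => (y : G)) h1
  -- the commutator
  set e : G := c⁻¹ with he
  have hea : Commute e (a ^ p) := by
    rw [← hcp]; exact ((Commute.refl c).pow_right p).inv_left
  have haap : Commute a (a ^ p) := (Commute.refl a).pow_right p
  have hconj : e * a * e⁻¹ ∈ M₁ := hM₁n.conj_mem a haM e
  rw [hMa] at hconj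
  obtain ⟨r, hr⟩ := mem_zpowers_iff.mp hconj
  set z : G := a⁻¹ * (e * a * e⁻¹) with hz
  have hzp : z ^ p = 1 := by
    have hcomm : Commute a⁻¹ (e * a * e⁻¹) := by
      rw [← hr]; exact ((Commute.refl a).zpow_right r).inv_left
    rw [hz, hcomm.mul_pow, inv_pow, conj_pow, (hea.eq), mul_assoc, mul_inv_cancel, mul_one,
      inv_mul_cancel]
  have hzU : z ∈ U := inU (j := 1) (by omega) (by simpa using hzp)
  rw [hUa] at hzU
  obtain ⟨w, hw⟩ := mem_zpowers_iff.mp hzU
  have hza : Commute z a := by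
    rw [← hw]; exact (haap.zpow_right w).symm
  have hze : Commute z e := by
    rw [← hw]; exact (hea.zpow_right w).symm
  have hrel : e * a = a * z * e := by
    rw [hz]; group
  have hform := mul_pow_choose hza hze hrel p
  have hep : e ^ p = (a ^ p)⁻¹ := by rw [he, inv_pow, hcp]
  have hy : (a * e) ^ p = z ^ p.choose 2 := by
    rw [hform, hep, mul_inv_cancel, one_mul]
  have hyU : a * e ∈ U := by
    rcases h2 with h2 | h2
    · -- odd prime
      have hp3 : 2 < p := by
        have := hp.two_le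
        omega
      have hd : p ∣ p.choose 2 := hp.dvd_choose_self (by omega) hp3
      obtain ⟨t, ht⟩ := hd
      apply inU (j := 1) (by omega)
      rw [pow_one, hy, ht, pow_mul, hzp, one_pow]
    · by_cases hp2 : p = 2
      · subst hp2
        apply inU (j := 2) h2
        have : (2 : ℕ) ^ 2 = 2 * 2 := by norm_num
        rw [this, pow_mul, hy]
        simpa using hzp
      · have hp3 : 2 < p := by
          have := hp.two_le
          omega
        have hd : p ∣ p.choose 2 := hp.dvd_choose_self (by omega) hp3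
        obtain ⟨t, ht⟩ := hd
        apply inU (j := 1) (by omega)
        rw [pow_one, hy, ht, pow_mul, hzp, one_pow]
  have hUM : U ≤ M₁ := by
    rw [hUa, hMa]
    exact zpowers_le.mpr (pow_mem (mem_zpowers a) p)
  have : e ∈ M₁ := by
    have h1 : a⁻¹ * (a * e) ∈ M₁ := mul_mem (inv_mem haM) (hUM hyU)
    simpa using h1
  apply hcM₁
  have := inv_mem this
  simpa [he] using this

theorem main_aux (hG : Nat.card G = p ^ m) (h2' : p ≠ 2 ∨ True) : ∀ (k s : ℕ), m = s + 1 + k → 1 ≤ s →
    (p ≠ 2 ∨ 2 ≤ s) →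
    (∀ H K : Subgroup G, Nat.card H = p ^ s → Nat.card K = p ^ s → H = K) → IsCyclic G := by
  intro k
  induction k with
  | zero =>
    intro s hm hs h2 huniq
    obtain ⟨U, hU⟩ : ∃ U : Subgroup G, Nat.card U = p ^ s :=
      Sylow.exists_subgroup_card_pow_prime p (by rw [hG]; exact pow_dvd_pow p (by omega))
    have hcard : Nat.card (⊤ : Subgroup G) = p ^ (s + 1) := by
      rw [Subgroup.card_top, hG, hm]
    obtain ⟨a, -, hMa, -⟩ := exists_gen hG (by omega) huniq hU ⊤ hcard
    exact ⟨a, fun x => by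
      have : x ∈ zpowers a := by rw [← hMa]; trivial
      exact this⟩
  | succ k ih =>
    intro s hm hs h2 huniq
    apply ih (s + 1) (by omega) (by omega)
    · rcases h2 with h | h
      · exact Or.inl h
      · exact Or.inr (by omega)
    · exact uniq_step hG hs (by omega) h2 huniq

/-- Let `p` be a prime and `G` a group of order `p ^ m` which has exactly one subgroup of order `p ^ s`, where `1 ≤ s < m`, and where `s ≥ 2` if `p = 2`. Then `G` is cyclic. (For `p = 2` and `s = 1` the generalized quaternion groups also occur; that case is the classical criterion for a unique involution.) -/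
theorem result {G : Type*} [Group G] [Finite G] (p m s : ℕ) (hp : p.Prime) (hG : Nat.card G = p ^ m) (hs : 1 ≤ s) (hsm : s < m) (h2 : p ≠ 2 ∨ 2 ≤ s) (huniq : ∀ H K : Subgroup G, Nat.card H = p ^ s → Nat.card K = p ^ s → H = K) : IsCyclic G := by
  haveI : Fact p.Prime := ⟨hp⟩
  obtain ⟨k, hk⟩ : ∃ k, m = s + 1 + k := ⟨m - (s + 1), by omega⟩
  exact main_aux hG (Or.inr trivial) k s hk hs h2 huniq

end Cfsg.Agent.S3977
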