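import Cfsg.Statements.S3978
import Mathlib
import Cfsg.Agent.S3955
import Cfsg.Agent.S3956
import Cfsg.Agent.Lib.Cl.DihMult

set_option autoImplicit false
open Cfsg

namespace Cfsg.Agent.S3978

/-- A finite group `Q` has trivial Schur multiplier if and only if, for every `n`, every homomorphism from `Q` to the projective general linear group (the quotient of `GL n ℂ` by its centre) lifts to a homomorphism into `GL n ℂ`. -/
theorem result {Q : Type*} [Group Q] [Finite Q] : Cfsg.HasCyclicSchurMultiplier Q 1 ↔ ∀ (n : ℕ) (γ : Q →* (GL (Fin n) ℂ ⧸ Subgroup.center (GL (Fin n) ℂ))), ∃ ρ : Q →* GL (Fin n) ℂ, (QuotientGroup.mk' (Subgroup.center (GL (Fin n) ℂ))).comp ρ = γ := by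
  have hid : Cfsg.IsStemExtension (MonoidHom.id Q) := by
    refine ⟨fun g => ⟨g, rfl⟩, ?_, ?_⟩
    · have : (MonoidHom.id Q).ker = ⊥ := MonoidHom.ker_id
      rw [this]
      exact bot_le
    · have : (MonoidHom.id Q).ker = ⊥ := MonoidHom.ker_id
      rw [this]
      exact bot_le
  constructor
  · intro hA n γ
    haveI : Unique (Multiplicative (ZMod 1)) := ⟨⟨1⟩, fun a => Subsingleton.elim _ _⟩
    haveI : Unique (MonoidHom.id Q).ker := by
      have : (MonoidHom.id Q).ker = ⊥ := MonoidHom.ker_id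
      rw [this]
      infer_instance
    exact Cfsg.Agent.S3955.result hA (MonoidHom.id Q) hid ⟨MulEquiv.ofUnique⟩ n γ
  · intro hlift
    apply Cfsg.Agent.Lib.Cl.DihMult.hasTrivial
    intro Γ _ _ σ hσ
    obtain ⟨π, hπ⟩ := Cfsg.Agent.S3956.result (MonoidHom.id Q) hid
      (by
        intro n γ
        obtain ⟨ρ, hρ⟩ := hlift n γ
        exact ⟨ρ, by rw [hρ]; rfl⟩) Γ σ hσ
    rw [eq_bot_iff]
    intro x hx
    obtain ⟨y, hy⟩ := hπ ⟨x, hx⟩
    have hy1 : y = 1 := by
      apply Subtype.ext
      exact y.2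
    rw [hy1, map_one] at hy
    have := congrArg Subtype.val hy
    simpa using this.symm


end Cfsg.Agent.S3978
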