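import Cfsg.Statements.S3979
import Mathlib

set_option autoImplicit false
open Cfsg

namespace Cfsg.Agent.S3979

/-- A finite cyclic group has trivial Schur multiplier: every finite stem extension of it is an isomorphism, said through `HasCyclicSchurMultiplier G 1`. -/
theorem result {G : Type*} [Group G] [Finite G] [IsCyclic G] : Cfsg.HasCyclicSchurMultiplier G 1 := by
  constructor
  · refine ⟨G, inferInstance, inferInstance, MonoidHom.id G, ⟨Function.surjective_id, ?_, ?_⟩, ?_⟩
    · rw [MonoidHom.ker_eq_bot_iff _ |>.mpr Function.injective_id]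
      exact bot_le
    · rw [MonoidHom.ker_eq_bot_iff _ |>.mpr Function.injective_id]
      exact bot_le
    · have h : (MonoidHom.id G).ker = ⊥ := (MonoidHom.ker_eq_bot_iff _).mpr Function.injective_id
      haveI : Subsingleton (MonoidHom.id G).ker := by
        refine ⟨fun a b => Subtype.ext ?_⟩
        have ha : (a : G) = 1 := a.2
        have hb : (b : G) = 1 := b.2
        rw [ha, hb]
      haveI : Subsingleton (Multiplicative (ZMod 1)) := inferInstanceAs (Subsingleton (ZMod 1))
      haveI : Unique (MonoidHom.id G).ker := ⟨⟨1⟩, fun a => Subsingleton.elim _ _⟩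
      haveI : Unique (Multiplicative (ZMod 1)) := ⟨⟨1⟩, fun a => Subsingleton.elim _ _⟩
      exact ⟨MulEquiv.ofUnique⟩
  · intro Γ _ _ σ hσ
    obtain ⟨hs, hc, hk⟩ := hσ
    haveI : IsCyclic σ.range := by
      rw [MonoidHom.range_eq_top.mpr hs]
      exact (Subgroup.topEquiv (G := G)).symm.isCyclic.mp inferInstance
    have hcomm := commutative_of_cyclic_center_quotient σ hc
    have hbot : commutator Γ = ⊥ := by
      rw [commutator_eq_bot_iff_center_eq_top]
      exact (Subgroup.eq_top_iff' _).mpr fun g => Subgroup.mem_center_iff.mpr fun h => hcomm h g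
    refine ⟨1, ?_⟩
    rintro ⟨y, hy⟩
    refine ⟨1, ?_⟩
    apply Subtype.ext
    have : y ∈ commutator Γ := hk hy
    rw [hbot] at this
    simpa using this.symm

end Cfsg.Agent.S3979
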