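import Cfsg.Statements.S3980
import Mathlib
import Cfsg.Agent.S3959

set_option autoImplicit false
universe u v w
open Cfsg

namespace Cfsg.Agent.S3980

/-- Let `Q₁` and `Q₂` be finite groups whose commutator quotients have coprime orders, with Schur multipliers `A` and `B`. Then the Schur multiplier of `Q₁ × Q₂` is isomorphic to `A × B`. -/
theorem result {Q₁ : Type u} {Q₂ : Type v} [Group Q₁] [Group Q₂] [Finite Q₁] [Finite Q₂] {A B : Type w} [CommGroup A] [CommGroup B] (hA : Cfsg.HasSchurMultiplier Q₁ A) (hB : Cfsg.HasSchurMultiplier Q₂ B) (hcop : Nat.Coprime (Nat.card (Abelianization Q₁)) (Nat.card (Abelianization Q₂))) : Cfsg.HasSchurMultiplier (Q₁ × Q₂) (A × B) := by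
  have h := Cfsg.Agent.S3959.result hA hB
  have hT : Subsingleton (TensorProduct ℤ (Additive (Abelianization Q₁)) (Additive (Abelianization Q₂))) := by
    have hzero : ∀ (x : Additive (Abelianization Q₁)) (y : Additive (Abelianization Q₂)),
        TensorProduct.tmul ℤ x y = 0 := by
      intro x y
      have ha : (Nat.card (Abelianization Q₁) : ℤ) • x = 0 := by
        rw [natCast_zsmul]
        exact (card_nsmul_eq_zero' : Nat.card (Additive (Abelianization Q₁)) • x = 0)
      have hb : (Nat.card (Abelianization Q₂) : ℤ) • y = 0 := by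
        rw [natCast_zsmul]
        exact (card_nsmul_eq_zero' : Nat.card (Additive (Abelianization Q₂)) • y = 0)
      have hz : ((Nat.card (Abelianization Q₁) : ℤ)).gcd (Nat.card (Abelianization Q₂) : ℤ) = 1 := by
        rw [Int.gcd_natCast_natCast]
        exact hcop
      have hbez := Int.gcd_eq_gcd_ab (Nat.card (Abelianization Q₁) : ℤ) (Nat.card (Abelianization Q₂) : ℤ)
      rw [hz] at hbez
      set u := Int.gcdA (Nat.card (Abelianization Q₁) : ℤ) (Nat.card (Abelianization Q₂) : ℤ)
      set v := Int.gcdB (Nat.card (Abelianization Q₁) : ℤ) (Nat.card (Abelianization Q₂) : ℤ)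
      have e : TensorProduct.tmul ℤ x y = (1 : ℤ) • TensorProduct.tmul ℤ x y := by simp
      rw [e]
      have h1 : (1 : ℤ) = (Nat.card (Abelianization Q₁) : ℤ) * u + (Nat.card (Abelianization Q₂) : ℤ) * v := by
        exact_mod_cast hbez
      rw [h1, add_smul, mul_smul, mul_smul]
      have h2 : u • TensorProduct.tmul ℤ x y = TensorProduct.tmul ℤ (u • x) y := (TensorProduct.smul_tmul' u x y).symm
      have h3 : v • TensorProduct.tmul ℤ x y = TensorProduct.tmul ℤ x (v • y) := (TensorProduct.tmul_smul v x y).symm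
      rw [h2, h3]
      have h4 : (Nat.card (Abelianization Q₁) : ℤ) • TensorProduct.tmul ℤ (u • x) y =
          TensorProduct.tmul ℤ ((Nat.card (Abelianization Q₁) : ℤ) • (u • x)) y :=
        (TensorProduct.smul_tmul' _ _ _).symm
      have h5 : (Nat.card (Abelianization Q₂) : ℤ) • TensorProduct.tmul ℤ x (v • y) =
          TensorProduct.tmul ℤ x ((Nat.card (Abelianization Q₂) : ℤ) • (v • y)) :=
        (TensorProduct.tmul_smul _ _ _).symm
      rw [h4, h5, smul_comm _ u x, smul_comm _ v y, ha, hb, smul_zero, smul_zero, TensorProduct.zero_tmul,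
        TensorProduct.tmul_zero, add_zero]
    have hall : ∀ t : TensorProduct ℤ (Additive (Abelianization Q₁)) (Additive (Abelianization Q₂)), t = 0 := by
      intro t
      induction t using TensorProduct.induction_on with
      | zero => rfl
      | tmul x y => exact hzero x y
      | add a b ha hb => rw [ha, hb, add_zero]
    exact ⟨fun a b => by rw [hall a, hall b]⟩
  haveI : Subsingleton (Multiplicative (TensorProduct ℤ (Additive (Abelianization Q₁)) (Additive (Abelianization Q₂)))) :=
    inferInstanceAs (Subsingleton (TensorProduct ℤ (Additive (Abelianization Q₁)) (Additive (Abelianization Q₂))))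
  let e : (A × B × Multiplicative (TensorProduct ℤ (Additive (Abelianization Q₁)) (Additive (Abelianization Q₂)))) ≃* (A × B) :=
    { toFun := fun x => (x.1, x.2.1)
      invFun := fun x => (x.1, x.2, 1)
      left_inv := fun x => by
        ext
        · rfl
        · rfl
        · exact Subsingleton.elim _ _
      right_inv := fun x => rfl
      map_mul' := fun x y => rfl }
  obtain ⟨⟨Γ, i1, i2, σ, hσ, ⟨k⟩⟩, h2⟩ := h
  refine ⟨⟨Γ, i1, i2, σ, hσ, ⟨k.trans e⟩⟩, ?_⟩
  intro Γ' _ _ σ' hσ'
  obtain ⟨π, hπ⟩ := h2 Γ' σ' hσ'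
  exact ⟨π.comp e.symm.toMonoidHom, hπ.comp e.symm.surjective⟩


end Cfsg.Agent.S3980
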