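import Cfsg.Statements.S3994
import Mathlib
import Cfsg.Agent.Lib.Coprime.FrobCount
import Cfsg.Agent.Lib.ClassSizes.Basic

set_option autoImplicit false
open Cfsg

namespace Cfsg.Agent.S3994

open Finset Subgroup Cfsg.Agent.Lib.Coprime

/-- Arithmetic: `N / gcd(N, n^N)` is prime to `n`. -/
theorem coprime_div_gcd {N n : ℕ} (hN : 0 < N) (hn : 0 < n) :
    (N / Nat.gcd N (n ^ N)).Coprime n := by
  set P := Nat.gcd N (n ^ N) with hP
  have hPN : P ∣ N := Nat.gcd_dvd_left _ _
  rw [Nat.coprime_iff_gcd_eq_one] 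
  by_contra hne
  obtain ⟨q, hq, hq1⟩ := Nat.exists_prime_and_dvd hne
  have hqM : q ∣ N / P := hq1.trans (Nat.gcd_dvd_left _ _)
  have hqn : q ∣ n := hq1.trans (Nat.gcd_dvd_right _ _)
  set v := N.factorization q with hv
  have h1 : q ^ v ∣ N := Nat.ordProj_dvd N q
  have h2 : v ≤ N := by
    have : q ^ v ≤ N := Nat.le_of_dvd hN h1
    have h3 : v < q ^ v := Nat.lt_pow_self hq.one_lt
    omega
  have h3 : q ^ v ∣ n ^ N := (pow_dvd_pow q h2).trans (pow_dvd_pow_of_dvd hqn N)
  have h4 : q ^ v ∣ P := Nat.dvd_gcd h1 h3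
  have h5 : q ^ (v + 1) ∣ N := by
    have : N = P * (N / P) := (Nat.mul_div_cancel' hPN).symm
    rw [this, pow_succ]
    exact Nat.mul_dvd_mul h4 hqM
  exact Nat.pow_succ_factorization_not_dvd hN.ne' hq h5

theorem main {G : Type*} [Group G] [Fintype G] [DecidableEq G] (n : ℕ) (hn : 0 < n) {P M : ℕ}
    (hPM : P * M = Nat.card G) (hMn : M.Coprime n) (hco : P.Coprime M) :
    M ∣ (univ.filter fun g : G => n ∣ orderOf g).card := by
  classical
  obtain ⟨u, hu1, hu2⟩ := Nat.chineseRemainder hco 1 0
  obtain ⟨v, hv1, hv2⟩ := Nat.chineseRemainder hco 0 1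
  have hmu : M ∣ u := (Nat.modEq_zero_iff_dvd).mp hu2
  have hPv : P ∣ v := (Nat.modEq_zero_iff_dvd).mp hv1
  have huv : u + v ≡ 1 [MOD P * M] := by
    rw [← Nat.modEq_and_modEq_iff_modEq_mul hco]
    constructor
    · have := hu1.add hv1
      simpa using this
    · have := hu2.add hv2
      simpa using this
  have hall : ∀ x : G, x ^ (P * M) = 1 := by
    intro x
    rw [hPM]; exact pow_card_eq_one'
  have hxuv : ∀ x : G, x ^ u * x ^ v = x := by
    intro x
    rw [← pow_add, ← pow_mod_orderOf, show (u + v) % orderOf x = 1 % orderOf x from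
      Nat.ModEq.of_dvd (orderOf_dvd_of_pow_eq_one (hall x)) huv, pow_mod_orderOf, pow_one]
  set U : Finset G := univ.filter fun y : G => y ^ P = 1 ∧ n ∣ orderOf y with hU
  have hsig : ∑ y ∈ U, centSol M y =
      (U.sigma fun y => univ.filter fun z : G => Commute z y ∧ z ^ M = 1).card := by
    rw [card_sigma]
    rfl
  have hcard : (univ.filter fun g : G => n ∣ orderOf g).card = ∑ y ∈ U, centSol M y := by
    rw [hsig]
    refine Finset.card_bij' (fun x _ => ⟨x ^ u, x ^ v⟩) (fun t _ => t.1 * t.2) ?_ ?_ ?_ ?_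
    · intro x hx
      have hx1 : n ∣ orderOf x := (mem_filter.mp hx).2
      have hy : (x ^ u) ^ P = 1 := by
        obtain ⟨w, rfl⟩ := hmu
        rw [← pow_mul, show M * w * P = P * M * w by ring, pow_mul, hall, one_pow]
      have hz : (x ^ v) ^ M = 1 := by
        obtain ⟨w, rfl⟩ := hPv
        rw [← pow_mul, show P * w * M = P * M * w by ring, pow_mul, hall, one_pow]
      have hcomm : Commute (x ^ v) (x ^ u) := Commute.pow_pow_self x v u
      have hordy : orderOf (x ^ u) ∣ P := orderOf_dvd_of_pow_eq_one hy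
      have hordz : orderOf (x ^ v) ∣ M := orderOf_dvd_of_pow_eq_one hz
      have hord : orderOf x = orderOf (x ^ u) * orderOf (x ^ v) := by
        conv_lhs => rw [← hxuv x]
        exact hcomm.symm.orderOf_mul_eq_mul_orderOf_of_coprime
          (Nat.Coprime.coprime_dvd_left hordy (Nat.Coprime.coprime_dvd_right hordz hco))
      have hn1 : n ∣ orderOf (x ^ u) := by
        rw [hord] at hx1
        have hc : n.Coprime (orderOf (x ^ v)) := (Nat.Coprime.coprime_dvd_left hordz hMn).symm
        exact hc.dvd_of_dvd_mul_right hx1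
      simp only [mem_sigma, hU, mem_filter, mem_univ, true_and]
      exact ⟨⟨hy, hn1⟩, hcomm, hz⟩
    · rintro ⟨y, z⟩ ht
      simp only [mem_sigma, hU, mem_filter, mem_univ, true_and] at ht
      obtain ⟨⟨hy, hn1⟩, hc, hz⟩ := ht
      simp only [mem_filter, mem_univ, true_and]
      have hordy : orderOf y ∣ P := orderOf_dvd_of_pow_eq_one hy
      have hordz : orderOf z ∣ M := orderOf_dvd_of_pow_eq_one hz
      have : orderOf (y * z) = orderOf y * orderOf z :=
        hc.symm.orderOf_mul_eq_mul_orderOf_of_coprime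
          (Nat.Coprime.coprime_dvd_left hordy (Nat.Coprime.coprime_dvd_right hordz hco))
      rw [this]
      exact hn1.trans (dvd_mul_right _ _)
    · intro x _
      exact hxuv x
    · rintro ⟨y, z⟩ ht
      simp only [mem_sigma, hU, mem_filter, mem_univ, true_and] at ht
      obtain ⟨⟨hy, hn1⟩, hc, hz⟩ := ht
      have hyord : orderOf y ∣ P := orderOf_dvd_of_pow_eq_one hy
      have hyu : y ^ u = y := by
        rw [← pow_mod_orderOf, show u % orderOf y = 1 % orderOf y from Nat.ModEq.of_dvd hyord hu1,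
          pow_mod_orderOf, pow_one]
      have hzu : z ^ u = 1 := by
        obtain ⟨w, rfl⟩ := hmu
        rw [pow_mul, hz, one_pow]
      have hyv : y ^ v = 1 := by
        obtain ⟨w, rfl⟩ := hPv
        rw [pow_mul, hy, one_pow]
      have hzv : z ^ v = z := by
        have hzm : orderOf z ∣ M := orderOf_dvd_of_pow_eq_one hz
        rw [← pow_mod_orderOf, show v % orderOf z = 1 % orderOf z from Nat.ModEq.of_dvd hzm hv2,
          pow_mod_orderOf, pow_one]
      show (⟨(y * z) ^ u, (y * z) ^ v⟩ : Σ _ : G, G) = ⟨y, z⟩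
      rw [hc.symm.mul_pow, hc.symm.mul_pow, hyu, hzu, hyv, hzv, mul_one, one_mul]
  rw [hcard]
  have hMG : M ∣ Nat.card G := hPM ▸ dvd_mul_left M P
  apply dvd_sum_of_setoid _ (IsConj.setoid G)
  · intro x _ y _ hxy
    exact centSol_eq_of_isConj M (IsConj.symm hxy)
  · intro x hx
    obtain ⟨hx1, hx2⟩ := (mem_filter.mp hx).2
    have hcls : (U.filter fun y => (IsConj.setoid G).r y x).card =
        (centralizer ({x} : Set G)).index := by
      rw [← Cfsg.Agent.Lib.ClassSizes.card_isConj_eq_index, Nat.card_eq_fintype_card,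
        Fintype.card_subtype]
      congr 1
      ext y
      simp only [mem_filter, hU, mem_univ, true_and]
      constructor
      · rintro ⟨-, h⟩
        exact IsConj.symm h
      · intro h
        have hyx : IsConj y x := IsConj.symm h
        refine ⟨⟨?_, ?_⟩, hyx⟩
        · obtain ⟨g, rfl⟩ := isConj_iff.mp h
          rw [conj_pow, hx1]; group
        · have : orderOf y = orderOf x := by
            obtain ⟨g, rfl⟩ := isConj_iff.mp h
            exact orderOf_eq_orderOf_iff.mpr fun k => by
              rw [conj_pow, conj_eq_one_iff]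
          rw [this]; exact hx2
    rw [hcls]
    exact dvd_index_mul_centSol_of_dvd hMG x

end Cfsg.Agent.S3994

namespace Cfsg.Agent.S3994

/-- Let G be a finite group and n a positive integer. The number of elements of G whose order is divisible by n is either 0 or divisible by the largest divisor of the order of G that is coprime to n. -/
theorem result {G : Type*} [Group G] [Finite G] (n : ℕ) (hn : 0 < n) :
    Nat.card {g : G // n ∣ orderOf g} = 0 ∨
      (Nat.card G / Nat.gcd (Nat.card G) (n ^ Nat.card G)) ∣ Nat.card {g : G // n ∣ orderOf g} := by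
  classical
  haveI := Fintype.ofFinite G
  right
  have hN : 0 < Nat.card G := Nat.card_pos
  have hPN := Nat.gcd_dvd_left (Nat.card G) (n ^ Nat.card G)
  have hMn := coprime_div_gcd hN hn
  set P := Nat.gcd (Nat.card G) (n ^ Nat.card G) with hP
  set M := Nat.card G / P with hM
  have hPM : P * M = Nat.card G := Nat.mul_div_cancel' hPN
  have hco : P.Coprime M := by
    have h1 : P ∣ n ^ Nat.card G := Nat.gcd_dvd_right _ _
    exact Nat.Coprime.coprime_dvd_left h1 (Nat.Coprime.pow_left _ hMn.symm)
  rw [Nat.card_eq_fintype_card, Fintype.card_subtype]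
  exact main n hn hPM hMn hco

end Cfsg.Agent.S3994
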