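import Cfsg.Statements.S3996
import Cfsg.Agent.S0144
import Cfsg.Agent.Lib.Cl.OrderCount
import Mathlib

set_option autoImplicit false
open Cfsg

namespace Cfsg.Agent.S3996

open Subgroup Cfsg.Agent.Lib.Cl

universe u

variable {G : Type u} [Group G] [Finite G]

theorem nn_cast_prime {p : ℕ} (hp : p.Prime) (hd : p ∣ Nat.card G) :
    ((NN G p : ℕ) : ZMod p) = -1 := by
  have h1 := (ZMod.natCast_eq_zero_iff (1 + NN G p) p).mpr (NN_prime_dvd hp hd)
  push_cast at h1
  linear_combination h1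

theorem nn_cast_mul {p m : ℕ} (hp : p.Prime) (hd : p ∣ Nat.card G) (hcop : Nat.Coprime p m)
    (hm : m ≠ 0) : ((NN G (p * m) : ℕ) : ZMod p) = -((NN G m : ℕ) : ZMod p) := by
  have h1 := NN_mul_modEq (G := G) hp hcop hm
  have h2 := (ZMod.natCast_eq_natCast_iff _ _ _).mpr h1
  push_cast at h2
  rw [h2, nn_cast_prime hp hd]
  ring

/-- The values of the order-count function. -/
structure Vals (G : Type u) [Group G] (a b : ℕ) : Prop where
  ha : 2 ≤ a
  hab : a < b
  hval : ∀ g : G, NN G (orderOf g) = 1 ∨ NN G (orderOf g) = a ∨ NN G (orderOf g) = b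

theorem nn_ne_one (g : G) (hg : 3 ≤ orderOf g) : NN G (orderOf g) ≠ 1 := by
  intro h1
  rw [NN, Nat.card_eq_one_iff_unique] at h1
  obtain ⟨h2, -⟩ := h1
  have h3 : (⟨g, rfl⟩ : {x : G // orderOf x = orderOf g}) = ⟨g⁻¹, orderOf_inv g⟩ :=
    Subsingleton.elim _ _
  have h4 : g = g⁻¹ := congrArg Subtype.val h3
  have h5 : g ^ 2 = 1 := by
    rw [pow_two]
    nth_rewrite 1 [h4]
    exact inv_mul_cancel _
  have h6 := orderOf_le_of_pow_eq_one (by norm_num) h5
  omega

theorem nn_pos (g : G) : 0 < NN G (orderOf g) := by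
  haveI : Nonempty {x : G // orderOf x = orderOf g} := ⟨⟨g, rfl⟩⟩
  exact Nat.card_pos

theorem exists_order {q : ℕ} (hq : q.Prime) (hd : q ∣ Nat.card G) : ∃ u : G, orderOf u = q := by
  haveI : Fact q.Prime := ⟨hq⟩
  exact exists_prime_orderOf_dvd_card' q hd

theorem not_dvd_self {p : ℕ} (hp : p.Prime) (hd : p ∣ Nat.card G) : ¬ p ∣ NN G p := by
  intro h
  have h2 := NN_prime_dvd (G := G) hp hd
  have h3 : p ∣ 1 := (Nat.dvd_add_left h).mp h2
  exact hp.one_lt.ne' (Nat.dvd_one.mp h3)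

theorem two_of_one_eq_neg_one {p : ℕ} (hp : p.Prime) (h : (1 : ZMod p) = -1) : p = 2 := by
  have h1 : ((2 : ℕ) : ZMod p) = 0 := by
    push_cast
    linear_combination h
  have h2 := (ZMod.natCast_eq_zero_iff 2 p).mp h1
  exact (Nat.prime_dvd_prime_iff_eq hp Nat.prime_two).mp h2

namespace Vals

variable {a b : ℕ} (V : Vals G a b)
include V

theorem big (g : G) (hg : 3 ≤ orderOf g) : NN G (orderOf g) = a ∨ NN G (orderOf g) = b := by
  rcases V.hval g with h | h | h
  · exact absurd h (nn_ne_one g hg)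
  · exact Or.inl h
  · exact Or.inr h

theorem le_b (g : G) : NN G (orderOf g) ≤ b := by
  have := V.hab
  have := V.ha
  rcases V.hval g with h | h | h <;> omega

theorem F1 {p : ℕ} (hp : p.Prime) (hd : p ∣ Nat.card G) (g : G) (hg : 3 ≤ orderOf g)
    (hc : Nat.Coprime p (orderOf g)) (hN : ¬ p ∣ NN G (orderOf g)) :
    ∃ w : G, orderOf w = p * orderOf g ∧ 2 * NN G p ≤ NN G (p * orderOf g) := by
  have h1 := two_mul_NN_le (G := G) hp hc hg hN
  obtain ⟨u, hu⟩ := exists_order (G := G) hp hd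
  have h2 : 0 < NN G p := by
    have := nn_pos u
    rwa [hu] at this
  obtain ⟨w⟩ : Nonempty {x : G // orderOf x = p * orderOf g} := by
    by_contra hne
    rw [not_nonempty_iff] at hne
    have h00 : NN G (p * orderOf g) = 0 := Nat.card_of_isEmpty
    rw [h00] at h1
    omega
  exact ⟨w.1, w.2, h1⟩

theorem F2 {p : ℕ} (hp : p.Prime) (hd : p ∣ Nat.card G) (hpb : NN G p = b) (g : G)
    (hg : 3 ≤ orderOf g) (hc : Nat.Coprime p (orderOf g)) : NN G (orderOf g) = a := by
  by_cases hN : p ∣ NN G (orderOf g)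
  · rcases V.big g hg with h | h
    · exact h
    · exfalso
      rw [h, ← hpb] at hN
      exact not_dvd_self hp hd hN
  · exfalso
    obtain ⟨w, hw, h1⟩ := V.F1 hp hd g hg hc hN
    have h2 := V.le_b w
    rw [hw] at h2
    rw [hpb] at h1
    have := V.ha
    have := V.hab
    omega

theorem F3 {p : ℕ} (hp : p.Prime) (hd : p ∣ Nat.card G) (hpa : NN G p = a) (g : G)
    (hg : 3 ≤ orderOf g) (hc : Nat.Coprime p (orderOf g)) (hN : ¬ p ∣ NN G (orderOf g)) :
    ∃ w : G, orderOf w = p * orderOf g ∧ NN G (p * orderOf g) = b := by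
  obtain ⟨w, hw, h1⟩ := V.F1 hp hd g hg hc hN
  refine ⟨w, hw, ?_⟩
  rw [hpa] at h1
  have h2 := V.hval w
  rw [hw] at h2
  have := V.ha
  have := V.hab
  rcases h2 with h | h | h <;> omega

theorem two_b {p q : ℕ} (hp : p.Prime) (hq : q.Prime) (hpd : p ∣ Nat.card G) (hqd : q ∣ Nat.card G)
    (hne : p ≠ q) (h1 : NN G p = b) (h2 : NN G q = b) : False := by
  have hab := V.hab
  wlog hq3 : 3 ≤ q generalizing p q
  · have : q = 2 := by
      have := hq.two_le
      omega
    subst this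
    have hp3 : 3 ≤ p := by
      have := hp.two_le
      omega
    exact this hq hp hqd hpd hne.symm h2 h1 hp3
  obtain ⟨u, hu⟩ := exists_order (G := G) hq hqd
  have := V.F2 hp hpd h1 u (by rw [hu]; exact hq3) (by
    rw [hu]; exact (Nat.coprime_primes hp hq).mpr hne)
  rw [hu, h2] at this
  omega

theorem pair_b {p q : ℕ} (hp : p.Prime) (hq : q.Prime) (hpd : p ∣ Nat.card G) (hqd : q ∣ Nat.card G)
    (hne : p ≠ q) (h1 : NN G p = a) (h2 : NN G q = a) :
    NN G (p * q) = b ∧ ∃ w : G, orderOf w = p * q := by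
  wlog hq3 : 3 ≤ q generalizing p q
  · have : q = 2 := by
      have := hq.two_le
      omega
    subst this
    have hp3 : 3 ≤ p := by
      have := hp.two_le
      omega
    have := this hq hp hqd hpd hne.symm h2 h1 hp3
    rwa [mul_comm] at this
  obtain ⟨u, hu⟩ := exists_order (G := G) hq hqd
  obtain ⟨w, hw, h3⟩ := V.F3 hp hpd h1 u (by rw [hu]; exact hq3) (by
    rw [hu]; exact (Nat.coprime_primes hp hq).mpr hne) (by
    rw [hu, h2, ← h1]; exact not_dvd_self hp hpd)
  rw [hu] at hw h3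
  exact ⟨h3, w, hw⟩

theorem cast_pair {p q : ℕ} (hp : p.Prime) (hq : q.Prime) (hpd : p ∣ Nat.card G)
    (hqd : q ∣ Nat.card G) (hne : p ≠ q) (h1 : NN G p = a) (h2 : NN G q = a) :
    ((b : ℕ) : ZMod p) = 1 := by
  obtain ⟨h3, -⟩ := V.pair_b hp hq hpd hqd hne h1 h2
  have h4 := nn_cast_mul (G := G) hp hpd ((Nat.coprime_primes hp hq).mpr hne) hq.ne_zero
  rw [h3, h2, ← h1, nn_cast_prime hp hpd] at h4
  rw [h4]; ring

theorem two_a_one_b {p q r : ℕ} (hp : p.Prime) (hq : q.Prime) (hr : r.Prime)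
    (hpd : p ∣ Nat.card G) (hqd : q ∣ Nat.card G) (hrd : r ∣ Nat.card G)
    (hpq : p ≠ q) (hpr : p ≠ r) (hqr : q ≠ r) (h1 : NN G p = a) (h2 : NN G q = a)
    (h3 : NN G r = b) : False := by
  obtain ⟨h4, w, hw⟩ := V.pair_b hp hq hpd hqd hpq h1 h2
  have hw3 : 3 ≤ orderOf w := by
    rw [hw]
    have := hp.two_le
    have := hq.two_le
    have : p * q ≠ 4 := by
      intro h
      have h6 : p ∣ 2 * 2 := by
        have : 2 * 2 = p * q := by omega
        rw [this]; exact Dvd.intro _ rfl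
      have h7 : q ∣ 2 * 2 := by
        have : 2 * 2 = p * q := by omega
        rw [this]; exact Dvd.intro_left _ rfl
      have h8 : p = 2 := by
        rcases (Nat.Prime.dvd_mul hp).mp h6 with h9 | h9 <;>
          exact (Nat.prime_dvd_prime_iff_eq hp Nat.prime_two).mp h9
      have h10 : q = 2 := by
        rcases (Nat.Prime.dvd_mul hq).mp h7 with h9 | h9 <;>
          exact (Nat.prime_dvd_prime_iff_eq hq Nat.prime_two).mp h9
      omega
    nlinarith
  have h5 := V.F2 hr hrd h3 w hw3 (by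
    rw [hw]
    exact Nat.Coprime.mul_right ((Nat.coprime_primes hr hp).mpr hpr.symm)
      ((Nat.coprime_primes hr hq).mpr hqr.symm))
  rw [hw, h4] at h5
  have := V.hab
  omega

theorem three_a {p q r : ℕ} (hp : p.Prime) (hq : q.Prime) (hr : r.Prime)
    (hpd : p ∣ Nat.card G) (hqd : q ∣ Nat.card G) (hrd : r ∣ Nat.card G)
    (hpq : p ≠ q) (hpr : p ≠ r) (hqr : q ≠ r) (h1 : NN G p = a) (h2 : NN G q = a)
    (h3 : NN G r = a) : False := by
  obtain ⟨h4, w, hw⟩ := V.pair_b hp hq hpd hqd hpq h1 h2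
  have hb_r : ((b : ℕ) : ZMod r) = 1 := V.cast_pair hr hp hrd hpd hpr.symm h3 h1
  have hb_p : ((b : ℕ) : ZMod p) = 1 := V.cast_pair hp hq hpd hqd hpq h1 h2
  have hb_q : ((b : ℕ) : ZMod q) = 1 := V.cast_pair hq hp hqd hpd hpq.symm h2 h1
  haveI : Fact r.Prime := ⟨hr⟩
  have hw3 : 3 ≤ orderOf w := by
    rw [hw]
    by_contra hlt
    have h5 := hp.two_le
    have h6 := hq.two_le
    have h7 : p * q ≥ 2 * 2 := Nat.mul_le_mul h5 h6
    omega
  have hcop : Nat.Coprime r (orderOf w) := by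
    rw [hw]
    exact Nat.Coprime.mul_right ((Nat.coprime_primes hr hp).mpr hpr.symm)
      ((Nat.coprime_primes hr hq).mpr hqr.symm)
  have hndvd : ¬ r ∣ NN G (orderOf w) := by
    rw [hw, h4]
    intro hdv
    have := (ZMod.natCast_eq_zero_iff b r).mpr hdv
    rw [hb_r] at this
    exact one_ne_zero this
  obtain ⟨w', hw', h5⟩ := V.F3 hr hrd h3 w hw3 hcop hndvd
  rw [hw] at hw' h5
  -- `p`
  have hpqr := (V.pair_b hq hr hqd hrd hqr h2 h3).1
  have e1 : p * (q * r) = r * (p * q) := by ring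
  have h6 := nn_cast_mul (G := G) hp hpd (m := q * r) (Nat.Coprime.mul_right
    ((Nat.coprime_primes hp hq).mpr hpq) ((Nat.coprime_primes hp hr).mpr hpr))
    (mul_ne_zero hq.ne_zero hr.ne_zero)
  rw [e1, h5, hpqr, hb_p] at h6
  have hp2 := two_of_one_eq_neg_one hp h6
  -- `q`
  have hpr' := (V.pair_b hp hr hpd hrd hpr h1 h3).1
  have e2 : q * (p * r) = r * (p * q) := by ring
  have h7 := nn_cast_mul (G := G) hq hqd (m := p * r) (Nat.Coprime.mul_right
    ((Nat.coprime_primes hq hp).mpr hpq.symm) ((Nat.coprime_primes hq hr).mpr hqr))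
    (mul_ne_zero hp.ne_zero hr.ne_zero)
  rw [e2, h5, hpr', hb_q] at h7
  have hq2 := two_of_one_eq_neg_one hq h7
  omega

theorem val_prime {p : ℕ} (hp : p.Prime) (hd : p ∣ Nat.card G) :
    NN G p = 1 ∨ NN G p = a ∨ NN G p = b := by
  obtain ⟨u, hu⟩ := exists_order (G := G) hp hd
  have := V.hval u
  rwa [hu] at this

theorem tab {p q r : ℕ} (hp : p.Prime) (hq : q.Prime) (hr : r.Prime)
    (hpd : p ∣ Nat.card G) (hqd : q ∣ Nat.card G) (hrd : r ∣ Nat.card G)
    (hpq : p ≠ q) (hpr : p ≠ r) (hqr : q ≠ r) : NN G p = 1 ∨ NN G q = 1 ∨ NN G r = 1 := by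
  rcases V.val_prime hp hpd with h1 | h1 | h1
  · exact Or.inl h1
  all_goals
    rcases V.val_prime hq hqd with h2 | h2 | h2
    · exact Or.inr (Or.inl h2)
    all_goals
      rcases V.val_prime hr hrd with h3 | h3 | h3
      · exact Or.inr (Or.inr h3)
      all_goals exfalso
  · exact V.three_a hp hq hr hpd hqd hrd hpq hpr hqr h1 h2 h3
  · exact V.two_a_one_b hp hq hr hpd hqd hrd hpq hpr hqr h1 h2 h3
  · exact V.two_a_one_b hp hr hq hpd hrd hqd hpr hpq hqr.symm h1 h3 h2
  · exact V.two_b hq hr hqd hrd hqr h2 h3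
  · exact V.two_a_one_b hq hr hp hqd hrd hpd hqr hpq.symm hpr.symm h2 h3 h1
  · exact V.two_b hp hr hpd hrd hpr h1 h3
  · exact V.two_b hp hq hpd hqd hpq h1 h2
  · exact V.two_b hp hq hpd hqd hpq h1 h2

theorem prime_two_of_one {p : ℕ} (hp : p.Prime) (hd : p ∣ Nat.card G) (h : NN G p = 1) : p = 2 := by
  obtain ⟨u, hu⟩ := exists_order (G := G) hp hd
  by_contra hne
  have h3 : 3 ≤ orderOf u := by
    rw [hu]
    have := hp.two_le
    omega
  apply nn_ne_one u h3
  rw [hu]; exact h

/-- No element of order `4`. -/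
theorem no_four {s t : ℕ} (hs : s.Prime) (ht : t.Prime) (hsd : s ∣ Nat.card G)
    (htd : t ∣ Nat.card G) (hs2 : s ≠ 2) (ht2 : t ≠ 2) (hst : s ≠ t) (g : G) (hg : orderOf g = 4) :
    False := by
  have hg3 : 3 ≤ orderOf g := by rw [hg]; norm_num
  have hcop : ∀ {p : ℕ}, p.Prime → p ≠ 2 → Nat.Coprime p 4 := by
    intro p hp hp2
    have : Nat.Coprime p (2 ^ 2) :=
      Nat.Coprime.pow_right 2 ((Nat.coprime_primes hp Nat.prime_two).mpr hp2)
    simpa using this
  -- the odd primes have big values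
  have hvs : NN G s = a ∨ NN G s = b := by
    rcases V.val_prime hs hsd with h | h | h
    · exact absurd (V.prime_two_of_one hs hsd h) hs2
    · exact Or.inl h
    · exact Or.inr h
  have hvt : NN G t = a ∨ NN G t = b := by
    rcases V.val_prime ht htd with h | h | h
    · exact absurd (V.prime_two_of_one ht htd h) ht2
    · exact Or.inl h
    · exact Or.inr h
  -- the case of values `a, b`
  have hab_case : ∀ {s t : ℕ}, s.Prime → t.Prime → s ∣ Nat.card G → t ∣ Nat.card G →
      s ≠ 2 → t ≠ 2 → s ≠ t → NN G s = a → NN G t = b → False := by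
    intro s t hs ht hsd htd hs2 ht2 hst h1 h2
    have h3 := V.F2 ht htd h2 g hg3 (by rw [hg]; exact hcop ht ht2)
    rw [hg] at h3
    obtain ⟨w, hw, h4⟩ := V.F3 hs hsd h1 g hg3 (by rw [hg]; exact hcop hs hs2) (by
      rw [hg, h3, ← h1]; exact not_dvd_self hs hsd)
    rw [hg] at hw h4
    have h5 := V.F2 ht htd h2 w (by
      rw [hw]
      have := hs.two_le
      omega) (by
      rw [hw]
      exact Nat.Coprime.mul_right ((Nat.coprime_primes ht hs).mpr hst.symm) (hcop ht ht2))
    rw [hw, h4] at h5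
    have := V.hab
    omega
  rcases hvs with h1 | h1
  · rcases hvt with h2 | h2
    · -- both `a`
      have hb_s : ((b : ℕ) : ZMod s) = 1 := V.cast_pair hs ht hsd htd hst h1 h2
      have hb_t : ((b : ℕ) : ZMod t) = 1 := V.cast_pair ht hs htd hsd hst.symm h2 h1
      have hnt : ¬ t ∣ NN G (orderOf g) := by
        rcases V.big g hg3 with h | h
        · rw [h, ← h2]; exact not_dvd_self ht htd
        · rw [h]
          intro hdv
          have h9 := (ZMod.natCast_eq_zero_iff b t).mpr hdv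
          rw [hb_t] at h9
          haveI : Fact t.Prime := ⟨ht⟩
          exact one_ne_zero h9
      obtain ⟨w, hw, h3⟩ := V.F3 ht htd h2 g hg3 (by rw [hg]; exact hcop ht ht2) hnt
      rw [hg] at hw h3
      have hw3 : 3 ≤ orderOf w := by
        rw [hw]
        have := ht.two_le
        omega
      have hcopsw : Nat.Coprime s (orderOf w) := by
        rw [hw]
        exact Nat.Coprime.mul_right ((Nat.coprime_primes hs ht).mpr hst) (hcop hs hs2)
      have hns : ¬ s ∣ NN G (orderOf w) := by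
        rw [hw, h3]
        intro hdv
        have h9 := (ZMod.natCast_eq_zero_iff b s).mpr hdv
        rw [hb_s] at h9
        haveI : Fact s.Prime := ⟨hs⟩
        exact one_ne_zero h9
      obtain ⟨w', hw', h4⟩ := V.F3 hs hsd h1 w hw3 hcopsw hns
      rw [hw] at hw' h4
      have h5 := nn_cast_mul (G := G) hs hsd (m := t * 4) (by
        exact Nat.Coprime.mul_right ((Nat.coprime_primes hs ht).mpr hst) (hcop hs hs2))
        (by have := ht.pos; omega)
      rw [h4, h3, hb_s] at h5
      exact hs2 (two_of_one_eq_neg_one hs h5)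
    · exact hab_case hs ht hsd htd hs2 ht2 hst h1 h2
  · rcases hvt with h2 | h2
    · exact hab_case ht hs htd hsd ht2 hs2 hst.symm h2 h1
    · exact V.two_b hs ht hsd htd hst h1 h2

end Vals

theorem vals_of_ncard (h : (((fun m : ℕ => Nat.card {g : G // orderOf g = m}) ''
    Set.range (orderOf : G → ℕ))).ncard = 3) : ∃ a b : ℕ, Vals G a b := by
  set W := ((fun m : ℕ => Nat.card {g : G // orderOf g = m}) '' Set.range (orderOf : G → ℕ)) with hW
  have hmem : ∀ g : G, NN G (orderOf g) ∈ W := fun g => ⟨_, ⟨g, rfl⟩, rfl⟩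
  have hge : ∀ c ∈ W, 1 ≤ c := by
    rintro c ⟨_, ⟨g, rfl⟩, rfl⟩
    exact nn_pos g
  have h1W : (1 : ℕ) ∈ W := by
    have := hmem (1 : G)
    rwa [orderOf_one, NN_one] at this
  obtain ⟨x, y, z, hxy, hxz, hyz, hs⟩ := Set.ncard_eq_three.mp h
  have key : ∀ c d : ℕ, c ≠ d → c ≠ 1 → d ≠ 1 → c ∈ W → d ∈ W →
      (∀ g : G, NN G (orderOf g) = 1 ∨ NN G (orderOf g) = c ∨ NN G (orderOf g) = d) →
      ∃ a b : ℕ, Vals G a b := by
    intro c d hcd hc hd hcW hdW hall
    have h2 := hge c hcW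
    have h3 := hge d hdW
    rcases lt_or_gt_of_ne hcd with hlt | hlt
    · exact ⟨c, d, by omega, hlt, hall⟩
    · exact ⟨d, c, by omega, hlt, fun g => by
        rcases hall g with h4 | h4 | h4
        · exact Or.inl h4
        · exact Or.inr (Or.inr h4)
        · exact Or.inr (Or.inl h4)⟩
  have hallW : ∀ g : G, NN G (orderOf g) = x ∨ NN G (orderOf g) = y ∨ NN G (orderOf g) = z := by
    intro g
    have := hmem g
    rw [hs] at this
    simpa using this
  have hxW : x ∈ W := by rw [hs]; simp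
  have hyW : y ∈ W := by rw [hs]; simp
  have hzW : z ∈ W := by rw [hs]; simp
  rw [hs] at h1W
  simp only [Set.mem_insert_iff, Set.mem_singleton_iff] at h1W
  rcases h1W with rfl | rfl | rfl
  · exact key y z hyz (Ne.symm hxy) (Ne.symm hxz) hyW hzW hallW
  · exact key x z hxz hxy (Ne.symm hyz) hxW hzW (fun g => by
      rcases hallW g with h4 | h4 | h4
      · exact Or.inr (Or.inl h4)
      · exact Or.inl h4
      · exact Or.inr (Or.inr h4))
  · exact key x y hxy hxz hyz hxW hyW (fun g => by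
      rcases hallW g with h4 | h4 | h4
      · exact Or.inr (Or.inl h4)
      · exact Or.inr (Or.inr h4)
      · exact Or.inl h4)

/-- A finite group in which the numbers of elements of each order that occurs (the numbers #{g : o(g) = m}, m ranging over the element orders) take exactly three different values is solvable. -/
theorem result {G : Type*} [Group G] [Finite G] (h : (((fun m : ℕ => Nat.card {g : G // orderOf g = m}) '' Set.range (orderOf : G → ℕ))).ncard = 3) : Group.IsSolvable G := by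
  classical
  obtain ⟨a, b, V⟩ := vals_of_ncard h
  by_contra hns
  have hno : ∀ x y : ℕ, x.Prime → y.Prime → ∃ r : ℕ, r.Prime ∧ r ∣ Nat.card G ∧ r ≠ x ∧ r ≠ y := by
    intro x y hx hy
    by_contra hne
    push Not at hne
    obtain ⟨α, β, hc⟩ := eq_pow_mul_pow_of_primes (p := x) (q := y) (Nat.card G) Nat.card_pos.ne'
      (fun r hr hd => by
        by_cases h1 : r = x
        · exact Or.inl h1
        · exact Or.inr (hne r hr hd h1))
    exact hns (Cfsg.Agent.S0144.result x y α β hx hy hc)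
  obtain ⟨p, hp, hpd, -, -⟩ := hno 2 2 Nat.prime_two Nat.prime_two
  obtain ⟨q, hq, hqd, hqp, -⟩ := hno p p hp hp
  obtain ⟨r, hr, hrd, hrp, hrq⟩ := hno p q hp hq
  -- the prime two occurs, with a unique involution
  obtain ⟨h2d, hN2, s, t, hs, ht, hsd, htd, hs2, ht2, hst⟩ : 2 ∣ Nat.card G ∧ NN G 2 = 1 ∧ ∃ s t : ℕ,
      s.Prime ∧ t.Prime ∧ s ∣ Nat.card G ∧ t ∣ Nat.card G ∧ s ≠ 2 ∧ t ≠ 2 ∧ s ≠ t := by
    rcases V.tab hp hq hr hpd hqd hrd hqp.symm hrp.symm hrq.symm with h1 | h1 | h1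
    · have := V.prime_two_of_one hp hpd h1
      subst this
      exact ⟨hpd, h1, q, r, hq, hr, hqd, hrd, hqp, hrp, hrq.symm⟩
    · have := V.prime_two_of_one hq hqd h1
      subst this
      exact ⟨hqd, h1, p, r, hp, hr, hpd, hrd, hqp.symm, hrq, hrp.symm⟩
    · have := V.prime_two_of_one hr hrd h1
      subst this
      exact ⟨hrd, h1, p, q, hp, hq, hpd, hqd, hrp.symm, hrq.symm, hqp.symm⟩
  have hall : ∀ w : ℕ, w.Prime → w ∣ Nat.card G → w = 2 ∨ w = s ∨ w = t := by
    intro w hw hwd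
    by_contra hne
    push Not at hne
    rcases V.tab hs ht hw hsd htd hwd hst hne.2.1.symm hne.2.2.symm with h1 | h1 | h1
    · exact hs2 (V.prime_two_of_one hs hsd h1)
    · exact ht2 (V.prime_two_of_one ht htd h1)
    · exact hne.1 (V.prime_two_of_one hw hwd h1)
  have hno4 : ∀ g : G, orderOf g ≠ 4 := fun g hg => V.no_four hs ht hsd htd hs2 ht2 hst g hg
  obtain ⟨z, hz⟩ := exists_order (G := G) Nat.prime_two h2d
  have huniq : ∀ x y : G, orderOf x = 2 → orderOf y = 2 → x = y := by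
    intro x y hx hy
    rw [NN, Nat.card_eq_one_iff_unique] at hN2
    obtain ⟨h2, -⟩ := hN2
    have h3 : (⟨x, hx⟩ : {x : G // orderOf x = 2}) = ⟨y, hy⟩ := Subsingleton.elim _ _
    exact congrArg Subtype.val h3
  haveI : Fact (Nat.Prime 2) := ⟨Nat.prime_two⟩
  have hinvol : ∀ x : G, x ^ 2 = 1 → x = 1 ∨ x = z := by
    intro x hx
    by_cases h1 : x = 1
    · exact Or.inl h1
    · exact Or.inr (huniq x z (orderOf_eq_prime hx h1) hz)
  have h4nd : ¬ 2 ^ 2 ∣ Nat.card G := by
    intro hd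
    obtain ⟨E, hE⟩ := Sylow.exists_subgroup_card_pow_prime 2 hd
    have hE2 : IsPGroup 2 E := IsPGroup.of_card hE
    have hle : E ≤ zpowers z := by
      intro x hx
      obtain ⟨k, hk⟩ := hE2 ⟨x, hx⟩
      have hk' : x ^ 2 ^ k = 1 := by simpa using congrArg (fun y : E => (y : G)) hk
      have hdv := orderOf_dvd_of_pow_eq_one hk'
      obtain ⟨j, hj, hj2⟩ := (Nat.dvd_prime_pow Nat.prime_two).mp hdv
      have hj1 : j ≤ 1 := by
        by_contra hj3
        have hj4 : 2 ≤ j := by omega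
        have hd3 : 2 ^ (j - 2) ∣ orderOf x := by
          rw [hj2]; exact pow_dvd_pow 2 (by omega)
        have h1 := orderOf_pow_of_dvd (pow_ne_zero _ (by norm_num)) hd3
        rw [hj2] at h1
        have h2 : 2 ^ j / 2 ^ (j - 2) = 4 := by
          rw [Nat.pow_div (by omega) (by norm_num)]
          have : j - (j - 2) = 2 := by omega
          rw [this]
        rw [h2] at h1
        exact hno4 _ h1
      have hxs : x ^ 2 = 1 := by
        rw [← orderOf_dvd_iff_pow_eq_one, hj2]
        exact (pow_dvd_pow 2 hj1).trans (by norm_num)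
      rcases hinvol x hxs with rfl | rfl
      · exact one_mem _
      · exact mem_zpowers _
    have := Subgroup.card_le_of_le hle
    rw [hE, Nat.card_zpowers, hz] at this
    omega
  -- the central subgroup of order two
  have hzc : ∀ g : G, g * z * g⁻¹ = z := by
    intro g
    apply huniq _ _ _ hz
    rw [orderOf_conj_eq]; exact hz
  let Z : Subgroup G := zpowers z
  haveI hZn : Z.Normal := by
    constructor
    rintro x hx g
    obtain ⟨k, rfl⟩ := mem_zpowers_iff.mp hx
    have : g * z ^ k * g⁻¹ = (g * z * g⁻¹) ^ k := by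
      rw [conj_zpow]
    rw [this, hzc]
    exact zpow_mem (mem_zpowers z) k
  have hZcard : Nat.card Z = 2 := by
    show Nat.card (zpowers z) = 2
    rw [Nat.card_zpowers, hz]
  have hQcard : Nat.card (G ⧸ Z) * 2 = Nat.card G := by
    have h1 := Subgroup.card_mul_index Z
    rw [hZcard] at h1
    show Z.index * 2 = _
    rw [← h1, mul_comm]
  obtain ⟨α, β, hc⟩ := eq_pow_mul_pow_of_primes (p := s) (q := t) (Nat.card (G ⧸ Z))
    Nat.card_pos.ne' (fun w hw hd => by
      have hd2 : w ∣ Nat.card G := by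
        rw [← hQcard]; exact Dvd.dvd.mul_right hd 2
      rcases hall w hw hd2 with h1 | h1 | h1
      · exfalso
        subst h1
        apply h4nd
        rw [← hQcard, pow_two]
        exact Nat.mul_dvd_mul_right hd 2
      · exact Or.inl h1
      · exact Or.inr h1)
  haveI hQs : Group.IsSolvable (G ⧸ Z) := Cfsg.Agent.S0144.result s t α β hs ht hc
  haveI hZs : Group.IsSolvable Z := by
    apply isSolvable_of_comm
    rintro ⟨a, ha⟩ ⟨b, hb⟩
    obtain ⟨k, rfl⟩ := mem_zpowers_iff.mp ha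
    obtain ⟨l, rfl⟩ := mem_zpowers_iff.mp hb
    apply Subtype.ext
    show z ^ k * z ^ l = z ^ l * z ^ k
    rw [← zpow_add, ← zpow_add, add_comm]
  exact hns (solvable_of_ker_le_range Z.subtype (QuotientGroup.mk' Z) (by
    rw [QuotientGroup.ker_mk', Subgroup.range_subtype]))

end Cfsg.Agent.S3996
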