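import Cfsg.Statements.S3997
import Mathlib
import Cfsg.Agent.Lib.ClassSizes.Basic

set_option autoImplicit false
open Cfsg

namespace Cfsg.Agent.S3997

/-- Let G and H be finite groups with the same order type: for every m they have the same number of elements of order m. If G is nilpotent then so is H. -/
theorem result {G H : Type*} [Group G] [Finite G] [Group H] [Finite H] (hT : (∀ m : ℕ, Nat.card {g : G // orderOf g = m} = Nat.card {h : H // orderOf h = m})) (hG : Group.IsNilpotent G) :
    Group.IsNilpotent H := by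
  classical
  -- an order-preserving bijection
  haveI := Fintype.ofFinite G
  haveI := Fintype.ofFinite H
  let e' : ∀ m : ℕ, {g : G // orderOf g = m} ≃ {h : H // orderOf h = m} := fun m =>
    Fintype.equivOfCardEq (by rw [← Nat.card_eq_fintype_card, ← Nat.card_eq_fintype_card]; exact hT m)
  let e : G ≃ H := (Equiv.sigmaFiberEquiv (orderOf : G → ℕ)).symm.trans
    ((Equiv.sigmaCongrRight e').trans (Equiv.sigmaFiberEquiv (orderOf : H → ℕ)))
  have hord : ∀ g : G, orderOf (e g) = orderOf g := by
    intro g
    have : e g = ((e' (orderOf g)) ⟨g, rfl⟩ : H) := rfl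
    rw [this]
    exact ((e' (orderOf g)) ⟨g, rfl⟩).2
  have hcard : Nat.card G = Nat.card H := Nat.card_congr e
  refine ((Group.isNilpotent_of_finite_tfae (G := H)).out 3 0 rfl rfl).mp ?_
  intro p hp P
  -- the Sylow `p`-subgroup of `G`
  obtain ⟨P₀⟩ : Nonempty (Sylow p G) := inferInstance
  have hP₀n : (P₀ : Subgroup G).Normal := inferInstance
  have hmem : ∀ g : G, (∃ k, orderOf g = p ^ k) → g ∈ (P₀ : Subgroup G) := by
    intro g hg
    obtain ⟨Q, hQ⟩ := Cfsg.Agent.Lib.ClassSizes.exists_sylow_mem_of_orderOf (p := p) hg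
    haveI := Sylow.unique_of_normal P₀ hP₀n
    have : Q = P₀ := Subsingleton.elim _ _
    rw [← this]; exact hQ
  have hcardP : Nat.card (P : Subgroup H) = Nat.card (P₀ : Subgroup G) := by
    rw [Sylow.card_eq_multiplicity, Sylow.card_eq_multiplicity, hcard]
  -- `p`-elements of `H`
  let A := {h : H // ∃ k, orderOf h = p ^ k}
  let f : A → (P₀ : Subgroup G) := fun h =>
    ⟨e.symm h.1, hmem _ (by
      obtain ⟨k, hk⟩ := h.2
      refine ⟨k, ?_⟩
      rw [← hord, Equiv.apply_symm_apply, hk])⟩
  have hfinj : Function.Injective f := by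
    intro a b hab
    have h1 : e.symm a.1 = e.symm b.1 := congrArg Subtype.val hab
    exact Subtype.ext (e.symm.injective h1)
  have hA : Nat.card A ≤ Nat.card (P₀ : Subgroup G) := Nat.card_le_card_of_injective f hfinj
  let i : ↥(P : Subgroup H) → A := fun h =>
    ⟨h.1, Cfsg.Agent.Lib.ClassSizes.exists_orderOf_eq_prime_pow_of_mem P.isPGroup' h.2⟩
  have hiinj : Function.Injective i := by
    intro a b hab
    have h1 : (i a).1 = (i b).1 := congrArg Subtype.val hab
    exact Subtype.ext h1
  have hibij : Function.Bijective i :=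
    Function.Injective.bijective_of_nat_card_le hiinj (by rw [hcardP]; exact hA)
  have hall : ∀ h : H, (∃ k, orderOf h = p ^ k) → h ∈ (P : Subgroup H) := by
    intro h hh
    obtain ⟨w, hw⟩ := hibij.2 ⟨h, hh⟩
    have : w.1 = h := congrArg Subtype.val hw
    rw [← this]; exact w.2
  constructor
  intro x hx g
  apply hall
  obtain ⟨k, hk⟩ := Cfsg.Agent.Lib.ClassSizes.exists_orderOf_eq_prime_pow_of_mem P.isPGroup' hx
  refine ⟨k, ?_⟩
  rw [← hk]
  exact orderOf_eq_orderOf_iff.mpr fun k => by rw [conj_pow, conj_eq_one_iff]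

end Cfsg.Agent.S3997
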