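import Cfsg.Statements.S3998
import Mathlib
import Cfsg.Agent.Lib.Super.Lagrange
import Cfsg.Agent.Lib.Super.Chain
import Cfsg.Agent.Lib.PSolv.Basic
import Cfsg.Agent.Lib.Core.Basic

set_option autoImplicit false
open Cfsg

namespace Cfsg.Agent.S3998


open Cfsg Cfsg.Agent.Lib.Super

open Classical in
theorem card_pow_eq_one_eq_sum {G : Type*} [Group G] [Finite G] (n : ℕ) (hn : 0 < n) :
    Nat.card {x : G // x ^ n = 1} = ∑ m ∈ n.divisors, Nat.card {x : G // orderOf x = m} := by
  haveI := Fintype.ofFinite G
  rw [Nat.card_eq_fintype_card, Fintype.card_subtype]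
  have hmaps : ∀ x ∈ Finset.univ.filter (fun x : G => x ^ n = 1), orderOf x ∈ n.divisors := by
    intro x hx
    rw [Finset.mem_filter] at hx
    exact Nat.mem_divisors.mpr ⟨orderOf_dvd_of_pow_eq_one hx.2, hn.ne'⟩
  rw [Finset.card_eq_sum_card_fiberwise hmaps]
  refine Finset.sum_congr rfl fun m hm => ?_
  rw [Nat.card_eq_fintype_card, Fintype.card_subtype]
  congr 1
  ext x
  simp only [Finset.mem_filter, Finset.mem_univ, true_and]
  constructor
  · exact fun h => h.2
  · intro h
    refine ⟨?_, h⟩
    have : orderOf x ∣ n := h ▸ (Nat.mem_divisors.mp hm).1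
    exact orderOf_dvd_iff_pow_eq_one.mp this

theorem card_pow_eq {G H : Type*} [Group G] [Finite G] [Group H] [Finite H]
    (hT : ∀ m : ℕ, Nat.card {g : G // orderOf g = m} = Nat.card {h : H // orderOf h = m})
    (n : ℕ) (hn : 0 < n) : Nat.card {x : G // x ^ n = 1} = Nat.card {x : H // x ^ n = 1} := by
  rw [card_pow_eq_one_eq_sum n hn, card_pow_eq_one_eq_sum n hn]
  exact Finset.sum_congr rfl fun m _ => hT m

/-- In a group with a normal Hall subgroup, the solutions of `x ^ n = 1` are that subgroup. -/
theorem card_sol_of_hall {G : Type*} [Group G] [Finite G] (N : Subgroup G) [N.Normal]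
    (hc : (Nat.card N).Coprime N.index) :
    Nat.card {x : G // x ^ Nat.card N = 1} = Nat.card N := by
  have : {x : G | x ^ Nat.card N = 1} = (N : Set G) := by
    ext x
    constructor
    · intro hx
      have h1 : ((x : G ⧸ N)) ^ Nat.card N = 1 := by
        rw [← QuotientGroup.mk_pow, show x ^ Nat.card N = 1 from hx]; rfl
      have h2 : ((x : G ⧸ N)) ^ N.index = 1 := by
        rw [Subgroup.index_eq_card]; exact pow_card_eq_one'
      have h3 := orderOf_dvd_of_pow_eq_one h1
      have h4 := orderOf_dvd_of_pow_eq_one h2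
      have h5 : orderOf ((x : G ⧸ N)) = 1 := Nat.eq_one_of_dvd_coprimes hc h3 h4
      have h6 : ((x : G ⧸ N)) = 1 := orderOf_eq_one_iff.mp h5
      exact (QuotientGroup.eq_one_iff x).mp h6
    · intro hx
      have h := congrArg (Subtype.val) (pow_card_eq_one' (x := (⟨x, hx⟩ : N)))
      exact h
  have h2 : Nat.card {x : G // x ^ Nat.card N = 1} = Nat.card ({x : G | x ^ Nat.card N = 1} : Set G) := rfl
  rw [h2, this]
  rfl

/-- Main step in the target group. -/
theorem step_target {H : Type*} [Group H] [Finite H] (L : Subgroup H) [L.Normal]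
    (hLs : Group.IsSolvable L) (p : ℕ) [Fact p.Prime] (Q : Sylow p H)
    (hcop : (Nat.card L).Coprime (Nat.card (Q : Subgroup H)))
    (hsol : Nat.card {x : H // x ^ (Nat.card L * Nat.card (Q : Subgroup H)) = 1} =
      Nat.card L * Nat.card (Q : Subgroup H)) :
    ∃ M : Subgroup H, M.Normal ∧ Group.IsSolvable M ∧
      Nat.card M = Nat.card L * Nat.card (Q : Subgroup H) := by
  have hinf : (Q : Subgroup H) ⊓ L = ⊥ := Subgroup.inf_eq_bot_of_coprime hcop.symm
  have hcard : Nat.card ((Q : Subgroup H) ⊔ L : Subgroup H) = Nat.card L * Nat.card (Q : Subgroup H) := by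
    have h1 := Cfsg.Agent.Lib.PSolv.card_sup_mul_card_inf (Q : Subgroup H) L
    rw [hinf, Subgroup.card_bot, mul_one] at h1
    rw [h1, mul_comm]
  refine ⟨(Q : Subgroup H) ⊔ L, ?_, ?_, hcard⟩
  · -- the solution set is this subgroup
    set M := (Q : Subgroup H) ⊔ L with hM
    have hsub : (M : Set H) ⊆ {x : H | x ^ (Nat.card L * Nat.card (Q : Subgroup H)) = 1} := by
      intro x hx
      have h := congrArg (Subtype.val) (pow_card_eq_one' (x := (⟨x, hx⟩ : M)))
      rw [hcard] at h
      exact h
    have heq : (M : Set H) = {x : H | x ^ (Nat.card L * Nat.card (Q : Subgroup H)) = 1} := by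
      apply Set.eq_of_subset_of_ncard_le hsub
      rw [← Nat.card_coe_set_eq, ← Nat.card_coe_set_eq]
      exact le_of_eq (hsol.trans hcard.symm)
    constructor
    intro x hx g
    have hx' : x ∈ (M : Set H) := hx
    rw [heq] at hx'
    have : g * x * g⁻¹ ∈ (M : Set H) := by
      rw [heq]
      show (g * x * g⁻¹) ^ _ = 1
      rw [conj_pow, show x ^ _ = 1 from hx']; simp
    exact this
  · -- solvable: `L` and a `p`-group quotient
    set M := (Q : Subgroup H) ⊔ L with hM
    have hLM : L ≤ M := le_sup_right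
    haveI : (L.subgroupOf M).Normal := Subgroup.normal_subgroupOf
    have hqc : Nat.card (M ⧸ L.subgroupOf M) = Nat.card (Q : Subgroup H) := by
      have h1 := Subgroup.card_eq_card_quotient_mul_card_subgroup (L.subgroupOf M)
      have h2 : Nat.card (L.subgroupOf M) = Nat.card L := by
        exact Nat.card_congr (Subgroup.subgroupOfEquivOfLe hLM).toEquiv
      rw [h2, hcard, mul_comm] at h1
      exact (Nat.eq_of_mul_eq_mul_right Nat.card_pos h1).symm
    have hpg : IsPGroup p (M ⧸ L.subgroupOf M) := by
      have hQ := Sylow.card_eq_multiplicity Q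
      exact IsPGroup.of_card (n := Nat.factorization (Nat.card H) p) (by rw [hqc, hQ])
    haveI : Group.IsNilpotent (M ⧸ L.subgroupOf M) := hpg.isNilpotent
    haveI : Group.IsSolvable (M ⧸ L.subgroupOf M) := inferInstance
    haveI := hLs
    refine solvable_of_ker_le_range (Subgroup.inclusion hLM) (QuotientGroup.mk' (L.subgroupOf M)) ?_
    intro x hx
    rw [QuotientGroup.ker_mk'] at hx
    exact ⟨⟨x.1, hx⟩, rfl⟩

theorem aux {G H : Type*} [Group G] [Finite G] [Group H] [Finite H]
    (hT : ∀ m : ℕ, Nat.card {g : G // orderOf g = m} = Nat.card {h : H // orderOf h = m})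
    (hG : IsSupersolvable G) (hcard : Nat.card G = Nat.card H) :
    ∀ (k : ℕ) (N : Subgroup G), N.Normal → N.index = k → (Nat.card N).Coprime N.index →
      ∀ L : Subgroup H, L.Normal → Group.IsSolvable L → Nat.card L = Nat.card N → Group.IsSolvable H := by
  intro k
  induction k using Nat.strong_induction_on with
  | _ k ih =>
    intro N hN hk hc L hL hLs hLN
    by_cases hk1 : k = 1
    · -- `N = ⊤`
      subst hk1
      have hNt : N = ⊤ := Subgroup.index_eq_one.mp hk
      have hLt : L = ⊤ := by
        apply Subgroup.eq_top_of_card_eq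
        rw [hLN, hNt, Subgroup.card_top, hcard]
      subst hLt
      exact solvable_of_surjective (f := (⊤ : Subgroup H).subtype) (fun x => ⟨⟨x, trivial⟩, rfl⟩)
    have hk0 : k ≠ 0 := by
      rw [← hk]; exact Subgroup.index_ne_zero_of_finite
    have hk2 : 1 < k := by omega
    have hqcard : Nat.card (G ⧸ N) = k := by rw [← hk, Subgroup.index_eq_card]
    obtain ⟨p, hp, hpd, hmax⟩ := exists_largest_prime hk2
    haveI : Fact p.Prime := ⟨hp⟩
    have hssq : IsSupersolvable (G ⧸ N) := IsSupersolvable.quotient hG N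
    obtain ⟨Pb⟩ : Nonempty (Sylow p (G ⧸ N)) := inferInstance
    have hPn : (Pb : Subgroup (G ⧸ N)).Normal :=
      sylow_normal_of_hered _ rfl (fun K => hasSubgroupOfEveryOrder_of_ss' (IsSupersolvable.subgroup hssq K)) p
        (by rw [hqcard]; exact hpd) (by rw [hqcard]; exact hmax) Pb
    set M : Subgroup G := (Pb : Subgroup (G ⧸ N)).comap (QuotientGroup.mk' N) with hMdef
    haveI hMn : M.Normal := Subgroup.Normal.comap hPn _
    have hMcard : Nat.card M = Nat.card N * Nat.card (Pb : Subgroup (G ⧸ N)) := by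
      have := Cfsg.Agent.Lib.Core.card_comap_of_surjective (QuotientGroup.mk' N)
        (QuotientGroup.mk'_surjective N) (Pb : Subgroup (G ⧸ N))
      rwa [QuotientGroup.ker_mk'] at this
    have hMidx : M.index = (Pb : Subgroup (G ⧸ N)).index :=
      Subgroup.index_comap_of_surjective _ (QuotientGroup.mk'_surjective N)
    have hPbcard := (Pb : Subgroup (G ⧸ N)).card_mul_index
    rw [hqcard] at hPbcard
    have hPbbig : 1 < Nat.card (Pb : Subgroup (G ⧸ N)) := by
      have hd : p ∣ Nat.card (Pb : Subgroup (G ⧸ N)) := by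
        have h := Sylow.card_eq_multiplicity Pb
        rw [h, hqcard]
        exact dvd_pow_self p (by
          have := (Nat.Prime.dvd_iff_one_le_factorization hp hk0).mp hpd
          omega)
      exact lt_of_lt_of_le hp.one_lt (Nat.le_of_dvd Nat.card_pos hd)
    have hMlt : M.index < k := by
      rw [hMidx]
      have hpos : 0 < (Pb : Subgroup (G ⧸ N)).index := Nat.pos_of_ne_zero Subgroup.index_ne_zero_of_finite
      nlinarith
    have hpN : ¬ p ∣ Nat.card N := by
      intro h
      have : p ∣ Nat.gcd (Nat.card N) N.index := Nat.dvd_gcd h (hk ▸ hpd)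
      rw [hc] at this
      exact hp.one_lt.ne' (Nat.dvd_one.mp this)
    have hMc : (Nat.card M).Coprime M.index := by
      rw [hMcard, hMidx]
      refine Nat.Coprime.mul_left ?_ ?_
      · refine Nat.Coprime.coprime_dvd_right ?_ hc
        rw [hk]; exact ⟨_, hPbcard.symm.trans (mul_comm _ _)⟩
      · exact Pb.card_coprime_index
    obtain ⟨Q⟩ : Nonempty (Sylow p H) := inferInstance
    have hQcard : Nat.card (Q : Subgroup H) = Nat.card (Pb : Subgroup (G ⧸ N)) := by
      rw [Sylow.card_eq_multiplicity Q, Sylow.card_eq_multiplicity Pb, hqcard, ← hcard,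
        ← N.card_mul_index, hk, Nat.factorization_mul Nat.card_pos.ne' hk0]
      simp [Nat.factorization_eq_zero_of_not_dvd hpN]
    have hcopLQ : (Nat.card L).Coprime (Nat.card (Q : Subgroup H)) := by
      rw [hLN, Sylow.card_eq_multiplicity Q]
      exact Nat.Coprime.pow_right _ ((Nat.Prime.coprime_iff_not_dvd hp).mpr hpN).symm
    have hsol : Nat.card {x : H // x ^ (Nat.card L * Nat.card (Q : Subgroup H)) = 1} =
        Nat.card L * Nat.card (Q : Subgroup H) := by
      rw [hLN, hQcard, ← hMcard, ← card_pow_eq hT _ Nat.card_pos]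
      exact card_sol_of_hall M hMc
    haveI := hL
    obtain ⟨M', hM'n, hM's, hM'c⟩ := step_target L hLs p Q hcopLQ hsol
    exact ih M.index (hMidx ▸ hMlt) M hMn rfl hMc M' hM'n hM's (by rw [hM'c, hMcard, hLN, hQcard])


/-- Let G and H be finite groups with the same order type (for every m the same number of elements of order m). If G is supersolvable then H is solvable. -/
theorem result {G H : Type*} [Group G] [Finite G] [Group H] [Finite H] (hT : (∀ m : ℕ, Nat.card {g : G // orderOf g = m} = Nat.card {h : H // orderOf h = m})) (hG : Cfsg.IsSupersolvable G) :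
    Group.IsSolvable H := by
  have hcard : Nat.card G = Nat.card H := by
    have := card_pow_eq hT (Nat.card G * Nat.card H) (Nat.mul_pos Nat.card_pos Nat.card_pos)
    have h1 : Nat.card {x : G // x ^ (Nat.card G * Nat.card H) = 1} = Nat.card G := by
      have : ∀ x : G, x ^ (Nat.card G * Nat.card H) = 1 := fun x => by rw [pow_mul, pow_card_eq_one']; simp
      exact Nat.card_congr (Equiv.subtypeUnivEquiv this)
    have h2 : Nat.card {x : H // x ^ (Nat.card G * Nat.card H) = 1} = Nat.card H := by
      have : ∀ x : H, x ^ (Nat.card G * Nat.card H) = 1 := fun x => by rw [mul_comm, pow_mul, pow_card_eq_one']; simp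
      exact Nat.card_congr (Equiv.subtypeUnivEquiv this)
    omega
  have hb : (Nat.card (⊥ : Subgroup G)).Coprime (⊥ : Subgroup G).index := by simp
  exact aux hT hG hcard _ ⊥ inferInstance rfl hb ⊥ inferInstance inferInstance (by simp)

end Cfsg.Agent.S3998
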