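import Cfsg.Statements.S4002
import Cfsg.Agent.Lib.Cl.PrimeGraph
import Mathlib

set_option autoImplicit false
open Cfsg

namespace Cfsg.Agent.S4002

/-- Three primes at most `n` with pairwise products above `n`. -/
theorem exists_three_primes (n : ℕ) (hn : 7 ≤ n) : ∃ p q r : ℕ, p.Prime ∧ q.Prime ∧ r.Prime ∧
    p < q ∧ q < r ∧ r ≤ n ∧ n < p * q := by
  by_cases h1 : n ≤ 14
  · exact ⟨3, 5, 7, by norm_num, by norm_num, by norm_num, by norm_num, by norm_num, hn, by omega⟩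
  by_cases h2 : n ≤ 34
  · exact ⟨5, 7, 11, by norm_num, by norm_num, by norm_num, by norm_num, by norm_num, by omega, by omega⟩
  obtain ⟨r, hr, hr1, hr2⟩ := Nat.exists_prime_lt_and_le_two_mul (n / 2) (by omega)
  obtain ⟨q, hq, hq1, hq2⟩ := Nat.exists_prime_lt_and_le_two_mul (n / 4) (by omega)
  obtain ⟨p, hp, hp1, hp2⟩ := Nat.exists_prime_lt_and_le_two_mul (n / 8) (by omega)
  refine ⟨p, q, r, hp, hq, hr, by omega, by omega, by omega, ?_⟩
  have h3 : n < 8 * (n / 8 + 1) := by omega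
  have h4 : n < 4 * (n / 4 + 1) := by omega
  have h5 : n / 8 + 1 ≤ p := hp1
  have h6 : n / 4 + 1 ≤ q := hq1
  have h7 : (n / 8 + 1) * (n / 4 + 1) ≤ p * q := Nat.mul_le_mul h5 h6
  have h8 : n * n < (8 * (n / 8 + 1)) * (4 * (n / 4 + 1)) := Nat.mul_lt_mul'' h3 h4
  have h9 : 32 * n ≤ n * n := Nat.mul_le_mul_right n (by omega)
  nlinarith

/-- If the set of element orders of a finite group G is {1, 2, …, n} with n ≥ 7, then G is not solvable. -/
theorem result {G : Type*} [Group G] [Finite G] (n : ℕ) (hn : 7 ≤ n) (h : Set.range (orderOf : G → ℕ) = {k : ℕ | 1 ≤ k ∧ k ≤ n}) : ¬ Group.IsSolvable G := by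
  intro hs
  obtain ⟨p, q, r, hp, hq, hr, hpq, hqr, hrn, hn2⟩ := exists_three_primes n hn
  have hex : ∀ k : ℕ, 1 ≤ k → k ≤ n → ∃ g : G, orderOf g = k := by
    intro k h1 h2
    have : k ∈ {k : ℕ | 1 ≤ k ∧ k ≤ n} := ⟨h1, h2⟩
    rw [← h] at this
    exact this
  have hle : ∀ g : G, orderOf g ≤ n := by
    intro g
    have : orderOf g ∈ {k : ℕ | 1 ≤ k ∧ k ≤ n} := by rw [← h]; exact ⟨g, rfl⟩
    exact this.2
  have hdvd : ∀ k : ℕ, 1 ≤ k → k ≤ n → k ∣ Nat.card G := by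
    intro k h1 h2
    obtain ⟨g, hg⟩ := hex k h1 h2
    rw [← hg]; exact orderOf_dvd_natCard g
  have hpd := hdvd p hp.pos (by omega)
  have hqd := hdvd q hq.pos (by omega)
  have hrd := hdvd r hr.pos (by omega)
  rcases Cfsg.Agent.Lib.Cl.exists_order_mul_of_solvable hp hq hr hpq.ne (by omega) hqr.ne hpd hqd hrd
    with ⟨x, hx⟩ | ⟨x, hx⟩ | ⟨x, hx⟩
  · have := hle x
    omega
  · have h1 := hle x
    have h2 : p * q ≤ p * r := Nat.mul_le_mul_left p hqr.le
    omega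
  · have h1 := hle x
    have h2 : p * q ≤ q * r := by
      rw [mul_comm p q]
      exact Nat.mul_le_mul_left q (by omega)
    omega

end Cfsg.Agent.S4002
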