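import Cfsg.Statements.S4003
import Mathlib
import Cfsg.Agent.Lib.PGroup.MillerCount
import Cfsg.Agent.Lib.PGroup.Basic

set_option autoImplicit false
open Cfsg

namespace Cfsg.Agent.S4003

open Subgroup Cfsg.Agent.Lib.PGroup.Miller

section

variable {G : Type*} [Group G] [Fintype G] [DecidableEq G]

open scoped Classical in
/-- The number of elements of a given order commuting with `b`. -/
noncomputable def nC (k : ℕ) (b : G) : ℕ := (Finset.univ.filter fun a : G => Commute a b ∧ orderOf a = k).card

theorem nC_conj (k : ℕ) (b g : G) : nC k (g * b * g⁻¹) = nC k b := by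
  unfold nC
  symm
  refine Finset.card_bij (fun a _ => g * a * g⁻¹) ?_ ?_ ?_
  · intro a ha
    simp only [Finset.mem_filter, Finset.mem_univ, true_and] at ha ⊢
    refine ⟨?_, ?_⟩
    · have := ha.1.eq
      show g * a * g⁻¹ * (g * b * g⁻¹) = g * b * g⁻¹ * (g * a * g⁻¹)
      calc g * a * g⁻¹ * (g * b * g⁻¹) = g * (a * b) * g⁻¹ := by group
        _ = g * (b * a) * g⁻¹ := by rw [this]
        _ = _ := by group
    · have := MulEquiv.orderOf_eq (MulAut.conj g) a
      rw [MulAut.conj_apply] at this
      rw [this, ha.2]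
  · intro a _ a' _ h
    have : g * a * g⁻¹ = g * a' * g⁻¹ := h
    simpa using this
  · intro y hy
    simp only [Finset.mem_filter, Finset.mem_univ, true_and] at hy
    refine ⟨g⁻¹ * y * g, ?_, by group⟩
    simp only [Finset.mem_filter, Finset.mem_univ, true_and]
    refine ⟨?_, ?_⟩
    · have := hy.1.eq
      show g⁻¹ * y * g * b = b * (g⁻¹ * y * g)
      have h1 : y * (g * b * g⁻¹) = (g * b * g⁻¹) * y := this
      calc g⁻¹ * y * g * b = g⁻¹ * (y * (g * b * g⁻¹)) * g := by group
        _ = g⁻¹ * ((g * b * g⁻¹) * y) * g := by rw [h1]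
        _ = _ := by group
    · have := MulEquiv.orderOf_eq (MulAut.conj g⁻¹) y
      rw [MulAut.conj_apply] at this
      have h2 : g⁻¹ * y * g⁻¹⁻¹ = g⁻¹ * y * g := by simp
      rw [h2] at this
      rw [this, hy.2]

theorem nC_eq (k : ℕ) (b : G) [Fintype (centralizer ({b} : Set G))] [DecidableEq (centralizer ({b} : Set G))] :
    nC k b = (Finset.univ.filter fun x : centralizer ({b} : Set G) => orderOf x = k).card := by
  unfold nC
  symm
  refine Finset.card_bij (fun x _ => (x : G)) ?_ ?_ ?_
  · intro x hx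
    simp only [Finset.mem_filter, Finset.mem_univ, true_and] at hx ⊢
    refine ⟨?_, by rw [Subgroup.orderOf_coe, hx]⟩
    have := x.2
    rw [Subgroup.mem_centralizer_singleton_iff] at this
    exact this
  · intro x _ y _ h
    exact Subtype.ext h
  · intro y hy
    simp only [Finset.mem_filter, Finset.mem_univ, true_and] at hy
    have hm : y ∈ centralizer ({b} : Set G) := by
      rw [Subgroup.mem_centralizer_singleton_iff]
      exact hy.1
    refine ⟨⟨y, hm⟩, ?_, rfl⟩
    simp only [Finset.mem_filter, Finset.mem_univ, true_and]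
    rw [Subgroup.orderOf_mk, hy.2]

/-- The decomposition of elements of order `k m`. -/
theorem card_decomp {k m t t' : ℕ} (hco : Nat.Coprime k m) (hk : k ≠ 0) (hm : m ≠ 0)
    (ht1 : t ≡ 0 [MOD k]) (ht2 : t ≡ 1 [MOD m]) (ht1' : t' ≡ 1 [MOD k]) (ht2' : t' ≡ 0 [MOD m]) :
    (Finset.univ.filter fun g : G => orderOf g = k * m).card =
      ∑ b ∈ Finset.univ.filter (fun b : G => orderOf b = m), nC k b := by
  have hsum : t' + t ≡ 1 [MOD k * m] := by
    refine (Nat.modEq_and_modEq_iff_modEq_mul hco).mp ⟨?_, ?_⟩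
    · simpa using ht1'.add ht1
    · simpa using ht2'.add ht2
  have hdec : ∀ g : G, orderOf g = k * m → orderOf (g ^ t') = k ∧ orderOf (g ^ t) = m := by
    intro g hg
    have h1 : (g ^ t') ^ k = 1 := by
      rw [← pow_mul]
      apply orderOf_dvd_iff_pow_eq_one.mp
      rw [hg, mul_comm k m]
      exact Nat.mul_dvd_mul_right ((Nat.modEq_zero_iff_dvd).mp ht2') k
    have h2 : (g ^ t) ^ m = 1 := by
      rw [← pow_mul]
      apply orderOf_dvd_iff_pow_eq_one.mp
      rw [hg]
      exact Nat.mul_dvd_mul_right ((Nat.modEq_zero_iff_dvd).mp ht1) m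
    have h3 : orderOf (g ^ t') ∣ k := orderOf_dvd_of_pow_eq_one h1
    have h4 : orderOf (g ^ t) ∣ m := orderOf_dvd_of_pow_eq_one h2
    have hcomm : Commute (g ^ t') (g ^ t) := (Commute.refl g).pow_pow _ _
    have h5 : g ^ t' * g ^ t = g := by
      rw [← pow_add]
      have : g ^ (t' + t) = g ^ 1 := by
        rw [pow_eq_pow_iff_modEq, hg]
        exact hsum
      rwa [pow_one] at this
    have h6 := hcomm.orderOf_mul_eq_mul_orderOf_of_coprime (Nat.Coprime.coprime_dvd_left h3 (Nat.Coprime.coprime_dvd_right h4 hco))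
    rw [h5, hg] at h6
    have h7 := Nat.le_of_dvd (Nat.pos_of_ne_zero hk) h3
    have h8 := Nat.le_of_dvd (Nat.pos_of_ne_zero hm) h4
    have hpos1 : 0 < orderOf (g ^ t') := Nat.pos_of_dvd_of_pos h3 (Nat.pos_of_ne_zero hk)
    have hpos2 : 0 < orderOf (g ^ t) := Nat.pos_of_dvd_of_pos h4 (Nat.pos_of_ne_zero hm)
    constructor
    · by_contra hc
      have h9 : orderOf (g ^ t') < k := lt_of_le_of_ne h7 hc
      have : orderOf (g ^ t') * orderOf (g ^ t) < k * m :=
        Nat.mul_lt_mul_of_lt_of_le h9 h8 (Nat.pos_of_ne_zero hm)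
      omega
    · by_contra hc
      have h9 : orderOf (g ^ t) < m := lt_of_le_of_ne h8 hc
      have : orderOf (g ^ t') * orderOf (g ^ t) < k * m :=
        Nat.mul_lt_mul_of_le_of_lt h7 h9 (Nat.pos_of_ne_zero hk)
      omega
  have hmaps : ∀ g ∈ (Finset.univ.filter fun g : G => orderOf g = k * m),
      g ^ t ∈ (Finset.univ.filter fun b : G => orderOf b = m) := by
    intro g hg
    simp only [Finset.mem_filter, Finset.mem_univ, true_and] at hg ⊢
    exact (hdec g hg).2
  rw [Finset.card_eq_sum_card_fiberwise hmaps]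
  refine Finset.sum_congr rfl fun b hb => ?_
  simp only [Finset.mem_filter, Finset.mem_univ, true_and] at hb
  unfold nC
  refine Finset.card_bij' (fun g _ => g ^ t') (fun a _ => a * b) ?_ ?_ ?_ ?_
  · intro g hg
    simp only [Finset.mem_filter, Finset.mem_univ, true_and] at hg ⊢
    obtain ⟨hg1, hg2⟩ := hg
    refine ⟨?_, (hdec g hg1).1⟩
    rw [← hg2]
    exact (Commute.refl g).pow_pow _ _
  · intro a ha
    simp only [Finset.mem_filter, Finset.mem_univ, true_and] at ha ⊢
    obtain ⟨ha1, ha2⟩ := ha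
    refine ⟨?_, ?_⟩
    · rw [ha1.orderOf_mul_eq_mul_orderOf_of_coprime (by rw [ha2, hb]; exact hco), ha2, hb]
    · rw [ha1.mul_pow]
      have h1 : a ^ t = 1 := by
        have : a ^ t = a ^ 0 := by
          rw [pow_eq_pow_iff_modEq, ha2]
          exact ht1
        simpa using this
      have h2 : b ^ t = b := by
        have : b ^ t = b ^ 1 := by
          rw [pow_eq_pow_iff_modEq, hb]
          exact ht2
        simpa using this
      rw [h1, h2, one_mul]
  · intro g hg
    simp only [Finset.mem_filter, Finset.mem_univ, true_and] at hg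
    obtain ⟨hg1, hg2⟩ := hg
    show g ^ t' * b = g
    rw [← hg2, ← pow_add]
    have : g ^ (t' + t) = g ^ 1 := by
      rw [pow_eq_pow_iff_modEq, hg1]
      exact hsum
    rwa [pow_one] at this
  · intro a ha
    simp only [Finset.mem_filter, Finset.mem_univ, true_and] at ha
    obtain ⟨ha1, ha2⟩ := ha
    show (a * b) ^ t' = a
    rw [ha1.mul_pow]
    have h1 : a ^ t' = a := by
      have : a ^ t' = a ^ 1 := by
        rw [pow_eq_pow_iff_modEq, ha2]
        exact ht1'
      simpa using this
    have h2 : b ^ t' = 1 := by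
      have : b ^ t' = b ^ 0 := by
        rw [pow_eq_pow_iff_modEq, hb]
        exact ht2'
      simpa using this
    rw [h1, h2, mul_one]

/-- The sum over a conjugation-stable set of elements. -/
theorem dvd_sum_classes {d : ℕ} (B : Finset G) (hB : ∀ b ∈ B, ∀ g : G, g * b * g⁻¹ ∈ B) (f : G → ℕ)
    (hf : ∀ b g : G, f (g * b * g⁻¹) = f b)
    (h : ∀ b ∈ B, d ∣ (centralizer ({b} : Set G)).index * f b) : d ∣ ∑ b ∈ B, f b := by
  classical
  rw [← Finset.sum_fiberwise_of_maps_to (g := ConjClasses.mk) (t := B.image ConjClasses.mk)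
    (fun x hx => Finset.mem_image_of_mem _ hx)]
  refine Finset.dvd_sum fun C hC => ?_
  obtain ⟨b₀, hb₀, rfl⟩ := Finset.mem_image.mp hC
  have h1 : ∑ b ∈ B.filter (fun b => ConjClasses.mk b = ConjClasses.mk b₀), f b =
      ∑ _b ∈ B.filter (fun b => ConjClasses.mk b = ConjClasses.mk b₀), f b₀ := by
    refine Finset.sum_congr rfl fun y hy => ?_
    obtain ⟨-, hy2⟩ := Finset.mem_filter.mp hy
    obtain ⟨u, hu⟩ := isConj_iff.mp (ConjClasses.mk_eq_mk_iff_isConj.mp hy2.symm)
    rw [← hu, hf]
  rw [h1, Finset.sum_const, smul_eq_mul]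
  have h2 : (B.filter (fun b => ConjClasses.mk b = ConjClasses.mk b₀)).card =
      (centralizer ({b₀} : Set G)).index := by
    rw [Cfsg.Agent.Lib.PGroup.index_centralizer_singleton, Nat.card_eq_fintype_card, Fintype.card_subtype]
    congr 1
    ext y
    simp only [Finset.mem_filter, Finset.mem_univ, true_and]
    constructor
    · rintro ⟨-, hy⟩
      exact ConjClasses.mk_eq_mk_iff_isConj.mp hy.symm
    · intro hy
      obtain ⟨u, hu⟩ := isConj_iff.mp hy
      refine ⟨hu ▸ hB b₀ hb₀ u, (ConjClasses.mk_eq_mk_iff_isConj.mpr hy).symm⟩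
  rw [h2]
  exact h b₀ hb₀

end

/-- Sylow subgroups of a centralizer of `p`-prime index are non-cyclic. -/
theorem not_cyclic_of_index {G : Type*} [Group G] [Finite G] {p : ℕ} [hp : Fact p.Prime]
    (P : Sylow p G) (hP : ¬ IsCyclic (P : Subgroup G)) (H : Subgroup G) (hH : ¬ p ∣ H.index)
    (R : Sylow p H) : ¬ IsCyclic (R : Subgroup H) := by
  intro hR
  have hpp : p.Prime := hp.out
  have hcard : Nat.card ((R : Subgroup H).map H.subtype) =
      p ^ (Nat.card G).factorization p := by
    rw [Nat.card_congr (Subgroup.equivMapOfInjective _ H.subtype H.subtype_injective).symm.toEquiv,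
      Sylow.card_eq_multiplicity, ← H.index_mul_card, Nat.factorization_mul H.index_ne_zero_of_finite
        Nat.card_pos.ne']
    simp [Nat.factorization_eq_zero_of_not_dvd hH]
  let Q' : Sylow p G := Sylow.ofCard _ hcard
  have e : (P : Subgroup G) ≃* (Q' : Subgroup G) := Sylow.equiv P Q'
  have e2 : (R : Subgroup H) ≃* ((R : Subgroup H).map H.subtype) :=
    Subgroup.equivMapOfInjective _ H.subtype H.subtype_injective
  have e3 : (R : Subgroup H) ≃* (P : Subgroup G) := e2.trans e.symm
  exact hP (isCyclic_of_surjective e3 e3.surjective)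

/-- Let G be a finite group, p an odd prime dividing the order of G whose Sylow p-subgroups are not cyclic, and n = p^s·m with s > 1 and m coprime to p. Then the number of elements of G of order n is a multiple of p^s. -/
theorem result {G : Type*} [Group G] [Finite G] (p : ℕ) [Fact p.Prime] (hodd : p ≠ 2) (hpG : p ∣ Nat.card G)
    (P : Sylow p G) (hP : ¬ IsCyclic ↥(P : Subgroup G)) (s m : ℕ) (hs : 1 < s) (hm : Nat.Coprime p m) :
    p ^ s ∣ Nat.card {g : G // orderOf g = p ^ s * m} := by
  classical
  haveI := Fintype.ofFinite G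
  have hpp : p.Prime := Fact.out
  have hm0 : m ≠ 0 := by
    rintro rfl
    rw [Nat.coprime_zero_right] at hm
    exact hpp.one_lt.ne' hm
  have hco : Nat.Coprime (p ^ s) m := hm.pow_left s
  have hk0 : p ^ s ≠ 0 := pow_ne_zero _ hpp.ne_zero
  have ht := (Nat.chineseRemainder hco 0 1).2
  have ht' := (Nat.chineseRemainder hco 1 0).2
  have hcount := card_decomp (G := G) hco hk0 hm0 ht.1 ht.2 ht'.1 ht'.2
  have h0 : Nat.card {g : G // orderOf g = p ^ s * m} =
      (Finset.univ.filter fun g : G => orderOf g = p ^ s * m).card := by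
    rw [Nat.card_eq_fintype_card, Fintype.card_subtype]
  rw [h0, hcount]
  refine dvd_sum_classes _ ?_ (nC (p ^ s)) (fun b g => nC_conj _ b g) ?_
  · intro b hb g
    simp only [Finset.mem_filter, Finset.mem_univ, true_and] at hb ⊢
    have := MulEquiv.orderOf_eq (MulAut.conj g) b
    rw [MulAut.conj_apply] at this
    rw [this, hb]
  · intro b _
    haveI : Fintype (centralizer ({b} : Set G)) := Fintype.ofFinite _
    rw [nC_eq]
    by_cases hi : p ∣ (centralizer ({b} : Set G)).index
    · have h1 := pow_pred_dvd_card (p := p) (H := centralizer ({b} : Set G)) (s := s) (by omega)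
      have h3 : p ^ s = p * p ^ (s - 1) := by
        rw [← pow_succ']
        congr 1
        omega
      have h4 := mul_dvd_mul hi h1
      rwa [← h3] at h4
    · obtain ⟨R⟩ : Nonempty (Sylow p (centralizer ({b} : Set G))) := inferInstance
      have h1 := pow_dvd_card_of_sylow R hodd (not_cyclic_of_index P hP _ hi R) hs
      exact Dvd.dvd.mul_left h1 _

end Cfsg.Agent.S4003
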