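import Cfsg.Statements.S4005
import Cfsg.Agent.S0144
import Cfsg.Agent.Lib.Hall.FPFAction
import Cfsg.Agent.Lib.InvolChar.Solvable
import Cfsg.Agent.Lib.Core.Basic
import Mathlib

set_option autoImplicit false
open Cfsg

namespace Cfsg.Agent.S4005

open Subgroup

variable {G : Type*} [Group G] [Finite G]

theorem false_of_six (hord : ∀ g : G, orderOf g = 1 ∨ orderOf g = 2 ∨ orderOf g = 3) {u v : G}
    (hc : Commute u v) (hu : orderOf u = 2) (hv : orderOf v = 3) : False := by
  have := hc.orderOf_mul_eq_mul_orderOf_of_coprime (by rw [hu, hv]; norm_num)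
  rw [hu, hv] at this
  rcases hord (u * v) with h | h | h <;> omega

theorem sq_of_p2 (hord : ∀ g : G, orderOf g = 1 ∨ orderOf g = 2 ∨ orderOf g = 3) {H : Subgroup G}
    (hH : IsPGroup 2 H) {x : G} (hx : x ∈ H) : x ^ 2 = 1 := by
  obtain ⟨k, hk⟩ := hH ⟨x, hx⟩
  have h1 : x ^ 2 ^ k = 1 := by simpa using congrArg (fun y : H => (y : G)) hk
  have h2 : orderOf x ∣ 2 ^ k := orderOf_dvd_of_pow_eq_one h1
  rcases hord x with h | h | h
  · rw [orderOf_eq_one_iff] at h; simp [h]
  · rw [← h]; exact pow_orderOf_eq_one x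
  · rw [h] at h2
    have := Nat.Prime.dvd_of_dvd_pow Nat.prime_three h2
    omega

theorem cu_of_p3 (hord : ∀ g : G, orderOf g = 1 ∨ orderOf g = 2 ∨ orderOf g = 3) {H : Subgroup G}
    (hH : IsPGroup 3 H) {x : G} (hx : x ∈ H) : x ^ 3 = 1 := by
  obtain ⟨k, hk⟩ := hH ⟨x, hx⟩
  have h1 : x ^ 3 ^ k = 1 := by simpa using congrArg (fun y : H => (y : G)) hk
  have h2 : orderOf x ∣ 3 ^ k := orderOf_dvd_of_pow_eq_one h1
  rcases hord x with h | h | h
  · rw [orderOf_eq_one_iff] at h; simp [h]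
  · rw [h] at h2
    have := Nat.Prime.dvd_of_dvd_pow Nat.prime_two h2
    omega
  · rw [← h]; exact pow_orderOf_eq_one x

theorem card_form : ∀ (n : ℕ), n ≠ 0 → (∀ p : ℕ, p.Prime → p ∣ n → p = 2 ∨ p = 3) →
    ∃ a b : ℕ, n = 2 ^ a * 3 ^ b := by
  intro n
  induction n using Nat.strong_induction_on with
  | _ n ih =>
    intro hn hp
    by_cases h1 : n = 1
    · exact ⟨0, 0, by simp [h1]⟩
    obtain ⟨p, hpp, hdvd⟩ := Nat.exists_prime_and_dvd h1
    obtain ⟨m, rfl⟩ := hdvd
    have hm0 : m ≠ 0 := fun h => hn (by simp [h])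
    have hlt : m < p * m := by
      have := hpp.two_le
      have : 0 < m := Nat.pos_of_ne_zero hm0
      nlinarith
    obtain ⟨a, b, hab⟩ := ih m hlt hm0 (fun q hq hd => hp q hq (hd.trans (Dvd.intro_left p rfl)))
    rcases hp p hpp (Dvd.intro m rfl) with rfl | rfl
    · exact ⟨a + 1, b, by rw [hab, pow_succ]; ring⟩
    · exact ⟨a, b + 1, by rw [hab, pow_succ]; ring⟩

theorem isMulCommutative_of_sq {H : Subgroup G} (hsq : ∀ x ∈ H, x ^ 2 = 1) : IsMulCommutative H := by
  refine ⟨⟨fun a b => ?_⟩⟩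
  apply Subtype.ext
  have h1 := hsq _ (H.mul_mem a.2 b.2)
  have h2 := hsq _ a.2
  have h3 := hsq _ b.2
  have e : ((a : G) * b) * ((a : G) * b) = 1 := by rw [← pow_two]; exact h1
  have e2 : (a : G) * a = 1 := by rw [← pow_two]; exact h2
  have e3 : (b : G) * b = 1 := by rw [← pow_two]; exact h3
  show (a : G) * b = b * a
  have h4 : (a : G)⁻¹ = a := inv_eq_of_mul_eq_one_left e2
  have h5 : (b : G)⁻¹ = b := inv_eq_of_mul_eq_one_left e3
  have h6 : ((a : G) * b)⁻¹ = a * b := inv_eq_of_mul_eq_one_left e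
  rw [mul_inv_rev, h4, h5] at h6
  exact h6.symm

theorem exists_order_of_ne_bot {p : ℕ} [Fact p.Prime] {H : Subgroup G} (hH : IsPGroup p H)
    (h1 : H ≠ ⊥) : ∃ x ∈ H, orderOf x = p := by
  obtain ⟨k, hk⟩ := IsPGroup.iff_card.mp hH
  have hk0 : k ≠ 0 := by
    rintro rfl
    apply h1
    rw [pow_zero] at hk
    exact Subgroup.card_eq_one.mp hk
  have hd : p ∣ Nat.card H := by rw [hk]; exact dvd_pow_self p hk0
  obtain ⟨x, hx⟩ := exists_prime_orderOf_dvd_card' p hd
  exact ⟨x, x.2, by rw [← Subgroup.orderOf_coe] at hx; exact hx⟩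

theorem factorization_left {m n : ℕ} : (2 ^ m * 3 ^ n).factorization 2 = m := by
  rw [Nat.factorization_mul (by positivity) (by positivity)]
  simp [Nat.Prime.factorization_self Nat.prime_two,
    Nat.factorization_eq_zero_of_not_dvd (show ¬ 2 ∣ 3 by norm_num)]

theorem factorization_right {m n : ℕ} : (2 ^ m * 3 ^ n).factorization 3 = n := by
  rw [Nat.factorization_mul (by positivity) (by positivity)]
  simp [Nat.Prime.factorization_self Nat.prime_three,
    Nat.factorization_eq_zero_of_not_dvd (show ¬ 3 ∣ 2 by norm_num)]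

/-- The case `O₃(G) = 1`. -/
theorem case_two (hord : ∀ g : G, orderOf g = 1 ∨ orderOf g = 2 ∨ orderOf g = 3) {m n : ℕ}
    (hcard : Nat.card G = 2 ^ m * 3 ^ n) (h3 : 3 ∣ Nat.card G)
    (hF : pCore 2 G ≠ ⊥) (hC : centralizer (pCore 2 G : Set G) ≤ pCore 2 G) :
    ∃ N : Subgroup G, N.Normal ∧ Cfsg.IsElementaryAbelian 2 N ∧ N.index = 3 := by
  haveI : Fact (Nat.Prime 2) := ⟨Nat.prime_two⟩
  haveI : Fact (Nat.Prime 3) := ⟨Nat.prime_three⟩
  set F := pCore 2 G with hFdef
  have hF2 : IsPGroup 2 F := Cfsg.Agent.Lib.Core.pCore_isPGroup 2 G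
  have hsqF : ∀ x ∈ F, x ^ 2 = 1 := fun x hx => sq_of_p2 hord hF2 hx
  haveI hab : IsMulCommutative F := isMulCommutative_of_sq hsqF
  have hN : F.Normal := inferInstance
  -- at most one factor 3
  have hn : ¬ 3 ^ 2 ∣ Nat.card G := by
    intro hd
    obtain ⟨E, hE⟩ := Sylow.exists_subgroup_card_pow_prime 3 hd
    have hE3 : IsPGroup 3 E := IsPGroup.of_card hE
    have hnorm : E ≤ normalizer (F : Set G) := by
      intro x _
      rw [Subgroup.mem_normalizer_iff]
      intro y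
      refine ⟨fun h => hN.conj_mem y h x, fun h => ?_⟩
      have := hN.conj_mem _ h x⁻¹
      simpa [mul_assoc] using this
    refine Cfsg.Agent.Lib.Hall.false_of_fpf_elementary E F hF hnorm ?_ le_rfl Nat.prime_three hE
      (fun x hx => cu_of_p3 hord hE3 hx)
    intro a ha ha1
    rw [eq_bot_iff]
    rintro v ⟨hv, hvc⟩
    rw [Subgroup.mem_bot]
    by_contra hv1
    have hoa : orderOf a = 3 := orderOf_eq_prime (cu_of_p3 hord hE3 ha) ha1
    have hov : orderOf v = 2 := orderOf_eq_prime (hsqF v hv) hv1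
    have hcomm : Commute v a := (Subgroup.mem_centralizer_singleton_iff.mp hvc)
    exact false_of_six hord hcomm hov hoa
  have hn1 : n = 1 := by
    rw [hcard] at h3 hn
    have h0 : n ≠ 0 := by
      rintro rfl
      rw [pow_zero, mul_one] at h3
      have := Nat.Prime.dvd_of_dvd_pow Nat.prime_three h3
      omega
    by_contra hne
    apply hn
    exact (pow_dvd_pow 3 (by omega)).trans (Dvd.intro_left _ rfl)
  subst hn1
  -- a Sylow `2`-subgroup
  obtain ⟨T⟩ : Nonempty (Sylow 2 G) := inferInstance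
  have hFT : F ≤ T := Cfsg.Agent.Lib.Core.pCore_le_sylow T
  have hTF : (T : Subgroup G) ≤ F := by
    intro t ht
    apply hC
    rw [Subgroup.mem_centralizer_iff]
    intro f hf
    have hsqT : ∀ x ∈ (T : Subgroup G), x ^ 2 = 1 := fun x hx => sq_of_p2 hord T.isPGroup' hx
    haveI := isMulCommutative_of_sq hsqT
    have h1 := mul_comm' (⟨f, hFT hf⟩ : (T : Subgroup G)) ⟨t, ht⟩
    exact congrArg Subtype.val h1
  have hFeq : F = T := le_antisymm hFT hTF
  have hcF : Nat.card F = 2 ^ m := by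
    rw [hFeq, Sylow.card_eq_multiplicity, hcard, factorization_left]
  refine ⟨F, hN, ⟨hab, hsqF⟩, ?_⟩
  have h1 := Subgroup.card_mul_index F
  rw [hcF, hcard, pow_one] at h1
  exact Nat.eq_of_mul_eq_mul_left (by positivity) h1

/-- The case `O₂(G) = 1`. -/
theorem case_three (hord : ∀ g : G, orderOf g = 1 ∨ orderOf g = 2 ∨ orderOf g = 3) {m n : ℕ}
    (hcard : Nat.card G = 2 ^ m * 3 ^ n) {t : G} (ht : orderOf t = 2)
    (hF : pCore 3 G ≠ ⊥) :
    ∃ N : Subgroup G, N.Normal ∧ Cfsg.IsElementaryAbelian 3 N ∧ N.index = 2 := by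
  haveI : Fact (Nat.Prime 2) := ⟨Nat.prime_two⟩
  haveI : Fact (Nat.Prime 3) := ⟨Nat.prime_three⟩
  set F := pCore 3 G with hFdef
  have hF3 : IsPGroup 3 F := Cfsg.Agent.Lib.Core.pCore_isPGroup 3 G
  have hcuF : ∀ x ∈ F, x ^ 3 = 1 := fun x hx => cu_of_p3 hord hF3 hx
  have hN : F.Normal := inferInstance
  have hfix : ∀ {s : G}, orderOf s = 2 → ∀ v ∈ F, Commute v s → v = 1 := by
    intro s hs v hv hc
    by_contra hv1
    have hov : orderOf v = 3 := orderOf_eq_prime (hcuF v hv) hv1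
    exact false_of_six hord hc.symm hs hov
  -- the involution inverts `F`
  have hinv : ∀ v ∈ F, t * v * t⁻¹ = v⁻¹ := by
    let φ : F → F := fun f => ⟨(f : G)⁻¹ * (t * f * t⁻¹), F.mul_mem (F.inv_mem f.2) (hN.conj_mem _ f.2 t)⟩
    have hφ : Function.Injective φ := by
      intro f g hfg
      have h1 : (f : G)⁻¹ * (t * f * t⁻¹) = (g : G)⁻¹ * (t * g * t⁻¹) := congrArg Subtype.val hfg
      have h2 : (g : G) * (f : G)⁻¹ * t = t * ((g : G) * (f : G)⁻¹) := by
        have h3 : (f : G)⁻¹ * t * f = (g : G)⁻¹ * t * g := by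
          have h := congrArg (· * t) h1
          simpa [mul_assoc] using h
        calc (g : G) * (f : G)⁻¹ * t = g * ((f : G)⁻¹ * t * f) * (f : G)⁻¹ := by group
          _ = g * ((g : G)⁻¹ * t * g) * (f : G)⁻¹ := by rw [h3]
          _ = t * ((g : G) * (f : G)⁻¹) := by group
      have h4 := hfix ht _ (F.mul_mem g.2 (F.inv_mem f.2)) h2
      apply Subtype.ext
      rw [mul_inv_eq_one] at h4
      exact h4.symm
    have hs := Finite.injective_iff_surjective.mp hφ
    intro v hv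
    obtain ⟨f, hf⟩ := hs ⟨v, hv⟩
    have h1 : (f : G)⁻¹ * (t * f * t⁻¹) = v := congrArg Subtype.val hf
    have ht2 : t * t = 1 := by rw [← pow_two, ← ht]; exact pow_orderOf_eq_one t
    have ht3 : t⁻¹ = t := inv_eq_of_mul_eq_one_left ht2
    rw [← h1, ht3]
    have e1 : t * ((f : G)⁻¹ * (t * f * t)) * t = t * (f : G)⁻¹ * t * f * (t * t) := by
      simp only [mul_assoc]
    have e2 : ((f : G)⁻¹ * (t * f * t))⁻¹ = t⁻¹ * (f : G)⁻¹ * t⁻¹ * f := by group
    rw [e1, e2, ht2, ht3, mul_one]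
  haveI hab : IsMulCommutative F := by
    refine ⟨⟨fun a b => ?_⟩⟩
    apply Subtype.ext
    show (a : G) * b = b * a
    have h1 := hinv _ (F.mul_mem a.2 b.2)
    have h2 := hinv _ a.2
    have h3 := hinv _ b.2
    have h4 : t * ((a : G) * b) * t⁻¹ = (t * a * t⁻¹) * (t * b * t⁻¹) := by group
    rw [h4, h2, h3, mul_inv_rev] at h1
    have h5 : ((a : G)⁻¹ * (b : G)⁻¹)⁻¹ = ((b : G)⁻¹ * (a : G)⁻¹)⁻¹ := by rw [h1]
    exact (by simpa using h5 : (b : G) * a = a * b).symm
  have hm : ¬ 2 ^ 2 ∣ Nat.card G := by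
    intro hd
    obtain ⟨E, hE⟩ := Sylow.exists_subgroup_card_pow_prime 2 hd
    have hE2 : IsPGroup 2 E := IsPGroup.of_card hE
    have hnorm : E ≤ normalizer (F : Set G) := by
      intro x _
      rw [Subgroup.mem_normalizer_iff]
      intro y
      refine ⟨fun h => hN.conj_mem y h x, fun h => ?_⟩
      have := hN.conj_mem _ h x⁻¹
      simpa [mul_assoc] using this
    refine Cfsg.Agent.Lib.Hall.false_of_fpf_elementary E F hF hnorm ?_ le_rfl Nat.prime_two hE
      (fun x hx => sq_of_p2 hord hE2 hx)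
    intro a ha ha1
    rw [eq_bot_iff]
    rintro v ⟨hv, hvc⟩
    rw [Subgroup.mem_bot]
    have hoa : orderOf a = 2 := orderOf_eq_prime (sq_of_p2 hord hE2 ha) ha1
    exact hfix hoa v hv (Subgroup.mem_centralizer_singleton_iff.mp hvc)
  have h2d : 2 ∣ Nat.card G := by
    rw [← ht]; exact orderOf_dvd_natCard t
  have hm1 : m = 1 := by
    rw [hcard] at h2d hm
    have h0 : m ≠ 0 := by
      rintro rfl
      rw [pow_zero, one_mul] at h2d
      have := Nat.Prime.dvd_of_dvd_pow Nat.prime_two h2d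
      omega
    by_contra hne
    apply hm
    exact (pow_dvd_pow 2 (by omega)).trans (Dvd.intro _ rfl)
  subst hm1
  obtain ⟨P⟩ : Nonempty (Sylow 3 G) := inferInstance
  have hcP : Nat.card P = 3 ^ n := by
    rw [Sylow.card_eq_multiplicity, hcard, factorization_right]
  have hiP : (P : Subgroup G).index = 2 := by
    have h1 := Subgroup.card_mul_index (P : Subgroup G)
    rw [hcP, hcard, pow_one, mul_comm 2] at h1
    exact Nat.eq_of_mul_eq_mul_left (by positivity) h1
  have hPn : (P : Subgroup G).Normal := Subgroup.normal_of_index_eq_two hiP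
  have hPF : (P : Subgroup G) ≤ F := Cfsg.Agent.Lib.Core.le_pCore hPn P.isPGroup'
  have hFP : F ≤ P := Cfsg.Agent.Lib.Core.pCore_le_sylow P
  have hFeq : F = P := le_antisymm hFP hPF
  refine ⟨F, hN, ⟨hab, hcuF⟩, ?_⟩
  rw [hFeq]; exact hiP

/-- A finite group whose set of element orders is exactly {1, 2, 3} has either a normal elementary abelian 3-subgroup of index 2 or a normal elementary abelian 2-subgroup of index 3. -/
theorem result {G : Type*} [Group G] [Finite G] (h : Set.range (orderOf : G → ℕ) = {k : ℕ | 1 ≤ k ∧ k ≤ 3}) :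
    (∃ N : Subgroup G, N.Normal ∧ Cfsg.IsElementaryAbelian 3 N ∧ N.index = 2) ∨
      (∃ N : Subgroup G, N.Normal ∧ Cfsg.IsElementaryAbelian 2 N ∧ N.index = 3) := by
  haveI : Fact (Nat.Prime 2) := ⟨Nat.prime_two⟩
  haveI : Fact (Nat.Prime 3) := ⟨Nat.prime_three⟩
  have hord : ∀ g : G, orderOf g = 1 ∨ orderOf g = 2 ∨ orderOf g = 3 := by
    intro g
    have h1 : orderOf g ∈ {k : ℕ | 1 ≤ k ∧ k ≤ 3} := by rw [← h]; exact ⟨g, rfl⟩
    obtain ⟨h2, h3⟩ := h1
    omega
  obtain ⟨t, ht⟩ : ∃ t : G, orderOf t = 2 := by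
    have h1 : (2 : ℕ) ∈ {k : ℕ | 1 ≤ k ∧ k ≤ 3} := ⟨by norm_num, by norm_num⟩
    rw [← h] at h1
    exact h1
  obtain ⟨u, hu⟩ : ∃ u : G, orderOf u = 3 := by
    have h1 : (3 : ℕ) ∈ {k : ℕ | 1 ≤ k ∧ k ≤ 3} := ⟨by norm_num, by norm_num⟩
    rw [← h] at h1
    exact h1
  have hprimes : ∀ p : ℕ, p.Prime → p ∣ Nat.card G → p = 2 ∨ p = 3 := by
    intro p hp hd
    haveI : Fact p.Prime := ⟨hp⟩
    obtain ⟨x, hx⟩ := exists_prime_orderOf_dvd_card' p hd
    rcases hord x with h | h | h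
    · rw [hx] at h; exact absurd h hp.one_lt.ne'
    · rw [hx] at h; exact Or.inl h
    · rw [hx] at h; exact Or.inr h
  obtain ⟨m, n, hcard⟩ := card_form (Nat.card G) Nat.card_pos.ne' hprimes
  haveI : Group.IsSolvable G := Cfsg.Agent.S0144.result 2 3 m n Nat.prime_two Nat.prime_three hcard
  have h3d : 3 ∣ Nat.card G := by
    rw [← hu]; exact orderOf_dvd_natCard u
  have hO2 : IsPGroup 2 (pCore 2 G) := Cfsg.Agent.Lib.Core.pCore_isPGroup 2 G
  have hO3 : IsPGroup 3 (pCore 3 G) := Cfsg.Agent.Lib.Core.pCore_isPGroup 3 G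
  have hor : pCore 2 G = ⊥ ∨ pCore 3 G = ⊥ := by
    by_contra hcon
    push Not at hcon
    obtain ⟨x, hx, hxo⟩ := exists_order_of_ne_bot hO2 hcon.1
    obtain ⟨y, hy, hyo⟩ := exists_order_of_ne_bot hO3 hcon.2
    have hdis : Disjoint (pCore 2 G) (pCore 3 G) :=
      IsPGroup.disjoint_of_ne 2 3 (by norm_num) _ _ hO2 hO3
    have hc : Commute x y := Subgroup.commute_of_normal_of_disjoint _ _ inferInstance inferInstance hdis x y hx hy
    exact false_of_six hord hc hxo hyo
  rcases hor with h2 | h3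
  · -- `O₂(G) = 1`
    left
    apply case_three hord hcard ht
    intro h3
    have hp : pPrimeCore 3 G = ⊥ := by
      rw [eq_bot_iff]
      refine sSup_le ?_
      rintro N ⟨hN, hNc⟩
      have h1 : N ≤ pCore 2 G := by
        apply Cfsg.Agent.Lib.Core.le_pCore hN
        have hd : Nat.card N ∣ 2 ^ m * 3 ^ n := by rw [← hcard]; exact Subgroup.card_subgroup_dvd_card N
        have hc2 : Nat.Coprime (Nat.card N) (3 ^ n) := Nat.Coprime.pow_right _ hNc
        have hd2 : Nat.card N ∣ 2 ^ m := hc2.dvd_of_dvd_mul_right hd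
        obtain ⟨k, -, hk⟩ := (Nat.dvd_prime_pow Nat.prime_two).mp hd2
        exact IsPGroup.of_card hk
      rw [h2] at h1
      exact h1
    have := Cfsg.Agent.Lib.InvolChar.centralizer_pCore_le_of_solvable (p := 3) hp
    rw [h3] at this
    have h5 : t ∈ (⊥ : Subgroup G) := this (by
      rw [Subgroup.mem_centralizer_iff]
      intro x hx
      have : x = 1 := hx
      simp [this])
    have h6 : t = 1 := h5
    rw [h6, orderOf_one] at ht
    omega
  · -- `O₃(G) = 1`
    right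
    have hp : pPrimeCore 2 G = ⊥ := by
      rw [eq_bot_iff]
      refine sSup_le ?_
      rintro N ⟨hN, hNc⟩
      have h1 : N ≤ pCore 3 G := by
        apply Cfsg.Agent.Lib.Core.le_pCore hN
        have hd : Nat.card N ∣ 2 ^ m * 3 ^ n := by rw [← hcard]; exact Subgroup.card_subgroup_dvd_card N
        have hc2 : Nat.Coprime (Nat.card N) (2 ^ m) := Nat.Coprime.pow_right _ hNc
        have hd2 : Nat.card N ∣ 3 ^ n := hc2.dvd_of_dvd_mul_left hd
        obtain ⟨k, -, hk⟩ := (Nat.dvd_prime_pow Nat.prime_three).mp hd2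
        exact IsPGroup.of_card hk
      rw [h3] at h1
      exact h1
    have hC := Cfsg.Agent.Lib.InvolChar.centralizer_pCore_le_of_solvable (p := 2) hp
    apply case_two hord hcard h3d _ hC
    intro h2
    rw [h2] at hC
    have h5 : t ∈ (⊥ : Subgroup G) := hC (by
      rw [Subgroup.mem_centralizer_iff]
      intro x hx
      have : x = 1 := hx
      simp [this])
    have h6 : t = 1 := h5
    rw [h6, orderOf_one] at ht
    omega

end Cfsg.Agent.S4005
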