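import Cfsg.Statements.S4200
import Mathlib
import Cfsg.Agent.Lib.ClassSizes.ClassNumber

set_option autoImplicit false
open Cfsg

namespace Cfsg.Agent.S4200

/-- Let Y be a subgroup of the finite group X, of index m. Then the numbers of conjugacy classes satisfy k(Y) ≤ m·k(X) and k(X) ≤ m·k(Y), and the second inequality is strict unless Y is normal in X. -/
theorem result {X : Type*} [Group X] [Finite X] (Y : Subgroup X) : Nat.card (ConjClasses Y) ≤ Y.index * Nat.card (ConjClasses X) ∧ Nat.card (ConjClasses X) ≤ Y.index * Nat.card (ConjClasses Y) ∧ (¬ Y.Normal → Nat.card (ConjClasses X) < Y.index * Nat.card (ConjClasses Y)) := by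
  exact Cfsg.Agent.Lib.ClassSizes.card_conjClasses_subgroup Y

end Cfsg.Agent.S4200
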