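import Cfsg.Statements.S4204
import Mathlib

set_option autoImplicit false
open Cfsg

namespace Cfsg.Agent.S4204

/-- If `H` and `K` are normal subgroups of a finite group with `H` nilpotent of class at most `c` and `K` nilpotent of class at most `d` (the terms with index `c`, respectively `d`, of their lower central series are trivial, indices starting at `0`), then `HK` is nilpotent of class at most `c + d`. -/
theorem result {G : Type*} [Group G] [Finite G] (H K : Subgroup G) [H.Normal] [K.Normal] (c d : ℕ) (hH : H.lowerCentralSeries c = ⊥) (hK : K.lowerCentralSeries d = ⊥) : (H ⊔ K).lowerCentralSeries (c + d) = ⊥ := by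
  classical
  -- series with a shifted index
  let A : ℕ → Subgroup G := fun a => Nat.casesOn a ⊤ (fun a => H.lowerCentralSeries a)
  let B : ℕ → Subgroup G := fun b => Nat.casesOn b ⊤ (fun b => K.lowerCentralSeries b)
  have hAs : ∀ a, A (a + 1) = H.lowerCentralSeries a := fun a => rfl
  have hBs : ∀ b, B (b + 1) = K.lowerCentralSeries b := fun b => rfl
  have hN : ∀ (S : Subgroup G) [S.Normal] (n : ℕ), (S.lowerCentralSeries n).Normal := by
    intro S _ n
    induction n with
    | zero => simpa using inferInstanceAs S.Normal
    | succ n ih =>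
      rw [Subgroup.lowerCentralSeries_succ]
      infer_instance
  have hAN : ∀ a, (A a).Normal := by
    intro a
    cases a with
    | zero => exact inferInstanceAs (⊤ : Subgroup G).Normal
    | succ a => exact hN H a
  have hBN : ∀ b, (B b).Normal := by
    intro b
    cases b with
    | zero => exact inferInstanceAs (⊤ : Subgroup G).Normal
    | succ b => exact hN K b
  have hAH : ∀ a, ⁅A a, H⁆ ≤ A (a + 1) := by
    intro a
    cases a with
    | zero => exact Subgroup.commutator_le_right _ _
    | succ a => exact le_of_eq rfl
  have hBK : ∀ b, ⁅B b, K⁆ ≤ B (b + 1) := by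
    intro b
    cases b with
    | zero => exact Subgroup.commutator_le_right _ _
    | succ b => exact le_of_eq rfl
  have hAK : ∀ a, ⁅A a, K⁆ ≤ A a := fun a => by
    haveI := hAN a
    exact Subgroup.commutator_le_left _ _
  have hBH : ∀ b, ⁅B b, H⁆ ≤ B b := fun b => by
    haveI := hBN b
    exact Subgroup.commutator_le_left _ _
  let L : ℕ → ℕ → Subgroup G := fun a b => A a ⊓ B b
  have hLH : ∀ a b, ⁅L a b, H⁆ ≤ L (a + 1) b := fun a b =>
    le_inf ((Subgroup.commutator_mono inf_le_left le_rfl).trans (hAH a))
      ((Subgroup.commutator_mono inf_le_right le_rfl).trans (hBH b))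
  have hLK : ∀ a b, ⁅L a b, K⁆ ≤ L a (b + 1) := fun a b =>
    le_inf ((Subgroup.commutator_mono inf_le_left le_rfl).trans (hAK a))
      ((Subgroup.commutator_mono inf_le_right le_rfl).trans (hBK b))
  let W : ℕ → Subgroup G := fun n => ⨆ (p : ℕ × ℕ) (_ : p.1 + p.2 = n), L p.1 p.2
  have hLW : ∀ a b n, a + b = n → L a b ≤ W n := fun a b n h =>
    le_iSup₂_of_le (a, b) h le_rfl
  have hWN : ∀ n, (W n).Normal := by
    intro n
    have : ∀ p : ℕ × ℕ, (L p.1 p.2).Normal := fun p => by
      haveI := hAN p.1
      haveI := hBN p.2
      exact Subgroup.normal_inf_normal _ _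
    refine ⟨fun x hx g => ?_⟩
    have h1 : W n ≤ (W n).normalCore := by
      refine iSup₂_le fun p hp => ?_
      exact (Subgroup.normal_le_normalCore (hN := this p)).mpr (hLW _ _ _ hp)
    have h2 := h1 hx
    exact (Subgroup.normalCore_le _) ((Subgroup.normalCore_normal (W n)).conj_mem x h2 g)
  -- the key inclusion
  have hkey : ∀ n, (H ⊔ K).lowerCentralSeries n ≤ W (n + 1) := by
    intro n
    induction n with
    | zero =>
      rw [Subgroup.lowerCentralSeries_zero]
      refine sup_le ?_ ?_
      · refine le_trans ?_ (hLW 1 0 1 rfl)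
        exact le_inf (le_of_eq rfl) le_top
      · refine le_trans ?_ (hLW 0 1 1 rfl)
        exact le_inf le_top (le_of_eq rfl)
    | succ n ih =>
      rw [Subgroup.lowerCentralSeries_succ]
      haveI := hWN (n + 2)
      let π := QuotientGroup.mk' (W (n + 2))
      have hker : ∀ T : Subgroup G, T.map π = ⊥ → T ≤ W (n + 2) := by
        intro T hT
        have := (Subgroup.map_eq_bot_iff T).mp hT
        simpa [π] using this
      refine hker _ ?_
      rw [Subgroup.map_commutator, Subgroup.commutator_eq_bot_iff_le_centralizer]
      have h1 : (W (n + 1)).map π ≤ Subgroup.centralizer (((H ⊔ K).map π : Subgroup _) : Set _) := by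
        rw [Subgroup.map_iSup]
        refine iSup_le fun p => ?_
        rw [Subgroup.map_iSup]
        refine iSup_le fun hp => ?_
        rw [← Subgroup.commutator_eq_bot_iff_le_centralizer, Subgroup.map_sup,
          Subgroup.commutator_comm, ]
        have h2 : ((L p.1 p.2).map π : Subgroup _) ≤
            Subgroup.centralizer ((H.map π ⊔ K.map π : Subgroup _) : Set _) := by
          rw [Subgroup.le_centralizer_iff, sup_le_iff]
          constructor
          · rw [← Subgroup.le_centralizer_iff, ← Subgroup.commutator_eq_bot_iff_le_centralizer,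
              ← Subgroup.map_commutator, Subgroup.map_eq_bot_iff]
            have := (hLH p.1 p.2).trans (hLW (p.1 + 1) p.2 (n + 2) (by omega))
            simpa [π] using this
          · rw [← Subgroup.le_centralizer_iff, ← Subgroup.commutator_eq_bot_iff_le_centralizer,
              ← Subgroup.map_commutator, Subgroup.map_eq_bot_iff]
            have := (hLK p.1 p.2).trans (hLW p.1 (p.2 + 1) (n + 2) (by omega))
            simpa [π] using this
        rw [Subgroup.commutator_comm, Subgroup.commutator_eq_bot_iff_le_centralizer]
        exact h2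
      exact (Subgroup.map_mono ih).trans h1
  rw [eq_bot_iff]
  refine (hkey (c + d)).trans (iSup₂_le fun p hp => ?_)
  by_cases h : c + 1 ≤ p.1
  · obtain ⟨k, hk⟩ := Nat.exists_eq_add_of_le h
    have : A p.1 = ⊥ := by
      rw [hk, show c + 1 + k = (c + k) + 1 by omega, hAs, eq_bot_iff, ← hH]
      exact Subgroup.lowerCentralSeries_antitone H (by omega)
    exact inf_le_left.trans (le_of_eq this)
  · have h2 : d + 1 ≤ p.2 := by omega
    obtain ⟨k, hk⟩ := Nat.exists_eq_add_of_le h2
    have : B p.2 = ⊥ := by
      rw [hk, show d + 1 + k = (d + k) + 1 by omega, hBs, eq_bot_iff, ← hK]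
      exact Subgroup.lowerCentralSeries_antitone K (by omega)
    exact inf_le_right.trans (le_of_eq this)

end Cfsg.Agent.S4204
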