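import Cfsg.Statements.S4205
import Mathlib

set_option autoImplicit false
open Cfsg

namespace Cfsg.Agent.S4205

/-- In a finite group whose upper central series reaches the whole group at step `c` (nilpotent of class at most `c`), starting from any subgroup and taking normalizers `c` times reaches the whole group. -/
theorem result {G : Type*} [Group G] [Finite G] (c : ℕ) (hG : Subgroup.upperCentralSeries G c = ⊤) (H : Subgroup G) : (fun K : Subgroup G => Subgroup.normalizer (K : Set G))^[c] H = ⊤ := by
  have key : ∀ n : ℕ, Subgroup.upperCentralSeries G n ≤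
      (fun K : Subgroup G => Subgroup.normalizer (K : Set G))^[n] H := by
    intro n
    induction n with
    | zero => simp
    | succ n ih =>
      rw [Function.iterate_succ_apply']
      intro z hz
      set L := (fun K : Subgroup G => Subgroup.normalizer (K : Set G))^[n] H with hL
      change z ∈ Subgroup.normalizer (L : Set G)
      rw [Subgroup.mem_upperCentralSeries_succ_iff] at hz
      rw [Subgroup.mem_normalizer_iff]
      have hzl : ∀ w : G, (∀ y, w * y * w⁻¹ * y⁻¹ ∈ Subgroup.upperCentralSeries G n) →
          ∀ l ∈ L, w * l * w⁻¹ ∈ L := by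
        intro w hw l hl
        have h1 := ih (hw l)
        have h2 : w * l * w⁻¹ = (w * l * w⁻¹ * l⁻¹) * l := by group
        rw [h2]
        exact L.mul_mem h1 hl
      have hz' : ∀ y, z⁻¹ * y * z⁻¹⁻¹ * y⁻¹ ∈ Subgroup.upperCentralSeries G n := by
        intro y
        have h3 : z⁻¹ ∈ Subgroup.upperCentralSeries G (n + 1) :=
          Subgroup.inv_mem _ (Subgroup.mem_upperCentralSeries_succ_iff.mpr hz)
        exact Subgroup.mem_upperCentralSeries_succ_iff.mp h3 y
      intro x
      constructor
      · exact hzl z hz x
      · intro hx
        have := hzl z⁻¹ hz' _ hx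
        have h5 : z⁻¹ * (z * x * z⁻¹) * z⁻¹⁻¹ = x := by group
        rw [h5] at this
        exact this
  have := key c
  rw [hG] at this
  exact top_le_iff.mp this

end Cfsg.Agent.S4205
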