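import Cfsg.Statements.S4211
import Mathlib
import Cfsg.Agent.Lib.ClassSizes.Dedekind

set_option autoImplicit false
open Cfsg

namespace Cfsg.Agent.S4211

/-- A finite non-abelian group in which every subgroup is normal is the internal direct product of a subgroup isomorphic to the quaternion group of order `8`, an elementary abelian `2`-subgroup and an abelian subgroup of odd order. -/
theorem result {G : Type*} [Group G] [Finite G] (hna : ¬ IsMulCommutative G) (hn : ∀ H : Subgroup G, H.Normal) : ∃ Q E A : Subgroup G, Nonempty (Q ≃* QuaternionGroup 2) ∧ Cfsg.IsElementaryAbelian 2 E ∧ IsMulCommutative A ∧ Odd (Nat.card A) ∧ E ⊓ A = ⊥ ∧ Q ⊓ (E ⊔ A) = ⊥ ∧ Q ⊔ (E ⊔ A) = ⊤ := by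
  obtain ⟨Q, E, A, h1, ⟨h2, h3⟩, h4, h5, h6, h7, h8⟩ := Cfsg.Agent.Lib.ClassSizes.Dedekind.dedekind_baer hna hn
  exact ⟨Q, E, A, h1, ⟨h2, h3⟩, h4, h5, h6, h7, h8⟩

end Cfsg.Agent.S4211
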