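import Cfsg.Statements.S4218
import Mathlib
import Cfsg.Agent.Lib.Core.Frattini
import Cfsg.Agent.Lib.Transfer.Frat
import Cfsg.Agent.Lib.PSolv.Basic
import Cfsg.Agent.Lib.Hall.CoprimeLemmas
import Cfsg.Agent.Lib.Core.Basic
import Cfsg.Agent.Lib.Techniques.Constrained

set_option autoImplicit false
open Cfsg

namespace Cfsg.Agent.S4218

/-- Let `G` be a finite `p`-solvable group, `N₀ = O_{p'}(G)`, `P₁ = O_{p',p}(G)`, and let `F ≤ P₁` be the preimage of the Frattini subgroup of `P₁/N₀`. Then an element `g` of `G` induces the identity on `P₁/F` by conjugation (that is, `g x g⁻¹ x⁻¹ ∈ F` for all `x ∈ P₁`) if and only if `g ∈ P₁`: the group `G/P₁` acts faithfully on `P₁/F`. -/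
theorem result {G : Type*} [Group G] [Finite G] {p : ℕ} [Fact p.Prime] (hG : Cfsg.IsPSolvable p G) (g : G) : (∀ x ∈ Cfsg.pPrimePCore p G, g * x * g⁻¹ * x⁻¹ ∈ ((frattini (↥(Cfsg.pPrimePCore p G) ⧸ (Cfsg.pPrimeCore p G).subgroupOf (Cfsg.pPrimePCore p G))).comap (QuotientGroup.mk' ((Cfsg.pPrimeCore p G).subgroupOf (Cfsg.pPrimePCore p G)))).map (Cfsg.pPrimePCore p G).subtype) ↔ g ∈ Cfsg.pPrimePCore p G := by
  classical
  set N₀ : Subgroup G := Cfsg.pPrimeCore p G with hN₀
  set P₁ : Subgroup G := Cfsg.pPrimePCore p G with hP₁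
  haveI hP₁n : P₁.Normal := Cfsg.Agent.Lib.Techniques.pPrimePCore_normal p
  haveI hN₀n : N₀.Normal := Cfsg.pPrimeCore_normal p G
  let π : G →* G ⧸ N₀ := QuotientGroup.mk' N₀
  have hπ : Function.Surjective π := QuotientGroup.mk'_surjective N₀
  set T : Subgroup (G ⧸ N₀) := Cfsg.pCore p (G ⧸ N₀) with hT
  haveI hTn : T.Normal := Cfsg.pCore_normal p _
  have hTp : IsPGroup p T := Cfsg.Agent.Lib.Core.pCore_isPGroup p _
  have hmemP : ∀ x, x ∈ P₁ ↔ π x ∈ T := fun x => Iff.rfl
  let N' : Subgroup P₁ := N₀.subgroupOf P₁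
  haveI : N'.Normal := Subgroup.Normal.subgroupOf hN₀n P₁
  -- the isomorphism onto T
  let θ₀ : P₁ →* T := (π.comp P₁.subtype).codRestrict T (fun x => x.2)
  have hθ₀ : ∀ x : P₁, ((θ₀ x : T) : G ⧸ N₀) = π x := fun x => rfl
  have hker : ∀ x : P₁, x ∈ N' ↔ θ₀ x = 1 := by
    intro x
    constructor
    · intro hx
      apply Subtype.ext
      rw [hθ₀]
      exact (QuotientGroup.eq_one_iff _).mpr hx
    · intro hx
      have h1 : π x = 1 := by
        rw [← hθ₀, hx]
        rfl
      exact (QuotientGroup.eq_one_iff (x : G)).mp h1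
  let θ : P₁ ⧸ N' →* T := QuotientGroup.lift N' θ₀ (fun x hx => (hker x).mp hx)
  have hθmk : ∀ x : P₁, θ (QuotientGroup.mk' N' x) = θ₀ x := fun x => rfl
  have hθs : Function.Surjective θ := by
    rintro ⟨y, hy⟩
    obtain ⟨x, rfl⟩ := hπ y
    exact ⟨QuotientGroup.mk' N' ⟨x, hy⟩, rfl⟩
  have hθi : Function.Injective θ := by
    rw [injective_iff_map_eq_one]
    intro a ha
    obtain ⟨x, rfl⟩ := QuotientGroup.mk'_surjective N' a
    rw [hθmk] at ha
    exact (QuotientGroup.eq_one_iff x).mpr ((hker x).mpr ha)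
  have hAp : IsPGroup p (P₁ ⧸ N') := hTp.of_injective θ hθi
  constructor
  · intro h
    -- the image of the Frattini subgroup
    let Fb : Subgroup (G ⧸ N₀) := (frattini T).map T.subtype
    have h1 : ∀ x ∈ P₁, π (g * x * g⁻¹ * x⁻¹) ∈ Fb := by
      intro x hx
      obtain ⟨z, hz, hzv⟩ := h x hx
      have h2 : θ (QuotientGroup.mk' N' z) ∈ frattini T :=
        Cfsg.Agent.Lib.Core.map_frattini_le_of_surjective θ hθs (Subgroup.mem_map_of_mem θ hz)
      rw [hθmk] at h2
      rw [← hzv]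
      exact ⟨θ₀ z, h2, rfl⟩
    haveI hFbn : Fb.Normal := inferInstanceAs ((frattini T).map T.subtype).Normal
    let ρ : (G ⧸ N₀) →* (G ⧸ N₀) ⧸ Fb := QuotientGroup.mk' Fb
    let D : Subgroup (G ⧸ N₀) := (Subgroup.centralizer ((T.map ρ : Subgroup _) : Set _)).comap ρ
    have hDmem : ∀ y, y ∈ D ↔ ∀ t ∈ T, y * t * y⁻¹ * t⁻¹ ∈ Fb := by
      intro y
      constructor
      · intro hy t ht
        have h2 := (Subgroup.mem_centralizer_iff.mp hy) (ρ t) (Subgroup.mem_map_of_mem ρ ht)
        rw [← QuotientGroup.eq_one_iff]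
        change ρ (y * t * y⁻¹ * t⁻¹) = 1
        rw [map_mul, map_mul, map_mul, map_inv, map_inv, ← h2]
        group
      · intro hy
        apply Subgroup.mem_centralizer_iff.mpr
        rintro _ ⟨t, ht, rfl⟩
        have h2 := hy t ht
        rw [← QuotientGroup.eq_one_iff] at h2
        change ρ (y * t * y⁻¹ * t⁻¹) = 1 at h2
        rw [map_mul, map_mul, map_mul, map_inv, map_inv] at h2
        have h3 : ρ t * ρ y = (ρ y * ρ t * (ρ y)⁻¹ * (ρ t)⁻¹)⁻¹ * (ρ y * ρ t) := by group
        rw [h3, h2]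
        simp
    have hDn : D.Normal := by
      refine ⟨fun y hy a => ?_⟩
      rw [hDmem] at hy ⊢
      intro t ht
      have h2 := hy (a⁻¹ * t * a) (by simpa using hTn.conj_mem t ht a⁻¹)
      have h3 := hFbn.conj_mem _ h2 a
      have h4 : a * (y * (a⁻¹ * t * a) * y⁻¹ * (a⁻¹ * t * a)⁻¹) * a⁻¹ =
          a * y * a⁻¹ * t * (a * y * a⁻¹)⁻¹ * t⁻¹ := by group
      rwa [h4] at h3
    have hDp : IsPGroup p D := by
      rw [IsPGroup.iff_orderOf]
      rintro ⟨y, hy⟩
      have hne : orderOf y ≠ 0 := (orderOf_pos y).ne'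
      obtain ⟨a, m, hm, hnm⟩ := Nat.exists_eq_pow_mul_and_not_dvd hne p (Fact.out : p.Prime).ne_one
      let u : G ⧸ N₀ := y ^ (p ^ a)
      have huD : u ∈ D := D.pow_mem hy _
      have hum : u ^ m = 1 := by
        rw [← pow_mul, ← hnm, pow_orderOf_eq_one]
      have hcop : (orderOf u).Coprime p := by
        have h2 : orderOf u ∣ m := orderOf_dvd_of_pow_eq_one hum
        exact Nat.Coprime.coprime_dvd_left h2 (((Fact.out : p.Prime).coprime_iff_not_dvd.mpr hm).symm)
      have hzT : Subgroup.zpowers u ≤ Subgroup.centralizer (T : Set (G ⧸ N₀)) := by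
        apply Cfsg.Agent.Lib.Hall.le_centralizer_of_frattini (Subgroup.zpowers u) T
        · rw [Subgroup.normalizer_eq_top]
          exact le_top
        · rw [Nat.card_zpowers]
          obtain ⟨n, hn⟩ := IsPGroup.iff_card.mp (hTp.to_subgroup (frattini T))
          rw [hn]
          exact hcop.pow_right n
        · intro w hw k hk
          have hwD : w ∈ D := (Subgroup.zpowers_le.mpr huD) hw
          exact (hDmem w).mp hwD k hk
      have hstep : Cfsg.Agent.Lib.PSolv.PStep p (G ⧸ N₀) :=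
        (Cfsg.Agent.Lib.PSolv.pStep_of_isPSolvable (Fact.out) hG).quotient _
      have hO : Cfsg.pPrimeCore p (G ⧸ N₀) = ⊥ := Cfsg.Agent.Lib.Core.pPrimeCore_quotient_eq_bot
      have hle := Cfsg.Agent.Lib.PSolv.centralizer_pCore_le hstep hO
      have huT : u ∈ T := hle (hzT (Subgroup.mem_zpowers u))
      obtain ⟨k, hk⟩ := (IsPGroup.iff_orderOf.mp hTp) ⟨u, huT⟩
      have hk' : orderOf u = p ^ k := by simpa using hk
      have hu1 : u = 1 := by
        have h2 : orderOf u = 1 := by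
          rw [hk'] at hcop ⊢
          have : (p ^ k).Coprime (p ^ k) := hcop.pow_right k
          exact Nat.coprime_self _ |>.mp this
        exact orderOf_eq_one_iff.mp h2
      refine ⟨a, ?_⟩
      have h5 : y ^ (p ^ a) = 1 := hu1
      have h6 : orderOf y ∣ p ^ a := orderOf_dvd_of_pow_eq_one h5
      have h7 := (Nat.dvd_prime_pow (Fact.out : p.Prime)).mp h6
      obtain ⟨i, hi, hi'⟩ := h7
      have h8 : orderOf y = p ^ a := by
        have hm1 : m = 1 := by
          have h9 : m ∣ p ^ a := by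
            rw [hnm] at h6
            exact dvd_of_mul_left_dvd h6
          have h10 : m.Coprime (p ^ a) := (((Fact.out : p.Prime).coprime_iff_not_dvd.mpr hm).symm).pow_right a
          exact Nat.Coprime.eq_one_of_dvd h10 h9
        rw [hnm, hm1, mul_one]
      have h11 : orderOf (⟨y, hy⟩ : D) = orderOf y := Subgroup.orderOf_mk y hy
      rw [h11, h8]
    have hDT : D ≤ T := Cfsg.Agent.Lib.Core.le_pCore hDn hDp
    have hgD : π g ∈ D := by
      rw [hDmem]
      intro t ht
      obtain ⟨x, rfl⟩ := hπ t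
      have := h1 x ht
      simpa using this
    exact hDT hgD
  · intro hg x hx
    let a : P₁ := ⟨g, hg⟩
    let b : P₁ := ⟨x, hx⟩
    let z : P₁ := a * b * a⁻¹ * b⁻¹
    have hz : QuotientGroup.mk' N' z ∈ frattini (P₁ ⧸ N') := by
      apply Cfsg.Agent.Lib.Transfer.commutator_le_frattini hAp
      have h2 : QuotientGroup.mk' N' z = QuotientGroup.mk' N' a * QuotientGroup.mk' N' b *
          (QuotientGroup.mk' N' a)⁻¹ * (QuotientGroup.mk' N' b)⁻¹ := by
        simp only [z, map_mul, map_inv]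
      rw [h2]
      exact Subgroup.commutator_mem_commutator (Subgroup.mem_top _) (Subgroup.mem_top _)
    exact ⟨z, hz, rfl⟩

end Cfsg.Agent.S4218
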