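import Cfsg.Statements.S4219
import Mathlib

set_option autoImplicit false
open Cfsg

namespace Cfsg.Agent.S4219

/-- Let a finite group `G` act `t`-fold transitively on a finite set, let `H` be the stabilizer of `t` distinct points and `P` a Sylow `p`-subgroup of `H`. Then the normalizer of `P` in `G` is `t`-fold transitive on the fixed points of `P`: any `t` distinct fixed points of `P` can be carried to any other `t` distinct fixed points of `P` by an element normalizing `P`. -/
theorem result {G : Type*} [Group G] [Finite G] {α : Type*} [Fintype α] [MulAction G α] {t : ℕ} (hG : MulAction.IsMultiplyPretransitive G α t) (x : Fin t ↪ α) {p : ℕ} [Fact p.Prime] (P : Sylow p (MulAction.stabilizer G x)) (a b : Fin t ↪ α) (ha : ∀ i, a i ∈ MulAction.fixedPoints ((P : Subgroup (MulAction.stabilizer G x)).map (MulAction.stabilizer G x).subtype) α) (hb : ∀ i, b i ∈ MulAction.fixedPoints ((P : Subgroup (MulAction.stabilizer G x)).map (MulAction.stabilizer G x).subtype) α) : ∃ g ∈ Subgroup.normalizer ((((P : Subgroup (MulAction.stabilizer G x)).map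 (MulAction.stabilizer G x).subtype) : Subgroup G) : Set G), g • a = b := by
  classical
  set P' : Subgroup G := (P : Subgroup (MulAction.stabilizer G x)).map (MulAction.stabilizer G x).subtype with hP'
  have key : ∀ a : Fin t ↪ α, (∀ i, a i ∈ MulAction.fixedPoints P' α) →
      ∃ g ∈ Subgroup.normalizer ((P' : Subgroup G) : Set G), g • a = x := by
    intro a ha
    obtain ⟨u, hu⟩ := MulAction.exists_smul_eq G a x
    have hfix : ∀ y ∈ P', y • a = a := by
      intro y hy
      ext i
      exact ha i ⟨y, hy⟩
    have hconj : ∀ y ∈ P', u * y * u⁻¹ ∈ MulAction.stabilizer G x := by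
      intro y hy
      rw [MulAction.mem_stabilizer_iff, ← hu, mul_smul, mul_smul, inv_smul_smul, hfix y hy]
    -- the conjugate, as a subgroup of the stabilizer
    let Q : Subgroup (MulAction.stabilizer G x) :=
      (P'.map (MulAut.conj u).toMonoidHom).subgroupOf (MulAction.stabilizer G x)
    have hQp : IsPGroup p Q := by
      have h1 : IsPGroup p P' := P.isPGroup'.map _
      have h2 : IsPGroup p (P'.map (MulAut.conj u).toMonoidHom) := h1.map _
      exact h2.comap_subtype
    obtain ⟨R, hR⟩ := hQp.exists_le_sylow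
    obtain ⟨h, hh⟩ := MulAction.exists_smul_eq (MulAction.stabilizer G x) R P
    refine ⟨(h : G) * u, ?_, ?_⟩
    · haveI : Finite ((P' : Subgroup G) : Set G) := inferInstance
      apply Subgroup.mem_normalizer_fintype
      intro y hy
      have h1 : u * y * u⁻¹ ∈ MulAction.stabilizer G x := hconj y hy
      have h2 : (⟨u * y * u⁻¹, h1⟩ : MulAction.stabilizer G x) ∈ R := by
        apply hR
        show u * y * u⁻¹ ∈ P'.map (MulAut.conj u).toMonoidHom
        exact ⟨y, hy, rfl⟩
      have h3 : h * ⟨u * y * u⁻¹, h1⟩ * h⁻¹ ∈ (P : Subgroup (MulAction.stabilizer G x)) := by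
        rw [← hh]
        show _ ∈ (R : Subgroup (MulAction.stabilizer G x)).map (MulAut.conj h).toMonoidHom
        exact ⟨_, h2, rfl⟩
      have h4 := Subgroup.mem_map_of_mem (MulAction.stabilizer G x).subtype h3
      have h5 : (h : G) * u * y * ((h : G) * u)⁻¹ ∈ P' := by
        convert h4 using 1
        simp [mul_assoc]
      exact h5
    · rw [mul_smul, hu]
      exact h.2
  obtain ⟨g₁, hg₁, h₁⟩ := key a ha
  obtain ⟨g₂, hg₂, h₂⟩ := key b hb
  refine ⟨g₂⁻¹ * g₁, Subgroup.mul_mem _ (Subgroup.inv_mem _ hg₂) hg₁, ?_⟩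
  rw [mul_smul, h₁, ← h₂, inv_smul_smul]

end Cfsg.Agent.S4219
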