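import Cfsg.Statements.S4220
import Mathlib
import Cfsg.Agent.Lib.Block.JT4

set_option autoImplicit false
open Cfsg

namespace Cfsg.Agent.S4220

/-- Let `n = kp + r` with `p` prime, `1 ≤ k < p` and `r > k`, excluding the case `k = 1, r = 2`. Then a permutation group of degree `n` that is `(r + 1)`-fold transitive contains the alternating group. -/
theorem result {α : Type*} [Fintype α] [DecidableEq α] (G : Subgroup (Equiv.Perm α)) {k p r : ℕ} (hp : p.Prime) (hn : Fintype.card α = k * p + r) (hk : 1 ≤ k) (hpk : k < p) (hrk : k < r) (hex : ¬ (k = 1 ∧ r = 2)) (hG : MulAction.IsMultiplyPretransitive G α (r + 1)) : alternatingGroup α ≤ G := by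
  classical
  haveI : Fact p.Prime := ⟨hp⟩

  have hr3 : 3 ≤ r := by omega
  have hkp0 : 0 < k * p := Nat.mul_pos hk hp.pos
  have hpk' : p ≤ k * p := Nat.le_mul_of_pos_left p hk
  obtain ⟨Δ, P, hΔ, hPG, S, hW⟩ := Cfsg.Agent.Lib.Block.JT.exists_setup hn hk hpk hG
  have h2 : MulAction.IsMultiplyPretransitive G α 2 :=
    MulAction.isMultiplyPretransitive_of_le (n := r + 1) (by omega)
      (by rw [Nat.card_eq_fintype_card]; omega)
  have hpr : MulAction.IsPreprimitive G α := MulAction.isPreprimitive_of_is_two_pretransitive h2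
  have hsurj : Function.Surjective (Cfsg.Agent.Lib.Block.JT.res (G := G) S) := by
    intro σ
    obtain ⟨g, hg, hgv⟩ := Cfsg.Agent.Lib.Perm.exists_perm_prescribed G (k := r + 1) (by omega) hG Δ
      (by omega) (Equiv.Perm.ofSubtype σ) (Equiv.injective _).injOn
    have hgΔ : ∀ a ∈ Δ, g a ∈ Δ := by
      intro a ha
      rw [hgv a ha, Equiv.Perm.ofSubtype_apply_of_mem _ ha]
      exact (σ ⟨a, ha⟩).2
    obtain ⟨h, hh, hfix, hnorm⟩ := hW g hg hgΔ
    refine ⟨⟨h * g, G.mul_mem hh hg, hnorm⟩, ?_⟩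
    ext x
    change h (g x.1) = (σ x).1
    rw [hgv x.1 x.2, Equiv.Perm.ofSubtype_apply_of_mem _ x.2]
    exact hfix _ (σ ⟨x.1, x.2⟩).2
  have hcomp : (Δᶜ).card = k * p := by
    rw [Finset.card_compl, hΔ]
    omega
  have hk' : (Cfsg.Agent.Lib.Block.JT.orbs P Δ).card = k := by
    have h1 := Cfsg.Agent.Lib.Block.JT.card_orbs S
    rw [hcomp] at h1
    exact (Nat.eq_of_mul_eq_mul_right hp.pos h1).symm
  by_cases hNC : Cfsg.Agent.Lib.Block.JT.NoCycle P Δ
  · -- at least two orbits
    have hk1 : k ≠ 1 := by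
      rintro rfl
      obtain ⟨O, hO⟩ := Finset.card_eq_one.1 hk'
      obtain ⟨a, ha⟩ : ∃ a, a ∉ Δ := by
        by_contra hcon
        push Not at hcon
        have : (Δᶜ).card = 0 := by
          rw [Finset.card_eq_zero, Finset.eq_empty_iff_forall_notMem]
          intro x hx
          exact (Finset.mem_compl.1 hx) (hcon x)
        omega
      obtain ⟨x, hx, hxa⟩ := S.exists_moving ha
      have : x = 1 := by
        apply hNC a ha x hx
        intro b hb
        by_cases hbΔ : b ∈ Δ
        · exact S.fix x hx b hbΔ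
        · exfalso
          apply hb
          have h3 := Cfsg.Agent.Lib.Block.JT.orb_mem_orbs (P := P) hbΔ
          have h4 := Cfsg.Agent.Lib.Block.JT.orb_mem_orbs (P := P) ha
          rw [hO, Finset.mem_singleton] at h3 h4
          rw [h4, ← h3]
          exact Cfsg.Agent.Lib.Block.JT.self_mem_orb P b
      rw [this] at hxa
      exact hxa rfl
    have hp2 : p ≠ 2 := by omega
    have hB := Cfsg.Agent.Lib.Block.JT.B_ne_bot (G := G) S hsurj (by omega) (by omega)
    have hT : (Cfsg.Agent.Lib.Block.JT.CKK (G := G) S).map (Cfsg.Agent.Lib.Block.JT.res S) ≠ ⊥ := by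
      by_cases h5 : 5 ≤ r
      · exact Cfsg.Agent.Lib.Block.JT.T_of_big S hsurj hB (by omega)
      · obtain ⟨a₁, a₂, a₃, h₁, h₂, h₃, hcov⟩ :=
          Cfsg.Agent.Lib.Block.JT.exists_cover S (by omega) (by omega)
        exact Cfsg.Agent.Lib.Block.JT.T_of_scalar S hsurj hB (by omega) (fun n hn =>
          S.scalar hNC n.2.2 hn h₁ h₂ h₃ hcov)
    refine Cfsg.Agent.Lib.Block.JT.conclude S hsurj hp2 hpr (by rw [hΔ]; exact hG) (by omega)
      (by omega) (fun hp3 hr => ?_) hT
    apply Cfsg.Agent.Lib.Block.JT.deg9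
    · have hk2 : k = 2 := by omega
      have hr' : r = 3 := by omega
      rw [hn, hk2, hp3, hr']
    · have hr' : r = 3 := by omega
      rw [hr'] at hG
      exact hG
  · exact Cfsg.Agent.Lib.Block.JT.alt_of_not_noCycle S hPG hpr (by omega) hNC

end Cfsg.Agent.S4220
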