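import Cfsg.Statements.S4222
import Mathlib

set_option autoImplicit false
open Cfsg

namespace Cfsg.Agent.S4222

/-- If a normal subgroup `N` of a finite group is complete (its centre is trivial and every automorphism of `N` is inner), then the group is the internal direct product of `N` and the centralizer of `N`: the centralizer is a complement to `N`. -/
theorem result {T : Type*} [Group T] [Finite T] (N : Subgroup T) [N.Normal] (hz : Subgroup.center ↥N = ⊥) (ha : Function.Surjective (MulAut.conj : ↥N →* MulAut ↥N)) : (Subgroup.centralizer (N : Set T)).IsComplement' N := by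
  have hC : ∀ t : T, ∃ n : N, (n : T)⁻¹ * t ∈ Subgroup.centralizer (N : Set T) := by
    intro t
    obtain ⟨n, hn⟩ := ha (MulAut.conjNormal t)
    refine ⟨n, ?_⟩
    rw [Subgroup.mem_centralizer_iff]
    intro x hx
    have h1 := congrArg (fun f : MulAut N => ((f ⟨x, hx⟩ : N) : T)) hn
    simp only [MulAut.conj_apply, MulAut.conjNormal_apply, Subgroup.coe_mul, Subgroup.coe_inv] at h1
    -- `n x n⁻¹ = t x t⁻¹`
    calc x * ((n : T)⁻¹ * t) = (n : T)⁻¹ * ((n : T) * x * (n : T)⁻¹) * t := by group
      _ = (n : T)⁻¹ * (t * x * t⁻¹) * t := by rw [h1]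
      _ = _ := by group
  apply Subgroup.isComplement'_of_disjoint_and_mul_eq_univ
  · rw [Subgroup.disjoint_def]
    intro x hx hx2
    have h1 : (⟨x, hx2⟩ : N) ∈ Subgroup.center N := by
      rw [Subgroup.mem_center_iff]
      rintro ⟨y, hy⟩
      apply Subtype.ext
      exact (Subgroup.mem_centralizer_iff.mp hx y hy)
    rw [hz, Subgroup.mem_bot] at h1
    exact congrArg Subtype.val h1
  · ext t
    simp only [Set.mem_mul, Set.mem_univ, iff_true]
    obtain ⟨n, hn⟩ := hC t⁻¹
    exact ⟨_, inv_mem hn, _, inv_mem n.2, by group⟩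

end Cfsg.Agent.S4222
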