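import Cfsg.Statements.S4274
import Mathlib
import Cfsg.Agent.Lib.J1Ord.Step

set_option autoImplicit false
open Cfsg

namespace Cfsg.Agent.S4274

/-- A finite group of order 175560 = 2³·3·5·7·11·19 is either simple or has a normal Sylow 19-subgroup. -/
theorem result {G : Type*} [Group G] [Finite G] (hG : Nat.card G = 175560) : IsSimpleGroup G ∨ ∀ P : Sylow 19 G, (P : Subgroup G).Normal := by
  classical
  by_cases hs : IsSimpleGroup G
  · exact Or.inl hs
  · right
    intro P
    have hnt : Nontrivial G := by
      rw [← Finite.one_lt_card_iff_nontrivial, hG]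
      norm_num
    have hex : ∃ N : Subgroup G, N.Normal ∧ N ≠ ⊥ ∧ N ≠ ⊤ := by
      by_contra hcon
      push Not at hcon
      exact hs ⟨fun N hN => by
        by_cases h : N = ⊥
        · exact Or.inl h
        · exact Or.inr (hcon N hN h)⟩
    obtain ⟨N, hN, h1, h2⟩ := hex
    exact Lib.J1Ord.step (m := 9240) (by rw [hG]) (dvd_refl _) N h1 h2
      (fun Y _ _ m' hY hm' hlt => Lib.J1Ord.lemA m' Y hY hm' (by omega)) P

end Cfsg.Agent.S4274
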