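import Cfsg.Statements.S4275
import Mathlib

set_option autoImplicit false
open Cfsg

namespace Cfsg.Agent.S4275

/-- Let G be a transitive group of permutations of a finite set Ω, let o ∈ Ω, and let α be an automorphism of G. Then α is induced by conjugation by a permutation of Ω normalizing G if and only if the image under α of the stabilizer of o fixes some point of Ω. -/
theorem result {Ω : Type*} [Fintype Ω] (G : Subgroup (Equiv.Perm Ω)) (htr : MulAction.IsPretransitive G Ω) (o : Ω) (α : G ≃* G) : (∃ σ : Equiv.Perm Ω, σ ∈ Subgroup.normalizer (G : Set (Equiv.Perm Ω)) ∧ ∀ g : G, ((α g : G) : Equiv.Perm Ω) = σ * (g : Equiv.Perm Ω) * σ⁻¹) ↔ ∃ ω : Ω, ∀ g ∈ (MulAction.stabilizer G o).map α.toMonoidHom, g • ω = ω := by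
  classical
  constructor
  · rintro ⟨σ, -, hσ⟩
    refine ⟨σ o, ?_⟩
    rintro g ⟨g₀, hg₀, rfl⟩
    have h1 : (g₀ : Equiv.Perm Ω) o = o := hg₀
    change ((α g₀ : G) : Equiv.Perm Ω) (σ o) = σ o
    rw [hσ g₀]
    simp [h1]
  · rintro ⟨ω, hω⟩
    have hchoose : ∀ w : Ω, ∃ g : G, g • o = w := fun w => MulAction.exists_smul_eq G o w
    choose c hc using hchoose
    let s : Ω → Ω := fun w => (α (c w)) • ω
    have hs : ∀ (g : G), s (g • o) = (α g) • ω := by
      intro g
      have h1 : (c (g • o))⁻¹ * g ∈ MulAction.stabilizer G o := by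
        rw [MulAction.mem_stabilizer_iff, mul_smul, inv_smul_eq_iff, hc]
      have h2 := hω (α ((c (g • o))⁻¹ * g)) ⟨_, h1, rfl⟩
      rw [map_mul, map_inv, mul_smul, inv_smul_eq_iff] at h2
      exact h2.symm
    have hsq : ∀ (g : G) (w : Ω), s (g • w) = (α g) • s w := by
      intro g w
      have h1 : g • w = (g * c w) • o := by rw [mul_smul, hc]
      rw [h1, hs, map_mul, mul_smul]
    have hsurj : Function.Surjective s := by
      intro y
      obtain ⟨g, hg⟩ := MulAction.exists_smul_eq G ω y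
      refine ⟨(α.symm g) • o, ?_⟩
      rw [hs, MulEquiv.apply_symm_apply, hg]
    have hbij : Function.Bijective s := ⟨Finite.injective_iff_surjective.mpr hsurj, hsurj⟩
    let σ : Equiv.Perm Ω := Equiv.ofBijective s hbij
    have hσ : ∀ g : G, ((α g : G) : Equiv.Perm Ω) = σ * (g : Equiv.Perm Ω) * σ⁻¹ := by
      intro g
      rw [eq_mul_inv_iff_mul_eq]
      ext w
      exact (hsq g w).symm
    refine ⟨σ, ?_, hσ⟩
    apply Subgroup.mem_normalizer_fintype
    intro n hn
    have := hσ ⟨n, hn⟩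
    change σ * n * σ⁻¹ ∈ G
    rw [show σ * n * σ⁻¹ = ((α ⟨n, hn⟩ : G) : Equiv.Perm Ω) from this.symm]
    exact (α ⟨n, hn⟩).2

end Cfsg.Agent.S4275
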