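import Cfsg.Statements.S4282
import Mathlib
import Cfsg.Agent.Lib.HHB.Crit

set_option autoImplicit false
open Cfsg

namespace Cfsg.Agent.S4282

open Subgroup Module Cfsg.Agent.Lib.HHB


/-- A critical case behind the Hall–Higman theorem. Let p ≠ q be primes and G a finite group generated by a normal q-subgroup Q and a cyclic p-subgroup generated by x, such that the centralizer of every non-identity element of that cyclic subgroup is its product with the centre of G. Let K be an algebraically closed field of characteristic p and ρ a faithful representation of G on a nonzero finite-dimensional K-space whose restriction to Q is irreducible. If s is the least exponent with (ρ(x) − 1)^s = 0, then |⟨x⟩| − 1 ≤ s ≤ |⟨x⟩|; and if s = |⟨x⟩| − 1 then |⟨x⟩| − 1 is a power of q and Q is non-abelian. -/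
theorem result {G : Type*} [Group G] [Finite G] (p q : ℕ) [Fact p.Prime] [Fact q.Prime] (hpq : p ≠ q) (Q : Subgroup G) [Q.Normal] (hQ : IsPGroup q Q) (x : G) (hx : IsPGroup p (Subgroup.zpowers x)) (hgen : Q ⊔ Subgroup.zpowers x = ⊤) (hC : ∀ y ∈ Subgroup.zpowers x, y ≠ 1 → Subgroup.centralizer ({y} : Set G) = Subgroup.zpowers x ⊔ Subgroup.center G) {K : Type*} [Field K] [IsAlgClosed K] [CharP K p] {V : Type*} [AddCommGroup V] [Module K V] [FiniteDimensional K V] [Nontrivial V] (ρ : Representation K G V) (hfaith : Function.Injective ρ) (hirr : ∀ W : Submodule K V, (∀ g ∈ Q, Submodule.map (ρ g) W ≤ W) → W = ⊥ ∨ W = ⊤) (s : ℕ) (hs : (ρ x - 1) ^ s = 0) (hmin : ∀ k < s, (ρ x - 1) ^ k ≠ 0) : Nat.card (Subgroup.zpowers x) - 1 ≤ s ∧ s ≤ Nat.card (Subgroup.zpowers x) ∧ (s = Nat.card (Subgroup.zpowers x) - 1 → (∃ b : ℕ, Nat.card (Subgroup.zpowers x) - 1 = q ^ b) ∧ ¬ IsMulCommutative Q) := by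
  classical
  set n := Nat.card (zpowers x) with hn
  have hnord : n = orderOf x := Nat.card_zpowers x
  by_cases hx1 : x = 1
  · subst hx1
    have hn1 : n = 1 := by rw [hnord, orderOf_one]
    have hρ1 : ρ 1 - 1 = 0 := by rw [map_one, sub_self]
    rw [hρ1] at hs hmin
    have hs1 : s = 1 := by
      rcases s with _ | _ | s
      · rw [pow_zero] at hs
        exact absurd hs one_ne_zero
      · rfl
      · exact absurd (pow_one _) (hmin 1 (by omega))
    rw [hn1, hs1]
    exact ⟨by omega, le_rfl, fun h => by omega⟩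
  -- the general case
  obtain ⟨M, hM⟩ := IsPGroup.iff_card.mp hx
  have hnM : n = p ^ M := hM
  have hM0 : 0 < M := by
    rcases Nat.eq_zero_or_pos M with rfl | h
    · rw [pow_zero, hnord] at hnM
      exact absurd (orderOf_eq_one_iff.mp hnM) hx1
    · exact h
  haveI := Fintype.ofFinite Q
  let ρ' : ↥Q →* Module.End K V := (ρ : G →* Module.End K V).comp Q.subtype
  have hirr' : ∀ W : Submodule K V, (∀ g, W.map (ρ' g) ≤ W) → W = ⊥ ∨ W = ⊤ :=
    fun W h => hirr W (fun g hg => h ⟨g, hg⟩)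
  have hqK : (q : K) ≠ 0 := by
    intro h
    rw [CharP.cast_eq_zero_iff K p] at h
    exact hpq ((Nat.prime_dvd_prime_iff_eq (Fact.out) (Fact.out)).mp h)
  have hN : (Fintype.card Q : K) ≠ 0 := by
    obtain ⟨k, hk⟩ := IsPGroup.iff_card.mp hQ
    rw [← Nat.card_eq_fintype_card, hk]
    push_cast
    exact pow_ne_zero _ hqK
  let X : Module.End K V := ρ x
  let Y : Module.End K V := ρ x⁻¹
  have hXY : X * Y = 1 := by
    show ρ x * ρ x⁻¹ = 1
    rw [← map_mul]; simp
  have hYX : Y * X = 1 := by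
    show ρ x⁻¹ * ρ x = 1
    rw [← map_mul]; simp
  have hX1 : X ≠ 1 := by
    intro h
    apply hx1
    apply hfaith
    rw [map_one]
    exact h
  have hXp : X ^ p ^ M = 1 := by
    show (ρ x) ^ p ^ M = 1
    rw [← map_pow, ← hnM, hnord, pow_orderOf_eq_one, map_one]
  let τ : ↥Q → ↥Q := fun g => MulAut.conjNormal x g
  have hτc : ∀ g : ↥Q, ((τ g : ↥Q) : G) = x * g * x⁻¹ := fun g => MulAut.conjNormal_apply x g
  have hτit : ∀ (i : ℕ) (g : ↥Q), ((τ^[i] g : ↥Q) : G) = x ^ i * g * (x ^ i)⁻¹ := by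
    intro i g
    induction i with
    | zero => simp
    | succ i ih =>
      rw [Function.iterate_succ_apply', hτc, ih, pow_succ']
      group
  have hτn : ∀ g, τ^[p ^ M] g = g := by
    intro g
    apply Subtype.ext
    rw [hτit, ← hnM, hnord, pow_orderOf_eq_one]
    simp
  have hτ : ∀ g, X * ρ' g * Y = ρ' (τ g) := by
    intro g
    show ρ x * ρ g * ρ x⁻¹ = ρ ((τ g : ↥Q) : G)
    rw [hτc, map_mul, map_mul]
  have hτinv : ∀ g, τ g⁻¹ = (τ g)⁻¹ := fun g => map_inv (MulAut.conjNormal x) g
  -- centrality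
  have hcen : ∀ y ∈ zpowers x, y ≠ 1 → ∀ g : ↥Q, y * g = g * y → (g : G) ∈ center G := by
    intro y hy hy1 g hg
    have h1 : (g : G) ∈ centralizer ({y} : Set G) := by
      rw [Subgroup.mem_centralizer_singleton_iff]
      exact hg.symm
    rw [hC y hy hy1] at h1
    obtain ⟨u, hu, z, hz, e⟩ := Subgroup.mem_sup_of_normal_right.mp h1
    have hzc : ∀ w : G, z * w = w * z := fun w => (Subgroup.mem_center_iff.mp hz w).symm
    obtain ⟨k, hk⟩ := hQ g
    have hgk : (g : G) ^ q ^ k = 1 := by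
      have := congrArg (fun y : ↥Q => (y : G)) hk
      simpa using this
    obtain ⟨m, hm⟩ := hx ⟨u, hu⟩
    have hum : u ^ p ^ m = 1 := by
      have := congrArg (fun y : ↥(zpowers x) => (y : G)) hm
      simpa using this
    have hcomm : Commute u z := (hzc u).symm
    have h2 : u ^ q ^ k * z ^ q ^ k = 1 := by
      rw [← hcomm.mul_pow, e, hgk]
    have h3 : u ^ q ^ k ∈ center G := by
      have : u ^ q ^ k = (z ^ q ^ k)⁻¹ := eq_inv_of_mul_eq_one_left h2
      rw [this]
      exact (center G).inv_mem ((center G).pow_mem hz _)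
    have hcop : Nat.Coprime (q ^ k) (p ^ m) :=
      Nat.Coprime.pow _ _ ((Nat.coprime_primes Fact.out Fact.out).mpr hpq.symm)
    have h4 : u = (u ^ q ^ k) ^ (Nat.gcdA (q ^ k) (p ^ m)) := by
      have hb := Nat.gcd_eq_gcd_ab (q ^ k) (p ^ m)
      rw [hcop.gcd_eq_one] at hb
      have h5 : u ^ ((q ^ k : ℕ) * Nat.gcdA (q ^ k) (p ^ m) + (p ^ m : ℕ) * Nat.gcdB (q ^ k) (p ^ m)) = u := by
        rw [← hb]
        simp
      rw [zpow_add, zpow_mul, zpow_mul, zpow_natCast, zpow_natCast, hum, one_zpow, mul_one] at h5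
      exact h5.symm
    have h6 : u ∈ center G := by
      rw [h4]
      exact (center G).zpow_mem h3 _
    rw [← e]
    exact (center G).mul_mem h6 hz
  have hxmem : x ∈ zpowers x := mem_zpowers x
  have hcenτ : ∀ g : ↥Q, (g : G) ∈ center G → τ g = g := by
    intro g hg
    apply Subtype.ext
    rw [hτc, Subgroup.mem_center_iff.mp hg x]
    group
  have hfix : ∀ g, τ g = g → ∃ μ : K, ρ' g = μ • 1 := by
    intro g hg
    have h1 : x * (g : G) = g * x := by
      have := congrArg (fun y : ↥Q => (y : G)) hg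
      simp only [hτc] at this
      exact mul_inv_eq_iff_eq_mul.mp this
    have h2 := hcen x hxmem hx1 g h1
    refine schur_scalar ρ' hirr' _ (fun h => ?_)
    show ρ h * ρ g = ρ g * ρ h
    rw [← map_mul, ← map_mul, (Subgroup.mem_center_iff.mp h2 (h : G))]
  have hfree : ∀ g, τ g ≠ g → ∀ i, 0 < i → i < p ^ M → τ^[i] g ≠ g := by
    intro g hg i hi0 hi h
    apply hg
    apply hcenτ
    have h1 : x ^ i ≠ 1 := by
      intro h2
      have := orderOf_le_of_pow_eq_one hi0 h2
      rw [← hnord, hnM] at this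
      omega
    refine hcen (x ^ i) (Subgroup.pow_mem _ hxmem i) h1 g ?_
    have := congrArg (fun y : ↥Q => (y : G)) h
    simp only [hτit] at this
    exact mul_inv_eq_iff_eq_mul.mp this
  obtain ⟨h1, h2, h3⟩ := crit_core ρ' hirr' hN X Y hXY hYX τ hM0 hτn hτ hτinv hfix hfree hXp hX1 s hs hmin
  rw [← hnM] at h1 h2 h3
  refine ⟨h1, h2, fun hs' => ⟨?_, ?_⟩⟩
  · obtain ⟨b, hb⟩ := finrank_eq_pow_of_irr (K := K) hQ ρ' hirr'
    refine ⟨b, ?_⟩
    rw [← hs', ← h3 hs', hb]
  · -- non-commutativity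
    intro hcomm
    have hall : ∀ g, ∃ μ : K, ρ' g = μ • 1 := by
      intro g
      refine schur_scalar ρ' hirr' _ (fun h => ?_)
      rw [← map_mul, ← map_mul, hcomm.is_comm.comm h g]
    obtain ⟨v, hv⟩ := exists_ne (0 : V)
    have h4 : Submodule.span K {v} = ⊤ := by
      refine (hirr' _ ?_).resolve_left ?_
      · intro g
        rintro _ ⟨w, hw, rfl⟩
        obtain ⟨μ, hμ⟩ := hall g
        simp only [hμ, LinearMap.smul_apply, Module.End.one_apply]
        exact Submodule.smul_mem _ _ hw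
      · simpa using hv
    have h5 : finrank K V = 1 := by
      rw [← finrank_top K V, ← h4]
      exact finrank_span_singleton hv
    have h6 := pow_finrank_eq_zero hs
    rw [h5, pow_one] at h6
    exact hX1 (sub_eq_zero.mp h6)

end Cfsg.Agent.S4282
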