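import Cfsg.Statements.S4283
import Mathlib
import Cfsg.Agent.Lib.Hall.Frobenius
import Cfsg.Agent.Lib.ClassSizes.Basic
import Cfsg.Agent.Lib.Derangement.Basic

set_option autoImplicit false
open Cfsg

namespace Cfsg.Agent.S4283

/-- Let G be a finite group with centre Z and let K, H be abelian subgroups of G containing Z such that G/Z is a Frobenius group with complement H/Z and kernel K/Z. Then the conjugacy class sizes of G are exactly 1, [G : K] and [G : H], and these two indices are coprime. (This is the converse half of the characterization of finite groups whose conjugacy class sizes are exactly 1, m and n with m and n coprime.) -/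
theorem result {G : Type*} [Group G] [Finite G] (K H : Subgroup G) (hZK : Subgroup.center G ≤ K) (hZH : Subgroup.center G ≤ H) (hK : IsMulCommutative K) (hH : IsMulCommutative H) (hFrob : Cfsg.IsFrobeniusComplement (H.map (QuotientGroup.mk' (Subgroup.center G)))) (hker : Cfsg.frobeniusKernel (H.map (QuotientGroup.mk' (Subgroup.center G))) = (K.map (QuotientGroup.mk' (Subgroup.center G)) : Set (G ⧸ Subgroup.center G))) : Set.range (fun x : G => (Subgroup.centralizer ({x} : Set G)).index) = ({1, K.index, H.index} : Set ℕ) ∧ K.index.Coprime H.index := by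
  classical
  let π := QuotientGroup.mk' (Subgroup.center G)
  have hπ : Function.Surjective π := QuotientGroup.mk'_surjective _
  have hkerπ : π.ker = Subgroup.center G := QuotientGroup.ker_mk' _
  have hπ1 : ∀ x, π x = 1 ↔ x ∈ Subgroup.center G := fun x => QuotientGroup.eq_one_iff x
  have hmem : ∀ (L : Subgroup G), Subgroup.center G ≤ L → ∀ x, π x ∈ L.map π ↔ x ∈ L := by
    intro L hL x
    constructor
    · rintro ⟨y, hy, hyx⟩
      have : y⁻¹ * x ∈ Subgroup.center G := by
        rw [← hπ1, map_mul, map_inv, hyx, inv_mul_cancel]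
      simpa using L.mul_mem hy (hL this)
    · intro h
      exact Subgroup.mem_map_of_mem π h
  have hcomm : ∀ (L : Subgroup G), IsMulCommutative L → ∀ x ∈ L, L ≤ Subgroup.centralizer ({x} : Set G) := by
    intro L hL x hx y hy
    rw [Subgroup.mem_centralizer_iff]
    rintro z rfl
    have := hL.is_comm.comm (⟨z, hx⟩ : L) ⟨y, hy⟩
    exact congrArg Subtype.val this
  have hcmap : ∀ x y : G, y ∈ Subgroup.centralizer ({x} : Set G) →
      π y ∈ Subgroup.centralizer ({π x} : Set (G ⧸ Subgroup.center G)) := by
    intro x y hy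
    rw [Subgroup.mem_centralizer_iff] at hy ⊢
    rintro z rfl
    have := hy x rfl
    rw [← map_mul, ← map_mul, this]
  have hcentH : ∀ x ∈ H, x ∉ Subgroup.center G → Subgroup.centralizer ({x} : Set G) = H := by
    intro x hx hxZ
    refine le_antisymm ?_ (hcomm H hH x hx)
    intro y hy
    rw [← hmem H hZH]
    exact Cfsg.Agent.Lib.Hall.centralizer_le_of_mem_complement hFrob
      (Subgroup.mem_map_of_mem π hx) (fun h => hxZ ((hπ1 x).mp h)) (hcmap x y hy)
  have hcentK : ∀ x ∈ K, x ∉ Subgroup.center G → Subgroup.centralizer ({x} : Set G) = K := by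
    intro x hx hxZ
    refine le_antisymm ?_ (hcomm K hK x hx)
    intro y hy
    rw [← hmem K hZK]
    have h1 : π x ∈ Cfsg.frobeniusKernel (H.map π) := by
      rw [hker]; exact Subgroup.mem_map_of_mem π hx
    have h2 := Cfsg.Agent.Lib.Hall.centralizer_le_kernel hFrob h1
      (fun h => hxZ ((hπ1 x).mp h)) (hcmap x y hy)
    rw [hker] at h2
    exact h2
  have hconj : ∀ x g : G, (Subgroup.centralizer ({g * x * g⁻¹} : Set G)).index =
      (Subgroup.centralizer ({x} : Set G)).index := by
    intro x g
    rw [← Cfsg.Agent.Lib.ClassSizes.card_isConj_eq_index, ← Cfsg.Agent.Lib.ClassSizes.card_isConj_eq_index]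
    have hxy : IsConj x (g * x * g⁻¹) := isConj_iff.mpr ⟨g, rfl⟩
    exact Nat.card_congr (Equiv.subtypeEquivRight (fun z => ⟨fun h => hxy.trans h, fun h => hxy.symm.trans h⟩))
  have hcentral : ∀ x ∈ Subgroup.center G, (Subgroup.centralizer ({x} : Set G)).index = 1 := by
    intro x hx
    rw [Subgroup.index_eq_one, eq_top_iff]
    intro y _
    rw [Subgroup.mem_centralizer_iff]
    rintro z rfl
    exact (Subgroup.mem_center_iff.mp hx y).symm
  have hHne : ∃ x ∈ H, x ∉ Subgroup.center G := by
    by_contra hcon
    push Not at hcon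
    apply hFrob.1
    rw [eq_bot_iff]
    rintro _ ⟨x, hx, rfl⟩
    exact (hπ1 x).mpr (hcon x hx)
  have hKne : ∃ x ∈ K, x ∉ Subgroup.center G := by
    obtain ⟨a, ha⟩ := Cfsg.Agent.Lib.Derangement.exists_not_mem_conj (H.map π) hFrob.2.1
    have h1 : a ∈ Cfsg.frobeniusKernel (H.map π) := by
      right
      intro g hg
      apply ha g
      rw [Subgroup.mem_pointwise_smul_iff_inv_smul_mem] at hg
      simpa [MulAut.smul_def, MulAut.conj_inv_apply] using hg
    rw [hker] at h1
    obtain ⟨x, hx, rfl⟩ := h1
    refine ⟨x, hx, fun hxZ => ?_⟩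
    apply ha 1
    simp only [inv_one, one_mul, mul_one]
    rw [(hπ1 x).mpr hxZ]
    exact Subgroup.one_mem _
  constructor
  · ext n
    simp only [Set.mem_range, Set.mem_insert_iff, Set.mem_singleton_iff]
    constructor
    · rintro ⟨x, rfl⟩
      by_cases hxZ : x ∈ Subgroup.center G
      · exact Or.inl (hcentral x hxZ)
      · by_cases hxK : x ∈ K
        · exact Or.inr (Or.inl (by rw [hcentK x hxK hxZ]))
        · right; right
          have h1 : π x ∉ Cfsg.frobeniusKernel (H.map π) := by
            rw [hker]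
            exact fun h => hxK ((hmem K hZK x).mp h)
          simp only [Cfsg.frobeniusKernel, Set.mem_setOf_eq, not_or] at h1
          obtain ⟨-, h2⟩ := h1
          push Not at h2
          obtain ⟨g, hg⟩ := h2
          obtain ⟨g₀, rfl⟩ := hπ g
          rw [Subgroup.mem_pointwise_smul_iff_inv_smul_mem] at hg
          have h3 : g₀⁻¹ * x * g₀ ∈ H := by
            rw [← hmem H hZH]
            simpa [MulAut.smul_def, MulAut.conj_inv_apply] using hg
          have h4 : g₀⁻¹ * x * g₀ ∉ Subgroup.center G := by
            intro h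
            apply hxZ
            have := (Subgroup.mem_center_iff.mp h) g₀
            rw [Subgroup.mem_center_iff]
            intro w
            have hc := (Subgroup.mem_center_iff.mp h) (g₀⁻¹ * w * g₀)
            have h5 : x * w = w * x := by
              have : g₀ * ((g₀⁻¹ * w * g₀) * (g₀⁻¹ * x * g₀)) * g₀⁻¹ = g₀ * ((g₀⁻¹ * x * g₀) * (g₀⁻¹ * w * g₀)) * g₀⁻¹ := by rw [hc]
              simpa [mul_assoc] using this.symm
            exact h5.symm
          have h5 := hconj (g₀⁻¹ * x * g₀) g₀
          have h6 : g₀ * (g₀⁻¹ * x * g₀) * g₀⁻¹ = x := by group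
          rw [h6, hcentH _ h3 h4] at h5
          exact h5
    · rintro (rfl | rfl | rfl)
      · exact ⟨1, hcentral 1 (Subgroup.one_mem _)⟩
      · obtain ⟨x, hx, hxZ⟩ := hKne
        exact ⟨x, by rw [hcentK x hx hxZ]⟩
      · obtain ⟨x, hx, hxZ⟩ := hHne
        exact ⟨x, by rw [hcentH x hx hxZ]⟩
  · have hiK : (K.map π).index = K.index := Subgroup.index_map_eq K hπ (by rw [hkerπ]; exact hZK)
    have hiH : (H.map π).index = H.index := Subgroup.index_map_eq H hπ (by rw [hkerπ]; exact hZH)
    have hc1 := Cfsg.Agent.Lib.Hall.card_frobeniusKernel hFrob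
    have hc2 := Cfsg.Agent.Lib.Hall.index_mod_card hFrob
    rw [hker] at hc1
    have hc3 : Nat.card ((K.map π : Subgroup _) : Set (G ⧸ Subgroup.center G)) = Nat.card (K.map π) := rfl
    rw [hc3] at hc1
    have hc4 := (K.map π).card_mul_index
    have hc5 := (H.map π).card_mul_index
    have hc6 : (K.map π).index = Nat.card (H.map π) := by
      rw [hc1, ← hc5] at hc4
      have hpos : 0 < (H.map π).index := Nat.pos_of_ne_zero Subgroup.index_ne_zero_of_finite
      have : (H.map π).index * (K.map π).index = (H.map π).index * Nat.card (H.map π) := by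
        rw [hc4, mul_comm]
      exact Nat.eq_of_mul_eq_mul_left hpos this
    rw [← hiK, ← hiH, hc6]
    -- `[Ḡ:H̄] ≡ 1` modulo `|H̄|`
    have hm : (H.map π).index ≡ 1 [MOD Nat.card (H.map π)] := hc2
    have h7 := hm.gcd_eq
    rw [Nat.gcd_one_left, Nat.gcd_comm] at h7
    exact h7

end Cfsg.Agent.S4283
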