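import Cfsg.Statements.S4293
import Mathlib
import Cfsg.Agent.Lib.Frobenius.Basic
import Cfsg.Agent.Lib.Frobenius.Transport

set_option autoImplicit false
open Cfsg

namespace Cfsg.Agent.S4293

/-- A nontrivial finite subgroup of the multiplicative group of a division ring occurs as a Frobenius complement of some finite Frobenius group. -/
theorem result {D : Type*} [DivisionRing D] (H : Subgroup Dˣ) [Finite H] (hH : H ≠ ⊥) :
    ∃ (L : Type) (_ : Group L) (_ : Finite L) (C : Subgroup L), Cfsg.IsFrobeniusComplement C ∧ Nonempty (H ≃* C) := by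
  classical
  haveI : Fintype H := Fintype.ofFinite _
  haveI hHnt : Nontrivial H := (Subgroup.nontrivial_iff_ne_bot H).mpr hH
  let ι : H → D := fun h => ((h : Dˣ) : D)
  let S : Subring D := Subring.closure (Set.range ι)
  have hιS : ∀ h : H, ι h ∈ S := fun h => Subring.subset_closure ⟨h, rfl⟩
  let g : H →* S :=
    { toFun := fun h => ⟨ι h, hιS h⟩
      map_one' := Subtype.ext (by simp [ι])
      map_mul' := fun a b => Subtype.ext (by simp [ι]) }
  have hgval : ∀ h : H, ((g h : S) : D) = ι h := fun h => rfl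
  have hι1 : ∀ h : H, h ≠ 1 → ι h ≠ 1 := by
    intro h hne h1
    apply hne
    exact Subtype.ext (Units.ext h1)
  -- every element of `S` is an integer combination of `H`
  have hsm : ((Submonoid.closure (Set.range ι) : Submonoid D) : Set D) = Set.range ι := by
    apply Set.Subset.antisymm
    · intro x hx
      induction hx using Submonoid.closure_induction with
      | mem x hx => exact hx
      | one => exact ⟨1, by simp [ι]⟩
      | mul x y _ _ hx hy =>
        obtain ⟨a, rfl⟩ := hx
        obtain ⟨b, rfl⟩ := hy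
        exact ⟨a * b, by simp [ι]⟩
    · exact Submonoid.subset_closure
  have hrep0 : ∀ x ∈ AddSubgroup.closure (Set.range ι), ∃ c : H → ℤ, x = ∑ h, c h • ι h := by
    intro x h1
    induction h1 using AddSubgroup.closure_induction with
    | mem x hx =>
      obtain ⟨a, rfl⟩ := hx
      refine ⟨fun h => if h = a then 1 else 0, ?_⟩
      simp [ite_smul]
    | zero => exact ⟨0, by simp⟩
    | add x y _ _ hx hy =>
      obtain ⟨c, hc⟩ := hx
      obtain ⟨d, hd⟩ := hy
      refine ⟨c + d, ?_⟩
      rw [hc, hd, ← Finset.sum_add_distrib]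
      simp [add_smul]
    | neg x _ hx =>
      obtain ⟨c, hc⟩ := hx
      refine ⟨-c, ?_⟩
      rw [hc, ← Finset.sum_neg_distrib]
      simp [neg_smul]
  have hrepD : ∀ x : D, x ∈ S → ∃ c : H → ℤ, x = ∑ h, c h • ι h := by
    intro x hx
    have h1 : x ∈ AddSubgroup.closure ((Submonoid.closure (Set.range ι) : Submonoid D) : Set D) :=
      Subring.mem_closure_iff.mp hx
    rw [hsm] at h1
    exact hrep0 x h1
  have hrep : ∀ x : S, ∃ c : H → ℤ, x = ∑ h, c h • g h := by
    intro x
    obtain ⟨c, hc⟩ := hrepD x x.2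
    refine ⟨c, Subtype.ext ?_⟩
    rw [hc]
    simp [hgval]
  have hfg : (⊤ : Submodule ℤ S).FG := by
    refine ⟨Finset.univ.image g, ?_⟩
    rw [eq_top_iff]
    intro x _
    obtain ⟨c, rfl⟩ := hrep x
    refine Submodule.sum_mem _ (fun h _ => Submodule.smul_of_tower_mem _ _ (Submodule.subset_span ?_))
    simp
  -- the prime
  let c₀ := ringChar D
  haveI hchar : CharP D c₀ := ringChar.charP D
  obtain ⟨q, hq, hqc⟩ : ∃ q : ℕ, q.Prime ∧ ((q = c₀) ∨ (c₀ = 0 ∧ Nat.card H < q)) := by
    rcases CharP.char_is_prime_or_zero D c₀ with h | h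
    · exact ⟨c₀, h, Or.inl rfl⟩
    · obtain ⟨q, hq1, hq2⟩ := Nat.exists_infinite_primes (Nat.card H + 1)
      exact ⟨q, hq2, Or.inr ⟨h, by omega⟩⟩
  let J : Submodule S S := Submodule.span S {((q : ℕ) : S)}
  have hmemJ : ∀ x : S, x ∈ J ↔ ∃ a : S, a * ((q : ℕ) : S) = x := by
    intro x
    rw [Submodule.mem_span_singleton]
    simp [smul_eq_mul]
  have hnontriv : (1 : S) ∉ J := by
    intro h1
    obtain ⟨a, ha⟩ := (hmemJ 1).mp h1
    have hle : (⊤ : Submodule ℤ S) ≤ (Ideal.span {(q : ℤ)}) • (⊤ : Submodule ℤ S) := by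
      intro x _
      have h2 : x = (q : ℤ) • (x * a) := by
        have h3 : x = x * (a * ((q : ℕ) : S)) := by rw [ha, mul_one]
        rw [zsmul_eq_mul]
        have h4 : (((q : ℤ) : S)) * (x * a) = x * (a * ((q : ℕ) : S)) := by
          have : Commute (((q : ℕ) : S)) (x * a) := Nat.cast_commute _ _
          simp only [Int.cast_natCast]
          rw [this.eq, mul_assoc]
        rw [h4]
        exact h3
      rw [h2]
      exact Submodule.smul_mem_smul (Ideal.mem_span_singleton_self _) trivial
    obtain ⟨r, hr1, hr2⟩ := Submodule.exists_sub_one_mem_and_smul_eq_zero_of_fg_of_le_smul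
      (Ideal.span {(q : ℤ)}) (⊤ : Submodule ℤ S) hfg hle
    have hr3 := hr2 1 trivial
    have hr4 : ((r : ℤ) : D) = 0 := by
      have := congrArg (Subtype.val) hr3
      simpa using this
    rw [CharP.intCast_eq_zero_iff D c₀] at hr4
    rw [Ideal.mem_span_singleton] at hr1
    have hqne : ¬ ((q : ℤ) ∣ 1) := by
      intro h
      have := Int.natCast_dvd_natCast.mp (by simpa using h : ((q : ℕ) : ℤ) ∣ ((1 : ℕ) : ℤ))
      exact hq.one_lt.ne' (Nat.dvd_one.mp this)
    apply hqne
    rcases hqc with h | ⟨h, -⟩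
    · have h5 : (q : ℤ) ∣ r := by rw [h]; exact hr4
      have := (Int.dvd_sub h5 hr1)
      simpa using this
    · have h5 : r = 0 := by
        rw [h] at hr4
        simpa using hr4
      rw [h5] at hr1
      simpa using hr1
  let V := S ⧸ J
  haveI hVnt : Nontrivial V := by
    refine ⟨⟨Submodule.Quotient.mk 1, 0, fun h => hnontriv ?_⟩⟩
    exact (Submodule.Quotient.mk_eq_zero J).mp h
  have hqV : ∀ v : V, q • v = 0 := by
    intro v
    obtain ⟨x, rfl⟩ := Submodule.Quotient.mk_surjective J v
    have h0 : q • (Submodule.Quotient.mk x : V) = Submodule.Quotient.mk (q • x) :=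
      (map_nsmul (Submodule.mkQ J) q x).symm
    rw [h0, Submodule.Quotient.mk_eq_zero, hmemJ]
    exact ⟨x, by rw [nsmul_eq_mul, (Nat.cast_commute q x).eq]⟩
  haveI hVfin : Finite V := by
    haveI : Module.Finite ℤ S := ⟨hfg⟩
    let f : S →ₗ[ℤ] V := (Submodule.mkQ J).toAddMonoidHom.toIntLinearMap
    have hf : Function.Surjective f := Submodule.Quotient.mk_surjective J
    haveI : Module.Finite ℤ V := Module.Finite.of_surjective f hf
    refine Module.finite_of_fg_torsion V ?_
    intro v
    refine ⟨⟨(q : ℤ), ?_⟩, ?_⟩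
    · exact mem_nonZeroDivisors_of_ne_zero (by exact_mod_cast hq.ne_zero)
    · have := hqV v
      simpa using this
  letI : DistribMulAction H V := DistribMulAction.compHom V g
  have hsmul : ∀ (h : H) (x : S), h • (Submodule.Quotient.mk x : V) = Submodule.Quotient.mk (g h * x) := fun h x => rfl
  have hfpf : ∀ h : H, h ≠ 1 → ∀ v : V, h • v = v → v = 0 := by
    intro h hne v hv
    obtain ⟨x, rfl⟩ := Submodule.Quotient.mk_surjective J v
    rw [hsmul] at hv
    have h1 : g h * x - x ∈ J := (Submodule.Quotient.eq J).mp hv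
    obtain ⟨a, ha⟩ := (hmemJ _).mp h1
    have hu1 : g h - 1 ≠ 0 := by
      intro h2
      apply hι1 h hne
      have := congrArg Subtype.val h2
      simpa [sub_eq_zero, hgval] using this
    rcases hqc with hqc | ⟨hc0, hqlt⟩
    · -- characteristic `q`: `q = 0`
      have hq0 : ((q : ℕ) : S) = 0 := by
        apply Subtype.ext
        have : ((q : ℕ) : D) = 0 := by rw [hqc]; exact CharP.cast_eq_zero D c₀
        simpa using this
      rw [hq0, mul_zero] at ha
      have h2 : (g h - 1) * x = 0 := by
        rw [sub_mul, one_mul]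
        exact ha.symm
      rcases mul_eq_zero.mp h2 with h3 | h3
      · exact absurd h3 hu1
      · rw [h3]; rfl
    · -- characteristic zero: `q` is prime to the order of `h`
      set n := orderOf h with hn
      have hnpos : 0 < n := orderOf_pos h
      have hnle : n ≤ Nat.card H := Nat.le_of_dvd Nat.card_pos (orderOf_dvd_natCard h)
      have hun : (g h) ^ n = 1 := by rw [← map_pow, hn, pow_orderOf_eq_one, map_one]
      have hN : ∑ i ∈ Finset.range n, (g h) ^ i = 0 := by
        have h2 : (g h - 1) * ∑ i ∈ Finset.range n, (g h) ^ i = 0 := by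
          rw [mul_geom_sum, hun, sub_self]
        rcases mul_eq_zero.mp h2 with h3 | h3
        · exact absurd h3 hu1
        · exact h3
      set Y : S := ∑ k ∈ Finset.range n, ∑ i ∈ Finset.range k, (g h) ^ i with hY
      have hYeq : Y * (g h - 1) = -(n : S) := by
        rw [hY, Finset.sum_mul]
        simp only [geom_sum_mul]
        rw [Finset.sum_sub_distrib, hN]
        simp
      have h3 : (n : S) * x ∈ J := by
        rw [hmemJ]
        refine ⟨-(Y * a), ?_⟩
        have h4 : Y * (g h - 1) * x = Y * (a * ((q : ℕ) : S)) := by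
          rw [mul_assoc, sub_mul, one_mul, ha]
        rw [hYeq] at h4
        rw [neg_mul, mul_assoc, ← h4, neg_mul, neg_neg]
      have h4 : n • (Submodule.Quotient.mk x : V) = 0 := by
        have h0 : n • (Submodule.Quotient.mk x : V) = Submodule.Quotient.mk (n • x) :=
          (map_nsmul (Submodule.mkQ J) n x).symm
        rw [h0, Submodule.Quotient.mk_eq_zero, nsmul_eq_mul]
        exact h3
      have hcop : Nat.Coprime n q := Nat.Coprime.symm
        ((Nat.Prime.coprime_iff_not_dvd hq).mpr
          (fun hd => absurd (Nat.le_of_dvd hnpos hd) (by omega)))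
      have h5 := addOrderOf_dvd_of_nsmul_eq_zero h4
      have h6 := addOrderOf_dvd_of_nsmul_eq_zero (hqV (Submodule.Quotient.mk x))
      have h7 := Nat.eq_one_of_dvd_coprimes hcop h5 h6
      exact AddMonoid.addOrderOf_eq_one_iff.mp h7
  obtain ⟨L, i1, i2, K, hK, ⟨e⟩⟩ := Cfsg.Agent.Lib.Frobenius.exists_frobenius_of_fpf (V := V) (H := H) hfpf
  obtain ⟨L₀, j1, j2, K₀, hK₀, ⟨e₀⟩⟩ := Cfsg.Agent.Lib.Frobenius.exists_frobenius_type0 hK
  exact ⟨L₀, j1, j2, K₀, hK₀, ⟨e.symm.trans e₀⟩⟩

end Cfsg.Agent.S4293
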