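import Cfsg.Statements.S4295
import Mathlib
import Cfsg.Agent.Lib.Frobenius.Square
import Cfsg.Agent.Lib.Frobenius.Quaternion
import Cfsg.Agent.Lib.Frobenius.Basic

set_option autoImplicit false
open Cfsg

namespace Cfsg.Agent.S4295

/-- For a natural number m the following are equivalent: (a) some finite group has a Frobenius complement isomorphic to the quaternion group of order 8 whose Frobenius kernel (the identity together with the elements lying in no conjugate of the complement) has exactly m elements; (b) m is an odd perfect square greater than 1. -/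
theorem result (m : ℕ) :
    (∃ (L : Type) (_ : Group L) (_ : Finite L) (H : Subgroup L), Cfsg.IsFrobeniusComplement H ∧
        Nonempty (H ≃* QuaternionGroup 2) ∧ Nat.card (Cfsg.frobeniusKernel H) = m) ↔
    (Odd m ∧ IsSquare m ∧ 1 < m) := by
  classical
  constructor
  · rintro ⟨L, i1, i2, H, hF, ⟨e⟩, hm⟩
    let a : L := (e.symm (QuaternionGroup.a 1) : H)
    let b : L := (e.symm (QuaternionGroup.xa 0) : H)
    have h1 : ((QuaternionGroup.a 1 : QuaternionGroup 2)) ^ 4 = 1 := by decide
    have h2 : ((QuaternionGroup.a 1 : QuaternionGroup 2)) ^ 2 ≠ 1 := by decide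
    have h3 : ((QuaternionGroup.xa 0 : QuaternionGroup 2)) ^ 2 = (QuaternionGroup.a 1) ^ 2 := by decide
    have h4 : ((QuaternionGroup.xa 0 : QuaternionGroup 2)) * (QuaternionGroup.a 1) * (QuaternionGroup.xa 0)⁻¹ = (QuaternionGroup.a 1)⁻¹ := by decide
    let f : QuaternionGroup 2 →* L := H.subtype.comp e.symm.toMonoidHom
    have hf : Function.Injective f := H.subtype_injective.comp e.symm.injective
    have hfa : f (QuaternionGroup.a 1) = a := rfl
    have hfb : f (QuaternionGroup.xa 0) = b := rfl
    obtain ⟨h5, h6⟩ := Cfsg.Agent.Lib.Frobenius.odd_isSquare_kernel_of_pair hF (a := a) (b := b)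
      (e.symm _).2 (e.symm _).2
      (by rw [← hfa, ← map_pow, h1, map_one])
      (by
        rw [← hfa, ← map_pow]
        intro h
        exact h2 (hf (h.trans (map_one f).symm)))
      (by rw [← hfa, ← hfb, ← map_pow, h3, map_pow])
      (by rw [← hfa, ← hfb, ← map_inv, ← map_mul, ← map_mul, h4, map_inv])
    rw [hm] at h5 h6
    refine ⟨h5, h6, ?_⟩
    have h7 := Cfsg.Agent.Lib.Hall.card_frobeniusKernel hF
    rw [hm] at h7
    rw [h7]
    have h8 : H.index ≠ 0 := Subgroup.index_ne_zero_of_finite
    have h9 : H.index ≠ 1 := fun h => hF.2.1 (Subgroup.index_eq_one.mp h)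
    omega
  · rintro ⟨hodd, ⟨k, rfl⟩, hm⟩
    have hk : Odd k := (Nat.odd_mul.mp hodd).1
    obtain ⟨V, i1, i2, i3, hV, hV2⟩ := Cfsg.Agent.Lib.Frobenius.exists_q8_module k hk
    haveI : Nontrivial V := by
      rw [← Finite.one_lt_card_iff_nontrivial, hV]
      exact hm
    have hVodd : Odd (Nat.card V) := by rw [hV]; exact hodd
    have hq : ∀ g : QuaternionGroup 2, g ≠ 1 → g = QuaternionGroup.a 2 ∨ g ^ 2 = QuaternionGroup.a 2 := by decide
    have hfpf : ∀ g : QuaternionGroup 2, g ≠ 1 → ∀ v : V, g • v = v → v = 0 := by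
      intro g hg v hv
      have h1 : (QuaternionGroup.a 2 : QuaternionGroup 2) • v = v := by
        rcases hq g hg with h | h
        · rwa [← h]
        · rw [← h, pow_two, mul_smul, hv, hv]
      rw [hV2] at h1
      have h2 : 2 • v = 0 := by
        rw [two_nsmul]
        nth_rewrite 1 [← h1]
        simp
      have h3 := addOrderOf_dvd_of_nsmul_eq_zero h2
      have h4 : addOrderOf v ∣ Nat.card V := addOrderOf_dvd_natCard v
      have h5 : Nat.Coprime 2 (Nat.card V) := (Nat.coprime_two_left).mpr hVodd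
      have h6 := Nat.eq_one_of_dvd_coprimes h5 h3 h4
      exact AddMonoid.addOrderOf_eq_one_iff.mp h6
    haveI : Nontrivial (QuaternionGroup 2) := ⟨⟨QuaternionGroup.a 0, QuaternionGroup.a 1, by decide⟩⟩
    obtain ⟨L, i4, i5, K, hK, he, hi⟩ := Cfsg.Agent.Lib.Frobenius.exists_frobenius_of_fpf_index hfpf
    refine ⟨L, i4, i5, K, hK, he, ?_⟩
    rw [Cfsg.Agent.Lib.Hall.card_frobeniusKernel hK, hi, hV]

end Cfsg.Agent.S4295
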