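import Cfsg.Statements.S4296
import Mathlib
import Cfsg.Agent.Lib.Frobenius.Square
import Cfsg.Agent.Lib.Frobenius.Quaternion
import Cfsg.Agent.Lib.FF.RankOne
import Cfsg.Agent.Lib.Hall.FPFAction

set_option autoImplicit false
open Cfsg

namespace Cfsg.Agent.S4296

/-- Let H be a Frobenius complement in a finite group, and suppose some Sylow subgroup of H is not cyclic. Then the number of elements of the Frobenius kernel (the identity together with the elements lying in no conjugate of H) is an odd perfect square. -/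
theorem result {L : Type*} [Group L] [Finite L] (H : Subgroup L) (hF : Cfsg.IsFrobeniusComplement H)
    (hZ : ∃ (p : ℕ) (_ : Fact p.Prime) (P : Sylow p H), ¬ IsCyclic P) :
    Odd (Nat.card (Cfsg.frobeniusKernel H)) ∧ IsSquare (Nat.card (Cfsg.frobeniusKernel H)) := by
  classical
  obtain ⟨p, hfact, P, hP⟩ := hZ
  obtain ⟨N, hN, hNn, hc⟩ := Cfsg.Agent.Lib.FrobThm.frobenius_theorem H hF
  haveI := hNn
  have hNbot : N ≠ ⊥ := by
    rintro rfl
    apply hF.2.1
    have h1 := hc.sup_eq_top
    rwa [bot_sup_eq] at h1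
  have hfpf := (Cfsg.Agent.Lib.Hall.frobenius_iff_fpf N H hc hNbot hF.1).mp hF
  have hcop := Cfsg.Agent.Lib.Hall.coprime_card_kernel hF hN
  have hcyc : ∀ E : Subgroup L, E ≤ H → IsMulCommutative E → IsCyclic E := by
    intro E hEH hE
    have hEN : E ≤ Subgroup.normalizer (N : Set L) := by
      rw [Subgroup.normalizer_eq_top_iff.mpr hNn]
      exact le_top
    have hcopE : (Nat.card E).Coprime (Nat.card N) :=
      Nat.Coprime.coprime_dvd_left (Subgroup.card_dvd_of_le hEH) hcop.symm
    have hsol : Group.IsSolvable E := by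
      letI : CommGroup E := { (inferInstance : Group E) with mul_comm := hE.is_comm.comm }
      infer_instance
    obtain ⟨V, hVN, hVne, hVab, hEV⟩ :=
      Cfsg.Agent.Lib.Hall.exists_abelian_invariant E N hEN hcopE hsol hNbot
    haveI := hVab
    refine Cfsg.Agent.Lib.Hall.isCyclic_of_fpf E V hVne hEV (fun a ha ha1 => ?_) (Or.inl hE)
    rw [eq_bot_iff]
    rw [← hfpf a (hEH ha) ha1]
    exact inf_le_inf_right _ hVN
  have hcycX : ∀ E : Subgroup (P : Subgroup H), IsMulCommutative E → IsCyclic E := by
    intro E hE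
    let f : (P : Subgroup H) →* L := H.subtype.comp (P : Subgroup H).subtype
    have hf : Function.Injective f :=
      H.subtype_injective.comp (P : Subgroup H).subtype_injective
    have h1 : E.map f ≤ H := by
      rintro _ ⟨x, -, rfl⟩
      exact (x : H).2
    have h2 : IsMulCommutative (E.map f) := by
      refine ⟨⟨?_⟩⟩
      rintro ⟨_, x, hx, rfl⟩ ⟨_, y, hy, rfl⟩
      apply Subtype.ext
      have := hE.is_comm.comm ⟨x, hx⟩ ⟨y, hy⟩
      have h3 : x * y = y * x := congrArg Subtype.val this
      show f x * f y = f y * f x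
      rw [← map_mul, h3, map_mul]
    haveI := hcyc _ h1 h2
    exact isCyclic_of_injective (E.equivMapOfInjective f hf).toMonoidHom (E.equivMapOfInjective f hf).injective
  by_cases hp2 : p = 2
  · subst hp2
    obtain ⟨a, b, ha4, ha2, hb2, hba⟩ :=
      Cfsg.Agent.Lib.Frobenius.exists_q8_pair P.isPGroup' hcycX hP
    let f : (P : Subgroup H) →* L := H.subtype.comp (P : Subgroup H).subtype
    have hf : Function.Injective f :=
      H.subtype_injective.comp (P : Subgroup H).subtype_injective
    refine Cfsg.Agent.Lib.Frobenius.odd_isSquare_kernel_of_pair hF (a := f a) (b := f b)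
      (a : H).2 (b : H).2 ?_ ?_ ?_ ?_
    · rw [← map_pow, ha4, map_one]
    · rw [← map_pow]
      intro h
      exact ha2 (hf (h.trans (map_one f).symm))
    · rw [← map_pow, hb2, map_pow]
    · rw [← map_mul, ← map_inv, ← map_mul, hba, map_inv]
  · exfalso
    apply hP
    refine Cfsg.Agent.Lib.FF.isCyclic_of_rank_le_one P.isPGroup' hp2 (fun E hE hexp => ?_)
    haveI := hcycX E hE
    obtain ⟨g, hg⟩ := IsCyclic.exists_generator (α := E)
    have h1 : Nat.card E = orderOf g := (orderOf_eq_card_of_forall_mem_zpowers hg).symm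
    have h2 : g ^ p = 1 := Subtype.ext (hexp _ g.2)
    rw [h1]
    exact orderOf_le_of_pow_eq_one (Fact.out : p.Prime).pos h2

end Cfsg.Agent.S4296
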