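import Cfsg.Statements.S4300
import Mathlib
import Cfsg.Agent.Lib.Derangement.Basic

set_option autoImplicit false
open Cfsg

namespace Cfsg.Agent.S4300

/-- Let G act faithfully and primitively on a set X, and suppose the stabilizer of some point is a simple group. Then either G is simple, or G has a normal subgroup, neither trivial nor the whole group, that acts regularly on X (transitively with trivial point stabilizers). -/
theorem result {G : Type*} [Group G] {X : Type*} [MulAction G X] [FaithfulSMul G X]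
    (hprim : MulAction.IsPreprimitive G X) (x : X) (hsimple : IsSimpleGroup (MulAction.stabilizer G x)) :
    IsSimpleGroup G ∨ ∃ N : Subgroup G, N.Normal ∧ N ≠ ⊥ ∧ N ≠ ⊤ ∧
      MulAction.IsPretransitive N X ∧ ∀ y : X, MulAction.stabilizer N y = ⊥ := by
  classical
  by_contra hcon
  push Not at hcon
  obtain ⟨hns, hreg⟩ := hcon
  haveI := hprim
  haveI hnt : Nontrivial G := by
    obtain ⟨a, b, hab⟩ := hsimple.exists_pair_ne
    exact ⟨⟨a, b, fun h => hab (Subtype.ext h)⟩⟩
  -- a proper nontrivial normal subgroup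
  have hex : ∃ N : Subgroup G, N.Normal ∧ N ≠ ⊥ ∧ N ≠ ⊤ := by
    by_contra hno
    push Not at hno
    apply hns
    refine ⟨fun N hN => ?_⟩
    by_cases hb : N = ⊥
    · exact Or.inl hb
    · exact Or.inr (hno N hN hb)
  obtain ⟨N, hN, hN1, hN2⟩ := hex
  have htr := Cfsg.Agent.Lib.Derangement.trans_of_normal (Ω := X) hN1
  have hpre : MulAction.IsPretransitive N X := by
    refine ⟨fun a b => ?_⟩
    obtain ⟨s, hs, h⟩ := htr a b
    exact ⟨⟨s, hs⟩, h⟩
  -- `N ∩ G_x` is normal in `G_x`
  let L : Subgroup (MulAction.stabilizer G x) := N.subgroupOf (MulAction.stabilizer G x)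
  haveI hLn : L.Normal := Subgroup.Normal.subgroupOf hN _
  rcases hsimple.eq_bot_or_eq_top_of_normal L hLn with hL | hL
  · -- regular
    obtain ⟨y, hy⟩ := hreg N hN hN1 hN2 hpre
    apply hy
    obtain ⟨n, hn⟩ := MulAction.exists_smul_eq N x y
    rw [eq_bot_iff]
    intro a ha
    rw [Subgroup.mem_bot]
    have h1 : ((n : G)⁻¹ * (a : G) * n) ∈ MulAction.stabilizer G x := by
      rw [MulAction.mem_stabilizer_iff, mul_smul, mul_smul]
      have h2 : (n : G) • x = y := hn
      have h3 : (a : G) • y = y := ha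
      rw [h2, h3, ← h2, inv_smul_smul]
    have h2 : ((n : G)⁻¹ * (a : G) * n) ∈ N := N.mul_mem (N.mul_mem (N.inv_mem n.2) a.2) n.2
    have h3 : (⟨_, h1⟩ : MulAction.stabilizer G x) ∈ L := h2
    rw [hL, Subgroup.mem_bot] at h3
    have h4 : (n : G)⁻¹ * (a : G) * n = 1 := congrArg Subtype.val h3
    have h5 : (a : G) = 1 := by
      have : (n : G) * ((n : G)⁻¹ * (a : G) * n) * (n : G)⁻¹ = 1 := by rw [h4]; group
      simpa [mul_assoc] using this
    exact Subtype.ext h5
  · -- `G_x ≤ N` and then `N = G`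
    apply hN2
    rw [eq_top_iff]
    intro g _
    obtain ⟨n, hn⟩ := MulAction.exists_smul_eq N (g • x) x
    have h1 : (n : G) * g ∈ MulAction.stabilizer G x := by
      rw [MulAction.mem_stabilizer_iff, mul_smul]
      exact hn
    have h2 : (⟨_, h1⟩ : MulAction.stabilizer G x) ∈ L := by rw [hL]; trivial
    have h3 : (n : G) * g ∈ N := h2
    simpa using N.mul_mem (N.inv_mem n.2) h3

end Cfsg.Agent.S4300
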