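import Cfsg.Statements.S4301
import Mathlib

set_option autoImplicit false
open Cfsg

namespace Cfsg.Agent.S4301

/-- One-point extension of a multiply transitive group. Let X be a set and G a group of permutations of Option X (the set X with one extra point ∗ = none) all of whose elements fix ∗, such that G is k-transitive on the points of X for some k ≥ 2, X having at least k points. Suppose a permutation h of Option X and an element g of G satisfy: h interchanges ∗ with a point x of X and fixes a point y of X; g interchanges x and y; (g h)³ and h² lie in G; and for every f in G fixing x, the product h f h lies in G and fixes x. Then an element of the group generated by G and h fixes ∗ exactly when it lies in G, and that group acts (k+1)-transitively on Option X. -/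
theorem result {X : Type*} (G : Subgroup (Equiv.Perm (Option X))) (hfix : ∀ f ∈ G, f none = none)
    (k : ℕ) (hk : 2 ≤ k) (hkX : Nonempty (Fin k ↪ X))
    (htrans : ∀ a b : Fin k ↪ X, ∃ f ∈ G, ∀ i, f (some (a i)) = some (b i))
    (h g : Equiv.Perm (Option X)) (hg : g ∈ G) (x y : X)
    (h1 : h none = some x) (h2 : h (some x) = none) (h3 : h (some y) = some y)
    (h4 : g (some x) = some y) (h5 : g (some y) = some x)
    (h6 : (g * h) ^ 3 ∈ G) (h7 : h ^ 2 ∈ G)
    (h8 : ∀ f ∈ G, f (some x) = some x → h * f * h ∈ G ∧ (h * f * h) (some x) = some x) :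
    (∀ f ∈ Subgroup.closure ((G : Set (Equiv.Perm (Option X))) ∪ {h}), f none = none ↔ f ∈ G) ∧
      MulAction.IsMultiplyPretransitive (Subgroup.closure ((G : Set (Equiv.Perm (Option X))) ∪ {h})) (Option X) (k + 1) := by
  classical
  have hGT : G ≤ Subgroup.closure ((G : Set (Equiv.Perm (Option X))) ∪ {h}) :=
    fun f hf => Subgroup.subset_closure (Or.inl hf)
  have hhT : h ∈ Subgroup.closure ((G : Set (Equiv.Perm (Option X))) ∪ {h}) :=
    Subgroup.subset_closure (Or.inr rfl)
  have hxy : x ≠ y := by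
    rintro rfl
    rw [h2] at h3
    simp at h3
  have hsome : ∀ f ∈ G, ∀ z : X, ∃ z', f (some z) = some z' := by
    intro f hf z
    rcases hc : f (some z) with _ | z'
    · exact absurd (f.injective (hc.trans (hfix f hf).symm)) (by simp)
    · exact ⟨z', rfl⟩
  obtain ⟨e⟩ := hkX
  let i0 : Fin k := ⟨0, by omega⟩
  let i1 : Fin k := ⟨1, by omega⟩
  have hi : i0 ≠ i1 := by simp [i0, i1, Fin.ext_iff]
  have hperm : ∀ (p q p' q' : X), p ≠ q → p' ≠ q' → ∃ π : Equiv.Perm X, π p = p' ∧ π q = q' := by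
    intro p q p' q' hpq hpq'
    haveI : MulAction.IsMultiplyPretransitive (Equiv.Perm X) X 2 :=
      Equiv.Perm.isMultiplyPretransitive X 2
    let u : Fin 2 ↪ X := ⟨![p, q], by
      intro a b hab
      fin_cases a <;> fin_cases b <;> simp_all⟩
    let v : Fin 2 ↪ X := ⟨![p', q'], by
      intro a b hab
      fin_cases a <;> fin_cases b <;> simp_all⟩
    obtain ⟨π, hπ⟩ := MulAction.exists_smul_eq (Equiv.Perm X) u v
    have h0 := congrArg (fun w : Fin 2 ↪ X => w 0) hπ
    have h1 := congrArg (fun w : Fin 2 ↪ X => w 1) hπ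
    exact ⟨π, h0, h1⟩
  have hpair : ∀ z z', z ≠ x → z' ≠ x → ∃ a ∈ G, a (some x) = some x ∧ a (some z) = some z' := by
    intro z z' hz hz'
    obtain ⟨π₁, h11, h12⟩ := hperm (e i0) (e i1) x z (e.injective.ne hi) hz.symm
    obtain ⟨π₂, h21, h22⟩ := hperm (e i0) (e i1) x z' (e.injective.ne hi) hz'.symm
    obtain ⟨a, ha, hai⟩ := htrans (e.trans π₁.toEmbedding) (e.trans π₂.toEmbedding)
    refine ⟨a, ha, ?_, ?_⟩
    · have := hai i0
      simpa [h11, h21] using this
    · have := hai i1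
      simpa [h12, h22] using this
  have hPhh : ∀ c ∈ G, h * c * h ∈ G ∨ ∃ a ∈ G, ∃ b ∈ G, h * c * h = a * h * b := by
    intro c hc
    by_cases hcx : c (some x) = some x
    · exact Or.inl (h8 c hc hcx).1
    · right
      obtain ⟨z, hz⟩ := hsome c hc x
      have hzx : z ≠ x := by
        rintro rfl
        exact hcx hz
      obtain ⟨a, ha, ha1, ha2⟩ := hpair z y hzx hxy.symm
      have hb : g⁻¹ * a * c ∈ G := G.mul_mem (G.mul_mem (G.inv_mem hg) ha) hc
      have hbx : (g⁻¹ * a * c) (some x) = some x := by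
        show g⁻¹ (a (c (some x))) = _
        rw [hz, ha2, ← h4]
        simp
      have hax : a⁻¹ (some x) = some x := by
        rw [Equiv.Perm.inv_eq_iff_eq]
        exact ha1.symm
      have ha' := G.inv_mem ha
      obtain ⟨hh1, -⟩ := h8 _ ha' hax
      obtain ⟨hh2, -⟩ := h8 _ hb hbx
      refine ⟨(h * a⁻¹ * h) * (h ^ 2)⁻¹ * g⁻¹ * (g * h) ^ 3 * (h ^ 2)⁻¹,
        G.mul_mem (G.mul_mem (G.mul_mem (G.mul_mem hh1 (G.inv_mem h7)) (G.inv_mem hg)) h6) (G.inv_mem h7),
        g⁻¹ * (h ^ 2)⁻¹ * (h * (g⁻¹ * a * c) * h),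
        G.mul_mem (G.mul_mem (G.inv_mem hg) (G.inv_mem h7)) hh2, ?_⟩
      simp only [pow_succ, pow_zero, one_mul]
      group
  have hmul : ∀ f₁ f₂ : Equiv.Perm (Option X),
      (f₁ ∈ G ∨ ∃ a ∈ G, ∃ b ∈ G, f₁ = a * h * b) → (f₂ ∈ G ∨ ∃ a ∈ G, ∃ b ∈ G, f₂ = a * h * b) →
      (f₁ * f₂ ∈ G ∨ ∃ a ∈ G, ∃ b ∈ G, f₁ * f₂ = a * h * b) := by
    rintro f₁ f₂ (h₁ | ⟨a, ha, b, hb, rfl⟩) (h₂ | ⟨c, hc, d, hd, rfl⟩)
    · exact Or.inl (G.mul_mem h₁ h₂)
    · exact Or.inr ⟨f₁ * c, G.mul_mem h₁ hc, d, hd, by group⟩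
    · exact Or.inr ⟨a, ha, b * f₂, G.mul_mem hb h₂, by group⟩
    · have h0 : a * h * b * (c * h * d) = a * (h * (b * c) * h) * d := by group
      rw [h0]
      rcases hPhh (b * c) (G.mul_mem hb hc) with h9 | ⟨a', ha', b', hb', h10⟩
      · exact Or.inl (G.mul_mem (G.mul_mem ha h9) hd)
      · refine Or.inr ⟨a * a', G.mul_mem ha ha', b' * d, G.mul_mem hb' hd, ?_⟩
        rw [h10]
        group
  have hinv : ∀ f : Equiv.Perm (Option X),
      (f ∈ G ∨ ∃ a ∈ G, ∃ b ∈ G, f = a * h * b) → (f⁻¹ ∈ G ∨ ∃ a ∈ G, ∃ b ∈ G, f⁻¹ = a * h * b) := by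
    rintro f (h₁ | ⟨a, ha, b, hb, rfl⟩)
    · exact Or.inl (G.inv_mem h₁)
    · refine Or.inr ⟨b⁻¹ * (h ^ 2)⁻¹, G.mul_mem (G.inv_mem hb) (G.inv_mem h7), a⁻¹, G.inv_mem ha, ?_⟩
      group
  have hall : ∀ f ∈ Subgroup.closure ((G : Set (Equiv.Perm (Option X))) ∪ {h}),
      f ∈ G ∨ ∃ a ∈ G, ∃ b ∈ G, f = a * h * b := by
    intro f hf
    induction hf using Subgroup.closure_induction with
    | mem f hf =>
      rcases hf with hf | rfl
      · exact Or.inl hf
      · exact Or.inr ⟨1, G.one_mem, 1, G.one_mem, by group⟩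
    | one => exact Or.inl G.one_mem
    | mul a b _ _ ha hb => exact hmul a b ha hb
    | inv a _ ha => exact hinv a ha
  refine ⟨?_, ?_⟩
  · intro f hf
    refine ⟨fun hn => ?_, hfix f⟩
    rcases hall f hf with h₁ | ⟨a, ha, b, hb, rfl⟩
    · exact h₁
    · exfalso
      obtain ⟨z', hz'⟩ := hsome a ha x
      have h9 : (a * h * b) none = a (h (b none)) := rfl
      rw [h9, hfix b hb, h1, hz'] at hn
      simp at hn
  · -- `(k+1)`-transitivity
    have hmove : ∀ w : Option X, ∃ t ∈ Subgroup.closure ((G : Set (Equiv.Perm (Option X))) ∪ {h}), t w = none := by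
      intro w
      rcases w with _ | z
      · exact ⟨1, Subgroup.one_mem _, rfl⟩
      · by_cases hz : z = x
        · subst hz
          exact ⟨h, hhT, h2⟩
        · obtain ⟨a, ha, -, ha2⟩ := hpair z y hz hxy.symm
          refine ⟨h * (g * a), Subgroup.mul_mem _ hhT (hGT (G.mul_mem hg ha)), ?_⟩
          show h (g (a (some z))) = none
          rw [ha2, h5, h2]
    refine ⟨fun u v => ?_⟩
    obtain ⟨t₁, ht₁, hu⟩ := hmove (u 0)
    obtain ⟨t₂, ht₂, hv⟩ := hmove (v 0)
    have hu' : ∀ i : Fin k, ∃ z, t₁ (u i.succ) = some z := by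
      intro i
      apply Option.ne_none_iff_exists'.mp
      intro h0
      have := u.injective (t₁.injective (h0.trans hu.symm))
      exact (Fin.succ_ne_zero i) this
    have hv' : ∀ i : Fin k, ∃ z, t₂ (v i.succ) = some z := by
      intro i
      apply Option.ne_none_iff_exists'.mp
      intro h0
      have := v.injective (t₂.injective (h0.trans hv.symm))
      exact (Fin.succ_ne_zero i) this
    choose zu hzu using hu'
    choose zv hzv using hv'
    have hzui : Function.Injective zu := by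
      intro i j hij
      have h9 : t₁ (u i.succ) = t₁ (u j.succ) := by rw [hzu, hzu, hij]
      exact Fin.succ_injective _ (u.injective (t₁.injective h9))
    have hzvi : Function.Injective zv := by
      intro i j hij
      have h9 : t₂ (v i.succ) = t₂ (v j.succ) := by rw [hzv, hzv, hij]
      exact Fin.succ_injective _ (v.injective (t₂.injective h9))
    obtain ⟨f, hf, hfi⟩ := htrans ⟨zu, hzui⟩ ⟨zv, hzvi⟩
    refine ⟨⟨t₂⁻¹ * f * t₁, Subgroup.mul_mem _ (Subgroup.mul_mem _ (Subgroup.inv_mem _ ht₂) (hGT hf)) ht₁⟩, ?_⟩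
    apply Function.Embedding.ext
    intro i
    refine Fin.cases ?_ (fun j => ?_) i
    · show t₂⁻¹ (f (t₁ (u 0))) = v 0
      rw [hu, hfix f hf, ← hv]
      simp
    · show t₂⁻¹ (f (t₁ (u j.succ))) = v j.succ
      rw [hzu, show f (some (zu j)) = some (zv j) from hfi j, ← hzv]
      simp

end Cfsg.Agent.S4301
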