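import Cfsg.Statements.S4303
import Mathlib
import Cfsg.Agent.Lib.ClassSizes.SylowFactor

set_option autoImplicit false
universe u
open Cfsg

namespace Cfsg.Agent.S4303

/-- For a finite group `G` and a prime `p`, the number of Sylow `p`-subgroups of `G` is a product of natural numbers each of which is either a prime power congruent to 1 modulo `p` or the number of Sylow `p`-subgroups of some finite simple group. -/
theorem result {G : Type u} [Group G] [Finite G]
    (p : ℕ) [Fact p.Prime] :
    ∃ l : List ℕ, l.prod = Nat.card (Sylow p G) ∧
      ∀ m ∈ l, (IsPrimePow m ∧ m % p = 1) ∨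
        ∃ (S : Type u) (_ : Group S) (_ : Finite S), IsSimpleGroup S ∧ m = Nat.card (Sylow p S) := by
  exact Cfsg.Agent.Lib.ClassSizes.SylowFactor.exists_list_simple p

end Cfsg.Agent.S4303
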