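import Cfsg.Statements.S4305
import Mathlib
import Cfsg.Agent.Lib.ClassSizes.S3F8

set_option autoImplicit false
open Cfsg

namespace Cfsg.Agent.S4305

/-- Let the symmetric group of degree 3 act by automorphisms on a finite solvable group `G` of order prime to 6, so that only the identity of `G` is fixed by all of it. Then the derived subgroup of `G` is nilpotent. -/
theorem result {G : Type*} [Group G] [Finite G] [Group.IsSolvable G]
    [MulDistribMulAction (Equiv.Perm (Fin 3)) G] (hcop : (Nat.card G).Coprime 6)
    (hfpf : ∀ g : G, (∀ a : Equiv.Perm (Fin 3), a • g = g) → g = 1) :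
    Group.IsNilpotent ↥(commutator G) := by
  classical
  let α : Equiv.Perm (Fin 3) := finRotate 3
  let β : Equiv.Perm (Fin 3) := Equiv.swap 0 1
  have hα3 : α * (α * α) = 1 := by decide
  have hβ2 : β * β = 1 := by decide
  have hβα : β * α = α * (α * β) := by decide
  have hall : ∀ g : Equiv.Perm (Fin 3),
      g = 1 ∨ g = α ∨ g = α * α ∨ g = β ∨ g = α * β ∨ g = α * (α * β) := by decide
  let τ := MulDistribMulAction.toMulAut (Equiv.Perm (Fin 3)) G
  have hτ : ∀ (g : Equiv.Perm (Fin 3)) (x : G), τ g x = g • x := fun _ _ => rfl
  let σ : Lib.ClassSizes.S3F.S3A G :=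
    { a := τ α
      b := τ β
      a3 := fun x => by
        simp only [hτ, smul_smul, hα3, one_smul]
      b2 := fun x => by
        simp only [hτ, smul_smul, hβ2, one_smul]
      ba := fun x => by
        simp only [hτ, smul_smul, hβα]
      fpf := fun x h1 h2 => by
        simp only [hτ] at h1 h2
        apply hfpf
        intro g
        rcases hall g with rfl | rfl | rfl | rfl | rfl | rfl
        · exact one_smul _ _
        · exact h1
        · rw [mul_smul, h1, h1]
        · exact h2
        · rw [mul_smul, h2, h1]
        · rw [mul_smul, mul_smul, h2, h1, h1] }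
  exact Lib.ClassSizes.S3F.main _ G σ rfl hcop

end Cfsg.Agent.S4305
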