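import Cfsg.Statements.S4320
import Mathlib

set_option autoImplicit false
open Cfsg

open scoped commutatorElement

namespace Cfsg.Agent.S4320

section Pairing

variable {Q A : Type*} [CommGroup Q] [Fintype Q] [CommGroup A]

/-- Pairing of the integral group ring with `A`-valued functions on `Q`. -/
noncomputable def pr (x : MonoidAlgebra ℤ Q) (f : Q → A) : A := ∏ u, f u ^ (x.coeff u)

lemma pr_zero (f : Q → A) : pr (0 : MonoidAlgebra ℤ Q) f = 1 := by simp [pr]

lemma pr_add (x y : MonoidAlgebra ℤ Q) (f : Q → A) : pr (x + y) f = pr x f * pr y f := by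
  simp [pr, MonoidAlgebra.coeff_add, zpow_add, Finset.prod_mul_distrib]

lemma pr_neg (x : MonoidAlgebra ℤ Q) (f : Q → A) : pr (-x) f = (pr x f)⁻¹ := by
  have h : pr (-x + x) f = 1 := by rw [neg_add_cancel, pr_zero]
  rw [pr_add] at h
  exact eq_inv_of_mul_eq_one_left h

lemma pr_sub (x y : MonoidAlgebra ℤ Q) (f : Q → A) : pr (x - y) f = pr x f * (pr y f)⁻¹ := by
  rw [sub_eq_add_neg, pr_add, pr_neg]

lemma pr_sum {ι : Type*} (s : Finset ι) (x : ι → MonoidAlgebra ℤ Q) (f : Q → A) :
    pr (∑ i ∈ s, x i) f = ∏ i ∈ s, pr (x i) f := by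
  classical
  induction s using Finset.induction_on with
  | empty => simp [pr_zero]
  | insert a s ha ih => rw [Finset.sum_insert ha, Finset.prod_insert ha, pr_add, ih]

lemma pr_zsmul (k : ℤ) (x : MonoidAlgebra ℤ Q) (f : Q → A) : pr (k • x) f = (pr x f) ^ k := by
  simp only [pr, MonoidAlgebra.coeff_smul, Finsupp.smul_apply, smul_eq_mul]
  rw [← Finset.prod_zpow]
  apply Finset.prod_congr rfl
  intro u _
  rw [mul_comm, zpow_mul]

lemma pr_mul_fun (x : MonoidAlgebra ℤ Q) (f g : Q → A) :
    pr x (fun u => f u * g u) = pr x f * pr x g := by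
  simp [pr, mul_zpow, Finset.prod_mul_distrib]

lemma pr_inv_fun (x : MonoidAlgebra ℤ Q) (f : Q → A) :
    pr x (fun u => (f u)⁻¹) = (pr x f)⁻¹ := by
  simp [pr, inv_zpow, Finset.prod_inv_distrib]

lemma pr_single_mul (v : Q) (x : MonoidAlgebra ℤ Q) (f : Q → A) :
    pr (MonoidAlgebra.single v (1 : ℤ) * x) f = pr x (fun y => f (v * y)) := by
  unfold pr
  simp only [MonoidAlgebra.coeff_single_mul_apply, one_mul]
  exact Fintype.prod_equiv (Equiv.mulLeft v⁻¹) _ _ (fun u => by simp)

lemma pr_single (v : Q) (f : Q → A) : pr (MonoidAlgebra.single v (1 : ℤ)) f = f v := by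
  classical
  unfold pr
  rw [Finset.prod_eq_single v]
  · simp
  · intro b _ hb
    simp [MonoidAlgebra.coeff_single, Finsupp.single_apply, hb.symm]
  · simp

lemma pr_one (f : Q → A) : pr (1 : MonoidAlgebra ℤ Q) f = f 1 := by
  rw [MonoidAlgebra.one_def, pr_single]

lemma map_pr {B : Type*} [CommGroup B] (α : A →* B) (x : MonoidAlgebra ℤ Q) (f : Q → A) :
    α (pr x f) = pr x (fun u => α (f u)) := by
  simp [pr, map_prod, map_zpow]

end Pairing

section Pure

variable {Q : Type*} [CommGroup Q] [Fintype Q]

/-- Augmentation. -/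
noncomputable def eps : MonoidAlgebra ℤ Q →+* ℤ :=
  (MonoidAlgebra.lift ℤ ℤ Q (1 : Q →* ℤ)).toRingHom

lemma eps_single (v : Q) : eps (MonoidAlgebra.single v (1 : ℤ)) = 1 := by
  simp [eps, MonoidAlgebra.lift_single]

lemma eps_eq_sum (y : MonoidAlgebra ℤ Q) : eps y = ∑ u, y.coeff u := by
  simp only [eps, AlgHom.toRingHom_eq_coe, RingHom.coe_coe, MonoidAlgebra.lift_apply]
  rw [Finsupp.sum_fintype _ _ (by simp)]
  simp

lemma adj_row {R J : Type*} [CommRing R] [Fintype J] [DecidableEq J] (P : Matrix J J R) (k : J) :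
    P.det • (Pi.single k 1 : J → R) = ∑ j, (P.adjugate k j) • (P j) := by
  funext m
  have := congrFun (congrFun (Matrix.adjugate_mul P) k) m
  simp only [Matrix.mul_apply, Matrix.smul_apply, Matrix.one_apply] at this
  simp only [Pi.smul_apply, Finset.sum_apply, smul_eq_mul, Pi.single_apply]
  rw [this]
  by_cases h : m = k
  · simp [h]
  · simp [h, Ne.symm h]

lemma det_ann {R J : Type*} [CommRing R] [Fintype J] [DecidableEq J] (P : Matrix J J R) (Δ : J → R)
    (h : ∀ j, ∑ m, P j m * Δ m = 0) (m : J) : P.det * Δ m = 0 := by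
  have hP : P.mulVec Δ = 0 := by
    funext j
    simpa [Matrix.mulVec, dotProduct] using h j
  have h2 := congrArg P.adjugate.mulVec hP
  rw [Matrix.mulVec_mulVec, Matrix.adjugate_mul, Matrix.smul_mulVec, Matrix.one_mulVec,
    Matrix.mulVec_zero] at h2
  simpa using congrFun h2 m

lemma det_coeff_one {J : Type*} [Fintype J] [DecidableEq J] (y : J → Q)
    (hgen : Subgroup.closure (Set.range y) = ⊤) (P : Matrix J J (MonoidAlgebra ℤ Q)) (n : J → ℕ)
    (hcard : ∏ j, n j = Nat.card Q)
    (hrow : ∀ j, ∑ m, P j m * (MonoidAlgebra.single (y m) (1 : ℤ) - 1) = 0)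
    (hε : ∀ j m, eps (P j m) = if m = j then (n j : ℤ) else 0) (u : Q) : P.det.coeff u = 1 := by
  classical
  have hann := det_ann P (fun m => MonoidAlgebra.single (y m) (1 : ℤ) - 1) hrow
  obtain ⟨ρ, hρ⟩ : ∃ ρ, ρ = P.det := ⟨_, rfl⟩
  rw [← hρ] at hann ⊢
  have hT : ∀ v : Q, ρ * MonoidAlgebra.single v (1 : ℤ) = ρ := by
    have hTtop : (Subgroup.closure (Set.range y) : Subgroup Q) ≤
        { carrier := {v | ρ * MonoidAlgebra.single v (1 : ℤ) = ρ}
          mul_mem' := by
            intro a b ha hb
            have h3 : MonoidAlgebra.single (a * b) (1 : ℤ) = MonoidAlgebra.single a (1 : ℤ) * MonoidAlgebra.single b (1 : ℤ) := by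
              simp [MonoidAlgebra.single_mul_single]
            show ρ * _ = ρ
            rw [h3, ← mul_assoc, ha, hb]
          one_mem' := by
            show ρ * _ = ρ
            rw [← MonoidAlgebra.one_def, mul_one]
          inv_mem' := by
            intro a ha
            have h3 : MonoidAlgebra.single a (1 : ℤ) * MonoidAlgebra.single a⁻¹ (1 : ℤ) = 1 := by
              simp [MonoidAlgebra.single_mul_single, MonoidAlgebra.one_def]
            show ρ * _ = ρ
            conv_lhs => rw [← ha]
            rw [mul_assoc, h3, mul_one] } := by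
      rw [Subgroup.closure_le]
      rintro _ ⟨m, rfl⟩
      have := hann m
      simp only [mul_sub, mul_one, sub_eq_zero] at this
      exact this
    intro v
    have : v ∈ Subgroup.closure (Set.range y) := by rw [hgen]; trivial
    exact hTtop this
  have hconst : ∀ u, ρ.coeff u = ρ.coeff 1 := by
    intro u
    have h3 := congrArg (fun y => y.coeff 1) (hT u⁻¹)
    simp only [MonoidAlgebra.coeff_mul_single_apply] at h3
    simpa using h3
  have hP : (eps (Q := Q)).mapMatrix P = Matrix.diagonal (fun j => (n j : ℤ)) := by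
    ext j m
    simp only [RingHom.mapMatrix_apply, Matrix.map_apply, hε, Matrix.diagonal_apply]
    by_cases h : m = j
    · simp [h]
    · simp [h, Ne.symm h]
  have hdet : eps ρ = ∏ j, (n j : ℤ) := by
    rw [hρ, RingHom.map_det, hP, Matrix.det_diagonal]
  rw [eps_eq_sum, Finset.sum_congr rfl (fun u _ => hconst u), Finset.sum_const, Finset.card_univ,
    ← Nat.cast_prod, hcard, Nat.card_eq_fintype_card] at hdet
  have hpos : (Fintype.card Q : ℤ) ≠ 0 := by
    exact_mod_cast Fintype.card_ne_zero
  have h1 : ρ.coeff 1 = 1 := by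
    have : (Fintype.card Q : ℤ) * ρ.coeff 1 = (Fintype.card Q : ℤ) * 1 := by
      rw [mul_one]
      simpa using hdet
    exact mul_left_cancel₀ hpos this
  rw [hconst, h1]

end Pure

section Main

variable {G : Type*} [Group G]

/-- The abelianization map of the derived subgroup, extended by `1`. -/
noncomputable def ph (x : G) : Abelianization ↥(commutator G) := by
  classical
  exact if h : x ∈ commutator G then Abelianization.of ⟨x, h⟩ else 1

lemma ph_of_mem {x : G} (h : x ∈ commutator G) : ph x = Abelianization.of ⟨x, h⟩ := by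
  simp [ph, h]

lemma ph_mul {x y : G} (hx : x ∈ commutator G) (hy : y ∈ commutator G) :
    ph (x * y) = ph x * ph y := by
  rw [ph_of_mem hx, ph_of_mem hy, ph_of_mem (mul_mem hx hy), ← map_mul]
  rfl

lemma ph_inv {x : G} (hx : x ∈ commutator G) : ph x⁻¹ = (ph x)⁻¹ := by
  rw [ph_of_mem hx, ph_of_mem (inv_mem hx), ← map_inv]
  rfl

lemma mem_comm_iff {x : G} : x ∈ commutator G ↔ Abelianization.of x = 1 := by
  rw [← Abelianization.ker_of, MonoidHom.mem_ker]

/-- conjugation on the abelianization of the derived subgroup: `x ↦ w⁻¹ x w`. -/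
noncomputable def al (w : G) : Abelianization ↥(commutator G) →* Abelianization ↥(commutator G) :=
  Abelianization.map (MulAut.conjNormal (H := commutator G) w⁻¹).toMonoidHom

lemma al_ph (w : G) {x : G} (hx : x ∈ commutator G) : al w (ph x) = ph (w⁻¹ * x * w) := by
  have hx' : w⁻¹ * x * w ∈ commutator G := by
    have := (inferInstance : (commutator G).Normal).conj_mem x hx w⁻¹
    simpa using this
  rw [ph_of_mem hx, ph_of_mem hx', al, Abelianization.map_of]
  congr 1
  apply Subtype.ext
  simp [MulAut.conjNormal_apply]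

lemma exists_ph (a : Abelianization ↥(commutator G)) : ∃ x ∈ commutator G, ph x = a := by
  obtain ⟨x, rfl⟩ := QuotientGroup.mk_surjective a
  exact ⟨x.1, x.2, ph_of_mem x.2⟩

/-- edge values along a section -/
noncomputable def E (s : Abelianization G → G) (g : G) (u : Abelianization G) :
    Abelianization ↥(commutator G) :=
  ph ((s (Abelianization.of g * u))⁻¹ * g * s u)

lemma mem_edge {s : Abelianization G → G} (hs : ∀ u, Abelianization.of (s u) = u) (g : G)
    (u : Abelianization G) : (s (Abelianization.of g * u))⁻¹ * g * s u ∈ commutator G := by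
  rw [mem_comm_iff]
  simp [hs]

variable [Finite G]

noncomputable instance instFQ : Fintype (Abelianization G) := Fintype.ofFinite _

variable {J : Type*} [Fintype J] (g : J → G)

/-- the functional on 1-chains of the Cayley graph -/
noncomputable def Psi (s : Abelianization G → G) (z : J → MonoidAlgebra ℤ (Abelianization G)) :
    Abelianization ↥(commutator G) :=
  ∏ j, pr (z j) (E s (g j))

/-- the boundary -/
noncomputable def bd (z : J → MonoidAlgebra ℤ (Abelianization G)) :
    MonoidAlgebra ℤ (Abelianization G) :=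
  ∑ j, z j * (MonoidAlgebra.single (Abelianization.of (g j)) (1 : ℤ) - 1)

lemma Psi_add (s : Abelianization G → G) (z z' : J → MonoidAlgebra ℤ (Abelianization G)) :
    Psi g s (z + z') = Psi g s z * Psi g s z' := by
  simp [Psi, pr_add, Finset.prod_mul_distrib]

lemma Psi_zero (s : Abelianization G → G) : Psi g s (0 : J → MonoidAlgebra ℤ (Abelianization G)) = 1 := by
  simp [Psi, pr_zero]

lemma Psi_neg (s : Abelianization G → G) (z : J → MonoidAlgebra ℤ (Abelianization G)) :
    Psi g s (-z) = (Psi g s z)⁻¹ := by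
  simp [Psi, pr_neg, Finset.prod_inv_distrib]

lemma Psi_sub (s : Abelianization G → G) (z z' : J → MonoidAlgebra ℤ (Abelianization G)) :
    Psi g s (z - z') = Psi g s z * (Psi g s z')⁻¹ := by
  rw [sub_eq_add_neg, Psi_add, Psi_neg]

lemma Psi_zsmul (s : Abelianization G → G) (k : ℤ) (z : J → MonoidAlgebra ℤ (Abelianization G)) :
    Psi g s (k • z) = (Psi g s z) ^ k := by
  simp only [Psi, Pi.smul_apply, pr_zsmul]
  rw [← Finset.prod_zpow]

lemma Psi_single [DecidableEq J] (s : Abelianization G → G) (p : J)
    (x : MonoidAlgebra ℤ (Abelianization G)) :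
    Psi g s (Pi.single p x) = pr x (E s (g p)) := by
  unfold Psi
  rw [Finset.prod_eq_single p]
  · simp
  · intro b _ hb
    simp [Pi.single_apply, hb, pr_zero]
  · simp

lemma bd_add (z z' : J → MonoidAlgebra ℤ (Abelianization G)) : bd g (z + z') = bd g z + bd g z' := by
  simp [bd, add_mul, Finset.sum_add_distrib]

lemma bd_sub (z z' : J → MonoidAlgebra ℤ (Abelianization G)) : bd g (z - z') = bd g z - bd g z' := by
  simp [bd, sub_mul, Finset.sum_sub_distrib]

lemma bd_smul (x : MonoidAlgebra ℤ (Abelianization G)) (z : J → MonoidAlgebra ℤ (Abelianization G)) :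
    bd g (x • z) = x * bd g z := by
  simp [bd, Finset.mul_sum, mul_assoc]

lemma bd_single [DecidableEq J] (p : J) (x : MonoidAlgebra ℤ (Abelianization G)) :
    bd g (Pi.single p x) = x * (MonoidAlgebra.single (Abelianization.of (g p)) (1 : ℤ) - 1) := by
  unfold bd
  rw [Finset.sum_eq_single p]
  · simp
  · intro b _ hb
    simp [Pi.single_apply, hb]
  · simp

/-- `Psi` on cycles is independent of the section. -/
lemma Psi_section {s t : Abelianization G → G} (hs : ∀ u, Abelianization.of (s u) = u)
    (ht : ∀ u, Abelianization.of (t u) = u)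
    (z : J → MonoidAlgebra ℤ (Abelianization G)) (hz : bd g z = 0) :
    Psi g s z = Psi g t z := by
  set b : Abelianization G → Abelianization ↥(commutator G) := fun y => ph ((t y)⁻¹ * s y) with hb
  have hbm : ∀ y, (t y)⁻¹ * s y ∈ commutator G := fun y => by
    rw [mem_comm_iff]; simp [hs, ht]
  have hE : ∀ (a : G) (u), E s a u = (b (Abelianization.of a * u))⁻¹ * (E t a u * b u) := by
    intro a u
    simp only [E, hb]
    have h1 := mem_edge ht a u
    rw [← ph_inv (hbm _), ← ph_mul h1 (hbm _), ← ph_mul (inv_mem (hbm _)) (mul_mem h1 (hbm _))]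
    congr 1
    group
  have hj : ∀ j, pr (z j) (E s (g j)) = pr (z j) (E t (g j)) *
      (pr (z j * (MonoidAlgebra.single (Abelianization.of (g j)) (1 : ℤ) - 1)) b)⁻¹ := by
    intro j
    have e1 : E s (g j) = fun u => (b (Abelianization.of (g j) * u))⁻¹ * (E t (g j) u * b u) :=
      funext (hE (g j))
    rw [e1, pr_mul_fun, pr_mul_fun, pr_inv_fun, ← pr_single_mul, mul_sub, mul_one, pr_sub,
      mul_comm (z j)]
    simp only [mul_inv, inv_inv]
    exact mul_left_comm _ _ _
  unfold Psi
  rw [Finset.prod_congr rfl (fun j _ => hj j), Finset.prod_mul_distrib, Finset.prod_inv_distrib,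
    ← pr_sum]
  have : (∑ j, z j * (MonoidAlgebra.single (Abelianization.of (g j)) (1 : ℤ) - 1)) = 0 := hz
  rw [this, pr_zero]
  simp

/-- Equivariance of `Psi` on cycles. -/
lemma Psi_action {t : Abelianization G → G} (ht : ∀ u, Abelianization.of (t u) = u) (w : G)
    (z : J → MonoidAlgebra ℤ (Abelianization G)) (hz : bd g z = 0) :
    Psi g t (MonoidAlgebra.single (Abelianization.of w) (1 : ℤ) • z) = al w (Psi g t z) := by
  set v := Abelianization.of w with hv
  set s : Abelianization G → G := fun y => t (y * v⁻¹) * w with hsdef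
  have hs : ∀ u, Abelianization.of (s u) = u := by
    intro u
    simp [hsdef, ht, hv]
  rw [← Psi_section g hs ht _ (by rw [bd_smul, hz, mul_zero])]
  unfold Psi
  rw [map_prod]
  apply Finset.prod_congr rfl
  intro j _
  rw [map_pr, Pi.smul_apply, smul_eq_mul, pr_single_mul]
  congr 1
  funext y
  have e1 : s (v * y) = t y * w := by
    simp only [hsdef]
    congr 2
    rw [mul_comm v y, mul_inv_cancel_right]
  have e2 : s (Abelianization.of (g j) * (v * y)) = t (Abelianization.of (g j) * y) * w := by
    simp only [hsdef]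
    congr 2
    rw [mul_comm v y, ← mul_assoc, mul_inv_cancel_right]
  simp only [E]
  rw [al_ph w (mem_edge ht _ _), e1, e2]
  congr 1
  group

/-- Koszul chains. -/
noncomputable def del [DecidableEq J] (p q : J) : J → MonoidAlgebra ℤ (Abelianization G) :=
  Pi.single p (MonoidAlgebra.single (Abelianization.of (g q)) (1 : ℤ) - 1) -
    Pi.single q (MonoidAlgebra.single (Abelianization.of (g p)) (1 : ℤ) - 1)

lemma bd_del [DecidableEq J] (p q : J) : bd g (del g p q) = 0 := by
  rw [del, bd_sub, bd_single, bd_single, mul_comm, sub_self]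

lemma Psi_del [DecidableEq J] {t : Abelianization G → G} (ht : ∀ u, Abelianization.of (t u) = u) (p q : J) :
    Psi g t (del g p q) = ph ((t (Abelianization.of (g p) * Abelianization.of (g q)))⁻¹ *
      ⁅g p, g q⁆ * t (Abelianization.of (g p) * Abelianization.of (g q))) := by
  rw [del, Psi_sub, Psi_single, Psi_single, pr_sub, pr_sub, pr_single, pr_single, pr_one, pr_one]
  set a := g p with ha
  set b := g q with hb
  have m1 := mem_edge ht a (Abelianization.of b)
  have m2 := mem_edge ht b (1 : Abelianization G)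
  have m3 := mem_edge ht b (Abelianization.of a)
  have m4 := mem_edge ht a (1 : Abelianization G)
  simp only [E]
  have e : (E t a (Abelianization.of b)) * (E t b 1) * ((E t b (Abelianization.of a)) * (E t a 1))⁻¹
      = ph ((t (Abelianization.of a * Abelianization.of b))⁻¹ * ⁅a, b⁆ * t (Abelianization.of a * Abelianization.of b)) := by
    simp only [E]
    rw [← ph_mul m1 m2, ← ph_mul m3 m4, ← ph_inv (mul_mem m3 m4), ← ph_mul (mul_mem m1 m2) (inv_mem (mul_mem m3 m4))]
    congr 1
    rw [mul_one, mul_one, mul_comm (Abelianization.of b) (Abelianization.of a), commutatorElement_def]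
    group
  simp only [E] at e
  rw [← e]
  simp only [mul_inv, inv_inv]
  -- abelian rearrangement
  generalize ph ((t (Abelianization.of a * Abelianization.of b))⁻¹ * a * t (Abelianization.of b)) = x1
  generalize ph ((t (Abelianization.of a * 1))⁻¹ * a * t 1) = x2
  generalize ph ((t (Abelianization.of b * Abelianization.of a))⁻¹ * b * t (Abelianization.of a)) = x3
  generalize ph ((t (Abelianization.of b * 1))⁻¹ * b * t 1) = x4
  simp only [mul_inv, inv_inv, mul_assoc, mul_comm, mul_left_comm]

/-- The `ℤ[Q]`-span of Koszul chains. -/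
noncomputable def Dd [DecidableEq J] : Submodule (MonoidAlgebra ℤ (Abelianization G))
    (J → MonoidAlgebra ℤ (Abelianization G)) :=
  Submodule.span _ (Set.range fun p : J × J => del g p.1 p.2)

lemma bd_of_mem_Dd [DecidableEq J] {d : J → MonoidAlgebra ℤ (Abelianization G)} (hd : d ∈ Dd g) : bd g d = 0 := by
  induction hd using Submodule.span_induction with
  | mem x hx =>
    obtain ⟨p, rfl⟩ := hx
    exact bd_del g _ _
  | zero => simp [bd]
  | add x y _ _ hx hy => rw [bd_add, hx, hy, add_zero]
  | smul a x _ hx => rw [bd_smul, hx, mul_zero]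

/-- `Psi` maps the Koszul chains onto the whole abelianization, if `g` generates `G`. -/
lemma Psi_Dd_surj [DecidableEq J] {t : Abelianization G → G} (ht : ∀ u, Abelianization.of (t u) = u)
    (hgen : Subgroup.closure (Set.range g) = ⊤) (a : Abelianization ↥(commutator G)) :
    ∃ d ∈ Dd g, Psi g t d = a := by
  -- the subgroup of `G`
  let M : Subgroup G :=
    { carrier := {x | x ∈ commutator G ∧ ∃ d ∈ Dd g, Psi g t d = ph x}
      mul_mem' := by
        rintro x y ⟨hx, d, hd, hdx⟩ ⟨hy, d', hd', hdy⟩
        exact ⟨mul_mem hx hy, d + d', add_mem hd hd', by rw [Psi_add, ph_mul hx hy, hdx, hdy]⟩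
      one_mem' := ⟨one_mem _, 0, zero_mem _, by
        rw [Psi_zero, ph_of_mem (one_mem _)]
        exact (map_one _).symm⟩
      inv_mem' := by
        rintro x ⟨hx, d, hd, hdx⟩
        exact ⟨inv_mem hx, -d, neg_mem hd, by rw [Psi_neg, ph_inv hx, hdx]⟩ }
  have hMmem : ∀ x, x ∈ M ↔ x ∈ commutator G ∧ ∃ d ∈ Dd g, Psi g t d = ph x := fun x => Iff.rfl
  have hMconj : ∀ (x w : G), x ∈ M → w⁻¹ * x * w ∈ M := by
    rintro x w ⟨hx, d, hd, hdx⟩
    have hx' : w⁻¹ * x * w ∈ commutator G := by
      have := (inferInstance : (commutator G).Normal).conj_mem x hx w⁻¹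
      simpa using this
    refine ⟨hx', _, (Dd g).smul_mem (MonoidAlgebra.single (Abelianization.of w) (1 : ℤ)) hd, ?_⟩
    rw [Psi_action g ht w d (bd_of_mem_Dd g hd), hdx, al_ph w hx]
  haveI hMn : M.Normal := ⟨fun x hx w => by
    have := hMconj x w⁻¹ hx
    simpa using this⟩
  have hcomm : ∀ p q, ⁅g p, g q⁆ ∈ M := by
    intro p q
    set c := t (Abelianization.of (g p) * Abelianization.of (g q)) with hc
    have hm : ⁅g p, g q⁆ ∈ commutator G := Subgroup.commutator_mem_commutator (Subgroup.mem_top _) (Subgroup.mem_top _)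
    have h1 : c⁻¹ * ⁅g p, g q⁆ * c ∈ M := by
      refine ⟨?_, del g p q, Submodule.subset_span ⟨(p, q), rfl⟩, Psi_del g ht p q⟩
      have := (inferInstance : (commutator G).Normal).conj_mem _ hm c⁻¹
      simpa using this
    have := hMconj _ c⁻¹ h1
    simpa [mul_assoc] using this
  have hle : commutator G ≤ M := by
    -- the quotient is commutative
    have hc : ∀ x y : G ⧸ M, x * y = y * x := by
      have htop : Subgroup.closure (Set.range fun j => ((g j : G) : G ⧸ M)) = ⊤ := by
        have := congrArg (Subgroup.map (QuotientGroup.mk' M)) hgen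
        rw [MonoidHom.map_closure, ← MonoidHom.range_eq_map, QuotientGroup.range_mk'] at this
        rw [← this]
        congr 1
        ext x
        simp
      have hcs : ∀ x ∈ Set.range (fun j => ((g j : G) : G ⧸ M)), ∀ y ∈ Set.range (fun j => ((g j : G) : G ⧸ M)), x * y = y * x := by
        rintro _ ⟨p, rfl⟩ _ ⟨q, rfl⟩
        have := hcomm p q
        have h2 : (((⁅g p, g q⁆ : G) : G ⧸ M)) = 1 := (QuotientGroup.eq_one_iff _).mpr this
        rw [commutatorElement_def] at h2
        simp only [QuotientGroup.mk_mul, QuotientGroup.mk_inv] at h2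
        have h3 := h2
        simp only [] 
        exact (commutatorElement_eq_one_iff_mul_comm.mp h2)
      intro x y
      have hx : x ∈ Subgroup.closure (Set.range fun j => ((g j : G) : G ⧸ M)) := by rw [htop]; trivial
      have hy : y ∈ Subgroup.closure (Set.range fun j => ((g j : G) : G ⧸ M)) := by rw [htop]; trivial
      exact Subgroup.closure_induction₂ (p := fun x y _ _ => x * y = y * x) (fun x y hx hy => hcs x hx y hy)
        (fun _ _ => by simp) (fun _ _ => by simp) (fun _ _ _ _ _ _ h1 h2 => by rw [mul_assoc, h2, ← mul_assoc, h1, mul_assoc])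
        (fun _ _ _ _ _ _ h1 h2 => by rw [← mul_assoc, h1, mul_assoc, h2, mul_assoc])
        (fun _ _ _ _ h => by rw [inv_mul_eq_iff_eq_mul, ← mul_assoc, h, mul_assoc, mul_inv_cancel, mul_one])
        (fun _ _ _ _ h => by rw [mul_inv_eq_iff_eq_mul, mul_assoc, h, ← mul_assoc, inv_mul_cancel, one_mul])
        hx hy
    rw [commutator_def, Subgroup.commutator_le]
    intro x _ y _
    apply (QuotientGroup.eq_one_iff _).mp
    rw [commutatorElement_def]
    simp only [QuotientGroup.mk_mul, QuotientGroup.mk_inv]
    exact commutatorElement_eq_one_iff_mul_comm.mpr (hc _ _)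
  obtain ⟨x, hx, rfl⟩ := exists_ph a
  obtain ⟨_, d, hd, hdx⟩ := hle hx
  exact ⟨d, hd, hdx⟩

/-- Cycles with trivial value. -/
noncomputable def Ss {t : Abelianization G → G} (ht : ∀ u, Abelianization.of (t u) = u) :
    Submodule (MonoidAlgebra ℤ (Abelianization G)) (J → MonoidAlgebra ℤ (Abelianization G)) where
  carrier := {z | bd g z = 0 ∧ Psi g t z = 1}
  add_mem' := by
    rintro a b ⟨ha, ha'⟩ ⟨hb, hb'⟩
    exact ⟨by rw [bd_add, ha, hb, add_zero], by rw [Psi_add, ha', hb', one_mul]⟩
  zero_mem' := ⟨by simp [bd], Psi_zero g t⟩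
  smul_mem' := by
    rintro x z ⟨hz, hz1⟩
    refine ⟨by rw [bd_smul, hz, mul_zero], ?_⟩
    induction x using MonoidAlgebra.induction_on with
    | of v =>
      obtain ⟨w, rfl⟩ := QuotientGroup.mk_surjective v
      have := Psi_action g ht w z hz
      rw [hz1, map_one] at this
      exact this
    | add a b ha hb => rw [add_smul, Psi_add, ha, hb, one_mul]
    | smul r a ha => rw [smul_assoc, Psi_zsmul, ha, one_zpow]

/-- The determinant trick. -/
lemma key_prod [DecidableEq J] (hgen : Subgroup.closure (Set.range g) = ⊤)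
    (hcard : ∏ j, orderOf (Abelianization.of (g j)) = Nat.card (Abelianization G))
    {t : Abelianization G → G} (ht : ∀ u, Abelianization.of (t u) = u) (k : J) :
    ∏ u, E t (g k) u = 1 := by
  classical
  have hNj : ∀ j, (∑ i ∈ Finset.range (orderOf (Abelianization.of (g j))),
      (MonoidAlgebra.single (Abelianization.of (g j)) (1 : ℤ)) ^ i) *
      (MonoidAlgebra.single (Abelianization.of (g j)) (1 : ℤ) - 1) = 0 := fun j => by
    rw [geom_sum_mul]
    simp [MonoidAlgebra.single_pow, pow_orderOf_eq_one, MonoidAlgebra.one_def]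
  have hex : ∀ j, ∃ d ∈ Dd g, Psi g t d = Psi g t (Pi.single j (∑ i ∈ Finset.range (orderOf (Abelianization.of (g j))),
      (MonoidAlgebra.single (Abelianization.of (g j)) (1 : ℤ)) ^ i)) :=
    fun j => Psi_Dd_surj g ht hgen _
  choose d hdD hdP using hex
  obtain ⟨r, hr⟩ : ∃ r : J → J → MonoidAlgebra ℤ (Abelianization G), ∀ j, r j = Pi.single j (∑ i ∈ Finset.range (orderOf (Abelianization.of (g j))),
      (MonoidAlgebra.single (Abelianization.of (g j)) (1 : ℤ)) ^ i) - d j := ⟨_, fun _ => rfl⟩
  have hrS : ∀ j, r j ∈ Ss g ht := fun j => by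
    refine ⟨?_, ?_⟩
    · rw [hr, bd_sub, bd_single, bd_of_mem_Dd g (hdD j), sub_zero]
      exact hNj j
    · rw [hr, Psi_sub, hdP, mul_inv_cancel]
  have hεD : ∀ y ∈ Dd g, ∀ m, eps (y m) = 0 := by
    intro y hy
    induction hy using Submodule.span_induction with
    | mem z hz =>
      obtain ⟨p, rfl⟩ := hz
      intro m
      simp only [del, Pi.sub_apply, map_sub, Pi.single_apply]
      split_ifs <;> simp [eps_single]
    | zero => intro m; simp
    | add a b _ _ ha hb => intro m; simp [ha m, hb m]
    | smul c a _ ha => intro m; simp [ha m]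
  have hdet := det_coeff_one (fun j => Abelianization.of (g j)) ?_ (Matrix.of r)
    (fun j => orderOf (Abelianization.of (g j))) hcard
    (fun j => (by
      have := (hrS j).1
      simpa [bd] using this)) (fun j m => by
      simp only [Matrix.of_apply, hr, Pi.sub_apply, map_sub, hεD _ (hdD j) m, sub_zero,
        Pi.single_apply]
      by_cases h : m = j
      · subst h
        simp [map_sum, eps_single, map_pow]
      · simp [h, Ne.symm h])
  · have hadj : (Matrix.of r).det • (Pi.single k 1 : J → MonoidAlgebra ℤ (Abelianization G)) ∈ Ss g ht := by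
      rw [adj_row (Matrix.of r) k]
      exact Submodule.sum_mem _ (fun j _ => Submodule.smul_mem _ _ (hrS j))
    have h2 := hadj.2
    have h3 : (Matrix.of r).det • (Pi.single k 1 : J → MonoidAlgebra ℤ (Abelianization G)) =
        Pi.single k (Matrix.of r).det := by
      funext m
      simp [Pi.single_apply]
    rw [h3, Psi_single] at h2
    rw [← h2]
    simp [pr, hdet]
  · -- generation of the quotient
    rw [eq_top_iff]
    rintro v -
    obtain ⟨w, rfl⟩ := QuotientGroup.mk_surjective v
    have hw : w ∈ Subgroup.closure (Set.range g) := by rw [hgen]; trivial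
    change Abelianization.of w ∈ _
    induction hw using Subgroup.closure_induction with
    | mem y hy =>
      obtain ⟨m, rfl⟩ := hy
      exact Subgroup.subset_closure ⟨m, rfl⟩
    | one => exact one_mem _
    | mul a b _ _ ha hb => rw [map_mul]; exact mul_mem ha hb
    | inv a _ ha => rw [map_inv]; exact inv_mem ha

/-- Transfer formula for a section. -/
lemma transfer_eq_prod {t : Abelianization G → G} (ht : ∀ u, Abelianization.of (t u) = u) (g0 : G) :
    MonoidHom.transfer (Abelianization.of : ↥(commutator G) →* Abelianization ↥(commutator G)) g0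
      = ∏ u, E t g0 u := by
  classical
  have ht' : ∀ q : G ⧸ commutator G, ((t q : G) : G ⧸ commutator G) = q := fun q => ht q
  let T : (commutator G).LeftTransversal := ⟨Set.range t, Subgroup.isComplement_range_left ht'⟩
  rw [MonoidHom.transfer_def _ T g0, Subgroup.leftTransversals.diff]
  let e0 : Equiv.Perm (G ⧸ commutator G) := MulAction.toPerm g0⁻¹
  let e : (G ⧸ commutator G) ≃ Abelianization G := e0
  letI := (commutator G).fintypeQuotientOfFiniteIndex
  refine Fintype.prod_equiv e _ _ (fun q => ?_)
  have h1 : ((T.2.leftQuotientEquiv q : _) : G) = t q :=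
    Subgroup.IsComplement.leftQuotientEquiv_apply ht' q
  have h2 : (((g0 • T).2.leftQuotientEquiv q : _) : G) = g0 * t (e q) := by
    rw [Subgroup.smul_apply_eq_smul_apply_inv_smul]
    have h5 := Subgroup.IsComplement.leftQuotientEquiv_apply ht' (g0⁻¹ • q)
    have h6 : ((T.2.leftQuotientEquiv (g0⁻¹ • q) : _) : G) = t (g0⁻¹ • q) := h5
    rw [h6]
    rfl
  have h3 : Abelianization.of g0 * (e q) = q := by
    obtain ⟨x, rfl⟩ := QuotientGroup.mk_surjective q
    show ((g0 * (g0⁻¹ * x) : G) : G ⧸ commutator G) = _
    rw [mul_inv_cancel_left]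
  simp only [E]
  rw [ph_of_mem (mem_edge ht _ _)]
  congr 1
  apply Subtype.ext
  simp only [h1, h2, h3, mul_assoc]

end Main

/-- The Principal Ideal Theorem of class field theory in its group-theoretic form: for every finite group `G`, the transfer homomorphism from `G` into the abelianization `G'/G''` of its derived subgroup `G'` is the trivial homomorphism. -/
theorem result {G : Type*} [Group G] [Finite G] :
    MonoidHom.transfer (Abelianization.of : ↥(commutator G) →* Abelianization ↥(commutator G)) =
      (1 : G →* Abelianization ↥(commutator G)) := by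
  classical
  haveI : Fintype ↥(commutator G) := Fintype.ofFinite _
  obtain ⟨ι, _, n, hn, ⟨e⟩⟩ := CommGroup.equiv_prod_multiplicative_zmod_of_finite (Abelianization G)
  have hsurj : Function.Surjective (Abelianization.of : G →* Abelianization G) := QuotientGroup.mk_surjective
  obtain ⟨t, ht⟩ : ∃ t : Abelianization G → G, ∀ u, Abelianization.of (t u) = u :=
    ⟨Function.surjInv hsurj, Function.surjInv_eq hsurj⟩
  let s : ι → Abelianization G := fun i => e.symm (Pi.mulSingle i (Multiplicative.ofAdd 1))
  let g : ι ⊕ ↥(commutator G) → G := Sum.elim (fun i => t (s i)) (fun h => h)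
  have hs : ∀ i, orderOf (s i) = n i := by
    intro i
    simp only [s, MulEquiv.orderOf_eq, orderOf_piMulSingle, orderOf_ofAdd_eq_addOrderOf, ZMod.addOrderOf_one]
  have hcard : ∏ j, orderOf (Abelianization.of (g j)) = Nat.card (Abelianization G) := by
    rw [Fintype.prod_sum_type]
    have h1 : ∀ h : ↥(commutator G), orderOf (Abelianization.of (g (Sum.inr h))) = 1 := by
      intro h
      have : Abelianization.of (h : G) = 1 := mem_comm_iff.mp h.2
      simp [g, this]
    have h2 : ∀ i, orderOf (Abelianization.of (g (Sum.inl i))) = n i := by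
      intro i
      simp [g, ht, hs]
    simp only [h1, h2, Finset.prod_const_one, mul_one]
    rw [Nat.card_congr e.toEquiv, Nat.card_pi]
    apply Finset.prod_congr rfl
    intro i _
    rw [Nat.card_congr Multiplicative.toAdd, Nat.card_zmod]
  have hgen : Subgroup.closure (Set.range g) = ⊤ := by
    rw [eq_top_iff]
    rintro x -
    set C := Subgroup.closure (Set.range g) with hC
    have hH : ∀ h : ↥(commutator G), (h : G) ∈ C := fun h => Subgroup.subset_closure ⟨Sum.inr h, rfl⟩
    have hQ : ∀ v : Abelianization G, ∃ c ∈ C, Abelianization.of c = v := by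
      intro v
      have hsi : ∀ i, ∃ c ∈ C, Abelianization.of c = s i := fun i =>
        ⟨g (Sum.inl i), Subgroup.subset_closure ⟨_, rfl⟩, by simp [g, ht]⟩
      have hpow : ∀ i (m : ℕ), ∃ c ∈ C, Abelianization.of c = (s i) ^ m := by
        intro i m
        obtain ⟨c, hc, hc'⟩ := hsi i
        exact ⟨c ^ m, pow_mem hc m, by rw [map_pow, hc']⟩
      have hprod : ∀ (S : Finset ι) (m : ι → ℕ), ∃ c ∈ C, Abelianization.of c = ∏ i ∈ S, (s i) ^ (m i) := by
        intro S m
        induction S using Finset.induction_on with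
        | empty => exact ⟨1, one_mem _, by simp⟩
        | insert a S ha ih =>
          obtain ⟨c, hc, hc'⟩ := ih
          obtain ⟨c2, hc2, hc2'⟩ := hpow a (m a)
          exact ⟨c2 * c, mul_mem hc2 hc, by rw [map_mul, hc', hc2', Finset.prod_insert ha]⟩
      haveI : ∀ i, NeZero (n i) := fun i => ⟨by have := hn i; omega⟩
      obtain ⟨c, hc, hc'⟩ := hprod Finset.univ (fun i => (Multiplicative.toAdd (e v i)).val)
      refine ⟨c, hc, ?_⟩
      rw [hc']
      apply e.injective
      rw [map_prod]
      funext i
      simp only [s, map_pow, MulEquiv.apply_symm_apply]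
      rw [Finset.prod_apply, Finset.prod_eq_single i]
      · simp only [Pi.pow_apply, Pi.mulSingle_eq_same]
        apply Multiplicative.toAdd.injective
        simp
      · intro b _ hb
        simp [Pi.mulSingle_apply, hb.symm]
      · simp
    obtain ⟨c, hc, hcx⟩ := hQ (Abelianization.of x)
    have : c⁻¹ * x ∈ commutator G := by
      rw [mem_comm_iff, map_mul, map_inv, hcx, inv_mul_cancel]
    have h3 := hH ⟨_, this⟩
    have h4 := mul_mem hc h3
    simpa using h4
  apply MonoidHom.eq_of_eqOn_dense hgen
  rintro _ ⟨k, rfl⟩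
  rw [transfer_eq_prod ht]
  exact key_prod g hgen hcard ht k

end Cfsg.Agent.S4320
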