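import Cfsg.Statements.S4421
import Mathlib

set_option autoImplicit false
open Cfsg

namespace Cfsg.Agent.S4421

theorem mem_map_conj {G : Type*} [Group G] {A : Subgroup G} {g x : G} :
    x ∈ A.map (MulAut.conj g).toMonoidHom ↔ g⁻¹ * x * g ∈ A := by
  constructor
  · rintro ⟨a, ha, rfl⟩
    simpa [MulAut.conj_apply, mul_assoc] using ha
  · intro h
    exact ⟨_, h, by simp [MulAut.conj_apply, mul_assoc]⟩

theorem map_conj_mul {G : Type*} [Group G] (A : Subgroup G) (g h : G) :
    A.map (MulAut.conj (g * h)).toMonoidHom = (A.map (MulAut.conj h).toMonoidHom).map (MulAut.conj g).toMonoidHom := by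
  ext x
  rw [mem_map_conj, mem_map_conj, mem_map_conj]
  simp [mul_assoc]

theorem mem_normalizer_iff_map {G : Type*} [Group G] [Finite G] {A : Subgroup G} {g : G} :
    g ∈ Subgroup.normalizer (A : Set G) ↔ A.map (MulAut.conj g).toMonoidHom = A := by
  rw [Subgroup.mem_normalizer_iff]
  constructor
  · intro h
    ext x
    rw [mem_map_conj]
    have := h (g⁻¹ * x * g)
    have h2 : g * (g⁻¹ * x * g) * g⁻¹ = x := by group
    rw [h2] at this
    exact this
  · intro h x
    have := mem_map_conj (A := A) (g := g) (x := g * x * g⁻¹)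
    rw [h] at this
    have h2 : g⁻¹ * (g * x * g⁻¹) * g = x := by group
    rw [h2] at this
    exact this.symm

theorem map_conj_one {G : Type*} [Group G] (A : Subgroup G) :
    A.map (MulAut.conj (1 : G)).toMonoidHom = A := by
  ext x
  rw [mem_map_conj]
  simp

theorem map_conj_of_mem {G : Type*} [Group G] (S : Subgroup G) {s : G} (hs : s ∈ S) :
    S.map (MulAut.conj s).toMonoidHom = S := by
  ext z
  rw [mem_map_conj]
  constructor
  · intro h
    have : z = s * (s⁻¹ * z * s) * s⁻¹ := by group
    rw [this]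
    exact S.mul_mem (S.mul_mem hs h) (S.inv_mem hs)
  · intro h
    exact S.mul_mem (S.mul_mem (S.inv_mem hs) h) hs

/-- A factorization of a normalizer from two-step control of fusion. Let `G` be a finite group and `A ≤ S ≤ H` subgroups of `G` such that: (i) `S` controls the `G`-fusion of `A` in the sense that every `G`-conjugate of `A` lying in `S` is an `S`-conjugate of `A`; (ii) `H` controls the `G`-fusion of `S` in the same sense; (iii) every conjugate of `S` by an element of the normalizer of `A` lies in `H`. Then `N_G(A) = N_H(A) · (N_G(S) ∩ N_G(A))`: every element of the normalizer of `A` is a product of an element of `H` normalizing `A` and an element normalizing both `S` and `A`. -/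
theorem result {G : Type*} [Group G] [Finite G] (A S H : Subgroup G)
    (hAS : A ≤ S) (hSH : S ≤ H)
    (h1 : ∀ g : G, A.map (MulAut.conj g).toMonoidHom ≤ S → ∃ s ∈ S, A.map (MulAut.conj g).toMonoidHom = A.map (MulAut.conj s).toMonoidHom)
    (h2 : ∀ g : G, S.map (MulAut.conj g).toMonoidHom ≤ H → ∃ y ∈ H, S.map (MulAut.conj g).toMonoidHom = S.map (MulAut.conj y).toMonoidHom)
    (h3 : ∀ x ∈ Subgroup.normalizer (A : Set G), S.map (MulAut.conj x).toMonoidHom ≤ H) :
    ∀ x ∈ Subgroup.normalizer (A : Set G), ∃ y ∈ H ⊓ Subgroup.normalizer (A : Set G),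
      ∃ z ∈ Subgroup.normalizer (S : Set G) ⊓ Subgroup.normalizer (A : Set G), x = y * z := by
  intro x hx
  obtain ⟨y, hy, hyS⟩ := h2 x (h3 x hx)
  have hxA : A.map (MulAut.conj x).toMonoidHom = A := mem_normalizer_iff_map.mp hx
  -- `y⁻¹ A y ≤ S`
  have hle : A.map (MulAut.conj y⁻¹).toMonoidHom ≤ S := by
    intro a ha
    rw [mem_map_conj] at ha
    have h4 : y * a * y⁻¹ ∈ A := by simpa using ha
    have h5 : y * a * y⁻¹ ∈ S.map (MulAut.conj x).toMonoidHom := by
      rw [← hxA] at h4
      rw [mem_map_conj] at h4 ⊢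
      exact hAS h4
    rw [hyS, mem_map_conj] at h5
    have h6 : y⁻¹ * (y * a * y⁻¹) * y = a := by group
    rwa [h6] at h5
  obtain ⟨s, hs, hsA⟩ := h1 y⁻¹ hle
  have hysA : y * s ∈ Subgroup.normalizer (A : Set G) := by
    rw [mem_normalizer_iff_map, map_conj_mul, ← hsA, ← map_conj_mul, mul_inv_cancel, map_conj_one]
  have hysH : y * s ∈ H := H.mul_mem hy (hSH hs)
  refine ⟨y * s, Subgroup.mem_inf.mpr ⟨hysH, hysA⟩, (y * s)⁻¹ * x, Subgroup.mem_inf.mpr ⟨?_, ?_⟩, by group⟩
  · rw [mem_normalizer_iff_map, map_conj_mul, hyS, ← map_conj_mul]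
    have h7 : (y * s)⁻¹ * y = s⁻¹ := by group
    rw [h7]
    exact map_conj_of_mem S (S.inv_mem hs)
  · exact Subgroup.mul_mem _ (Subgroup.inv_mem _ hysA) hx

end Cfsg.Agent.S4421
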