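import Cfsg.Statements.S4422
import Mathlib

set_option autoImplicit false
open Cfsg

namespace Cfsg.Agent.S4422

theorem aux (q e : ℕ) (hq : 2 ≤ q) (he : 1 ≤ e) (m : ℕ)
    (hm : m ∣ q ^ e - 1) (hcop : ∀ i : ℕ, 1 ≤ i → i < e → Nat.Coprime m (q ^ i - 1)) :
    m ≡ 1 [MOD e] := by
  induction m using Nat.recOnMul with
  | zero =>
    exfalso
    have : q ^ e - 1 = 0 := Nat.eq_zero_of_zero_dvd hm
    have h2 : 2 ^ 1 ≤ q ^ e := (Nat.pow_le_pow_left hq 1).trans (Nat.pow_le_pow_right (by omega) he)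
    omega
  | one => exact Nat.ModEq.refl _
  | prime r hr =>
    haveI : Fact r.Prime := ⟨hr⟩
    have hq1 : 1 ≤ q ^ e := Nat.one_le_pow _ _ (by omega)
    have h1 : ((q : ZMod r)) ^ e = 1 := by
      have := (ZMod.natCast_eq_zero_iff (q ^ e - 1) r).mpr hm
      rw [Nat.cast_sub hq1] at this
      push_cast at this
      exact sub_eq_zero.mp this
    have hq0 : (q : ZMod r) ≠ 0 := by
      intro h0
      rw [h0, zero_pow (by omega)] at h1
      exact zero_ne_one h1
    have hord : orderOf (q : ZMod r) = e := by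
      have hd := orderOf_dvd_of_pow_eq_one h1
      have hpos : 0 < orderOf (q : ZMod r) := Nat.pos_of_dvd_of_pos hd (by omega)
      by_contra hne
      have hlt : orderOf (q : ZMod r) < e := lt_of_le_of_ne (Nat.le_of_dvd (by omega) hd) hne
      have hc := hcop _ hpos hlt
      have hdv : r ∣ q ^ orderOf (q : ZMod r) - 1 := by
        rw [← ZMod.natCast_eq_zero_iff, Nat.cast_sub (Nat.one_le_pow _ _ (by omega))]
        push_cast
        rw [pow_orderOf_eq_one, sub_self]
      have := Nat.Coprime.eq_one_of_dvd hc hdv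
      exact hr.one_lt.ne' this
    have hdvd : e ∣ r - 1 := by
      rw [← hord]
      exact orderOf_dvd_of_pow_eq_one (ZMod.pow_card_sub_one_eq_one hq0)
    exact ((Nat.modEq_iff_dvd' hr.one_lt.le).mpr hdvd).symm
  | mul a b ha hb =>
    have h1 := ha ((Dvd.intro _ rfl).trans hm) (fun i h h' => Nat.Coprime.coprime_dvd_left (Dvd.intro _ rfl) (hcop i h h'))
    have h2 := hb ((Dvd.intro_left _ rfl).trans hm) (fun i h h' => Nat.Coprime.coprime_dvd_left (Dvd.intro_left _ rfl) (hcop i h h'))
    simpa using h1.mul h2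

/-- Primitive divisors of `q^e - 1` are congruent to 1 modulo `e`. Let `q ≥ 2` and `e ≥ 1` be natural numbers and let `m` be a divisor of `q^e - 1` that is coprime to `q^i - 1` for every `1 ≤ i < e` (so `m` divides the primitive part of `q^e - 1`, the largest such divisor). Then `m ≡ 1 (mod e)`. -/
theorem result (q e m : ℕ) (hq : 2 ≤ q) (he : 1 ≤ e)
    (hm : m ∣ q ^ e - 1) (hcop : ∀ i : ℕ, 1 ≤ i → i < e → Nat.Coprime m (q ^ i - 1)) :
    m % e = 1 % e :=
  aux q e hq he m hm hcop

end Cfsg.Agent.S4422
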