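import Cfsg.Statements.S4426
import Mathlib
import Cfsg.Agent.Lib.Block.Ortho
import Cfsg.Agent.Lib.CharExtra.PReg

set_option autoImplicit false
open Cfsg
open Cfsg.Agent.Lib.CharExtra

namespace Cfsg.Agent.S4426

/-- Let χ be an irreducible character in the p-block B of the finite group G (relative to a maximal ideal M of the algebraic integers containing p), let p^a be the p-part of the order of G, and let χ̃ be the class function equal to p^a · χ on p-regular elements and zero elsewhere. For ξ ∈ B the inner product [χ̃, ξ] is an integer. The following are equivalent: (a) χ has height zero in B; (b) for some ξ ∈ B the integer [χ̃, ξ] is nonzero and the exact power of p dividing it equals the exact power of p dividing ξ(1); (c) the same holds for every ξ ∈ B. -/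
theorem result {G : Type*} [Group G] [Fintype G] (p : ℕ) [Fact p.Prime] (M : Ideal Cfsg.AlgInt) (hM : Cfsg.IsPModular p M) (B : Set (Cfsg.IrrCharacter G)) (hB : Cfsg.IsPBlock M B) (χ : Cfsg.IrrCharacter G) (hχ : χ ∈ B) : (Cfsg.blockHeight p B (χ : G → ℂ) = 0 ↔ ∃ ξ ∈ B, ∃ n : ℤ, Cfsg.classInner (fun x : G => if p ∣ orderOf x then (0 : ℂ) else ((p ^ (Nat.card G).factorization p : ℕ) : ℂ) * (χ : G → ℂ) x) (ξ : G → ℂ) = (n : ℂ) ∧ n ≠ 0 ∧ padicValInt p n = (Cfsg.charDegree (ξ : G → ℂ)).factorization p) ∧ (Cfsg.blockHeight p B (χ : G → ℂ) = 0 ↔ ∀ ξ ∈ B, ∃ n : ℤ, Cfsg.classInner (fun x : G => if p ∣ orderOf x then (0 : ℂ) else ((p ^ (Nat.card G).factorization p : ℕ) : ℂ) * (χ : G → ℂ) x) (ξ : G → ℂ) = (n : ℂ) ∧ n ≠ 0 ∧ padicValInt p n = (Cfsg.charDegree (ξ : G → ℂ)).factorization p) := by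
  classical
  obtain ⟨χ₀, h₀, h₁, hmin⟩ := exists_min_height hB hM
  have := Cfsg.Agent.Lib.Block.isPModular_isPrime hM
  have hht : Cfsg.blockHeight p B (χ : G → ℂ) = 0 ↔
      ¬ Cfsg.MemLocalIdeal M ((regCoeff p χ₀ χ : ℂ) / (χ₀ : G → ℂ) 1) := by
    rw [memLocalIdeal_regCoeff_div_iff hM hB h₀ hmin hχ]
    unfold Cfsg.blockHeight
    rw [← h₁]
    omega
  have hcond : ∀ ξ ∈ B, (∃ n : ℤ, Cfsg.classInner (fun x : G => if p ∣ orderOf x then (0 : ℂ) else ((p ^ (Nat.card G).factorization p : ℕ) : ℂ) * (χ : G → ℂ) x) (ξ : G → ℂ) = (n : ℂ) ∧ n ≠ 0 ∧ padicValInt p n = (Cfsg.charDegree (ξ : G → ℂ)).factorization p) ↔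
      ¬ Cfsg.MemLocalIdeal M ((regCoeff p χ₀ χ : ℂ) / (χ₀ : G → ℂ) 1) := by
    intro ξ hξ
    have h2 : (∃ n : ℤ, Cfsg.classInner (fun x : G => if p ∣ orderOf x then (0 : ℂ) else ((p ^ (Nat.card G).factorization p : ℕ) : ℂ) * (χ : G → ℂ) x) (ξ : G → ℂ) = (n : ℂ) ∧ n ≠ 0 ∧ padicValInt p n = (Cfsg.charDegree (ξ : G → ℂ)).factorization p) ↔
        (regCoeff p χ ξ ≠ 0 ∧ padicValInt p (regCoeff p χ ξ) = (Cfsg.charDegree (ξ : G → ℂ)).factorization p) := by
      constructor
      · rintro ⟨n, hn, h3⟩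
        have h4 : regCoeff p χ ξ = n := by
          have h5 := regCoeff_spec (p := p) χ ξ
          have h6 : (regCoeff p χ ξ : ℂ) = (n : ℂ) := h5.symm.trans hn
          exact_mod_cast h6
        rwa [h4]
      · intro h3
        exact ⟨regCoeff p χ ξ, regCoeff_spec χ ξ, h3⟩
    rw [h2, regCoeff_valuation_iff hM]
    have hsub := memLocalIdeal_regCoeff_div_sub hM (Cfsg.Agent.Lib.Block.sameBlock_of_mem hB hξ h₀) χ
    apply not_congr
    constructor
    · intro h
      have h3 := Cfsg.Agent.Lib.Block.memLocalIdeal_sub h hsub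
      simpa using h3
    · intro h
      have h3 := Cfsg.Agent.Lib.Block.memLocalIdeal_add hsub h
      simpa using h3
  constructor
  · rw [hht]
    constructor
    · intro h
      exact ⟨χ₀, h₀, (hcond χ₀ h₀).mpr h⟩
    · rintro ⟨ξ, hξ, h⟩
      exact (hcond ξ hξ).mp h
  · rw [hht]
    constructor
    · intro h ξ hξ
      exact (hcond ξ hξ).mpr h
    · intro h
      exact (hcond χ₀ h₀).mp (h χ₀ h₀)

end Cfsg.Agent.S4426
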