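import Cfsg.Statements.S4430
import Mathlib
import Cfsg.Agent.Lib.CharExtra.PRegInd

set_option autoImplicit false
open Cfsg
open Cfsg.Agent.Lib.CharExtra Cfsg.Agent.Lib.Char Cfsg.Agent.Lib.Block

namespace Cfsg.Agent.S4430

/-- Let H be a subgroup of the finite group G, b a block of H whose induced block B₀ in G is defined (relative to a maximal ideal M of the algebraic integers containing p), and ξ ∈ b. For a block B of G let n_B be the value at 1 of the B-part of the induced character ξ^G (a natural number: the sum over χ ∈ B of the multiplicity of χ in ξ^G times χ(1)). Then for B = B₀ the exact power of p dividing n_B equals the exact power of p dividing ξ^G(1), while for every other block B either n_B = 0 or n_B is divisible by a strictly higher power of p than ξ^G(1). -/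
theorem result {G : Type*} [Group G] [Fintype G] (p : ℕ) [Fact p.Prime] (M : Ideal Cfsg.AlgInt) (hM : Cfsg.IsPModular p M) (H : Subgroup G) [Fintype H] (b : Set (Cfsg.IrrCharacter H)) (B₀ : Set (Cfsg.IrrCharacter G)) (hind : Cfsg.IsInducedBlock M H b B₀) (ξ : Cfsg.IrrCharacter H) (hξ : ξ ∈ b) : (∃ n : ℕ, Cfsg.blockPart B₀ (Cfsg.indFun H (ξ : H → ℂ)) 1 = (n : ℂ) ∧ n ≠ 0 ∧ n.factorization p = (Cfsg.charDegree (Cfsg.indFun H (ξ : H → ℂ))).factorization p) ∧ ∀ B : Set (Cfsg.IrrCharacter G), Cfsg.IsPBlock M B → B ≠ B₀ → ∃ n : ℕ, Cfsg.blockPart B (Cfsg.indFun H (ξ : H → ℂ)) 1 = (n : ℂ) ∧ (n = 0 ∨ (Cfsg.charDegree (Cfsg.indFun H (ξ : H → ℂ))).factorization p < n.factorization p) := by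
  classical
  have := isPModular_isPrime hM
  obtain ⟨-, hB₀, hcong⟩ := hind
  obtain ⟨χ₀, h₀, -, -⟩ := exists_min_height hB₀ hM
  have hξc := IsIrrCharacter.isCharacter ξ.2
  have hF := indFun_isCharacter H hξc
  have hN : Cfsg.charDegree (Cfsg.indFun H (ξ : H → ℂ)) ≠ 0 := by
    intro h0
    have h1 := map_one_eq_charDegree hF
    rw [h0, indFun_one] at h1
    have h2 := map_one_ne_zero_of_irr ξ.2
    have h3 : (H.index : ℂ) ≠ 0 := by exact_mod_cast H.index_ne_zero_of_finite
    simp [h2, h3] at h1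
  have hN' : ((Cfsg.charDegree (Cfsg.indFun H (ξ : H → ℂ)) : ℕ) : ℂ) ≠ 0 := by exact_mod_cast hN
  have hsub : ∀ B : Set (Cfsg.IrrCharacter G), Cfsg.IsPBlock M B → Cfsg.MemLocalIdeal M
      (om (ξ : H → ℂ) (resAlg H (blockElt B)) - om (χ₀ : G → ℂ) (blockElt B)) := fun B hB =>
    memLocalIdeal_om_resAlg_sub H (IsCharacter.isClassFunction (IsIrrCharacter.isCharacter χ₀.2)) (hcong ξ hξ χ₀ h₀)
      (isCentralElt_blockElt B) (localCoeff_blockElt (isBlockUnion_of_isPBlock hB))
  constructor
  · obtain ⟨n, hn⟩ := exists_nat_blockPart B₀ hF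
    refine ⟨n, hn, ?_, ?_⟩
    all_goals
      have h1 := hsub B₀ hB₀
      rw [om_blockElt_of_mem h₀] at h1
      have hloc : Cfsg.MemLocalRing M (om (ξ : H → ℂ) (resAlg H (blockElt B₀))) := by
        have h2 := memLocalRing_add (memLocalRing_of_memLocalIdeal h1) memLocalRing_one
        simpa using h2
      have hnot : ¬ Cfsg.MemLocalIdeal M (om (ξ : H → ℂ) (resAlg H (blockElt B₀))) := by
        intro h2
        have h3 := memLocalIdeal_sub h2 h1
        simp only [sub_sub_cancel] at h3
        exact not_memLocalIdeal_one h3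
      have hu0 := ne_zero_of_not_memLocalIdeal hnot
      rw [blockPart_indFun_one] at hn
      have hn0 : (n : ℂ) ≠ 0 := by
        rw [← hn]
        exact mul_ne_zero hN' hu0
    · exact_mod_cast hn0
    · have hn1 : n ≠ 0 := by exact_mod_cast hn0
      have h4 : (n : ℂ) / ((Cfsg.charDegree (Cfsg.indFun H (ξ : H → ℂ)) : ℕ) : ℂ) =
          om (ξ : H → ℂ) (resAlg H (blockElt B₀)) := by
        rw [← hn]
        field_simp
      have h5 : ((Cfsg.charDegree (Cfsg.indFun H (ξ : H → ℂ)) : ℕ) : ℂ) / (n : ℂ) =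
          (om (ξ : H → ℂ) (resAlg H (blockElt B₀)))⁻¹ := by
        rw [← h4, inv_div]
      apply le_antisymm
      · exact factorization_le_of_memLocalRing hM hN hn1 (by rw [h5]; exact memLocalRing_inv hloc hnot)
      · exact factorization_le_of_memLocalRing hM hn1 hN (by rw [h4]; exact hloc)
  · intro B hB hne
    obtain ⟨n, hn⟩ := exists_nat_blockPart B hF
    refine ⟨n, hn, ?_⟩
    by_cases hn1 : n = 0
    · exact Or.inl hn1
    · right
      have hχ₀ : χ₀ ∉ B := by
        intro hmem
        apply hne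
        rw [blockOf_eq_of_mem hB hmem, ← blockOf_eq_of_mem hB₀ h₀]
      have h1 := hsub B hB
      rw [om_blockElt_of_notMem hχ₀, sub_zero] at h1
      rw [blockPart_indFun_one] at hn
      have h4 : (n : ℂ) / ((Cfsg.charDegree (Cfsg.indFun H (ξ : H → ℂ)) : ℕ) : ℂ) =
          om (ξ : H → ℂ) (resAlg H (blockElt B)) := by
        rw [← hn]
        field_simp
      exact factorization_lt_of_memLocalIdeal hM hn1 hN (by rw [h4]; exact h1)

end Cfsg.Agent.S4430
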