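import Cfsg.Statements.S4435
import Mathlib
import Cfsg.Agent.Lib.CharExtra.FongReynolds

set_option autoImplicit false
open Cfsg
open Cfsg Cfsg.Agent.Lib.Block Cfsg.Agent.Lib.Char Cfsg.Agent.Lib.CharExtra

namespace Cfsg.Agent.S4435

/-- Let N be a normal subgroup of the finite group G, b a block of N (relative to a maximal ideal M of the algebraic integers containing p), and T the stabilizer of b in G (the elements g such that conjugating any member of b by g gives a member of b); N ≤ T. Say that a block of T (or of G) covers b when some member has a constituent in b on restriction to N. Then: (i) every block B′ of T covering b induces a block B of G, B covers b, every ψ ∈ B′ induces to an irreducible character of G, and B consists exactly of the characters induced from members of B′; (ii) distinct blocks of T covering b induce distinct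 blocks of G; (iii) every block of G covering b is induced by some block of T covering b. -/
theorem result {G : Type*} [Group G] [Fintype G] (p : ℕ) [Fact p.Prime] (M : Ideal Cfsg.AlgInt) (hM : Cfsg.IsPModular p M) (N : Subgroup G) [hN : N.Normal] [Fintype N] (b : Set (Cfsg.IrrCharacter N)) (hb : Cfsg.IsPBlock M b) (T : Subgroup G) [Fintype T] (hT : ∀ g : G, g ∈ T ↔ ∀ θ ∈ b, ∀ θ' : Cfsg.IrrCharacter N, (∀ n : N, (θ' : N → ℂ) n = (θ : N → ℂ) ⟨g * n * g⁻¹, hN.conj_mem n n.2 g⟩) → θ' ∈ b) (hNT : N ≤ T) : (∀ B' : Set (Cfsg.IrrCharacter T), Cfsg.IsPBlock M B' → (∃ ψ ∈ B', ∃ θ ∈ b, Cfsg.classInner (fun n : N => (ψ : T → ℂ) ⟨(n : G), hNT n.2⟩) (θ : N → ℂ) ≠ 0) → ∃ B : Set (Cfsg.IrrCharacter G), Cfsg.IsInducedBlock M T B' B ∧ (∃ χ ∈ B, ∃ θ ∈ b, Cfsg.classInner (fun n : N => (χ : G → ℂ) n) (θ : N → ℂ) ≠ 0) ∧ (∀ ψ ∈ B', Cfsg.IsIrrCharacter G (Cfsg.indFun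 T (ψ : T → ℂ))) ∧ ∀ χ : Cfsg.IrrCharacter G, χ ∈ B ↔ ∃ ψ ∈ B', (χ : G → ℂ) = Cfsg.indFun T (ψ : T → ℂ)) ∧ (∀ B'₁ B'₂ : Set (Cfsg.IrrCharacter T), Cfsg.IsPBlock M B'₁ → Cfsg.IsPBlock M B'₂ → (∃ ψ ∈ B'₁, ∃ θ ∈ b, Cfsg.classInner (fun n : N => (ψ : T → ℂ) ⟨(n : G), hNT n.2⟩) (θ : N → ℂ) ≠ 0) → (∃ ψ ∈ B'₂, ∃ θ ∈ b, Cfsg.classInner (fun n : N => (ψ : T → ℂ) ⟨(n : G), hNT n.2⟩) (θ : N → ℂ) ≠ 0) → ∀ B : Set (Cfsg.IrrCharacter G), Cfsg.IsInducedBlock M T B'₁ B → Cfsg.IsInducedBlock M T B'₂ B → B'₁ = B'₂) ∧ (∀ B : Set (Cfsg.IrrCharacter G), Cfsg.IsPBlock M B → (∃ χ ∈ B, ∃ θ ∈ b, Cfsg.classInner (fun n : N => (χ : G → ℂ) n) (θ : N → ℂ) ≠ 0) → ∃ B' : Set (Cfsg.IrrCharacter T), Cfsg.IsPBlock M B' ∧ (∃ ψ ∈ B', ∃ θ ∈ b, Cfsg.classInner (fun n : N => (ψ : T → ℂ) ⟨(n : G), hNT n.2⟩) (θ : N → ℂ) ≠ 0) ∧ Cfsg.IsInducedBlock M T B' B) := by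
  classical
  haveI : M.IsPrime := hM.2.1.isPrime
  have hT' := stab_iff hT
  have hst : ∀ t ∈ T, ∀ θ ∈ b, conjIrr N t θ ∈ b := fun t ht => (hT' t).1 ht
  have hdisj := hdisj_overIn hNT hb hT'
  have hOU : IsBlockUnion M (OverIn hNT b : Set (IrrCharacter T)) :=
    isBlockUnion_overIn hNT hst (isBlockUnion_of_isPBlock hb)
  refine ⟨?_, ?_, ?_⟩
  · rintro B' hB' ⟨ψ₀, hψ₀, θ, hθ, hc⟩
    have hsub := block_subset_of_mem hOU hB' hψ₀ ⟨θ, hθ, hc⟩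
    obtain ⟨h1, h2, h3⟩ := fr_induced hdisj hB' hsub hψ₀
    refine ⟨_, h1, ?_, fun ψ hψ => ind_isIrr hdisj (hsub hψ), h3⟩
    refine ⟨⟨indFun T (ψ₀ : T → ℂ), ind_isIrr hdisj (hsub hψ₀)⟩, (h3 _).2 ⟨ψ₀, hψ₀, rfl⟩, θ, hθ, ?_⟩
    show classInner (fun n : N => indFun T (ψ₀ : T → ℂ) n) (θ : N → ℂ) ≠ 0
    rw [classInner_ind_restrict_N hNT hst hdisj ⟨θ, hθ, hc⟩ hθ]
    exact hc
  · rintro B'₁ B'₂ h₁ h₂ ⟨ψ₁, hψ₁, θ₁, hθ₁, hc₁⟩ ⟨ψ₂, hψ₂, θ₂, hθ₂, hc₂⟩ B hi₁ hi₂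
    exact eq_of_induced_of_ind_mem hdisj h₁ h₂ (block_subset_of_mem hOU h₁ hψ₁ ⟨θ₁, hθ₁, hc₁⟩)
      (block_subset_of_mem hOU h₂ hψ₂ ⟨θ₂, hθ₂, hc₂⟩) hi₁ hi₂
  · rintro B hB ⟨χ, hχ, θ, hθ, hc⟩
    obtain ⟨ψ, h1, h2⟩ := exists_constituent_between hNT χ hc
    have hψO : ψ ∈ OverIn hNT b := ⟨θ, hθ, h2⟩
    have hχψ := eq_ind_of_constituent hdisj hψO h1
    have hB' : IsPBlock M (blockOf M (ψ : T → ℂ)) := isPBlock_blockOf ψ
    have hm : ψ ∈ blockOf M (ψ : T → ℂ) := mem_blockOf_self ψ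
    have hsub := block_subset_of_mem hOU hB' hm hψO
    obtain ⟨h3, -, -⟩ := fr_induced hdisj hB' hsub hm
    refine ⟨_, hB', ⟨ψ, hm, θ, hθ, h2⟩, ?_⟩
    rw [blockOf_eq_of_mem hB hχ, hχψ]
    exact h3

end Cfsg.Agent.S4435
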