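import Cfsg.Statements.S4436
import Mathlib
import Cfsg.Agent.Lib.CharExtra.FongReynolds

set_option autoImplicit false
open Cfsg
open Cfsg Cfsg.Agent.Lib.Block Cfsg.Agent.Lib.Char Cfsg.Agent.Lib.CharExtra

namespace Cfsg.Agent.S4436

/-- Let N be a normal subgroup of the finite group G, b a block of N (relative to a maximal ideal M of the algebraic integers containing p), T the stabilizer of b in G, N ≤ T, and B′ a block of T covering b (some member of B′ has a constituent in b on restriction to N) that induces the block B of G. Then every defect group of B′ is a defect group of B, and for every ψ ∈ B′ the induced character ψ^G is an irreducible character of G lying in B with the same height as ψ. -/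
theorem result {G : Type*} [Group G] [Fintype G] (p : ℕ) [Fact p.Prime] (M : Ideal Cfsg.AlgInt) (hM : Cfsg.IsPModular p M) (N : Subgroup G) [hN : N.Normal] [Fintype N] (b : Set (Cfsg.IrrCharacter N)) (hb : Cfsg.IsPBlock M b) (T : Subgroup G) [Fintype T] (hT : ∀ g : G, g ∈ T ↔ ∀ θ ∈ b, ∀ θ' : Cfsg.IrrCharacter N, (∀ n : N, (θ' : N → ℂ) n = (θ : N → ℂ) ⟨g * n * g⁻¹, hN.conj_mem n n.2 g⟩) → θ' ∈ b) (hNT : N ≤ T) (B' : Set (Cfsg.IrrCharacter T)) (hB' : Cfsg.IsPBlock M B') (hcov : (∃ ψ ∈ B', ∃ θ ∈ b, Cfsg.classInner (fun n : N => (ψ : T → ℂ) ⟨(n : G), hNT n.2⟩) (θ : N → ℂ) ≠ 0)) (B : Set (Cfsg.IrrCharacter G)) (hind : Cfsg.IsInducedBlock M T B' B) : (∀ D : Subgroup T, Cfsg.IsDefectGroup p M B' D → Cfsg.IsDefectGroup p M B (D.map T.subtype)) ∧ ∀ ψ ∈ B', ∃ χ ∈ B, (χ : G → ℂ) = Cfsg.indFun T (ψ : T → ℂ) ∧ Cfsg.blockHeight p B (χ : G → ℂ) = Cfsg.blockHeight p B' (ψ : T → ℂ) := by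
  classical
  haveI : M.IsPrime := hM.2.1.isPrime
  have hT' := stab_iff hT
  have hst : ∀ t ∈ T, ∀ θ ∈ b, conjIrr N t θ ∈ b := fun t ht => (hT' t).1 ht
  have hdisj := hdisj_overIn hNT hb hT'
  have hOU : IsBlockUnion M (OverIn hNT b : Set (IrrCharacter T)) :=
    isBlockUnion_overIn hNT hst (isBlockUnion_of_isPBlock hb)
  obtain ⟨ψ₀, hψ₀, θ, hθ, hc⟩ := hcov
  have hsub := block_subset_of_mem hOU hB' hψ₀ ⟨θ, hθ, hc⟩
  obtain ⟨h1, h2, h3⟩ := fr_induced hdisj hB' hsub hψ₀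
  have hA : B = indSetOf B' := by
    have hm : (⟨indFun T (ψ₀ : T → ℂ), ind_isIrr hdisj (hsub hψ₀)⟩ : IrrCharacter G) ∈ B :=
      ind_mem_of_induced hind hψ₀ rfl
    rw [blockOf_eq_of_mem hind.2.1 hm]
    ext χ
    exact h3 χ
  refine ⟨fun D hD => defect_ind hM hdisj hB' hsub hind hA hD, ?_⟩
  intro ψ hψ
  refine ⟨⟨indFun T (ψ : T → ℂ), ind_isIrr hdisj (hsub hψ)⟩, ind_mem_of_induced hind hψ rfl, rfl, ?_⟩
  rw [hA]
  exact blockHeight_ind hdisj (IsPBlock_nonempty hB') hsub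

end Cfsg.Agent.S4436
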