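import Cfsg.Statements.S4439
import Mathlib
import Cfsg.Agent.Lib.BPair.FongHeight

set_option autoImplicit false
open Cfsg
open Cfsg.Agent.Lib.Block Cfsg.Agent.Lib.Char Cfsg.Agent.Lib.CharExtra Cfsg.Agent.Lib.BPair

namespace Cfsg.Agent.S4439

/-- Let G be a finite p-solvable group and B a p-block of G with defect group P (relative to a maximal ideal M of the algebraic integers containing p). Then the height of every irreducible character in B is at most the exponent of p in the index of the centre of P in P. -/
theorem result {G : Type*} [Group G] [Finite G] (p : ℕ) [Fact p.Prime] (M : Ideal Cfsg.AlgInt) (hM : Cfsg.IsPModular p M) (hsolv : Cfsg.IsPSolvable p G) (B : Set (Cfsg.IrrCharacter G)) (hB : Cfsg.IsPBlock M B) (P : Subgroup G) (hP : Cfsg.IsDefectGroup p M B P) (χ : Cfsg.IrrCharacter G) (hχ : χ ∈ B) : Cfsg.blockHeight p B (χ : G → ℂ) ≤ ((Subgroup.center P).index).factorization p := by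
  classical
  haveI : Fintype G := Fintype.ofFinite G
  haveI : M.IsPrime := hM.2.1.isPrime
  have hBe : B = blockOf M (χ : G → ℂ) := blockOf_eq_of_mem hB hχ
  have h1 := height_bound (p := p) hM _ G rfl hsolv χ P (by rw [← hBe]; exact hP)
  have h2 := card_defect_group hM hB hP
  have h3 := Subgroup.card_mul_index (Subgroup.center P)
  have hne : ((fun ψ : IrrCharacter G => (charDegree (ψ : G → ℂ)).factorization p) '' B).Nonempty :=
    ⟨_, χ, hχ, rfl⟩
  have h4 : (Nat.card P).factorization p = blockDefect p B := by
    rw [h2]
    exact Nat.factorization_pow_self (Fact.out)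
  have h5 : (Nat.card P).factorization p = (Nat.card (Subgroup.center P)).factorization p +
      ((Subgroup.center P).index).factorization p := by
    rw [← h3, Nat.factorization_mul Nat.card_pos.ne' Subgroup.index_ne_zero_of_finite]
    rfl
  have h6 : sInf ((fun ψ : IrrCharacter G => (charDegree (ψ : G → ℂ)).factorization p) '' B) ≤
      (Nat.card G).factorization p := by
    refine (Nat.sInf_le (Set.mem_image_of_mem _ hχ)).trans ?_
    exact (Nat.factorization_le_iff_dvd (charDegree_pos_of_irr χ.2).ne' Nat.card_pos.ne').2
      (charDegree_dvd_card χ.2) p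
  unfold blockDefect at h4
  unfold blockHeight
  omega

end Cfsg.Agent.S4439
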