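import Cfsg.Statements.S4442
import Mathlib
import Cfsg.Agent.Lib.FF.GenMain

set_option autoImplicit false
open Cfsg

namespace Cfsg.Agent.S4442

/-- Blocks of defect one. Let p be an odd prime and G a finite group whose Sylow p-subgroup P has order p; let C = C_G(P) and N = N_G(P), and fix a maximal ideal M of the algebraic integers containing p. Let B be a block of G with defect group P, b a block of C inducing B, and θ the member of b having P in its kernel (there is exactly one). Let T be the stabilizer of θ in N (the elements g ∈ N with θ(g c g⁻¹) = θ(c) for all c ∈ C) and e the index of C in T. Then e divides p − 1 and B contains exactly e + (p − 1)/e irreducible characters. Moreover B is the disjoint union of a set X of e characters and a set Y of (p − 1)/e characters such that, with f the index of C in N: every χ ∈ X has χ(1) ≡ ±(f/e)·θ(1) (mod p), there is one sign ε with ψ(1) ≡ ε f θ(1) (mod p) for all ψ ∈ Y, and all members of Y agree on the p-regular elements of G. -/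
theorem result {G : Type*} [Group G] [Finite G] (p : ℕ) [Fact p.Prime] (M : Ideal Cfsg.AlgInt) (hM : Cfsg.IsPModular p M) (hodd : p ≠ 2) (P : Sylow p G) (hP : Nat.card P = p) (B : Set (Cfsg.IrrCharacter G)) (hB : Cfsg.IsPBlock M B) (hBP : Cfsg.IsDefectGroup p M B P) (b : Set (Cfsg.IrrCharacter (Subgroup.centralizer ((P : Subgroup G) : Set G)))) (hind : Cfsg.IsInducedBlock M (Subgroup.centralizer ((P : Subgroup G) : Set G)) b B) (θ : Cfsg.IrrCharacter (Subgroup.centralizer ((P : Subgroup G) : Set G))) (hθ : θ ∈ b) (hθP : ∀ x : Subgroup.centralizer ((P : Subgroup G) : Set G), (x : G) ∈ (P : Subgroup G) → (θ : Subgroup.centralizer ((P : Subgroup G) : Set G) → ℂ) x = (θ : Subgroup.centralizer ((P : Subgroup G) : Set G) → ℂ) 1) (T : Subgroup G) (hT : ∀ g : G, g ∈ T ↔ (g ∈ Subgroup.normalizer ((P : Subgroup G) : Set G) ∧ ∀ c c' : Subgroup.centralizer ((P : Subgroup G) : Set G), (c' : G) = g * c * g⁻¹ → (θ : Subgroup.centralizer ((P : Subgroup G) : Set G) → ℂ) c' = (θ : Subgroup.centralizer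 ((P : Subgroup G) : Set G) → ℂ) c)) (e f : ℕ) (he : (Subgroup.centralizer ((P : Subgroup G) : Set G)).relIndex T = e) (hf : (Subgroup.centralizer ((P : Subgroup G) : Set G)).relIndex (Subgroup.normalizer ((P : Subgroup G) : Set G)) = f) : e ∣ p - 1 ∧ Nat.card B = e + (p - 1) / e ∧ ∃ X Y : Set (Cfsg.IrrCharacter G), B = X ∪ Y ∧ Disjoint X Y ∧ Nat.card X = e ∧ Nat.card Y = (p - 1) / e ∧ (∀ χ ∈ X, (Cfsg.charDegree (χ : G → ℂ) : ℤ) ≡ ((f / e * Cfsg.charDegree (θ : Subgroup.centralizer ((P : Subgroup G) : Set G) → ℂ) : ℕ) : ℤ) [ZMOD p] ∨ (Cfsg.charDegree (χ : G → ℂ) : ℤ) ≡ -((f / e * Cfsg.charDegree (θ : Subgroup.centralizer ((P : Subgroup G) : Set G) → ℂ) : ℕ) : ℤ) [ZMOD p]) ∧ (∃ ε : ℤ, (ε = 1 ∨ ε = -1) ∧ ∀ ψ ∈ Y, (Cfsg.charDegree (ψ : G → ℂ) : ℤ) ≡ ε * ((f * Cfsg.charDegree (θ : Subgroup.centralizer ((P : Subgroup G) : Set G) → ℂ) : ℕ) : ℤ) [ZMOD p]) ∧ ∀ ψ ∈ Y, ∀ ψ' ∈ Y, ∀ g : G, ¬ p ∣ orderOf g → (ψ : G → ℂ) g = (ψ' : G → ℂ) g := by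
  classical
  letI : Fintype G := Fintype.ofFinite G
  have hpr := Fact.out (p := p.Prime)
  have hcyc : IsCyclic P := isCyclic_of_prime_card hP
  obtain ⟨g, hg⟩ := IsCyclic.exists_generator (α := P)
  set x : G := (g : G) with hxdef
  have hordg : orderOf g = p := (orderOf_eq_card_of_forall_mem_zpowers hg).trans hP
  have hx : orderOf x = p := by
    rw [hxdef, Subgroup.orderOf_coe, hordg]
  have hPx : (P : Subgroup G) = Subgroup.zpowers x := by
    apply le_antisymm
    · intro y hy
      obtain ⟨k, hk⟩ := Subgroup.mem_zpowers_iff.mp (hg ⟨y, hy⟩)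
      refine Subgroup.mem_zpowers_iff.mpr ⟨k, ?_⟩
      have := congrArg Subtype.val hk
      simpa using this
    · rw [Subgroup.zpowers_le]
      exact g.2
  have hsyl : ¬ p ^ 2 ∣ Nat.card G := by
    intro hd
    have h1 := Sylow.pow_dvd_card_of_pow_dvd_card P hd
    rw [hP] at h1
    have h2 := Nat.le_of_dvd hpr.pos h1
    have h3 := hpr.two_le
    nlinarith
  have hCx : Subgroup.centralizer ((P : Subgroup G) : Set G) = Subgroup.centralizer ({x} : Set G) := by
    ext y
    rw [Subgroup.mem_centralizer_iff, Subgroup.mem_centralizer_iff, hPx]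
    constructor
    · intro h z hz
      rw [Set.mem_singleton_iff.mp hz]
      exact h x (Subgroup.mem_zpowers x)
    · intro h z hz
      obtain ⟨k, rfl⟩ := Subgroup.mem_zpowers_iff.mp hz
      have h2 : Commute y x := (h x rfl).symm
      exact (h2.zpow_right k).symm
  have hC : ∀ y, y ∈ Subgroup.centralizer ((P : Subgroup G) : Set G) ↔ Commute y x := by
    intro y
    rw [hCx, Subgroup.mem_centralizer_singleton_iff]
    rfl
  have hN : Subgroup.normalizer ((P : Subgroup G) : Set G) = Subgroup.normalizer ((Subgroup.zpowers x : Subgroup G) : Set G) := by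
    rw [hPx]
  letI : Fintype (Subgroup.centralizer ((P : Subgroup G) : Set G)) := Fintype.ofFinite _
  letI : Fintype (Subgroup.zpowers x) := Fintype.ofFinite _
  letI : Fintype T := Fintype.ofFinite _
  rw [hPx] at hBP
  rw [hN] at hf
  exact Cfsg.Agent.Lib.FF.block_main_C hM hx hsyl hC hB hBP b hind θ hθ
    (fun y hy => hθP y ((Subgroup.ext_iff.mp hPx _).mpr hy)) (fun y => by rw [hT y, hN]) e f he hf


end Cfsg.Agent.S4442
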