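import Cfsg.Statements.S4444
import Mathlib
import Cfsg.Agent.Lib.Coprime.GlauberP

set_option autoImplicit false
open Cfsg

namespace Cfsg.Agent.S4444

/-- The Glauberman correspondence for a p-group of operators. Inside a finite group Γ let S normalise G with the orders of G and S coprime, S a p-group, and let C = G ⊓ C(S) be the fixed points. Call an irreducible character χ of G S-invariant when χ(s g s⁻¹) = χ(g) for s ∈ S, g ∈ G. Then: (i) for every S-invariant χ there is exactly one irreducible character β of C whose multiplicity [χ_C, β] in the restriction of χ is not divisible by p; (ii) that multiplicity is ≡ 1 or ≡ −1 (mod p); (iii) distinct S-invariant χ give distinct β; (iv) every irreducible character of C arises in this way. So χ ↦ β is a bijection from the S-invariant irreducible characters of G onto the irreducible characters of C. -/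
theorem result {Γ : Type*} [Group Γ] [Fintype Γ] (G S : Subgroup Γ) [Fintype G] (hnorm : ∀ s ∈ S, ∀ g ∈ G, s * g * s⁻¹ ∈ G) (hcop : (Nat.card G).Coprime (Nat.card S)) (p : ℕ) (hp : p.Prime) (hS : IsPGroup p S) (C : Subgroup Γ) [Fintype C] (hC : C = G ⊓ Subgroup.centralizer (S : Set Γ)) (hCG : C ≤ G) : (∀ χ : Cfsg.IrrCharacter G, (∀ s ∈ S, ∀ g g' : G, (g' : Γ) = s * g * s⁻¹ → (χ : G → ℂ) g' = (χ : G → ℂ) g) → ∃! β : Cfsg.IrrCharacter C, ∃ m : ℕ, Cfsg.classInner (fun c : C => (χ : G → ℂ) ⟨c, hCG c.2⟩) (β : C → ℂ) = (m : ℂ) ∧ ¬ p ∣ m) ∧ (∀ χ : Cfsg.IrrCharacter G, (∀ s ∈ S, ∀ g g' : G, (g' : Γ) = s * g * s⁻¹ → (χ : G → ℂ) g' = (χ : G → ℂ) g) → ∀ β : Cfsg.IrrCharacter C, ∀ m : ℕ, Cfsg.classInner (fun c : C => (χ : G → ℂ) ⟨c, hCG c.2⟩) (β : C → ℂ) = (m : ℂ) → ¬ p ∣ m → ((m : ℤ) ≡ 1 [ZMOD p] ∨ (m : ℤ) ≡ -1 [ZMOD p])) ∧ (∀ χ χ' : Cfsg.IrrCharacter G, (∀ s ∈ S, ∀ g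 g' : G, (g' : Γ) = s * g * s⁻¹ → (χ : G → ℂ) g' = (χ : G → ℂ) g) → (∀ s ∈ S, ∀ g g' : G, (g' : Γ) = s * g * s⁻¹ → (χ' : G → ℂ) g' = (χ' : G → ℂ) g) → ∀ β : Cfsg.IrrCharacter C, ∀ m m' : ℕ, Cfsg.classInner (fun c : C => (χ : G → ℂ) ⟨c, hCG c.2⟩) (β : C → ℂ) = (m : ℂ) → ¬ p ∣ m → Cfsg.classInner (fun c : C => (χ' : G → ℂ) ⟨c, hCG c.2⟩) (β : C → ℂ) = (m' : ℂ) → ¬ p ∣ m' → χ = χ') ∧ (∀ β : Cfsg.IrrCharacter C, ∃ χ : Cfsg.IrrCharacter G, (∀ s ∈ S, ∀ g g' : G, (g' : Γ) = s * g * s⁻¹ → (χ : G → ℂ) g' = (χ : G → ℂ) g) ∧ ∃ m : ℕ, Cfsg.classInner (fun c : C => (χ : G → ℂ) ⟨c, hCG c.2⟩) (β : C → ℂ) = (m : ℂ) ∧ ¬ p ∣ m) := by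
  classical
  let φ := Cfsg.Agent.Lib.Coprime.conjAct G S hnorm
  let j : C →* G := Subgroup.inclusion hCG
  have hj : Function.Injective j := Subgroup.inclusion_injective hCG
  have hr : ∀ y, y ∈ j.range ↔ ∀ a, φ a y = y := by
    intro y
    constructor
    · rintro ⟨c, rfl⟩ a
      apply Subtype.ext
      have hc : (c : Γ) ∈ G ⊓ Subgroup.centralizer (S : Set Γ) := hC ▸ c.2
      show (a : Γ) * (c : Γ) * (a : Γ)⁻¹ = c
      have h1 : (a : Γ) * (c : Γ) = c * a := (Subgroup.mem_centralizer_iff.mp hc.2 a a.2)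
      rw [h1]
      group
    · intro h
      have hy : (y : Γ) ∈ C := by
        rw [hC]
        refine ⟨y.2, Subgroup.mem_centralizer_iff.mpr fun s hs => ?_⟩
        have h1 := congrArg Subtype.val (h ⟨s, hs⟩)
        have h2 : s * (y : Γ) * s⁻¹ = y := h1
        calc s * (y : Γ) = s * (y : Γ) * s⁻¹ * s := by group
          _ = y * s := by rw [h2]
      exact ⟨⟨y, hy⟩, Subtype.ext rfl⟩
  obtain ⟨f, hf⟩ := Cfsg.Agent.Lib.Coprime.pgroup_corr_coprime hp φ hS hcop hj hr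
  have hinv : ∀ χ : Cfsg.IrrCharacter G, (∀ s ∈ S, ∀ g g' : G, (g' : Γ) = s * g * s⁻¹ → (χ : G → ℂ) g' = (χ : G → ℂ) g) →
      Cfsg.Agent.Lib.Coprime.IsInv φ (χ : G → ℂ) := fun χ h =>
    (Cfsg.Agent.Lib.Coprime.isInv_conjAct_iff G S hnorm _).mpr h
  have hinv' : ∀ χ : Cfsg.Agent.Lib.Coprime.IrrInv φ, ∀ s ∈ S, ∀ g g' : G, (g' : Γ) = s * g * s⁻¹ →
      (χ.1 : G → ℂ) g' = (χ.1 : G → ℂ) g := fun χ =>
    (Cfsg.Agent.Lib.Coprime.isInv_conjAct_iff G S hnorm _).mp χ.2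
  have hnat : ∀ (χ : Cfsg.IrrCharacter G) (β : Cfsg.IrrCharacter C), ∃ m : ℕ,
      Cfsg.classInner (fun c : C => (χ : G → ℂ) ⟨c, hCG c.2⟩) (β : C → ℂ) = (m : ℂ) := fun χ β =>
    Cfsg.Agent.Lib.Char.classInner_isCharacter_nat
      (Cfsg.Agent.Lib.Char.IsCharacter.comp j (Cfsg.Agent.Lib.Char.IsIrrCharacter.isCharacter χ.2))
      (Cfsg.Agent.Lib.Char.IsIrrCharacter.isCharacter β.2)
  -- the value of the correspondence
  have heq : ∀ (χ : Cfsg.Agent.Lib.Coprime.IrrInv φ) (β : Cfsg.IrrCharacter C) (m : ℕ),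
      Cfsg.classInner (fun c : C => (χ.1 : G → ℂ) ⟨c, hCG c.2⟩) (β : C → ℂ) = (m : ℂ) → ¬ p ∣ m → β = f χ := by
    intro χ β m hm hpm
    by_contra hne
    exact hpm (((hf χ).dvd β hne).dvd hp hm)
  refine ⟨fun χ hχ => ?_, fun χ hχ β m hm hpm => ?_, fun χ χ' hχ hχ' β m m' hm hpm hm' hpm' => ?_, fun β => ?_⟩
  · let χ₁ : Cfsg.Agent.Lib.Coprime.IrrInv φ := ⟨χ, hinv χ hχ⟩
    obtain ⟨m, hm⟩ := hnat χ (f χ₁)
    refine ⟨f χ₁, ⟨m, hm, (hf χ₁).unit.not_dvd hp hm⟩, ?_⟩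
    rintro β ⟨m', hm', hpm'⟩
    exact heq χ₁ β m' hm' hpm'
  · let χ₁ : Cfsg.Agent.Lib.Coprime.IrrInv φ := ⟨χ, hinv χ hχ⟩
    have h1 := heq χ₁ β m hm hpm
    obtain ⟨t, ε, hε, ht⟩ := (hf χ₁).unit
    rw [← h1] at ht
    have h2 : Cfsg.classInner (fun c : C => (χ : G → ℂ) ⟨c, hCG c.2⟩) (β : C → ℂ) = (p : ℂ) * t + ε := ht
    rw [hm] at h2
    have h3 : (m : ℤ) = (p : ℤ) * t + ε := by exact_mod_cast h2
    rcases hε with rfl | rfl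
    · left
      rw [h3]
      simp [Int.ModEq]
    · right
      rw [h3]
      simp [Int.ModEq]
  · let χ₁ : Cfsg.Agent.Lib.Coprime.IrrInv φ := ⟨χ, hinv χ hχ⟩
    let χ₂ : Cfsg.Agent.Lib.Coprime.IrrInv φ := ⟨χ', hinv χ' hχ'⟩
    have h1 := heq χ₁ β m hm hpm
    have h2 := heq χ₂ β m' hm' hpm'
    have h3 : χ₁ = χ₂ := f.injective (h1.symm.trans h2)
    exact congrArg Subtype.val h3
  · let χ₁ := f.symm β
    obtain ⟨m, hm⟩ := hnat χ₁.1 β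
    refine ⟨χ₁.1, hinv' χ₁, m, hm, ?_⟩
    have h1 := hf χ₁
    rw [f.apply_symm_apply] at h1
    exact h1.unit.not_dvd hp hm

end Cfsg.Agent.S4444
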