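import Cfsg.Statements.S4445
import Mathlib
import Cfsg.Agent.Lib.Coprime.GlauberSol

set_option autoImplicit false
open Cfsg

namespace Cfsg.Agent.S4445

/-- Inside a finite group Γ let the solvable subgroup S normalise G with the orders of G and S coprime. Then the number of S-invariant irreducible characters of G (χ(s g s⁻¹) = χ(g) for all s ∈ S, g ∈ G) equals the number of conjugacy classes of G mapped to themselves by conjugation by every element of S. -/
theorem result {Γ : Type*} [Group Γ] [Fintype Γ] (G S : Subgroup Γ) [Fintype G] (hnorm : ∀ s ∈ S, ∀ g ∈ G, s * g * s⁻¹ ∈ G) (hcop : (Nat.card G).Coprime (Nat.card S)) (hsolv : Group.IsSolvable S) : Nat.card {χ : Cfsg.IrrCharacter G // (∀ s ∈ S, ∀ g g' : G, (g' : Γ) = s * g * s⁻¹ → (χ : G → ℂ) g' = (χ : G → ℂ) g)} = Nat.card {K : ConjClasses G // ∀ s ∈ S, ∀ g g' : G, (g' : Γ) = s * g * s⁻¹ → ConjClasses.mk g = K → ConjClasses.mk g' = K} := by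
  classical
  have hfinG : Finite G := inferInstance
  let φ := Cfsg.Agent.Lib.Coprime.conjAct G S hnorm
  let C := ↥(Cfsg.Agent.Lib.Coprime.fixSub φ)
  letI : Fintype C := Fintype.ofFinite _
  let j : C →* G := (Cfsg.Agent.Lib.Coprime.fixSub φ).subtype
  have hj : Function.Injective j := Subgroup.subtype_injective _
  have hr : ∀ y, y ∈ j.range ↔ ∀ a, φ a y = y := by
    intro y
    rw [Subgroup.range_subtype]
    exact Iff.rfl
  obtain ⟨f, -⟩ := Cfsg.Agent.Lib.Coprime.sol_corr_single φ j hsolv hcop hj hr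
  have h1 := Cfsg.Agent.Lib.Coprime.card_fixCl (A := S) (φ := φ) (j := j) hcop.symm (Or.inl hsolv) hj hr
  have h2 : Nat.card {χ : Cfsg.IrrCharacter G // (∀ s ∈ S, ∀ g g' : G, (g' : Γ) = s * g * s⁻¹ → (χ : G → ℂ) g' = (χ : G → ℂ) g)} =
      Nat.card (Cfsg.Agent.Lib.Coprime.IrrInv φ) := by
    apply Nat.card_congr
    exact Equiv.subtypeEquivRight (fun χ => (Cfsg.Agent.Lib.Coprime.isInv_conjAct_iff G S hnorm _).symm)
  have h3 : Nat.card {K : ConjClasses G // ∀ s ∈ S, ∀ g g' : G, (g' : Γ) = s * g * s⁻¹ → ConjClasses.mk g = K → ConjClasses.mk g' = K} =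
      Nat.card {K : ConjClasses G // Cfsg.Agent.Lib.Coprime.IsFixCl φ K} := by
    apply Nat.card_congr
    apply Equiv.subtypeEquivRight
    intro K
    constructor
    · intro h a g hg
      exact h a a.2 g (φ a g) rfl hg
    · intro h s hs g g' hg' hg
      have h4 : g' = φ ⟨s, hs⟩ g := Subtype.ext hg'
      rw [h4]
      exact h ⟨s, hs⟩ g hg
  rw [h2, h3, h1, Nat.card_congr f, Cfsg.Agent.Lib.Char.card_irr_eq_card_conjClasses]

end Cfsg.Agent.S4445
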