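import Cfsg.Statements.S4446
import Cfsg.Agent.Lib.Coprime.GlauberCyclic
import Cfsg.Agent.Lib.Coprime.GlauberP
import Cfsg.Agent.Lib.Coprime.GlauberStep
import Mathlib

set_option autoImplicit false
open Cfsg

namespace Cfsg.Agent.S4446

open Cfsg.Agent.Lib.Char Cfsg.Agent.Lib.Coprime
open scoped ComplexConjugate Pointwise

theorem sign_eq {d d' : ℂ} {ε ε' : ℤ} (hε : ε = 1 ∨ ε = -1) (hε' : ε' = 1 ∨ ε' = -1) {a b : ℕ} (ha : a ≠ 0) (hb : b ≠ 0)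
    (h : (ε : ℂ) * (a : ℂ) = (ε' : ℂ) * (b : ℂ)) : ε = ε' := by
  have h1 : ε * (a : ℤ) = ε' * (b : ℤ) := by exact_mod_cast h
  have ha' : (0 : ℤ) < a := by exact_mod_cast Nat.pos_of_ne_zero ha
  have hb' : (0 : ℤ) < b := by exact_mod_cast Nat.pos_of_ne_zero hb
  rcases hε with rfl | rfl <;> rcases hε' with rfl | rfl <;> first | rfl | omega


/-- Let the finite group Γ be generated by a normal subgroup G and a cyclic subgroup S of coprime orders, C = G ⊓ C(S), and let χ be an S-invariant irreducible character of G with canonical extension χ̂ to Γ (the extension whose determinantal order is coprime to the order of S). Then there are exactly one irreducible character β of C and one sign ε such that χ̂(c s) = ε β(c) for every c ∈ C and every generator s of S; this β is a constituent of the restriction of χ to C; distinct S-invariant χ give distinct β; and every irreducible character of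 C arises in this way. -/
theorem result {Γ : Type*} [Group Γ] [Fintype Γ] (G S : Subgroup Γ) [Fintype G] (hnorm : ∀ s ∈ S, ∀ g ∈ G, s * g * s⁻¹ ∈ G) (hcop : (Nat.card G).Coprime (Nat.card S)) (htop : G ⊔ S = ⊤) (hcyc : IsCyclic S) (C : Subgroup Γ) [Fintype C] (hC : C = G ⊓ Subgroup.centralizer (S : Set Γ)) (hCG : C ≤ G) : (∀ (χ : Cfsg.IrrCharacter G) (χh : Cfsg.IrrCharacter Γ), (∀ s ∈ S, ∀ g g' : G, (g' : Γ) = s * g * s⁻¹ → (χ : G → ℂ) g' = (χ : G → ℂ) g) → (∀ g : G, (χh : Γ → ℂ) g = (χ : G → ℂ) g) → (Cfsg.detOrder (χh : Γ → ℂ)).Coprime (Nat.card S) → (∃! βε : Cfsg.IrrCharacter C × ℤ, (βε.2 = 1 ∨ βε.2 = -1) ∧ ∀ c : C, ∀ s : Γ, Subgroup.zpowers s = S → (χh : Γ → ℂ) ((c : Γ) * s) = (βε.2 : ℂ) * (βε.1 : C → ℂ) c) ∧ ∀ β : Cfsg.IrrCharacter C, ∀ ε : ℤ, (ε = 1 ∨ ε = -1) → (∀ c : C, ∀ s : Γ, Subgroup.zpowers s = S → (χh : Γ → ℂ) ((c : Γ) * s) = (ε : ℂ) * (β : C → ℂ) c) → Cfsg.classInner (fun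 c : C => (χ : G → ℂ) ⟨c, hCG c.2⟩) (β : C → ℂ) ≠ 0) ∧ (∀ (χ χ' : Cfsg.IrrCharacter G) (χh χh' : Cfsg.IrrCharacter Γ), (∀ s ∈ S, ∀ g g' : G, (g' : Γ) = s * g * s⁻¹ → (χ : G → ℂ) g' = (χ : G → ℂ) g) → (∀ s ∈ S, ∀ g g' : G, (g' : Γ) = s * g * s⁻¹ → (χ' : G → ℂ) g' = (χ' : G → ℂ) g) → (∀ g : G, (χh : Γ → ℂ) g = (χ : G → ℂ) g) → (∀ g : G, (χh' : Γ → ℂ) g = (χ' : G → ℂ) g) → (Cfsg.detOrder (χh : Γ → ℂ)).Coprime (Nat.card S) → (Cfsg.detOrder (χh' : Γ → ℂ)).Coprime (Nat.card S) → ∀ β : Cfsg.IrrCharacter C, ∀ ε ε' : ℤ, (ε = 1 ∨ ε = -1) → (ε' = 1 ∨ ε' = -1) → (∀ c : C, ∀ s : Γ, Subgroup.zpowers s = S → (χh : Γ → ℂ) ((c : Γ) * s) = (ε : ℂ) * (β : C → ℂ) c) → (∀ c : C, ∀ s : Γ, Subgroup.zpowers s = S → (χh' : Γ → ℂ) ((c : Γ) * s) = (ε' : ℂ) * (β : C → ℂ) c) → χ = χ') ∧ (∀ β : Cfsg.IrrCharacter C, ∃ (χ : Cfsg.IrrCharacter G) (χh : Cfsg.IrrCharacter Γ) (ε : ℤ), (∀ s ∈ S, ∀ g g' : G, (g' : Γ) = s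 * g * s⁻¹ → (χ : G → ℂ) g' = (χ : G → ℂ) g) ∧ (∀ g : G, (χh : Γ → ℂ) g = (χ : G → ℂ) g) ∧ (Cfsg.detOrder (χh : Γ → ℂ)).Coprime (Nat.card S) ∧ (ε = 1 ∨ ε = -1) ∧ ∀ c : C, ∀ s : Γ, Subgroup.zpowers s = S → (χh : Γ → ℂ) ((c : Γ) * s) = (ε : ℂ) * (β : C → ℂ) c) := by
  classical
  haveI hGn : G.Normal := normal_of_sup G S hnorm htop
  obtain ⟨s₀, hs₀⟩ : ∃ s, Subgroup.zpowers s = S := by
    obtain ⟨g, hg⟩ := hcyc.exists_generator
    refine ⟨(g : Γ), le_antisymm (Subgroup.zpowers_le.mpr g.2) fun x hx => ?_⟩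
    obtain ⟨k, hk⟩ := hg ⟨x, hx⟩
    refine ⟨k, ?_⟩
    have := congrArg (Subtype.val) hk
    simpa using this
  have hirrG : ∀ (χ : IrrCharacter G) (χh : IrrCharacter Γ), (∀ g : G, (χh : Γ → ℂ) g = (χ : G → ℂ) g) →
      IsIrrCharacter G (fun g : G => (χh : Γ → ℂ) g) := by
    intro χ χh hext
    have h1 : (fun g : G => (χh : Γ → ℂ) g) = χ := funext hext
    rw [h1]
    exact χ.2
  have hvalue : ∀ (χ : IrrCharacter G) (χh : IrrCharacter Γ), (∀ g : G, (χh : Γ → ℂ) g = (χ : G → ℂ) g) →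
      (detOrder (χh : Γ → ℂ)).Coprime (Nat.card S) →
      ∃ (β : IrrCharacter C) (ε : ℤ), (ε = 1 ∨ ε = -1) ∧
        ∀ c : C, ∀ s : Γ, Subgroup.zpowers s = S → (χh : Γ → ℂ) ((c : Γ) * s) = (ε : ℂ) * (β : C → ℂ) c := by
    intro χ χh hext hdet
    obtain ⟨β, ε, hε, hv⟩ := canonical_value hcop htop hC hCG hs₀ χh.2 (hirrG χ χh hext) hdet
    refine ⟨β, ε, hε, fun c s hs => ?_⟩
    rw [canonical_value_eq hcop htop hC hCG hs₀ hs χh.2 (hirrG χ χh hext) hdet c, hv]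
  have hD := coreData_cyclic hcop hC hCG hs₀
  have hpart2 : ∀ (χ χ' : Cfsg.IrrCharacter G) (χh χh' : Cfsg.IrrCharacter Γ), (∀ s ∈ S, ∀ g g' : G, (g' : Γ) = s * g * s⁻¹ → (χ : G → ℂ) g' = (χ : G → ℂ) g) → (∀ s ∈ S, ∀ g g' : G, (g' : Γ) = s * g * s⁻¹ → (χ' : G → ℂ) g' = (χ' : G → ℂ) g) → (∀ g : G, (χh : Γ → ℂ) g = (χ : G → ℂ) g) → (∀ g : G, (χh' : Γ → ℂ) g = (χ' : G → ℂ) g) → (Cfsg.detOrder (χh : Γ → ℂ)).Coprime (Nat.card S) → (Cfsg.detOrder (χh' : Γ → ℂ)).Coprime (Nat.card S) → ∀ β : Cfsg.IrrCharacter C, ∀ ε ε' : ℤ, (ε = 1 ∨ ε = -1) → (ε' = 1 ∨ ε' = -1) → (∀ c : C, ∀ s : Γ, Subgroup.zpowers s = S → (χh : Γ → ℂ) ((c : Γ) * s) = (ε : ℂ) * (β : C → ℂ) c) → (∀ c : C, ∀ s : Γ, Subgroup.zpowers s = S → (χh' : Γ → ℂ) ((c : Γ) * s) = (ε' : ℂ) * (β : C → ℂ) c) → χ = χ' := by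
    intro χ χ' χh χh' hinv hinv' hext hext' hdet hdet' β ε ε' hε hε' hv hv'
    by_contra hne
    have h0 : classInner (fun y : G => (χh : Γ → ℂ) (G.subtype y)) (fun y : G => (χh' : Γ → ℂ) (G.subtype y)) = 0 := by
      have h1 : (fun y : G => (χh : Γ → ℂ) (G.subtype y)) = χ := funext hext
      have h2 : (fun y : G => (χh' : Γ → ℂ) (G.subtype y)) = χ' := funext hext'
      rw [h1, h2]
      exact classInner_irr_of_ne χ.2 χ'.2 (fun h => hne (Subtype.ext h))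
    have h1 := core_sum_zero hD (IsIrrCharacter.isCharacter χh.2) (IsIrrCharacter.isCharacter χh'.2) h0
    have h2 : ∑ c : C, (χh : Γ → ℂ) (G.subtype (Subgroup.inclusion hCG c) * s₀) *
        conj ((χh' : Γ → ℂ) (G.subtype (Subgroup.inclusion hCG c) * s₀)) =
        ((ε : ℂ) * (ε' : ℂ)) * ((Nat.card C : ℂ) * classInner (β : C → ℂ) (β : C → ℂ)) := by
      rw [classInner_def, ← mul_assoc (Nat.card C : ℂ), mul_inv_cancel₀ (by exact_mod_cast Nat.card_pos.ne'),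
        one_mul, Finset.mul_sum]
      refine Finset.sum_congr rfl fun c _ => ?_
      have h3 := hv c s₀ hs₀
      have h4 := hv' c s₀ hs₀
      have h5 : G.subtype (Subgroup.inclusion hCG c) * s₀ = (c : Γ) * s₀ := rfl
      rw [h5, h3, h4]
      simp only [map_mul, map_intCast]
      ring
    rw [h1, classInner_irr_self β.2, mul_one] at h2
    have hne1 : (Nat.card C : ℂ) ≠ 0 := by exact_mod_cast Nat.card_pos.ne'
    have hεne : (ε : ℂ) ≠ 0 := by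
      rcases hε with rfl | rfl <;> simp
    have hε'ne : (ε' : ℂ) ≠ 0 := by
      rcases hε' with rfl | rfl <;> simp
    exact (mul_ne_zero (mul_ne_zero hεne hε'ne) hne1) h2.symm
  refine ⟨?_, hpart2, ?_⟩
  · intro χ χh hinv hext hdet
    obtain ⟨β, ε, hε, hv⟩ := hvalue χ χh hext hdet
    refine ⟨⟨(β, ε), ⟨hε, hv⟩, ?_⟩, ?_⟩
    · rintro ⟨β', ε'⟩ ⟨hε', hv'⟩
      simp only at hε' hv'
      have hall : ∀ c : C, (ε' : ℂ) * (β' : C → ℂ) c = (ε : ℂ) * (β : C → ℂ) c := fun c => by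
        rw [← hv' c s₀ hs₀, hv c s₀ hs₀]
      obtain ⟨a, ha, ha0, -⟩ := IsIrrCharacter_degree_dvd β.2
      obtain ⟨b, hb, hb0, -⟩ := IsIrrCharacter_degree_dvd β'.2
      have h1 := hall 1
      rw [ha, hb] at h1
      have h2 : ε' = ε := sign_eq (d := 0) (d' := 0) hε' hε hb0 ha0 h1
      subst h2
      have hne : (ε' : ℂ) ≠ 0 := by
        rcases hε with rfl | rfl <;> simp
      have h3 : β' = β := by
        apply Subtype.ext
        funext c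
        exact mul_left_cancel₀ hne (hall c)
      rw [h3]
    · intro β' ε' hε' hv'
      have hne : (ε' : ℂ) ≠ 0 := by
        rcases hε' with rfl | rfl <;> simp
      have h1 := core_constituent hD (IsIrrCharacter.isCharacter χh.2) β' (ε' : ℂ) hne (fun c => hv' c s₀ hs₀)
      have h2 : (fun c : C => (χ : G → ℂ) ⟨c, hCG c.2⟩) = fun c : C => (χh : Γ → ℂ) (c : Γ) := by
        funext c
        rw [← hext ⟨c, hCG c.2⟩]
      rw [h2]
      exact h1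
  · intro β₀
    let φ : S →* MulAut G := conjAct G S hnorm
    have hex : ∀ χ : IrrInv φ, ∃ (β : IrrCharacter C) (χh : IrrCharacter Γ) (ε : ℤ),
        (∀ g : G, (χh : Γ → ℂ) g = (χ.1 : G → ℂ) g) ∧ (detOrder (χh : Γ → ℂ)).Coprime (Nat.card S) ∧ (ε = 1 ∨ ε = -1) ∧
        ∀ c : C, ∀ s : Γ, Subgroup.zpowers s = S → (χh : Γ → ℂ) ((c : Γ) * s) = (ε : ℂ) * (β : C → ℂ) c := by
      intro χ
      have hinvS := (isInv_conjAct_iff G S hnorm (χ.1 : G → ℂ)).mp χ.2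
      obtain ⟨d, hd, -, -⟩ := IsIrrCharacter_degree_dvd χ.1.2
      have hinvΓ : ∀ (g : Γ) (n : G), (χ.1 : G → ℂ) ⟨g * n * g⁻¹, hGn.conj_mem (n : Γ) n.2 g⟩ = (χ.1 : G → ℂ) n := by
        intro g n
        have hg : g ∈ ((G ⊔ S : Subgroup Γ) : Set Γ) := by rw [htop]; trivial
        rw [Subgroup.normal_mul G S] at hg
        obtain ⟨x, hx, a, ha, rfl⟩ := Set.mem_mul.mp hg
        let n' : G := ⟨a * n * a⁻¹, hnorm a ha n n.2⟩
        have h1 : (χ.1 : G → ℂ) n' = (χ.1 : G → ℂ) n := hinvS a ha n n' rfl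
        rw [← h1]
        have h2 : (⟨x * a * n * (x * a)⁻¹, hGn.conj_mem (n : Γ) n.2 (x * a)⟩ : G) = ⟨x, hx⟩ * n' * ⟨x, hx⟩⁻¹ := by
          apply Subtype.ext
          show x * a * n * (x * a)⁻¹ = x * (a * n * a⁻¹) * x⁻¹
          group
        rw [h2]
        exact IsCharacter.isClassFunction (IsIrrCharacter.isCharacter χ.1.2) _ _
      obtain ⟨χ₀, ⟨hχ₀, hext, hdetEq⟩, -⟩ := Cfsg.Agent.S0867.result G (χ.1 : G → ℂ) χ.1.2 hinvΓ d hd
        (index_coprime_data hcop htop χ.1.2 hd)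
      have hdet : (detOrder χ₀).Coprime (Nat.card S) := by
        rw [hdetEq]
        exact Nat.Coprime.coprime_dvd_left (detOrder_dvd_card (IsIrrCharacter.isCharacter χ.1.2)) hcop
      obtain ⟨β, ε, hε, hv⟩ := hvalue χ.1 ⟨χ₀, hχ₀⟩ hext hdet
      exact ⟨β, ⟨χ₀, hχ₀⟩, ε, hext, hdet, hε, hv⟩
    choose f₀ X₀ ε₀ hext₀ hdet₀ hε₀ hv₀ using hex
    have hinj : Function.Injective f₀ := by
      intro χ χ' h
      apply Subtype.ext
      refine hpart2 χ.1 χ'.1 (X₀ χ) (X₀ χ') ((isInv_conjAct_iff G S hnorm (χ.1 : G → ℂ)).mp χ.2)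
        ((isInv_conjAct_iff G S hnorm (χ'.1 : G → ℂ)).mp χ'.2) (hext₀ χ) (hext₀ χ') (hdet₀ χ) (hdet₀ χ') (f₀ χ)
        (ε₀ χ) (ε₀ χ') (hε₀ χ) (hε₀ χ') (hv₀ χ) ?_
      rw [h]
      exact hv₀ χ'
    have hcop' : (Nat.card S).Coprime (Nat.card G) := hcop.symm
    have hsol : Group.IsSolvable S ∨ Group.IsSolvable G :=
      Or.inl (isSolvable_of_comm fun x y => by
        haveI := hcyc
        exact IsMulCommutative.is_comm.comm x y)
    have hj : Function.Injective (Subgroup.inclusion hCG) := Subgroup.inclusion_injective hCG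
    have hs₀S : s₀ ∈ S := by rw [← hs₀]; exact Subgroup.mem_zpowers s₀
    have hr : ∀ y, y ∈ (Subgroup.inclusion hCG).range ↔ ∀ a, φ a y = y := by
      intro y
      rw [hD.range_j y]
      constructor
      · intro h a
        apply Subtype.ext
        rw [conjAct_apply]
        have h1 : Commute (y : Γ) s₀ := h
        have ha : (a : Γ) ∈ Subgroup.zpowers s₀ := by rw [hs₀]; exact a.2
        obtain ⟨m, hm⟩ := ha
        have h2 : (a : Γ) * y = y * a := by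
          rw [← hm]
          exact ((h1.zpow_right m).eq).symm
        rw [h2]
        group
      · intro h
        have h1 := congrArg Subtype.val (h ⟨s₀, hs₀S⟩)
        rw [conjAct_apply] at h1
        show (y : Γ) * s₀ = s₀ * y
        have h2 : s₀ * (y : Γ) = y * s₀ := by
          conv_rhs => rw [← h1]
          simp
        exact h2.symm
    have hgen : ∀ a : S, a ∈ Subgroup.zpowers (⟨s₀, hs₀S⟩ : S) := by
      intro a
      have ha : (a : Γ) ∈ Subgroup.zpowers s₀ := by rw [hs₀]; exact a.2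
      obtain ⟨m, hm⟩ := ha
      exact ⟨m, Subtype.ext hm⟩
    have hcardEq : Nat.card (IrrInv φ) = Nat.card (IrrCharacter C) := by
      rw [card_irrInv_eq hgen, card_fixCl hcop' hsol hj hr, card_irr_eq_card_conjClasses]
    haveI : Finite (IrrCharacter C) := irrCharacter_finite
    have hbij : Function.Bijective f₀ :=
      (Nat.bijective_iff_injective_and_card f₀).mpr ⟨hinj, hcardEq⟩
    obtain ⟨χ, hχ⟩ := hbij.2 β₀
    refine ⟨χ.1, X₀ χ, ε₀ χ, (isInv_conjAct_iff G S hnorm (χ.1 : G → ℂ)).mp χ.2, hext₀ χ, hdet₀ χ, hε₀ χ, ?_⟩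
    rw [← hχ]
    exact hv₀ χ

end Cfsg.Agent.S4446
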