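import Cfsg.Statements.S4447
import Mathlib
import Cfsg.Agent.Lib.Coprime.CopAbove

set_option autoImplicit false
open Cfsg

namespace Cfsg.Agent.S4447

/-- Inside a finite group Γ let S normalise G and also normalise a normal subgroup N of G, with the order of S coprime to the index of N in G and S or G/N solvable. Then for every S-invariant irreducible character χ of G, the restriction of χ to N has an S-invariant irreducible constituent. -/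
theorem result {Γ : Type*} [Group Γ] [Fintype Γ] (G S N : Subgroup Γ) [Fintype G] [Fintype N] (hnorm : ∀ s ∈ S, ∀ g ∈ G, s * g * s⁻¹ ∈ G) (hNG : N ≤ G) [hNn : (N.subgroupOf G).Normal] (hNS : ∀ s ∈ S, ∀ n ∈ N, s * n * s⁻¹ ∈ N) (hcop : (N.relIndex G).Coprime (Nat.card S)) (hsolv : Group.IsSolvable S ∨ Group.IsSolvable (G ⧸ N.subgroupOf G)) (χ : Cfsg.IrrCharacter G) (hinv : (∀ s ∈ S, ∀ g g' : G, (g' : Γ) = s * g * s⁻¹ → (χ : G → ℂ) g' = (χ : G → ℂ) g)) : ∃ θ : Cfsg.IrrCharacter N, Cfsg.classInner (fun n : N => (χ : G → ℂ) ⟨n, hNG n.2⟩) (θ : N → ℂ) ≠ 0 ∧ (∀ s ∈ S, ∀ g g' : N, (g' : Γ) = s * g * s⁻¹ → (θ : N → ℂ) g' = (θ : N → ℂ) g) := by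
  classical
  let φ := Cfsg.Agent.Lib.Coprime.conjAct G S hnorm
  let N' : Subgroup G := N.subgroupOf G
  let ι : N' ≃* N := Subgroup.subgroupOfEquivOfLe hNG
  letI : Fintype N' := Fintype.ofFinite _
  have hNφ : ∀ a, ∀ n ∈ N', φ a n ∈ N' := fun a n hn => hNS a a.2 n hn
  have hinv' : Cfsg.Agent.Lib.Coprime.IsInv φ (χ : G → ℂ) := (Cfsg.Agent.Lib.Coprime.isInv_conjAct_iff G S hnorm _).mpr hinv
  obtain ⟨θ', hθ', hinvθ⟩ := Cfsg.Agent.Lib.Coprime.below_inv φ N' hNφ hcop.symm hsolv χ hinv'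
  refine ⟨⟨(θ' : N' → ℂ) ∘ ι.symm, Cfsg.Agent.Lib.Char.isIrr_comp_equiv ι.symm θ'.2⟩, ?_, ?_⟩
  · have h1 := Cfsg.Agent.Lib.Char.classInner_comp_equiv ι.symm (fun n : N' => (χ : G → ℂ) n) (θ' : N' → ℂ)
    have h2 : ((fun n : N' => (χ : G → ℂ) n) ∘ ι.symm) = fun n : N => (χ : G → ℂ) ⟨n, hNG n.2⟩ := rfl
    rw [h2] at h1
    rw [h1]
    exact hθ'
  · intro s hs g g' hg
    have h3 := hinvθ ⟨s, hs⟩ (ι.symm g)
    show (θ' : N' → ℂ) (ι.symm g') = (θ' : N' → ℂ) (ι.symm g)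
    rw [← h3]
    refine congrArg _ (Subtype.ext (Subtype.ext ?_))
    exact hg

end Cfsg.Agent.S4447
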