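import Cfsg.Statements.S4448
import Mathlib
import Cfsg.Agent.Lib.Coprime.CopAbove

set_option autoImplicit false
open Cfsg

namespace Cfsg.Agent.S4448

/-- Inside a finite group Γ let S normalise G and also normalise a normal subgroup N of G, with the order of S coprime to the index of N in G and G/N solvable. Then for every S-invariant irreducible character ϑ of N, the induced character ϑ^G has an S-invariant irreducible constituent. -/
theorem result {Γ : Type*} [Group Γ] [Fintype Γ] (G S N : Subgroup Γ) [Fintype G] [Fintype N] (hnorm : ∀ s ∈ S, ∀ g ∈ G, s * g * s⁻¹ ∈ G) (hNG : N ≤ G) [hNn : (N.subgroupOf G).Normal] (hNS : ∀ s ∈ S, ∀ n ∈ N, s * n * s⁻¹ ∈ N) (hcop : (N.relIndex G).Coprime (Nat.card S)) (hsolv : Group.IsSolvable (G ⧸ N.subgroupOf G)) (θ : Cfsg.IrrCharacter N) (hinv : (∀ s ∈ S, ∀ g g' : N, (g' : Γ) = s * g * s⁻¹ → (θ : N → ℂ) g' = (θ : N → ℂ) g)) : ∃ χ : Cfsg.IrrCharacter G, Cfsg.classInner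 (fun n : N => (χ : G → ℂ) ⟨n, hNG n.2⟩) (θ : N → ℂ) ≠ 0 ∧ (∀ s ∈ S, ∀ g g' : G, (g' : Γ) = s * g * s⁻¹ → (χ : G → ℂ) g' = (χ : G → ℂ) g) := by
  classical
  let φ := Cfsg.Agent.Lib.Coprime.conjAct G S hnorm
  let N' : Subgroup G := N.subgroupOf G
  let ι : N' ≃* N := Subgroup.subgroupOfEquivOfLe hNG
  letI : Fintype N' := Fintype.ofFinite _
  have hNφ : ∀ a, ∀ n ∈ N', φ a n ∈ N' := fun a n hn => hNS a a.2 n hn
  have hcop' : ((⊥ : Subgroup S).index).Coprime N'.index := by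
    rw [Subgroup.index_bot]
    exact hcop.symm
  obtain ⟨χ, hχ, hχinv⟩ := Cfsg.Agent.Lib.Coprime.above_solvable φ (⊥ : Subgroup S) _ N' hNφ (fun s hs => by
      rw [Subgroup.mem_bot] at hs
      refine ⟨1, N'.one_mem, fun g => ?_⟩
      rw [hs, map_one]
      simp) hcop' hsolv ⟨(θ : N → ℂ) ∘ ι, Cfsg.Agent.Lib.Char.isIrr_comp_equiv ι θ.2⟩ (fun a n => by
      refine hinv a a.2 (ι n) _ ?_
      rfl) rfl
  refine ⟨χ, ?_, (Cfsg.Agent.Lib.Coprime.isInv_conjAct_iff G S hnorm _).mp hχinv⟩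
  have h1 := Cfsg.Agent.Lib.Char.classInner_comp_equiv ι (fun n : N => (χ : G → ℂ) ⟨n, hNG n.2⟩) (θ : N → ℂ)
  rw [← h1]
  exact hχ

end Cfsg.Agent.S4448
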