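import Cfsg.Statements.S4450
import Mathlib
import Cfsg.Agent.Lib.Coprime.CopCover

set_option autoImplicit false
open Cfsg

namespace Cfsg.Agent.S4450

open Cfsg Cfsg.Agent.Lib.Char Cfsg.Agent.Lib.Coprime Pointwise

theorem exists_complement_above {Γ : Type*} [Group Γ] [Finite Γ] (G N : Subgroup Γ) [hG : G.Normal] [hN : N.Normal] (hNG : N ≤ G)
    (hcop : (G.index).Coprime (N.relIndex G)) : ∃ S : Subgroup Γ, G ⊔ S = ⊤ ∧ G ⊓ S = N := by
  classical
  let f : Γ →* Γ ⧸ N := QuotientGroup.mk' N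
  have hfs : Function.Surjective f := QuotientGroup.mk'_surjective N
  have hker : f.ker ≤ G := by
    rw [QuotientGroup.ker_mk']
    exact hNG
  let Gb : Subgroup (Γ ⧸ N) := G.map f
  haveI : Gb.Normal := Subgroup.Normal.map hG f hfs
  have h1 : Gb.index = G.index := Subgroup.index_map_eq G hfs hker
  have h2 : Nat.card Gb = N.relIndex G := by
    have h3 := Subgroup.card_mul_index Gb
    have h4 := Subgroup.relIndex_mul_index hNG
    have h5 : Nat.card (Γ ⧸ N) = N.index := rfl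
    rw [h1, h5, ← h4] at h3
    exact Nat.eq_of_mul_eq_mul_right (Nat.pos_of_ne_zero Subgroup.index_ne_zero_of_finite) h3
  have hc : (Nat.card Gb).Coprime Gb.index := by
    rw [h1, h2]
    exact hcop.symm
  obtain ⟨H, hH⟩ := Subgroup.exists_right_complement'_of_coprime hc
  refine ⟨H.comap f, ?_, ?_⟩
  · rw [eq_top_iff]
    intro x _
    have h3 : f x ∈ ((Gb ⊔ H : Subgroup (Γ ⧸ N)) : Set (Γ ⧸ N)) := by
      rw [hH.sup_eq_top]
      trivial
    rw [Subgroup.normal_mul] at h3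
    obtain ⟨_, ⟨g, hg, rfl⟩, h, hh, h4⟩ := Set.mem_mul.mp h3
    have h5 : g⁻¹ * x ∈ H.comap f := by
      show f (g⁻¹ * x) ∈ H
      rw [map_mul, map_inv, ← h4]
      simpa using hh
    have h6 : x = g * (g⁻¹ * x) := by group
    rw [h6]
    exact Subgroup.mul_mem _ (Subgroup.mem_sup_left hg) (Subgroup.mem_sup_right h5)
  · apply le_antisymm
    · rintro x ⟨hx, hx'⟩
      have h3 : f x ∈ Gb := ⟨x, hx, rfl⟩
      have h4 := Subgroup.disjoint_def.mp hH.disjoint h3 hx'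
      exact (QuotientGroup.eq_one_iff x).mp h4
    · intro n hn
      refine ⟨hNG hn, ?_⟩
      show f n ∈ H
      rw [show f n = 1 from (QuotientGroup.eq_one_iff n).mpr hn]
      exact H.one_mem

theorem main_solvable {Γ : Type*} [Group Γ] [Fintype Γ] (G N : Subgroup Γ) [hG : G.Normal] [hN : N.Normal] [Fintype G] [Fintype N] (hNG : N ≤ G) (hcop : (G.index).Coprime (N.relIndex G)) (hsolv : Group.IsSolvable (G ⧸ N.subgroupOf G)) (θ : Cfsg.IrrCharacter N) (hinv : ∀ (x : Γ) (n : N), (θ : N → ℂ) ⟨x * n * x⁻¹, hN.conj_mem n n.2 x⟩ = (θ : N → ℂ) n) : ∃ χ : Cfsg.IrrCharacter G, Cfsg.classInner (fun n : N => (χ : G → ℂ) ⟨n, hNG n.2⟩) (θ : N → ℂ) ≠ 0 ∧ ∀ (x : Γ) (g : G), (χ : G → ℂ) ⟨x * g * x⁻¹, hG.conj_mem g g.2 x⟩ = (χ : G → ℂ) g := by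
  classical
  obtain ⟨S, hsup, hinf⟩ := exists_complement_above G N hNG hcop
  have hnorm : ∀ s ∈ S, ∀ g ∈ G, s * g * s⁻¹ ∈ G := fun s _ g hg => hG.conj_mem g hg s
  let φ := conjAct G S hnorm
  let S₀ : Subgroup S := N.subgroupOf S
  let N' : Subgroup G := N.subgroupOf G
  letI : Fintype N' := Fintype.ofFinite _
  let ι : N' ≃* N := Subgroup.subgroupOfEquivOfLe hNG
  have hNφ : ∀ a, ∀ n ∈ N', φ a n ∈ N' := fun a n hn => hN.conj_mem _ hn _
  have hS₀ : ∀ s ∈ S₀, ∃ n ∈ N', ∀ g, φ s g = n * g * n⁻¹ := by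
    intro s hs
    have h1 : (s : Γ) ∈ N := hs
    exact ⟨⟨s, hNG h1⟩, h1, fun g => Subtype.ext rfl⟩
  have hidx : S₀.index = G.index := by
    have h1 : G.index = G.relIndex S := by
      rw [← Subgroup.relIndex_sup_left, hsup, Subgroup.relIndex_top_right]
    rw [h1, ← Subgroup.inf_relIndex_right, hinf]
    rfl
  have hcop' : (S₀.index).Coprime N'.index := by
    rw [hidx]
    exact hcop
  obtain ⟨χ, hχ, hχinv⟩ := above_solvable φ S₀ _ N' hNφ hS₀ hcop' hsolv ⟨(θ : N → ℂ) ∘ ι, isIrr_comp_equiv ι θ.2⟩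
    (fun a n => hinv a (ι n)) rfl
  refine ⟨χ, ?_, ?_⟩
  · have h1 := classInner_comp_equiv ι (fun n : N => (χ : G → ℂ) ⟨n, hNG n.2⟩) (θ : N → ℂ)
    rw [← h1]
    exact hχ
  · intro x g
    have h2 : x ∈ ((G ⊔ S : Subgroup Γ) : Set Γ) := by
      rw [hsup]
      trivial
    rw [Subgroup.normal_mul] at h2
    obtain ⟨k, hk, s, hs, rfl⟩ := Set.mem_mul.mp h2
    have h3 := hχinv ⟨s, hs⟩ g
    have h4 := IsCharacter.isClassFunction (IsIrrCharacter.isCharacter χ.2) (φ ⟨s, hs⟩ g) ⟨k, hk⟩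
    rw [← h3, ← h4]
    refine congrArg _ (Subtype.ext ?_)
    show k * s * g * (k * s)⁻¹ = k * (s * g * s⁻¹) * k⁻¹
    group

/-- Let N ≤ G be normal subgroups of the finite group Γ with the index of G in Γ coprime to the index of N in G, and Γ/G or G/N solvable. Then for every irreducible character ϑ of N invariant under conjugation by Γ, the induced character ϑ^G has an irreducible constituent invariant under conjugation by Γ. -/
theorem result {Γ : Type*} [Group Γ] [Fintype Γ] (G N : Subgroup Γ) [hG : G.Normal] [hN : N.Normal] [Fintype G] [Fintype N] (hNG : N ≤ G) (hcop : (G.index).Coprime (N.relIndex G)) (hsolv : Group.IsSolvable (Γ ⧸ G) ∨ Group.IsSolvable (G ⧸ N.subgroupOf G)) (θ : Cfsg.IrrCharacter N) (hinv : ∀ (x : Γ) (n : N), (θ : N → ℂ) ⟨x * n * x⁻¹, hN.conj_mem n n.2 x⟩ = (θ : N → ℂ) n) : ∃ χ : Cfsg.IrrCharacter G, Cfsg.classInner (fun n : N => (χ : G → ℂ) ⟨n, hNG n.2⟩) (θ : N → ℂ) ≠ 0 ∧ ∀ (x : Γ) (g :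 G), (χ : G → ℂ) ⟨x * g * x⁻¹, hG.conj_mem g g.2 x⟩ = (χ : G → ℂ) g := by
  rcases hsolv with h | h
  · exact above_cover G N hNG hcop h θ hinv
  · exact main_solvable G N hNG hcop h θ hinv

end Cfsg.Agent.S4450
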