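import Cfsg.Statements.S4451
import Cfsg.Agent.Lib.Coprime.GlauberCyclic
import Cfsg.Agent.Lib.Degree.PElement
import Cfsg.Agent.Lib.Degree.Sums
import Mathlib

set_option autoImplicit false
open Cfsg

namespace Cfsg.Agent.S4451

open Cfsg.Agent.Lib.Char Cfsg.Agent.Lib.Coprime Cfsg.Agent.Lib.Degree
open scoped ComplexConjugate Pointwise

/-- The Frobenius congruence for characters. -/
theorem char_frobenius {A : Type*} [Group A] [Finite A] {f : A → ℂ} (hf : IsCharacter A f) {q : ℕ} (hq : q.Prime)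
    (a : A) : ∃ r : ℂ, IsIntegral ℤ r ∧ f a ^ q - f (a ^ q) = (q : ℂ) * r := by
  classical
  obtain ⟨n, ρ, rfl⟩ := hf
  obtain ⟨ζ, hζ, hk⟩ := character_eq_sum_roots ρ a (isOfFinOrder_of_finite a)
  have hpos : orderOf a ≠ 0 := (orderOf_pos a).ne'
  have hint : ∀ i, IsIntegral ℤ (ζ i) := fun i => root_isIntegral hpos (hζ i)
  let R := integralClosure ℤ ℂ
  let z : Fin (Module.finrank ℂ (Fin n → ℂ)) → R := fun i => ⟨ζ i, hint i⟩
  obtain ⟨c, hc⟩ := dvd_sum_pow_prime_sub q hq Finset.univ z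
  refine ⟨(c : ℂ), c.2, ?_⟩
  have h1 : (∑ i, ζ i) ^ q - ∑ i, ζ i ^ q = (q : ℂ) * (c : ℂ) := by
    have h0 := congrArg (Subtype.val) hc
    simpa [z, R] using h0
  have h2 := hk 1
  have h3 := hk (q : ℤ)
  simp only [zpow_one, zpow_natCast] at h2 h3
  rw [h2, h3]
  exact h1

/-- A sign cannot be congruent to zero. -/
theorem char_frobenius_ne {A : Type*} [Group A] [Finite A] {f : A → ℂ} (hf : IsCharacter A f) {q : ℕ} (hq : q.Prime)
    (a : A) {ε : ℤ} (hε : ε = 1 ∨ ε = -1) (h : f a = ε) : f (a ^ q) ≠ 0 := by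
  intro h0
  obtain ⟨r, hr, h1⟩ := char_frobenius hf hq a
  rw [h, h0, sub_zero] at h1
  have hq0 : (q : ℂ) ≠ 0 := by exact_mod_cast hq.ne_zero
  have h2 : r = (((ε ^ q : ℤ) : ℚ) / (q : ℚ) : ℚ) := by
    push_cast
    field_simp
    rw [h1]
    ring
  rw [h2, isIntegral_ratCast_iff] at hr
  obtain ⟨m, hm⟩ := hr
  have hq0' : (q : ℚ) ≠ 0 := by exact_mod_cast hq.ne_zero
  rw [div_eq_iff hq0'] at hm
  have h3 : ε ^ q = m * q := by exact_mod_cast hm
  have h4 : (q : ℤ) ∣ ε ^ q := ⟨m, by rw [h3]; ring⟩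
  have h5 : IsUnit ((ε : ℤ) ^ q) := by
    apply IsUnit.pow
    rcases hε with rfl | rfl <;> simp
  have h6 : IsUnit (q : ℤ) := isUnit_of_dvd_unit h4 h5
  rw [Int.isUnit_iff] at h6
  have := hq.one_lt
  omega

/-- Lifting residues prime to a divisor. -/
theorem exists_lift_coprime {o n u : ℕ} (hn : n ≠ 0) (ho : o ∣ n) (hu : u.Coprime o) :
    ∃ u' : ℕ, u'.Coprime n ∧ u' ≡ u [MOD o] := by
  haveI : NeZero n := ⟨hn⟩
  obtain ⟨y, hy⟩ := ZMod.unitsMap_surjective ho (ZMod.unitOfCoprime u hu)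
  refine ⟨(y : ZMod n).val, ZMod.val_coe_unit_coprime y, ?_⟩
  rw [← ZMod.natCast_eq_natCast_iff]
  have h1 := congrArg (fun w : (ZMod o)ˣ => (w : ZMod o)) hy
  simp only [ZMod.unitsMap_val, ZMod.coe_unitOfCoprime] at h1
  rw [← h1]
  simp


/-- Let the finite group Γ be generated by a normal subgroup G and a cyclic subgroup S of coprime orders such that every non-identity element of S has the same centraliser C = G ⊓ C(S) in G. Let χ be an S-invariant irreducible character of G, χ̂ its canonical extension to Γ (determinantal order coprime to the order of S), and β the irreducible character of C with χ̂(c s) = ε₀ β(c) for c ∈ C and generators s of S (ε₀ = ±1). Then there are a sign ε = ±1, which may differ from ε₀, and a linear character μ of S with μ² = 1, such that: (a) χ̂(c x) = ε β(c) μ(x) for all c ∈ C and all x ∈ S other than 1; (b) the restriction of χ to C equals |S|·ϑ + ε β for some character ϑ of C or ϑ = 0; (c) |S| divides χ(1) − ε β(1). -/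
theorem result {Γ : Type*} [Group Γ] [Fintype Γ] (G S : Subgroup Γ) [Fintype G] (hnorm : ∀ s ∈ S, ∀ g ∈ G, s * g * s⁻¹ ∈ G) (hcop : (Nat.card G).Coprime (Nat.card S)) (htop : G ⊔ S = ⊤) (hcyc : IsCyclic S) (C : Subgroup Γ) [Fintype C] (hC : C = G ⊓ Subgroup.centralizer (S : Set Γ)) (hCG : C ≤ G) (hfpf : ∀ x ∈ S, x ≠ 1 → G ⊓ Subgroup.centralizer ({x} : Set Γ) = C) (χ : Cfsg.IrrCharacter G) (hinv : (∀ s ∈ S, ∀ g g' : G, (g' : Γ) = s * g * s⁻¹ → (χ : G → ℂ) g' = (χ : G → ℂ) g)) (χh : Cfsg.IrrCharacter Γ) (hext : (∀ g : G, (χh : Γ → ℂ) g = (χ : G → ℂ) g)) (hdet : (Cfsg.detOrder (χh : Γ → ℂ)).Coprime (Nat.card S)) (β : Cfsg.IrrCharacter C) (ε₀ : ℤ) (hε₀ : ε₀ = 1 ∨ ε₀ = -1) (hβ : ∀ c : C, ∀ s : Γ, Subgroup.zpowers s = S → (χh : Γ → ℂ) ((c : Γ) * s) = (ε₀ : ℂ) * (β : C → ℂ) c) : ∃ ε : ℤ, (ε = 1 ∨ ε = -1) ∧ (∃ μ : S → ℂ, Cfsg.IsCharacter S μ ∧ μ 1 = 1 ∧ (∀ x : S, μ x * μ x = 1) ∧ ∀ c : C, ∀ x : S, x ≠ 1 → (χh : Γ → ℂ) ((c : Γ) * x) = (ε : ℂ) * (β : C → ℂ) c * μ x)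 ∧ (∃ ϑ : C → ℂ, Cfsg.IsCharacter C ϑ ∧ (fun c : C => (χ : G → ℂ) ⟨c, hCG c.2⟩) = fun c => (Nat.card S : ℂ) * ϑ c + (ε : ℂ) * (β : C → ℂ) c) ∧ (Nat.card S : ℤ) ∣ (Cfsg.charDegree (χ : G → ℂ) : ℤ) - ε * (Cfsg.charDegree (β : C → ℂ) : ℤ) := by
  classical
  letI : Fintype S := Fintype.ofFinite S
  haveI hGn : G.Normal := normal_of_sup G S hnorm htop
  obtain ⟨s₀, hs₀⟩ : ∃ s, Subgroup.zpowers s = S := by
    obtain ⟨g, hg⟩ := hcyc.exists_generator
    refine ⟨(g : Γ), le_antisymm (Subgroup.zpowers_le.mpr g.2) fun x hx => ?_⟩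
    obtain ⟨k, hk⟩ := hg ⟨x, hx⟩
    refine ⟨k, ?_⟩
    have := congrArg (Subtype.val) hk
    simpa using this
  have hs₀S : s₀ ∈ S := by rw [← hs₀]; exact Subgroup.mem_zpowers s₀
  set X : Γ → ℂ := (χh : Γ → ℂ) with hXdef
  have hX : IsIrrCharacter Γ X := χh.2
  have hXc : IsCharacter Γ X := IsIrrCharacter.isCharacter hX
  have hGirr : IsIrrCharacter G (fun g : G => X g) := by
    have h1 : (fun g : G => X g) = χ := funext hext
    rw [h1]
    exact χ.2
  have hcomm : ∀ (c : C) (a : S), Commute (c : Γ) (a : Γ) := by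
    intro c a
    have h3 : (c : Γ) ∈ G ⊓ Subgroup.centralizer (S : Set Γ) := hC ▸ c.2
    exact (Subgroup.mem_centralizer_iff.mp h3.2 a a.2).symm
  -- the value for every non-identity element
  have hvalue : ∀ x ∈ S, x ≠ 1 → ∃ (β' : IrrCharacter C) (ε' : ℤ), (ε' = 1 ∨ ε' = -1) ∧
      ∀ c : C, X ((c : Γ) * x) = (ε' : ℂ) * (β' : C → ℂ) c := by
    intro x hx hx1
    have hcard : orderOf x ∣ Nat.card S := Subgroup.orderOf_dvd_natCard S hx
    have hcop' : (Nat.card G).Coprime (Nat.card (Subgroup.zpowers x)) := by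
      rw [Nat.card_zpowers]
      exact Nat.Coprime.coprime_dvd_right hcard hcop
    have hCx : C = G ⊓ Subgroup.centralizer ((Subgroup.zpowers x : Subgroup Γ) : Set Γ) := by
      rw [← hfpf x hx hx1]
      congr 1
      ext y
      rw [Subgroup.mem_centralizer_singleton_iff, Subgroup.mem_centralizer_iff]
      constructor
      · intro h a ha
        obtain ⟨m, rfl⟩ := ha
        exact ((Commute.zpow_right (show Commute y x from h) m).eq).symm
      · intro h
        exact (h x (Subgroup.mem_zpowers x)).symm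
    have D := coreData_cyclic hcop' hCx hCG (s := x) rfl
    refine core_value_gen D hXc (classInner_irr_self hGirr) ?_
    intro u hu c
    obtain ⟨u', hu'1, hu'2⟩ := exists_lift_coprime Nat.card_pos.ne' hcard hu
    have h1 : x ^ u = x ^ u' := (pow_eq_pow_iff_modEq (x := x)).mpr hu'2.symm
    rw [h1]
    have hc : Commute ((c : Γ)) x := (D.range_j (Subgroup.inclusion hCG c)).mp ⟨c, rfl⟩
    exact canonical_pow hcop htop hX hGirr hdet (hCG c.2) hx hc u' hu'1
  -- the characters of `S`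
  let hom : C × S →* Γ := MonoidHom.noncommCoprod C.subtype S.subtype (fun c a => hcomm c a)
  have hΘ : IsCharacter (C × S) (X ∘ hom) := IsCharacter.comp hom hXc
  have hF : ∀ β' : IrrCharacter C, IsCharacter S
      (fun a : S => classInner (fun c : C => X ((c : Γ) * a)) (β' : C → ℂ)) := fun β' =>
    partial_inner_isCharacter hΘ β'.2
  -- the distinguished character
  let g : S → ℂ := fun a : S => classInner (fun c : C => X ((c : Γ) * a)) (β : C → ℂ)
  have hgc : IsCharacter S g := hF β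
  have hval : ∀ (a : S) (ε' : ℤ), (∀ c : C, X ((c : Γ) * a) = (ε' : ℂ) * (β : C → ℂ) c) → g a = ε' := by
    intro a ε' h
    have h1 : (fun c : C => X ((c : Γ) * a)) = (ε' : ℂ) • (β : C → ℂ) := by
      funext c
      simpa using h c
    show classInner _ _ = _
    rw [h1, classInner_smul_left, classInner_irr_self β.2, mul_one]
  have hpow : ∀ k : ℕ, 1 ≤ k → s₀ ^ k ≠ 1 → ∃ ε' : ℤ, (ε' = 1 ∨ ε' = -1) ∧
      ∀ c : C, X ((c : Γ) * s₀ ^ k) = (ε' : ℂ) * (β : C → ℂ) c := by
    intro k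
    induction k using Nat.strong_induction_on with
    | _ k ih =>
      intro hk hne
      by_cases hk1 : k = 1
      · subst hk1
        exact ⟨ε₀, hε₀, fun c => by simpa using hβ c s₀ hs₀⟩
      · have hq := Nat.minFac_prime hk1
        obtain ⟨k', hk'⟩ := Nat.minFac_dvd k
        set q := k.minFac with hqdef
        have hk'1 : 1 ≤ k' := by
          rcases Nat.eq_zero_or_pos k' with h | h
          · rw [h, mul_zero] at hk'
            omega
          · exact h
        have hk'lt : k' < k := by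
          rw [hk']
          have := hq.two_le
          nlinarith
        have hk'ne : s₀ ^ k' ≠ 1 := fun h => hne (by rw [hk', mul_comm, pow_mul, h, one_pow])
        obtain ⟨ε', hε', hv'⟩ := ih k' hk'lt hk'1 hk'ne
        let a : S := ⟨s₀ ^ k', S.pow_mem hs₀S k'⟩
        have h1 : g a = ε' := hval a ε' hv'
        have h2 : g (a ^ q) ≠ 0 := char_frobenius_ne hgc hq a hε' h1
        have h3 : ((a ^ q : S) : Γ) = s₀ ^ k := by
          show (s₀ ^ k') ^ q = s₀ ^ k
          rw [← pow_mul, hk', mul_comm]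
        obtain ⟨β', ε'', hε'', hv''⟩ := hvalue (s₀ ^ k) (S.pow_mem hs₀S k) hne
        have hβ' : β' = β := by
          by_contra hne'
          apply h2
          show classInner _ _ = 0
          have h4 : (fun c : C => X ((c : Γ) * ((a ^ q : S) : Γ))) = (ε'' : ℂ) • (β' : C → ℂ) := by
            funext c
            rw [h3]
            simpa using hv'' c
          rw [h4, classInner_smul_left, classInner_irr_of_ne β'.2 β.2 (fun h => hne' (Subtype.ext h)), mul_zero]
        rw [hβ'] at hv''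
        exact ⟨ε'', hε'', hv''⟩
  have hall : ∀ x : S, x ≠ 1 → ∃ ε' : ℤ, (ε' = 1 ∨ ε' = -1) ∧
      ∀ c : C, X ((c : Γ) * x) = (ε' : ℂ) * (β : C → ℂ) c := by
    intro x hx
    have hmem : (x : Γ) ∈ Subgroup.zpowers s₀ := by rw [hs₀]; exact x.2
    rw [← mem_powers_iff_mem_zpowers] at hmem
    obtain ⟨k, hk⟩ := hmem
    have hx' : (x : Γ) ≠ 1 := fun h => hx (Subtype.ext h)
    have hk1 : 1 ≤ k := by
      rcases Nat.eq_zero_or_pos k with h | h
      · exfalso
        apply hx'
        rw [← hk, h]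
        exact pow_zero s₀
      · exact h
    have hk2 : s₀ ^ k ≠ 1 := by
      show (fun n => s₀ ^ n) k ≠ 1
      rw [hk]
      exact hx'
    obtain ⟨ε', hε', hv⟩ := hpow k hk1 hk2
    have hk3 : s₀ ^ k = x := hk
    rw [hk3] at hv
    exact ⟨ε', hε', hv⟩
  have hgsign : ∀ x : S, x ≠ 1 → ∃ ε' : ℤ, (ε' = 1 ∨ ε' = -1) ∧ g x = ε' := by
    intro x hx
    obtain ⟨ε', hε', hv⟩ := hall x hx
    exact ⟨ε', hε', hval x ε' hv⟩
  have hothers : ∀ (β' : IrrCharacter C), β' ≠ β → ∀ x : S, x ≠ 1 →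
      classInner (fun c : C => X ((c : Γ) * x)) (β' : C → ℂ) = 0 := by
    intro β' hne x hx
    obtain ⟨ε', -, hv⟩ := hall x hx
    have h1 : (fun c : C => X ((c : Γ) * x)) = (ε' : ℂ) • (β : C → ℂ) := by
      funext c
      simpa using hv c
    rw [h1, classInner_smul_left, classInner_irr_of_ne β.2 β'.2 (fun h => hne (Subtype.ext h).symm), mul_zero]
  -- the irreducible characters of `S`
  have hcommS : ∀ a b : S, a * b = b * a := fun a b => by
    haveI := hcyc
    exact IsMulCommutative.is_comm.comm a b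
  have hlin : ∀ l : IrrCharacter S, (l : S → ℂ) 1 = 1 := comm_iff_forall_irr_degree_one.mp hcommS
  set n : ℕ := Nat.card S with hn
  have hn0 : n ≠ 0 := Nat.card_pos.ne'
  have hnC : (n : ℂ) ≠ 0 := by exact_mod_cast hn0
  have hcardIrr : Fintype.card (IrrCharacter S) = n := by
    rw [← Nat.card_eq_fintype_card, card_irr_eq_card_conjClasses, hn]
    refine Nat.card_congr (Equiv.ofBijective (ConjClasses.mk) ⟨?_, ConjClasses.mk_surjective⟩).symm
    intro a b h
    obtain ⟨c, hc⟩ := isConj_iff.mp (ConjClasses.mk_eq_mk_iff_isConj.mp h)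
    rw [← hc, hcommS c a]
    group
  have hsumIrr : ∀ y : S, y ≠ 1 → ∑ l : IrrCharacter S, (l : S → ℂ) y = 0 := by
    intro y hy
    have h1 := sum_irr_degree_mul y
    rw [if_neg hy] at h1
    simpa [hlin] using h1
  have hcl : IsClassFunction S g := IsCharacter.isClassFunction hgc
  choose m hm using fun l : IrrCharacter S => classInner_isCharacter_nat hgc (IsIrrCharacter.isCharacter l.2)
  have hgexp : ∀ y : S, g y = ∑ l : IrrCharacter S, (m l : ℂ) * (l : S → ℂ) y := by
    intro y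
    have h1 := congrFun (classFunction_eq_sum g hcl) y
    simp only [Finset.sum_apply, Pi.smul_apply, smul_eq_mul, hm] at h1
    exact h1
  obtain ⟨D, hD⟩ := IsCharacter.map_one_eq hgc
  have hDsum : (D : ℤ) = ∑ l : IrrCharacter S, (m l : ℤ) := by
    have h1 := hgexp 1
    rw [hD] at h1
    simp only [hlin, mul_one] at h1
    exact_mod_cast h1
  have hnorm2 : (n : ℤ) * ∑ l : IrrCharacter S, (m l : ℤ) ^ 2 = (D : ℤ) ^ 2 + (n : ℤ) - 1 := by
    have h1 := classInner_eq_sum g g hcl hcl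
    simp only [hm, Complex.conj_natCast] at h1
    rw [classInner_def] at h1
    have h2 : ∑ y : S, g y * conj (g y) = (D : ℂ) ^ 2 + ((n : ℂ) - 1) := by
      rw [← Finset.add_sum_erase Finset.univ _ (Finset.mem_univ (1 : S))]
      congr 1
      · rw [hD, Complex.conj_natCast]
        ring
      · have h3 : ∀ y ∈ (Finset.univ : Finset S).erase 1, g y * conj (g y) = 1 := by
          intro y hy
          obtain ⟨ε', hε', hv⟩ := hgsign y (Finset.ne_of_mem_erase hy)
          rw [hv, map_intCast]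
          rcases hε' with rfl | rfl <;> simp
        rw [Finset.sum_congr rfl h3, Finset.sum_const, Finset.card_erase_of_mem (Finset.mem_univ _),
          Finset.card_univ, nsmul_eq_mul, mul_one, Nat.cast_sub (Fintype.card_pos), ← Nat.card_eq_fintype_card]
        simp [hn]
    rw [h2] at h1
    have hcardS : (Nat.card S : ℂ) = n := rfl
    rw [hcardS] at h1
    have h3 : (n : ℂ) * ∑ l : IrrCharacter S, (m l : ℂ) * (m l : ℂ) = (D : ℂ) ^ 2 + ((n : ℂ) - 1) := by
      rw [← h1]
      field_simp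
    have h4 : (((n : ℤ) * ∑ l : IrrCharacter S, (m l : ℤ) ^ 2 : ℤ) : ℂ) = (((D : ℤ) ^ 2 + (n : ℤ) - 1 : ℤ) : ℂ) := by
      push_cast
      rw [add_sub_assoc, ← h3]
      congr 1
      refine Finset.sum_congr rfl fun l _ => ?_
      ring
    exact_mod_cast h4
  have hquad : quadForm (fun l : IrrCharacter S => (m l : ℤ)) = (Fintype.card (IrrCharacter S) : ℤ) - 1 := by
    unfold quadForm
    rw [hcardIrr, hnorm2, ← hDsum]
    ring
  obtain ⟨ε, hε, μ, hμ, hμ1, hμ2, hgμ, T, hT⟩ : ∃ ε : ℤ, (ε = 1 ∨ ε = -1) ∧ ∃ μ : S → ℂ, IsCharacter S μ ∧ μ 1 = 1 ∧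
      (∀ x, μ x * μ x = 1) ∧ (∀ y : S, y ≠ 1 → g y = (ε : ℂ) * μ y) ∧ ∃ T : ℕ, (D : ℤ) = T * n + ε := by
    by_cases hconst : ∃ x y, (m x : ℤ) ≠ (m y : ℤ)
    · obtain ⟨t, ε, μ₀, hε, hv⟩ := (quadForm_main hconst).2 (le_of_eq hquad)
      have hgy : ∀ y : S, g y = (t : ℂ) * ∑ l : IrrCharacter S, (l : S → ℂ) y + (ε : ℂ) * (μ₀ : S → ℂ) y := by
        intro y
        rw [hgexp]
        have h1 : ∀ l : IrrCharacter S, (m l : ℂ) * (l : S → ℂ) y =
            (t : ℂ) * (l : S → ℂ) y + if l = μ₀ then (ε : ℂ) * (l : S → ℂ) y else 0 := by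
          intro l
          have h2 : ((m l : ℤ) : ℂ) = ((t + if l = μ₀ then ε else 0 : ℤ) : ℂ) := by rw [hv l]
          by_cases h3 : l = μ₀
          · rw [if_pos h3] at h2 ⊢
            push_cast at h2
            rw [h2]
            ring
          · rw [if_neg h3] at h2 ⊢
            push_cast at h2
            rw [h2]
            ring
        simp only [h1]
        rw [Finset.sum_add_distrib, ← Finset.mul_sum, Finset.sum_ite_eq' Finset.univ μ₀, if_pos (Finset.mem_univ _)]
      have hεε : (ε : ℂ) * ε = 1 := by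
        rcases hε with rfl | rfl <;> simp
      refine ⟨ε, hε, μ₀, IsIrrCharacter.isCharacter μ₀.2, hlin μ₀, ?_, ?_, ?_⟩
      · intro x
        by_cases hx : x = 1
        · rw [hx, hlin]
          ring
        · obtain ⟨ε', hε', hv'⟩ := hgsign x hx
          have h3 : (ε' : ℂ) = (ε : ℂ) * (μ₀ : S → ℂ) x := by
            rw [← hv', hgy, hsumIrr x hx]
            ring
          have h4 : (ε' : ℂ) * ε' = 1 := by
            rcases hε' with rfl | rfl <;> simp
          rw [h3] at h4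
          have h5 : ((ε : ℂ) * ε) * ((μ₀ : S → ℂ) x * (μ₀ : S → ℂ) x) = 1 := by
            rw [← h4]
            ring
          rwa [hεε, one_mul] at h5
      · intro y hy
        rw [hgy, hsumIrr y hy]
        ring
      · have ht : 0 ≤ t := by
          obtain ⟨x, y, hxy⟩ := hconst
          by_cases hx : x = μ₀
          · have hy : y ≠ μ₀ := fun h => hxy (by rw [hx, h])
            have h1 := hv y
            rw [if_neg hy, add_zero] at h1
            rw [← h1]
            positivity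
          · have h1 := hv x
            rw [if_neg hx, add_zero] at h1
            rw [← h1]
            positivity
        refine ⟨t.toNat, ?_⟩
        rw [Int.toNat_of_nonneg ht, hDsum]
        simp only [hv]
        rw [Finset.sum_add_distrib, Finset.sum_ite_eq' Finset.univ μ₀, if_pos (Finset.mem_univ _),
          Finset.sum_const, Finset.card_univ, hcardIrr]
        simp
        ring
    · push Not at hconst
      have h1 := quadForm_const hconst
      rw [hquad, hcardIrr] at h1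
      have hn1 : n = 1 := by omega
      have hsub : ∀ y : S, y = 1 := by
        intro y
        have h2 : Nat.card S = 1 := hn1
        obtain ⟨h3, -⟩ := Nat.card_eq_one_iff_unique.mp h2
        exact Subsingleton.elim _ _
      refine ⟨1, Or.inl rfl, fun _ => 1, IsIrrCharacter.isCharacter isIrrCharacter_one, rfl, fun _ => by simp,
        fun y hy => absurd (hsub y) hy, 0, ?_⟩
      have h2 : g ⟨s₀, hs₀S⟩ = ε₀ := hval _ ε₀ (fun c => hβ c s₀ hs₀)
      rw [hsub ⟨s₀, hs₀S⟩, hD] at h2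
      have h3 : (D : ℤ) = ε₀ := by exact_mod_cast h2
      rcases hε₀ with h | h
      · rw [h3, h]
        simp
      · rw [h] at h3
        omega
  refine ⟨ε, hε, ⟨μ, hμ, hμ1, hμ2, ?_⟩, ?_⟩
  · intro c x hx
    obtain ⟨ε', hε', hv⟩ := hall x hx
    have h1 : (ε' : ℂ) = (ε : ℂ) * μ x := by
      rw [← hval x ε' hv, hgμ x hx]
    rw [hv, h1]
    ring
  let R : C → ℂ := fun c : C => (χ : G → ℂ) ⟨c, hCG c.2⟩
  have hRX : ∀ c : C, R c = X c := fun c => (hext ⟨c, hCG c.2⟩).symm
  have hRfun : R = fun c : C => X c := funext hRX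
  have hRc : IsClassFunction C R := by
    rw [hRfun]
    exact IsCharacter.isClassFunction (IsCharacter.restrict C hXc)
  have hβc : IsClassFunction C (β : C → ℂ) := IsCharacter.isClassFunction (IsIrrCharacter.isCharacter β.2)
  let ϑ : C → ℂ := (n : ℂ)⁻¹ • (R - (ε : ℂ) • (β : C → ℂ))
  have hϑcl : IsClassFunction C ϑ := by
    intro a b
    simp only [ϑ, Pi.smul_apply, Pi.sub_apply, smul_eq_mul]
    rw [hRc, hβc]
  have hRinner : ∀ ξ : C → ℂ, classInner R ξ = classInner (fun c : C => X ((c : Γ) * ((1 : S) : Γ))) ξ := by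
    intro ξ
    congr 1
    funext c
    rw [hRX]
    simp
  have hϑ : IsCharacter C ϑ := by
    refine isCharacter_of_coeff_nat hϑcl ?_
    intro ξ hξ
    simp only [ϑ]
    rw [classInner_smul_left, classInner_sub_left, classInner_smul_left]
    by_cases hξβ : (⟨ξ, hξ⟩ : IrrCharacter C) = β
    · refine ⟨T, ?_⟩
      have h1 : ξ = (β : C → ℂ) := congrArg Subtype.val hξβ
      rw [h1, classInner_irr_self β.2, hRinner]
      have h2 : classInner (fun c : C => X ((c : Γ) * ((1 : S) : Γ))) (β : C → ℂ) = D := hD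
      rw [h2]
      have h3 : (D : ℂ) = (T : ℂ) * n + ε := by
        have h4 : ((D : ℤ) : ℂ) = ((T * n + ε : ℤ) : ℂ) := by rw [hT]
        push_cast at h4
        exact h4
      rw [h3]
      field_simp
      ring
    · have h0 : classInner (β : C → ℂ) ξ = 0 := classInner_irr_of_ne β.2 hξ (fun h => hξβ (Subtype.ext h.symm))
      rw [h0, mul_zero, sub_zero, hRinner]
      obtain ⟨k, hk⟩ := classInner_isCharacter_nat (hF ⟨ξ, hξ⟩) (IsIrrCharacter.isCharacter (isIrrCharacter_one (G := S)))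
      refine ⟨k, ?_⟩
      rw [← hk]
      conv_rhs => rw [classInner_def]
      have h6 : ∑ y : S, classInner (fun c : C => X ((c : Γ) * y)) ξ * conj ((fun _ : S => (1 : ℂ)) y) =
          classInner (fun c : C => X ((c : Γ) * ((1 : S) : Γ))) ξ := by
        rw [← Finset.add_sum_erase Finset.univ _ (Finset.mem_univ (1 : S)), Finset.sum_eq_zero, add_zero]
        · simp only [map_one, mul_one]
        · intro y hy
          have h7 := hothers ⟨ξ, hξ⟩ hξβ y (Finset.ne_of_mem_erase hy)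
          simp only at h7
          rw [h7, zero_mul]
      rw [h6]
  have hidentity : ∀ c : C, R c = (n : ℂ) * ϑ c + (ε : ℂ) * (β : C → ℂ) c := by
    intro c
    simp only [ϑ, Pi.smul_apply, Pi.sub_apply, smul_eq_mul]
    field_simp
    ring
  refine ⟨⟨ϑ, hϑ, funext hidentity⟩, ?_⟩
  obtain ⟨k, hk⟩ := IsCharacter.map_one_eq hϑ
  have h1 := hidentity 1
  rw [hk] at h1
  have h2 : R 1 = (charDegree (χ : G → ℂ) : ℂ) := by
    rw [← map_one_eq_charDegree (IsIrrCharacter.isCharacter χ.2)]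
    rfl
  rw [h2, map_one_eq_charDegree (IsIrrCharacter.isCharacter β.2)] at h1
  refine ⟨k, ?_⟩
  have h3 : ((charDegree (χ : G → ℂ) : ℤ) : ℂ) = (((n : ℤ) * k + ε * charDegree (β : C → ℂ) : ℤ) : ℂ) := by
    push_cast
    exact h1
  have h4 : (charDegree (χ : G → ℂ) : ℤ) = (n : ℤ) * k + ε * charDegree (β : C → ℂ) := by exact_mod_cast h3
  rw [h4]
  ring

end Cfsg.Agent.S4451
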