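import Cfsg.Statements.S4452
import Mathlib
import Cfsg.Agent.Lib.Coprime.CopDeg

set_option autoImplicit false
open Cfsg

namespace Cfsg.Agent.S4452

open Cfsg Cfsg.Agent.Lib.Char Cfsg.Agent.Lib.Coprime in
theorem card_linear_congr {A B : Type*} [Group A] [Group B] (e : A ≃* B) :
    Nat.card {ψ : IrrCharacter A // charDegree (ψ : A → ℂ) = 1} = Nat.card {ψ : IrrCharacter B // charDegree (ψ : B → ℂ) = 1} := by
  refine Nat.card_congr ⟨fun ψ => ⟨⟨(ψ.1 : A → ℂ) ∘ e.symm, isIrr_comp_equiv e.symm ψ.1.2⟩, ?_⟩,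
    fun ψ => ⟨⟨(ψ.1 : B → ℂ) ∘ e, isIrr_comp_equiv e ψ.1.2⟩, ?_⟩, ?_, ?_⟩
  · have h1 := charDegree_comp_monoidHom (e.symm : B →* A) (ψ.1 : A → ℂ)
    exact h1.trans ψ.2
  · have h1 := charDegree_comp_monoidHom (e : A →* B) (ψ.1 : B → ℂ)
    exact h1.trans ψ.2
  · intro ψ
    apply Subtype.ext
    apply Subtype.ext
    funext a
    simp
  · intro ψ
    apply Subtype.ext
    apply Subtype.ext
    funext a
    simp

open Cfsg Cfsg.Agent.Lib.Char Cfsg.Agent.Lib.Coprime Pointwise in
theorem main {G : Type*} [Group G] [Finite G] (K H : Subgroup G) [hKn : K.Normal] (hKH : K ⊔ H = ⊤) (hcop : (Nat.card K).Coprime (Nat.card H)) (hsolv : Group.IsSolvable H) : Nat.card {χ : Cfsg.IrrCharacter G // (Cfsg.charDegree (χ : G → ℂ)).Coprime (Nat.card H)} = Nat.card {η : Cfsg.IrrCharacter (Subgroup.normalizer (H : Set G)) // (Cfsg.charDegree (η : Subgroup.normalizer (H : Set G) → ℂ)).Coprime (Nat.card H)} := by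
  classical
  set N := Subgroup.normalizer (H : Set G) with hN
  have hHN : H ≤ N := Subgroup.le_normalizer
  let K₀ : Subgroup N := K.subgroupOf N
  let H₀ : Subgroup N := H.subgroupOf N
  have hdecomp : ∀ g : G, ∃ k ∈ K, ∃ h ∈ H, g = k * h := by
    intro g
    have h2 : g ∈ (K : Set G) * (H : Set G) := by
      rw [← Subgroup.normal_mul, hKH]
      trivial
    obtain ⟨k, hk, h, hh, rfl⟩ := Set.mem_mul.mp h2
    exact ⟨k, hk, h, hh, rfl⟩
  have hbot : K ⊓ H = ⊥ := Subgroup.inf_eq_bot_of_coprime hcop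
  -- elements of `K` normalizing `H` centralize `H`
  have hcomm : ∀ y ∈ K, y ∈ N → ∀ a ∈ H, a * y * a⁻¹ = y := by
    intro y hy hyN a ha
    have h1 : a * y * a⁻¹ * y⁻¹ ∈ K ⊓ H := by
      constructor
      · exact K.mul_mem (hKn.conj_mem y hy a) (K.inv_mem hy)
      · have h2 : y * a⁻¹ * y⁻¹ ∈ H := (Subgroup.mem_normalizer_iff.mp hyN a⁻¹).mp (H.inv_mem ha)
        have h3 : a * y * a⁻¹ * y⁻¹ = a * (y * a⁻¹ * y⁻¹) := by group
        rw [h3]
        exact H.mul_mem ha h2
    rw [hbot, Subgroup.mem_bot] at h1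
    exact mul_inv_eq_one.mp h1
  have hnorm : ∀ s ∈ H, ∀ g ∈ K, s * g * s⁻¹ ∈ K := fun s _ g hg => hKn.conj_mem g hg s
  let φ := conjAct K H hnorm
  let j : K₀ →* K :=
    { toFun := fun x => ⟨x.1.1, x.2⟩
      map_one' := rfl
      map_mul' := fun _ _ => rfl }
  have hj : Function.Injective j := fun x y h => by
    have h' : (x.1.1 : G) = y.1.1 := congrArg (fun z : K => (z : G)) h
    exact Subtype.ext (Subtype.ext h')
  have hr : ∀ y, y ∈ j.range ↔ ∀ a, φ a y = y := by
    intro y
    constructor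
    · rintro ⟨x, rfl⟩ a
      exact Subtype.ext (hcomm x.1.1 x.2 x.1.2 a.1 a.2)
    · intro h
      have hc : ∀ b ∈ H, (y : G) * b = b * y := by
        intro b hb
        have h1 : (b * y * b⁻¹ : G) = y := congrArg Subtype.val (h ⟨b, hb⟩)
        exact (mul_inv_eq_iff_eq_mul.mp h1).symm
      have hyN : (y : G) ∈ N := by
        rw [hN, Subgroup.mem_normalizer_iff]
        intro a
        constructor
        · intro ha
          have h2 : (y : G) * a * (y : G)⁻¹ = a := by
            rw [hc a ha]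
            group
          rw [h2]
          exact ha
        · intro ha
          have h3 := hc _ ha
          have h4 : (y : G) * a * (y : G)⁻¹ = a := by
            have h5 : (y : G) * a * (y : G)⁻¹ * y = y * a := by group
            rw [h5] at h3
            exact (mul_left_cancel h3).symm ▸ rfl
          rw [← h4]
          exact ha
      exact ⟨⟨⟨y, hyN⟩, y.2⟩, Subtype.ext rfl⟩
  have hcop' : (Nat.card K).Coprime (Nat.card H) := hcop
  letI : Fintype K := Fintype.ofFinite _
  letI : Fintype K₀ := Fintype.ofFinite _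
  obtain ⟨f, -⟩ := sol_corr_single φ j hsolv hcop' hj hr
  have card1 := card_coprime_degree K H hKH hcop
  let e : H₀ ≃* H := Subgroup.subgroupOfEquivOfLe hHN
  have hcH : Nat.card H₀ = Nat.card H := Nat.card_congr e.toEquiv
  have hcK : Nat.card K₀ ∣ Nat.card K := Subgroup.card_dvd_of_injective j hj
  have hcop₀ : (Nat.card K₀).Coprime (Nat.card H₀) := by
    rw [hcH]
    exact Nat.Coprime.coprime_dvd_left hcK hcop
  have hsup : K₀ ⊔ H₀ = ⊤ := by
    rw [eq_top_iff]
    rintro ⟨g, hg⟩ -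
    obtain ⟨k, hk, h, hh, rfl⟩ := hdecomp g
    have hhN : h ∈ N := hHN hh
    have hkN : k ∈ N := by
      have h1 := N.mul_mem hg (N.inv_mem hhN)
      simpa using h1
    have h2 : (⟨k * h, hg⟩ : N) = ⟨k, hkN⟩ * ⟨h, hhN⟩ := rfl
    rw [h2]
    exact Subgroup.mul_mem _ (Subgroup.mem_sup_left hk) (Subgroup.mem_sup_right hh)
  have card2 := card_coprime_degree K₀ H₀ hsup hcop₀
  rw [hcH] at card2
  rw [card1, card2, card_linear_congr e]
  congr 1
  -- the invariant characters
  have h1 : Nat.card {ϑ : IrrCharacter K // ∀ (g : G) (n : K), (ϑ : K → ℂ) ⟨g * n * g⁻¹, hKn.conj_mem n n.2 g⟩ = (ϑ : K → ℂ) n} =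
      Nat.card (IrrInv φ) := by
    apply Nat.card_congr
    apply Equiv.subtypeEquivRight
    intro ϑ
    constructor
    · intro h a y
      exact h a.1 y
    · intro h g n
      obtain ⟨k, hk, h', hh', rfl⟩ := hdecomp g
      have h2 := h ⟨h', hh'⟩ n
      have h3 := IsCharacter.isClassFunction (IsIrrCharacter.isCharacter ϑ.2) (φ ⟨h', hh'⟩ n) ⟨k, hk⟩
      rw [h2] at h3
      rw [← h3]
      refine congrArg ϑ.1 ?_
      apply Subtype.ext
      show (k * h') * n * (k * h')⁻¹ = k * (h' * n * h'⁻¹) * k⁻¹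
      group
  have h2 : Nat.card {ϑ : IrrCharacter K₀ // ∀ (g : N) (n : K₀), (ϑ : K₀ → ℂ) ⟨g * n * g⁻¹, (inferInstance : K₀.Normal).conj_mem n n.2 g⟩ = (ϑ : K₀ → ℂ) n} =
      Nat.card (IrrCharacter K₀) := by
    apply Nat.card_congr
    apply Equiv.subtypeUnivEquiv
    intro ϑ g n
    obtain ⟨k, hk, h', hh', hgk⟩ := hdecomp g
    have hhN : h' ∈ N := hHN hh'
    have hkN : k ∈ N := by
      have h1 := N.mul_mem g.2 (N.inv_mem hhN)
      rw [hgk] at h1
      simpa using h1
    have h3 : (n : N) = ⟨h', hhN⟩ * (n : N) * (⟨h', hhN⟩ : N)⁻¹ := by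
      apply Subtype.ext
      exact (hcomm n.1.1 n.2 n.1.2 h' hh').symm
    have h4 := IsCharacter.isClassFunction (IsIrrCharacter.isCharacter ϑ.2) n ⟨⟨k, hkN⟩, hk⟩
    rw [← h4]
    refine congrArg ϑ.1 ?_
    apply Subtype.ext
    apply Subtype.ext
    show (g : G) * n * (g : G)⁻¹ = k * n * k⁻¹
    have h5 : (n : G) = h' * n * h'⁻¹ := (hcomm n.1.1 n.2 n.1.2 h' hh').symm
    rw [hgk]
    calc (k * h') * (n : G) * (k * h')⁻¹ = k * (h' * n * h'⁻¹) * k⁻¹ := by group
      _ = k * n * k⁻¹ := by rw [← h5]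
  rw [h1, h2]
  exact Nat.card_congr f

/-- Let the finite group G be the product of a normal subgroup K and a solvable subgroup H of coprime orders, and let N = N_G(H). Then the number of irreducible characters of G of degree coprime to the order of H equals the number of irreducible characters of N of degree coprime to the order of H. (The two sets are in fact in a canonical bijection; only the equality of their sizes is stated here.) -/
theorem result {G : Type*} [Group G] [Finite G] (K H : Subgroup G) [K.Normal] (hKH : K ⊔ H = ⊤) (hcop : (Nat.card K).Coprime (Nat.card H)) (hsolv : Group.IsSolvable H) : Nat.card {χ : Cfsg.IrrCharacter G // (Cfsg.charDegree (χ : G → ℂ)).Coprime (Nat.card H)} = Nat.card {η : Cfsg.IrrCharacter (Subgroup.normalizer (H : Set G)) // (Cfsg.charDegree (η : Subgroup.normalizer (H : Set G) → ℂ)).Coprime (Nat.card H)} := by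
  exact main K H hKH hcop hsolv

end Cfsg.Agent.S4452
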