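import Cfsg.Statements.S4454
import Mathlib
import Cfsg.Agent.Lib.Coprime.CosetFusion
import Cfsg.Agent.Lib.Coprime.CopDeg
import Cfsg.Agent.S0886
import Cfsg.Agent.Lib.Coprime.GlauberArith
import Cfsg.Agent.Lib.Degree.Inflate

set_option autoImplicit false
open Cfsg

namespace Cfsg.Agent.S4454


universe u

open scoped ComplexConjugate
open Cfsg Cfsg.Agent.Lib.Char Cfsg.Agent.Lib.Coprime Cfsg.Agent.Lib.Degree

section Core

variable {Y : Type u} [Group Y] [Fintype Y] (K : Subgroup Y) [hK : K.Normal] [Fintype K]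

/-- A character orthogonal on `K` is orthogonal. -/
theorem classInner_eq_zero_of_res {X ψ : Y → ℂ} (hX : IsCharacter Y X) (hψ : IsCharacter Y ψ)
    (h : classInner (fun n : K => X n) (fun n : K => ψ n) = 0) : classInner X ψ = 0 := by
  have h1 : ∀ t : Y, ∑ n : K, X (n * t) * conj (ψ (n * t)) = 0 := coset_orth_zero K hX hψ h
  have h2 : ∑ n : K, ∑ t : Y, X (n * t) * conj (ψ (n * t)) = 0 := by
    rw [Finset.sum_comm]
    exact Finset.sum_eq_zero fun t _ => h1 t
  have h3 : ∀ n : K, ∑ t : Y, X (n * t) * conj (ψ (n * t)) = ∑ t : Y, X t * conj (ψ t) := by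
    intro n
    exact Equiv.sum_comp (Equiv.mulLeft (n : Y)) (fun t => X t * conj (ψ t))
  simp only [h3, Finset.sum_const, Finset.card_univ, nsmul_eq_mul] at h2
  have hK0 : (Fintype.card K : ℂ) ≠ 0 := by
    exact_mod_cast Fintype.card_ne_zero
  have h4 : ∑ t : Y, X t * conj (ψ t) = 0 := by
    simpa [hK0] using h2
  rw [classInner_def, h4, mul_zero]

theorem ker_mul {β : IrrCharacter Y} (h : KerContains K (β : Y → ℂ)) (n : K) (y : Y) :
    (β : Y → ℂ) (n * y) = (β : Y → ℂ) y := by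
  obtain ⟨ψ, rfl⟩ := exists_inflate K h
  simp only [inflate_apply]
  congr 1
  rw [QuotientGroup.mk_mul]
  have : ((n : Y) : Y ⧸ K) = 1 := (QuotientGroup.eq_one_iff _).mpr n.2
  rw [this, one_mul]

theorem ker_degree (hab : ∀ a b : Y, a * b * a⁻¹ * b⁻¹ ∈ K) {β : IrrCharacter Y} (h : KerContains K (β : Y → ℂ)) :
    (β : Y → ℂ) 1 = 1 := by
  obtain ⟨ψ, rfl⟩ := exists_inflate K h
  simp only [inflate_apply]
  have hc : ∀ a b : Y ⧸ K, a * b = b * a := by
    intro a b
    obtain ⟨a, rfl⟩ := QuotientGroup.mk_surjective a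
    obtain ⟨b, rfl⟩ := QuotientGroup.mk_surjective b
    rw [← QuotientGroup.mk_mul, ← QuotientGroup.mk_mul, QuotientGroup.eq]
    have := K.inv_mem (hab a b)
    convert hK.conj_mem _ (K.inv_mem (hab a b)) (b⁻¹ * a⁻¹) using 1
    group
  exact (comm_iff_forall_irr_degree_one.mp hc) ψ

/-- The abstract form of the congruence. -/
theorem core (hab : ∀ a b : Y, a * b * a⁻¹ * b⁻¹ ∈ K) {X Θ : Y → ℂ} {ϑ : K → ℂ} (hX : IsCharacter Y X)
    (hΘ : IsIrrCharacter Y Θ) (hϑ : IsIrrCharacter K ϑ) (hext : ∀ n : K, Θ n = ϑ n) (e : ℕ)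
    (hXe : ∀ n : K, X n = e * ϑ n)
    (hcoset : ∀ y, y ∉ K → ∑ c : K, X (c * y) * conj (X (c * y)) = (Nat.card K : ℂ)) (hm : 2 ≤ K.index) :
    (K.index : ℤ) ∣ (e : ℤ) - 1 ∨ (K.index : ℤ) ∣ (e : ℤ) + 1 := by
  classical
  let B := {β : IrrCharacter Y // KerContains K (β : Y → ℂ)}
  have hdeg : ∀ β : B, (β.1 : Y → ℂ) 1 = 1 := fun β => ker_degree K hab β.2
  have hcardB : Fintype.card B = K.index := by
    have h1 := sum_kerContains_degree_sq K (G := Y)
    have h2 : ∑ χ ∈ Finset.univ.filter (fun χ : IrrCharacter Y => KerContains K (χ : Y → ℂ)), (χ : Y → ℂ) 1 ^ 2 =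
        ((Fintype.card B : ℕ) : ℂ) := by
      rw [Fintype.card_subtype]
      rw [Finset.card_eq_sum_ones]
      push_cast
      refine Finset.sum_congr rfl fun χ hχ => ?_
      rw [ker_degree K hab (Finset.mem_filter.mp hχ).2, one_pow]
    rw [h2] at h1
    exact_mod_cast h1
  have hΘc : IsCharacter Y Θ := IsIrrCharacter.isCharacter hΘ
  have hrestr : (fun n : K => Θ n) = ϑ := funext hext
  have hgal := gallagher_ext K hϑ hΘ hext
  -- the product characters
  have hprod : ∀ β : B, IsIrrCharacter Y ((β.1 : Y → ℂ) * Θ) := fun β =>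
    (hgal.mapsTo ⟨β.1.2, fun n hn => β.2 n hn⟩).1
  let g : B → IrrCharacter Y := fun β => ⟨(β.1 : Y → ℂ) * Θ, hprod β⟩
  have hginj : Function.Injective g := by
    intro β β' h
    have h1 : (β.1 : Y → ℂ) * Θ = (β'.1 : Y → ℂ) * Θ := congrArg Subtype.val h
    have h2 := hgal.injOn (x₁ := (β.1 : Y → ℂ)) (x₂ := (β'.1 : Y → ℂ)) ⟨β.1.2, fun n hn => β.2 n hn⟩
      ⟨β'.1.2, fun n hn => β'.2 n hn⟩ h1
    exact Subtype.ext (Subtype.ext h2)
  have hgsurj : ∀ ψ : IrrCharacter Y, classInner (fun n : K => (ψ : Y → ℂ) n) ϑ ≠ 0 → ∃ β, g β = ψ := by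
    intro ψ hψ
    obtain ⟨β, ⟨h1, h2⟩, h3⟩ := hgal.surjOn (show (ψ : Y → ℂ) ∈ _ from ⟨ψ.2, hψ⟩)
    exact ⟨⟨⟨β, h1⟩, h2⟩, Subtype.ext h3⟩
  -- the coefficients
  obtain ⟨v, hv⟩ : ∃ v : B → ℕ, ∀ β, classInner X (g β : Y → ℂ) = v β := by
    choose v hv using fun β : B => classInner_isCharacter_nat hX (IsIrrCharacter.isCharacter (g β).2)
    exact ⟨v, hv⟩
  have hzero : ∀ ψ : IrrCharacter Y, classInner (fun n : K => (ψ : Y → ℂ) n) ϑ = 0 →
      classInner X (ψ : Y → ℂ) = 0 := by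
    intro ψ hψ
    apply classInner_eq_zero_of_res K hX (IsIrrCharacter.isCharacter ψ.2)
    have h1 : (fun n : K => X n) = (e : ℂ) • ϑ := by
      funext n
      simp [hXe n]
    rw [h1, classInner_smul_left, ← conj_classInner, hψ, map_zero, mul_zero]
  -- the decomposition
  let f : Y → ℂ := fun y => ∑ β : B, (v β : ℂ) * (β.1 : Y → ℂ) y
  have hdecomp : ∀ y, X y = f y * Θ y := by
    intro y
    have h1 := congrFun (classFunction_eq_sum X (IsCharacter.isClassFunction hX)) y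
    simp only [Finset.sum_apply, Pi.smul_apply, smul_eq_mul] at h1
    rw [h1]
    have h2 : ∑ ψ : IrrCharacter Y, classInner X (ψ : Y → ℂ) * (ψ : Y → ℂ) y =
        ∑ β : B, classInner X (g β : Y → ℂ) * (g β : Y → ℂ) y := by
      symm
      refine Finset.sum_of_injOn g hginj.injOn (fun _ _ => Finset.mem_coe.mpr (Finset.mem_univ _)) ?_ ?_
      · intro ψ _ hψ
        by_cases h3 : classInner (fun n : K => (ψ : Y → ℂ) n) ϑ = 0
        · rw [hzero ψ h3, zero_mul]
        · obtain ⟨β, rfl⟩ := hgsurj ψ h3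
          exact absurd (Set.mem_image_of_mem g (Finset.mem_coe.mpr (Finset.mem_univ β))) hψ
      · intro β _
        rfl
    rw [h2]
    simp only [f, Finset.sum_mul]
    refine Finset.sum_congr rfl fun β _ => ?_
    rw [hv β]
    show (v β : ℂ) * ((β.1 : Y → ℂ) y * Θ y) = _
    ring
  have hfK : ∀ (n : K) (y : Y), f (n * y) = f y := by
    intro n y
    simp only [f]
    refine Finset.sum_congr rfl fun β _ => ?_
    rw [ker_mul K β.2]
  have hΘ1 : Θ 1 ≠ 0 := by
    obtain ⟨χ, hχ⟩ : ∃ χ : IrrCharacter Y, (χ : Y → ℂ) = Θ := ⟨⟨Θ, hΘ⟩, rfl⟩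
    rw [← hχ]
    exact irr_degree_ne_zero χ
  have hϑ1 : ϑ 1 = Θ 1 := (hext 1).symm
  have hf1 : f 1 = e := by
    have h1 := hdecomp 1
    have h2 : X 1 = e * ϑ 1 := hXe 1
    rw [h2, hϑ1] at h1
    exact (mul_right_cancel₀ hΘ1 h1).symm
  have hsum : ∑ β, v β = e := by
    have h1 : f 1 = ((∑ β, v β : ℕ) : ℂ) := by
      simp only [f, hdeg, mul_one]
      push_cast
      rfl
    rw [h1] at hf1
    exact_mod_cast hf1
  have hK0 : (Nat.card K : ℂ) ≠ 0 := by exact_mod_cast Nat.card_pos.ne'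
  have hfnorm : ∀ y, y ∉ K → f y * conj (f y) = 1 := by
    intro y hy
    have h1 := hcoset y hy
    have h2 : ∑ c : K, Θ (c * y) * conj (Θ (c * y)) = (Nat.card K : ℂ) := by
      refine coset_orth_self K hΘc ?_ y
      rw [hrestr]
      exact classInner_irr_self hϑ
    have h3 : ∑ c : K, X (c * y) * conj (X (c * y)) = f y * conj (f y) * ∑ c : K, Θ (c * y) * conj (Θ (c * y)) := by
      rw [Finset.mul_sum]
      refine Finset.sum_congr rfl fun c _ => ?_
      rw [hdecomp, hfK, map_mul]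
      ring
    rw [h1, h2] at h3
    have h4 : (f y * conj (f y)) * (Nat.card K : ℂ) = 1 * (Nat.card K : ℂ) := by
      rw [← h3, one_mul]
    exact mul_right_cancel₀ hK0 h4
  have hfK' : ∀ y, y ∈ K → f y = e := by
    intro y hy
    have h1 := hfK ⟨y, hy⟩ 1
    rw [mul_one] at h1
    rw [← hf1]
    exact h1
  -- the norm of `f`
  have hinner : classInner f f = ∑ β, (v β : ℂ) ^ 2 := by
    have h1 : f = ∑ β : B, (v β : ℂ) • (β.1 : Y → ℂ) := by
      funext y
      simp [f, Finset.sum_apply]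
    rw [h1, classInner_sum_left]
    refine Finset.sum_congr rfl fun β _ => ?_
    rw [classInner_smul_left, classInner_sum_right]
    rw [Finset.sum_eq_single β]
    · rw [classInner_smul_right, classInner_irr_self β.1.2, Complex.conj_natCast, mul_one, sq]
    · intro β' _ hne
      rw [classInner_smul_right, classInner_irr_of_ne β.1.2 β'.1.2 (fun h => hne (Subtype.ext (Subtype.ext h.symm))),
        mul_zero]
    · intro h
      exact absurd (Finset.mem_univ _) h
  have hcardY : Nat.card Y = K.index * Nat.card K := (K.index_mul_card).symm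
  have hsumY : ∑ y : Y, f y * conj (f y) = (Nat.card K : ℂ) * (e : ℂ) ^ 2 + ((Nat.card Y : ℂ) - (Nat.card K : ℂ)) := by
    rw [← Finset.sum_filter_add_sum_filter_not Finset.univ (fun y : Y => y ∈ K)]
    have h1 : ∑ y ∈ Finset.univ.filter (fun y : Y => y ∈ K), f y * conj (f y) = (Nat.card K : ℂ) * (e : ℂ) ^ 2 := by
      have h2 : ∀ y ∈ Finset.univ.filter (fun y : Y => y ∈ K), f y * conj (f y) = (e : ℂ) ^ 2 := by
        intro y hy
        rw [hfK' y (Finset.mem_filter.mp hy).2, Complex.conj_natCast, sq]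
      rw [Finset.sum_congr rfl h2, Finset.sum_const, nsmul_eq_mul]
      congr 2
      rw [Nat.card_eq_fintype_card]
      exact (Fintype.card_of_subtype _ (by simp)).symm
    have h3 : ∑ y ∈ Finset.univ.filter (fun y : Y => ¬ y ∈ K), f y * conj (f y) = (Nat.card Y : ℂ) - (Nat.card K : ℂ) := by
      have h2 : ∀ y ∈ Finset.univ.filter (fun y : Y => ¬ y ∈ K), f y * conj (f y) = 1 := by
        intro y hy
        exact hfnorm y (Finset.mem_filter.mp hy).2
      rw [Finset.sum_congr rfl h2, Finset.sum_const, nsmul_eq_mul, mul_one]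
      have h4 := Finset.card_filter_add_card_filter_not (s := (Finset.univ : Finset Y)) (fun y : Y => y ∈ K)
      have h5 : (Finset.univ.filter (fun y : Y => y ∈ K)).card = Nat.card K := by
        rw [Nat.card_eq_fintype_card]
        exact (Fintype.card_of_subtype _ (by simp)).symm
      rw [h5, Finset.card_univ, ← Nat.card_eq_fintype_card] at h4
      rw [← h4]
      push_cast
      ring
    rw [h1, h3]
  have hmain : (K.index : ℂ) * ∑ β, (v β : ℂ) ^ 2 = (e : ℂ) ^ 2 + (K.index : ℂ) - 1 := by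
    rw [← hinner, classInner_def, hsumY, hcardY]
    have hm0 : (K.index : ℂ) ≠ 0 := by
      have : K.index ≠ 0 := by omega
      exact_mod_cast this
    push_cast
    field_simp
    ring
  have hmainZ : (K.index : ℤ) * ∑ β, (v β : ℤ) ^ 2 = (e : ℤ) ^ 2 + (K.index : ℤ) - 1 := by
    have : (((K.index : ℤ) * ∑ β, (v β : ℤ) ^ 2 : ℤ) : ℂ) = (((e : ℤ) ^ 2 + (K.index : ℤ) - 1 : ℤ) : ℂ) := by
      push_cast
      exact hmain
    exact_mod_cast this
  have hquad : quadForm (fun β => (v β : ℤ)) = (K.index : ℤ) - 1 := by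
    unfold quadForm
    have h1 : ∑ β, (v β : ℤ) = e := by exact_mod_cast hsum
    rw [hcardB, h1, hmainZ]
    ring
  have hne : ∃ x y, (v x : ℤ) ≠ (v y : ℤ) := by
    by_contra hcon
    push_neg at hcon
    have h1 := quadForm_const (v := fun β => (v β : ℤ)) hcon
    rw [hquad] at h1
    omega
  obtain ⟨t, ε, r₀, hε, hval⟩ := (quadForm_main hne).2 (by rw [hcardB]; exact hquad.le)
  have hsumZ : (e : ℤ) = (K.index : ℤ) * t + ε := by
    have h1 : ∑ β, (v β : ℤ) = e := by exact_mod_cast hsum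
    have h2 : ∑ x : B, (if x = r₀ then ε else 0) = ε := by
      rw [Finset.sum_eq_single r₀]
      · rw [if_pos rfl]
      · intro b _ hb
        rw [if_neg hb]
      · intro h
        exact absurd (Finset.mem_univ _) h
    rw [← h1, Finset.sum_congr rfl fun r _ => hval r, Finset.sum_add_distrib, Finset.sum_const, Finset.card_univ, hcardB, h2]
    simp
  rcases hε with rfl | rfl
  · left
    exact ⟨t, by rw [hsumZ]; ring⟩
  · right
    exact ⟨t, by rw [hsumZ]; ring⟩

end Core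

/-- Let N ≤ G be normal subgroups of the finite group Γ with Γ/G cyclic and Γ/N a Frobenius group with kernel G/N: G ≠ Γ, N ≠ G, and no element of Γ outside G fixes a non-identity coset of N in G under conjugation. Let ϑ be an irreducible character of N invariant under conjugation by Γ and suppose ϑ is fully ramified in G: the character of G induced from ϑ equals e·χ for an irreducible character χ of G and a natural number e. Then the index of G in Γ divides e − 1 or e + 1. -/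
theorem result {Γ : Type*} [Group Γ] [Fintype Γ] (G N : Subgroup Γ) [hG : G.Normal] [hN : N.Normal] [Fintype G] [Fintype N] (hNG : N ≤ G) (hGlt : G ≠ ⊤) (hNlt : N ≠ G) (hcyc : IsCyclic (Γ ⧸ G)) (hfrob : ∀ x : Γ, x ∉ G → ∀ g : Γ, g ∈ G → x * g * x⁻¹ * g⁻¹ ∈ N → g ∈ N) (θ : Cfsg.IrrCharacter N) (hinv : ∀ (x : Γ) (n : N), (θ : N → ℂ) ⟨x * n * x⁻¹, hN.conj_mem n n.2 x⟩ = (θ : N → ℂ) n) (χ : Cfsg.IrrCharacter G) (e : ℕ) (hram : Cfsg.indFun (N.subgroupOf G) (fun n : N.subgroupOf G => (θ : N → ℂ) ⟨(n : G), n.2⟩) = fun g => (e : ℂ) * (χ : G → ℂ) g) : (G.index : ℤ) ∣ (e : ℤ) - 1 ∨ (G.index : ℤ) ∣ (e : ℤ) + 1 := by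
  classical
  have hχc : IsClassFunction G (χ : G → ℂ) := IsCharacter.isClassFunction (IsIrrCharacter.isCharacter χ.2)
  let H : Subgroup G := N.subgroupOf G
  letI : Fintype H := Fintype.ofFinite _
  let θG : H → ℂ := fun n => (θ : N → ℂ) ⟨(n : G), n.2⟩
  have hθG : IsIrrCharacter H θG := isIrr_comp_equiv (Subgroup.subgroupOfEquivOfLe hNG) θ.2
  have hreci : ∀ ψ : G → ℂ, IsClassFunction G ψ →
      classInner (fun g => (e : ℂ) * (χ : G → ℂ) g) ψ = classInner θG (fun h : H => ψ h) := by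
    intro ψ hψ
    rw [← hram]
    exact frobenius_reciprocity H θG ψ hψ
  have hsmul : ∀ ψ : G → ℂ, classInner (fun g => (e : ℂ) * (χ : G → ℂ) g) ψ = (e : ℂ) * classInner (χ : G → ℂ) ψ := by
    intro ψ
    have h1 : (fun g => (e : ℂ) * (χ : G → ℂ) g) = (e : ℂ) • (χ : G → ℂ) := by
      funext g
      simp
    rw [h1, classInner_smul_left]
  have hinner : classInner θG (fun h : H => (χ : G → ℂ) h) = (e : ℂ) := by
    rw [← hreci _ hχc, hsmul, classInner_irr_self χ.2, mul_one]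
  have he0 : e ≠ 0 := by
    intro h0
    have h1 : indFun H θG 1 = (e : ℂ) * (χ : G → ℂ) 1 := congrFun hram 1
    rw [h0, indFun_apply] at h1
    have h2 : ∀ x : G, extendByZero H θG (x⁻¹ * 1 * x) = θG 1 := by
      intro x
      have h3 : x⁻¹ * 1 * x = 1 := by group
      rw [h3]
      exact extendByZero_of_mem H θG (H.one_mem)
    simp only [h2, Finset.sum_const, Finset.card_univ, nsmul_eq_mul] at h1
    have h4 : θG 1 ≠ 0 := by
      have := irr_degree_ne_zero (⟨θG, hθG⟩ : IrrCharacter H)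
      exact this
    have h5 : (Nat.card H : ℂ)⁻¹ ≠ 0 := by
      apply inv_ne_zero
      exact_mod_cast Nat.card_pos.ne'
    have h6 : (Fintype.card G : ℂ) ≠ 0 := by
      exact_mod_cast Fintype.card_ne_zero
    simp [h4, h6, h5] at h1
  have hHn : H.Normal := inferInstanceAs (N.subgroupOf G).Normal
  have hinvH : ∀ g, conjFn hHn g θG = θG := by
    intro g
    funext n
    exact hinv g ⟨(n : G), n.2⟩
  have hne : classInner (fun n : H => (χ : G → ℂ) n) θG ≠ 0 := by
    rw [← conj_classInner, hinner, Complex.conj_natCast]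
    exact_mod_cast he0
  have hclif := clifford_invariant hHn χ.2 hθG hinvH hne
  have hclifn : ∀ n : H, (χ : G → ℂ) n = (e : ℂ) * θG n := by
    intro n
    have h1 := congrFun hclif n
    rw [← conj_classInner, hinner, Complex.conj_natCast] at h1
    simpa using h1
  -- the invariance of `χ`
  have hχinv : ∀ (g : Γ) (n : G), (χ : G → ℂ) ⟨g * n * g⁻¹, hG.conj_mem n n.2 g⟩ = (χ : G → ℂ) n := by
    intro x g
    let cx : G ≃* G := MulAut.conjNormal x
    have hcx : ∀ g : G, ((cx g : G) : Γ) = x * g * x⁻¹ := fun g => rfl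
    let χx : G → ℂ := (χ : G → ℂ) ∘ cx
    have hχx : IsIrrCharacter G χx := isIrr_comp_equiv cx χ.2
    let eH : H ≃ H :=
      { toFun := fun n => ⟨cx n, hN.conj_mem _ n.2 x⟩
        invFun := fun n => ⟨cx.symm n, by
          have h1 := hN.conj_mem _ n.2 x⁻¹
          have h2 : ((cx.symm n : G) : Γ) = x⁻¹ * n * x⁻¹⁻¹ := by
            have h3 : (MulAut.conjNormal x : G ≃* G).symm = MulAut.conjNormal x⁻¹ := by
              rw [← MulAut.inv_def, map_inv]
            show (((MulAut.conjNormal x : G ≃* G).symm n : G) : Γ) = _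
            rw [h3]
            rfl
          show ((cx.symm n : G) : Γ) ∈ N
          rw [h2]
          exact h1⟩
        left_inv := fun n => Subtype.ext (by simp)
        right_inv := fun n => Subtype.ext (by simp) }
    have h1 : classInner θG (fun h : H => χx h) = classInner θG (fun h : H => (χ : G → ℂ) h) := by
      rw [classInner_def, classInner_def]
      congr 1
      rw [← Equiv.sum_comp eH (fun n => θG n * (starRingEnd ℂ) ((χ : G → ℂ) n))]
      refine Finset.sum_congr rfl fun n _ => ?_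
      have h2 : θG (eH n) = θG n := hinv x ⟨n, n.2⟩
      rw [h2]
      rfl
    have h2 : classInner (χ : G → ℂ) χx ≠ 0 := by
      intro h3
      have h4 := hreci χx (IsCharacter.isClassFunction (IsIrrCharacter.isCharacter hχx))
      rw [hsmul, h3, mul_zero, h1, hinner] at h4
      exact he0 (by exact_mod_cast h4.symm)
    have h3 : (χ : G → ℂ) = χx := by
      by_contra h4
      exact h2 (classInner_irr_of_ne χ.2 hχx h4)
    have h4 := congrFun h3 g
    exact h4.symm
  obtain ⟨X, hX, hXχ⟩ := Cfsg.Agent.S0886.result G hcyc (χ : G → ℂ) χ.2 hχinv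
  have hXc : IsCharacter Γ X := IsIrrCharacter.isCharacter hX
  -- a generator
  haveI := hcyc
  obtain ⟨gen, hgen⟩ := IsCyclic.exists_generator (α := Γ ⧸ G)
  obtain ⟨x, rfl⟩ := QuotientGroup.mk_surjective gen
  have hx : x ∉ G := by
    intro hx
    apply hGlt
    rw [eq_top_iff]
    intro a _
    have h1 := hgen (a : Γ ⧸ G)
    have h2 : ((x : Γ) : Γ ⧸ G) = 1 := (QuotientGroup.eq_one_iff x).mpr hx
    rw [h2, Subgroup.zpowers_one_eq_bot, Subgroup.mem_bot] at h1
    exact (QuotientGroup.eq_one_iff a).mp h1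
  have hzp : ∀ z ∈ Subgroup.zpowers x, z ∈ G → z ∈ N := by
    intro z hz hzG
    refine hfrob x hx z hzG ?_
    obtain ⟨k, rfl⟩ := Subgroup.mem_zpowers_iff.mp hz
    have h1 : x * x ^ k * x⁻¹ * (x ^ k)⁻¹ = 1 := by
      have h2 : x * x ^ k = x ^ k * x := (Commute.refl x).zpow_right k
      rw [h2]
      group
    rw [h1]
    exact N.one_mem
  let Y : Subgroup Γ := N ⊔ Subgroup.zpowers x
  have hNY : N ≤ Y := le_sup_left
  have hxY : x ∈ Y := (le_sup_right : Subgroup.zpowers x ≤ Y) (Subgroup.mem_zpowers x)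
  have hYmem : ∀ y ∈ Y, ∃ n ∈ N, ∃ k : ℤ, y = n * x ^ k := by
    intro y hy
    have h1 : y ∈ ((N ⊔ Subgroup.zpowers x : Subgroup Γ) : Set Γ) := hy
    rw [Subgroup.normal_mul, Set.mem_mul] at h1
    obtain ⟨n, hn, z, hz, rfl⟩ := h1
    obtain ⟨k, rfl⟩ := Subgroup.mem_zpowers_iff.mp hz
    exact ⟨n, hn, k, rfl⟩
  have hYG : ∀ y ∈ Y, y ∈ G → y ∈ N := by
    intro y hy hyG
    obtain ⟨n, hn, k, rfl⟩ := hYmem y hy
    have h1 : x ^ k ∈ G := by
      have h2 := G.mul_mem (G.inv_mem (hNG hn)) hyG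
      simpa using h2
    exact N.mul_mem hn (hzp _ (Subgroup.zpow_mem_zpowers x k) h1)
  letI : Fintype Y := Fintype.ofFinite _
  let K : Subgroup Y := N.subgroupOf Y
  letI : Fintype K := Fintype.ofFinite _
  have hKn : K.Normal := inferInstanceAs (N.subgroupOf Y).Normal
  haveI := hKn
  have hKG : K = G.subgroupOf Y := by
    ext y
    constructor
    · intro hy
      exact hNG hy
    · intro hy
      exact hYG y y.2 hy
  have hYsup : Y ⊔ G = ⊤ := by
    rw [eq_top_iff]
    intro a _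
    obtain ⟨k, hk⟩ := Subgroup.mem_zpowers_iff.mp (hgen (a : Γ ⧸ G))
    have h1 : (x ^ k : Γ)⁻¹ * a ∈ G := by
      rw [← QuotientGroup.eq]
      rw [← hk]
      rfl
    have h2 : a = x ^ k * ((x ^ k : Γ)⁻¹ * a) := by group
    rw [h2]
    exact Subgroup.mul_mem _ ((le_sup_left : Y ≤ Y ⊔ G) (Y.zpow_mem hxY k)) ((le_sup_right : G ≤ Y ⊔ G) h1)
  have hindex : K.index = G.index := by
    rw [hKG]
    show G.relIndex Y = G.index
    rw [← Subgroup.relIndex_sup_right, hYsup, Subgroup.relIndex_top_right]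
  have hm : 2 ≤ K.index := by
    rw [hindex]
    have h1 : G.index ≠ 1 := fun h => hGlt (Subgroup.index_eq_one.mp h)
    have h2 : G.index ≠ 0 := Subgroup.index_ne_zero_of_finite
    omega
  have hcycY : IsCyclic (Y ⧸ K) := by
    refine ⟨⟨((⟨x, hxY⟩ : Y) : Y ⧸ K), ?_⟩⟩
    intro q
    obtain ⟨y, rfl⟩ := QuotientGroup.mk_surjective q
    obtain ⟨n, hn, k, hy⟩ := hYmem y y.2
    refine Subgroup.mem_zpowers_iff.mpr ⟨k, ?_⟩
    rw [← QuotientGroup.mk_zpow, QuotientGroup.eq]
    show (((⟨x, hxY⟩ : Y) ^ k)⁻¹ * y : Y).1 ∈ N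
    have h1 : (((⟨x, hxY⟩ : Y) ^ k)⁻¹ * y : Y).1 = (x ^ k)⁻¹ * y := by
      simp
    rw [h1, hy]
    have h2 : (x ^ k)⁻¹ * (n * x ^ k) = (x ^ k)⁻¹ * n * ((x ^ k)⁻¹)⁻¹ := by group
    rw [h2]
    exact hN.conj_mem _ hn _
  have hab : ∀ a b : Y, a * b * a⁻¹ * b⁻¹ ∈ K := by
    intro a b
    haveI := hcycY
    have h1 : ((a : Y ⧸ K)) * (b : Y ⧸ K) = (b : Y ⧸ K) * (a : Y ⧸ K) := IsMulCommutative.is_comm.comm _ _
    rw [← QuotientGroup.eq_one_iff]
    rw [QuotientGroup.mk_mul, QuotientGroup.mk_mul, QuotientGroup.mk_mul, QuotientGroup.mk_inv, QuotientGroup.mk_inv, h1]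
    group
  let θY : K → ℂ := fun n => (θ : N → ℂ) ⟨(n : Y), n.2⟩
  have hθY : IsIrrCharacter K θY := isIrr_comp_equiv (Subgroup.subgroupOfEquivOfLe hNY) θ.2
  obtain ⟨Θ, hΘ, hΘe⟩ := Cfsg.Agent.S0886.result K hcycY θY hθY (fun g n => hinv g ⟨n, n.2⟩)
  have hcore := core K hab (X := fun y : Y => X y) (Θ := Θ) (ϑ := θY) (IsCharacter.restrict Y hXc) hΘ hθY hΘe e ?_ ?_ hm
  · rwa [hindex] at hcore
  · intro n
    have h1 := hXχ ⟨n, hNG n.2⟩
    have h2 := hclifn ⟨⟨n, hNG n.2⟩, n.2⟩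
    exact h1.trans h2
  · intro y hy
    have hyN : (y : Γ) ∉ N := hy
    have hyG : (y : Γ) ∉ G := fun h => hyN (hYG _ y.2 h)
    have hs := sum_coset_fusion (F := fun g => X g * (starRingEnd ℂ) (X g)) G N (y : Γ) hNG
      (fun c hc => hN.conj_mem c hc _) ?_ ?_
    · have h1 : ∑ g : G, X (g * y) * (starRingEnd ℂ) (X (g * y)) = (Nat.card G : ℂ) := by
        refine coset_orth_self G hXc ?_ y
        have h2 : (fun n : G => X n) = (χ : G → ℂ) := funext hXχ
        rw [h2]
        exact classInner_irr_self χ.2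
      rw [h1] at hs
      have hG0 : (Nat.card G : ℂ) ≠ 0 := by exact_mod_cast Nat.card_pos.ne'
      have h3 : ∑ c : N, X (c * y) * (starRingEnd ℂ) (X (c * y)) = (Nat.card N : ℂ) := by
        have h4 : (Nat.card G : ℂ) * ∑ c : N, X (c * y) * (starRingEnd ℂ) (X (c * y)) =
            (Nat.card G : ℂ) * (Nat.card N : ℂ) := by
          rw [← hs]
          ring
        exact mul_left_cancel₀ hG0 h4
      have hcard : Nat.card K = Nat.card N := Nat.card_congr (Subgroup.subgroupOfEquivOfLe hNY).toEquiv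
      rw [hcard, ← h3]
      exact Equiv.sum_comp (Subgroup.subgroupOfEquivOfLe hNY).toEquiv
        (fun c : N => X (c * y) * (starRingEnd ℂ) (X (c * y)))
    · intro g hg c hc c' hc' h
      refine hfrob y hyG g hg ?_
      have h1 : ((g * c * g⁻¹)⁻¹ * c')⁻¹ = y * g * (y : Γ)⁻¹ * g⁻¹ := by
        have h2 : c' = g * (c * y) * g⁻¹ * (y : Γ)⁻¹ := by
          rw [h]
          group
        rw [h2]
        group
      rw [← h1]
      exact N.inv_mem (N.mul_mem (N.inv_mem (hN.conj_mem c hc g)) hc')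
    · intro h g
      show X (h * g * h⁻¹) * (starRingEnd ℂ) (X (h * g * h⁻¹)) = X g * (starRingEnd ℂ) (X g)
      rw [IsCharacter.isClassFunction hXc g h]

end Cfsg.Agent.S4454
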