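import Mathlib
import Cfsg.Statements.S4459
import Cfsg.Agent.Lib.Coprime.DegreeP

set_option autoImplicit false
set_option linter.style.haveILetI false
set_option linter.unusedSectionVars false
set_option linter.unusedSimpArgs false
set_option linter.unnecessarySimpa false
set_option linter.unusedVariables false

open scoped ComplexConjugate
open Cfsg Cfsg.Agent.Lib.Char Cfsg.Agent.Lib.Coprime

namespace Cfsg.Agent.S4459

/-- The squared degree is at most the index of the centre. -/
theorem deg_sq_le_index_center {G : Type*} [Group G] [Finite G] (χ : IrrCharacter G) :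
    charDegree (χ : G → ℂ) ^ 2 ≤ (Subgroup.center G).index := by
  classical
  haveI := Fintype.ofFinite G
  set N : ℕ := charDegree (χ : G → ℂ) with hN
  have h1 := classInner_irr_self χ.2
  rw [classInner_def] at h1
  have hcard : (Nat.card G : ℂ) ≠ 0 := by
    exact_mod_cast (Nat.card_pos (α := G)).ne'
  have h2 : ∑ g : G, (χ : G → ℂ) g * conj ((χ : G → ℂ) g) = Nat.card G := by
    field_simp at h1
    exact h1
  have h3 : ∑ g : G, (‖(χ : G → ℂ) g‖ ^ 2 : ℝ) = (Nat.card G : ℝ) := by
    apply Complex.ofReal_injective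
    push_cast
    rw [← h2]
    apply Finset.sum_congr rfl
    intro g _
    rw [Complex.mul_conj, Complex.normSq_eq_norm_sq]
    push_cast
    rfl
  have h1c : (χ : G → ℂ) 1 = (N : ℂ) := map_one_eq_charDegree (IsIrrCharacter.isCharacter χ.2)
  have h4 : ∀ z ∈ Subgroup.center G, ‖(χ : G → ℂ) z‖ = (N : ℝ) := by
    intro z hz
    obtain ⟨lam, hlam⟩ := Cfsg.Agent.Lib.CharExtra.exists_hom_of_central χ (Subgroup.center G) le_rfl
    have h5 := norm_hom_eq_one lam ⟨z, hz⟩
    rw [hlam ⟨z, hz⟩, norm_div] at h5
    have h6 : ‖(χ : G → ℂ) 1‖ = (N : ℝ) := by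
      rw [h1c]
      simp
    have h7 : (N : ℝ) ≠ 0 := by
      have := charDegree_pos_of_irr χ.2
      exact_mod_cast this.ne'
    rw [h6] at h5
    field_simp at h5
    exact h5
  let S : Finset G := Finset.univ.filter (fun g => g ∈ Subgroup.center G)
  have hS : S.card = Nat.card (Subgroup.center G) := by
    rw [Nat.card_eq_fintype_card, Fintype.card_subtype]
  have h5 : ∑ g ∈ S, (‖(χ : G → ℂ) g‖ ^ 2 : ℝ) ≤ ∑ g : G, (‖(χ : G → ℂ) g‖ ^ 2 : ℝ) :=
    Finset.sum_le_sum_of_subset_of_nonneg (Finset.subset_univ _) (fun _ _ _ => by positivity)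
  have h6 : ∑ g ∈ S, (‖(χ : G → ℂ) g‖ ^ 2 : ℝ) = (S.card : ℝ) * (N : ℝ) ^ 2 := by
    rw [Finset.sum_congr rfl (g := fun _ => ((N : ℝ) ^ 2)) (fun g hg => by
      rw [h4 g (Finset.mem_filter.mp hg).2])]
    simp
  rw [h6, h3, hS] at h5
  have h7 : (Nat.card (Subgroup.center G) * N ^ 2 : ℕ) ≤ Nat.card (Subgroup.center G) *
      (Subgroup.center G).index := by
    rw [Subgroup.card_mul_index]
    exact_mod_cast h5
  exact Nat.le_of_mul_le_mul_left h7 Nat.card_pos

/-- Let G be a non-abelian finite group and p a prime. Then the irreducible character degrees of G are exactly 1 and p if and only if either G has an abelian normal subgroup of index p or the centre of G has index p³. -/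
theorem result {G : Type*} [Group G] [Finite G] (hG : ∃ a b : G, a * b ≠ b * a) (p : ℕ) (hp : p.Prime) : ((∀ χ : Cfsg.IrrCharacter G, Cfsg.charDegree (χ : G → ℂ) = 1 ∨ Cfsg.charDegree (χ : G → ℂ) = p) ∧ ∃ χ : Cfsg.IrrCharacter G, Cfsg.charDegree (χ : G → ℂ) = p) ↔ ((∃ A : Subgroup G, A.Normal ∧ (∀ a ∈ A, ∀ b ∈ A, a * b = b * a) ∧ A.index = p) ∨ (Subgroup.center G).index = p ^ 3) := by
  classical
  haveI : Fact p.Prime := ⟨hp⟩
  constructor
  · rintro ⟨H1, H2⟩
    rcases two_deg_structure H1 H2 hp.ne_one with ⟨C, hC, hi, hab, -⟩ | ⟨q, e, hq, hqe, P, A, hP, hA, hPp, hAab, hd, hs⟩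
    · exact Or.inl ⟨C, hC, hab, hi⟩
    · have hqp : q = p := by
        have he : e ≠ 0 := by
          rintro rfl
          rw [pow_zero] at hqe
          exact hp.ne_one hqe
        exact (Nat.prime_dvd_prime_iff_eq hq hp).mp (hqe ▸ dvd_pow_self q he)
      rw [hqp] at hPp
      obtain ⟨φ, hφ1, hφA⟩ := exists_retraction hd hs
      have hφs : Function.Surjective φ := fun x => ⟨x, hφ1 x⟩
      have hcomm : ∀ x ∈ P, ∀ a ∈ A, x * a = a * x := fun x hx a ha =>
        Subgroup.commute_of_normal_of_disjoint P A hP hA (disjoint_iff.mpr hd) x a hx ha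
      -- decomposition
      have hdec : ∀ g : G, ∃ a ∈ A, g = (φ g : G) * a := by
        intro g
        have hg : g ∈ P ⊔ A := hs ▸ Subgroup.mem_top g
        obtain ⟨x, hx, a, ha, rfl⟩ := Subgroup.mem_sup_of_normal_right.mp hg
        refine ⟨a, ha, ?_⟩
        have h1 : φ (x * a) = ⟨x, hx⟩ := by
          rw [map_mul, hφA a ha, mul_one]
          exact hφ1 ⟨x, hx⟩
        rw [h1]
      have hdeg : ∀ χ : IrrCharacter P, charDegree (χ : P → ℂ) ≤ p := by
        apply deg_le_of_surjective φ hφs
        intro χ
        rcases H1 χ with h | h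
        · exact h ▸ hp.one_lt.le
        · exact h.le
      have key : ∀ x y a b : G, x * y = y * x → a * b = b * a → a * y = y * a → x * b = b * x →
          x * a * (y * b) = y * b * (x * a) := by
        intro x y a b h1 h2 h3 h4
        calc x * a * (y * b) = x * (a * y) * b := by group
          _ = x * (y * a) * b := by rw [h3]
          _ = (x * y) * (a * b) := by group
          _ = (y * x) * (b * a) := by rw [h1, h2]
          _ = y * (x * b) * a := by group
          _ = y * (b * x) * a := by rw [h4]
          _ = y * b * (x * a) := by group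
      have hnab : ∃ a b : P, a * b ≠ b * a := by
        by_contra hcon
        push_neg at hcon
        obtain ⟨g, h, hgh⟩ := hG
        apply hgh
        obtain ⟨a, ha, hga⟩ := hdec g
        obtain ⟨b, hb, hhb⟩ := hdec h
        have h1 : (φ g : G) * (φ h : G) = (φ h : G) * (φ g : G) := congrArg Subtype.val (hcon _ _)
        have h2 := hcomm _ (φ g).2 _ hb
        have h3 := hcomm _ (φ h).2 _ ha
        have h4 := hAab a ha b hb
        rw [hga, hhb]
        exact key _ _ _ _ h1 h4 h3.symm h2
      rcases pgroup_degrees_le_prime (Nat.card P) P rfl hPp hdeg hnab with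
        ⟨A₁, hA₁, hab₁, hi₁⟩ | hZ
      · left
        refine ⟨A₁.comap φ, inferInstance, ?_, ?_⟩
        · intro g hg h hh
          obtain ⟨a, ha, hga⟩ := hdec g
          obtain ⟨b, hb, hhb⟩ := hdec h
          have h1 : (φ g : G) * (φ h : G) = (φ h : G) * (φ g : G) :=
            congrArg Subtype.val (hab₁ _ hg _ hh)
          have h2 := hcomm _ (φ g).2 _ hb
          have h3 := hcomm _ (φ h).2 _ ha
          have h4 := hAab a ha b hb
          rw [hga, hhb]
          exact key _ _ _ _ h1 h4 h3.symm h2
        · rw [Subgroup.index_comap_of_surjective A₁ hφs, hi₁]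
      · right
        have hZe : Subgroup.center G = (Subgroup.center P).comap φ := by
          ext g
          rw [Subgroup.mem_comap, Subgroup.mem_center_iff, Subgroup.mem_center_iff]
          constructor
          · intro hg y
            have h1 := congrArg φ (hg (y : G))
            rw [map_mul, map_mul, hφ1] at h1
            exact h1
          · intro hg h
            obtain ⟨a, ha, hga⟩ := hdec g
            obtain ⟨b, hb, hhb⟩ := hdec h
            have h1 : (φ g : G) * (φ h : G) = (φ h : G) * (φ g : G) :=
              (congrArg Subtype.val (hg (φ h))).symm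
            have h2 := hcomm _ (φ g).2 _ hb
            have h3 := hcomm _ (φ h).2 _ ha
            have h4 := hAab a ha b hb
            rw [hga, hhb]
            exact (key _ _ _ _ h1 h4 h3.symm h2).symm
        rw [hZe, Subgroup.index_comap_of_surjective _ hφs, hZ]
  · intro H
    have h1 : ∀ χ : IrrCharacter G, charDegree (χ : G → ℂ) = 1 ∨ charDegree (χ : G → ℂ) = p := by
      intro χ
      rcases H with ⟨A, hA, hab, hi⟩ | hZ
      · haveI := hA
        have := charDegree_dvd_index_of_abelian χ.2 A hab
        rw [hi] at this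
        exact (Nat.dvd_prime hp).mp this
      · have hd : charDegree (χ : G → ℂ) ∣ p ^ 3 := by
          rw [← hZ]
          obtain ⟨n, ρ, hρ, hχ⟩ := χ.2
          rw [← hχ, charDegree_natCast (Representation.char_one ρ)]
          exact finrank_dvd_index_center ρ hρ
        have hs := deg_sq_le_index_center χ
        rw [hZ] at hs
        obtain ⟨j, hj, hjd⟩ := (Nat.dvd_prime_pow hp).mp hd
        rw [hjd] at hs ⊢
        have hj2 : j < 2 := by
          by_contra hcon
          push_neg at hcon
          have h2 : p ^ 4 ≤ p ^ 3 := by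
            calc p ^ 4 ≤ p ^ (j * 2) := Nat.pow_le_pow_right hp.pos (by omega)
              _ = (p ^ j) ^ 2 := pow_mul p j 2
              _ ≤ p ^ 3 := hs
          have h3 := Nat.pow_lt_pow_right hp.one_lt (show 3 < 4 by norm_num)
          omega
        interval_cases j
        · left; simp
        · right; simp
    refine ⟨h1, ?_⟩
    by_contra hcon
    push_neg at hcon
    obtain ⟨g, h, hgh⟩ := hG
    apply hgh
    refine comm_iff_forall_irr_degree_one.mpr (fun χ => ?_) g h
    have h2 := (h1 χ).resolve_right (hcon χ)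
    rw [map_one_eq_charDegree (IsIrrCharacter.isCharacter χ.2), h2]
    simp

end Cfsg.Agent.S4459
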