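import Cfsg.Statements.S4460
import Cfsg.Agent.Lib.Deg3.Main

set_option autoImplicit false
open Cfsg

namespace Cfsg.Agent.S4460

/-- A finite group with exactly three distinct irreducible character degrees is solvable of derived length at most 3: its third derived subgroup is trivial. -/
theorem result {G : Type*} [Group G] [Finite G] (hcd : Nat.card {n : ℕ // ∃ χ : Cfsg.IrrCharacter G, Cfsg.charDegree (χ : G → ℂ) = n} = 3) : derivedSeries G 3 = ⊥ := by
  classical
  haveI := Fintype.ofFinite G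
  have hfin : Finite {n : ℕ // ∃ χ : Cfsg.IrrCharacter G, Cfsg.charDegree (χ : G → ℂ) = n} :=
    Nat.finite_of_card_ne_zero (by omega)
  have hset : Set.Finite {n : ℕ | ∃ χ : Cfsg.IrrCharacter G, Cfsg.charDegree (χ : G → ℂ) = n} := hfin
  set s : Finset ℕ := hset.toFinset with hs
  have hmem : ∀ n, n ∈ s ↔ ∃ χ : Cfsg.IrrCharacter G, Cfsg.charDegree (χ : G → ℂ) = n := by
    intro n
    rw [hs, Set.Finite.mem_toFinset]
    rfl
  have hcard : s.card = 3 := by
    rw [← hcd, hs]
    exact (Nat.card_eq_card_finite_toFinset hset).symm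
  have h1 : 1 ∈ s := by
    rw [hmem]
    refine ⟨⟨fun _ => 1, Cfsg.Agent.Lib.Char.isIrrCharacter_one⟩, ?_⟩
    exact Cfsg.Agent.Lib.Char.charDegree_natCast (n := 1) (by simp)
  obtain ⟨x, y, z, -, -, -, hxyz⟩ := Finset.card_eq_three.mp hcard
  have hall : ∀ χ : Cfsg.IrrCharacter G, Cfsg.charDegree (χ : G → ℂ) = x ∨
      Cfsg.charDegree (χ : G → ℂ) = y ∨ Cfsg.charDegree (χ : G → ℂ) = z := by
    intro χ
    have h2 : Cfsg.charDegree (χ : G → ℂ) ∈ s := (hmem _).mpr ⟨χ, rfl⟩
    rw [hxyz] at h2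
    simpa using h2
  rw [hxyz] at h1
  simp only [Finset.mem_insert, Finset.mem_singleton] at h1
  rcases h1 with rfl | rfl | rfl
  · exact Cfsg.Agent.Lib.Deg3.main_three _ G rfl y z hall
  · exact Cfsg.Agent.Lib.Deg3.main_three _ G rfl x z fun χ => by have := hall χ; tauto
  · exact Cfsg.Agent.Lib.Deg3.main_three _ G rfl x y fun χ => by have := hall χ; tauto

end Cfsg.Agent.S4460
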