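import Cfsg.Statements.S4462
import Cfsg.Agent.Lib.Coprime.KernelDegree
import Mathlib

set_option autoImplicit false
set_option linter.unusedVariables false
open Cfsg

namespace Cfsg.Agent.S4462

open Cfsg.Agent.Lib.Coprime Cfsg.Agent.Lib.Char Cfsg.Agent.Lib.Degree

universe u

/-- The set of degrees. -/
def cdSet (G : Type u) [Group G] : Set ℕ := {d : ℕ | ∃ χ : Cfsg.IrrCharacter G, Cfsg.charDegree (χ : G → ℂ) = d}

theorem cdSet_finite (G : Type u) [Group G] [Finite G] : (cdSet G).Finite := by
  haveI : Finite (Cfsg.IrrCharacter G) := by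
    classical
    haveI := Fintype.ofFinite G
    exact inferInstance
  exact Set.finite_range fun χ : Cfsg.IrrCharacter G => Cfsg.charDegree (χ : G → ℂ)

/-- A nilpotent series of length `k`. -/
def NilpLen (G : Type u) [Group G] (k : ℕ) : Prop :=
  ∃ N : ℕ → Subgroup G, N 0 = ⊥ ∧ N k = ⊤ ∧ Monotone N ∧ (∀ i, (N i).Normal) ∧
    ∀ i, ∃ d, (N (i + 1)).lowerCentralSeries d ≤ N i

theorem nilpLen_aux : ∀ (c : ℕ) (G : Type u) [Group G] [Finite G], Group.IsSolvable G →
    (cdSet G).ncard ≤ c → NilpLen G c := by
  classical
  intro c
  induction c with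
  | zero =>
    intro G _ _ _ h
    exfalso
    have h1 : (1 : ℕ) ∈ cdSet G := ⟨⟨fun _ => 1, isIrrCharacter_one⟩, by
      show Cfsg.charDegree (fun _ : G => (1 : ℂ)) = 1
      simp [Cfsg.charDegree]⟩
    have h2 := (Set.ncard_pos (cdSet_finite G)).mpr ⟨1, h1⟩
    omega
  | succ c ih =>
    intro G _ _ hsolv hcd
    by_cases hnil : Group.IsNilpotent G
    · -- nilpotent
      let N : ℕ → Subgroup G := fun i => if i = 0 then ⊥ else ⊤
      refine ⟨N, by simp [N], by simp [N], ?_, ?_, ?_⟩
      · apply monotone_nat_of_le_succ
        intro i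
        by_cases hi : i = 0 <;> simp [N, hi]
      · intro i
        by_cases hi : i = 0
        · simp only [N, hi, if_true]
          infer_instance
        · simp only [N, hi, if_false]
          infer_instance
      · intro i
        obtain ⟨d, hd⟩ := nilpotent_iff_lowerCentralSeries.mp hnil
        refine ⟨d, ?_⟩
        have h1 : N (i + 1) = ⊤ := by simp [N]
        rw [h1, hd]
        exact bot_le
    · -- not nilpotent
      set F := Cfsg.fittingSubgroup G with hF
      haveI hFn : F.Normal := inferInstance
      have hFtop : F ≠ ⊤ := by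
        intro h
        apply hnil
        have h1 := Cfsg.Agent.Lib.Core.isNilpotent_fittingSubgroup G
        rw [← hF, h] at h1
        exact Group.isNilpotent_top.mp h1
      let π : G →* G ⧸ F := QuotientGroup.mk' F
      have hπ : Function.Surjective π := QuotientGroup.mk'_surjective F
      have hπker : π.ker = F := QuotientGroup.ker_mk' F
      haveI hsolvq : Group.IsSolvable (G ⧸ F) := solvable_of_surjective hπ
      -- the degrees of the quotient
      have hsub : cdSet (G ⧸ F) ⊂ cdSet G := by
        haveI : Finite (Cfsg.IrrCharacter G) := by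
          haveI := Fintype.ofFinite G
          exact inferInstance
        haveI : Nonempty (Cfsg.IrrCharacter G) := ⟨⟨fun _ => 1, isIrrCharacter_one⟩⟩
        obtain ⟨χ₀, hχ₀⟩ := Finite.exists_max fun χ : Cfsg.IrrCharacter G =>
          Cfsg.charDegree (χ : G → ℂ)
        refine ⟨?_, ?_⟩
        · rintro _ ⟨χ, rfl⟩
          exact ⟨inflate F χ, charDegree_comp_monoidHom (QuotientGroup.mk' F) _⟩
        · intro hle
          obtain ⟨χ, hχ⟩ := hle ⟨χ₀, rfl⟩
          -- the inflation has maximal degree
          set χ' := inflate F χ with hχ'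
          have hd : Cfsg.charDegree (χ' : G → ℂ) = Cfsg.charDegree (χ₀ : G → ℂ) := by
            rw [← hχ]
            exact charDegree_comp_monoidHom (QuotientGroup.mk' F) _
          have hc := IsIrrCharacter.isCharacter χ'.2
          set K := kerOf (χ' : G → ℂ) with hK
          haveI hKn : K.Normal := kerOf_normal (IsCharacter.isClassFunction hc)
          have hKm : ∀ g, g ∈ K ↔ (χ' : G → ℂ) g = (χ' : G → ℂ) 1 := fun g => mem_kerOf_iff hc
          have hFK : F ≤ K := fun x hx => (hKm x).mpr (inflate_kerContains F χ x hx)
          obtain ⟨ψ, hψ, -⟩ := exists_larger_degree_smaller_kernel χ' K hKm (by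
            by_cases hle : K ≤ F
            · right
              have hKF : K = F := le_antisymm hle hFK
              refine ⟨hKF, ?_, ?_⟩
              · exact solvable_of_surjective (QuotientGroup.mk'_surjective K)
              · rw [hKF]
                exact hFtop
            · left
              exact hle)
          have := hχ₀ ψ
          omega
      have hlt := Set.ncard_lt_ncard hsub (cdSet_finite G)
      obtain ⟨N', h0, htop, hmono, hnorm, hstep⟩ := ih (G ⧸ F) hsolvq (by omega)
      let N : ℕ → Subgroup G := fun i => match i with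
        | 0 => ⊥
        | i + 1 => (N' i).comap π
      refine ⟨N, rfl, ?_, ?_, ?_, ?_⟩
      · show (N' c).comap π = ⊤
        rw [htop, Subgroup.comap_top]
      · apply monotone_nat_of_le_succ
        intro i
        cases i with
        | zero => exact bot_le
        | succ i => exact Subgroup.comap_mono (hmono (Nat.le_succ i))
      · intro i
        cases i with
        | zero =>
          show (⊥ : Subgroup G).Normal
          infer_instance
        | succ i =>
          exact (hnorm i).comap π
      · intro i
        cases i with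
        | zero =>
          have h1 : N 1 = F := by
            show (N' 0).comap π = F
            rw [h0, MonoidHom.comap_bot, hπker]
          obtain ⟨d, hd⟩ := (Subgroup.isNilpotent_iff_lowerCentralSeries F).mp
            (Cfsg.Agent.Lib.Core.isNilpotent_fittingSubgroup G)
          refine ⟨d, ?_⟩
          rw [h1, hd]
        | succ i =>
          obtain ⟨d, hd⟩ := hstep i
          refine ⟨d, ?_⟩
          show ((N' (i + 1)).comap π).lowerCentralSeries d ≤ (N' i).comap π
          rw [← Subgroup.map_le_iff_le_comap, Subgroup.map_lowerCentralSeries,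
            Subgroup.map_comap_eq_self_of_surjective hπ]
          exact hd

/-- Let G be a finite solvable group with exactly n distinct irreducible character degrees. Then G has normal subgroups 1 = N₀ ≤ N₁ ≤ ⋯ ≤ Nₙ = G with every quotient N_{i+1}/N_i nilpotent (the nilpotent length of G is at most n). -/
theorem result {G : Type*} [Group G] [Finite G] (hsolv : Group.IsSolvable G) (n : ℕ) (hcd : Nat.card {d : ℕ // ∃ χ : Cfsg.IrrCharacter G, Cfsg.charDegree (χ : G → ℂ) = d} = n) : ∃ N : Fin (n + 1) → Subgroup G, N 0 = ⊥ ∧ N (Fin.last n) = ⊤ ∧ Monotone N ∧ (∀ i, (N i).Normal) ∧ ∀ i : Fin n, ∀ h : (N i.castSucc).subgroupOf (N i.succ) |>.Normal, Group.IsNilpotent (↥(N i.succ) ⧸ (N i.castSucc).subgroupOf (N i.succ)) := by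
  have h1 : (cdSet G).ncard = n := by
    rw [← hcd]
    exact (Nat.card_coe_set_eq (cdSet G)).symm
  obtain ⟨N, h0, htop, hmono, hnorm, hstep⟩ := nilpLen_aux n G hsolv h1.le
  refine ⟨fun i => N i.val, h0, htop, ?_, fun i => hnorm _, ?_⟩
  · intro i j hij
    exact hmono hij
  · intro i h
    obtain ⟨d, hd⟩ := hstep i.val
    haveI := h
    exact isNilpotent_quot_of_lcs_le (N (i.val + 1)) (N i.val) hd

end Cfsg.Agent.S4462
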