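import Cfsg.Statements.S4474
import Cfsg.Agent.Lib.CharExtra.FS
import Cfsg.Agent.Lib.Char.Iso
import Mathlib

set_option autoImplicit false
open Cfsg

namespace Cfsg.Agent.S4474

open scoped ComplexConjugate Matrix ComplexOrder
open Cfsg.Agent.Lib.CharExtra Cfsg.Agent.Lib.Char Module

section RealForm

variable {G : Type*} [Group G] {n : ℕ} (ρ : Representation ℂ G (Fin n → ℂ))

/-- the conjugate matrix -/
noncomputable abbrev cm (A : Matrix (Fin n) (Fin n) ℂ) : Matrix (Fin n) (Fin n) ℂ :=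
  A.map (starRingEnd ℂ)

theorem star_mulVec' (A : Matrix (Fin n) (Fin n) ℂ) (u : Fin n → ℂ) :
    star (A *ᵥ u) = cm A *ᵥ star u := by
  ext i
  simp [Matrix.mulVec, dotProduct, map_sum]

theorem cm_mul (A B : Matrix (Fin n) (Fin n) ℂ) : cm (A * B) = cm A * cm B := by
  ext i j
  simp [Matrix.mul_apply, map_sum]

theorem cm_cm (A : Matrix (Fin n) (Fin n) ℂ) : cm (cm A) = A := by
  ext i j
  simp

variable {ρ}

/-- Real representations from a real structure. -/
theorem exists_real_rep_of_structure {A : Matrix (Fin n) (Fin n) ℂ} (hA : A * cm A = 1)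
    (hX : ∀ g, matOf ρ g * A = A * cm (matOf ρ g)) :
    ∃ (m : ℕ) (R : Representation ℝ G (Fin m → ℝ)),
      ∀ g : G, ((LinearMap.trace ℝ (Fin m → ℝ) (R g) : ℝ) : ℂ) = ρ.character g := by
  let J : (Fin n → ℂ) → (Fin n → ℂ) := fun v => A *ᵥ star v
  have hJJ : ∀ v, J (J v) = v := by
    intro v
    simp only [J]
    rw [star_mulVec', star_star, Matrix.mulVec_mulVec, hA, Matrix.one_mulVec]
  have hJadd : ∀ v w, J (v + w) = J v + J w := by
    intro v w
    simp only [J, star_add, Matrix.mulVec_add]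
  have hJsmul : ∀ (c : ℂ) v, J (c • v) = conj c • J v := by
    intro c v
    simp only [J]
    rw [star_smul, Matrix.mulVec_smul]
    rfl
  have hJX : ∀ g v, J (ρ g v) = ρ g (J v) := by
    intro g v
    simp only [J]
    rw [← matOf_mulVec, ← matOf_mulVec, star_mulVec', Matrix.mulVec_mulVec, Matrix.mulVec_mulVec, hX]
  let W : Submodule ℝ (Fin n → ℂ) :=
    { carrier := {v | J v = v}
      add_mem' := by
        intro a b ha hb
        simp only [Set.mem_setOf_eq] at *
        rw [hJadd, ha, hb]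
      zero_mem' := by
        simp [J]
      smul_mem' := by
        intro r v hv
        simp only [Set.mem_setOf_eq] at *
        have h1 : r • v = (r : ℂ) • v := by
          ext i; simp
        rw [h1, hJsmul, hv]
        simp }
  have hmemW : ∀ v, v ∈ W ↔ J v = v := fun v => Iff.rfl
  -- the representation on `W`
  have hWinv : ∀ g, ∀ v ∈ W, ρ g v ∈ W := by
    intro g v hv
    rw [hmemW, hJX, (hmemW _).1 hv]
  let σ : Representation ℝ G W :=
    { toFun := fun g => ((ρ g).restrictScalars ℝ).restrict (p := W) (q := W) (hWinv g)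
      map_one' := by
        ext v : 1
        apply Subtype.ext
        simp
      map_mul' := by
        intro a b
        ext v : 1
        apply Subtype.ext
        change ρ (a * b) (v : Fin n → ℂ) = ρ a (ρ b v)
        rw [map_mul]
        rfl }
  have hσ : ∀ g (v : W), ((σ g v : W) : Fin n → ℂ) = ρ g v := fun g v => rfl
  let m := finrank ℝ W
  let b : Basis (Fin m) ℝ W := Module.finBasis ℝ W
  -- the complex basis
  have hli : LinearIndependent ℂ (fun i : Fin m => ((b i : W) : Fin n → ℂ)) := by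
    rw [Fintype.linearIndependent_iff]
    intro c hc i
    have hb : ∀ a : Fin m → ℝ, ∑ j, (a j : ℂ) • ((b j : W) : Fin n → ℂ) = 0 → a = 0 := by
      intro a ha
      have h1 : ∑ j, a j • b j = 0 := by
        apply Subtype.ext
        rw [Submodule.coe_sum]
        simp only [Submodule.coe_smul, Submodule.coe_zero]
        rw [← ha]
        refine Finset.sum_congr rfl fun j _ => ?_
        ext k; simp
      have := (Fintype.linearIndependent_iff.1 b.linearIndependent) a h1
      exact funext this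
    have hJc : ∑ j, conj (c j) • ((b j : W) : Fin n → ℂ) = 0 := by
      have h1 : J (∑ j, c j • ((b j : W) : Fin n → ℂ)) = 0 := by
        rw [hc]; simp [J]
      have h2 : ∀ (s : Finset (Fin m)), J (∑ j ∈ s, c j • ((b j : W) : Fin n → ℂ)) =
          ∑ j ∈ s, conj (c j) • ((b j : W) : Fin n → ℂ) := by
        intro s
        induction s using Finset.induction_on with
        | empty => simp [J]
        | insert a s ha ih =>
          rw [Finset.sum_insert ha, Finset.sum_insert ha, hJadd, hJsmul, ih,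
            (hmemW _).1 (b a).2]
      rw [← h2, h1]
    have hre : (fun j => (c j).re) = 0 := by
      apply hb
      have : ∑ j, ((c j).re : ℂ) • ((b j : W) : Fin n → ℂ) =
          (1 / 2 : ℂ) • (∑ j, c j • ((b j : W) : Fin n → ℂ) + ∑ j, conj (c j) • ((b j : W) : Fin n → ℂ)) := by
        rw [← Finset.sum_add_distrib, Finset.smul_sum]
        refine Finset.sum_congr rfl fun j _ => ?_
        rw [← add_smul, smul_smul]
        congr 1
        rw [Complex.add_conj]
        simp
      rw [this, hc, hJc]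
      simp
    have him : (fun j => (c j).im) = 0 := by
      apply hb
      have : ∑ j, ((c j).im : ℂ) • ((b j : W) : Fin n → ℂ) =
          (1 / (2 * Complex.I) : ℂ) • (∑ j, c j • ((b j : W) : Fin n → ℂ) - ∑ j, conj (c j) • ((b j : W) : Fin n → ℂ)) := by
        rw [← Finset.sum_sub_distrib, Finset.smul_sum]
        refine Finset.sum_congr rfl fun j _ => ?_
        rw [← sub_smul, smul_smul]
        congr 1
        rw [Complex.sub_conj]
        field_simp
        push_cast
        ring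
      rw [this, hc, hJc]
      simp
    have hre' := congrFun hre i
    have him' := congrFun him i
    exact Complex.ext (by simpa using hre') (by simpa using him')
  have hsp : ⊤ ≤ Submodule.span ℂ (Set.range (fun i : Fin m => ((b i : W) : Fin n → ℂ))) := by
    have hW : ∀ w : W, (w : Fin n → ℂ) ∈ Submodule.span ℂ (Set.range (fun i : Fin m => ((b i : W) : Fin n → ℂ))) := by
      intro w
      rw [← b.sum_repr w, Submodule.coe_sum]
      refine Submodule.sum_mem _ fun j _ => ?_
      have h1 : ((b.repr w j • b j : W) : Fin n → ℂ) = ((b.repr w j : ℝ) : ℂ) • ((b j : W) : Fin n → ℂ) := by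
        ext k; simp
      rw [h1]
      exact Submodule.smul_mem _ _ (Submodule.subset_span ⟨j, rfl⟩)
    intro v _
    have hv1 : v + J v ∈ W := by
      rw [hmemW, hJadd, hJJ, add_comm]
    have hv2 : (Complex.I : ℂ) • (v - J v) ∈ W := by
      rw [hmemW]
      have h0 : v - J v = v + (-1 : ℂ) • J v := by simp [sub_eq_add_neg]
      rw [hJsmul, h0, hJadd, hJsmul, hJJ]
      simp only [map_neg, map_one, Complex.conj_I, neg_smul, one_smul, smul_add, smul_neg]
      ext i
      simp
      ring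
    have h3 : v = (1 / 2 : ℂ) • (v + J v) + (-(1 / 2) * Complex.I : ℂ) • ((Complex.I : ℂ) • (v - J v)) := by
      ext i
      simp only [Pi.add_apply, Pi.smul_apply, Pi.sub_apply, smul_eq_mul]
      have hI : Complex.I * Complex.I = -1 := Complex.I_mul_I
      linear_combination ((1 / 2) * (v i - J v i)) * hI
    rw [h3]
    exact Submodule.add_mem _ (Submodule.smul_mem _ _ (hW ⟨_, hv1⟩))
      (Submodule.smul_mem _ _ (hW ⟨_, hv2⟩))
  let B : Basis (Fin m) ℂ (Fin n → ℂ) := Basis.mk hli hsp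
  have hBcoe : ∀ i, B i = ((b i : W) : Fin n → ℂ) := fun i => by
    simp [B]
  have hBrepr : ∀ (w : W) (j : Fin m), B.repr (w : Fin n → ℂ) j = ((b.repr w j : ℝ) : ℂ) := by
    intro w j
    have h1 : (w : Fin n → ℂ) = ∑ i, ((b.repr w i : ℝ) : ℂ) • B i := by
      conv_lhs => rw [← b.sum_repr w, Submodule.coe_sum]
      refine Finset.sum_congr rfl fun i _ => ?_
      rw [hBcoe]
      ext k; simp
    rw [h1, map_sum]
    simp only [map_smul, Basis.repr_self, Finsupp.coe_finset_sum, Finset.sum_apply, Finsupp.smul_apply,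
      Finsupp.single_apply, smul_eq_mul, mul_ite, mul_one, mul_zero]
    simp
  -- the real representation on coordinates
  let e : W ≃ₗ[ℝ] (Fin m → ℝ) := b.equivFun
  let R : Representation ℝ G (Fin m → ℝ) :=
    (e.conjAlgEquiv ℝ).toAlgHom.toMonoidHom.comp σ
  refine ⟨m, R, fun g => ?_⟩
  have h1 : LinearMap.trace ℝ (Fin m → ℝ) (R g) = LinearMap.trace ℝ W (σ g) := by
    exact LinearMap.trace_conj' (σ g) e
  rw [h1, LinearMap.trace_eq_matrix_trace ℝ b, Representation.character,
    LinearMap.trace_eq_matrix_trace ℂ B, Matrix.trace, Matrix.trace]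
  push_cast
  refine Finset.sum_congr rfl fun i _ => ?_
  simp only [Matrix.diag_apply, LinearMap.toMatrix_apply]
  rw [hBcoe, ← hσ, hBrepr]

end RealForm

section Main

variable {G : Type*} [Group G] [Fintype G] {n : ℕ} (ρ : Representation ℂ G (Fin n → ℂ))

/-- A symmetric invariant form yields a real structure. -/
theorem exists_structure (hρ : ρ.IsIrreducible) {M₀ : Matrix (Fin n) (Fin n) ℂ}
    (hne : M₀ ≠ 0) (hinv : IsInvForm ρ M₀) (hsym : M₀ᵀ = M₀) :
    ∃ A : Matrix (Fin n) (Fin n) ℂ, A * cm A = 1 ∧ ∀ g, matOf ρ g * A = A * cm (matOf ρ g) := by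
  classical
  -- the invariant Hermitian form
  let H : Matrix (Fin n) (Fin n) ℂ := ∑ g : G, (matOf ρ g)ᴴ * matOf ρ g
  have hHpos : H.PosDef := by
    have h1 : H = 1 + ∑ g ∈ Finset.univ.erase (1 : G), (matOf ρ g)ᴴ * matOf ρ g := by
      simp only [H]
      rw [← Finset.add_sum_erase _ _ (Finset.mem_univ (1 : G)), matOf_one]
      simp
    rw [h1]
    refine Matrix.PosDef.add_posSemidef Matrix.PosDef.one ?_
    exact Matrix.posSemidef_sum _ fun g _ => Matrix.posSemidef_conjTranspose_mul_self _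
  have hHinv : ∀ h : G, (matOf ρ h)ᴴ * H * matOf ρ h = H := by
    intro h
    simp only [H]
    calc (matOf ρ h)ᴴ * (∑ g : G, (matOf ρ g)ᴴ * matOf ρ g) * matOf ρ h
        = ∑ g : G, (matOf ρ h)ᴴ * ((matOf ρ g)ᴴ * matOf ρ g) * matOf ρ h := by
          rw [Finset.mul_sum, Finset.sum_mul]
      _ = ∑ g : G, (matOf ρ (g * h))ᴴ * matOf ρ (g * h) := by
          refine Finset.sum_congr rfl fun g _ => ?_
          simp only [matOf_mul, Matrix.conjTranspose_mul, Matrix.mul_assoc]
      _ = ∑ g : G, (matOf ρ g)ᴴ * matOf ρ g :=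
          Equiv.sum_comp (Equiv.mulRight h) (fun g => (matOf ρ g)ᴴ * matOf ρ g)
  have hHmul : ∀ g : G, H * matOf ρ g = (matOf ρ g⁻¹)ᴴ * H := by
    intro g
    have h1 := hHinv g⁻¹
    have h2 : matOf ρ g⁻¹ * matOf ρ g = 1 := by rw [← matOf_mul, inv_mul_cancel, matOf_one]
    calc H * matOf ρ g = ((matOf ρ g⁻¹)ᴴ * H * matOf ρ g⁻¹) * matOf ρ g := by rw [h1]
      _ = (matOf ρ g⁻¹)ᴴ * H * (matOf ρ g⁻¹ * matOf ρ g) := by simp only [Matrix.mul_assoc]
      _ = _ := by rw [h2, Matrix.mul_one]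
  have hHunit : IsUnit H.det := (Matrix.isUnit_iff_isUnit_det H).1 hHpos.isUnit
  have hH1 : H⁻¹ * H = 1 := Matrix.nonsing_inv_mul _ hHunit
  have hH2 : H * H⁻¹ = 1 := Matrix.mul_nonsing_inv _ hHunit
  -- the structure matrix before rescaling
  obtain ⟨A₀, hA₀def⟩ : ∃ A₀ : Matrix (Fin n) (Fin n) ℂ, A₀ = H⁻¹ * cm M₀ := ⟨_, rfl⟩
  have hcmT : ∀ Y : Matrix (Fin n) (Fin n) ℂ, cm Yᵀ = Yᴴ := by
    intro Y
    ext i j
    simp [Matrix.conjTranspose_apply]
  have hA₀ : ∀ g, matOf ρ g * A₀ = A₀ * cm (matOf ρ g) := by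
    intro g
    have h1 : cm M₀ * cm (matOf ρ g) = (matOf ρ g⁻¹)ᴴ * cm M₀ := by
      rw [← cm_mul, hinv.mul_matOf, cm_mul, hcmT]
    have h2 : H⁻¹ * (matOf ρ g⁻¹)ᴴ = matOf ρ g * H⁻¹ := by
      calc H⁻¹ * (matOf ρ g⁻¹)ᴴ = H⁻¹ * ((matOf ρ g⁻¹)ᴴ * H) * H⁻¹ := by
            simp only [Matrix.mul_assoc, hH2, Matrix.mul_one]
        _ = H⁻¹ * (H * matOf ρ g) * H⁻¹ := by rw [hHmul]
        _ = _ := by rw [← Matrix.mul_assoc, hH1, Matrix.one_mul]
    rw [hA₀def]
    calc matOf ρ g * (H⁻¹ * cm M₀) = (matOf ρ g * H⁻¹) * cm M₀ := by rw [Matrix.mul_assoc]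
      _ = (H⁻¹ * (matOf ρ g⁻¹)ᴴ) * cm M₀ := by rw [h2]
      _ = H⁻¹ * ((matOf ρ g⁻¹)ᴴ * cm M₀) := by rw [Matrix.mul_assoc]
      _ = H⁻¹ * (cm M₀ * cm (matOf ρ g)) := by rw [h1]
      _ = _ := by rw [Matrix.mul_assoc]
  have hcomm : ∀ g, matOf ρ g * (A₀ * cm A₀) = (A₀ * cm A₀) * matOf ρ g := by
    intro g
    have h1 : cm (matOf ρ g) * cm A₀ = cm A₀ * matOf ρ g := by
      have h2 := congrArg cm (hA₀ g)
      rw [cm_mul, cm_mul, cm_cm] at h2
      exact h2
    calc matOf ρ g * (A₀ * cm A₀) = (matOf ρ g * A₀) * cm A₀ := by rw [Matrix.mul_assoc]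
      _ = (A₀ * cm (matOf ρ g)) * cm A₀ := by rw [hA₀]
      _ = A₀ * (cm (matOf ρ g) * cm A₀) := by rw [Matrix.mul_assoc]
      _ = A₀ * (cm A₀ * matOf ρ g) := by rw [h1]
      _ = _ := by rw [Matrix.mul_assoc]
  obtain ⟨c, hc⟩ := schur_scalar ρ hρ (Matrix.toLin' (A₀ * cm A₀)) (by
    intro g v
    rw [Matrix.toLin'_apply, Matrix.toLin'_apply, ← matOf_mulVec, ← matOf_mulVec,
      Matrix.mulVec_mulVec, Matrix.mulVec_mulVec, hcomm])
  have hC : A₀ * cm A₀ = c • 1 := by
    have h2 := congrArg LinearMap.toMatrix' hc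
    rw [LinearMap.toMatrix'_toLin'] at h2
    rw [h2, map_smul]
    congr 1
    exact LinearMap.toMatrix'_id
  -- positivity
  have hcmHerm : ∀ Y : Matrix (Fin n) (Fin n) ℂ, Yᴴ = Y → cm Y = Yᵀ := by
    intro Y hY
    have h1 := hcmT Y
    rw [hY] at h1
    have h2 := congrArg cm h1
    rw [cm_cm] at h2
    exact h2.symm
  have hBpos : (cm H⁻¹).PosDef := by
    have h1 : H⁻¹.PosDef := hHpos.inv
    rw [hcmHerm _ h1.1]
    exact h1.transpose
  have hM₀cm : cm M₀ = M₀ᴴ := by
    rw [← hcmT, hsym]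
  have hu := isUnit_of_isInvForm ρ hρ hinv hne
  have hinj : Function.Injective M₀.mulVec := Matrix.mulVec_injective_iff_isUnit.2 hu
  have hR : (M₀ᴴ * cm H⁻¹ * M₀).PosDef := hBpos.conjTranspose_mul_mul_same hinj
  have hHC : c • H = M₀ᴴ * cm H⁻¹ * M₀ := by
    have h1 : H * (A₀ * cm A₀) = M₀ᴴ * cm H⁻¹ * M₀ := by
      rw [hA₀def, cm_mul, cm_cm, hM₀cm]
      calc H * (H⁻¹ * M₀ᴴ * (cm H⁻¹ * M₀)) = (H * H⁻¹) * M₀ᴴ * (cm H⁻¹ * M₀) := by
            simp only [Matrix.mul_assoc]
        _ = _ := by rw [hH2, Matrix.one_mul, Matrix.mul_assoc]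
    rw [← h1, hC]
    simp
  obtain ⟨-, -⟩ := (isIrreducible_iff ρ).1 hρ
  haveI hV : Nontrivial (Fin n → ℂ) := ((isIrreducible_iff ρ).1 hρ).1
  obtain ⟨v, hv⟩ := exists_ne (0 : Fin n → ℂ)
  have ha := hHpos.dotProduct_mulVec_pos hv
  have hb := hR.dotProduct_mulVec_pos hv
  rw [← hHC, Matrix.smul_mulVec, dotProduct_smul, smul_eq_mul] at hb
  set a := star v ⬝ᵥ H *ᵥ v with hadef
  have ha' : 0 < a.re ∧ a.im = 0 := by
    have := Complex.lt_def.1 ha
    simpa using ⟨this.1, this.2.symm⟩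
  have hb' := Complex.lt_def.1 hb
  simp only [Complex.zero_re, Complex.zero_im, Complex.mul_re, Complex.mul_im, ha'.2, mul_zero,
    sub_zero, add_zero] at hb'
  have hcim : c.im = 0 := by
    have h1 : c.im * a.re = 0 := by linarith [hb'.2]
    exact (mul_eq_zero.1 h1).resolve_right ha'.1.ne'
  have hcre : 0 < c.re := (pos_iff_pos_of_mul_pos hb'.1).2 ha'.1
  have hcC : c = (c.re : ℂ) := Complex.ext (by simp) (by simp [hcim])
  -- rescale
  set r : ℝ := Real.sqrt c.re with hr
  have hrpos : 0 < r := Real.sqrt_pos.2 hcre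
  have hrsq : r * r = c.re := Real.mul_self_sqrt hcre.le
  have hcmsmul : ∀ (t : ℝ) (Y : Matrix (Fin n) (Fin n) ℂ), cm ((t : ℂ) • Y) = (t : ℂ) • cm Y := by
    intro t Y
    ext i j
    simp
  refine ⟨((r⁻¹ : ℝ) : ℂ) • A₀, ?_, fun g => ?_⟩
  · rw [hcmsmul, Matrix.smul_mul, Matrix.mul_smul, hC, smul_smul, smul_smul]
    have h1 : ((r⁻¹ : ℝ) : ℂ) * ((r⁻¹ : ℝ) : ℂ) * c = 1 := by
      rw [hcC, ← hrsq]
      push_cast
      have : (r : ℂ) ≠ 0 := by exact_mod_cast hrpos.ne'
      field_simp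
    rw [h1, one_smul]
  · rw [Matrix.mul_smul, hA₀, Matrix.smul_mul]

end Main

/-- Let χ be an irreducible character of the finite group G. Then the Frobenius–Schur indicator of χ (the average over s ∈ G of χ(s²)) equals 1 if and only if χ is afforded by a real representation: there is a representation of G on a real coordinate space whose trace function, viewed in ℂ, is χ. -/
theorem result {G : Type*} [Group G] [Fintype G] (χ : Cfsg.IrrCharacter G) : ((Nat.card G : ℂ)⁻¹ * ∑ s : G, (χ : G → ℂ) (s * s)) = 1 ↔ ∃ (n : ℕ) (ρ : Representation ℝ G (Fin n → ℝ)), ∀ g : G, ((LinearMap.trace ℝ (Fin n → ℝ) (ρ g) : ℝ) : ℂ) = (χ : G → ℂ) g := by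
  constructor
  · intro hν
    obtain ⟨χ, n, ρ, hρ, rfl⟩ := χ
    have hreal : ∀ g : G, (ρ.character g).im = 0 := by
      by_contra hr
      have h1 := sum_fs_eq_zero_of_not_real ρ hρ hr
      rw [h1, mul_zero] at hν
      exact zero_ne_one hν
    obtain ⟨⟨M, hne, hM⟩, hall⟩ := fs_form ρ hρ hreal
    have hsym : Mᵀ = M := by
      have h1 := hall M hM
      rw [hν, one_smul] at h1
      exact h1
    obtain ⟨A, hA, hX⟩ := exists_structure ρ hρ hne hM hsym
    exact exists_real_rep_of_structure hA hX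
  · rintro ⟨m, R, hR⟩
    obtain ⟨χ, n, ρ, hρ, rfl⟩ := χ
    have hR' : ∀ g : G, ((LinearMap.trace ℝ (Fin m → ℝ) (R g) : ℝ) : ℂ) = ρ.character g := hR
    let Rm : G → Matrix (Fin m) (Fin m) ℝ := fun g => LinearMap.toMatrix' (R g)
    have hRm1 : Rm 1 = 1 := by
      simp only [Rm, map_one]
      exact LinearMap.toMatrix'_id
    have hRmmul : ∀ a b, Rm (a * b) = Rm a * Rm b := by
      intro a b
      simp only [Rm, map_mul]
      rw [Module.End.mul_eq_comp, LinearMap.toMatrix'_comp]
    have hRmtr : ∀ g, (Rm g).trace = LinearMap.trace ℝ (Fin m → ℝ) (R g) := by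
      intro g
      rw [LinearMap.trace_eq_matrix_trace ℝ (Pi.basisFun ℝ (Fin m))]
      rw [LinearMap.toMatrix_eq_toMatrix']
    let Ym : G → Matrix (Fin m) (Fin m) ℂ := fun g => (Rm g).map Complex.ofRealHom
    let Y : Representation ℂ G (Fin m → ℂ) :=
      { toFun := fun g => Matrix.toLin' (Ym g)
        map_one' := by
          simp only [Ym, hRm1]
          rw [Matrix.map_one _ (by simp) (by simp)]
          exact Matrix.toLin'_one
        map_mul' := by
          intro a b
          simp only [Ym, hRmmul]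
          rw [Matrix.map_mul, Matrix.toLin'_mul]
          rfl }
    have hmatY : ∀ g, matOf Y g = Ym g := by
      intro g
      exact LinearMap.toMatrix'_toLin' _
    have hcharY : Y.character = ρ.character := by
      funext g
      rw [← trace_matOf, hmatY, ← hR' g, ← hRmtr]
      simp only [Ym, Matrix.trace, Matrix.diag_apply, Matrix.map_apply]
      push_cast
      rfl
    obtain ⟨φ⟩ := nonempty_equiv_of_character_eq _ _ _ ρ Y rfl hcharY.symm
    have hY : Y.IsIrreducible := isIrreducible_of_equiv φ hρ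
    have hrealY : ∀ g, (Y.character g).im = 0 := by
      intro g
      rw [hcharY, ← hR' g]
      simp
    obtain ⟨-, hall⟩ := fs_form Y hY hrealY
    set M := avgForm Y (1 : Matrix (Fin m) (Fin m) ℂ) with hM
    have hMinv : IsInvForm Y M := avgForm_isInvForm Y 1
    have hMsym : Mᵀ = M := by
      rw [hM]
      simp only [avgForm, Matrix.transpose_sum, Matrix.transpose_mul, Matrix.transpose_one,
        Matrix.transpose_transpose, Matrix.mul_one, Matrix.mul_assoc, Matrix.one_mul]
    have hMne : M ≠ 0 := by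
      haveI hV : Nontrivial (Fin m → ℂ) := nontrivial_of_irr hY
      have hm : Nonempty (Fin m) := by
        by_contra h0
        rw [not_nonempty_iff] at h0
        exact not_subsingleton (Fin m → ℂ) inferInstance
      obtain ⟨i₀⟩ := hm
      intro h0
      have h1 := congrFun (congrFun h0 i₀) i₀
      rw [hM] at h1
      simp only [avgForm, Matrix.sum_apply, hmatY, Matrix.mul_one, Matrix.zero_apply] at h1
      have h2 : ∀ g : G, ((Ym g)ᵀ * Ym g) i₀ i₀ = ((∑ j, Rm g j i₀ * Rm g j i₀ : ℝ) : ℂ) := by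
        intro g
        rw [Matrix.mul_apply]
        push_cast
        refine Finset.sum_congr rfl fun j _ => ?_
        simp [Ym]
      simp only [h2] at h1
      have h3 : ∑ g : G, ∑ j, Rm g j i₀ * Rm g j i₀ = 0 := by exact_mod_cast h1
      have hterm : ∀ g : G, 0 ≤ ∑ j, Rm g j i₀ * Rm g j i₀ := fun g =>
        Finset.sum_nonneg fun j _ => mul_self_nonneg _
      have h4 := (Finset.sum_eq_zero_iff_of_nonneg (fun g _ => hterm g)).1 h3 1 (Finset.mem_univ _)
      have h5 := (Finset.sum_eq_zero_iff_of_nonneg (fun j _ => mul_self_nonneg _)).1 h4 i₀ (Finset.mem_univ _)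
      rw [hRm1] at h5
      simp at h5
    have h1 := hall M hMinv
    rw [hMsym] at h1
    have h2 : (1 - (Nat.card G : ℂ)⁻¹ * ∑ s : G, Y.character (s * s)) • M = 0 := by
      rw [sub_smul, one_smul, ← h1, sub_self]
    have h3 := (smul_eq_zero.1 h2).resolve_right hMne
    rw [hcharY] at h3
    exact (sub_eq_zero.1 h3).symm

end Cfsg.Agent.S4474
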