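import Cfsg.Statements.S4476
import Cfsg.Agent.Lib.CharExtra.FS
import Cfsg.Agent.Lib.Char.Burnside
import Mathlib

set_option autoImplicit false
open Cfsg

namespace Cfsg.Agent.S4476

open scoped ComplexConjugate
open Cfsg.Agent.Lib.CharExtra Cfsg.Agent.Lib.Char

section
variable {G : Type*} [Group G] [Fintype G]

theorem card_sqrt_one [DecidableEq G] (t : ℕ) (ht : Nat.card {x : G // orderOf x = 2} = t) :
    (Finset.univ.filter fun s : G => s * s = 1).card = t + 1 := by
  have h1 : (Finset.univ.filter fun s : G => s * s = 1) =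
      insert 1 (Finset.univ.filter fun s : G => orderOf s = 2) := by
    ext s
    simp only [Finset.mem_filter, Finset.mem_univ, true_and, Finset.mem_insert]
    constructor
    · intro h
      by_cases hs : s = 1
      · exact Or.inl hs
      · right
        haveI : Fact (Nat.Prime 2) := ⟨Nat.prime_two⟩
        exact orderOf_eq_prime (by rw [sq, h]) hs
    · rintro (rfl | h)
      · simp
      · have := pow_orderOf_eq_one s
        rwa [h, sq] at this
  rw [h1, Finset.card_insert_of_notMem (by simp), ← ht]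
  congr 1
  rw [Nat.card_eq_fintype_card, Fintype.card_subtype]

/-- the double count -/
theorem double_count [DecidableEq G] (t c : ℕ)
    (ht : (Finset.univ.filter fun s : G => s * s = 1).card = t + 1)
    (hc : ∀ y : G, y ≠ 1 → Nat.card (Subgroup.centralizer ({y} : Set G)) ≤ c) :
    (t + 1) * t ≤ c * (Nat.card G - 1) := by
  classical
  set T := (Finset.univ.filter fun s : G => s * s = 1) with hT
  have hmem : ∀ s, s ∈ T ↔ s * s = 1 := by
    intro s; simp [hT]
  have hcard : T.offDiag.card = (t + 1) * t := by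
    rw [Finset.offDiag_card, ht]
    have : (t + 1) * (t + 1) = (t + 1) * t + (t + 1) := by ring
    omega
  rw [← hcard]
  have hmap : ∀ p ∈ T.offDiag, (fun p : G × G => p.1 * p.2) p ∈ (Finset.univ.erase (1 : G)) := by
    intro p hp
    rw [Finset.mem_offDiag] at hp
    rw [Finset.mem_erase]
    refine ⟨?_, Finset.mem_univ _⟩
    intro h1
    have h1 : p.1 * p.2 = 1 := h1
    apply hp.2.2
    have h2 := (hmem p.1).1 hp.1
    have h3 : p.1 = p.1 * (p.1 * p.2) := by rw [h1, mul_one]
    rw [← mul_assoc, h2, one_mul] at h3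
    exact h3
  have hfib : ∀ y ∈ (Finset.univ.erase (1 : G)),
      (T.offDiag.filter fun p : G × G => p.1 * p.2 = y).card ≤ c := by
    intro y hy
    have hy1 : y ≠ 1 := (Finset.mem_erase.1 hy).1
    refine le_trans ?_ (hc y hy1)
    set F := T.offDiag.filter fun p : G × G => p.1 * p.2 = y with hF
    rcases F.eq_empty_or_nonempty with h0 | ⟨p₀, hp₀⟩
    · rw [h0]; simp
    have hinv : ∀ p ∈ F, p.1 * y * p.1 = y⁻¹ := by
      intro p hp
      rw [hF, Finset.mem_filter, Finset.mem_offDiag] at hp
      have h1 := (hmem p.1).1 hp.1.1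
      have h2 := (hmem p.2).1 hp.1.2.1
      rw [← hp.2, mul_inv_rev]
      have h3 : p.1⁻¹ = p.1 := inv_eq_of_mul_eq_one_left h1
      have h4 : p.2⁻¹ = p.2 := inv_eq_of_mul_eq_one_left h2
      rw [h3, h4, ← mul_assoc, h1, one_mul]
    let C := Subgroup.centralizer ({y} : Set G)
    have hle : F.card ≤ (Finset.univ.filter fun z : G => z ∈ C).card := by
      refine Finset.card_le_card_of_injOn (fun p => p₀.1 * p.1) ?_ ?_
      · intro p hp
        simp only [Finset.coe_filter, Finset.mem_univ, true_and, Set.mem_setOf_eq]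
        rw [Subgroup.mem_centralizer_singleton_iff]
        have hp' := hinv p hp
        have hq' := hinv p₀ hp₀
        have hp1 : p.1 * p.1 = 1 := by
          have hp2 := hp
          rw [Finset.mem_coe, hF, Finset.mem_filter, Finset.mem_offDiag] at hp2
          exact (hmem p.1).1 hp2.1.1
        have hq1 : p₀.1 * p₀.1 = 1 := by
          have hp2 := hp₀
          rw [hF, Finset.mem_filter, Finset.mem_offDiag] at hp2
          exact (hmem p₀.1).1 hp2.1.1
        have h5 : p.1 * y = y⁻¹ * p.1 := by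
          calc p.1 * y = (p.1 * y * p.1) * p.1 := by
                rw [mul_assoc, mul_assoc, hp1, mul_one]
            _ = y⁻¹ * p.1 := by rw [hp']
        have h6 : p₀.1 * y⁻¹ = y * p₀.1 := by
          calc p₀.1 * y⁻¹ = p₀.1 * (p₀.1 * y * p₀.1) := by rw [hq']
            _ = (p₀.1 * p₀.1) * y * p₀.1 := by group
            _ = y * p₀.1 := by rw [hq1, one_mul]
        calc p₀.1 * p.1 * y = p₀.1 * (p.1 * y) := by rw [mul_assoc]
          _ = p₀.1 * (y⁻¹ * p.1) := by rw [h5]
          _ = (p₀.1 * y⁻¹) * p.1 := by rw [mul_assoc]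
          _ = (y * p₀.1) * p.1 := by rw [h6]
          _ = y * (p₀.1 * p.1) := by rw [mul_assoc]
      · intro p hp q hq hpq
        have h1 : p.1 = q.1 := mul_left_cancel hpq
        have hp2 := hp
        have hq2 := hq
        rw [Finset.mem_coe, hF, Finset.mem_filter] at hp2 hq2
        have h2 : p.1 * p.2 = q.1 * q.2 := by rw [hp2.2, hq2.2]
        rw [h1] at h2
        exact Prod.ext h1 (mul_left_cancel h2)
    calc F.card ≤ _ := hle
      _ = Nat.card C := by
          rw [Nat.card_eq_fintype_card, Fintype.card_subtype]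
  have := Finset.card_le_mul_card_image_of_maps_to hmap c hfib
  rwa [Finset.card_erase_of_mem (Finset.mem_univ _), Finset.card_univ,
    ← Nat.card_eq_fintype_card] at this

end

/-- Let G be a finite group of even order g with exactly t involutions, and put α = (g − 1)/t (a rational number). Then (a) some non-identity element x of G has at most α² conjugates; and (b) some non-principal real-valued irreducible character of G has degree at most α. -/
theorem result {G : Type*} [Group G] [Fintype G] (heven : Even (Nat.card G)) (t : ℕ) (ht : Nat.card {x : G // orderOf x = 2} = t) : (∃ x : G, x ≠ 1 ∧ ((Subgroup.centralizer ({x} : Set G)).index : ℚ) ≤ (((Nat.card G : ℚ) - 1) / t) ^ 2) ∧ ∃ χ : Cfsg.IrrCharacter G, (χ : G → ℂ) ≠ (fun _ => 1) ∧ (∀ g : G, ((χ : G → ℂ) g).im = 0) ∧ (Cfsg.charDegree (χ : G → ℂ) : ℚ) ≤ ((Nat.card G : ℚ) - 1) / t := by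
  classical
  haveI : Fact (Nat.Prime 2) := ⟨Nat.prime_two⟩
  have hcardG : 2 ≤ Nat.card G := by
    have h1 : 2 ∣ Nat.card G := heven.two_dvd
    exact Nat.le_of_dvd Nat.card_pos h1
  have ht1 : 1 ≤ t := by
    obtain ⟨x, hx⟩ := exists_prime_orderOf_dvd_card' 2 (heven.two_dvd)
    rw [← ht]
    have : Nonempty {x : G // orderOf x = 2} := ⟨⟨x, hx⟩⟩
    exact Nat.card_pos
  have hT := card_sqrt_one (G := G) t ht
  have htg : t + 1 ≤ Nat.card G := by
    rw [← hT, Nat.card_eq_fintype_card]
    exact Finset.card_le_univ _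
  have htQ : (0 : ℚ) < t := by exact_mod_cast ht1
  constructor
  · -- part (a)
    have hne : (Finset.univ.erase (1 : G)).Nonempty := by
      obtain ⟨x, hx⟩ := exists_prime_orderOf_dvd_card' 2 (heven.two_dvd)
      refine ⟨x, Finset.mem_erase.2 ⟨?_, Finset.mem_univ _⟩⟩
      intro h
      rw [h, orderOf_one] at hx
      omega
    obtain ⟨x, hx, hmax⟩ := Finset.exists_max_image (Finset.univ.erase (1 : G))
      (fun y => Nat.card (Subgroup.centralizer ({y} : Set G))) hne
    have hx1 : x ≠ 1 := (Finset.mem_erase.1 hx).1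
    refine ⟨x, hx1, ?_⟩
    set c := Nat.card (Subgroup.centralizer ({x} : Set G)) with hcdef
    have hdc := double_count (G := G) t c hT (fun y hy => hmax y (Finset.mem_erase.2 ⟨hy, Finset.mem_univ _⟩))
    have hidx : (Subgroup.centralizer ({x} : Set G)).index * c = Nat.card G :=
      Subgroup.index_mul_card _
    have hcpos : (0 : ℚ) < c := by
      have : 0 < c := Nat.card_pos
      exact_mod_cast this
    have hdcQ : ((t : ℚ) + 1) * t ≤ c * ((Nat.card G : ℚ) - 1) := by
      have h1 : ((((t + 1) * t : ℕ)) : ℚ) ≤ ((c * (Nat.card G - 1) : ℕ) : ℚ) := by exact_mod_cast hdc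
      push_cast [Nat.cast_sub (show 1 ≤ Nat.card G by omega)] at h1
      exact h1
    have hidxQ : ((Subgroup.centralizer ({x} : Set G)).index : ℚ) * c = Nat.card G := by
      exact_mod_cast hidx
    have htgQ : (t : ℚ) + 1 ≤ Nat.card G := by exact_mod_cast htg
    rw [div_pow, le_div_iff₀ (by positivity)]
    apply le_of_mul_le_mul_right _ hcpos
    set g : ℚ := (Nat.card G : ℚ) with hg
    set I : ℚ := ((Subgroup.centralizer ({x} : Set G)).index : ℚ) with hI
    have h1 : I * (t : ℚ) ^ 2 * c = g * (t : ℚ) ^ 2 := by rw [← hidxQ]; ring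
    rw [h1]
    have hg1 : 0 ≤ g - 1 := by linarith
    have h2 : ((t : ℚ) + 1) * t * (g - 1) ≤ c * (g - 1) * (g - 1) :=
      mul_le_mul_of_nonneg_right hdcQ hg1
    have h3 : g * (t : ℚ) ^ 2 ≤ ((t : ℚ) + 1) * t * (g - 1) := by
      nlinarith
    nlinarith
  · -- part (b)
    let one : IrrCharacter G := ⟨fun _ => 1, by
      have := isIrrCharacter_of_hom (1 : G →* ℂˣ)
      simpa using this⟩
    let d : IrrCharacter G → ℕ := fun χ => Cfsg.charDegree (χ : G → ℂ)
    have hd : ∀ χ : IrrCharacter G, (χ : G → ℂ) 1 = (d χ : ℂ) := fun χ =>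
      map_one_eq_charDegree (IsIrrCharacter.isCharacter χ.2)
    have hone : d one = 1 := by
      have h1 := hd one
      have h2 : ((d one : ℕ) : ℂ) = 1 := h1.symm
      exact_mod_cast h2
    have hν1 : fsInd (one : G → ℂ) = 1 := by
      unfold fsInd
      have hcard : (Nat.card G : ℂ) ≠ 0 := by exact_mod_cast Nat.card_pos.ne'
      change (Nat.card G : ℂ)⁻¹ * ∑ s : G, (1 : ℂ) = 1
      rw [Finset.sum_const, Finset.card_univ, nsmul_eq_mul, mul_one, ← Nat.card_eq_fintype_card]
      exact inv_mul_cancel₀ hcard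
    have hsum := sum_fsInd_mul (G := G) (1 : G)
    rw [hT] at hsum
    let R : Finset (IrrCharacter G) :=
      (Finset.univ.erase one).filter fun χ => ∀ g : G, ((χ : G → ℂ) g).im = 0
    have hsum2 : (t : ℝ) ≤ ((∑ χ ∈ R, d χ : ℕ) : ℝ) := by
      have h1 := congrArg Complex.re hsum
      rw [Complex.re_sum, ← Finset.add_sum_erase _ _ (Finset.mem_univ one)] at h1
      have h2 : (fsInd (one : G → ℂ) * (one : G → ℂ) 1).re = 1 := by
        rw [hν1]
        change ((1 : ℂ) * 1).re = 1
        simp
      rw [h2] at h1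
      have h3 : (((t + 1 : ℕ) : ℂ)).re = (t : ℝ) + 1 := by
        push_cast
        simp
      rw [h3] at h1
      have h4 : (t : ℝ) = ∑ χ ∈ Finset.univ.erase one, (fsInd (χ : G → ℂ) * (χ : G → ℂ) 1).re := by
        linarith
      rw [h4]
      push_cast
      rw [Finset.sum_filter]
      refine Finset.sum_le_sum fun χ _ => ?_
      rw [hd χ]
      by_cases hr : ∀ g : G, ((χ : G → ℂ) g).im = 0
      · rw [if_pos hr]
        rcases fsInd_of_real χ hr with h | h <;> rw [h] <;> simp
      · rw [if_neg hr, fsInd_of_not_real χ hr]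
        simp
    have hsum3 : t ≤ ∑ χ ∈ R, d χ := by exact_mod_cast hsum2
    have hRne : R.Nonempty := by
      by_contra h0
      rw [Finset.not_nonempty_iff_eq_empty] at h0
      rw [h0] at hsum3
      simp at hsum3
      omega
    obtain ⟨χ₀, hχ₀, hmin⟩ := Finset.exists_min_image R d hRne
    have hχ₀' := Finset.mem_filter.1 hχ₀
    have hsq : ∑ χ : IrrCharacter G, d χ ^ 2 = Nat.card G := by
      have h1 := sum_degree_sq (G := G)
      simp only [hd] at h1
      exact_mod_cast h1
    have hsq2 : ∑ χ ∈ Finset.univ.erase one, d χ ^ 2 + 1 = Nat.card G := by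
      rw [← hsq, ← Finset.add_sum_erase _ _ (Finset.mem_univ one), hone]
      ring
    have hmul : d χ₀ * t ≤ Nat.card G - 1 := by
      calc d χ₀ * t ≤ d χ₀ * ∑ χ ∈ R, d χ := Nat.mul_le_mul_left _ hsum3
        _ = ∑ χ ∈ R, d χ₀ * d χ := Finset.mul_sum _ _ _
        _ ≤ ∑ χ ∈ R, d χ ^ 2 := by
            refine Finset.sum_le_sum fun χ hχ => ?_
            rw [sq]
            exact Nat.mul_le_mul_right _ (hmin χ hχ)
        _ ≤ ∑ χ ∈ Finset.univ.erase one, d χ ^ 2 :=
            Finset.sum_le_sum_of_subset (Finset.filter_subset _ _)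
        _ = Nat.card G - 1 := by omega
    refine ⟨χ₀, ?_, hχ₀'.2, ?_⟩
    · intro h
      have h1 : χ₀ = one := Subtype.ext h
      exact (Finset.mem_erase.1 hχ₀'.1).1 h1
    · rw [le_div_iff₀ htQ]
      have h1 : ((d χ₀ * t : ℕ) : ℚ) ≤ ((Nat.card G - 1 : ℕ) : ℚ) := by exact_mod_cast hmul
      push_cast [Nat.cast_sub (show 1 ≤ Nat.card G by omega)] at h1
      exact h1

end Cfsg.Agent.S4476
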