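import Cfsg.Statements.S4478
import Cfsg.Agent.Lib.CharExtra.FS
import Cfsg.Agent.Lib.ClassSizes.Basic
import Cfsg.Agent.Lib.Block.SubAlg
import Mathlib

set_option autoImplicit false
open Cfsg

namespace Cfsg.Agent.S4478

open scoped ComplexConjugate
open Cfsg.Agent.Lib.CharExtra Cfsg.Agent.Lib.Char

section
variable {G : Type*} [Group G] [Fintype G]

/-- Squaring on odd-order elements preserves sums. -/
theorem sum_odd_sq [DecidablePred fun s : G => ¬ 2 ∣ orderOf s] (f : G → ℂ) :
    ∑ s ∈ Finset.univ.filter (fun s : G => ¬ 2 ∣ orderOf s), f (s * s) =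
      ∑ s ∈ Finset.univ.filter (fun s : G => ¬ 2 ∣ orderOf s), f s := by
  classical
  -- the odd part of the order of the group
  obtain ⟨m, k, hm, hG⟩ : ∃ m k : ℕ, ¬ 2 ∣ m ∧ Nat.card G = 2 ^ k * m := by
    have h0 : Nat.card G ≠ 0 := Nat.card_pos.ne'
    obtain ⟨k, m, hm, hmk⟩ := Nat.exists_eq_two_pow_mul_odd h0
    exact ⟨m, k, by simpa using hm.not_two_dvd_nat, hmk⟩
  have hodd : ∀ s : G, ¬ 2 ∣ orderOf s → s ^ m = 1 := by
    intro s hs
    have h1 : orderOf s ∣ 2 ^ k * m := hG ▸ orderOf_dvd_natCard s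
    have h2 : Nat.Coprime (orderOf s) (2 ^ k) :=
      Nat.Coprime.pow_right _ ((Nat.Prime.coprime_iff_not_dvd Nat.prime_two).2 hs).symm
    exact orderOf_dvd_iff_pow_eq_one.1 (h2.dvd_of_dvd_mul_left h1)
  obtain ⟨e, he⟩ : ∃ e, 2 * e = m + 1 := by
    obtain ⟨j, hj⟩ := Nat.not_even_iff_odd.1 (fun h => hm h.two_dvd)
    exact ⟨j + 1, by omega⟩
  have hinv1 : ∀ s : G, ¬ 2 ∣ orderOf s → (s * s) ^ e = s := by
    intro s hs
    rw [← sq, ← pow_mul, he, pow_succ, hodd s hs, one_mul]
  have hinv2 : ∀ s : G, ¬ 2 ∣ orderOf s → s ^ e * s ^ e = s := by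
    intro s hs
    rw [← pow_add, ← two_mul, he, pow_succ, hodd s hs, one_mul]
  refine Finset.sum_nbij' (fun s => s * s) (fun y => y ^ e) ?_ ?_ ?_ ?_ (fun _ _ => rfl)
  · intro s hs
    simp only [Finset.mem_filter, Finset.mem_univ, true_and] at hs ⊢
    intro h
    apply hs
    rw [← sq] at h
    exact h.trans (orderOf_pow_dvd _)
  · intro s hs
    simp only [Finset.mem_filter, Finset.mem_univ, true_and] at hs ⊢
    intro h
    exact hs (h.trans (orderOf_pow_dvd _))
  · intro s hs
    simp only [Finset.mem_filter, Finset.mem_univ, true_and] at hs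
    exact hinv1 s hs
  · intro s hs
    simp only [Finset.mem_filter, Finset.mem_univ, true_and] at hs
    exact hinv2 s hs

end

/-- Let G be a finite group of even order and χ an irreducible character of G whose degree x is divisible by the full power of 2 dividing the order of G and, for every odd prime p such that G has an element of order 2p, by the full power of p dividing the order of G. Then all involutions of G are conjugate, the centralizer of every involution has order exactly x with x coprime to its index, and the Frobenius–Schur indicator of χ equals 1. -/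
theorem result {G : Type*} [Group G] [Fintype G] (heven : Even (Nat.card G)) (χ : Cfsg.IrrCharacter G) (h2 : 2 ^ (Nat.card G).factorization 2 ∣ Cfsg.charDegree (χ : G → ℂ)) (hp : ∀ p : ℕ, p.Prime → p ≠ 2 → (∃ g : G, orderOf g = 2 * p) → p ^ (Nat.card G).factorization p ∣ Cfsg.charDegree (χ : G → ℂ)) : (∀ s t : G, orderOf s = 2 → orderOf t = 2 → IsConj s t) ∧ (∀ s : G, orderOf s = 2 → Nat.card (Subgroup.centralizer ({s} : Set G)) = Cfsg.charDegree (χ : G → ℂ) ∧ (Nat.card (Subgroup.centralizer ({s} : Set G))).Coprime (Subgroup.centralizer ({s} : Set G)).index) ∧ (Nat.card G : ℂ)⁻¹ * ∑ g : G, (χ : G → ℂ) (g * g) = 1 := by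
  classical
  haveI h2f : Fact (Nat.Prime 2) := ⟨Nat.prime_two⟩
  have h2G : 2 ∣ Nat.card G := heven.two_dvd
  set x := Cfsg.charDegree (χ : G → ℂ) with hx
  have hxC : (χ : G → ℂ) 1 = (x : ℂ) := map_one_eq_charDegree (IsIrrCharacter.isCharacter χ.2)
  have hxpos : 0 < x := charDegree_pos_of_irr χ.2
  have hvan2 : ∀ y : G, 2 ∣ orderOf y → (χ : G → ℂ) y = 0 :=
    fun y hy => irr_eq_zero_of_pow_dvd χ h2 hy
  have hvanp : ∀ (q : ℕ), q.Prime → q ≠ 2 → (∃ g : G, orderOf g = 2 * q) → ∀ y : G, q ∣ orderOf y →
      (χ : G → ℂ) y = 0 := by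
    intro q hq hq2 hg y hy
    haveI : Fact q.Prime := ⟨hq⟩
    exact irr_eq_zero_of_pow_dvd χ (hp q hq hq2 hg) hy
  -- values on squares of even-order elements
  have hsqeven : ∀ s : G, 2 ∣ orderOf s → orderOf s ≠ 2 → (χ : G → ℂ) (s * s) = 0 := by
    intro s hs hs2
    have ho : orderOf (s * s) = orderOf s / 2 := by
      rw [← sq, orderOf_pow' _ (by norm_num), Nat.gcd_eq_right hs]
    have hopos : 0 < orderOf s := orderOf_pos s
    have hne1 : orderOf s / 2 ≠ 1 := by
      obtain ⟨r, hr⟩ := hs
      rw [hr]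
      intro h
      rw [Nat.mul_div_cancel_left _ (by norm_num)] at h
      exact hs2 (by rw [hr, h])
    obtain ⟨q, hq, hqd⟩ := Nat.exists_prime_and_dvd hne1
    by_cases hq2 : q = 2
    · apply hvan2
      rw [ho]
      rw [hq2] at hqd
      exact hqd
    · refine hvanp q hq hq2 ?_ _ (by rw [ho]; exact hqd)
      obtain ⟨r, hr⟩ := hs
      have hdvd : 2 * q ∣ orderOf s := by
        rw [hr] at hqd ⊢
        rw [Nat.mul_div_cancel_left _ (by norm_num)] at hqd
        exact Nat.mul_dvd_mul_left 2 hqd
      exact ⟨s ^ (orderOf s / (2 * q)), orderOf_pow_orderOf_div hopos.ne' hdvd⟩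
  -- `χ` is not the principal character
  have hν2 : 1 ≤ (Nat.card G).factorization 2 := by
    have := (Nat.Prime.dvd_iff_one_le_factorization Nat.prime_two Nat.card_pos.ne').1 h2G
    exact this
  have h2x : 2 ∣ x := (dvd_pow_self 2 (by omega)).trans h2
  have hx2 : 2 ≤ x := Nat.le_of_dvd hxpos h2x
  have hne1 : χ ≠ Cfsg.Agent.Lib.Block.oneIrr G := by
    intro h
    rw [h] at hxC
    have h3 : ((x : ℕ) : ℂ) = 1 := hxC.symm
    have h4 : x = 1 := by exact_mod_cast h3
    omega
  have hsum0 : ∑ g : G, (χ : G → ℂ) g = 0 := by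
    have h3 := classInner_irr_of_ne χ.2 (Cfsg.Agent.Lib.Block.oneIrr G).2
      (fun h => hne1 (Subtype.ext h))
    unfold classInner at h3
    have hcard : (Nat.card G : ℂ)⁻¹ ≠ 0 := inv_ne_zero (by exact_mod_cast Nat.card_pos.ne')
    have h4 := (mul_eq_zero.1 h3).resolve_left hcard
    simpa [Cfsg.Agent.Lib.Block.oneIrr_coe] using h4
  -- the sum of values on squares
  let J := Finset.univ.filter fun s : G => orderOf s = 2
  have hJcard : J.card = Nat.card {y : G // orderOf y = 2} := by
    rw [Nat.card_eq_fintype_card, Fintype.card_subtype]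
  have hsumsq : ∑ s : G, (χ : G → ℂ) (s * s) = (J.card : ℂ) * x := by
    rw [← Finset.sum_filter_add_sum_filter_not Finset.univ (fun s : G => ¬ 2 ∣ orderOf s)]
    have h3 : ∑ s ∈ Finset.univ.filter (fun s : G => ¬ 2 ∣ orderOf s), (χ : G → ℂ) (s * s) = 0 := by
      rw [sum_odd_sq]
      have h4 := Finset.sum_filter_add_sum_filter_not Finset.univ (fun s : G => ¬ 2 ∣ orderOf s)
        (fun s => (χ : G → ℂ) s)
      have h5 : ∑ s ∈ Finset.univ.filter (fun s : G => ¬ ¬ 2 ∣ orderOf s), (χ : G → ℂ) s = 0 := by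
        refine Finset.sum_eq_zero fun s hs => hvan2 s ?_
        exact not_not.1 (Finset.mem_filter.1 hs).2
      rw [h5, add_zero, hsum0] at h4
      exact h4
    rw [h3, zero_add]
    have h6 : ∀ s ∈ Finset.univ.filter (fun s : G => ¬ ¬ 2 ∣ orderOf s), (χ : G → ℂ) (s * s) =
        if orderOf s = 2 then (x : ℂ) else 0 := by
      intro s hs
      have hs' : 2 ∣ orderOf s := not_not.1 (Finset.mem_filter.1 hs).2
      split_ifs with h7
      · have h8 := pow_orderOf_eq_one s
        rw [h7, sq] at h8
        rw [h8, hxC]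
      · exact hsqeven s hs' h7
    rw [Finset.sum_congr rfl h6, ← Finset.sum_filter, Finset.filter_filter]
    have h7 : (Finset.univ.filter fun s : G => ¬ ¬ 2 ∣ orderOf s ∧ orderOf s = 2) = J := by
      ext s
      simp only [Finset.mem_filter, Finset.mem_univ, true_and, J]
      constructor
      · exact fun h => h.2
      · intro h
        refine ⟨?_, h⟩
        rw [h]
        simp
    rw [h7, Finset.sum_const, nsmul_eq_mul]
  have hJpos : 0 < J.card := by
    obtain ⟨y, hy⟩ := exists_prime_orderOf_dvd_card' 2 h2G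
    exact Finset.card_pos.2 ⟨y, by simp [J, hy]⟩
  have hcardC : (Nat.card G : ℂ) ≠ 0 := by exact_mod_cast Nat.card_pos.ne'
  have hν : fsInd (χ : G → ℂ) = (Nat.card G : ℂ)⁻¹ * ((J.card : ℂ) * x) := by
    unfold fsInd
    rw [hsumsq]
  have hreal : ∀ g : G, ((χ : G → ℂ) g).im = 0 := by
    by_contra hr
    have h3 := fsInd_of_not_real χ hr
    rw [hν] at h3
    have h4 := (mul_eq_zero.1 h3).resolve_left (inv_ne_zero hcardC)
    have h5 : ((J.card * x : ℕ) : ℂ) = 0 := by push_cast; exact h4
    have h6 : J.card * x = 0 := by exact_mod_cast h5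
    exact (Nat.mul_pos hJpos hxpos).ne' h6
  have hν1 : fsInd (χ : G → ℂ) = 1 := by
    rcases fsInd_of_real χ hreal with h3 | h3
    · exact h3
    · exfalso
      rw [hν] at h3
      have h4 : (J.card : ℂ) * x = - (Nat.card G : ℂ) := by
        field_simp at h3
        linear_combination h3
      have h5 : ((J.card * x + Nat.card G : ℕ) : ℂ) = 0 := by
        push_cast
        rw [h4]
        ring
      have h6 : J.card * x + Nat.card G = 0 := by exact_mod_cast h5
      have := Nat.card_pos (α := G)
      omega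
  have htx : J.card * x = Nat.card G := by
    rw [hν] at hν1
    have h4 : (J.card : ℂ) * x = (Nat.card G : ℂ) := by
      field_simp at hν1
      linear_combination hν1
    exact_mod_cast h4
  -- the prime divisors of involution centralizers
  have hprimes : ∀ s : G, orderOf s = 2 → ∀ q : ℕ, q.Prime →
      q ∣ Nat.card (Subgroup.centralizer ({s} : Set G)) → q ^ (Nat.card G).factorization q ∣ x := by
    intro s hs q hq hqd
    by_cases hq2 : q = 2
    · rw [hq2]; exact h2
    · refine hp q hq hq2 ?_
      haveI : Fact q.Prime := ⟨hq⟩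
      obtain ⟨z, hz⟩ := exists_prime_orderOf_dvd_card' q hqd
      have hz' : orderOf (z : G) = q := by
        rw [Subgroup.orderOf_coe]; exact hz
      have hzc : Commute s (z : G) := by
        have := Subgroup.mem_centralizer_singleton_iff.1 z.2
        exact this.symm
      refine ⟨s * z, ?_⟩
      rw [hzc.orderOf_mul_eq_mul_orderOf_of_coprime (by
        rw [hs, hz']
        exact (Nat.coprime_primes Nat.prime_two hq).2 (Ne.symm hq2)), hs, hz']
  have hCdvd : ∀ s : G, orderOf s = 2 → Nat.card (Subgroup.centralizer ({s} : Set G)) ∣ x := by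
    intro s hs
    have hC0 : Nat.card (Subgroup.centralizer ({s} : Set G)) ≠ 0 := Nat.card_pos.ne'
    rw [← Nat.factorization_prime_le_iff_dvd hC0 hxpos.ne']
    intro q hq
    by_cases hqd : q ∣ Nat.card (Subgroup.centralizer ({s} : Set G))
    · have h3 := hprimes s hs q hq hqd
      have h4 := (Nat.Prime.pow_dvd_iff_le_factorization hq hxpos.ne').1 h3
      have h5 : Nat.card (Subgroup.centralizer ({s} : Set G)) ∣ Nat.card G :=
        Subgroup.card_subgroup_dvd_card _
      exact ((Nat.factorization_le_iff_dvd hC0 Nat.card_pos.ne').2 h5 q).trans h4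
    · rw [Nat.factorization_eq_zero_of_not_dvd hqd]
      exact Nat.zero_le _
  -- the map from the class into the involutions
  let f : ∀ s : G, orderOf s = 2 → {y : G // IsConj s y} → {y : G // orderOf y = 2} :=
    fun s hs y => ⟨y.1, by
      obtain ⟨c, hc⟩ := isConj_iff.1 y.2
      rw [← hc, Cfsg.Agent.Lib.Block.orderOf_conj]
      exact hs⟩
  have hfinj : ∀ s hs, Function.Injective (f s hs) := by
    intro s hs a b hab
    have h3 := congrArg Subtype.val hab
    exact Subtype.ext h3
  have hkey : ∀ s : G, orderOf s = 2 →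
      (Subgroup.centralizer ({s} : Set G)).index = J.card ∧
        Nat.card (Subgroup.centralizer ({s} : Set G)) = x := by
    intro s hs
    have h3 : (Subgroup.centralizer ({s} : Set G)).index ≤ J.card := by
      rw [hJcard, ← Cfsg.Agent.Lib.ClassSizes.card_isConj_eq_index s]
      exact Nat.card_le_card_of_injective _ (hfinj s hs)
    have h4 : Nat.card (Subgroup.centralizer ({s} : Set G)) ≤ x :=
      Nat.le_of_dvd hxpos (hCdvd s hs)
    have h5 : (Subgroup.centralizer ({s} : Set G)).index *
        Nat.card (Subgroup.centralizer ({s} : Set G)) = J.card * x := by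
      rw [htx]
      exact Subgroup.index_mul_card _
    have h6 : 0 < Nat.card (Subgroup.centralizer ({s} : Set G)) := Nat.card_pos
    constructor
    · by_contra hne
      have h7 : (Subgroup.centralizer ({s} : Set G)).index < J.card := lt_of_le_of_ne h3 hne
      have h8 := Nat.mul_lt_mul_of_lt_of_le h7 h4 hxpos
      omega
    · by_contra hne
      have h7 : Nat.card (Subgroup.centralizer ({s} : Set G)) < x := lt_of_le_of_ne h4 hne
      have hidx : 0 < (Subgroup.centralizer ({s} : Set G)).index := by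
        have := Subgroup.index_ne_zero_of_finite (H := Subgroup.centralizer ({s} : Set G))
        omega
      have h8 := Nat.mul_lt_mul_of_le_of_lt h3 h7 hJpos
      omega
  refine ⟨?_, ?_, hν1⟩
  · intro s u hs hu
    have h3 := (hkey s hs).1
    have h4 : Nat.card {y : G // orderOf y = 2} ≤ Nat.card {y : G // IsConj s y} := by
      rw [Cfsg.Agent.Lib.ClassSizes.card_isConj_eq_index s, h3, hJcard]
    have hbij := Function.Injective.bijective_of_nat_card_le (hfinj s hs) h4
    obtain ⟨y, hy⟩ := hbij.2 ⟨u, hu⟩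
    have hyu : y.1 = u := congrArg Subtype.val hy
    rw [← hyu]
    exact y.2
  · intro s hs
    refine ⟨(hkey s hs).2, ?_⟩
    rw [Nat.coprime_iff_gcd_eq_one] 
    by_contra hg
    obtain ⟨q, hq, hqd⟩ := Nat.exists_prime_and_dvd hg
    have h3 := (Nat.dvd_gcd_iff.1 hqd)
    have h4 := hprimes s hs q hq h3.1
    rw [← (hkey s hs).2] at h4
    have h5 : q ^ ((Nat.card G).factorization q + 1) ∣ Nat.card G := by
      have h6 := Nat.mul_dvd_mul h4 h3.2
      rw [Subgroup.card_mul_index, ← pow_succ] at h6
      exact h6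
    exact Nat.pow_succ_factorization_not_dvd Nat.card_pos.ne' hq h5

end Cfsg.Agent.S4478
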