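import Cfsg.Statements.S4479
import Mathlib
import Cfsg.Agent.Lib.FF.KleinFormula

set_option autoImplicit false
open Cfsg

namespace Cfsg.Agent.S4479

/-- An order formula from the principal 2-block. Let G be a finite group of order 4·g₀ with g₀ odd having no normal 2-complement (no normal subgroup of order g₀); let P be a Sylow 2-subgroup, J an involution of P, and fix a maximal ideal M of the algebraic integers containing 2. Suppose the principal 2-block consists of the principal character and three further distinct characters χ₁, χ₂, χ₃ of degrees x₁, x₂, x₃, with χ_i(J) = ε_i = ±1. Then, writing c(J) and c(P) for the orders of the centralizers of J and of P, the order of G equals 8·α·c(J)³/c(P)² with α = x₁x₂x₃ / ((x₁ + ε₁)(x₂ + ε₂)(x₃ + ε₃)). -/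
theorem result {G : Type*} [Group G] [Finite G] (M : Ideal Cfsg.AlgInt) (hM : Cfsg.IsPModular 2 M) (g₀ : ℕ) (hg₀ : Odd g₀) (hG : Nat.card G = 4 * g₀) (hnc : ¬ ∃ N : Subgroup G, N.Normal ∧ Nat.card N = g₀) (P : Sylow 2 G) (J : G) (hJ : J ∈ (P : Subgroup G)) (hJ2 : orderOf J = 2) (χ₁ χ₂ χ₃ : Cfsg.IrrCharacter G) (ε₁ ε₂ ε₃ : ℤ) (hB : Cfsg.principalBlock M G = {χ : Cfsg.IrrCharacter G | (χ : G → ℂ) = (fun _ => 1) ∨ χ = χ₁ ∨ χ = χ₂ ∨ χ = χ₃}) (hdist : (χ₁ : G → ℂ) ≠ (fun _ => 1) ∧ (χ₂ : G → ℂ) ≠ (fun _ => 1) ∧ (χ₃ : G → ℂ) ≠ (fun _ => 1) ∧ χ₁ ≠ χ₂ ∧ χ₁ ≠ χ₃ ∧ χ₂ ≠ χ₃) (hε : (ε₁ = 1 ∨ ε₁ = -1) ∧ (ε₂ = 1 ∨ ε₂ = -1) ∧ (ε₃ = 1 ∨ ε₃ = -1)) (hval : (χ₁ : G → ℂ) J = ε₁ ∧ (χ₂ : G → ℂ) J = ε₂ ∧ (χ₃ : G → ℂ) J = ε₃) : (Nat.card G : ℚ) = 8 * (((Cfsg.charDegree (χ₁ : G → ℂ) : ℚ) * Cfsg.charDegree (χ₂ : G → ℂ) * Cfsg.charDegree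 (χ₃ : G → ℂ)) / ((Cfsg.charDegree (χ₁ : G → ℂ) + ε₁) * (Cfsg.charDegree (χ₂ : G → ℂ) + ε₂) * (Cfsg.charDegree (χ₃ : G → ℂ) + ε₃))) * (Nat.card (Subgroup.centralizer ({J} : Set G)) : ℚ) ^ 3 / (Nat.card (Subgroup.centralizer ((P : Subgroup G) : Set G)) : ℚ) ^ 2 := by
  classical
  haveI : Fintype G := Fintype.ofFinite G
  obtain ⟨hP', hone⟩ := Cfsg.Agent.Lib.FF.klein_struct g₀ hg₀ hG hnc P
  obtain ⟨a, h, ha, hh, hmain, hrel⟩ := Cfsg.Agent.Lib.FF.klein_formula_core M hM P hP' hone J hJ hJ2 χ₁ χ₂ χ₃ ε₁ ε₂ ε₃ hB hdist hε hval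
  obtain ⟨he1, he2, he3⟩ := hε
  set x₁ := Cfsg.charDegree (χ₁ : G → ℂ) with hx₁
  set x₂ := Cfsg.charDegree (χ₂ : G → ℂ) with hx₂
  set x₃ := Cfsg.charDegree (χ₃ : G → ℂ) with hx₃
  have hx1pos : (x₁ : ℚ) ≠ 0 := by exact_mod_cast (Cfsg.Agent.Lib.Char.charDegree_pos_of_irr χ₁.2).ne'
  have hx2pos : (x₂ : ℚ) ≠ 0 := by exact_mod_cast (Cfsg.Agent.Lib.Char.charDegree_pos_of_irr χ₂.2).ne'
  have hx3pos : (x₃ : ℚ) ≠ 0 := by exact_mod_cast (Cfsg.Agent.Lib.Char.charDegree_pos_of_irr χ₃.2).ne'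
  have hsq1 : ((ε₁ : ℤ) : ℚ) ^ 2 = 1 := by rcases he1 with rfl | rfl <;> simp
  have hsq2 : ((ε₂ : ℤ) : ℚ) ^ 2 = 1 := by rcases he2 with rfl | rfl <;> simp
  have hsq3 : ((ε₃ : ℤ) : ℚ) ^ 2 = 1 := by rcases he3 with rfl | rfl <;> simp
  have hrelQ : 1 + (ε₁ : ℚ) * x₁ + (ε₂ : ℚ) * x₂ + (ε₃ : ℚ) * x₃ = 0 := by exact_mod_cast hrel
  have hmainQ : (a : ℚ) * ((x₁ : ℚ) * x₂ * x₃ + ε₁ * x₂ * x₃ + ε₂ * x₁ * x₃ + ε₃ * x₁ * x₂) =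
      8 * (h : ℚ) ^ 2 * ((x₁ : ℚ) * x₂ * x₃) := by exact_mod_cast hmain
  have hD : ((x₁ : ℚ) + ε₁) * ((x₂ : ℚ) + ε₂) * ((x₃ : ℚ) + ε₃) =
      (x₁ : ℚ) * x₂ * x₃ + ε₁ * x₂ * x₃ + ε₂ * x₁ * x₃ + ε₃ * x₁ * x₂ := by
    linear_combination (ε₁ : ℚ) * ε₂ * ε₃ * hrelQ - (ε₂ : ℚ) * ε₃ * x₁ * hsq1 - (ε₁ : ℚ) * ε₃ * x₂ * hsq2 - (ε₁ : ℚ) * ε₂ * x₃ * hsq3
  have hcP : (0 : ℚ) < Nat.card (Subgroup.centralizer ((P : Subgroup G) : Set G)) := by exact_mod_cast Nat.card_pos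
  have hcJ : (0 : ℚ) < Nat.card (Subgroup.centralizer ({J} : Set G)) := by exact_mod_cast Nat.card_pos
  have hhQ : (h : ℚ) * Nat.card (Subgroup.centralizer ((P : Subgroup G) : Set G)) = Nat.card (Subgroup.centralizer ({J} : Set G)) := by
    exact_mod_cast hh
  have hhpos : (h : ℚ) ≠ 0 := by
    intro h0
    rw [h0, zero_mul] at hhQ
    exact hcJ.ne hhQ
  have haQ : (a : ℚ) * Nat.card (Subgroup.centralizer ({J} : Set G)) = Nat.card G := by exact_mod_cast ha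
  have hDne : ((x₁ : ℚ) + ε₁) * ((x₂ : ℚ) + ε₂) * ((x₃ : ℚ) + ε₃) ≠ 0 := by
    rw [hD]
    intro h0
    rw [h0, mul_zero] at hmainQ
    have := mul_ne_zero (mul_ne_zero (by norm_num : (8 : ℚ) ≠ 0) (pow_ne_zero 2 hhpos)) (mul_ne_zero (mul_ne_zero hx1pos hx2pos) hx3pos)
    exact this hmainQ.symm
  rw [← hD] at hmainQ
  rw [← haQ, ← hhQ]
  generalize hDdef : ((x₁ : ℚ) + ε₁) * ((x₂ : ℚ) + ε₂) * ((x₃ : ℚ) + ε₃) = D at hDne hmainQ ⊢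
  have hcP' := hcP.ne'
  field_simp
  linear_combination hmainQ

end Cfsg.Agent.S4479
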