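import Cfsg.Statements.S4480
import Mathlib
import Cfsg.Agent.Lib.FF.KleinFS

set_option autoImplicit false
open Cfsg MonoidAlgebra Cfsg.Agent.Lib.Char Cfsg.Agent.Lib.Block Cfsg.Agent.Lib.FF Cfsg.Agent.Lib.CharExtra
open scoped ComplexConjugate

namespace Cfsg.Agent.S4480

/-- Same setting as the Klein-four order formula: G of order 4·g₀ (g₀ odd) with no normal 2-complement, P a Sylow 2-subgroup, J an involution of P, M over 2, principal 2-block {1, χ₁, χ₂, χ₃} with χ_i(J) = ε_i = ±1. Suppose ε₁ε₂ε₃ = −1 and ε₃ = −1, and put q = x₃ = χ₃(1). Then there is a natural number m with 4·c(J) = m·c(P)·(q + 1), and the order of G equals (m³·c(P)/4)·(q³ − q)/2, that is 8·#G = m³·c(P)·(q³ − q). -/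
theorem result {G : Type*} [Group G] [Finite G] (M : Ideal Cfsg.AlgInt) (hM : Cfsg.IsPModular 2 M) (g₀ : ℕ) (hg₀ : Odd g₀) (hG : Nat.card G = 4 * g₀) (hnc : ¬ ∃ N : Subgroup G, N.Normal ∧ Nat.card N = g₀) (P : Sylow 2 G) (J : G) (hJ : J ∈ (P : Subgroup G)) (hJ2 : orderOf J = 2) (χ₁ χ₂ χ₃ : Cfsg.IrrCharacter G) (ε₁ ε₂ ε₃ : ℤ) (hB : Cfsg.principalBlock M G = {χ : Cfsg.IrrCharacter G | (χ : G → ℂ) = (fun _ => 1) ∨ χ = χ₁ ∨ χ = χ₂ ∨ χ = χ₃}) (hdist : (χ₁ : G → ℂ) ≠ (fun _ => 1) ∧ (χ₂ : G → ℂ) ≠ (fun _ => 1) ∧ (χ₃ : G → ℂ) ≠ (fun _ => 1) ∧ χ₁ ≠ χ₂ ∧ χ₁ ≠ χ₃ ∧ χ₂ ≠ χ₃) (hε : (ε₁ = 1 ∨ ε₁ = -1) ∧ (ε₂ = 1 ∨ ε₂ = -1) ∧ (ε₃ = 1 ∨ ε₃ = -1)) (hval : (χ₁ : G → ℂ) J = ε₁ ∧ (χ₂ : G → ℂ) J = ε₂ ∧ (χ₃ : G → ℂ) J = ε₃) (hprod : ε₁ * ε₂ * ε₃ = -1) (hε₃ : ε₃ = -1) : ∃ m : ℕ, 4 * Nat.card (Subgroup.centralizer ({J} : Set G)) = m * Nat.card (Subgroup.centralizer ((P : Subgroup G) : Set G)) * (Cfsg.charDegree (χ₃ : G → ℂ) + 1) ∧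 8 * Nat.card G = m ^ 3 * Nat.card (Subgroup.centralizer ((P : Subgroup G) : Set G)) * (Cfsg.charDegree (χ₃ : G → ℂ) ^ 3 - Cfsg.charDegree (χ₃ : G → ℂ)) := by
  classical
  haveI : Fintype G := Fintype.ofFinite G
  have := isPModular_isPrime hM
  obtain ⟨hP', hone⟩ := klein_struct g₀ hg₀ hG hnc P
  obtain ⟨a, h, ha, hh, hmain, hrel⟩ := klein_formula_core M hM P hP' hone J hJ hJ2 χ₁ χ₂ χ₃ ε₁ ε₂ ε₃ hB hdist hε hval
  obtain ⟨he1, he2, he3⟩ := hε
  obtain ⟨hv1, hv2, hv3⟩ := hval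
  obtain ⟨h10, h20, h30, h12, h13, h23⟩ := hdist
  have hx1pos : 0 < charDegree (χ₁ : G → ℂ) := charDegree_pos_of_irr χ₁.2
  have hx2pos : 0 < charDegree (χ₂ : G → ℂ) := charDegree_pos_of_irr χ₂.2
  have hx3pos : 0 < charDegree (χ₃ : G → ℂ) := charDegree_pos_of_irr χ₃.2
  -- the signs
  have hε12 : ε₁ = 1 ∧ ε₂ = 1 := by
    subst hε₃
    rcases he1 with rfl | rfl <;> rcases he2 with rfl | rfl
    · exact ⟨rfl, rfl⟩
    · norm_num at hprod
    · norm_num at hprod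
    · exfalso
      simp only [neg_mul, one_mul] at hrel
      omega
  obtain ⟨rfl, rfl⟩ := hε12
  subst hε₃
  -- degrees
  have hcard : Nat.card (P : Subgroup G) = 4 := IsKleinFour.card_four
  have hsq : ∀ x ∈ (P : Subgroup G), x * x = 1 := by
    intro x hx
    have h1 := Monoid.pow_exponent_eq_one (⟨x, hx⟩ : (P : Subgroup G))
    rw [IsKleinFour.exponent_two, pow_two] at h1
    exact congrArg Subtype.val h1
  have hd1 := degree_mod_four P hcard hsq hJ2 hone χ₁ hv1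
  have hd2 := degree_mod_four P hcard hsq hJ2 hone χ₂ hv2
  have hd3 := degree_mod_four P hcard hsq hJ2 hone χ₃ hv3
  have hodd1 : Odd (charDegree (χ₁ : G → ℂ)) := by
    rw [Nat.odd_iff]
    omega
  have hodd2 : Odd (charDegree (χ₂ : G → ℂ)) := by
    rw [Nat.odd_iff]
    omega
  have hodd3 : Odd (charDegree (χ₃ : G → ℂ)) := by
    rw [Nat.odd_iff]
    omega
  -- the indicators
  set o := oneIrr G with ho
  have hoc : ((o : IrrCharacter G) : G → ℂ) = fun _ => 1 := oneIrr_coe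
  have ho1 : o ≠ χ₁ := fun h => h10 (by rw [← h, hoc])
  have ho2 : o ≠ χ₂ := fun h => h20 (by rw [← h, hoc])
  have ho3 : o ≠ χ₃ := fun h => h30 (by rw [← h, hoc])
  have hBset : principalBlock M G = ((({o, χ₁, χ₂, χ₃} : Finset (IrrCharacter G))) : Set (IrrCharacter G)) := by
    rw [hB]
    ext χ
    simp only [Set.mem_ofPred_eq, Finset.coe_insert, Finset.coe_singleton, Set.mem_insert_iff, Set.mem_singleton_iff]
    constructor
    · rintro (h | h)
      · left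
        exact Subtype.ext (by rw [h, hoc])
      · exact Or.inr h
    · rintro (h | h)
      · left
        rw [h, hoc]
      · exact Or.inr h
  have hmemB : ∀ χ, χ ∈ principalBlock M G ↔ χ = o ∨ χ = χ₁ ∨ χ = χ₂ ∨ χ = χ₃ := by
    intro χ
    rw [hBset]
    simp
  have hBu : IsBlockUnion M (principalBlock M G) := isBlockUnion_of_isPBlock (isPBlock_blockOf (oneIrr G))
  have hfs := sum_fsInd_block_eq_zero hM P hsq hBu hJ2
  rw [hBset, finsum_mem_coe_finset, Finset.sum_insert (by simp [ho1, ho2, ho3]),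
      Finset.sum_insert (by simp [h12, h13]), Finset.sum_insert (by simp [h23]), Finset.sum_singleton, hv1, hv2, hv3,
      show (o : G → ℂ) J = 1 from congrFun hoc J, fsInd_trivial] at hfs
  have hν : ∀ χ : IrrCharacter G, Odd (charDegree (χ : G → ℂ)) →
      (fsInd (χ : G → ℂ) = 1 ∧ ∀ g : G, ((χ : G → ℂ) g).im = 0) ∨
      (fsInd (χ : G → ℂ) = 0 ∧ ¬ ∀ g : G, ((χ : G → ℂ) g).im = 0) := by
    intro χ hχ
    by_cases hr : ∀ g : G, ((χ : G → ℂ) g).im = 0
    · exact Or.inl ⟨fsInd_eq_one_of_odd χ hr hχ, hr⟩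
    · exact Or.inr ⟨fsInd_of_not_real χ hr, hr⟩
  obtain ⟨hn1, hn3⟩ : (¬ ∀ g : G, ((χ₁ : G → ℂ) g).im = 0) ∧ (∀ g : G, ((χ₃ : G → ℂ) g).im = 0) := by
    rcases hν χ₁ hodd1 with ⟨a1, b1⟩ | ⟨a1, b1⟩ <;> rcases hν χ₂ hodd2 with ⟨a2, b2⟩ | ⟨a2, b2⟩ <;>
      rcases hν χ₃ hodd3 with ⟨a3, b3⟩ | ⟨a3, b3⟩ <;> rw [a1, a2, a3] at hfs <;> norm_num at hfs
    exact ⟨b1, b3⟩
  -- complex conjugation
  have hbar : barSet (principalBlock M G) = principalBlock M G := by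
    refine barSet_eq_of_real hM (isPBlock_blockOf (oneIrr G)) (mem_blockOf_self (oneIrr G)) ?_
    apply Subtype.ext
    funext g
    rw [barIrr_coe, oneIrr_coe]
    simp
  have hbar1 : barIrr χ₁ ∈ principalBlock M G := by
    rw [← hbar, mem_barSet, barIrr_barIrr]
    exact (hmemB χ₁).2 (by simp)
  have hreal_bar : ∀ χ : IrrCharacter G, (∀ g : G, ((χ : G → ℂ) g).im = 0) → barIrr χ = χ := by
    intro χ hχ
    apply Subtype.ext
    funext g
    rw [barIrr_coe]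
    exact Complex.conj_eq_iff_im.2 (hχ g)
  have hbar2 : barIrr χ₁ = χ₂ := by
    rcases (hmemB _).1 hbar1 with h1 | h1 | h1 | h1
    · exfalso
      apply ho1
      have h2 := congrArg barIrr h1
      rw [barIrr_barIrr, ho, hreal_bar (oneIrr G) (by intro g; rw [oneIrr_coe]; simp)] at h2
      exact h2.symm
    · exfalso
      apply hn1
      intro g
      have h2 := congrFun (congrArg Subtype.val h1) g
      rw [barIrr_coe] at h2
      exact Complex.conj_eq_iff_im.1 h2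
    · exact h1
    · exfalso
      apply h13
      have h2 := congrArg barIrr h1
      rwa [barIrr_barIrr, hreal_bar χ₃ hn3] at h2
  have hx12 : charDegree (χ₂ : G → ℂ) = charDegree (χ₁ : G → ℂ) := by
    rw [← hbar2]
    apply charDegree_natCast
    rw [barIrr_coe]
    simp only
    rw [← charDegree_cast (IsIrrCharacter.isCharacter χ₁.2)]
    simp
  rw [hx12] at hmain hrel hd2 hodd2
  set x := charDegree (χ₁ : G → ℂ) with hx
  set q := charDegree (χ₃ : G → ℂ) with hq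
  have hqx : q = 2 * x + 1 := by
    simp only [Int.reduceNeg, neg_mul, one_mul] at hrel
    omega
  obtain ⟨y, hy⟩ : ∃ y, q + 1 = 4 * y := by
    have : (4 : ℤ) ∣ (q : ℤ) + 1 := by
      have e : (q : ℤ) + 1 = (q : ℤ) + 3 * (-1) + 4 := by ring
      rw [e]
      exact dvd_add (by simpa using hd3) (dvd_refl 4)
    obtain ⟨c, hc⟩ := this
    refine ⟨c.toNat, ?_⟩
    omega
  have hy0 : 0 < y := by omega
  have hxy : x + 1 = 2 * y := by omega
  -- the equation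
  have heq : a * y ^ 2 = h ^ 2 * (x * q) := by
    have h1 : (8 : ℤ) * x * ((a : ℤ) * y ^ 2) = 8 * x * ((h : ℤ) ^ 2 * (x * q)) := by
      have e1 : (x : ℤ) = 2 * y - 1 := by omega
      have e2 : (q : ℤ) = 4 * y - 1 := by omega
      rw [e2, e1] at hmain ⊢
      linear_combination hmain
    have h2 : (8 : ℤ) * x ≠ 0 := by
      have : (x : ℤ) ≠ 0 := by exact_mod_cast hx1pos.ne'
      exact mul_ne_zero (by norm_num) this
    have h3 := mul_left_cancel₀ h2 h1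
    exact_mod_cast h3
  have hcopx : Nat.Coprime y x := by
    have h1 : Nat.gcd y x ∣ 1 := by
      have h2 : Nat.gcd y x ∣ x := Nat.gcd_dvd_right _ _
      have h3 : Nat.gcd y x ∣ x + 1 := by
        rw [hxy]
        exact (Nat.gcd_dvd_left _ _).trans (dvd_mul_left _ _)
      exact (Nat.dvd_add_right h2).1 h3
    exact Nat.eq_one_of_dvd_one h1
  have hcopq : Nat.Coprime y q := by
    have h1 : Nat.gcd y q ∣ 1 := by
      have h2 : Nat.gcd y q ∣ q := Nat.gcd_dvd_right _ _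
      have h3 : Nat.gcd y q ∣ q + 1 := by
        rw [hy]
        exact (Nat.gcd_dvd_left _ _).trans (dvd_mul_left _ _)
      exact (Nat.dvd_add_right h2).1 h3
    exact Nat.eq_one_of_dvd_one h1
  have hdvd : y ∣ h := by
    have h1 : y ^ 2 ∣ h ^ 2 * (x * q) := ⟨a, by rw [← heq]; ring⟩
    have h2 : Nat.Coprime (y ^ 2) (x * q) := Nat.Coprime.pow_left _ (hcopx.mul_right hcopq)
    have h3 := h2.dvd_of_dvd_mul_right h1
    exact (Nat.pow_dvd_pow_iff (by norm_num)).1 h3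
  obtain ⟨m, rfl⟩ := hdvd
  have ha' : a = m ^ 2 * (x * q) := by
    have h1 : a * y ^ 2 = (m ^ 2 * (x * q)) * y ^ 2 := by
      rw [heq]
      ring
    exact Nat.eq_of_mul_eq_mul_right (by positivity) h1
  refine ⟨m, ?_, ?_⟩
  · rw [← hh, hy]
    ring
  · rw [← ha, ← hh, ha']
    have hcube : q ^ 3 - q = q * (x * (8 * y)) := by
      have h1 : q ^ 3 = q * (x * (8 * y)) + q := by
        have e2 : q = 4 * y - 1 := by omega
        zify [show 1 ≤ 4 * y by omega, show 1 ≤ y by omega] at e2 hxy ⊢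
        have e1 : (x : ℤ) = 2 * y - 1 := by omega
        rw [e1, e2]
        ring
      omega
    rw [hcube]
    ring

end Cfsg.Agent.S4480
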