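import Cfsg.Statements.S4485
import Mathlib
import Cfsg.Agent.Lib.StarSylow.Thm

set_option autoImplicit false
open Cfsg

namespace Cfsg.Agent.S4485

universe u

theorem aux : ∀ (n : ℕ) (G : Type u) [Group G] [Fintype G] (p : ℕ) [Fact p.Prime] (P : Sylow p G)
    (_ : ∀ x ∈ (P : Subgroup G), x ≠ 1 → Subgroup.centralizer ({x} : Set G) =
      Subgroup.centralizer ((P : Subgroup G) : Set G))
    (χ : G → ℂ) (_ : Cfsg.IsCharacter G χ) (_ : ∀ g : G, χ g = χ 1 → g = 1)
    (_ : Cfsg.charDegree χ ^ 2 + 1 < Nat.card (P : Subgroup G)), Nat.card G = n →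
    (P : Subgroup G).Normal := by
  intro n
  induction n using Nat.strong_induction_on with
  | _ n ih =>
    intro G _ _ p _ P hstar χ hχ hfaith hdeg hn
    classical
    have hone : 1 < Nat.card (P : Subgroup G) := by omega
    have hS := Cfsg.Agent.Lib.StarSylow.exists_isStar P hstar hone
    by_cases hmax : ∀ K : Subgroup G, K.Normal → (P : Subgroup G) ≤ K → K = ⊤
    · -- all constituents are linear, so `G` is abelian
      have hlin : ∀ ϕ : Cfsg.IrrCharacter G, Cfsg.classInner χ (ϕ : G → ℂ) ≠ 0 → (ϕ : G → ℂ) 1 = 1 := by
        intro ϕ hϕ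
        by_cases h1 : (ϕ : G → ℂ) = fun _ => 1
        · rw [h1]
        · have h2 := Cfsg.Agent.Lib.Char.charDegree_le_of_constituent hχ ϕ.2 hϕ
          have h3 : Cfsg.charDegree (ϕ : G → ℂ) ^ 2 + 1 < Nat.card (P : Subgroup G) := by
            have h4 := Nat.pow_le_pow_left h2 2
            omega
          obtain ⟨h4, -⟩ := hS.main hmax ϕ.2 h1 h3
          rw [Cfsg.Agent.Lib.Char.map_one_eq_charDegree
            (Cfsg.Agent.Lib.Char.IsIrrCharacter.isCharacter ϕ.2), h4]
          simp
      have hcomm : ∀ a b : G, a * b = b * a := by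
        intro a b
        have hz : χ (a * b * a⁻¹ * b⁻¹) = χ 1 := by
          have hcl := Cfsg.Agent.Lib.Char.IsCharacter.isClassFunction hχ
          have h1 := Cfsg.Agent.Lib.Char.classFunction_eq_sum χ hcl
          rw [h1]
          simp only [Finset.sum_apply, Pi.smul_apply, smul_eq_mul]
          refine Finset.sum_congr rfl fun ϕ _ => ?_
          by_cases hϕ : Cfsg.classInner χ (ϕ : G → ℂ) = 0
          · rw [hϕ, zero_mul, zero_mul]
          · have h2 := hlin ϕ hϕ
            obtain ⟨l, hl⟩ := Cfsg.Agent.Lib.Char.exists_hom_of_character_one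
              (Cfsg.Agent.Lib.Char.IsIrrCharacter.isCharacter ϕ.2) h2
            rw [hl]
            simp only [map_mul, map_inv]
            congr 1
            have h3 : l a * l b * (l a)⁻¹ * (l b)⁻¹ = 1 := by
              rw [mul_comm (l a) (l b)]
              group
            rw [h3]
            simp
        have h1 := hfaith _ hz
        have h2 : a * b * a⁻¹ = b := by
          rwa [mul_inv_eq_one] at h1
        calc a * b = (a * b * a⁻¹) * a := by group
          _ = b * a := by rw [h2]
      refine ⟨fun y hy g => ?_⟩
      have h1 : g * y * g⁻¹ = y := by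
        rw [hcomm g y]
        group
      rw [h1]
      exact hy
    · -- pass to a proper normal subgroup
      push Not at hmax
      obtain ⟨K, hKn, hPK, hKtop⟩ := hmax
      have hcardK : Nat.card K < n := by
        rw [← hn]
        have h1 : K.index ≠ 1 := fun h0 => hKtop (Subgroup.index_eq_one.mp h0)
        have h2 : K.index ≠ 0 := Subgroup.index_ne_zero_of_finite
        have h3 := K.card_mul_index
        have h4 : 0 < Nat.card K := Nat.card_pos
        have h5 : 2 ≤ K.index := by omega
        nlinarith
      let P' : Sylow p K := P.subtype hPK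
      have hcoe : (P' : Subgroup K) = (P : Subgroup G).subgroupOf K := rfl
      have hstar' : ∀ x ∈ (P' : Subgroup K), x ≠ 1 → Subgroup.centralizer ({x} : Set K) =
          Subgroup.centralizer ((P' : Subgroup K) : Set K) := by
        intro x hx hx1
        have hx' : (x : G) ∈ (P : Subgroup G) := Subgroup.mem_subgroupOf.mp hx
        have hx1' : (x : G) ≠ 1 := fun h0 => hx1 (Subtype.ext h0)
        have h1 := hstar _ hx' hx1'
        ext z
        rw [Subgroup.mem_centralizer_singleton_iff, Subgroup.mem_centralizer_iff]
        constructor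
        · intro hz y hy
          have h2 : (z : G) ∈ Subgroup.centralizer ({(x : G)} : Set G) :=
            Subgroup.mem_centralizer_singleton_iff.mpr (congrArg Subtype.val hz)
          rw [h1, Subgroup.mem_centralizer_iff] at h2
          exact Subtype.ext (h2 _ (Subgroup.mem_subgroupOf.mp hy))
        · intro hz
          have h2 : (z : G) ∈ Subgroup.centralizer ((P : Subgroup G) : Set G) := by
            rw [Subgroup.mem_centralizer_iff]
            intro y hy
            exact congrArg Subtype.val (hz ⟨y, hPK hy⟩ (Subgroup.mem_subgroupOf.mpr hy))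
          rw [← h1] at h2
          exact Subtype.ext (Subgroup.mem_centralizer_singleton_iff.mp h2)
      have hcardP : Nat.card (P' : Subgroup K) = Nat.card (P : Subgroup G) :=
        Nat.card_congr (Subgroup.subgroupOfEquivOfLe hPK).toEquiv
      have hres := Cfsg.Agent.Lib.Char.IsCharacter.restrict K hχ
      have hdeg' : Cfsg.charDegree (fun k : K => χ k) = Cfsg.charDegree χ := rfl
      have hnormal := ih (Nat.card K) hcardK K p P' hstar' (fun k : K => χ k) hres
        (fun g hg => Subtype.ext (hfaith _ hg)) (by rw [hdeg', hcardP]; exact hdeg) rfl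
      haveI : (P' : Subgroup K).Characteristic := Sylow.characteristic_of_normal P' hnormal
      have h1 : ((P' : Subgroup K).map K.subtype).Normal := inferInstance
      have h2 : (P' : Subgroup K).map K.subtype = (P : Subgroup G) := by
        rw [hcoe, Subgroup.subgroupOf_map_subtype, inf_of_le_left hPK]
      rwa [h2] at h1

/-- Let G be a finite group and p a prime dividing its order such that every non-identity element of a Sylow p-subgroup P has the same centralizer as P itself (so P is abelian); let p^n be the order of P. If G has a faithful character of degree x with x² < p^n − 1, then P is normal in G. -/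
theorem result {G : Type*} [Group G] [Finite G] (p : ℕ) (hp : p.Prime) (hpG : p ∣ Nat.card G) (P : Sylow p G) (hstar : ∀ x ∈ (P : Subgroup G), x ≠ 1 → Subgroup.centralizer ({x} : Set G) = Subgroup.centralizer ((P : Subgroup G) : Set G)) (n : ℕ) (hn : Nat.card P = p ^ n) (χ : G → ℂ) (hχ : Cfsg.IsCharacter G χ) (hfaith : ∀ g : G, χ g = χ 1 → g = 1) (hdeg : Cfsg.charDegree χ ^ 2 + 1 < p ^ n) : (P : Subgroup G).Normal := by

  classical
  haveI : Fact p.Prime := ⟨hp⟩
  letI : Fintype G := Fintype.ofFinite G
  have hcard : Nat.card (P : Subgroup G) = p ^ n := hn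
  exact aux _ G p P hstar χ hχ hfaith (by rw [hcard]; exact hdeg) rfl

end Cfsg.Agent.S4485
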