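import Cfsg.Statements.S4488
import Mathlib
import Cfsg.Agent.Lib.CharExtra.RatBound

set_option autoImplicit false
open Cfsg

namespace Cfsg.Agent.S4488

/-- Let the finite group G have a faithful p-rational character χ of degree n (all values of χ lie in the field generated over ℚ by a root of unity of order prime to p), and let p^a be the order of a Sylow p-subgroup of G. Then a ≤ Σ_{i ≥ 0} ⌊n / ((p − 1)·p^i)⌋ (a finite sum; the terms vanish once (p − 1)p^i > n). -/
theorem result {G : Type*} [Group G] [Finite G] (p : ℕ) (hp : p.Prime) (χ : G → ℂ) (hχ : Cfsg.IsCharacter G χ) (hfaith : ∀ g : G, χ g = χ 1 → g = 1) (hrat : (∃ r : ℕ, 0 < r ∧ ¬ p ∣ r ∧ ∀ g : G, χ g ∈ IntermediateField.adjoin ℚ ({Complex.exp (2 * Real.pi * Complex.I / r)} : Set ℂ))) (n : ℕ) (hn : Cfsg.charDegree χ = n) : (Nat.card G).factorization p ≤ ∑ i ∈ Finset.range (n + 1), n / ((p - 1) * p ^ i) := by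
  classical
  haveI : Fintype G := Fintype.ofFinite G
  haveI : Fact p.Prime := ⟨hp⟩
  obtain ⟨P⟩ : Nonempty (Sylow p G) := inferInstance
  haveI : Fintype P := Fintype.ofFinite P
  obtain ⟨r, hr0, hpr, hval⟩ := hrat
  have hcard : Nat.card P = p ^ (Nat.card G).factorization p := P.card_eq_multiplicity
  let ξ : P → ℂ := fun x => χ x
  have hξ : Cfsg.IsCharacter P ξ := Cfsg.Agent.Lib.Char.IsCharacter.comp (P : Subgroup G).subtype hχ
  have hdeg : Cfsg.charDegree ξ = n := by
    rw [← hn]
    rfl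
  have hker : (Cfsg.Agent.Lib.Degree.kerOf ξ).index = p ^ (Nat.card G).factorization p := by
    have hbot : Cfsg.Agent.Lib.Degree.kerOf ξ = ⊥ := by
      rw [eq_bot_iff]
      intro g hg
      have h1 := (Cfsg.Agent.Lib.Degree.mem_kerOf_iff hξ).1 hg
      have h2 : χ (g : G) = χ 1 := h1
      have h3 := hfaith (g : G) h2
      exact Subtype.ext h3
    rw [hbot, Subgroup.index_bot]
    exact hcard
  have hP : IsPGroup p P := P.isPGroup'
  have hr : ∀ u : ℕ, u.Coprime (Nat.card P) → ∀ g, ξ (g ^ u) = ξ g := by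
    intro u hu g
    show χ ((g ^ u : P) : G) = χ g
    rw [Subgroup.coe_pow]
    have hcard' : Nat.card P = p ^ (Nat.card G).factorization p := hcard
    refine Cfsg.Agent.Lib.CharExtra.char_pow_eq_of_adjoin hχ hp hr0 hpr hval (g : G)
      ((Nat.card G).factorization p) ?_ u (by rwa [← hcard'])
    rw [← hcard', ← Subgroup.coe_pow, pow_card_eq_one']
    rfl
  exact Cfsg.Agent.Lib.CharExtra.rat_bound hP n ξ hξ hdeg hr _ hker

end Cfsg.Agent.S4488
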