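import Cfsg.Statements.S4489
import Mathlib
import Cfsg.Agent.Lib.CharExtra.PGroupField

set_option autoImplicit false
open Cfsg

namespace Cfsg.Agent.S4489

/-- Let P be a finite p-group of order p^a with a > 0, and χ a faithful irreducible character of P of degree f whose field of values ℚ(χ) has degree (p − 1)·p^t over ℚ. Then a ≤ (f − 1)/(p − 1) + (t + 1)·f; in integer form, (p − 1)·a ≤ (f − 1) + (p − 1)(t + 1)·f. -/
theorem result {P : Type*} [Group P] [Finite P] (p a : ℕ) (hp : p.Prime) (ha : 0 < a) (hP : Nat.card P = p ^ a) (χ : Cfsg.IrrCharacter P) (hfaith : ∀ g : P, (χ : P → ℂ) g = (χ : P → ℂ) 1 → g = 1) (f t : ℕ) (hf : Cfsg.charDegree (χ : P → ℂ) = f) (hfield : Module.finrank ℚ (IntermediateField.adjoin ℚ (Set.range (χ : P → ℂ))) = (p - 1) * p ^ t) : (p - 1) * a ≤ (f - 1) + (p - 1) * (t + 1) * f := by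
  classical
  haveI : Fintype P := Fintype.ofFinite P
  haveI : Fact p.Prime := ⟨hp⟩
  have hPg : IsPGroup p P := IsPGroup.of_card hP
  have hne : (χ : P → ℂ) ≠ fun _ => 1 := by
    intro h
    have h1 : ∀ g : P, g = 1 := fun g => hfaith g (by rw [h])
    have h2 : Nat.card P = 1 := by
      haveI : Subsingleton P := ⟨fun a b => by rw [h1 a, h1 b]⟩
      exact Nat.card_unique
    rw [hP] at h2
    have h3 : p ^ a ≠ 1 := (Nat.one_lt_pow ha.ne' hp.one_lt).ne'
    exact h3 h2
  have hker : (Cfsg.Agent.Lib.Degree.kerOf (χ : P → ℂ)).index = p ^ a := by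
    have hbot : Cfsg.Agent.Lib.Degree.kerOf (χ : P → ℂ) = ⊥ := by
      rw [eq_bot_iff]
      intro g hg
      exact hfaith g ((Cfsg.Agent.Lib.Degree.mem_kerOf_iff (Cfsg.Agent.Lib.Char.IsIrrCharacter.isCharacter χ.2)).1 hg)
    rw [hbot, Subgroup.index_bot, hP]
  have := Cfsg.Agent.Lib.CharExtra.main_bound _ P rfl hPg χ χ.2 hne t a hfield hker
  rwa [hf] at this

end Cfsg.Agent.S4489
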