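import Cfsg.Statements.S4490
import Cfsg.Agent.Lib.Block.Real2

set_option autoImplicit false
open Cfsg

namespace Cfsg.Agent.S4490

/-- Let G be a finite group and M a maximal ideal of the algebraic integers containing 2. Every 2-block B of G whose defect groups are the Sylow 2-subgroups of G (a block of full defect) and which is not the principal block is different from its complex-conjugate block, the block formed by the complex conjugates of the members of B. -/
theorem result {G : Type*} [Group G] [Finite G] (M : Ideal Cfsg.AlgInt) (hM : Cfsg.IsPModular 2 M) (B : Set (Cfsg.IrrCharacter G)) (hB : Cfsg.IsPBlock M B) (P : Sylow 2 G) (hfull : Cfsg.IsDefectGroup 2 M B (P : Subgroup G)) (hnp : B ≠ Cfsg.principalBlock M G) : {ψ : Cfsg.IrrCharacter G | ∃ χ ∈ B, (ψ : G → ℂ) = fun g => (starRingEnd ℂ) ((χ : G → ℂ) g)} ≠ B := by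
  classical
  letI : Fintype G := Fintype.ofFinite G
  intro h
  apply hnp
  have hbar : Cfsg.Agent.Lib.Block.barSet B = B := h
  have h1 := Cfsg.Agent.Lib.Block.card_defect_group hM hB hfull
  have h2 := Sylow.card_eq_multiplicity P
  have hdef : Cfsg.blockDefect 2 B = (Nat.card G).factorization 2 :=
    Nat.pow_right_injective (le_refl 2) (h1.symm.trans h2)
  obtain ⟨χ, hχ, hodd⟩ := Cfsg.Agent.Lib.Block.exists_odd_of_full hM hB hdef
  exact Cfsg.Agent.Lib.Block.principal_of_barSet hM hB hbar hχ hodd

end Cfsg.Agent.S4490
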