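import Cfsg.Statements.S4493
import Cfsg.Agent.Lib.CharExtra.Ito
import Mathlib

set_option autoImplicit false
open Cfsg

namespace Cfsg.Agent.S4493

/-- Let G be a finite solvable group and p a prime. Then G has a normal abelian Sylow p-subgroup if and only if no irreducible character degree of G is divisible by p. -/
theorem result {G : Type*} [Group G] [Finite G] (hsolv : Group.IsSolvable G) (p : ℕ) (hp : p.Prime) : (∃ P : Subgroup G, P.Normal ∧ (∀ x ∈ P, ∀ y ∈ P, x * y = y * x) ∧ IsPGroup p P ∧ ¬ p ∣ P.index) ↔ ∀ χ : Cfsg.IrrCharacter G, ¬ p ∣ Cfsg.charDegree (χ : G → ℂ) := by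
  haveI : Fact p.Prime := ⟨hp⟩
  haveI := hsolv
  constructor
  · rintro ⟨P, hn, hc, hPp, hidx⟩ χ
    haveI := hn
    exact Cfsg.Agent.Lib.CharExtra.degrees_of_normal_abelian_sylow P hPp hidx hc χ
  · intro hdeg
    have hstep := Cfsg.Agent.Lib.CharExtra.pStep_of_isSolvable (G := G) hp
    obtain ⟨P⟩ : Nonempty (Sylow p G) := inferInstance
    have hn := Cfsg.Agent.Lib.CharExtra.sylow_normal_of_degrees _ G rfl hstep hdeg P
    haveI := hn
    refine ⟨P, hn, ?_, P.2, P.not_dvd_index⟩
    intro a ha b hb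
    have := Cfsg.Agent.Lib.CharExtra.sylow_comm_of_degrees (P : Subgroup G) P.2 hdeg ⟨a, ha⟩ ⟨b, hb⟩
    exact congrArg Subtype.val this

end Cfsg.Agent.S4493
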