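import Cfsg.Statements.S4495
import Cfsg.Agent.Lib.SelfCentral.Basic
import Mathlib

set_option autoImplicit false
open Cfsg

namespace Cfsg.Agent.S4495

open Cfsg.Agent.Lib.SelfCentral

/-- Let the finite group G contain an element x of prime order p with C_G(x) = ⟨x⟩, and let t be the number of conjugacy classes of elements of order p. If t ≠ p − 1 then the commutator subgroup has index at most (p − 1)/t; if t = p − 1 it has index exactly p. -/
theorem result {G : Type*} [Group G] [Finite G] (p : ℕ) (hp : p.Prime) (x : G) (hx : orderOf x = p) (hC : Subgroup.centralizer ({x} : Set G) = Subgroup.zpowers x) (t : ℕ) (ht : Nat.card {C : ConjClasses G // ∃ g ∈ C.carrier, orderOf g = p} = t) : (t ≠ p - 1 → (commutator G).index * t ≤ p - 1) ∧ (t = p - 1 → (commutator G).index = p) := by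
  have h : Setup p x := ⟨hp, hx, hC⟩
  obtain ⟨m, hm, hmpos⟩ := h.exists_card_normalizer
  have htm := h.classes_mul t m ht hm
  have hp1 : 0 < p - 1 := Nat.sub_pos_of_lt hp.one_lt
  constructor
  · intro htne
    have hm1 : m ≠ 1 := by
      rintro rfl
      rw [mul_one] at htm
      exact htne htm
    have hNle : ¬ Subgroup.normalizer (Subgroup.zpowers x : Set G) ≤ Subgroup.zpowers x := by
      intro hle
      have h1 := Nat.card_le_card_of_injective _ (Subgroup.inclusion_injective hle)
      rw [hm, h.card_zpowers] at h1
      have : m ≤ 1 := by
        have : p * m ≤ p * 1 := by simpa using h1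
        exact Nat.le_of_mul_le_mul_left this hp.pos
      omega
    have hle := h.zpowers_le_commutator hNle
    have hdvd := h.index_commutator_dvd hle hm
    have := Nat.le_of_dvd hmpos hdvd
    calc (commutator G).index * t ≤ m * t := Nat.mul_le_mul_right _ this
      _ = p - 1 := by rw [mul_comm]; exact htm
  · intro ht1
    have hm1 : m = 1 := by
      rw [ht1] at htm
      exact Nat.eq_of_mul_eq_mul_left hp1 (by rw [htm, mul_one])
    have hN : Subgroup.normalizer (Subgroup.zpowers x : Set G) ≤ Subgroup.zpowers x := by
      have hle : Subgroup.zpowers x ≤ Subgroup.normalizer (Subgroup.zpowers x : Set G) := Subgroup.le_normalizer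
      have heq : Subgroup.zpowers x = Subgroup.normalizer (Subgroup.zpowers x : Set G) := by
        apply Subgroup.eq_of_le_of_card_ge hle
        rw [hm, hm1, mul_one, h.card_zpowers]
      exact heq.ge
    exact (h.commutator_of_normalizer_le hN).1

end Cfsg.Agent.S4495
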