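import Cfsg.Statements.S4497
import Cfsg.Agent.Lib.SelfCentral.Basic
import Cfsg.Agent.Lib.Core.Basic
import Mathlib

set_option autoImplicit false
open Cfsg

namespace Cfsg.Agent.S4497

open Cfsg.Agent.Lib.SelfCentral

/-- Let the finite group G contain an element x of prime order p with C_G(x) = ⟨x⟩, let t be the number of conjugacy classes of elements of order p, and let S* = O_{p′}(G) be the largest normal subgroup of order prime to p. Then S* ≤ G′; if t ≠ p − 1 the quotient G′/S* is simple (in particular non-trivial); if t = p − 1 then G′ = S*. -/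
theorem result {G : Type*} [Group G] [Finite G] (p : ℕ) (hp : p.Prime) (x : G) (hx : orderOf x = p) (hC : Subgroup.centralizer ({x} : Set G) = Subgroup.zpowers x) (t : ℕ) (ht : Nat.card {C : ConjClasses G // ∃ g ∈ C.carrier, orderOf g = p} = t) : Cfsg.pPrimeCore p G ≤ commutator G ∧ (t ≠ p - 1 → ∀ h : ((Cfsg.pPrimeCore p G).subgroupOf (commutator G)).Normal, IsSimpleGroup (↥(commutator G) ⧸ (Cfsg.pPrimeCore p G).subgroupOf (commutator G))) ∧ (t = p - 1 → commutator G = Cfsg.pPrimeCore p G) := by
  have h : Setup p x := ⟨hp, hx, hC⟩
  have := Fact.mk hp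
  obtain ⟨m, hm, hmpos⟩ := h.exists_card_normalizer
  have htm := h.classes_mul t m ht hm
  have hp1 : 0 < p - 1 := Nat.sub_pos_of_lt hp.one_lt
  have hSnd : ¬ p ∣ Nat.card (Cfsg.pPrimeCore p G) := Cfsg.Agent.Lib.Core.not_dvd_card_pPrimeCore
  have hSle : Cfsg.pPrimeCore p G ≤ commutator G := h.le_commutator_of_not_dvd _ hSnd
  refine ⟨hSle, ?_, ?_⟩
  · intro htne hnormal
    have hm1 : m ≠ 1 := by
      rintro rfl
      rw [mul_one] at htm
      exact htne htm
    have hNle : ¬ Subgroup.normalizer (Subgroup.zpowers x : Set G) ≤ Subgroup.zpowers x := by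
      intro hle
      have h1 := Nat.card_le_card_of_injective _ (Subgroup.inclusion_injective hle)
      rw [hm, h.card_zpowers] at h1
      have : m ≤ 1 := by
        have : p * m ≤ p * 1 := by simpa using h1
        exact Nat.le_of_mul_le_mul_left this hp.pos
      omega
    have hle := h.zpowers_le_commutator hNle
    have hxA : x ∈ commutator G := hle (Subgroup.mem_zpowers x)
    have hA := h.subgroup (commutator G) hxA
    refine { exists_pair_ne := ?_, eq_bot_or_eq_top_of_normal := ?_ }
    · refine ⟨QuotientGroup.mk ⟨x, hxA⟩, 1, ?_⟩
      intro he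
      rw [QuotientGroup.eq_one_iff, Subgroup.mem_subgroupOf] at he
      exact h.not_mem_of_not_dvd _ hSnd he
    · intro L hL
      let L' := L.comap (QuotientGroup.mk' ((Cfsg.pPrimeCore p G).subgroupOf (commutator G)))
      have hL' : L'.Normal := hL.comap _
      by_cases hd : p ∣ Nat.card L'
      · right
        have h1 := hA.le_of_dvd L' hd
        have h2 := hA.commutator_le_of_le L' h1
        rw [eq_top_iff]
        rintro q -
        induction q using QuotientGroup.induction_on with
        | H a =>
        change a ∈ L'
        -- `D = G''`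
        let D := (commutator (commutator G)).map (commutator G).subtype
        have hDn : D.Normal := by
          have := Subgroup.map_subtype_commutator (commutator G)
          simp only [D]
          rw [this]
          infer_instance
        by_cases hDd : p ∣ Nat.card D
        · have h3 := h.commutator_le_of_dvd D hDd
          obtain ⟨b, hb, hba⟩ := h3 a.2
          have : b = a := Subtype.ext hba
          subst this
          exact h2 hb
        · have h3 : x * (a : G) * x⁻¹ * (a : G)⁻¹ ∈ D := by
            refine ⟨(⟨x, hxA⟩ * a * (⟨x, hxA⟩ : commutator G)⁻¹ * a⁻¹ : commutator G), ?_, ?_⟩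
            · exact Setup.comm_mem_commutator' _ _
            · simp
          obtain ⟨y, hy, hyD⟩ := h.exists_mem_zpowers_inv_mul_mem D hDd a h3
          obtain ⟨b, hb, hba⟩ := hyD
          have hyA : y ∈ commutator G := hle hy
          have hy' : (⟨y, hyA⟩ : commutator G) ∈ L' := by
            apply h1
            obtain ⟨k, hk⟩ := hy
            refine ⟨k, Subtype.ext ?_⟩
            simpa using hk
          have hbL := h2 hb
          have : a = ⟨y, hyA⟩ * b := by
            apply Subtype.ext
            have hb' : (b : G) = y⁻¹ * a := hba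
            simp [hb']
          rw [this]
          exact L'.mul_mem hy' hbL
      · left
        have h1 : L' ≤ Cfsg.pPrimeCore p (commutator G) :=
          Cfsg.Agent.Lib.Core.le_pPrimeCore hL' ((Nat.Prime.coprime_iff_not_dvd hp).2 hd).symm
        have h2 := Cfsg.Agent.Lib.Core.map_pPrimeCore_of_normal (p := p) (commutator G)
        rw [eq_bot_iff]
        intro q hq
        induction q using QuotientGroup.induction_on with
        | H a =>
        have ha : a ∈ L' := hq
        have h3 : (a : G) ∈ commutator G ⊓ Cfsg.pPrimeCore p G := by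
          rw [← h2]
          exact ⟨a, h1 ha, rfl⟩
        rw [Subgroup.mem_bot, QuotientGroup.eq_one_iff, Subgroup.mem_subgroupOf]
        exact h3.2
  · intro ht1
    have hm1 : m = 1 := by
      rw [ht1] at htm
      exact Nat.eq_of_mul_eq_mul_left hp1 (by rw [htm, mul_one])
    have hN : Subgroup.normalizer (Subgroup.zpowers x : Set G) ≤ Subgroup.zpowers x := by
      have hle : Subgroup.zpowers x ≤ Subgroup.normalizer (Subgroup.zpowers x : Set G) := Subgroup.le_normalizer
      have heq : Subgroup.zpowers x = Subgroup.normalizer (Subgroup.zpowers x : Set G) := by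
        apply Subgroup.eq_of_le_of_card_ge hle
        rw [hm, hm1, mul_one, h.card_zpowers]
      exact heq.ge
    have h2 := (h.commutator_of_normalizer_le hN).2
    apply le_antisymm _ hSle
    exact Cfsg.Agent.Lib.Core.le_pPrimeCore inferInstance ((Nat.Prime.coprime_iff_not_dvd hp).2 h2).symm

end Cfsg.Agent.S4497
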