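import Cfsg.Statements.S4498
import Mathlib
import Cfsg.Agent.Lib.Block.BrauerFeit
import Cfsg.Agent.Lib.CharExtra.DefectClass
import Cfsg.Agent.Lib.Block.Jordan
import Cfsg.Agent.Lib.Block.Section

set_option autoImplicit false
open Cfsg
open Cfsg.Agent.Lib.Block Cfsg.Agent.Lib.Char Cfsg.Agent.Lib.CharExtra ComplexConjugate

namespace Cfsg.Agent.S4498

/-- Let p and q be distinct primes dividing the order of the finite group G, and suppose G has no element of order p·q. Fix maximal ideals M_p over p and M_q over q of the algebraic integers. Then the principal p-block and the principal q-block of G have a non-principal irreducible character in common. -/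
theorem result {G : Type*} [Group G] [Finite G] (p q : ℕ) [Fact p.Prime] [Fact q.Prime] (hpq : p ≠ q) (hp : p ∣ Nat.card G) (hq : q ∣ Nat.card G) (hno : ∀ g : G, orderOf g ≠ p * q) (Mp Mq : Ideal Cfsg.AlgInt) (hMp : Cfsg.IsPModular p Mp) (hMq : Cfsg.IsPModular q Mq) : ∃ χ : Cfsg.IrrCharacter G, (χ : G → ℂ) ≠ (fun _ => 1) ∧ χ ∈ Cfsg.principalBlock Mp G ∧ χ ∈ Cfsg.principalBlock Mq G := by
  classical
  haveI : Fintype G := Fintype.ofFinite G
  haveI := isPModular_isPrime hMp
  haveI := isPModular_isPrime hMq
  have hpp : p.Prime := Fact.out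
  have hqp : q.Prime := Fact.out
  obtain ⟨x, hx⟩ := exists_prime_orderOf_dvd_card' p hp
  obtain ⟨y, hy⟩ := exists_prime_orderOf_dvd_card' q hq
  set A := principalBlock Mp G with hA
  set A' := principalBlock Mq G with hA'
  have hAU : IsBlockUnion Mp A := isBlockUnion_of_isPBlock isPBlock_principalBlock
  have hAU' : IsBlockUnion Mq A' := isBlockUnion_of_isPBlock isPBlock_principalBlock
  let a : IrrCharacter G → ℂ := fun χ => if χ ∈ A then (χ : G → ℂ) x⁻¹ else 0
  let b : IrrCharacter G → ℂ := fun χ => if χ ∈ A' then (χ : G → ℂ) y⁻¹ else 0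
  let F : G → ℂ := fun z => ∑ χ : IrrCharacter G, a χ * (χ : G → ℂ) z
  let H : G → ℂ := fun z => ∑ χ : IrrCharacter G, b χ * (χ : G → ℂ) z
  have hxpart : IsPPart p x x := ⟨1, by simp, Commute.one_right x, ⟨1, by simpa using hx⟩, by simpa using hpp.one_lt.ne'⟩
  have hypart : IsPPart q y y := ⟨1, by simp, Commute.one_right y, ⟨1, by simpa using hy⟩, by simpa using hqp.one_lt.ne'⟩
  have hF : ∀ z zp, IsPPart p z zp → ¬ IsConj zp x → F z = 0 := by
    intro z zp hz hc
    have h1 := block_orthogonality hMp hz hxpart hc hAU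
    rw [finsum_mem_irr] at h1
    show ∑ χ : IrrCharacter G, a χ * (χ : G → ℂ) z = 0
    rw [← h1]
    refine Finset.sum_congr rfl fun χ _ => ?_
    simp only [a]
    split_ifs
    · ring
    · ring
  have hH : ∀ z zp, IsPPart q z zp → ¬ IsConj zp y → H z = 0 := by
    intro z zp hz hc
    have h1 := block_orthogonality hMq hz hypart hc hAU'
    rw [finsum_mem_irr] at h1
    show ∑ χ : IrrCharacter G, b χ * (χ : G → ℂ) z = 0
    rw [← h1]
    refine Finset.sum_congr rfl fun χ _ => ?_
    simp only [b]
    split_ifs
    · ring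
    · ring
  have hFH : ∀ z, F z * conj (H z) = 0 := by
    intro z
    obtain ⟨zp, hzp⟩ := isPPart_exists (p := p) z
    obtain ⟨zq, hzq⟩ := isPPart_exists (p := q) z
    by_cases h1 : IsConj zp x
    · by_cases h2 : IsConj zq y
      · exfalso
        have hpz : p ∣ orderOf z := by
          obtain ⟨u, rfl, hcomm, ⟨k, hk⟩, hu⟩ := hzp
          have h3 : orderOf zp = p := by
            rw [← hx]
            obtain ⟨c, rfl⟩ := isConj_iff.mp h1
            simp [orderOf_conj]
          have hco : (orderOf zp).Coprime (orderOf u) := by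
            rw [h3]
            exact (Nat.Prime.coprime_iff_not_dvd hpp).mpr hu
          rw [hcomm.orderOf_mul_eq_mul_orderOf_of_coprime hco, h3]
          exact dvd_mul_right _ _
        have hqz : q ∣ orderOf z := by
          obtain ⟨u, rfl, hcomm, ⟨k, hk⟩, hu⟩ := hzq
          have h3 : orderOf zq = q := by
            rw [← hy]
            obtain ⟨c, rfl⟩ := isConj_iff.mp h2
            simp [orderOf_conj]
          have hco : (orderOf zq).Coprime (orderOf u) := by
            rw [h3]
            exact (Nat.Prime.coprime_iff_not_dvd hqp).mpr hu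
          rw [hcomm.orderOf_mul_eq_mul_orderOf_of_coprime hco, h3]
          exact dvd_mul_right _ _
        have hpq' : p * q ∣ orderOf z :=
          Nat.Coprime.mul_dvd_of_dvd_of_dvd ((Nat.coprime_primes hpp hqp).mpr hpq) hpz hqz
        exact hno _ (orderOf_pow_orderOf_div (orderOf_pos z).ne' hpq')
      · rw [hH z zq hzq h2, map_zero, mul_zero]
    · rw [hF z zp hzp h1, zero_mul]
  have hsum : ∑ χ : IrrCharacter G, a χ * conj (b χ) = 0 := by
    have hG : (Nat.card G : ℂ) ≠ 0 := by
      have : Nat.card G ≠ 0 := Nat.card_pos.ne'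
      exact_mod_cast this
    have h1 : ∑ z : G, F z * conj (H z) = (Nat.card G : ℂ) * ∑ χ : IrrCharacter G, a χ * conj (b χ) := by
      have h2 : ∀ z : G, F z * conj (H z) =
          ∑ χ : IrrCharacter G, ∑ ψ : IrrCharacter G, a χ * conj (b ψ) * ((χ : G → ℂ) z * conj ((ψ : G → ℂ) z)) := by
        intro z
        show (∑ χ : IrrCharacter G, a χ * (χ : G → ℂ) z) * conj (∑ ψ : IrrCharacter G, b ψ * (ψ : G → ℂ) z) = _
        rw [map_sum, Finset.sum_mul_sum]
        refine Finset.sum_congr rfl fun χ _ => Finset.sum_congr rfl fun ψ _ => ?_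
        rw [map_mul]
        ring
      simp only [h2]
      rw [Finset.sum_comm, Finset.mul_sum]
      refine Finset.sum_congr rfl fun χ _ => ?_
      rw [Finset.sum_comm]
      rw [Finset.sum_eq_single χ]
      · have h3 := classInner_irr_self χ.2
        rw [classInner_def] at h3
        rw [← Finset.mul_sum]
        have h4 : ∑ g : G, (χ : G → ℂ) g * conj ((χ : G → ℂ) g) = (Nat.card G : ℂ) := by
          field_simp at h3
          linear_combination h3
        rw [h4]
        ring
      · intro ψ _ hψ
        have h3 := classInner_irr_of_ne χ.2 ψ.2 (fun h => hψ (Subtype.ext h.symm))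
        rw [classInner_def] at h3
        have h4 := (mul_eq_zero.mp h3).resolve_left (inv_ne_zero hG)
        rw [← Finset.mul_sum, h4, mul_zero]
      · intro h
        exact absurd (Finset.mem_univ _) h
    have h5 : ∑ z : G, F z * conj (H z) = 0 := Finset.sum_eq_zero fun z _ => hFH z
    rw [h5] at h1
    exact (mul_eq_zero.mp h1.symm).resolve_left hG
  by_contra hcon
  push Not at hcon
  rw [Finset.sum_eq_single (oneIrr G)] at hsum
  · have hone : oneIrr G ∈ A := oneIrr_mem_principalBlock
    have hone' : oneIrr G ∈ A' := oneIrr_mem_principalBlock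
    have ea : a (oneIrr G) = 1 := by
      show (if oneIrr G ∈ A then ((oneIrr G : IrrCharacter G) : G → ℂ) x⁻¹ else 0) = 1
      rw [if_pos hone]
      rfl
    have eb : b (oneIrr G) = 1 := by
      show (if oneIrr G ∈ A' then ((oneIrr G : IrrCharacter G) : G → ℂ) y⁻¹ else 0) = 1
      rw [if_pos hone']
      rfl
    rw [ea, eb] at hsum
    simp at hsum
  · intro χ _ hχ
    simp only [a, b]
    by_cases h1 : χ ∈ A
    · by_cases h2 : χ ∈ A'
      · exfalso
        have hχ1 : (χ : G → ℂ) = fun _ => 1 := by
          by_contra hne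
          exact hcon χ hne h1 h2
        exact hχ (Subtype.ext hχ1)
      · rw [if_neg h2, map_zero, mul_zero]
    · rw [if_neg h1, zero_mul]
  · intro h
    exact absurd (Finset.mem_univ _) h

end Cfsg.Agent.S4498
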