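import Cfsg.Statements.S4499
import Cfsg.Agent.Lib.Block.BrauerFeit

set_option autoImplicit false
open Cfsg

namespace Cfsg.Agent.S4499

/-- Let G be a finite group whose order has p-part p^a (a ≥ 1), and fix a maximal ideal M of the algebraic integers containing p. If the degree of one irreducible character of a p-block B is divisible by p^(a−1), then the degree of every irreducible character in B is divisible by p^(a−1) (so B has defect at most 1). -/
theorem result {G : Type*} [Group G] [Finite G] (p : ℕ) [Fact p.Prime] (M : Ideal Cfsg.AlgInt) (hM : Cfsg.IsPModular p M) (hpa : p ∣ Nat.card G) (B : Set (Cfsg.IrrCharacter G)) (hB : Cfsg.IsPBlock M B) (χ : Cfsg.IrrCharacter G) (hχ : χ ∈ B) (hdiv : p ^ ((Nat.card G).factorization p - 1) ∣ Cfsg.charDegree (χ : G → ℂ)) (ψ : Cfsg.IrrCharacter G) (hψ : ψ ∈ B) : p ^ ((Nat.card G).factorization p - 1) ∣ Cfsg.charDegree (ψ : G → ℂ) := by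
  classical
  letI : Fintype G := Fintype.ofFinite G
  have hprime := hM.1
  have hpos : 0 < Cfsg.charDegree (χ : G → ℂ) := Cfsg.Agent.Lib.Char.charDegree_pos_of_irr χ.2
  have hposψ : 0 < Cfsg.charDegree (ψ : G → ℂ) := Cfsg.Agent.Lib.Char.charDegree_pos_of_irr ψ.2
  obtain ⟨b, hb⟩ : ∃ b, b = sInf ((fun χ : Cfsg.IrrCharacter G => (Cfsg.charDegree (χ : G → ℂ)).factorization p) '' B) := ⟨_, rfl⟩
  have hbχ : b ≤ (Cfsg.charDegree (χ : G → ℂ)).factorization p := by
    rw [hb]; exact Nat.sInf_le ⟨χ, hχ, rfl⟩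
  have hbψ : b ≤ (Cfsg.charDegree (ψ : G → ℂ)).factorization p := by
    rw [hb]; exact Nat.sInf_le ⟨ψ, hψ, rfl⟩
  have hχa : (Cfsg.charDegree (χ : G → ℂ)).factorization p ≤ (Nat.card G).factorization p :=
    Cfsg.Agent.Lib.CharExtra.factorization_le_card χ
  have h1 := (hprime.pow_dvd_iff_le_factorization hpos.ne').mp hdiv
  rw [hprime.pow_dvd_iff_le_factorization hposψ.ne']
  by_contra hcon
  push Not at hcon
  have hdef : Cfsg.blockDefect p B = (Nat.card G).factorization p - b := by
    unfold Cfsg.blockDefect; rw [← hb]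
  have hheight : Cfsg.blockHeight p B (χ : G → ℂ) = (Cfsg.charDegree (χ : G → ℂ)).factorization p - b := by
    unfold Cfsg.blockHeight; rw [← hb]
  have h2 := ((Cfsg.Agent.Lib.Block.brauer_feit_height hM hB).2 χ hχ).2 (by omega)
  omega

end Cfsg.Agent.S4499
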