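import Cfsg.Statements.S4502
import Mathlib
import Cfsg.Agent.Lib.FF.GenCount

set_option autoImplicit false
open Cfsg

namespace Cfsg.Agent.S4502

/-- Let G be a finite group whose order is divisible by the prime p exactly once, and let P be a Sylow p-subgroup. Then the number of irreducible characters of G of degree not divisible by p equals the number of conjugacy classes of the normalizer of P. -/
theorem result {G : Type*} [Group G] [Finite G] (p : ℕ) [Fact p.Prime] (hdiv : p ∣ Nat.card G) (hsq : ¬ p ^ 2 ∣ Nat.card G) (P : Sylow p G) : Nat.card {χ : Cfsg.IrrCharacter G // ¬ p ∣ Cfsg.charDegree (χ : G → ℂ)} = Nat.card (ConjClasses (Subgroup.normalizer ((P : Subgroup G) : Set G))) := by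
  classical
  let _ : Fintype G := Fintype.ofFinite G
  have hpr := Fact.out (p := p.Prime)
  have hfac : (Nat.card G).factorization p = 1 := by
    obtain ⟨m, hm⟩ := hdiv
    have hm0 : 0 < m := by
      rcases Nat.eq_zero_or_pos m with h | h
      · rw [h, mul_zero] at hm
        exact absurd hm Nat.card_pos.ne'
      · exact h
    have hpm : ¬ p ∣ m := by
      intro h
      apply hsq
      rw [hm, pow_two]
      exact Nat.mul_dvd_mul_left p h
    rw [hm, Nat.factorization_mul hpr.ne_zero hm0.ne']
    simp [hpr.factorization_self, Nat.factorization_eq_zero_of_not_dvd hpm]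
  have hP : Nat.card P = p := by
    rw [P.card_eq_multiplicity, hfac, pow_one]
  have hcyc : IsCyclic P := isCyclic_of_prime_card hP
  obtain ⟨g, hg⟩ := IsCyclic.exists_generator (α := P)
  have hordg : orderOf g = p := (orderOf_eq_card_of_forall_mem_zpowers hg).trans hP
  have hx : orderOf (g : G) = p := by
    rw [Subgroup.orderOf_coe, hordg]
  have hPx : (P : Subgroup G) = Subgroup.zpowers (g : G) := by
    apply le_antisymm
    · intro y hy
      obtain ⟨k, hk⟩ := Subgroup.mem_zpowers_iff.mp (hg ⟨y, hy⟩)
      refine Subgroup.mem_zpowers_iff.mpr ⟨k, ?_⟩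
      have := congrArg Subtype.val hk
      simpa using this
    · rw [Subgroup.zpowers_le]
      exact g.2
  rw [hPx]
  exact Cfsg.Agent.Lib.FF.kprime_eq hx hsq


end Cfsg.Agent.S4502
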