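import Cfsg.Statements.S4503
import Mathlib
import Cfsg.Agent.Lib.FF.FT10

set_option autoImplicit false
open Cfsg

namespace Cfsg.Agent.S4503

/-- Let G be a finite group whose order is divisible by the prime p exactly once and which has no normal subgroup of order p. Then every faithful character χ of G has degree at least (p − 1)/2: 2·χ(1) + 1 ≥ p. -/
theorem result {G : Type*} [Group G] [Finite G] (p : ℕ) (hp : p.Prime) (hdiv : p ∣ Nat.card G) (hsq : ¬ p ^ 2 ∣ Nat.card G) (hnn : ∀ H : Subgroup G, H.Normal → Nat.card H ≠ p) (χ : G → ℂ) (hχ : Cfsg.IsCharacter G χ) (hfaith : ∀ g : G, χ g = χ 1 → g = 1) : p ≤ 2 * Cfsg.charDegree χ + 1 := by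
    classical
  haveI : Fact p.Prime := ⟨hp⟩
  by_contra hcon
  push Not at hcon
  have hdeg : 2 * Cfsg.charDegree χ + 1 < p := hcon
  obtain ⟨x, hx⟩ := exists_prime_orderOf_dvd_card' p hdiv
  have hG0 : Nat.card G ≠ 0 := Nat.card_pos.ne'
  have hX : (Nat.card G).factorization p ≤ 1 := by
    by_contra h
    push Not at h
    exact hsq ((hp.pow_dvd_iff_le_factorization hG0).2 h)
  have hmain := Cfsg.Agent.Lib.FF.ft_normal_main p (Nat.card G) G rfl x hX hx χ hχ hfaith hdeg
  have hN : (Subgroup.zpowers x).Normal := by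
    constructor
    intro n hn g
    obtain ⟨k, rfl⟩ := Subgroup.mem_zpowers_iff.1 hn
    have h1 := hmain g⁻¹
    rw [inv_inv] at h1
    have h2 : g * x ^ k * g⁻¹ = (g * x * g⁻¹) ^ k := by
      rw [conj_zpow]
    rw [h2]
    exact Subgroup.zpow_mem _ h1 k
  apply hnn _ hN
  rw [Nat.card_zpowers, hx]


end Cfsg.Agent.S4503
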