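import Cfsg.Statements.S4506
import Mathlib
import Cfsg.Agent.Lib.FF.GalDeg

set_option autoImplicit false
open Cfsg

namespace Cfsg.Agent.S4506

/-- Let G be a finite group, p a prime, p^a the p-part of the order of G and g′ its p′-part. Call two irreducible characters p-conjugate when one is obtained from the other by applying a field automorphism of ℂ that fixes the g′-th roots of unity, and let r be the number of characters p-conjugate to the irreducible character χ (χ included). Then the exponent of p in r·χ(1) is at most a; and if p^a divides r·χ(1) then p^a already divides χ(1). -/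
theorem result {G : Type*} [Group G] [Finite G] (p : ℕ) (hp : p.Prime) (χ : Cfsg.IrrCharacter G) (r : ℕ) (hr : Nat.card {ψ : Cfsg.IrrCharacter G // ∃ σ : ℂ ≃+* ℂ, σ (Complex.exp (2 * Real.pi * Complex.I / ((Nat.card G / p ^ (Nat.card G).factorization p) : ℕ))) = Complex.exp (2 * Real.pi * Complex.I / ((Nat.card G / p ^ (Nat.card G).factorization p) : ℕ)) ∧ (ψ : G → ℂ) = fun g => σ ((χ : G → ℂ) g)} = r) : (r * Cfsg.charDegree (χ : G → ℂ)).factorization p ≤ (Nat.card G).factorization p ∧ (p ^ (Nat.card G).factorization p ∣ r * Cfsg.charDegree (χ : G → ℂ) → p ^ (Nat.card G).factorization p ∣ Cfsg.charDegree (χ : G → ℂ)) := by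
  classical
  letI : Fintype G := Fintype.ofFinite G
  haveI : Fact p.Prime := ⟨hp⟩
  have hN0 : Nat.card G ≠ 0 := Nat.card_pos.ne'
  have hdm : Nat.card G / p ^ (Nat.card G).factorization p ∣ Nat.card G := Nat.ordCompl_dvd _ _
  have hpm : ¬ p ∣ Nat.card G / p ^ (Nat.card G).factorization p := Nat.not_dvd_ordCompl hp hN0
  have hm0 : 0 < Nat.card G / p ^ (Nat.card G).factorization p := Nat.ordCompl_pos p hN0
  have hNeq : Nat.card G = p ^ (Nat.card G).factorization p * (Nat.card G / p ^ (Nat.card G).factorization p) :=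
    (Nat.ordProj_mul_ordCompl_eq_self _ p).symm
  generalize hmd : Nat.card G / p ^ (Nat.card G).factorization p = m at hr hdm hpm hm0 hNeq
  rw [Cfsg.Agent.Lib.FF.card_conj_eq hdm hm0 χ] at hr
  subst hr
  rcases Nat.eq_zero_or_pos ((Nat.card G).factorization p) with ha | ha
  · rw [ha]
    refine ⟨?_, fun _ => by simp⟩
    have hpN : ¬ p ∣ Nat.card G := by
      intro h
      have := (hp.dvd_iff_one_le_factorization hN0).mp h
      omega
    have horb : Cfsg.Agent.Lib.FF.orbI (Cfsg.Agent.Lib.FF.HI hdm) χ = {χ} := by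
      ext ψ
      rw [Cfsg.Agent.Lib.FF.mem_orbI, Finset.mem_singleton]
      constructor
      · rintro ⟨u, hu, rfl⟩
        apply Subtype.ext
        funext g
        rw [Cfsg.Agent.Lib.FF.actI_apply]
        have h1 := (Cfsg.Agent.Lib.FF.mem_HI hdm u).mp hu
        rw [ha, pow_zero, Nat.div_one] at hmd
        rw [← hmd] at h1
        rw [Cfsg.Agent.Lib.FF.pow_eq_self_of_modEq h1 (pow_card_eq_one')]
      · rintro rfl
        exact ⟨1, Subgroup.one_mem _, Cfsg.Agent.Lib.FF.actI_one ψ⟩
    rw [horb, Finset.card_singleton, one_mul, Nat.factorization_eq_zero_of_not_dvd]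
    intro h
    exact hpN (h.trans (Cfsg.Agent.Lib.Char.charDegree_dvd_card χ.2))
  · obtain ⟨a, ha'⟩ : ∃ a, (Nat.card G).factorization p = a + 1 := ⟨_, (Nat.succ_pred_eq_of_pos ha).symm⟩
    rw [ha'] at hNeq
    have h := Cfsg.Agent.Lib.FF.gal_deg_main (p := p) (a := a) hNeq hpm hdm χ
    rw [ha']
    exact h


end Cfsg.Agent.S4506
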