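import Cfsg.Statements.S4507
import Mathlib
import Cfsg.Agent.Lib.FF.GenGal

set_option autoImplicit false
open Cfsg

namespace Cfsg.Agent.S4507

/-- Let G be a finite group whose order g is divisible by the prime p exactly once, g′ = g/p, and fix a maximal ideal M of the algebraic integers containing p. Call two irreducible characters p-conjugate when a field automorphism of ℂ fixing the g′-th roots of unity carries one to the other. Let B be a p-block of positive defect (its defect group is a Sylow p-subgroup). Then B contains a subset Y (the exceptional family) such that: Y is a full p-conjugacy class (its members are pairwise p-conjugate and every p-conjugate of a member of Y lies in Y); every member of B outside Y is p-conjugate only to itself; the size t of Y divides p − 1 and B has exactly t + (p − 1)/t members; and there are signs δ_χ = ±1 (χ ∈ B) such that for every p-regular element x and every θ ∈ Y, Σ_{χ ∈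 B ∖ Y} δ_χ χ(x) + δ_θ θ(x) = 0. -/
theorem result {G : Type*} [Group G] [Finite G] (p : ℕ) [Fact p.Prime] (M : Ideal Cfsg.AlgInt) (hM : Cfsg.IsPModular p M) (hdiv : p ∣ Nat.card G) (hsq : ¬ p ^ 2 ∣ Nat.card G) (B : Set (Cfsg.IrrCharacter G)) (hB : Cfsg.IsPBlock M B) (hd : 0 < Cfsg.blockDefect p B) : ∃ Y : Set (Cfsg.IrrCharacter G), Y ⊆ B ∧ Y.Nonempty ∧ (∀ θ ∈ Y, ∀ ψ : Cfsg.IrrCharacter G, (∃ σ : ℂ ≃+* ℂ, σ (Complex.exp (2 * Real.pi * Complex.I / ((Nat.card G / p ^ (Nat.card G).factorization p) : ℕ))) = Complex.exp (2 * Real.pi * Complex.I / ((Nat.card G / p ^ (Nat.card G).factorization p) : ℕ)) ∧ (ψ : G → ℂ) = fun g => σ ((θ : G → ℂ) g)) ↔ ψ ∈ Y) ∧ (∀ χ ∈ B, χ ∉ Y → ∀ ψ : Cfsg.IrrCharacter G, (∃ σ : ℂ ≃+* ℂ, σ (Complex.exp (2 * Real.pi * Complex.I / ((Nat.card G / p ^ (Nat.card G).factorization p) : ℕ))) = Complex.exp (2 * Real.pi * Complex.I / ((Nat.card G / p ^ (Nat.card G).factorization p) : ℕ)) ∧ (ψ : G → ℂ) = fun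 g => σ ((χ : G → ℂ) g)) → ψ = χ) ∧ Nat.card Y ∣ p - 1 ∧ Nat.card B = Nat.card Y + (p - 1) / Nat.card Y ∧ ∃ δ : Cfsg.IrrCharacter G → ℤ, (∀ χ ∈ B, δ χ = 1 ∨ δ χ = -1) ∧ ∀ x : G, ¬ p ∣ orderOf x → ∀ θ ∈ Y, (∑ᶠ χ ∈ B \ Y, (δ χ : ℂ) * (χ : G → ℂ) x) + (δ θ : ℂ) * (θ : G → ℂ) x = 0 := by
  classical
  let _ : Fintype G := Fintype.ofFinite G
  have hpr := Fact.out (p := p.Prime)
  haveI := Cfsg.Agent.Lib.Block.isPModular_isPrime hM
  obtain ⟨x, hx, hD⟩ := Cfsg.Agent.Lib.FF.exists_block_data hM hdiv hsq hB hd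
  let _ : Fintype (Subgroup.zpowers x) := Fintype.ofFinite _
  obtain ⟨m, hm⟩ := hdiv
  have hm0 : 0 < m := by
    rcases Nat.eq_zero_or_pos m with h | h
    · rw [h, mul_zero] at hm
      exact absurd hm Nat.card_pos.ne'
    · exact h
  have hpm : ¬ p ∣ m := by
    intro h
    apply hsq
    rw [hm, pow_two]
    exact Nat.mul_dvd_mul_left p h
  have hfac : (Nat.card G).factorization p = 1 := by
    rw [hm, Nat.factorization_mul hpr.ne_zero hm0.ne']
    simp [hpr.factorization_self, Nat.factorization_eq_zero_of_not_dvd hpm]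
  have hquot : Nat.card G / p ^ (Nat.card G).factorization p = m := by
    rw [hfac, pow_one, hm, Nat.mul_div_cancel_left _ hpr.pos]
  rw [hquot]
  have hG1 : 1 < Nat.card G := by
    rw [hm]
    nlinarith [hpr.two_le]
  obtain ⟨K, hK⟩ := Cfsg.Agent.Lib.FF.exists_compK (G := G) (p := p) hx hsq
  let _ : Fintype K := Fintype.ofFinite _
  let C : Subgroup G := Subgroup.centralizer ({x} : Set G)
  let _ : Fintype C := Fintype.ofFinite _
  have hC : ∀ y, y ∈ C ↔ Commute y x := by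
    intro y
    show y ∈ Subgroup.centralizer ({x} : Set G) ↔ _
    rw [Subgroup.mem_centralizer_singleton_iff]
    rfl
  have hKC := Cfsg.Agent.Lib.FF.le_C_of_compK hK hC
  have hPC : Subgroup.zpowers x ≤ C := by
    rw [Subgroup.zpowers_le]
    exact (hC x).mpr (Commute.refl x)
  have hCP : Subgroup.centralizer ((Subgroup.zpowers x : Subgroup G) : Set G) ≤ C := by
    intro y hy
    rw [Subgroup.mem_centralizer_iff] at hy
    exact (hC y).mpr (hy x (Subgroup.mem_zpowers x)).symm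
  obtain ⟨b, -, hind⟩ := Cfsg.Agent.Lib.Block.exists_block_inducing_defect hM
    (IsPGroup.of_card (n := 1) (by rw [Nat.card_zpowers, hx, pow_one])) hB hD hPC hCP (Cfsg.Agent.Lib.FF.C_le_N hC)
  obtain ⟨ξ, hξ⟩ := Cfsg.Agent.Lib.Block.IsPBlock_nonempty hind.1
  obtain ⟨θ₀, hθ₀⟩ := Cfsg.Agent.Lib.FF.exists_mu_of_xi hx hK hC ξ
  have hbA : b = Cfsg.Agent.Lib.FF.Amu hKC θ₀ :=
    (Cfsg.Agent.Lib.Block.blockOf_eq_of_mem hind.1 hξ).trans
      (Cfsg.Agent.Lib.Block.blockOf_eq_of_mem (Cfsg.Agent.Lib.FF.Amu_isPBlock hx hK hC hM θ₀) hθ₀).symm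
  subst hbA
  obtain ⟨T, hT⟩ := Cfsg.Agent.Lib.FF.exists_stabT hK θ₀
  let _ : Fintype T := Fintype.ofFinite _
  have hCT : C ≤ T := by
    intro y hy
    rw [hT y]
    refine ⟨Cfsg.Agent.Lib.FF.C_le_N hC hy, fun k k' hk => ?_⟩
    have h1 := Cfsg.Agent.Lib.FF.thConj_C hK hC θ₀ y hy
    have h2 := congrArg (fun ξ : Cfsg.IrrCharacter K => (ξ : K → ℂ) k) h1
    simp only [Cfsg.Agent.Lib.FF.thConj_apply] at h2
    rw [← h2]
    exact congrArg _ (Subtype.ext hk)
  have hcardT : Nat.card T = C.relIndex T * Nat.card C := by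
    rw [← Subgroup.relIndex_bot_left, ← Subgroup.relIndex_bot_left,
        mul_comm, Subgroup.relIndex_mul_relIndex _ _ _ bot_le hCT]
  obtain ⟨X, Y, δ, hBeq, hdisj, hXc, hYc, hYne, hδ, hsum, hXfix, hYpow, hYtr⟩ :=
    Cfsg.Agent.Lib.FF.block_galois_main hM hx hsq hK hC hT hB hD hind _ hcardT hm hpm
  have hω : ∀ s : ℕ, s ≡ 1 [MOD m] → (Complex.exp (2 * Real.pi * Complex.I / (m : ℕ))) ^ s =
      Complex.exp (2 * Real.pi * Complex.I / (m : ℕ)) := by
    intro s hs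
    have h1 := (Complex.isPrimitiveRoot_exp m hm0.ne').pow_eq_one
    rw [pow_eq_pow_mod s h1, hs, ← pow_eq_pow_mod 1 h1, pow_one]
  have hmG : m ∣ Nat.card G := ⟨p, by rw [hm, mul_comm]⟩
  have hfwd : ∀ (χ ψ : Cfsg.IrrCharacter G) (σ : ℂ ≃+* ℂ),
      σ (Complex.exp (2 * Real.pi * Complex.I / (m : ℕ))) = Complex.exp (2 * Real.pi * Complex.I / (m : ℕ)) →
      (ψ : G → ℂ) = (fun g => σ ((χ : G → ℂ) g)) →
      ∃ (s : ℕ) (hs : s.Coprime (Nat.card G)), s ≡ 1 [MOD m] ∧ ψ = Cfsg.Agent.Lib.FF.powIrr hs χ := by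
    intro χ ψ σ hσ hψ
    obtain ⟨s, hs, hs1, hz⟩ := Cfsg.Agent.Lib.FF.exists_pow_of_fix hG1 hmG hm0 σ hσ
    refine ⟨s, hs, hs1, Subtype.ext ?_⟩
    rw [hψ]
    funext g
    exact Cfsg.Agent.Lib.FF.aut_char_value σ s hz χ g
  have hYcard : Nat.card (↑Y : Set (Cfsg.IrrCharacter G)) = Y.card := by
    rw [Nat.card_coe_set_eq, Set.ncard_coe_finset]
  have hYpos : 0 < Y.card := Finset.card_pos.mpr hYne
  have hBcard : Nat.card B = Y.card + (p - 1) / Y.card := by
    rw [hBeq, ← Finset.coe_union, Nat.card_coe_set_eq, Set.ncard_coe_finset,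
      Finset.card_union_of_disjoint hdisj, hXc, ← hYc, Nat.mul_div_cancel_left _ hYpos, add_comm]
  refine ⟨↑Y, ?_, ?_, ?_, ?_, ?_, ?_, δ, hδ, ?_⟩
  · rw [hBeq]
    exact Set.subset_union_right
  · exact_mod_cast hYne
  · intro θ hθ ψ
    constructor
    · rintro ⟨σ, hσ, hψ⟩
      obtain ⟨s, hs, hs1, rfl⟩ := hfwd θ ψ σ hσ hψ
      exact_mod_cast hYpow θ (by exact_mod_cast hθ) s hs hs1
    · intro hψ
      obtain ⟨s, hs, hs1, rfl⟩ := hYtr θ (by exact_mod_cast hθ) ψ (by exact_mod_cast hψ)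
      obtain ⟨σ, hσ⟩ := Cfsg.Agent.Lib.FF.exists_aut_pow (Nat.card G) s Nat.card_pos hs
      refine ⟨σ, ?_, ?_⟩
      · rw [hσ _ ?_, hω s hs1]
        obtain ⟨c, hc⟩ := hmG
        rw [hc, pow_mul, (Complex.isPrimitiveRoot_exp m hm0.ne').pow_eq_one, one_pow]
      · funext g
        exact (Cfsg.Agent.Lib.FF.aut_char_value σ s hσ θ g).symm
  · intro χ hχ hχY ψ ⟨σ, hσ, hψ⟩
    obtain ⟨s, hs, hs1, rfl⟩ := hfwd χ ψ σ hσ hψ
    have hχX : χ ∈ X := by
      rw [hBeq] at hχ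
      rcases hχ with h | h
      · exact_mod_cast h
      · exact absurd h hχY
    exact Subtype.ext (funext fun g => hXfix χ hχX s hs hs1 g)
  · rw [hYcard]
    exact ⟨_, hYc.symm⟩
  · rw [hYcard]
    exact hBcard
  · intro g hg θ hθ
    have h1 : B \ ↑Y = ↑X := by
      rw [hBeq, Set.union_sdiff_right]
      exact (Finset.disjoint_coe.mpr hdisj).sdiff_eq_left
    rw [h1, finsum_mem_coe_finset]
    exact hsum θ (by exact_mod_cast hθ) g hg


end Cfsg.Agent.S4507
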