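import Cfsg.Statements.S4509
import Cfsg.Agent.Lib.SelfCentral.Basic
import Mathlib

set_option autoImplicit false
open Cfsg

namespace Cfsg.Agent.S4509

open Cfsg.Agent.Lib.SelfCentral

variable {G : Type*} [Group G] [Finite G]

lemma derived_two : derivedSeries G 2 = ⁅commutator G, commutator G⁆ := by
  rw [derivedSeries_succ, derivedSeries_one]

lemma normalizer_le_of_eq_one {p : ℕ} {x : G} (h : Setup p x) {m : ℕ}
    (hm : Nat.card (Subgroup.normalizer (Subgroup.zpowers x : Set G)) = p * m) (hm1 : m = 1) :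
    Subgroup.normalizer (Subgroup.zpowers x : Set G) ≤ Subgroup.zpowers x := by
  have hle : Subgroup.zpowers x ≤ Subgroup.normalizer (Subgroup.zpowers x : Set G) := Subgroup.le_normalizer
  have heq : Subgroup.zpowers x = Subgroup.normalizer (Subgroup.zpowers x : Set G) := by
    apply Subgroup.eq_of_le_of_card_ge hle
    rw [hm, hm1, mul_one, h.card_zpowers]
  exact heq.ge

lemma not_normalizer_le {p : ℕ} {x : G} (h : Setup p x) {m : ℕ}
    (hm : Nat.card (Subgroup.normalizer (Subgroup.zpowers x : Set G)) = p * m) (hmpos : 0 < m) (hm1 : m ≠ 1) :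
    ¬ Subgroup.normalizer (Subgroup.zpowers x : Set G) ≤ Subgroup.zpowers x := by
  intro hle
  have h1 := Nat.card_le_card_of_injective _ (Subgroup.inclusion_injective hle)
  rw [hm, h.card_zpowers] at h1
  have : m ≤ 1 := by
    have : p * m ≤ p * 1 := by simpa using h1
    exact Nat.le_of_mul_le_mul_left this h.hp.pos
  omega

/-- Case `t < p - 1`, `G'' ≠ G'`. -/
lemma case_two {p : ℕ} {x : G} (h : Setup p x) (hle : Subgroup.zpowers x ≤ commutator G)
    (hne : ⁅commutator G, commutator G⁆ ≠ commutator G) :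
    Nat.card ↥(⁅commutator G, commutator G⁆ : Subgroup G) = (Subgroup.normalizer (Subgroup.zpowers x : Set G)).index ∧
      Nat.card (commutator G) = p * Nat.card ↥(⁅commutator G, commutator G⁆ : Subgroup G) := by
  set D : Subgroup G := ⁅commutator G, commutator G⁆ with hD
  have hDn : D.Normal := inferInstance
  have hDle : D ≤ commutator G := Subgroup.commutator_le_left _ _
  have hDd : ¬ p ∣ Nat.card D := by
    intro hd
    exact hne (le_antisymm hDle (h.commutator_le_of_dvd D hd))
  have hgen : commutator G = Subgroup.zpowers x ⊔ D := by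
    apply le_antisymm
    · intro g hg
      have h3 : x * g * x⁻¹ * g⁻¹ ∈ D := by
        rw [hD, ← commutatorElement_def]
        exact Subgroup.commutator_mem_commutator (hle (Subgroup.mem_zpowers x)) hg
      obtain ⟨y, hy, hyD⟩ := h.exists_mem_zpowers_inv_mul_mem D hDd g h3
      have : g = y * (y⁻¹ * g) := by group
      rw [this]
      exact Subgroup.mul_mem_sup hy hyD
    · exact sup_le hle hDle
  have h1 : Nat.card (commutator G) = p * Nat.card D := by
    have := Setup.card_sup_of_inf_eq_bot (Subgroup.zpowers x) D (h.inf_eq_bot D hDd)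
    rw [hgen, this, h.card_zpowers]
  refine ⟨?_, h1⟩
  -- `G = N D`, `N ∩ D = 1`
  have hsup : Subgroup.normalizer (Subgroup.zpowers x : Set G) ⊔ D = ⊤ := by
    have h2 := h.normalizer_sup_eq_top (commutator G) hle
    rw [hgen, ← sup_assoc, sup_eq_left.2 (Subgroup.le_normalizer (H := Subgroup.zpowers x))] at h2
    exact h2
  have h3 := Setup.card_sup_of_inf_eq_bot (Subgroup.normalizer (Subgroup.zpowers x : Set G)) D (h.inf_normalizer_eq_bot D hDd)
  rw [hsup, Subgroup.card_top] at h3
  have h4 := Subgroup.card_mul_index (Subgroup.normalizer (Subgroup.zpowers x : Set G))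
  rw [h3] at h4
  exact (Nat.eq_of_mul_eq_mul_left Nat.card_pos h4).symm

/-- The forward direction: a normal subgroup of order `1 + np`. -/
lemma forward {p : ℕ} {x : G} (h : Setup p x) (S : Subgroup G) [hS : S.Normal]
    (hcard : Nat.card S = (Subgroup.normalizer (Subgroup.zpowers x : Set G)).index)
    (hd : ¬ p ∣ Nat.card S)
    (hN : ¬ Subgroup.normalizer (Subgroup.zpowers x : Set G) ≤ Subgroup.zpowers x) :
    ⁅commutator G, commutator G⁆ ≠ commutator G := by
  intro heq
  -- `N ⊔ S = ⊤`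
  have hsup : Subgroup.normalizer (Subgroup.zpowers x : Set G) ⊔ S = ⊤ := by
    apply Subgroup.eq_top_of_card_eq
    rw [Setup.card_sup_of_inf_eq_bot _ S (h.inf_normalizer_eq_bot S hd), hcard, Subgroup.card_mul_index]
  -- `G' ≤ P S`
  have hle1 : commutator G ≤ Subgroup.zpowers x ⊔ S := by
    rw [_root_.commutator_def, Subgroup.commutator_le]
    intro g₁ _ g₂ _
    have hg₁ : g₁ ∈ Subgroup.normalizer (Subgroup.zpowers x : Set G) ⊔ S := by rw [hsup]; trivial
    have hg₂ : g₂ ∈ Subgroup.normalizer (Subgroup.zpowers x : Set G) ⊔ S := by rw [hsup]; trivial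
    rw [Subgroup.mem_sup_of_normal_right] at hg₁ hg₂
    obtain ⟨n₁, hn₁, s₁, hs₁, rfl⟩ := hg₁
    obtain ⟨n₂, hn₂, s₂, hs₂, rfl⟩ := hg₂
    have hc := h.commutator_mem_of_mem_normalizer hn₁ hn₂
    rw [Subgroup.mem_sup_of_normal_right]
    refine ⟨_, hc, ?_⟩
    refine ⟨(n₁ * n₂ * n₁⁻¹ * n₂⁻¹)⁻¹ * ((n₁ * s₁) * (n₂ * s₂) * (n₁ * s₁)⁻¹ * (n₂ * s₂)⁻¹), ?_,
      by rw [commutatorElement_def]; group⟩
    apply (QuotientGroup.eq_one_iff _).1
    have hs1 : ((s₁ : G) : G ⧸ S) = 1 := (QuotientGroup.eq_one_iff _).2 hs₁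
    have hs2 : ((s₂ : G) : G ⧸ S) = 1 := (QuotientGroup.eq_one_iff _).2 hs₂
    simp only [QuotientGroup.mk_mul, QuotientGroup.mk_inv, hs1, hs2,
      mul_one, inv_one]
    group
  -- `G'' ≤ S`
  have hle2 : (⁅commutator G, commutator G⁆ : Subgroup G) ≤ S := by
    rw [Subgroup.commutator_le]
    intro g₁ hg₁ g₂ hg₂
    have hg₁ := hle1 hg₁
    have hg₂ := hle1 hg₂
    rw [Subgroup.mem_sup_of_normal_right] at hg₁ hg₂
    obtain ⟨n₁, hn₁, s₁, hs₁, rfl⟩ := hg₁
    obtain ⟨n₂, hn₂, s₂, hs₂, rfl⟩ := hg₂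
    apply (QuotientGroup.eq_one_iff _).1
    have hs1 : ((s₁ : G) : G ⧸ S) = 1 := (QuotientGroup.eq_one_iff _).2 hs₁
    have hs2 : ((s₂ : G) : G ⧸ S) = 1 := (QuotientGroup.eq_one_iff _).2 hs₂
    obtain ⟨k, rfl⟩ := hn₁
    obtain ⟨l, rfl⟩ := hn₂
    simp only [commutatorElement_def, QuotientGroup.mk_mul, QuotientGroup.mk_inv, hs1, hs2,
      mul_one, inv_one]
    have : (x ^ k) * (x ^ l) * (x ^ k)⁻¹ * (x ^ l)⁻¹ = 1 := by
      have : Commute (x ^ k) (x ^ l) := (Commute.refl x).zpow_zpow k l
      rw [this.eq]; group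
    have h3 := congrArg (fun g : G => (g : G ⧸ S)) this
    simpa using h3
  rw [heq] at hle2
  -- `N` abelian, so `N ≤ C(x) = P`.
  apply hN
  intro n hn
  rw [← h.hC, Setup.mem_centralizer_iff_commute]
  have h1 : n * x * n⁻¹ * x⁻¹ ∈ S := hle2 (Setup.comm_mem_commutator' n x)
  have h2 : n * x * n⁻¹ * x⁻¹ ∈ Subgroup.zpowers x := by
    have hax : n * x * n⁻¹ ∈ Subgroup.zpowers x := (Subgroup.mem_set_normalizer_iff.1 hn x).1 (Subgroup.mem_zpowers x)
    exact (Subgroup.zpowers x).mul_mem hax ((Subgroup.zpowers x).inv_mem (Subgroup.mem_zpowers x))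
  have h3 : n * x * n⁻¹ * x⁻¹ ∈ Subgroup.zpowers x ⊓ S := ⟨h2, h1⟩
  rw [h.inf_eq_bot S hd, Subgroup.mem_bot] at h3
  rw [mul_inv_eq_one, mul_inv_eq_iff_eq_mul] at h3
  exact h3

/-- Let the finite group G contain an element x of prime order p with C_G(x) = ⟨x⟩; let t be the number of conjugacy classes of elements of order p and 1 + n·p the number of subgroups of order p. Then G has a normal subgroup of order 1 + n·p if and only if either t = p − 1, or t < p − 1 and G″ ≠ G′. Moreover, if t = p − 1 then G′ has order 1 + n·p and G/G′ is cyclic of order p; and if t < p − 1 and G″ ≠ G′ then G″ has order 1 + n·p and G′ has order p·(1 + n·p). -/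
theorem result {G : Type*} [Group G] [Finite G] (p : ℕ) (hp : p.Prime) (x : G) (hx : orderOf x = p) (hC : Subgroup.centralizer ({x} : Set G) = Subgroup.zpowers x) (t : ℕ) (ht : Nat.card {C : ConjClasses G // ∃ g ∈ C.carrier, orderOf g = p} = t) (n : ℕ) (hn : Nat.card {H : Subgroup G // Nat.card H = p} = 1 + n * p) : ((∃ S : Subgroup G, S.Normal ∧ Nat.card S = 1 + n * p) ↔ (t = p - 1 ∨ (t < p - 1 ∧ derivedSeries G 2 ≠ derivedSeries G 1))) ∧ (t = p - 1 → Nat.card (commutator G) = 1 + n * p ∧ IsCyclic (G ⧸ commutator G) ∧ (commutator G).index = p) ∧ (t < p - 1 → derivedSeries G 2 ≠ derivedSeries G 1 → Nat.card (derivedSeries G 2) = 1 + n * p ∧ Nat.card (commutator G) = p * (1 + n * p)) := by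
  have h : Setup p x := ⟨hp, hx, hC⟩
  have := Fact.mk hp
  obtain ⟨m, hm, hmpos⟩ := h.exists_card_normalizer
  have htm := h.classes_mul t m ht hm
  have hp1 : 0 < p - 1 := Nat.sub_pos_of_lt hp.one_lt
  have hidx := h.card_subgroups_eq_index
  rw [hn] at hidx
  have hcardG : Nat.card (Subgroup.normalizer (Subgroup.zpowers x : Set G)) * (1 + n * p) = Nat.card G := by
    rw [hidx]; exact Subgroup.card_mul_index _
  rw [derived_two, derivedSeries_one]
  -- the case `t = p - 1`
  have hcase1 : t = p - 1 → Nat.card (commutator G) = 1 + n * p ∧ IsCyclic (G ⧸ commutator G) ∧ (commutator G).index = p := by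
    intro ht1
    have hm1 : m = 1 := by
      rw [ht1] at htm
      exact Nat.eq_of_mul_eq_mul_left hp1 (by rw [htm, mul_one])
    have hN := normalizer_le_of_eq_one h hm hm1
    obtain ⟨h1, h2⟩ := h.commutator_of_normalizer_le hN
    refine ⟨?_, ?_, h1⟩
    · have h3 := Subgroup.card_mul_index (commutator G)
      rw [h1, ← hcardG, hm, hm1, mul_one, mul_comm] at h3
      exact Nat.eq_of_mul_eq_mul_left hp.pos h3
    · apply isCyclic_of_prime_card (p := p)
      rw [← h1]; rfl
  have hcase2 : t < p - 1 → ⁅commutator G, commutator G⁆ ≠ commutator G → Nat.card ↥(⁅commutator G, commutator G⁆ : Subgroup G) = 1 + n * p ∧ Nat.card (commutator G) = p * (1 + n * p) := by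
    intro htlt hne
    have hm1 : m ≠ 1 := by
      rintro rfl
      rw [mul_one] at htm
      omega
    have hN := not_normalizer_le h hm hmpos hm1
    have hle := h.zpowers_le_commutator hN
    obtain ⟨h1, h2⟩ := case_two h hle hne
    rw [h1, ← hidx] at *
    exact ⟨h1, by rw [h2, h1]⟩
  refine ⟨?_, hcase1, hcase2⟩
  constructor
  · rintro ⟨S, hS, hcard⟩
    by_cases ht1 : t = p - 1
    · exact Or.inl ht1
    · right
      have hm1 : m ≠ 1 := by
        rintro rfl
        rw [mul_one] at htm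
        exact ht1 htm
      have hlt : t < p - 1 := by
        have : t * 1 ≤ t * m := Nat.mul_le_mul_left _ hmpos
        have h2 : t ≠ 0 := by
          rintro rfl
          omega
        have h3 : t * 1 < t * m := Nat.mul_lt_mul_of_pos_left (by omega) (by omega)
        omega
      refine ⟨hlt, ?_⟩
      have hd : ¬ p ∣ Nat.card S := by
        rw [hcard]
        intro hd
        have : p ∣ 1 := by
          have h2 : p ∣ n * p := dvd_mul_left _ _
          exact (Nat.dvd_add_left h2).1 hd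
        exact hp.one_lt.ne' (Nat.dvd_one.1 this)
      exact forward h S (by rw [hcard, hidx]) hd (not_normalizer_le h hm hmpos hm1)
  · rintro (h1 | ⟨h1, h2⟩)
    · exact ⟨commutator G, inferInstance, (hcase1 h1).1⟩
    · exact ⟨_, inferInstance, (hcase2 h1 h2).1⟩

end Cfsg.Agent.S4509
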