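import Cfsg.Statements.S4512
import Mathlib
import Cfsg.Agent.Lib.FF.KleinBlock
import Cfsg.Agent.Lib.Block.Subsect

set_option autoImplicit false
open Cfsg

namespace Cfsg.Agent.S4512

/-- If G is a finite group with a Sylow 2-subgroup that is a Klein four-group and a single conjugacy class of involutions, then its principal 2-block (relative to a maximal ideal M of the algebraic integers containing 2) has 2-regular rank 3: the restrictions of its irreducible characters to the elements of odd order span a space of dimension 3 (it has three irreducible Brauer characters). -/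
theorem result {G : Type*} [Group G] [Finite G] (M : Ideal Cfsg.AlgInt) (hM : Cfsg.IsPModular 2 M) (P : Sylow 2 G)
    (hP : Nat.card P = 4) (hexp : ∀ x : P, x * x = 1)
    (hone : ∀ s t : G, orderOf s = 2 → orderOf t = 2 → IsConj s t) :
    Cfsg.blockRank 2 (Cfsg.principalBlock M G) = 3 := by
  classical
  haveI : Fintype G := Fintype.ofFinite G
  have hP' : IsKleinFour (P : Subgroup G) := by
    refine ⟨hP, ?_⟩
    have h1 : Monoid.exponent (P : Subgroup G) ∣ 2 := by
      apply Monoid.exponent_dvd_of_forall_pow_eq_one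
      intro g
      rw [pow_two]
      exact hexp g
    have h2 : Monoid.exponent (P : Subgroup G) ≠ 1 := by
      intro h3
      have h4 := Monoid.exp_eq_one_iff.1 h3
      have h5 := Nat.card_eq_one_iff_unique.2 ⟨h4, ⟨1⟩⟩
      rw [hP] at h5
      omega
    rcases (Nat.dvd_prime Nat.prime_two).1 h1 with h | h
    · exact absurd h h2
    · exact h
  obtain ⟨ζ₂, ζ₃, ζ₄, ε, hε, h2ne, h3ne, h23, h24, h34, hB, hinv, -, -, -, hrel⟩ :=
    Cfsg.Agent.Lib.Block.principal_klein hM P hP' hone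
  set o := Cfsg.Agent.Lib.Block.oneIrr G with ho
  have hoc : ((o : Cfsg.IrrCharacter G) : G → ℂ) = fun _ => 1 := Cfsg.Agent.Lib.Block.oneIrr_coe
  have ho2 : o ≠ ζ₂ := fun h => h2ne (by rw [← h, hoc])
  have ho3 : o ≠ ζ₃ := fun h => h3ne (by rw [← h, hoc])
  -- an involution
  have hex : ∃ z : G, orderOf z = 2 := by
    have h1 : 2 ∣ Nat.card G := by
      have := Subgroup.card_subgroup_dvd_card (P : Subgroup G)
      rw [show Nat.card (P : Subgroup G) = 4 from hP] at this
      omega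
    obtain ⟨x, hx⟩ := exists_prime_orderOf_dvd_card' 2 h1
    exact ⟨x, hx⟩
  obtain ⟨z, hz⟩ := hex
  obtain ⟨hz2, hz3, hz4⟩ := hinv z hz
  have ho4 : o ≠ ζ₄ := by
    intro h
    have := congrFun hoc z
    rw [h, hz4] at this
    norm_num at this
  have hmem : ∀ χ : Cfsg.IrrCharacter G, χ ∈ Cfsg.principalBlock M G ↔ χ = o ∨ χ = ζ₂ ∨ χ = ζ₃ ∨ χ = ζ₄ := by
    intro χ
    rw [hB]
    simp only [Set.mem_ofPred_eq]
    constructor
    · rintro (h | h)
      · left
        exact Subtype.ext (by rw [h, hoc])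
      · exact Or.inr h
    · rintro (h | h)
      · left
        rw [h, hoc]
      · exact Or.inr h
  have hoB : o ∈ Cfsg.principalBlock M G := (hmem o).2 (Or.inl rfl)
  have h2B : ζ₂ ∈ Cfsg.principalBlock M G := (hmem ζ₂).2 (Or.inr (Or.inl rfl))
  have h3B : ζ₃ ∈ Cfsg.principalBlock M G := (hmem ζ₃).2 (Or.inr (Or.inr (Or.inl rfl)))
  have h4B : ζ₄ ∈ Cfsg.principalBlock M G := (hmem ζ₄).2 (Or.inr (Or.inr (Or.inr rfl)))
  have hoz : (o : G → ℂ) z = 1 := congrFun hoc z
  -- the singular values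
  have hsing : ∀ ζ ∈ Cfsg.principalBlock M G, ∀ y : G, 2 ∣ orderOf y → (ζ : G → ℂ) y = (ζ : G → ℂ) z :=
    fun ζ hζ y hy => Cfsg.Agent.Lib.FF.principal_const_singular_klein hM P hP' hone hz hζ hy
  have hεε : ((ε : ℤ) : ℂ) * (ε : ℂ) = 1 := by
    rcases hε with rfl | rfl <;> simp
  set r : Cfsg.IrrCharacter G → (G → ℂ) := fun χ => Cfsg.pRegularPart 2 (χ : G → ℂ) with hr
  -- the fourth is a combination
  have hr4 : r ζ₄ = r o + r ζ₂ + (ε : ℂ) • r ζ₃ := by
    funext g
    simp only [hr, Pi.add_apply, Pi.smul_apply, smul_eq_mul]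
    by_cases hg : 2 ∣ orderOf g
    · simp [Cfsg.Agent.Lib.Block.pRegularPart_of_sing hg]
    · have hodd : Odd (orderOf g) := Nat.not_even_iff_odd.1 (fun h => hg h.two_dvd)
      have h1 := hrel g hodd
      rw [Cfsg.Agent.Lib.Block.pRegularPart_of_reg hg, Cfsg.Agent.Lib.Block.pRegularPart_of_reg hg,
        Cfsg.Agent.Lib.Block.pRegularPart_of_reg hg, Cfsg.Agent.Lib.Block.pRegularPart_of_reg hg,
        show (o : G → ℂ) g = 1 from congrFun hoc g]
      linear_combination -h1
  -- independence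
  have hli : LinearIndependent ℂ ![r o, r ζ₂, r ζ₃] := by
    rw [Fintype.linearIndependent_iff]
    intro c hc
    rw [Fin.sum_univ_three] at hc
    simp only [Matrix.cons_val_zero, Matrix.cons_val_one, Matrix.cons_val] at hc
    -- the combination is constant on the singular elements
    set κ : ℂ := c 0 + c 1 + c 2 * ε with hκ
    have hkey : ∀ g : G, c 0 * (o : G → ℂ) g + c 1 * (ζ₂ : G → ℂ) g + c 2 * (ζ₃ : G → ℂ) g =
        (κ / 4) * (1 + (ζ₂ : G → ℂ) g + (ε : ℂ) * (ζ₃ : G → ℂ) g - (ζ₄ : G → ℂ) g) := by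
      intro g
      by_cases hg : 2 ∣ orderOf g
      · rw [hsing o hoB g hg, hsing ζ₂ h2B g hg, hsing ζ₃ h3B g hg, hsing ζ₄ h4B g hg, hoz, hz2, hz3, hz4]
        have : (1 + 1 + (ε : ℂ) * ε - (-1) : ℂ) = 4 := by rw [hεε]; norm_num
        rw [this, hκ]
        field_simp
      · have hodd : Odd (orderOf g) := Nat.not_even_iff_odd.1 (fun h => hg h.two_dvd)
        rw [hrel g hodd, mul_zero]
        have := congrFun hc g
        simp only [hr, Pi.add_apply, Pi.smul_apply, smul_eq_mul, Pi.zero_apply,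
          Cfsg.Agent.Lib.Block.pRegularPart_of_reg hg] at this
        exact this
    have hcomb : ∀ g : G, (c 0 - κ / 4) * (o : G → ℂ) g + (c 1 - κ / 4) * (ζ₂ : G → ℂ) g +
        (c 2 - κ / 4 * ε) * (ζ₃ : G → ℂ) g + (κ / 4) * (ζ₄ : G → ℂ) g = 0 := by
      intro g
      have h1 := hkey g
      have h2 : (o : G → ℂ) g = 1 := congrFun hoc g
      rw [h2] at h1 ⊢
      linear_combination h1
    obtain ⟨a0, a1, a2, a3⟩ := Cfsg.Agent.Lib.FF.four_irr_indep o ζ₂ ζ₃ ζ₄ ho2 ho3 ho4 h23 h24 h34 _ _ _ _ hcomb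
    have hκ0 : κ = 0 := by
      have : κ / 4 = 0 := a3
      simpa using this
    rw [hκ0] at a0 a1 a2
    simp only [zero_div, sub_zero, zero_mul] at a0 a1 a2
    intro i
    fin_cases i
    · exact a0
    · exact a1
    · exact a2
  have hspan : Submodule.span ℂ ((fun χ : Cfsg.IrrCharacter G => Cfsg.pRegularPart 2 (χ : G → ℂ)) '' Cfsg.principalBlock M G) =
      Submodule.span ℂ (Set.range ![r o, r ζ₂, r ζ₃]) := by
    apply le_antisymm
    · rw [Submodule.span_le]
      rintro _ ⟨χ, hχ, rfl⟩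
      have hrr0 : r o ∈ Submodule.span ℂ (Set.range ![r o, r ζ₂, r ζ₃]) :=
        Submodule.subset_span ⟨0, rfl⟩
      have hrr1 : r ζ₂ ∈ Submodule.span ℂ (Set.range ![r o, r ζ₂, r ζ₃]) :=
        Submodule.subset_span ⟨1, rfl⟩
      have hrr2 : r ζ₃ ∈ Submodule.span ℂ (Set.range ![r o, r ζ₂, r ζ₃]) :=
        Submodule.subset_span ⟨2, rfl⟩
      rcases (hmem χ).1 hχ with rfl | rfl | rfl | rfl
      · exact hrr0
      · exact hrr1
      · exact hrr2
      · change r χ ∈ _
        rw [hr4]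
        exact Submodule.add_mem _ (Submodule.add_mem _ hrr0 hrr1) (Submodule.smul_mem _ _ hrr2)
    · rw [Submodule.span_le]
      rintro _ ⟨i, rfl⟩
      apply Submodule.subset_span
      fin_cases i
      · exact ⟨o, hoB, rfl⟩
      · exact ⟨ζ₂, h2B, rfl⟩
      · exact ⟨ζ₃, h3B, rfl⟩
  unfold Cfsg.blockRank
  rw [hspan, finrank_span_eq_card hli]
  simp

end Cfsg.Agent.S4512
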