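import Cfsg.Statements.S4513
import Mathlib
import Cfsg.Agent.Lib.FF.SectionSum

set_option autoImplicit false
open Cfsg MonoidAlgebra Cfsg.Agent.Lib.Char Cfsg.Agent.Lib.Block Cfsg.Agent.Lib.FF
open scoped ComplexConjugate

namespace Cfsg.Agent.S4513

/-- Blocks of defect one for p = 2. Let M be a maximal ideal of the algebraic integers containing 2, B a 2-block of the finite group G whose defect group is the subgroup generated by an involution x, C = C_G(x), b a block of C inducing B and θ a member of b taking the same value at x as at 1 (there is exactly one). Then B consists of exactly two irreducible characters, which agree on every element of odd order, and they can be labelled χ₁, χ₂ with signs ε₁, ε₂ = ±1, ε₁ε₂ = −1, such that χᵢ(x y) = εᵢ θ(y) for every element y of C of odd order. -/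
theorem result {G : Type*} [Group G] [Finite G] (M : Ideal Cfsg.AlgInt) (hM : Cfsg.IsPModular 2 M) (x : G) (hx : orderOf x = 2)
    (B : Set (Cfsg.IrrCharacter G)) (hB : Cfsg.IsPBlock M B) (hBD : Cfsg.IsDefectGroup 2 M B (Subgroup.zpowers x))
    (b : Set (Cfsg.IrrCharacter ↥(Subgroup.centralizer ({x} : Set G)))) (hb : Cfsg.IsInducedBlock M (Subgroup.centralizer ({x} : Set G)) b B)
    (θ : Cfsg.IrrCharacter ↥(Subgroup.centralizer ({x} : Set G))) (hθ : θ ∈ b)
    (hθx : ∀ z : ↥(Subgroup.centralizer ({x} : Set G)), (z : G) = x → (θ : ↥(Subgroup.centralizer ({x} : Set G)) → ℂ) z = (θ : ↥(Subgroup.centralizer ({x} : Set G)) → ℂ) 1) :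
    Nat.card B = 2 ∧ (∀ χ ∈ B, ∀ ψ ∈ B, ∀ g : G, ¬ 2 ∣ orderOf g → (χ : G → ℂ) g = (ψ : G → ℂ) g) ∧
      ∃ χ₁ ∈ B, ∃ χ₂ ∈ B, χ₁ ≠ χ₂ ∧ ∃ ε₁ ε₂ : ℤ, (ε₁ = 1 ∨ ε₁ = -1) ∧ (ε₂ = 1 ∨ ε₂ = -1) ∧ ε₁ * ε₂ = -1 ∧
        ∀ y : ↥(Subgroup.centralizer ({x} : Set G)), ¬ 2 ∣ orderOf y →
          (χ₁ : G → ℂ) (x * y) = (ε₁ : ℂ) * (θ : ↥(Subgroup.centralizer ({x} : Set G)) → ℂ) y ∧ (χ₂ : G → ℂ) (x * y) = (ε₂ : ℂ) * (θ : ↥(Subgroup.centralizer ({x} : Set G)) → ℂ) y := by
  classical
  haveI : Fintype G := Fintype.ofFinite G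
  have := isPModular_isPrime hM
  haveI hCfin : Fintype ↥(Subgroup.centralizer ({x} : Set G)) := Fintype.ofFinite _
  have hxx : x * x = 1 := by rw [← pow_two, ← hx, pow_orderOf_eq_one]
  have hxinv : x⁻¹ = x := inv_eq_of_mul_eq_one_left hxx
  have hxp : ∃ k, orderOf x = 2 ^ k := ⟨1, by simpa using hx⟩
  have hx1 : x ≠ 1 := by
    rintro rfl
    simp at hx
  have hD2p : IsPGroup 2 (Subgroup.zpowers x) := isPGroup_zpowers_of_orderOf hxp
  have hmem2 : ∀ y ∈ Subgroup.zpowers x, y = 1 ∨ y = x := by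
    intro y hy
    obtain ⟨k, rfl⟩ := Subgroup.mem_zpowers_iff.1 hy
    rcases Int.even_or_odd k with ⟨m, rfl⟩ | ⟨m, rfl⟩
    · left
      rw [← two_mul, zpow_mul, zpow_two, hxx, one_zpow]
    · right
      rw [zpow_add, zpow_mul, zpow_two, hxx, one_zpow, one_mul, zpow_one]
  let x' : ↥(Subgroup.centralizer ({x} : Set G)) := ⟨x, mem_centralizer_self x⟩
  have hx'cen : ∀ c : ↥(Subgroup.centralizer ({x} : Set G)), x' * c = c * x' := fun c =>
    Subtype.ext (commute_of_mem_centralizer c)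
  have hx'2 : x' * x' = 1 := Subtype.ext hxx
  have hx'inv : x'⁻¹ = x' := inv_eq_of_mul_eq_one_left hx'2
  -- the normalizer equals the centralizer
  have hNC : Subgroup.normalizer ((Subgroup.zpowers x : Subgroup G) : Set G) ≤ Subgroup.centralizer ({x} : Set G) := by
    intro n hn
    have h1 : n * x * n⁻¹ ∈ Subgroup.zpowers x := (Subgroup.mem_normalizer_iff.1 hn x).1 (Subgroup.mem_zpowers x)
    rcases hmem2 _ h1 with h2 | h2
    · exfalso
      apply hx1
      have h3 : x = n⁻¹ * (n * x * n⁻¹) * n := by group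
      rw [h3, h2]
      simp
    · rw [mem_centralizer_singleton]
      calc n * x = n * x * n⁻¹ * n := by group
        _ = x * n := by rw [h2]
  have hCN : Subgroup.centralizer ({x} : Set G) ≤ Subgroup.normalizer ((Subgroup.zpowers x : Subgroup G) : Set G) :=
    centralizer_le_normalizer_zpowers x
  have hCC : Subgroup.centralizer ((Subgroup.zpowers x : Subgroup G) : Set G) ≤ Subgroup.centralizer ({x} : Set G) := by
    rw [centralizer_zpowers_eq]
  -- uniqueness of the induced block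
  have huniq : ∀ b' : Set (IrrCharacter ↥(Subgroup.centralizer ({x} : Set G))),
      IsInducedBlock M (Subgroup.centralizer ({x} : Set G)) b' B → b' = b := by
    intro b' hb'
    haveI : Fintype (Subgroup.normalizer ((Subgroup.zpowers x : Subgroup G) : Set G)) := Fintype.ofFinite _
    haveI : Fintype ((Subgroup.centralizer ({x} : Set G)).subgroupOf
        (Subgroup.normalizer ((Subgroup.zpowers x : Subgroup G) : Set G))) := Fintype.ofFinite _
    haveI hnm : ((Subgroup.centralizer ({x} : Set G)).subgroupOf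
        (Subgroup.normalizer ((Subgroup.zpowers x : Subgroup G) : Set G))).Normal := by
      rw [Subgroup.subgroupOf_eq_top.2 hNC]
      infer_instance
    obtain ⟨n, hn, hconj⟩ := exists_conj_of_induced_blocks hM hD2p hB hBD hCC hCN hb hb'
    obtain ⟨θ', hθ', hval⟩ := hconj θ hθ
    have hnC := hNC hn
    have heq : θ' = θ := by
      apply Subtype.ext
      funext c
      have hmemc : n * (c : G) * n⁻¹ ∈ Subgroup.centralizer ({x} : Set G) :=
        Subgroup.mul_mem _ (Subgroup.mul_mem _ hnC c.2) (Subgroup.inv_mem _ hnC)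
      rw [hval c hmemc]
      have h1 : (⟨n * (c : G) * n⁻¹, hmemc⟩ : ↥(Subgroup.centralizer ({x} : Set G))) =
          ⟨n, hnC⟩ * c * (⟨n, hnC⟩ : ↥(Subgroup.centralizer ({x} : Set G)))⁻¹ := rfl
      rw [h1]
      exact IsCharacter.isClassFunction (IsIrrCharacter.isCharacter θ.2) c _
    rw [heq] at hθ'
    rw [blockOf_eq_of_mem hb'.1 hθ', ← blockOf_eq_of_mem hb.1 hθ]
  have hind : indSet M (Subgroup.centralizer ({x} : Set G)) B = b := by
    ext ξ
    constructor
    · intro hξ
      have h1 := huniq _ (isInducedBlock_of_mem_indSet _ hB hξ)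
      rw [← h1]
      exact mem_blockOf_self ξ
    · intro hξ
      obtain ⟨χ, hχ⟩ := IsPBlock_nonempty hB
      exact ⟨χ, hχ, hb.2.2 ξ hξ χ hχ⟩
  -- the defect group of `b`
  have hDnormal : ((Subgroup.zpowers x).subgroupOf (Subgroup.centralizer ({x} : Set G))).Normal := by
    refine ⟨fun a ha c => ?_⟩
    have : c * a * c⁻¹ = a := by
      have h1 : (a : G) ∈ Subgroup.zpowers x := ha
      rcases hmem2 _ h1 with h2 | h2
      · have : a = 1 := Subtype.ext h2
        rw [this]
        simp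
      · have : a = x' := Subtype.ext h2
        rw [this, ← hx'cen c]
        simp
    rw [this]
    exact ha
  have hDb := isDefectGroup_of_induced hM hb hBD (zpowers_le_centralizer x) hDnormal
  have hDbp : IsPGroup 2 ((Subgroup.zpowers x).subgroupOf (Subgroup.centralizer ({x} : Set G))) :=
    hD2p.comap_of_injective _ (Subgroup.subtype_injective _)
  have hGtop : (Subgroup.zpowers x).subgroupOf (Subgroup.centralizer ({x} : Set G)) ⊔
      Subgroup.centralizer (((Subgroup.zpowers x).subgroupOf (Subgroup.centralizer ({x} : Set G)) :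
        Subgroup ↥(Subgroup.centralizer ({x} : Set G))) : Set ↥(Subgroup.centralizer ({x} : Set G))) = ⊤ := by
    rw [eq_top_iff]
    intro c _
    apply Subgroup.mem_sup_right
    rw [Subgroup.mem_centralizer_iff]
    intro a ha
    have h1 : (a : G) ∈ Subgroup.zpowers x := ha
    rcases hmem2 _ h1 with h2 | h2
    · have : a = 1 := Subtype.ext h2
      rw [this]
      simp
    · have : a = x' := Subtype.ext h2
      rw [this]
      exact hx'cen c
  obtain ⟨⟨θ₀, ⟨hθ₀b, hθ₀k⟩, hθ₀u⟩, -, hcardb⟩ := central_defect_main hM hDbp hGtop hb.1 hDb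
  have hcardD : Nat.card ((Subgroup.zpowers x).subgroupOf (Subgroup.centralizer ({x} : Set G))) = 2 := by
    rw [Nat.card_congr (Subgroup.subgroupOfEquivOfLe (zpowers_le_centralizer x)).toEquiv, Nat.card_zpowers, hx]
  have hcardcl : Nat.card (ConjClasses ((Subgroup.zpowers x).subgroupOf (Subgroup.centralizer ({x} : Set G)))) = 2 := by
    rw [← hcardD]
    refine (Nat.card_congr (Equiv.ofBijective ConjClasses.mk ⟨?_, ConjClasses.mk_surjective⟩)).symm
    intro a a' haa
    have h1 : IsConj a a' := ConjClasses.mk_eq_mk_iff_isConj.1 haa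
    obtain ⟨c, hc⟩ := isConj_iff.1 h1
    have h2 : (c : ↥(Subgroup.centralizer ({x} : Set G))) * (a : ↥(Subgroup.centralizer ({x} : Set G))) *
        (c : ↥(Subgroup.centralizer ({x} : Set G)))⁻¹ = a := by
      have h3 : (a : G) ∈ Subgroup.zpowers x := a.2
      rcases hmem2 _ h3 with h4 | h4
      · have : (a : ↥(Subgroup.centralizer ({x} : Set G))) = 1 := Subtype.ext h4
        rw [this]
        simp
      · have : (a : ↥(Subgroup.centralizer ({x} : Set G))) = x' := Subtype.ext h4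
        rw [this, ← hx'cen (c : ↥(Subgroup.centralizer ({x} : Set G)))]
        simp
    have h5 := congrArg Subtype.val hc
    simp only [Subgroup.coe_mul, InvMemClass.coe_inv] at h5
    exact (Subtype.ext (h5.symm.trans h2)).symm
  rw [hcardcl] at hcardb
  obtain ⟨θ', hθ'ne, hbe⟩ : ∃ θ', θ' ≠ θ ∧ b = {θ, θ'} := by
    have h1 : b.ncard = 2 := by rw [← Nat.card_coe_set_eq]; exact hcardb
    obtain ⟨a, c, hac, hbac⟩ := Set.ncard_eq_two.1 h1
    have h2 : θ ∈ ({a, c} : Set _) := hbac ▸ hθ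
    rcases h2 with rfl | h2
    · exact ⟨c, hac.symm, hbac⟩
    · rw [Set.mem_singleton_iff] at h2
      subst h2
      exact ⟨a, hac, by rw [hbac, Set.pair_comm]⟩
  have hθ'b : θ' ∈ b := by rw [hbe]; simp
  have hdeg : ∀ ξ : IrrCharacter ↥(Subgroup.centralizer ({x} : Set G)),
      (ξ : ↥(Subgroup.centralizer ({x} : Set G)) → ℂ) 1 = (charDegree (ξ : ↥(Subgroup.centralizer ({x} : Set G)) → ℂ) : ℂ) :=
    fun ξ => (charDegree_cast (IsIrrCharacter.isCharacter ξ.2)).symm
  have hdpos : ∀ ξ : IrrCharacter ↥(Subgroup.centralizer ({x} : Set G)),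
      0 < charDegree (ξ : ↥(Subgroup.centralizer ({x} : Set G)) → ℂ) := fun ξ => charDegree_pos_of_irr ξ.2
  have hθ1 : (θ : ↥(Subgroup.centralizer ({x} : Set G)) → ℂ) 1 ≠ 0 := by
    rw [hdeg]
    exact_mod_cast (hdpos θ).ne'
  have hθ'1 : (θ' : ↥(Subgroup.centralizer ({x} : Set G)) → ℂ) 1 ≠ 0 := by
    rw [hdeg]
    exact_mod_cast (hdpos θ').ne'
  -- the signs
  obtain ⟨s, hs, hsv⟩ := central_inv_sign θ hx'cen hx'2
  have hs1 : s = 1 := by
    have h1 := hsv 1
    rw [mul_one, hθx x' rfl] at h1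
    rcases hs with h | h
    · exact h
    · exfalso
      rw [h] at h1
      apply hθ1
      push_cast at h1
      linear_combination (1 / 2 : ℂ) * h1
  subst hs1
  obtain ⟨s', hs', hsv'⟩ := central_inv_sign θ' hx'cen hx'2
  have hs'1 : s' = -1 := by
    rcases hs' with h | h
    · exfalso
      subst h
      apply hθ'ne
      have hker : ∀ a ∈ (Subgroup.zpowers x).subgroupOf (Subgroup.centralizer ({x} : Set G)),
          (θ' : ↥(Subgroup.centralizer ({x} : Set G)) → ℂ) a = (θ' : ↥(Subgroup.centralizer ({x} : Set G)) → ℂ) 1 := by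
        intro a ha
        have h1 : (a : G) ∈ Subgroup.zpowers x := ha
        rcases hmem2 _ h1 with h2 | h2
        · have : a = 1 := Subtype.ext h2
          rw [this]
        · have : a = x' := Subtype.ext h2
          rw [this]
          have h3 := hsv' 1
          rw [mul_one] at h3
          rw [h3]
          simp
      have hker' : ∀ a ∈ (Subgroup.zpowers x).subgroupOf (Subgroup.centralizer ({x} : Set G)),
          (θ : ↥(Subgroup.centralizer ({x} : Set G)) → ℂ) a = (θ : ↥(Subgroup.centralizer ({x} : Set G)) → ℂ) 1 := by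
        intro a ha
        have h1 : (a : G) ∈ Subgroup.zpowers x := ha
        rcases hmem2 _ h1 with h2 | h2
        · have : a = 1 := Subtype.ext h2
          rw [this]
        · have : a = x' := Subtype.ext h2
          rw [this]
          exact hθx x' rfl
      rw [hθ₀u θ' ⟨hθ'b, hker⟩, hθ₀u θ ⟨hθ, hker'⟩]
    · exact h
  subst hs'1
  have hox' : orderOf x' = 2 := by
    rw [← hx]
    exact Subgroup.orderOf_mk _ _
  have hnc : ¬ IsConj (1 : ↥(Subgroup.centralizer ({x} : Set G))) x' := by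
    intro h
    obtain ⟨c, hc⟩ := isConj_iff.1 h
    simp only [mul_one, mul_inv_cancel] at hc
    apply hx1
    exact (congrArg Subtype.val hc).symm
  have hort : ∀ y : ↥(Subgroup.centralizer ({x} : Set G)), ¬ 2 ∣ orderOf y →
      (θ : ↥(Subgroup.centralizer ({x} : Set G)) → ℂ) y * (θ : ↥(Subgroup.centralizer ({x} : Set G)) → ℂ) 1 -
        (θ' : ↥(Subgroup.centralizer ({x} : Set G)) → ℂ) y * (θ' : ↥(Subgroup.centralizer ({x} : Set G)) → ℂ) 1 = 0 := by
    intro y hy
    have h := block_orthogonality hM (g := y) (h := x') (x := 1) (y := x')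
      ⟨y, one_mul y, Commute.one_left y, ⟨0, by simp⟩, hy⟩
      ⟨1, mul_one _, Commute.one_right _, ⟨1, by simpa using hox'⟩, by simp⟩ hnc (isBlockUnion_of_isPBlock hb.1)
    rw [hbe, finsum_mem_pair hθ'ne.symm, hx'inv] at h
    have e1 : (θ : ↥(Subgroup.centralizer ({x} : Set G)) → ℂ) x' = (θ : ↥(Subgroup.centralizer ({x} : Set G)) → ℂ) 1 :=
      hθx x' rfl
    have e2 : (θ' : ↥(Subgroup.centralizer ({x} : Set G)) → ℂ) x' = -(θ' : ↥(Subgroup.centralizer ({x} : Set G)) → ℂ) 1 := by
      have h3 := hsv' 1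
      rw [mul_one] at h3
      rw [h3]
      simp
    rw [e1, e2] at h
    linear_combination h
  have hdd : charDegree (θ : ↥(Subgroup.centralizer ({x} : Set G)) → ℂ) =
      charDegree (θ' : ↥(Subgroup.centralizer ({x} : Set G)) → ℂ) := by
    have h1 := hort 1 (by simp)
    rw [hdeg θ, hdeg θ'] at h1
    have h2 : (charDegree (θ : ↥(Subgroup.centralizer ({x} : Set G)) → ℂ)) ^ 2 =
        (charDegree (θ' : ↥(Subgroup.centralizer ({x} : Set G)) → ℂ)) ^ 2 := by
      have h3 : (((charDegree (θ : ↥(Subgroup.centralizer ({x} : Set G)) → ℂ)) ^ 2 : ℕ) : ℂ) =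
          (((charDegree (θ' : ↥(Subgroup.centralizer ({x} : Set G)) → ℂ)) ^ 2 : ℕ) : ℂ) := by
        push_cast
        linear_combination h1
      exact_mod_cast h3
    exact (Nat.pow_left_inj (by norm_num)).1 h2
  have hθθ' : ∀ y : ↥(Subgroup.centralizer ({x} : Set G)), ¬ 2 ∣ orderOf y →
      (θ' : ↥(Subgroup.centralizer ({x} : Set G)) → ℂ) y = (θ : ↥(Subgroup.centralizer ({x} : Set G)) → ℂ) y := by
    intro y hy
    have h1 := hort y hy
    rw [hdeg θ, hdeg θ', ← hdd] at h1
    have h2 : ((charDegree (θ : ↥(Subgroup.centralizer ({x} : Set G)) → ℂ) : ℕ) : ℂ) ≠ 0 := by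
      exact_mod_cast (hdpos θ).ne'
    apply mul_right_cancel₀ h2
    linear_combination -h1
  -- the multiplicities
  have hmex : ∀ (ξ : IrrCharacter ↥(Subgroup.centralizer ({x} : Set G))) (χ : IrrCharacter G), ∃ n : ℕ,
      classInner (fun c : ↥(Subgroup.centralizer ({x} : Set G)) => (χ : G → ℂ) c)
        (ξ : ↥(Subgroup.centralizer ({x} : Set G)) → ℂ) = n := by
    intro ξ χ
    exact classInner_isCharacter_nat (IsCharacter.restrict (Subgroup.centralizer ({x} : Set G))
      (IsIrrCharacter.isCharacter χ.2)) (IsIrrCharacter.isCharacter ξ.2)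
  choose m hm using hmex
  set d : IrrCharacter G → ℤ := fun χ => (m θ χ : ℤ) - (m θ' χ : ℤ) with hd
  have hBu := isBlockUnion_of_isPBlock hB
  have hsec : ∀ χ ∈ B, ∀ y : ↥(Subgroup.centralizer ({x} : Set G)), ¬ 2 ∣ orderOf y →
      (χ : G → ℂ) (x * y) = (d χ : ℂ) * (θ : ↥(Subgroup.centralizer ({x} : Set G)) → ℂ) y := by
    intro χ hχ y hy
    rw [irr_section_block hM hBu hxp y hy χ hχ, hind, sum_ite_pair hbe hθ'ne.symm,
      classInner_section_central _ hxx _ 1 hsv, classInner_section_central _ hxx _ (-1) hsv', hm, hm, hθθ' y hy]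
    simp only [hd]
    push_cast
    ring
  have hsecx : ∀ χ ∈ B, (χ : G → ℂ) x = (d χ : ℂ) * (charDegree (θ : ↥(Subgroup.centralizer ({x} : Set G)) → ℂ) : ℂ) := by
    intro χ hχ
    have h1 := hsec χ hχ 1 (by simp)
    rw [Subgroup.coe_one, mul_one, hdeg] at h1
    exact h1
  set S : Finset (IrrCharacter G) := Finset.univ.filter (fun χ => χ ∈ B) with hS
  have hδ : ((charDegree (θ : ↥(Subgroup.centralizer ({x} : Set G)) → ℂ) : ℕ) : ℂ) ≠ 0 := by
    exact_mod_cast (hdpos θ).ne'
  have hsumd : ∑ χ ∈ S, (d χ) ^ 2 = 2 := by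
    have h1 := sum_block_section hM hBu hxp (1 : ↥(Subgroup.centralizer ({x} : Set G))) 1 (by simp) (by simp)
    rw [hind, sum_ite_pair hbe hθ'ne.symm] at h1
    simp only [Subgroup.coe_one, mul_one] at h1
    rw [hdeg θ, hdeg θ', ← hdd, ← Finset.sum_filter, Finset.sum_congr rfl (fun χ (hχ : χ ∈ S) => by
      rw [hsecx χ (Finset.mem_filter.1 hχ).2]), ] at h1
    simp only [map_mul, map_intCast, map_natCast] at h1
    have h2 : (((∑ χ ∈ S, (d χ) ^ 2 : ℤ) : ℂ)) * (charDegree (θ : ↥(Subgroup.centralizer ({x} : Set G)) → ℂ) : ℂ) ^ 2 =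
        2 * (charDegree (θ : ↥(Subgroup.centralizer ({x} : Set G)) → ℂ) : ℂ) ^ 2 := by
      push_cast
      rw [Finset.sum_mul]
      have h3 : (2 : ℂ) * (charDegree (θ : ↥(Subgroup.centralizer ({x} : Set G)) → ℂ) : ℂ) ^ 2 =
          (charDegree (θ : ↥(Subgroup.centralizer ({x} : Set G)) → ℂ) : ℂ) * (charDegree (θ : ↥(Subgroup.centralizer ({x} : Set G)) → ℂ) : ℂ) +
          (charDegree (θ : ↥(Subgroup.centralizer ({x} : Set G)) → ℂ) : ℂ) * (charDegree (θ : ↥(Subgroup.centralizer ({x} : Set G)) → ℂ) : ℂ) := by ring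
      rw [h3, ← h1]
      refine Finset.sum_congr rfl fun χ _ => ?_
      ring
    have h4 := mul_right_cancel₀ (pow_ne_zero 2 hδ) h2
    exact_mod_cast h4
  have hdne : ∀ χ ∈ S, d χ ≠ 0 := by
    intro χ hχS h0
    have hχ : χ ∈ B := (Finset.mem_filter.1 hχS).2
    have hχc := IsIrrCharacter.isCharacter χ.2
    have hBχ : B = blockOf M (χ : G → ℂ) := blockOf_eq_of_mem hB hχ
    have hvan : ∀ g : G, 2 ∣ orderOf g → (χ : G → ℂ) g = 0 := by
      intro g hg
      obtain ⟨u, v, huv, hc, hu2, hv, _, _⟩ := exists_jordan (p := 2) g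
      have hu1 : u ≠ 1 := by
        rintro rfl
        rw [one_mul] at huv
        rw [huv] at hv
        exact hv hg
      by_cases hcj : IsConj u x
      · obtain ⟨c, hc'⟩ := isConj_iff.1 hcj
        have hmemC : c * v * c⁻¹ ∈ Subgroup.centralizer ({x} : Set G) := by
          rw [mem_centralizer_singleton, ← hc']
          have hc2 := hc.eq
          calc c * v * c⁻¹ * (c * u * c⁻¹) = c * (v * u) * c⁻¹ := by group
            _ = c * (u * v) * c⁻¹ := by rw [hc2]
            _ = c * u * c⁻¹ * (c * v * c⁻¹) := by group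
        have e1 : (χ : G → ℂ) g = (χ : G → ℂ) (c * g * c⁻¹) := (IsCharacter.isClassFunction hχc g c).symm
        have e2 : c * g * c⁻¹ = x * (c * v * c⁻¹) := by
          rw [← huv, ← hc']
          group
        have hreg : ¬ 2 ∣ orderOf (⟨c * v * c⁻¹, hmemC⟩ : ↥(Subgroup.centralizer ({x} : Set G))) := by
          rw [Subgroup.orderOf_mk, orderOf_conj]
          exact hv
        rw [e1, e2]
        have := hsec χ hχ ⟨_, hmemC⟩ hreg
        rw [h0] at this
        simpa using this
      · apply eq_zero_of_pPart_notMem_defect hM χ (x := u) ⟨v, huv, hc, hu2, hv⟩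
        intro D hD hmem
        rw [← hBχ] at hD
        obtain ⟨c, hc'⟩ := Cfsg.Agent.Lib.CharExtra.defect_le_conj hM hB hBD hD
        have h1 := hc' hmem
        obtain ⟨w, hw, hw'⟩ := h1
        rcases hmem2 w hw with rfl | rfl
        · apply hu1
          rw [← hw']
          simp
        · apply hcj
          exact (isConj_iff.2 ⟨c, hw'⟩).symm
    have h1 := pow_dvd_degree_of_vanish hχc hvan
    have h2 := (not_dvd_card_div_iff Nat.prime_two (charDegree_dvd_card χ.2)).2 h1
    have h3 := blockOf_eq_singleton_of_not_dvd hM χ h2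
    rw [← hBχ] at h3
    have h4 : S = {χ} := by
      ext ψ
      simp [hS, h3]
    rw [h4, Finset.sum_singleton, h0] at hsumd
    norm_num at hsumd
  obtain ⟨hc2, hsign⟩ := two_signs S d hdne hsumd
  obtain ⟨χ₁, χ₂, h12, hS12⟩ := Finset.card_eq_two.1 hc2
  have hBe : B = {χ₁, χ₂} := by
    ext χ
    have : χ ∈ S ↔ χ ∈ B := by simp [hS]
    rw [← this, hS12]
    simp
  have h1B : χ₁ ∈ B := by rw [hBe]; simp
  have h2B : χ₂ ∈ B := by rw [hBe]; simp
  have h1S : χ₁ ∈ S := by rw [hS12]; simp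
  have h2S : χ₂ ∈ S := by rw [hS12]; simp
  have hncG : ¬ IsConj (1 : G) x := by
    intro h
    obtain ⟨c, hc⟩ := isConj_iff.1 h
    simp only [mul_one, mul_inv_cancel] at hc
    exact hx1 hc.symm
  have hortG : ∀ g : G, ¬ 2 ∣ orderOf g →
      (χ₁ : G → ℂ) g * (d χ₁ : ℂ) + (χ₂ : G → ℂ) g * (d χ₂ : ℂ) = 0 := by
    intro g hg
    have h := block_orthogonality hM (g := g) (h := x) (x := 1) (y := x)
      ⟨g, one_mul g, Commute.one_left g, ⟨0, by simp⟩, hg⟩
      ⟨1, mul_one _, Commute.one_right _, hxp, by simp⟩ hncG hBu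
    rw [hBe, finsum_mem_pair h12, hxinv, hsecx χ₁ h1B, hsecx χ₂ h2B] at h
    apply mul_right_cancel₀ hδ
    linear_combination h
  have hdeg1 : (0 : ℤ) < charDegree (χ₁ : G → ℂ) := by exact_mod_cast charDegree_pos_of_irr χ₁.2
  have hdeg2 : (0 : ℤ) < charDegree (χ₂ : G → ℂ) := by exact_mod_cast charDegree_pos_of_irr χ₂.2
  have hint : (charDegree (χ₁ : G → ℂ) : ℤ) * d χ₁ + (charDegree (χ₂ : G → ℂ) : ℤ) * d χ₂ = 0 := by
    have h := hortG 1 (by simp)
    rw [← charDegree_cast (IsIrrCharacter.isCharacter χ₁.2), ← charDegree_cast (IsIrrCharacter.isCharacter χ₂.2)] at h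
    exact_mod_cast h
  have hs1' := hsign χ₁ h1S
  have hs2' := hsign χ₂ h2S
  have hprod : d χ₁ * d χ₂ = -1 := by
    rcases hs1' with h1 | h1 <;> rcases hs2' with h2 | h2 <;> rw [h1, h2] at hint ⊢ <;> omega
  have hagree12 : ∀ g : G, ¬ 2 ∣ orderOf g → (χ₁ : G → ℂ) g = (χ₂ : G → ℂ) g := by
    intro g hg
    have h := hortG g hg
    rcases hs1' with h1 | h1 <;> rcases hs2' with h2 | h2 <;> rw [h1, h2] at hprod
    · norm_num at hprod
    · rw [h1, h2] at h
      push_cast at h
      linear_combination h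
    · rw [h1, h2] at h
      push_cast at h
      linear_combination -h
    · norm_num at hprod
  refine ⟨?_, ?_, χ₁, h1B, χ₂, h2B, h12, d χ₁, d χ₂, hs1', hs2', hprod, fun y hy => ⟨hsec χ₁ h1B y hy, hsec χ₂ h2B y hy⟩⟩
  · rw [Nat.card_coe_set_eq, hBe, Set.ncard_pair h12]
  · intro χ hχ ψ hψ g hg
    rw [hBe] at hχ hψ
    rcases hχ with rfl | hχ
    · rcases hψ with rfl | hψ
      · rfl
      · rw [Set.mem_singleton_iff] at hψ
        rw [hψ]
        exact hagree12 g hg
    · rw [Set.mem_singleton_iff] at hχ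
      rw [hχ]
      rcases hψ with rfl | hψ
      · exact (hagree12 g hg).symm
      · rw [Set.mem_singleton_iff] at hψ
        rw [hψ]

end Cfsg.Agent.S4513
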