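import Cfsg.Statements.S4636
import Mathlib

set_option autoImplicit false
open scoped Pointwise
open Cfsg

namespace Cfsg.Agent.S4636

lemma eq_of_card_eq {G : Type*} [Group G] [Finite G] (P A B : Subgroup G) (hcyc : IsCyclic P)
    (hA : A ≤ P) (hB : B ≤ P) (h : Nat.card A = Nat.card B) : A = B := by
  classical
  haveI := Fintype.ofFinite G
  have hle : A ≤ B ∨ True := Or.inr trivial
  -- all elements with `x ^ n = 1`
  set n := Nat.card A with hn
  have hnpos : 0 < n := Nat.card_pos
  have key : ∀ C : Subgroup G, C ≤ P → Nat.card C = n →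
      ∀ x : P, (x : G) ∈ C ↔ x ∈ (Finset.univ.filter fun a : P => a ^ n = 1) := by
    intro C hC hCn
    have h1 : (Finset.univ.filter fun a : P => (a : G) ∈ C) ⊆ (Finset.univ.filter fun a : P => a ^ n = 1) := by
      intro a ha
      simp only [Finset.mem_filter, Finset.mem_univ, true_and] at ha ⊢
      apply Subtype.ext
      have := pow_card_eq_one' (x := (⟨a, ha⟩ : C))
      rw [hCn] at this
      simpa using congrArg (fun z : C => (z : G)) this
    have h2 : (Finset.univ.filter fun a : P => a ^ n = 1).card ≤ n := IsCyclic.card_pow_eq_one_le hnpos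
    have h3 : (Finset.univ.filter fun a : P => (a : G) ∈ C).card = n := by
      rw [← hCn, ← Fintype.card_subtype, ← Nat.card_eq_fintype_card]
      apply Nat.card_congr
      exact { toFun := fun a => ⟨a.1.1, a.2⟩, invFun := fun a => ⟨⟨a.1, hC a.2⟩, a.2⟩, left_inv := fun _ => rfl, right_inv := fun _ => rfl }
    have h4 := Finset.eq_of_subset_of_card_le h1 (by rw [h3]; exact h2)
    intro x
    rw [← h4]
    simp
  ext x
  constructor
  · intro hx
    have := (key A hA rfl ⟨x, hA hx⟩).1 hx
    exact (key B hB h.symm ⟨x, hA hx⟩).2 this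
  · intro hx
    have := (key B hB h.symm ⟨x, hB hx⟩).1 hx
    exact (key A hA rfl ⟨x, hB hx⟩).2 this

lemma card_conj {G : Type*} [Group G] (g : G) (A : Subgroup G) : Nat.card (MulAut.conj g • A : Subgroup G) = Nat.card A := by
  exact Nat.card_congr (Subgroup.equivSMul (MulAut.conj g) A).toEquiv.symm

lemma isCyclic_conj {G : Type*} [Group G] (g : G) (A : Subgroup G) (h : IsCyclic A) : IsCyclic (MulAut.conj g • A : Subgroup G) :=
  isCyclic_of_surjective (Subgroup.equivSMul (MulAut.conj g) A).toMonoidHom (Subgroup.equivSMul (MulAut.conj g) A).surjective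

lemma exists_le_of_ne_bot {G : Type*} [Group G] [Finite G] (p : ℕ) [Fact p.Prime] (P Q : Subgroup G) (hP : IsPGroup p P) (hQ : Q ≤ P)
    (hQ1 : Q ≠ ⊥) : ∃ Z : Subgroup G, Z ≤ Q ∧ Nat.card Z = p := by
  haveI : Nontrivial Q := (Subgroup.nontrivial_iff_ne_bot Q).2 hQ1
  have hQp : IsPGroup p Q := IsPGroup.to_le hP hQ
  obtain ⟨k, hk⟩ := hQp.exists_card_eq
  have hk0 : k ≠ 0 := by
    rintro rfl
    apply hQ1
    rw [pow_zero] at hk
    exact Subgroup.card_eq_one.1 hk
  have hd : p ∣ Nat.card Q := by rw [hk]; exact dvd_pow_self p hk0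
  obtain ⟨x, hx⟩ := exists_prime_orderOf_dvd_card' p hd
  refine ⟨Subgroup.zpowers (x : G), ?_, ?_⟩
  · rw [Subgroup.zpowers_le]; exact x.2
  · rw [Nat.card_zpowers, Subgroup.orderOf_coe, hx]

/-- Let P be a nontrivial cyclic p-subgroup of the finite group G and Z its subgroup of order p. For every x outside N_G(Z), P meets its conjugate xPx⁻¹ trivially; consequently N_G(Q) ≤ N_G(Z) for every nontrivial subgroup Q of P. -/
theorem result {G : Type*} [Group G] [Finite G] (p : ℕ) [Fact p.Prime] (P : Subgroup G) (hP : IsPGroup p P) (hP1 : P ≠ ⊥) (hcyc : IsCyclic P) (Z : Subgroup G) (hZ : Z ≤ P) (hZcard : Nat.card Z = p) : (∀ x : G, x ∉ Subgroup.normalizer (Z : Set G) → P ⊓ MulAut.conj x • P = ⊥) ∧ ∀ Q : Subgroup G, Q ≤ P → Q ≠ ⊥ → Subgroup.normalizer (Q : Set G) ≤ Subgroup.normalizer (Z : Set G) := by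
  -- the normalizer criterion
  have hnorm : ∀ x : G, MulAut.conj x • Z = Z → x ∈ Subgroup.normalizer (Z : Set G) := by
    intro x hx
    rw [Subgroup.mem_set_normalizer_iff]
    intro h
    constructor
    · intro hh
      rw [← hx]
      exact Subgroup.smul_mem_pointwise_smul _ _ _ hh
    · intro hh
      have hh' : x * h * x⁻¹ ∈ MulAut.conj x • Z := by rw [hx]; exact hh
      rw [Subgroup.mem_smul_pointwise_iff_exists] at hh'
      obtain ⟨y, hy, hyh⟩ := hh'
      have : y = h := by
        have hinj := (MulAut.conj x).injective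
        exact hinj hyh
      exact this ▸ hy
  constructor
  · intro x hx
    by_contra hne
    apply hx
    apply hnorm
    have hle : P ⊓ MulAut.conj x • P ≤ P := inf_le_left
    obtain ⟨W, hW, hWc⟩ := exists_le_of_ne_bot p P _ hP hle hne
    have h1 : W = Z := eq_of_card_eq P W Z hcyc (hW.trans hle) hZ (by rw [hWc, hZcard])
    have h2 : W = MulAut.conj x • Z := by
      apply eq_of_card_eq (MulAut.conj x • P) W _ (isCyclic_conj x P hcyc) (hW.trans inf_le_right)
      · exact Subgroup.pointwise_smul_le_pointwise_smul_iff.2 hZ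
      · rw [card_conj, hWc, hZcard]
    rw [← h2, h1]
  · intro Q hQ hQ1 g hg
    apply hnorm
    obtain ⟨W, hW, hWc⟩ := exists_le_of_ne_bot p P Q hP hQ hQ1
    have h1 : W = Z := eq_of_card_eq P W Z hcyc (hW.trans hQ) hZ (by rw [hWc, hZcard])
    subst h1
    apply eq_of_card_eq P _ _ hcyc _ (hZ) (card_conj g W)
    intro y hy
    rw [Subgroup.mem_smul_pointwise_iff_exists] at hy
    obtain ⟨z, hz, rfl⟩ := hy
    exact hQ ((Subgroup.mem_set_normalizer_iff.1 hg z).1 (hW hz))

end Cfsg.Agent.S4636
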