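import Cfsg.Statements.S4641
import Mathlib
import Cfsg.Agent.Lib.Block.DegSquare

set_option autoImplicit false
open Cfsg
open Cfsg.Agent.Lib.Modular Cfsg.Agent.Lib.Block

namespace Cfsg.Agent.S4641

/-- Let B be a block of the finite group G relative to a maximal ideal M of the algebraic integers containing the prime p, let p^a be the p-part of the order of G and p^d the order of a defect group D of B, and let g be the greatest common divisor of the degrees of the members of B. Then the p-part of g is exactly p^(a−d), and writing g = p^(a−d)·u there is a positive integer v, prime to p and at least the p-regular rank of B (its number of irreducible Brauer characters), with Σ_{χ ∈ B} χ(1)² = p^(2a−d)·u²·v. -/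
theorem result {G : Type*} [Group G] [Finite G] (p : ℕ) [Fact p.Prime] (M : Ideal Cfsg.AlgInt) (hM : Cfsg.IsPModular p M) (B : Set (Cfsg.IrrCharacter G)) (hB : Cfsg.IsPBlock M B) (D : Subgroup G) (hD : Cfsg.IsDefectGroup p M B D) (a d : ℕ) (ha : (Nat.card G).factorization p = a) (hd : Nat.card D = p ^ d) (g : ℕ) (hg1 : ∀ χ ∈ B, g ∣ Cfsg.charDegree (χ : G → ℂ)) (hg2 : ∀ g' : ℕ, (∀ χ ∈ B, g' ∣ Cfsg.charDegree (χ : G → ℂ)) → g' ∣ g) : g.factorization p = a - d ∧ ∃ v : ℕ, 0 < v ∧ ¬ p ∣ v ∧ Cfsg.blockRank p B ≤ v ∧ ∑ᶠ χ ∈ B, Cfsg.charDegree (χ : G → ℂ) ^ 2 = p ^ (2 * a - d) * (g / p ^ (a - d)) ^ 2 * v := by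
  classical
  haveI : Fintype G := Fintype.ofFinite _
  haveI := Cfsg.Agent.Lib.Block.isPModular_isPrime hM
  obtain ⟨y, hy, P, rfl⟩ := hD
  have hd' : (Nat.card (Subgroup.centralizer ({y} : Set G))).factorization p = d := by
    have h1 := card_map_sylow P
    rw [hd] at h1
    exact (Nat.pow_right_injective (Fact.out : p.Prime).two_le h1).symm
  have h2 := degSquare_main hM hB hy ha hd' hg1 hg2
  rw [finsum_mem_irr]
  exact h2

end Cfsg.Agent.S4641
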