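import Cfsg.Statements.S4645
import Mathlib
import Cfsg.Agent.Lib.FF.NilAb
import Cfsg.Agent.Lib.BPair.Cyclic
import Cfsg.Agent.Lib.BPair.Abel
import Cfsg.Agent.Lib.BPair.CenPair
import Cfsg.Agent.Lib.BPair.Induced

set_option autoImplicit false
open Cfsg
open Cfsg.Agent.Lib.Block Cfsg.Agent.Lib.Char Cfsg.Agent.Lib.CharExtra Cfsg.Agent.Lib.BPair Cfsg.Agent.Lib.FF

namespace Cfsg.Agent.S4645

/-- Let B be a block of the finite group G relative to a maximal ideal M of the algebraic integers containing the prime p, with a nontrivial cyclic defect group P; let c be a block of C_G(P) inducing B and T the stabilizer of c in N_G(P). Let Q be a nontrivial subgroup of P (so C_G(P) ≤ C_G(Q)), f the block of C_G(Q) induced by c inside C_G(Q), and T' the stabilizer of f in N_G(Q). Then T' = T·C_G(Q), the index of C_G(Q) in T' equals the index of C_G(P) in T, f has p-regular rank 1, and f is a nilpotent block of C_G(Q). -/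
theorem result {G : Type*} [Group G] [Finite G] (p : ℕ) [Fact p.Prime] (M : Ideal Cfsg.AlgInt) (hM : Cfsg.IsPModular p M) (B : Set (Cfsg.IrrCharacter G)) (hB : Cfsg.IsPBlock M B) (P : Subgroup G) (hPD : Cfsg.IsDefectGroup p M B P) (hP1 : P ≠ ⊥) (hcyc : IsCyclic P) (c : Set (Cfsg.IrrCharacter (Subgroup.centralizer (P : Set G)))) (hc : Cfsg.IsInducedBlock M (Subgroup.centralizer (P : Set G)) c B) (T : Subgroup G) (hT : ∀ g : G, g ∈ T ↔ (g ∈ Subgroup.normalizer (P : Set G) ∧ Cfsg.StabilizesBlock (Subgroup.centralizer (P : Set G)) c g)) (Q : Subgroup G) (hQP : Q ≤ P) (hQ1 : Q ≠ ⊥) (f : Set (Cfsg.IrrCharacter (Subgroup.centralizer (Q : Set G)))) (hf : Cfsg.IsInducedBlockIn M (Subgroup.centralizer (Q : Set G)) (Subgroup.centralizer (P : Set G)) c f) (T' : Subgroup G) (hT' : ∀ g : G, g ∈ T' ↔ (g ∈ Subgroup.normalizer (Q : Set G) ∧ Cfsg.StabilizesBlock (Subgroup.centralizer (Q : Set G)) f g)) : T' = T ⊔ Subgroup.centralizer (Q : Set G) ∧ (Subgroup.centralizer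 (Q : Set G)).relIndex T' = (Subgroup.centralizer (P : Set G)).relIndex T ∧ Cfsg.blockRank p f = 1 ∧ Cfsg.IsNilpotentBlock p M f := by
  classical
  haveI : Fintype G := Fintype.ofFinite _
  haveI : M.IsPrime := isPModular_isPrime hM
  have hPp := isPGroup_of_isDefectGroup hPD
  have hab := comm_of_cyclic hcyc
  have hpair : IsBrauerPairOf p M B P c := isBrauerPairOf_of_induced hPp hc
  have hmax := isMaximal_of_defect hM hPD hpair
  have hn := isNormalSubpair_of_inducedIn hab hQP hPp hf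
  have hle : SubpairLE p M Q f P c := Relation.ReflTransGen.single hn
  obtain ⟨hnil, -, hrank, -⟩ := nil_ab_sub hM hmax hab (fun g hg1 hg2 x hx hx1 hgx => free_of_cyclic hM hmax hcyc hg1 hg2 hx hx1 hgx) hle hQ1
  obtain ⟨h1, h2⟩ := abelian_stab hM hmax hab hle hT' hT
  have hTN : T ≤ Subgroup.normalizer (Q : Set G) := fun t ht => normalizer_le_of_cyclic hcyc hQP ((hT t).1 ht).1
  have hinf1 : T ⊓ Subgroup.normalizer (Q : Set G) = T := inf_eq_left.2 hTN
  have hCP : Subgroup.centralizer (P : Set G) ≤ T := fun g hg => (hT g).2 ⟨cen_le_normalizer P hg, stabilizes_of_mem_cen hg⟩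
  have hQ' : ∃ x ∈ Q, x ≠ 1 := Q.bot_or_exists_ne_one.resolve_left hQ1
  obtain ⟨x₀, hx₀, hx₀1⟩ := hQ'
  have hinf2 : T ⊓ Subgroup.centralizer (Q : Set G) = Subgroup.centralizer (P : Set G) := by
    ext g
    constructor
    · rintro ⟨hg1, hg2⟩
      obtain ⟨h3, h4⟩ := (hT g).1 hg1
      refine free_of_cyclic hM hmax hcyc h3 h4 (hQP hx₀) hx₀1 ?_
      rw [(Subgroup.mem_centralizer_iff.1 hg2 x₀ hx₀).symm]
      simp
    · intro hg
      exact ⟨hCP hg, cen_le_cen hQP hg⟩
  refine ⟨?_, ?_, hrank, hnil⟩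
  · apply le_antisymm
    · intro x hx
      obtain ⟨y, hy, c', hc', rfl⟩ := h1 x hx
      exact Subgroup.mul_mem _ (Subgroup.mem_sup_left hy) (Subgroup.mem_sup_right hc')
    · refine sup_le (fun t ht => ?_) (fun g hg => ?_)
      · obtain ⟨h3, h4⟩ := (hT t).1 ht
        exact (hT' t).2 ⟨hTN ht, inf_le_stab hM hmax hle h3 h4 (hTN ht)⟩
      · exact (hT' g).2 ⟨cen_le_normalizer Q hg, stabilizes_of_mem_cen hg⟩
  · show ((Cen Q).subgroupOf T').index = ((Cen P).subgroupOf T).index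
    rw [h2, hinf1, hinf2]


end Cfsg.Agent.S4645
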