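import Cfsg.Statements.S4647
import Mathlib
import Cfsg.Agent.Lib.Modular.MinBlock

set_option autoImplicit false
open Cfsg

namespace Cfsg.Agent.S4647

/-- Let B be a block of the finite group G relative to a maximal ideal M of the algebraic integers containing the prime p, p^a the p-part of the order of G and p^d the order of a defect group D of B. If Σ_{χ ∈ B} χ(1)² = p^(2a−d) (the least possible value), then B is nilpotent. -/
theorem result {G : Type*} [Group G] [Finite G] (p : ℕ) [Fact p.Prime] (M : Ideal Cfsg.AlgInt) (hM : Cfsg.IsPModular p M) (B : Set (Cfsg.IrrCharacter G)) (hB : Cfsg.IsPBlock M B) (D : Subgroup G) (hD : Cfsg.IsDefectGroup p M B D) (a d : ℕ) (ha : (Nat.card G).factorization p = a) (hd : Nat.card D = p ^ d) (hmin : ∑ᶠ χ ∈ B, Cfsg.charDegree (χ : G → ℂ) ^ 2 = p ^ (2 * a - d)) : Cfsg.IsNilpotentBlock p M B := by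
  classical
  haveI : Fintype G := Fintype.ofFinite G
  refine Cfsg.Agent.Lib.Modular.isNilpotentBlock_of_min hM hB hD ha hd ?_
  rw [← hmin, finsum_eq_sum_of_fintype]
  refine Finset.sum_congr rfl fun χ _ => ?_
  rw [finsum_eq_if]

end Cfsg.Agent.S4647
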