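import Cfsg.Statements.S4648
import Mathlib
import Cfsg.Agent.Lib.BPair.Max
import Cfsg.Agent.Lib.BPair.Induced
import Cfsg.Agent.Lib.BPair.Cyclic
import Cfsg.Agent.Lib.BPair.Abel
import Cfsg.Agent.Lib.FF.KleinDefect
import Cfsg.Agent.Lib.FF.CycMain
import Cfsg.Agent.Lib.Modular.KulBlock

set_option autoImplicit false
open Cfsg
open Cfsg.Agent.Lib.Block Cfsg.Agent.Lib.Char Cfsg.Agent.Lib.CharExtra Cfsg.Agent.Lib.BPair Cfsg.Agent.Lib.FF Cfsg.Agent.Lib.Modular

namespace Cfsg.Agent.S4648

/-- Let B be a block of the finite group G relative to a maximal ideal M of the algebraic integers containing the prime p, with a nontrivial defect group D. If B has p-regular rank 1 and at most four irreducible characters, then B is nilpotent, D has exactly as many elements as B has irreducible characters, and p is 2 or 3. -/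
theorem result {G : Type*} [Group G] [Finite G] (p : ℕ) [Fact p.Prime] (M : Ideal Cfsg.AlgInt) (hM : Cfsg.IsPModular p M) (B : Set (Cfsg.IrrCharacter G)) (hB : Cfsg.IsPBlock M B) (D : Subgroup G) (hD : Cfsg.IsDefectGroup p M B D) (hD1 : D ≠ ⊥) (hl : Cfsg.blockRank p B = 1) (hk : Nat.card B ≤ 4) : Cfsg.IsNilpotentBlock p M B ∧ Nat.card D = Nat.card B ∧ (p = 2 ∨ p = 3) := by
  classical
  haveI : Fintype G := Fintype.ofFinite _
  haveI := isPModular_isPrime hM
  have hpp : p.Prime := Fact.out
  have hcard := card_eq_of_rank_one hM hB hl hk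
  have hcd := card_defect_group hM hB hD
  have hDB : Nat.card D = Nat.card B := by rw [hcd, hcard]
  have hD1' : Nat.card D ≠ 1 := by
    intro h
    exact hD1 (Subgroup.card_eq_one.1 h)
  set δ := blockDefect p B with hδ
  have hδ0 : δ ≠ 0 := by
    intro h0
    rw [hcd, h0, pow_zero] at hD1'
    exact hD1' rfl
  have hle4 : p ^ δ ≤ 4 := by rw [← hcard]; exact hk
  have hple : p ≤ 4 := (Nat.le_self_pow hδ0 p).trans hle4
  have hp23 : p = 2 ∨ p = 3 := by
    interval_cases p
    · exact absurd hpp (by norm_num)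
    · exact absurd hpp (by norm_num)
    · exact Or.inl rfl
    · exact Or.inr rfl
    · exact absurd hpp (by norm_num)
  refine ⟨?_, hDB, hp23⟩
  obtain ⟨c, hc⟩ := exists_pair_on_defect hM hD hB
  have hmax := isMaximal_of_defect hM hD hc
  have hind := isInducedBlock_of_pair hM hc
  obtain ⟨T, hT⟩ := exists_pairT (isBrauerPairOf_iff.1 hc).1.2
  have hfinish : (∀ x ∈ D, ∀ y ∈ D, x * y = y * x) → (Cen D).relIndex T = 1 → IsNilpotentBlock p M B := by
    intro hab he
    rw [nilpotent_iff_of_abelian hM hmax hab]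
    intro x hx1 hx2
    exact Subgroup.relIndex_eq_one.1 he ((hT x).2 ⟨hx1, hx2⟩)
  have hcyc_case : IsCyclic D → IsNilpotentBlock p M B := by
    intro hcyc
    obtain ⟨n, hn⟩ := Nat.exists_eq_succ_of_ne_zero hδ0
    have hDa : Nat.card D = p ^ (n + 1) := by rw [hcd, hn]
    obtain ⟨-, -, h3, -⟩ := cyc_main hM hB hcyc hDa hD hind hT rfl
    exact hfinish (comm_of_cyclic hcyc) (by rw [← h3]; exact hl)
  by_cases hcy : IsCyclic D
  · exact hcyc_case hcy
  -- not cyclic: the order is not prime, so it is `4`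
  have hval : p ^ δ = 4 := by
    have h2 : p ^ δ ≠ 1 := by
      rw [← hcd]; exact hD1'
    have h3 : ∀ q : ℕ, q.Prime → p ^ δ = q → False := by
      intro q hq h4
      haveI : Fact q.Prime := ⟨hq⟩
      exact hcy (isCyclic_of_prime_card (hcd.trans h4))
    have h5 : p ^ δ ≠ 0 := pow_ne_zero _ hpp.ne_zero
    have h6 : p ^ δ ≠ 2 := fun h => h3 2 (by norm_num) h
    have h7 : p ^ δ ≠ 3 := fun h => h3 3 (by norm_num) h
    omega
  have hp2 : p = 2 := by
    rcases hp23 with h | h
    · exact h
    · exfalso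
      subst h
      have h8 : (3 : ℕ) ∣ 4 := by
        rw [← hval]
        exact dvd_pow_self 3 hδ0
      omega
  subst hp2
  have hD4 : Nat.card D = 4 := by rw [hcd, hval]
  have hV : IsKleinFour D := by
    refine ⟨hD4, ?_⟩
    have h1 : ∀ x : D, x ^ 2 = 1 := by
      intro x
      have h2 : orderOf x ∣ 4 := by rw [← hD4]; exact orderOf_dvd_natCard x
      have h3 : orderOf x ≠ 4 := fun h => hcy (isCyclic_of_orderOf_eq_card x (by rw [h, hD4]))
      have h4 : orderOf x ∣ 2 := by
        have h5 : orderOf x ≤ 4 := Nat.le_of_dvd (by norm_num) h2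
        interval_cases h6 : orderOf x
        · simp at h2
        · norm_num
        · norm_num
        · norm_num at h2
        · exact absurd rfl h3
      exact orderOf_dvd_iff_pow_eq_one.1 h4
    have h2 : Monoid.exponent D ∣ 2 := Monoid.exponent_dvd_of_forall_pow_eq_one h1
    have h3 : Monoid.exponent D ≠ 1 := by
      intro h
      rw [Monoid.exp_eq_one_iff] at h
      have := Nat.card_unique (α := D)
      rw [hD4] at this
      omega
    have h4 := Nat.le_of_dvd (by norm_num) h2
    have h5 : Monoid.exponent D ≠ 0 := fun h => by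
      rw [h] at h2
      omega
    omega
  obtain ⟨-, -, h3⟩ := klein_block hM hB hD hV hind hT
  exact hfinish (klein_comm hV) (by rw [← h3]; exact hl)

end Cfsg.Agent.S4648
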