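import Cfsg.Statements.S4649
import Mathlib
import Cfsg.Agent.Lib.FF.CycMain
import Cfsg.Agent.Lib.FF.NilAb
import Cfsg.Agent.Lib.BPair.Abel

set_option autoImplicit false
open Cfsg Cfsg.Agent.Lib.Block Cfsg.Agent.Lib.Char Cfsg.Agent.Lib.CharExtra Cfsg.Agent.Lib.BPair Cfsg.Agent.Lib.FF

namespace Cfsg.Agent.S4649

/-- A block with cyclic defect group, of a finite group relative to a maximal ideal M of the algebraic integers containing the prime p, is nilpotent if and only if its p-regular rank is 1 (it has a unique irreducible Brauer character). -/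
theorem result {G : Type*} [Group G] [Finite G] (p : ℕ) [Fact p.Prime] (M : Ideal Cfsg.AlgInt) (hM : Cfsg.IsPModular p M) (B : Set (Cfsg.IrrCharacter G)) (hB : Cfsg.IsPBlock M B) (P : Subgroup G) (hPD : Cfsg.IsDefectGroup p M B P) (hcyc : IsCyclic P) : Cfsg.IsNilpotentBlock p M B ↔ Cfsg.blockRank p B = 1 := by
  classical
  haveI : Fintype G := Fintype.ofFinite _
  have := isPModular_isPrime hM
  have hab := comm_of_cyclic hcyc
  constructor
  · intro hnil
    exact (nil_ab hM hPD hab hnil).1
  · intro hrk
    obtain ⟨c, hc⟩ := exists_pair_on_defect hM hPD hB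
    have hmax := isMaximal_of_defect hM hPD hc
    refine (nilpotent_iff_of_abelian hM hmax hab).2 ?_
    intro g hg1 hg2
    by_cases hP1 : P = ⊥
    · subst hP1
      rw [Subgroup.mem_centralizer_iff]
      intro h hh
      have : h = 1 := by simpa using hh
      simp [this]
    · have hPp := isPGroup_of_isDefectGroup hPD
      obtain ⟨k, hk⟩ := IsPGroup.iff_card.1 hPp
      have hk0 : k ≠ 0 := by
        rintro rfl
        apply hP1
        rw [pow_zero] at hk
        exact Subgroup.eq_bot_of_card_eq _ hk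
      obtain ⟨n, rfl⟩ : ∃ n, k = n + 1 := ⟨k - 1, by omega⟩
      obtain ⟨T, hT⟩ := exists_pairT (isBrauerPairOf_iff.1 hc).1.2
      have h := (cyc_main hM hB hcyc hk hPD (isInducedBlock_of_pair hM hc) hT rfl).2.2.1
      rw [hrk] at h
      have h2 : T ≤ Cen P := Subgroup.relIndex_eq_one.1 h.symm
      exact h2 ((hT g).2 ⟨hg1, hg2⟩)


end Cfsg.Agent.S4649
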