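import Cfsg.Statements.S4650
import Mathlib
import Cfsg.Agent.Lib.BPair.Induced
import Cfsg.Agent.Lib.Block.CentralDefect2

set_option autoImplicit false
open Cfsg
open Cfsg.Agent.Lib.Block Cfsg.Agent.Lib.Char Cfsg.Agent.Lib.CharExtra Cfsg.Agent.Lib.BPair

namespace Cfsg.Agent.S4650

/-- Let B be a block of the finite group G relative to a maximal ideal M of the algebraic integers containing the prime p, with a nontrivial commutative defect group P; let c be a block of C_G(P) inducing B and T the stabilizer of c in N_G(P). Then T/C_G(P) acts freely on the non-identity elements of P (an element of T fixing a non-identity element of P under conjugation lies in C_G(P)) if and only if, for every nontrivial subgroup Q of P, the block of C_G(Q) induced by c inside C_G(Q) is a nilpotent block of C_G(Q). -/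
theorem result {G : Type*} [Group G] [Finite G] (p : ℕ) [Fact p.Prime] (M : Ideal Cfsg.AlgInt) (hM : Cfsg.IsPModular p M) (B : Set (Cfsg.IrrCharacter G)) (hB : Cfsg.IsPBlock M B) (P : Subgroup G) (hPD : Cfsg.IsDefectGroup p M B P) (hPab : ∀ x ∈ P, ∀ y ∈ P, x * y = y * x) (hP1 : P ≠ ⊥) (c : Set (Cfsg.IrrCharacter (Subgroup.centralizer (P : Set G)))) (hc : Cfsg.IsInducedBlock M (Subgroup.centralizer (P : Set G)) c B) (T : Subgroup G) (hT : ∀ g : G, g ∈ T ↔ (g ∈ Subgroup.normalizer (P : Set G) ∧ Cfsg.StabilizesBlock (Subgroup.centralizer (P : Set G)) c g)) : (∀ g ∈ T, ∀ x ∈ P, x ≠ 1 → g * x * g⁻¹ = x → g ∈ Subgroup.centralizer (P : Set G)) ↔ ∀ Q : Subgroup G, Q ≤ P → Q ≠ ⊥ → ∀ f : Set (Cfsg.IrrCharacter (Subgroup.centralizer (Q : Set G))), Cfsg.IsInducedBlockIn M (Subgroup.centralizer (Q : Set G)) (Subgroup.centralizer (P : Set G)) c f → Cfsg.IsNilpotentBlock p M f := by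
  classical
  haveI : Fintype G := Fintype.ofFinite G
  haveI : M.IsPrime := hM.2.1.isPrime
  have hPp : IsPGroup p P := isPGroup_of_isDefectGroup hPD
  have hpair : IsBrauerPairOf p M B P c := isBrauerPairOf_of_induced hPp hc
  have hmax := isMaximal_of_defect hM hPD hpair
  have hPe := (isBrauerPairOf_iff.1 hmax.1).1
  constructor
  · intro hfree Q hQP hQ1 f hf
    have hn := isNormalSubpair_of_inducedIn hPab hQP hPp hf
    exact nilpotent_of_free hM hmax hPab (fun g h1 h2 => hfree g ((hT g).2 ⟨h1, h2⟩))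
      (Relation.ReflTransGen.single hn) hQ1
  · intro hnil g hg x hx hx1 hgx
    obtain ⟨h1, h2⟩ := (hT g).1 hg
    refine free_of_nilpotent hM hmax hPab (fun Q f hle hQ1 => ?_) h1 h2 hx hx1 hgx
    have hQP := le_of_subpairLE hle
    have hPC := le_cen_of_abelian hPab hQP
    have hn := isNormalSubpair_of_le hM hPe hle .refl hQP (hPC.trans (cen_le_normalizer Q))
    exact hnil Q hQP hQ1 f (inducedIn_of_isNormalSubpair hM hPC hn)

end Cfsg.Agent.S4650
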