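import Cfsg.Statements.S4665
import Mathlib
import Cfsg.Agent.Lib.CharExtra.PReg

set_option autoImplicit false
open Cfsg
open Cfsg.Agent.Lib.CharExtra

namespace Cfsg.Agent.S4665

/-- Fix a prime p, a maximal ideal M of the algebraic integers containing p, and a p-block B of the finite group G, and let p^a be the p-part of the order of G. Let χ be an integer combination of the irreducible characters in B. If the function that agrees with χ on p-regular elements and vanishes on p-singular elements is again an integer combination of the irreducible characters in B, then p^a divides χ(1). -/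
theorem result {G : Type*} [Group G] [Fintype G] (p : ℕ) [Fact p.Prime] (M : Ideal Cfsg.AlgInt) (hM : Cfsg.IsPModular p M) (B : Set (Cfsg.IrrCharacter G)) (hB : Cfsg.IsPBlock M B) (χ : G → ℂ) (hχ : (∃ n : Cfsg.IrrCharacter G → ℤ, ∀ g : G, χ g = ∑ᶠ ψ ∈ B, (n ψ : ℂ) * (ψ : G → ℂ) g)) (h0 : (∃ n : Cfsg.IrrCharacter G → ℤ, ∀ g : G, Cfsg.pRegularPart p χ g = ∑ᶠ ψ ∈ B, (n ψ : ℂ) * (ψ : G → ℂ) g)) : ∃ k : ℤ, χ 1 = (p ^ (Nat.card G).factorization p : ℂ) * k := by
  classical
  obtain ⟨m, hm⟩ := h0
  have hgen : Cfsg.IsGeneralizedCharacter G (Cfsg.pRegularPart p χ) := by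
    convert isGeneralized_sum_irr (fun ψ : Cfsg.IrrCharacter G => if ψ ∈ B then m ψ else 0) using 1
    funext x
    rw [hm, sum_eq_regPart_of_finsum]
  obtain ⟨k, hk⟩ := exists_int_mul_of_vanish (p := p) hgen (fun y hy => by
    simp [Cfsg.pRegularPart, Cfsg.IsPRegular, hy])
  refine ⟨k, ?_⟩
  have h1 : Cfsg.pRegularPart p χ 1 = χ 1 := by
    have h2 : ¬ p ∣ orderOf (1 : G) := by simpa using (Fact.out : p.Prime).one_lt.ne'
    exact if_pos h2
  rw [← h1, hk]
  push_cast
  rfl

end Cfsg.Agent.S4665
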