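import Cfsg.Statements.S4666
import Mathlib
import Cfsg.Agent.Lib.Block.Ortho
import Cfsg.Agent.Lib.CharExtra.PReg

set_option autoImplicit false
open Cfsg
open Cfsg.Agent.Lib.CharExtra

namespace Cfsg.Agent.S4666

/-- Fix a prime p and a maximal ideal M of the algebraic integers containing p, and a p-block B of the finite group G of defect d. For every integer combination χ of the irreducible characters in B, p^d times the function that agrees with χ on p-regular elements and vanishes elsewhere is again an integer combination of the irreducible characters in B. -/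
theorem result {G : Type*} [Group G] [Fintype G] (p : ℕ) [Fact p.Prime] (M : Ideal Cfsg.AlgInt) (hM : Cfsg.IsPModular p M) (B : Set (Cfsg.IrrCharacter G)) (hB : Cfsg.IsPBlock M B) (χ : G → ℂ) (hχ : (∃ n : Cfsg.IrrCharacter G → ℤ, ∀ g : G, χ g = ∑ᶠ ψ ∈ B, (n ψ : ℂ) * (ψ : G → ℂ) g)) : (∃ n : Cfsg.IrrCharacter G → ℤ, ∀ g : G, (p ^ Cfsg.blockDefect p B : ℂ) * Cfsg.pRegularPart p χ g = ∑ᶠ ψ ∈ B, (n ψ : ℂ) * (ψ : G → ℂ) g) := by
  classical
  obtain ⟨n, hn⟩ := hχ
  obtain ⟨k, hk⟩ := exists_pow_defect_regular hM hB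
  refine ⟨fun ξ => ∑ ψ : Cfsg.IrrCharacter G, if ψ ∈ B then n ψ * k ψ ξ else 0, fun g => ?_⟩
  rw [Cfsg.Agent.Lib.Block.finsum_mem_irr]
  have h1 : Cfsg.pRegularPart p χ g = ∑ ψ : Cfsg.IrrCharacter G,
      (if ψ ∈ B then (n ψ : ℂ) * Cfsg.pRegularPart p (ψ : G → ℂ) g else 0) := by
    simp only [Cfsg.pRegularPart, Cfsg.IsPRegular]
    by_cases hg : p ∣ orderOf g
    · simp [hg]
    · simp only [hg, not_false_eq_true, if_true]
      rw [hn, Cfsg.Agent.Lib.Block.finsum_mem_irr]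
  rw [h1, Finset.mul_sum]
  have h2 : ∀ ψ : Cfsg.IrrCharacter G, (p : ℂ) ^ Cfsg.blockDefect p B *
      (if ψ ∈ B then (n ψ : ℂ) * Cfsg.pRegularPart p (ψ : G → ℂ) g else 0) =
      ∑ ξ : Cfsg.IrrCharacter G, if ξ ∈ B then
        (if ψ ∈ B then ((n ψ * k ψ ξ : ℤ) : ℂ) * (ξ : G → ℂ) g else 0) else 0 := by
    intro ψ
    split_ifs with hψ
    · have h3 := (hk ψ hψ).2 g
      rw [mul_left_comm, h3, Finset.mul_sum]
      refine Finset.sum_congr rfl fun ξ _ => ?_
      split_ifs with hξ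
      · push_cast; ring
      · rw [(hk ψ hψ).1 ξ hξ]; simp
    · simp
  simp only [h2]
  rw [Finset.sum_comm]
  refine Finset.sum_congr rfl fun ξ _ => ?_
  split_ifs with hξ
  · push_cast
    rw [Finset.sum_mul]
    refine Finset.sum_congr rfl fun ψ _ => ?_
    split_ifs
    · push_cast; rfl
    · simp
  · simp

end Cfsg.Agent.S4666
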