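import Cfsg.Statements.S4668
import Mathlib
import Cfsg.Agent.Lib.CharExtra.ChainCent

set_option autoImplicit false
open Cfsg
open Cfsg.Agent.Lib.CharExtra Cfsg.Agent.Lib.Block

namespace Cfsg.Agent.S4668

/-- Fix a prime p and a maximal ideal M of the algebraic integers containing p. Let Q₀ < Q₁ < ⋯ < Q_m be a strictly increasing chain of p-subgroups of the finite group G and N the intersection of their normalizers. Then every block idempotent of N is supported on C_G(Q_m): for every p-block E of N, the idempotent coefficient of E vanishes at every element of N outside C_G(Q_m). -/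
theorem result {G : Type*} [Group G] [Fintype G] (p : ℕ) [Fact p.Prime] (M : Ideal Cfsg.AlgInt) (hM : Cfsg.IsPModular p M) (m : ℕ) (Q : Fin (m + 1) → Subgroup G) (hQ : StrictMono Q) (hQp : ∀ i, IsPGroup p (Q i)) (N : Subgroup G) (hN : ∀ g : G, g ∈ N ↔ ∀ i, g ∈ Subgroup.normalizer (Q i : Set G)) (E : Set (Cfsg.IrrCharacter N)) (hE : Cfsg.IsPBlock M E) (n : N) (hn : (n : G) ∉ Subgroup.centralizer (Q (Fin.last m) : Set G)) : Cfsg.blockCoeff E n = 0 := by
  classical
  have := isPModular_isPrime hM
  by_contra hne
  have hreg : ¬ p ∣ orderOf n := regular_of_blockCoeff_ne_zero hM (isBlockUnion_of_isPBlock hE) hne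
  have hnN : ∀ g : N, ∀ i, (g : G) ∈ Subgroup.normalizer (Q i : Set G) := fun g i => (hN g).mp g.2 i
  have hRn : ((Q (Fin.last m)).subgroupOf N).Normal := by
    refine ⟨fun r hr g => ?_⟩
    rw [Subgroup.mem_subgroupOf] at hr ⊢
    simp only [Subgroup.coe_mul, InvMemClass.coe_inv]
    exact (Subgroup.mem_normalizer_iff.mp (hnN g _) r).mp hr
  have hRp : IsPGroup p ((Q (Fin.last m)).subgroupOf N) :=
    (hQp (Fin.last m)).comap_of_injective N.subtype N.subtype_injective
  have hcent : n ∈ Subgroup.centralizer (((Q (Fin.last m)).subgroupOf N : Subgroup N) : Set N) := by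
    by_contra h
    exact hne (blockCoeff_eq_zero_of_notMem_centralizer hM _ hRp hE h)
  apply hn
  have hchain := centralizes_chain Q hQ hQp (x := (n : G)) (by rwa [Subgroup.orderOf_coe]) (hnN n) (by
    intro v hv hvn
    have hvN : v ∈ N := (hN v).mpr hvn
    have h1 := (Subgroup.mem_centralizer_iff.mp hcent) ⟨v, hvN⟩ (by
      show (⟨v, hvN⟩ : N) ∈ (Q (Fin.last m)).subgroupOf N
      rwa [Subgroup.mem_subgroupOf])
    have h2 : v * (n : G) = (n : G) * v := congrArg Subtype.val h1
    rw [← h2]
    group)
  rw [Subgroup.mem_centralizer_iff]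
  intro v hv
  have h3 := hchain v hv
  have h4 : (n : G) * v = v * (n : G) := by
    calc (n : G) * v = ((n : G) * v * (n : G)⁻¹) * (n : G) := by group
      _ = v * (n : G) := by rw [h3]
  exact h4.symm

end Cfsg.Agent.S4668
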