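import Cfsg.Statements.S4684
import Mathlib
import Cfsg.Agent.Lib.Modular.Robinson

set_option autoImplicit false
open Cfsg
open Cfsg.Agent.Lib.Modular Cfsg.Agent.Lib.Block Cfsg.Agent.Lib.CharExtra Cfsg.Agent.Lib.BPair Cfsg.Agent.Lib.Char

namespace Cfsg.Agent.S4684

/-- Fix a prime p and a maximal ideal M of the algebraic integers containing p, a p-block B of the finite group G with maximal Brauer pair (P, e) and fusion system F on P. Then the number of irreducible characters of height zero in B is divisible by the index in P of the focal subgroup of F. -/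
theorem result {G : Type*} [Group G] [Fintype G] (p : ℕ) [Fact p.Prime] (M : Ideal Cfsg.AlgInt) (hM : Cfsg.IsPModular p M) (B : Set (Cfsg.IrrCharacter G)) (P : Subgroup G) (e : Set (Cfsg.IrrCharacter (Subgroup.centralizer (P : Set G)))) (hmax : Cfsg.IsMaximalBrauerPair p M B P e) (F : Cfsg.FusionSystem P) (hF : Cfsg.IsBlockFusionSystemOn p M B P e F) : (F.focalSubgroup.subgroupOf P).index ∣ Nat.card {χ : Cfsg.IrrCharacter G // χ ∈ B ∧ Cfsg.blockHeight p B (χ : G → ℂ) = 0} := by
  classical
  haveI := Cfsg.Agent.Lib.Block.isPModular_isPrime hM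
  have hmax' := hF.1
  have hB : IsPBlock M B := hmax.1.2.1
  have h1 := rob_dvd hM hF 0 (⊥ : Subgroup ((P ⧸ focP F) →* ℂˣ)) (by
    intro lam χ hχ hh hstab
    rw [Subgroup.mem_bot]
    refine MonoidHom.ext fun x => ?_
    obtain ⟨v, rfl⟩ := QuotientGroup.mk_surjective x
    have hUP : Subgroup.zpowers (v : G) ≤ P := (Subgroup.zpowers_le).2 v.2
    obtain ⟨bv, ⟨hbv, hle⟩, -⟩ := existsUnique_subpair hM hmax.1.1 hUP
    have h2 := lam_eq_one_of_stab hM hF lam hstab v hbv hle
      (sec_height_zero_ne hM hmax hχ (factorization_eq_minExp_of_height hχ hh) v.2 hbv hle)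
    rw [h2]
    rfl)
  have hcard : (⊥ : Subgroup ((P ⧸ focP F) →* ℂˣ)).index = (F.focalSubgroup.subgroupOf P).index := by
    rw [Subgroup.index_bot, card_hom_of_comm (comm_A F), Subgroup.index_eq_card]
  rw [← hcard]
  exact h1

end Cfsg.Agent.S4684
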