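import Cfsg.Statements.S4685
import Mathlib
import Cfsg.Agent.Lib.Modular.Robinson

set_option autoImplicit false
open Cfsg
open Cfsg.Agent.Lib.Modular Cfsg.Agent.Lib.Block Cfsg.Agent.Lib.CharExtra Cfsg.Agent.Lib.BPair Cfsg.Agent.Lib.Char

namespace Cfsg.Agent.S4685

/-- Fix a prime p and a maximal ideal M of the algebraic integers containing p, a p-block B of the finite group G with maximal Brauer pair (P, e) and fusion system F on P. Then for every h the number of irreducible characters of height h in B is divisible by the index of Z(P) ∩ foc(F) in Z(P), where foc(F) is the focal subgroup of F. -/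
theorem result {G : Type*} [Group G] [Fintype G] (p : ℕ) [Fact p.Prime] (M : Ideal Cfsg.AlgInt) (hM : Cfsg.IsPModular p M) (B : Set (Cfsg.IrrCharacter G)) (P : Subgroup G) (e : Set (Cfsg.IrrCharacter (Subgroup.centralizer (P : Set G)))) (hmax : Cfsg.IsMaximalBrauerPair p M B P e) (F : Cfsg.FusionSystem P) (hF : Cfsg.IsBlockFusionSystemOn p M B P e F) (h : ℕ) : ((P ⊓ Subgroup.centralizer (P : Set G) ⊓ F.focalSubgroup).subgroupOf (P ⊓ Subgroup.centralizer (P : Set G))).index ∣ Nat.card {χ : Cfsg.IrrCharacter G // χ ∈ B ∧ Cfsg.blockHeight p B (χ : G → ℂ) = h} := by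
  classical
  haveI := Cfsg.Agent.Lib.Block.isPModular_isPrime hM
  have hB : IsPBlock M B := hmax.1.2.1
  obtain ⟨χ₀, hχ₀, h0⟩ := exists_height_zero (p := p) (IsPBlock_nonempty hB)
  set f : ↥(P ⊓ Subgroup.centralizer (P : Set G)) →* (P ⧸ focP F) :=
    (QuotientGroup.mk' (focP F)).comp (Subgroup.inclusion (inf_le_left : P ⊓ Subgroup.centralizer (P : Set G) ≤ P)) with hf
  set K : Subgroup ((P ⧸ focP F) →* ℂˣ) := (MonoidHom.domRestrictHom f.range ℂˣ).ker with hK
  have h1 := rob_dvd hM hF h K (by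
    intro lam χ hχ hh hstab
    rw [hK, MonoidHom.mem_ker]
    ext ⟨y, z, rfl⟩
    have hzP : (z : G) ∈ P := z.2.1
    have hzc : (z : G) ∈ Subgroup.centralizer (P : Set G) := z.2.2
    have hUP : Subgroup.zpowers (z : G) ≤ P := (Subgroup.zpowers_le).2 hzP
    obtain ⟨bv, ⟨hbv, hle⟩, -⟩ := existsUnique_subpair hM hmax.1.1 hUP
    have h2 := lam_eq_one_of_stab hM hF lam hstab ⟨z, hzP⟩ hbv hle
      (sec_center_ne hM hmax hχ₀ h0 hχ hzP hzc hbv hle)
    show ((lam (f z) : ℂˣ) : ℂ) = 1
    have h3 : f z = ((⟨z, hzP⟩ : P) : P ⧸ focP F) := rfl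
    rw [h3, h2]
    rfl)
  have hker : f.ker = (P ⊓ Subgroup.centralizer (P : Set G) ⊓ F.focalSubgroup).subgroupOf (P ⊓ Subgroup.centralizer (P : Set G)) := by
    ext z
    rw [MonoidHom.mem_ker, Subgroup.mem_subgroupOf]
    have h3 : f z = 1 ↔ (Subgroup.inclusion (inf_le_left : P ⊓ Subgroup.centralizer (P : Set G) ≤ P) z) ∈ focP F :=
      QuotientGroup.eq_one_iff _
    rw [h3, Subgroup.mem_subgroupOf]
    constructor
    · intro h4
      exact ⟨z.2, h4⟩
    · intro h4
      exact h4.2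
  have hcard : K.index = ((P ⊓ Subgroup.centralizer (P : Set G) ⊓ F.focalSubgroup).subgroupOf (P ⊓ Subgroup.centralizer (P : Set G))).index := by
    rw [← hker, Subgroup.index_ker, Subgroup.index_ker,
      MonoidHom.range_eq_top.2 (restrict_surj (comm_A F) f.range), Subgroup.card_top,
      card_hom_of_comm (A₀ := f.range) (fun a b => Subtype.ext (comm_A F _ _))]
  rw [← hcard]
  exact h1

end Cfsg.Agent.S4685
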