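import Cfsg.Statements.S4689
import Mathlib
import Cfsg.Agent.Lib.Modular.NilpBlock

set_option autoImplicit false
open Cfsg
open Cfsg.Agent.Lib.Modular Cfsg.Agent.Lib.Block Cfsg.Agent.Lib.CharExtra Cfsg.Agent.Lib.BPair Cfsg.Agent.Lib.Char

namespace Cfsg.Agent.S4689

/-- Fix a prime p and a maximal ideal M of the algebraic integers containing p, and a nilpotent p-block B of the finite group G. Then B has p-regular rank one (a single irreducible Brauer character), and some χ₀ ∈ B restricts to that Brauer character: every χ ∈ B agrees on the p-regular elements with a natural-number multiple of χ₀. -/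
theorem result {G : Type*} [Group G] [Fintype G] (p : ℕ) [Fact p.Prime] (M : Ideal Cfsg.AlgInt) (hM : Cfsg.IsPModular p M) (B : Set (Cfsg.IrrCharacter G)) (hnil : Cfsg.IsNilpotentBlock p M B) : Cfsg.blockRank p B = 1 ∧ ∃ χ₀ ∈ B, ∀ χ ∈ B, ∃ d : ℕ, ∀ x : G, Cfsg.pRegularPart p (χ : G → ℂ) x = (d : ℂ) * Cfsg.pRegularPart p (χ₀ : G → ℂ) x := by
  classical
  haveI := Cfsg.Agent.Lib.Block.isPModular_isPrime hM
  have hB : IsPBlock M B := hnil.1
  obtain ⟨P, hP⟩ := Cfsg.Agent.Lib.CharExtra.exists_isDefectGroup hM hB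
  obtain ⟨e, he⟩ := exists_pair_on_defect hM hP hB
  have hmax := isMaximal_of_defect hM hP he
  obtain ⟨χ₀, hχ₀, h0⟩ := exists_height_zero (p := p) (IsPBlock_nonempty hB)
  obtain ⟨Φ, hΦB, hinj, hsurj, hreg⟩ := nil_main hM hmax hnil hχ₀ h0
  have hform : ∀ χ ∈ B, ∃ d : ℕ, ∀ x : G, Cfsg.pRegularPart p (χ : G → ℂ) x = (d : ℂ) * Cfsg.pRegularPart p (χ₀ : G → ℂ) x := by
    intro χ hχ
    obtain ⟨l, rfl⟩ := hsurj χ hχ
    refine ⟨charDegree (l : P → ℂ), fun x => ?_⟩
    by_cases hx : p ∣ orderOf x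
    · rw [pRegularPart_eq_zero_of_dvd _ hx, pRegularPart_eq_zero_of_dvd _ hx, mul_zero]
    · rw [pRegularPart_eq_of_regular _ hx, pRegularPart_eq_of_regular _ hx, hreg l x hx,
        map_one_eq_charDegree (IsIrrCharacter.isCharacter l.2)]
  refine ⟨?_, χ₀, hχ₀, hform⟩
  have hspan : Submodule.span ℂ ((fun χ : IrrCharacter G => Cfsg.pRegularPart p (χ : G → ℂ)) '' B) =
      Submodule.span ℂ {Cfsg.pRegularPart p (χ₀ : G → ℂ)} := by
    apply le_antisymm
    · rw [Submodule.span_le]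
      rintro _ ⟨χ, hχ, rfl⟩
      obtain ⟨d, hd⟩ := hform χ hχ
      have : (Cfsg.pRegularPart p (χ : G → ℂ)) = (d : ℂ) • Cfsg.pRegularPart p (χ₀ : G → ℂ) := by
        funext x
        simp [hd x]
      show Cfsg.pRegularPart p (χ : G → ℂ) ∈ _
      rw [this]
      exact Submodule.smul_mem _ _ (Submodule.subset_span rfl)
    · rw [Submodule.span_singleton_le_iff_mem]
      exact Submodule.subset_span ⟨χ₀, hχ₀, rfl⟩
  have hne : Cfsg.pRegularPart p (χ₀ : G → ℂ) ≠ 0 := by
    intro h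
    have h1 := congrFun h 1
    rw [pRegularPart_eq_of_regular _ (by simp [(Fact.out : p.Prime).one_lt.ne']), map_one_eq_charDegree (IsIrrCharacter.isCharacter χ₀.2)] at h1
    have h2 := charDegree_pos_of_irr χ₀.2
    have h3 : ((charDegree (χ₀ : G → ℂ) : ℕ) : ℂ) ≠ 0 := by exact_mod_cast h2.ne'
    exact h3 h1
  show Module.finrank ℂ _ = 1
  rw [hspan]
  exact finrank_span_singleton hne

end Cfsg.Agent.S4689
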