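import Cfsg.Statements.S4690
import Mathlib
import Cfsg.Agent.Lib.Modular.NilpBlock

set_option autoImplicit false
open Cfsg
open Cfsg.Agent.Lib.Modular Cfsg.Agent.Lib.Block Cfsg.Agent.Lib.CharExtra Cfsg.Agent.Lib.BPair Cfsg.Agent.Lib.Char

namespace Cfsg.Agent.S4690

/-- Fix a prime p and a maximal ideal M of the algebraic integers containing p, and a nilpotent p-block B of the finite group G with defect group P. Then there is a bijection from B onto the irreducible characters of P carrying the height of each χ ∈ B to the exponent of p in the degree of its image. -/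
theorem result {G : Type*} [Group G] [Fintype G] (p : ℕ) [Fact p.Prime] (M : Ideal Cfsg.AlgInt) (hM : Cfsg.IsPModular p M) (B : Set (Cfsg.IrrCharacter G)) (hnil : Cfsg.IsNilpotentBlock p M B) (P : Subgroup G) (hP : Cfsg.IsDefectGroup p M B P) : ∃ Φ : B ≃ Cfsg.IrrCharacter P, ∀ χ : B, Cfsg.blockHeight p B ((χ : Cfsg.IrrCharacter G) : G → ℂ) = (Cfsg.charDegree ((Φ χ : Cfsg.IrrCharacter P) : P → ℂ)).factorization p := by
  classical
  haveI := Cfsg.Agent.Lib.Block.isPModular_isPrime hM
  have hB : IsPBlock M B := hnil.1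
  obtain ⟨e, he⟩ := exists_pair_on_defect hM hP hB
  have hmax := isMaximal_of_defect hM hP he
  obtain ⟨χ₀, hχ₀, h0⟩ := exists_height_zero (p := p) (IsPBlock_nonempty hB)
  obtain ⟨Φ, hΦB, hinj, hsurj, hreg⟩ := nil_main hM hmax hnil hχ₀ h0
  let Ψ : IrrCharacter P → B := fun l => ⟨Φ l, hΦB l⟩
  have hΨ : Function.Bijective Ψ := by
    constructor
    · intro l l' h
      exact hinj (congrArg Subtype.val h)
    · rintro ⟨ψ, hψ⟩
      obtain ⟨l, hl⟩ := hsurj ψ hψ
      exact ⟨l, Subtype.ext hl⟩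
  refine ⟨(Equiv.ofBijective Ψ hΨ).symm, fun χ => ?_⟩
  obtain ⟨l, rfl⟩ := hΨ.2 χ
  have h1 : (Equiv.ofBijective Ψ hΨ).symm (Ψ l) = l := (Equiv.ofBijective Ψ hΨ).symm_apply_apply l
  rw [h1]
  have hdeg : charDegree ((Φ l : IrrCharacter G) : G → ℂ) = charDegree (l : P → ℂ) * charDegree (χ₀ : G → ℂ) := by
    have h2 := hreg l 1 (by simp [(Fact.out : p.Prime).one_lt.ne'])
    rw [map_one_eq_charDegree (IsIrrCharacter.isCharacter (Φ l).2), map_one_eq_charDegree (IsIrrCharacter.isCharacter l.2),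
      map_one_eq_charDegree (IsIrrCharacter.isCharacter χ₀.2)] at h2
    exact_mod_cast h2
  show blockHeight p B ((Φ l : IrrCharacter G) : G → ℂ) = _
  unfold blockHeight
  have h3 : sInf ((fun ψ : IrrCharacter G => (charDegree (ψ : G → ℂ)).factorization p) '' B) = minExp p B := rfl
  rw [h3, hdeg, Nat.factorization_mul (charDegree_pos_of_irr l.2).ne' (charDegree_pos_of_irr χ₀.2).ne']
  simp [h0]

end Cfsg.Agent.S4690
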