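import Cfsg.Statements.S4694
import Mathlib
import Cfsg.Agent.Lib.BPair.Weight

set_option autoImplicit false
open Cfsg

namespace Cfsg.Agent.S4694

/-- Fix a prime p and a maximal ideal M of the algebraic integers containing p, a p-block B of the finite group G and a Brauer pair (Q, e) of B. Let T be the stabilizer of e in N_G(Q) and suppose that (Q, e) carries a weight: the block of T whose idempotent is that of e contains an irreducible character χ that is constant on the cosets of Q and whose degree has p-part equal to the p-part of the index of Q in T. Then Z(Q) is a defect group of e as a block of C_G(Q), and Q is the largest normal p-subgroup of T: every p-subgroup of T normalized by T lies in Q. -/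
theorem result {G : Type*} [Group G] [Fintype G] (p : ℕ) [Fact p.Prime] (M : Ideal Cfsg.AlgInt) (hM : Cfsg.IsPModular p M) (B : Set (Cfsg.IrrCharacter G)) (Q : Subgroup G) (e : Set (Cfsg.IrrCharacter (Subgroup.centralizer (Q : Set G)))) (hQe : Cfsg.IsBrauerPairOf p M B Q e) (T : Subgroup G) (hT : ∀ y : G, y ∈ T ↔ y ∈ Subgroup.normalizer (Q : Set G) ∧ Cfsg.StabilizesBlock (Subgroup.centralizer (Q : Set G)) e y) (F' : Set (Cfsg.IrrCharacter T)) (hF' : Cfsg.IsPBlock M F') (hF'e : ∀ t : T, Cfsg.blockCoeff F' t = Cfsg.subgroupBlockCoeff (Subgroup.centralizer (Q : Set G)) e (t : G)) (χ : Cfsg.IrrCharacter T) (hχ : χ ∈ F') (hχQ : ∀ q : G, q ∈ Q → ∀ t : T, ∀ t' : T, (t' : G) = q * (t : G) → (χ : T → ℂ) t' = (χ : T → ℂ) t) (hdeg : (Cfsg.charDegree (χ : T → ℂ)).factorization p + (Nat.card Q).factorization p = (Nat.card T).factorization p) : Cfsg.IsDefectGroup p M e ((Q ⊓ Subgroup.centralizer (Q : Set G)).subgroupOf (Subgroup.centralizer (Q : Set G))) ∧ ∀ R : Subgroup G, R ≤ T → IsPGroup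 p R → (∀ t ∈ T, t ∈ Subgroup.normalizer (R : Set G)) → R ≤ Q := by
  classical
  have hCT : Cfsg.Agent.Lib.BPair.Cen Q ≤ T := by
    intro c hc
    rw [hT]
    have hcN : c ∈ Subgroup.normalizer (Q : Set G) := Cfsg.Agent.Lib.Block.centralizer_le_normalizer_self Q hc
    refine ⟨hcN, Cfsg.Agent.Lib.BPair.normalizer_le_normalizer_cen hcN, fun θ hθ => ⟨θ, hθ, fun k k' hk => ?_⟩⟩
    have hcf := Cfsg.Agent.Lib.Char.IsCharacter.isClassFunction (Cfsg.Agent.Lib.Char.IsIrrCharacter.isCharacter θ.2)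
    have e1 : k' = (⟨c, hc⟩ : Cfsg.Agent.Lib.BPair.Cen Q) * k * (⟨c, hc⟩ : Cfsg.Agent.Lib.BPair.Cen Q)⁻¹ := Subtype.ext hk
    rw [e1]
    exact hcf k _
  have hQT : Q ≤ T := by
    intro q hq
    rw [hT]
    have hqN : q ∈ Subgroup.normalizer (Q : Set G) := Cfsg.Agent.Lib.Block.le_normalizer_self Q hq
    refine ⟨hqN, Cfsg.Agent.Lib.BPair.normalizer_le_normalizer_cen hqN, fun θ hθ => ⟨θ, hθ, fun k k' hk => ?_⟩⟩
    have e1 : k' = k := by
      apply Subtype.ext
      rw [hk]
      have := Subgroup.mem_centralizer_iff.mp k.2 q hq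
      rw [this]
      group
    rw [e1]
  have hTN : T ≤ Subgroup.normalizer (Q : Set G) := fun t ht => ((hT t).1 ht).1
  refine Cfsg.Agent.Lib.BPair.weight_main hM hQe.1.1 hQe.1.2 hCT hQT hTN hF'e hχ (fun q hq => ?_) hdeg
  have := hχQ q hq 1 q (by simp)
  exact this

end Cfsg.Agent.S4694
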