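import Cfsg.Statements.S4699
import Mathlib
import Cfsg.Agent.Lib.FF.TITrace

set_option autoImplicit false
open Cfsg

namespace Cfsg.Agent.S4699

/-- Let p be a prime and G a finite group whose Sylow p-subgroup P is cyclic of order p^n with n ≥ 2 and meets every other Sylow p-subgroup trivially. Then every faithful irreducible representation of G on a finite-dimensional space over a finite field of characteristic p has dimension at least p^n − (p − 1). -/
theorem result {G : Type*} [Group G] [Finite G] (p : ℕ) [Fact p.Prime] (P : Sylow p G) (hcyc : IsCyclic P) (n : ℕ) (hn : 2 ≤ n) (hPn : Nat.card P = p ^ n) (hTI : ∀ Q : Sylow p G, Q ≠ P → (P : Subgroup G) ⊓ (Q : Subgroup G) = ⊥) (F : Type*) [Field F] [Finite F] [CharP F p] (V : Type*) [AddCommGroup V] [Module F V] [FiniteDimensional F V] (ρ : Representation F G V) (hfaith : Function.Injective ρ) (hirr : ρ.IsIrreducible) : p ^ n - (p - 1) ≤ Module.finrank F V := by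
  classical
  open Polynomial in
  by_contra hlt
  push Not at hlt
  haveI : Fintype G := Fintype.ofFinite G
  have hp : p.Prime := Fact.out
  set d := Module.finrank F V with hd
  set q := p ^ n with hq
  have hp1 : 1 ≤ p - 1 := by have := hp.two_le; omega
  have hdq : d + (p - 1) < q := by omega
  -- the generator
  obtain ⟨g, hg⟩ := IsCyclic.exists_generator (α := (P : Subgroup G))
  set x : G := (g : G) with hx
  have hog : orderOf g = q := by
    rw [orderOf_eq_card_of_forall_mem_zpowers hg]
    exact hPn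
  have hox : orderOf x = q := by
    rw [hx, Subgroup.orderOf_coe, hog]
  set A := ρ x with hA
  set A' := ρ x⁻¹ with hA'
  have hAA' : A * A' = 1 := by
    rw [hA, hA', ← map_mul, mul_inv_cancel, map_one]
  have hA'A : A' * A = 1 := by
    rw [hA, hA', ← map_mul, inv_mul_cancel, map_one]
  set N := A - 1 with hN
  have hpowN : ∀ m : ℕ, N ^ (p ^ m) = ρ (x ^ (p ^ m)) - 1 := by
    intro m
    have := congrArg (Polynomial.aeval A) (Cfsg.Agent.Lib.FF.X_sub_one_pow F p m)
    simpa [map_sub, map_pow, Polynomial.aeval_X, map_one, hN, hA] using this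
  have hNq : N ^ q = 0 := by
    rw [hq, hpowN n, ← hq, ← hox, pow_orderOf_eq_one, map_one, sub_self]
  have hNd : N ^ d = 0 := by
    have hnil : IsNilpotent N := ⟨q, hNq⟩
    have h1 := hnil.charpoly_eq_X_pow_finrank
    have h2 := LinearMap.aeval_self_charpoly N
    rw [h1] at h2
    simpa using h2
  -- the group of automorphisms
  set Φ : Subgroup (MulAut (P : Subgroup G)) := (P : Subgroup G).normalizerMonoidHom.range with hΦ
  set e := Nat.card Φ with he
  haveI hΦfin : Finite Φ := Finite.of_surjective _ (P : Subgroup G).normalizerMonoidHom.rangeRestrict_surjective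
  haveI : Fintype Φ := Fintype.ofFinite _
  have hcop : Nat.Coprime e p := by
    have h1 : e = (P : Subgroup G).normalizerMonoidHom.ker.index := (Subgroup.index_ker _).symm
    rw [h1, Subgroup.normalizerMonoidHom_ker, ← Subgroup.relIndex]
    apply Nat.Coprime.coprime_dvd_left (Subgroup.relIndex_dvd_of_le_left _ P.le_centralizer)
    apply Nat.Coprime.coprime_dvd_left (Subgroup.relIndex_dvd_index_of_le P.le_normalizer)
    rw [Nat.coprime_comm, Nat.Prime.coprime_iff_not_dvd hp]
    exact P.not_dvd_index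
  have hedvd : e ∣ p - 1 := by
    have h1 : e ∣ Nat.card (MulAut (P : Subgroup G)) := Subgroup.card_subgroup_dvd_card Φ
    rw [hcyc.card_mulAut, hPn, Nat.totient_prime_pow hp (by omega)] at h1
    exact (hcop.pow_right _).dvd_of_dvd_mul_left h1
  have hele : e ≤ p - 1 := Nat.le_of_dvd (by omega) hedvd
  have hepos : 0 < e := Nat.card_pos
  have heF : (e : F) ≠ 0 := by
    rw [Ne, CharP.cast_eq_zero_iff F p e]
    intro h
    have := Nat.eq_one_of_dvd_coprimes hcop h (dvd_refl p) 
    exact hp.one_lt.ne' this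
  -- exponents
  have hkex : ∀ φ : Φ, ∃ k : ℕ, (φ : MulAut (P : Subgroup G)) g = g ^ k := by
    intro φ
    have := hg ((φ : MulAut (P : Subgroup G)) g)
    obtain ⟨k, hk⟩ := mem_powers_iff_mem_zpowers.2 this
    exact ⟨k, hk.symm⟩
  choose k hk using hkex
  have hkF : ∀ φ : Φ, ((k φ : ℕ) : F) ^ e = 1 := by
    intro φ
    have h1 : ∀ j : ℕ, (((φ : MulAut (P : Subgroup G)) ^ j) g) = g ^ (k φ ^ j) := by
      intro j
      induction j with
      | zero => simp
      | succ j ih =>
        rw [pow_succ', MulAut.mul_apply, ih, map_pow, hk, ← pow_mul, pow_succ']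
    have h2 : ((φ : MulAut (P : Subgroup G)) ^ e) = 1 := by
      have := pow_card_eq_one' (x := φ)
      exact congrArg Subtype.val this
    have h3 := h1 e
    rw [h2, MulAut.one_apply] at h3
    have h4 : g ^ (k φ ^ e) = g ^ 1 := by rw [← h3, pow_one]
    have h5 := (pow_inj_mod).1 h4
    rw [hog] at h5
    have h6 : k φ ^ e ≡ 1 [MOD q] := h5
    have h7 : k φ ^ e ≡ 1 [MOD p] := h6.of_dvd (dvd_pow_self p (by omega))
    have h8 := (CharP.natCast_eq_natCast F p).2 h7
    simpa using h8
  -- the invariant element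
  set z : Module.End F V := ∑ φ : Φ, (ρ (((φ : MulAut (P : Subgroup G)) g : (P : Subgroup G)) : G) - 1) ^ e with hz
  let Gk : ℕ → Polynomial F := fun m => ∑ i ∈ Finset.range m, Polynomial.X ^ i
  let u : Polynomial F := ∑ φ : Φ, (Gk (k φ)) ^ e
  have hzu : z = N ^ e * Polynomial.aeval A u := by
    have h1 : ∀ φ : Φ, (ρ (((φ : MulAut (P : Subgroup G)) g : (P : Subgroup G)) : G) - 1) ^ e =
        N ^ e * Polynomial.aeval A ((Gk (k φ)) ^ e) := by
      intro φ
      rw [hk]
      have h2 : (Polynomial.X - 1 : Polynomial F) * Gk (k φ) = Polynomial.X ^ k φ - 1 := mul_geom_sum _ _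
      have h3 := congrArg (fun t => Polynomial.aeval A (t ^ e)) h2
      simp only [mul_pow, map_mul, map_pow, map_sub, Polynomial.aeval_X, map_one] at h3
      simp only [map_pow]
      rw [Subgroup.coe_pow, map_pow, ← h3]
    rw [hz, Finset.sum_congr rfl (fun φ _ => h1 φ), ← Finset.mul_sum, ← map_sum]
  have heval : Polynomial.eval 1 u = (e : F) := by
    simp only [u, Gk, Polynomial.eval_finsetSum, Polynomial.eval_pow, Polynomial.eval_X, one_pow,
      Finset.sum_const, Finset.card_range, nsmul_eq_mul, mul_one]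
    simp only [hkF, Finset.sum_const, Finset.card_univ, nsmul_eq_mul, mul_one]
    rw [Fintype.card_eq_nat_card]
  obtain ⟨wp, hwp⟩ := Polynomial.X_sub_C_dvd_sub_C_eval (a := (1 : F)) (p := u)
  have hbez : Polynomial.aeval A u = (e : F) • 1 + N * Polynomial.aeval A wp := by
    have h1 := congrArg (Polynomial.aeval A) hwp
    rw [heval] at h1
    simp only [map_sub, map_mul, Polynomial.aeval_X, Polynomial.aeval_C, map_one, Algebra.algebraMap_eq_smul_one] at h1
    rw [eq_add_of_sub_eq h1, add_comm]
  -- `z` commutes with the normalizer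
  have hzcomm : ∀ h ∈ Subgroup.normalizer ((P : Subgroup G) : Set G), ρ h * z = z * ρ h := by
    intro h hh
    set h' : Subgroup.normalizer ((P : Subgroup G) : Set G) := ⟨h, hh⟩ with hh'
    set ψ : Φ := ⟨(P : Subgroup G).normalizerMonoidHom h', ⟨h', rfl⟩⟩ with hψ
    have h1 : ∀ φ : Φ, ρ h * (ρ (((φ : MulAut (P : Subgroup G)) g : (P : Subgroup G)) : G) - 1) ^ e =
        (ρ ((((ψ * φ : Φ) : MulAut (P : Subgroup G)) g : (P : Subgroup G)) : G) - 1) ^ e * ρ h := by
      intro φ
      have hsemi : SemiconjBy (ρ h) (ρ (((φ : MulAut (P : Subgroup G)) g : (P : Subgroup G)) : G) - 1)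
          (ρ ((((ψ * φ : Φ) : MulAut (P : Subgroup G)) g : (P : Subgroup G)) : G) - 1) := by
        have h2 : (((((ψ * φ : Φ) : MulAut (P : Subgroup G)) g : (P : Subgroup G)) : G)) =
            h * (((φ : MulAut (P : Subgroup G)) g : (P : Subgroup G)) : G) * h⁻¹ := rfl
        unfold SemiconjBy
        rw [h2, mul_sub, sub_mul, mul_one, one_mul, ← map_mul, ← map_mul, mul_assoc, mul_assoc, inv_mul_cancel, mul_one]
      exact hsemi.pow_right e
    rw [hz, Finset.mul_sum, Finset.sum_mul, Finset.sum_congr rfl (fun φ _ => h1 φ)]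
    exact Fintype.sum_equiv (Equiv.mulLeft ψ) _ (fun φ : Φ => (ρ (((φ : MulAut (P : Subgroup G)) g : (P : Subgroup G)) : G) - 1) ^ e * ρ h) (fun _ => rfl)
  -- the sum over Sylow subgroups
  have hs : ∀ Q : Sylow p G, ∃ c : G, c • P = Q := fun Q => MulAction.exists_smul_eq G P Q
  choose c hc using hs
  haveI : Fintype (Sylow p G) := Fintype.ofFinite _
  let f : Sylow p G → Module.End F V := fun Q => ρ (c Q) * z * ρ (c Q)⁻¹
  have hf : ∀ (Q : Sylow p G) (c' : G), c' • P = Q → f Q = ρ c' * z * ρ c'⁻¹ := by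
    intro Q c' hc'
    have h0 : ((c Q)⁻¹ * c') • P = P := by rw [mul_smul, hc', inv_smul_eq_iff, hc]
    have h1 : (c Q)⁻¹ * c' ∈ Subgroup.normalizer ((P : Subgroup G) : Set G) :=
      Sylow.smul_eq_iff_mem_normalizer.1 h0
    have h2 := hzcomm _ h1
    set m := (c Q)⁻¹ * c' with hm
    have h3 : c' = c Q * m := by rw [hm]; group
    show ρ (c Q) * z * ρ (c Q)⁻¹ = _
    have h4 : ρ m * ρ m⁻¹ = 1 := by
      rw [← map_mul, mul_inv_cancel, map_one]
    calc ρ (c Q) * z * ρ (c Q)⁻¹ = ρ (c Q) * z * (ρ m * ρ m⁻¹) * ρ (c Q)⁻¹ := by rw [h4, mul_one]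
      _ = ρ (c Q) * (ρ m * z) * (ρ m⁻¹ * ρ (c Q)⁻¹) := by rw [h2]; simp only [mul_assoc]
      _ = ρ c' * z * ρ c'⁻¹ := by
        have h5 : ρ c' = ρ (c Q) * ρ m := by rw [h3, map_mul]
        have h6 : ρ c'⁻¹ = ρ m⁻¹ * ρ (c Q)⁻¹ := by rw [h3, mul_inv_rev, map_mul]
        rw [h5, h6]
        simp only [mul_assoc]
  have hact : ∀ (t : G) (Q : Sylow p G), ρ t * f Q = f (t • Q) * ρ t := by
    intro t Q
    rw [hf (t • Q) (t * c Q) (by rw [mul_smul, hc])]
    show ρ t * (ρ (c Q) * z * ρ (c Q)⁻¹) = _
    have h1 : ρ (t * c Q)⁻¹ * ρ t = ρ (c Q)⁻¹ := by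
      rw [← map_mul]
      congr 1
      group
    rw [mul_assoc (ρ (t * c Q) * z), h1, map_mul]
    simp only [mul_assoc]
  set δ : Module.End F V := ∑ Q, f Q with hδ
  have hδcomm : ∀ t : G, ρ t * δ = δ * ρ t := by
    intro t
    rw [hδ, Finset.mul_sum, Finset.sum_mul, Finset.sum_congr rfl (fun Q _ => hact t Q)]
    exact Fintype.sum_equiv (MulAction.toPerm t) _ (fun Q : Sylow p G => f Q * ρ t) (fun _ => rfl)
  -- the trace part
  let S : AddSubgroup (Module.End F V) :=
    { carrier := {w | ∀ v, w v ∈ LinearMap.range (N ^ (q - d))}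
      add_mem' := by
        intro a b ha hb v
        exact Submodule.add_mem _ (ha v) (hb v)
      zero_mem' := by
        intro v
        exact Submodule.zero_mem _
      neg_mem' := by
        intro a ha v
        exact Submodule.neg_mem _ (ha v) }
  have hSmem : ∀ (w : Module.End F V), w ∈ S ↔ ∀ v, w v ∈ LinearMap.range (N ^ (q - d)) := fun w => Iff.rfl
  have himage : Finset.image (fun i : ℕ => g ^ i) (Finset.range q) = Finset.univ := by
    rw [← hog]
    exact IsCyclic.image_range_orderOf hg
  have hpart : ∑ Q ∈ Finset.univ.erase P, f Q ∈ S := by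
    refine Cfsg.Agent.Lib.FF.sum_free_action (P := (P : Subgroup G)) S f P ?_ ?_ ?_
    · intro a
      have h1 : (a : G) ∈ Subgroup.normalizer ((P : Subgroup G) : Set G) :=
        Subgroup.le_normalizer a.2
      exact Sylow.smul_eq_iff_mem_normalizer.2 h1
    · intro Q hQ a ha
      have h1 : (a : G) • Q = Q := ha
      have h2 : (a : G) ∈ Subgroup.normalizer ((Q : Subgroup G) : Set G) :=
        Sylow.smul_eq_iff_mem_normalizer.1 h1
      have h3 := IsPGroup.inf_normalizer_sylow P.isPGroup' Q
      have h4 : (a : G) ∈ (P : Subgroup G) ⊓ Subgroup.normalizer ((Q : Subgroup G) : Set G) := ⟨a.2, h2⟩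
      have h5 : (a : G) ∈ (P : Subgroup G) ⊓ (Q : Subgroup G) := h3.le h4
      rw [hTI Q hQ] at h5
      exact Subtype.ext h5
    · intro Q hQ
      have h1 : ∀ a : (P : Subgroup G), f (a • Q) = ρ a * f Q * ρ (a : G)⁻¹ := by
        intro a
        have h2 := hact (a : G) Q
        have h3 : ρ (a : G) * ρ (a : G)⁻¹ = 1 := by rw [← map_mul, mul_inv_cancel, map_one]
        change f ((a : G) • Q) = _
        rw [h2, mul_assoc, h3, mul_one]
      have h2 : ∑ a : (P : Subgroup G), f (a • Q) =
          ∑ i ∈ Finset.range q, A ^ i * f Q * A' ^ i := by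
        rw [← himage, Finset.sum_image]
        · refine Finset.sum_congr rfl fun i _ => ?_
          rw [h1]
          simp only [Subgroup.coe_pow, map_pow, inv_pow]
          rw [hA, hA', ← map_pow, ← map_pow, inv_pow, hx]
        · intro i hi j hj hij
          have h3 : Set.InjOn (fun i : ℕ => g ^ i) (Set.Iio (orderOf g)) := pow_injOn_Iio_orderOf
          apply h3 _ _ hij
          · have := Finset.mem_coe.1 hi
            rw [Finset.mem_range] at this
            rw [Set.mem_Iio, hog]
            exact this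
          · have := Finset.mem_coe.1 hj
            rw [Finset.mem_range] at this
            rw [Set.mem_Iio, hog]
            exact this
      rw [h2, hSmem]
      intro v
      exact Cfsg.Agent.Lib.FF.trace_range p n A A' hAA' hA'A d hNd (by omega) _ v
  have hfP : f P = z := by
    rw [hf P 1 (one_smul _ _)]
    simp
  have hδsplit : δ = z + ∑ Q ∈ Finset.univ.erase P, f Q := by
    rw [hδ, ← Finset.add_sum_erase _ _ (Finset.mem_univ P), hfP]
  have hx1 : x ≠ 1 := by
    intro h
    rw [h, orderOf_one] at hox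
    have : 1 < q := by omega
    omega
  -- `δ` vanishes
  have hδ0 : δ = 0 := by
    let K : Subrepresentation ρ :=
      { toSubmodule := LinearMap.ker δ
        apply_mem_toSubmodule := by
          intro t v hv
          rw [LinearMap.mem_ker] at hv ⊢
          have := congrArg (fun T : Module.End F V => T v) (hδcomm t)
          simp only [Module.End.mul_apply, hv, map_zero] at this
          exact this.symm }
    rcases hirr.eq_bot_or_eq_top K with hK | hK
    · exfalso
      have h1 : LinearMap.ker δ = ⊥ := congrArg Subrepresentation.toSubmodule hK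
      have h2 : Function.Surjective δ := LinearMap.injective_iff_surjective.1 (LinearMap.ker_eq_bot.1 h1)
      have h3 : ∀ v : V, v ∈ LinearMap.range N := by
        intro v
        obtain ⟨w, rfl⟩ := h2 v
        rw [hδsplit, LinearMap.add_apply]
        refine Submodule.add_mem _ ?_ ?_
        · rw [hzu, Module.End.mul_apply]
          have h4 := Cfsg.Agent.Lib.FF.range_pow_le (N := N) (a := 1) (b := e) hepos
          rw [pow_one] at h4
          exact h4 ⟨_, rfl⟩
        · have h4 := Cfsg.Agent.Lib.FF.range_pow_le (N := N) (a := 1) (b := q - d) (by omega)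
          rw [pow_one] at h4
          exact h4 (hpart w)
      have h4 : ∀ (j : ℕ) (v : V), v ∈ LinearMap.range (N ^ j) := by
        intro j
        induction j with
        | zero => intro v; exact ⟨v, by simp⟩
        | succ j ih =>
          intro v
          obtain ⟨w, rfl⟩ := h3 v
          obtain ⟨w', rfl⟩ := ih w
          exact ⟨w', by rw [pow_succ', Module.End.mul_apply]⟩
      have h5 : ∀ v : V, v = 0 := by
        intro v
        obtain ⟨w, hw⟩ := h4 q v
        rw [← hw, hNq]
        simp
      apply hx1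
      apply hfaith
      ext v
      rw [h5 (ρ x v), h5 (ρ 1 v)]
    · have h1 : LinearMap.ker δ = ⊤ := congrArg Subrepresentation.toSubmodule hK
      exact LinearMap.ker_eq_top.1 h1
  have hzS : ∀ v, z v ∈ LinearMap.range (N ^ (q - d)) := by
    have h1 : z = -∑ Q ∈ Finset.univ.erase P, f Q := by
      rw [hδ0] at hδsplit
      exact eq_neg_of_add_eq_zero_left hδsplit.symm
    rw [h1]
    exact S.neg_mem hpart
  -- hence `N^e V = N^(e+1) V`
  have hstep : ∀ v, (N ^ e) v ∈ LinearMap.range (N ^ (e + 1)) := by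
    intro v
    have h1 : (e : F) • (N ^ e) v = z v - (N ^ (e + 1)) ((Polynomial.aeval A wp) v) := by
      rw [hzu, hbez, pow_succ]
      simp only [Module.End.mul_apply, LinearMap.add_apply, LinearMap.smul_apply, Module.End.one_apply, map_add,
        map_smul]
      abel
    have h2 : (N ^ e) v = (e : F)⁻¹ • ((e : F) • (N ^ e) v) := by
      rw [smul_smul, inv_mul_cancel₀ heF, one_smul]
    rw [h2, h1]
    refine Submodule.smul_mem _ _ (Submodule.sub_mem _ ?_ ⟨_, rfl⟩)
    exact Cfsg.Agent.Lib.FF.range_pow_le (N := N) (a := e + 1) (b := q - d) (by omega) (hzS v)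
  have hiter : ∀ (j : ℕ) (v : V), (N ^ e) v ∈ LinearMap.range (N ^ (e + j)) := by
    intro j
    induction j with
    | zero => intro v; exact ⟨v, rfl⟩
    | succ j ih =>
      intro v
      obtain ⟨w, hw⟩ := ih v
      have h1 : (N ^ (e + j)) w = (N ^ j) ((N ^ e) w) := by
        rw [← Module.End.mul_apply, ← pow_add, add_comm]
      obtain ⟨w', hw'⟩ := hstep w
      refine ⟨w', ?_⟩
      rw [← hw, h1, ← hw', ← Module.End.mul_apply, ← pow_add]
      congr 2
      omega
  have hNe : N ^ e = 0 := by
    ext v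
    obtain ⟨w, hw⟩ := hiter q v
    rw [← hw, pow_add, hNq]
    simp
  have hlast : N ^ (p ^ (n - 1)) = 0 := by
    apply pow_eq_zero_of_le _ hNe
    have h1 : p ^ 1 ≤ p ^ (n - 1) := Nat.pow_le_pow_right hp.pos (by omega)
    rw [pow_one] at h1
    omega
  rw [hpowN] at hlast
  have h1 : ρ (x ^ (p ^ (n - 1))) = ρ 1 := by
    rw [map_one]
    exact sub_eq_zero.1 hlast
  have h2 := hfaith h1
  have h3 := orderOf_dvd_of_pow_eq_one h2
  rw [hox, hq] at h3
  have h4 := (Nat.pow_dvd_pow_iff_le_right hp.one_lt).1 h3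
  omega

end Cfsg.Agent.S4699
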