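import Cfsg.Statements.S4702
import Cfsg.Agent.S0727
import Cfsg.Agent.Lib.InvCent.SL2
import Cfsg.Agent.Lib.Perm.SharpThree

set_option autoImplicit false
open Cfsg

namespace Cfsg.Agent.S4702

/-- Let G be a triply transitive permutation group on a finite set of odd size m ≥ 3 in which only the identity fixes three or more points. Then m = 2^a + 1 for some a ≥ 1 and G is isomorphic to SL(2, 2^a). -/
theorem result {α : Type*} [Fintype α] [DecidableEq α] (hm : 3 ≤ Fintype.card α) (hodd : Odd (Fintype.card α)) (G : Subgroup (Equiv.Perm α)) (h3 : MulAction.IsMultiplyPretransitive G α 3) (hfix : ∀ g : G, 3 ≤ Nat.card (MulAction.fixedBy α g) → g = 1) : ∃ a : ℕ, 1 ≤ a ∧ Fintype.card α = 2 ^ a + 1 ∧ ∃ (F : Type) (_ : Field F) (_ : Fintype F), Fintype.card F = 2 ^ a ∧ Nonempty (G ≃* Matrix.SpecialLinearGroup (Fin 2) F) := by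
  classical
  have htri : ∀ (a b c : α), a ≠ b → a ≠ c → b ≠ c → ∃ x : Fin 3 ↪ α, x 0 = a ∧ x 1 = b ∧ x 2 = c := by
    intro a b c hab hac hbc
    refine ⟨⟨![a, b, c], ?_⟩, rfl, rfl, rfl⟩
    intro i j h
    fin_cases i <;> fin_cases j <;> simp_all
  have hT : ∀ a b c a' b' c' : α, a ≠ b → a ≠ c → b ≠ c → a' ≠ b' → a' ≠ c' → b' ≠ c' →
      ∃ g ∈ G, g a = a' ∧ g b = b' ∧ g c = c' := by
    intro a b c a' b' c' h1 h2 h3' h4 h5 h6
    obtain ⟨x, hx0, hx1, hx2⟩ := htri a b c h1 h2 h3'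
    obtain ⟨y, hy0, hy1, hy2⟩ := htri a' b' c' h4 h5 h6
    obtain ⟨g, hg⟩ := MulAction.IsPretransitive.exists_smul_eq (M := G) x y
    refine ⟨g, g.2, ?_, ?_, ?_⟩
    · rw [← hx0, ← hy0, ← hg]; rfl
    · rw [← hx1, ← hy1, ← hg]; rfl
    · rw [← hx2, ← hy2, ← hg]; rfl
  have hS : ∀ g ∈ G, ∀ a b c : α, a ≠ b → a ≠ c → b ≠ c → g a = a → g b = b → g c = c → g = 1 := by
    intro g hg a b c h1 h2 h3' h4 h5 h6
    have hf : 3 ≤ Nat.card (MulAction.fixedBy α (⟨g, hg⟩ : G)) := by
      have hsub : ({a, b, c} : Finset α) ⊆ Finset.univ.filter (fun z => g z = z) := by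
        intro z hz
        simp only [Finset.mem_insert, Finset.mem_singleton] at hz
        rcases hz with rfl | rfl | rfl <;> simp [*]
      have hcard : ({a, b, c} : Finset α).card = 3 := by
        rw [Finset.card_insert_of_notMem (by simp [h1, h2]), Finset.card_insert_of_notMem (by simp [h3']), Finset.card_singleton]
      have h7 : (Finset.univ.filter (fun z => g z = z)).card = Nat.card (MulAction.fixedBy α (⟨g, hg⟩ : G)) := by
        rw [Nat.card_eq_fintype_card, ← Set.toFinset_card]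
        congr 1
        ext z
        simp only [Finset.mem_filter, Finset.mem_univ, true_and, Set.mem_toFinset]
        exact Iff.rfl
      rw [← h7, ← hcard]
      exact Finset.card_le_card hsub
    have := hfix ⟨g, hg⟩ hf
    exact congrArg Subtype.val this
  have hsharp : ∀ x : Fin 3 ↪ α, MulAction.stabilizer G x = ⊥ := by
    intro x
    rw [eq_bot_iff]
    intro g hg
    rw [MulAction.mem_stabilizer_iff] at hg
    have hx : ∀ i, (g : Equiv.Perm α) (x i) = x i := fun i => congrArg (fun y : Fin 3 ↪ α => y i) hg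
    have h1 := hS g g.2 (x 0) (x 1) (x 2) (fun h => by simpa using x.injective h) (fun h => by simpa using x.injective h)
      (fun h => by simpa using x.injective h) (hx 0) (hx 1) (hx 2)
    rw [Subgroup.mem_bot]
    exact Subtype.ext h1
  have hne : Nonempty α := Fintype.card_pos_iff.mp (by omega)
  obtain ⟨inf⟩ := hne
  obtain ⟨fld, -, -, -⟩ := Cfsg.Agent.Lib.Perm.ST.exists_field (G := G) (inf := inf) hT hS hodd hm
  have hcardX : Fintype.card {x : α // x ≠ inf} + 1 = Fintype.card α := by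
    have := Fintype.card_congr (Equiv.optionSubtypeNe inf)
    rwa [Fintype.card_option] at this
  obtain ⟨p, hcp⟩ := CharP.exists {x : α // x ≠ inf}
  obtain ⟨n, hp, hn⟩ := FiniteField.card {x : α // x ≠ inf} p
  have heven : 2 ∣ Fintype.card {x : α // x ≠ inf} := by
    obtain ⟨k, hk⟩ := hodd
    exact ⟨k, by omega⟩
  have hp2 : p = 2 := by
    rw [hn] at heven
    have := (Nat.Prime.dvd_of_dvd_pow Nat.prime_two heven)
    exact ((Nat.prime_dvd_prime_iff_eq Nat.prime_two hp).1 this).symm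
  subst hp2
  have hn1 : 1 ≤ (n : ℕ) := n.pos
  have hα : Fintype.card α = 2 ^ (n : ℕ) + 1 := by omega
  obtain ⟨F, i1, i2, hF, ⟨φ⟩⟩ := Cfsg.Agent.S0727.result hn1 hα G h3 hsharp
  refine ⟨(n : ℕ), hn1, hα, F, i1, i2, hF, ?_⟩
  haveI : CharP F 2 := by
    obtain ⟨q, hq⟩ := CharP.exists F
    obtain ⟨m, hqp, hm'⟩ := FiniteField.card F q
    have h2 : q ∣ 2 ^ (n : ℕ) := by
      rw [← hF, hm']
      exact dvd_pow_self q m.pos.ne'
    have h3 : q = 2 := (Nat.prime_dvd_prime_iff_eq hqp Nat.prime_two).1 (hqp.dvd_of_dvd_pow h2)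
    subst h3
    exact hq
  obtain ⟨ψ⟩ := Cfsg.Agent.Lib.InvCent.nonempty_equivPGL (F := F)
  exact ⟨φ.trans ψ.symm⟩

end Cfsg.Agent.S4702
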