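import Cfsg.Statements.S4706
import Mathlib
import Cfsg.Agent.Lib.BR.TwoPerm
import Cfsg.Agent.Lib.Perm.PrimeDegree
import Cfsg.Agent.S0675
import Cfsg.Agent.S4701

set_option autoImplicit false
open Cfsg

namespace Cfsg.Agent.S4706

open Subgroup
open scoped commutatorElement

/-- The group is perfect: otherwise the transfer produces a normal complement in the commutator subgroup. -/
theorem perfect_of_two {Γ : Type*} [Group Γ] [Finite Γ] {p : ℕ} [hfp : Fact p.Prime] (P : Sylow p Γ)
    (hP : Nat.card (P : Subgroup Γ) = p) (hsq : ¬ p ^ 2 ∣ Nat.card Γ)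
    (hPC : ∀ a ∈ (P : Subgroup Γ), ∀ b ∈ (P : Subgroup Γ), a * b = b * a)
    (hN : Nat.card (normalizer ((P : Subgroup Γ) : Set Γ)) = 2 * p)
    (hnn : ¬ (P : Subgroup Γ).Normal)
    (hnp : ∀ K : Subgroup Γ, K.Normal → K ≠ ⊥ → p ∣ Nat.card K) : commutator Γ = ⊤ := by
  classical
  have hpr := hfp.out
  by_contra hK
  obtain ⟨K, hKdef⟩ : ∃ K, K = commutator Γ := ⟨_, rfl⟩
  rw [← hKdef] at hK
  haveI hKn : K.Normal := by
    rw [hKdef]
    infer_instance
  have hK0 : K ≠ ⊥ := by
    intro h
    apply hnn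
    refine ⟨fun n hn g => ?_⟩
    have h1 : ⁅g, n⁆ ∈ K := by
      rw [hKdef, _root_.commutator_def]
      exact Subgroup.commutator_mem_commutator (mem_top _) (mem_top _)
    rw [h, Subgroup.mem_bot, commutatorElement_def, mul_inv_eq_one, mul_inv_eq_iff_eq_mul] at h1
    rw [h1]
    simpa using hn
  have hpK := hnp K hKn hK0
  have hPK : (P : Subgroup Γ) ≤ K := Lib.Perm.sylow_le_normal_of_dvd P hP K hpK
  obtain ⟨N, hNdef⟩ : ∃ N, N = normalizer ((P : Subgroup Γ) : Set Γ) := ⟨_, rfl⟩
  rw [← hNdef] at hN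
  have hFr : N ⊔ K = ⊤ := by
    rw [hNdef]
    exact Sylow.normalizer_sup_eq_top' P hPK
  have hNK : ¬ N ≤ K := by
    intro h
    rw [sup_eq_right.mpr h] at hFr
    exact hK hFr
  have hPN : (P : Subgroup Γ) ≤ N := by
    rw [hNdef]
    exact le_normalizer
  have hNKeq : ∀ l ∈ K, l ∈ N → l ∈ (P : Subgroup Γ) := by
    intro l hlK hlN
    have hle1 : (P : Subgroup Γ) ≤ N ⊓ K := le_inf hPN hPK
    have hdv1 : p ∣ Nat.card (N ⊓ K : Subgroup Γ) := by
      rw [← hP]
      exact card_dvd_of_le hle1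
    have hdv2 : Nat.card (N ⊓ K : Subgroup Γ) ∣ 2 * p := by
      rw [← hN]
      exact card_dvd_of_le inf_le_left
    obtain ⟨c, hc⟩ := hdv1
    have hc2 : c ∣ 2 := by
      rw [hc, mul_comm 2 p] at hdv2
      exact Nat.dvd_of_mul_dvd_mul_left hpr.pos hdv2
    rcases (Nat.dvd_prime Nat.prime_two).1 hc2 with h | h
    · have h3 : (P : Subgroup Γ) = N ⊓ K := Subgroup.eq_of_le_of_card_ge hle1 (by rw [hP, hc, h, mul_one])
      rw [h3]
      exact ⟨hlN, hlK⟩
    · exfalso
      apply hNK
      have h3 : N ⊓ K = N := Subgroup.eq_of_le_of_card_ge inf_le_left (by rw [hN, hc, h, mul_comm])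
      exact inf_eq_left.mp h3
  -- the transfer in the commutator subgroup
  let Q : Sylow p K := P.subtype hPK
  have hQmem : ∀ h : K, h ∈ (Q : Subgroup K) ↔ (h : Γ) ∈ (P : Subgroup Γ) := fun h => by
    rw [Sylow.coe_subtype, Subgroup.mem_subgroupOf]
  have hNC : normalizer ((Q : Subgroup K) : Set K) ≤ centralizer ((Q : Subgroup K) : Set K) := by
    intro y hy
    rw [Subgroup.mem_centralizer_iff]
    intro q hq
    have hyN : (y : Γ) ∈ N := by
      rw [hNdef, mem_normalizer_iff]
      intro g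
      rw [mem_normalizer_iff] at hy
      constructor
      · intro hg
        have h1 := (hy ⟨g, hPK hg⟩).1 ((hQmem _).2 hg)
        rw [hQmem] at h1
        simpa using h1
      · intro hg
        have h2 : g ∈ K := by
          have h3 := hPK hg
          have h4 : g = (y : Γ)⁻¹ * ((y : Γ) * g * (y : Γ)⁻¹) * (y : Γ) := by group
          rw [h4]
          exact K.mul_mem (K.mul_mem (K.inv_mem y.2) h3) y.2
        have h1 := (hy ⟨g, h2⟩).2 (by
          rw [hQmem]
          simpa using hg)
        rw [hQmem] at h1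
        exact h1
    have hyP := hNKeq _ y.2 hyN
    have hqP := (hQmem q).1 hq
    apply Subtype.ext
    exact hPC _ hqP _ hyP
  have hcomp := MonoidHom.ker_transferSylow_isComplement' Q hNC
  obtain ⟨τ, hτ⟩ : ∃ τ, τ = MonoidHom.transferSylow Q hNC := ⟨_, rfl⟩
  rw [← hτ] at hcomp
  have hQc : Nat.card (Q : Subgroup K) = p := by
    rw [Sylow.coe_subtype]
    exact (Nat.card_congr (Subgroup.subgroupOfEquivOfLe hPK).toEquiv).trans hP
  have hc1 := hcomp.card_mul_card
  rw [hQc] at hc1
  have hkerp : ¬ p ∣ Nat.card τ.ker := by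
    rintro ⟨c, hc⟩
    apply hsq
    have h1 : Nat.card K ∣ Nat.card Γ := Subgroup.card_subgroup_dvd_card K
    refine dvd_trans ?_ h1
    rw [← hc1, hc, pow_two]
    exact ⟨c, by ring⟩
  obtain ⟨M, hMdef⟩ : ∃ M, M = τ.ker.map K.subtype := ⟨_, rfl⟩
  have hMc : Nat.card M = Nat.card τ.ker := by
    rw [hMdef]
    exact Nat.card_congr (τ.ker.equivMapOfInjective K.subtype K.subtype_injective).toEquiv.symm
  have hMmem : ∀ x : Γ, x ∈ M ↔ x ∈ K ∧ ¬ p ∣ orderOf x := by
    intro x
    rw [hMdef, Subgroup.mem_map]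
    constructor
    · rintro ⟨m, hm, rfl⟩
      refine ⟨m.2, fun h => hkerp ?_⟩
      have h1 : orderOf ((K.subtype) m) = orderOf (⟨m, hm⟩ : τ.ker) := by
        rw [Subgroup.orderOf_mk]
        exact Subgroup.orderOf_coe m
      rw [h1] at h
      exact dvd_trans h (orderOf_dvd_natCard _)
    · rintro ⟨hxK, hx⟩
      refine ⟨⟨x, hxK⟩, ?_, rfl⟩
      rw [MonoidHom.mem_ker]
      have h1 : orderOf (τ ⟨x, hxK⟩) ∣ orderOf (⟨x, hxK⟩ : K) := orderOf_map_dvd _ _
      have h2 : orderOf (τ ⟨x, hxK⟩) ∣ p := by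
        have h4 := orderOf_dvd_natCard (τ ⟨x, hxK⟩)
        rwa [hQc] at h4
      rcases (Nat.dvd_prime hpr).1 h2 with h3 | h3
      · exact orderOf_eq_one_iff.mp h3
      · exfalso
        rw [h3, Subgroup.orderOf_mk] at h1
        exact hx h1
  have hMn : M.Normal := by
    refine ⟨fun x hx g => ?_⟩
    rw [hMmem] at hx ⊢
    refine ⟨hKn.conj_mem x hx.1 g, ?_⟩
    have h1 : orderOf (g * x * g⁻¹) = orderOf x := by
      have h3 := orderOf_injective (MulAut.conj g).toMonoidHom (MulAut.conj g).injective x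
      simpa using h3
    rw [h1]
    exact hx.2
  have hM0 : M = ⊥ := by
    by_contra h
    have := hnp M hMn h
    rw [hMc] at this
    exact hkerp this
  have hker1 : Nat.card τ.ker = 1 := by
    rw [← hMc, hM0]
    exact Subgroup.card_bot
  rw [hker1, one_mul] at hc1
  apply hnn
  have hPK' : (P : Subgroup Γ) = K := Subgroup.eq_of_le_of_card_ge hPK (by rw [hP, hc1])
  rw [hPK']
  exact hKn

/-- Let p > 2 be a prime and G a permutation group on p letters whose Sylow p-subgroup P has normalizer of order 2p. Then either P is normal in G, or p − 1 = 2^a for some a and G is isomorphic to SL(2, 2^a). -/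
theorem result {α : Type*} [Fintype α] [DecidableEq α] {p : ℕ} [Fact p.Prime] (hp : 2 < p) (hα : Fintype.card α = p) (G : Subgroup (Equiv.Perm α)) (P : Sylow p G) (hN : Nat.card (Subgroup.normalizer ((P : Subgroup G) : Set G)) = 2 * p) : (P : Subgroup G).Normal ∨ ∃ (a : ℕ) (F : Type) (_ : Field F) (_ : Fintype F), p = 2 ^ a + 1 ∧ Fintype.card F = 2 ^ a ∧ Nonempty (G ≃* Matrix.SpecialLinearGroup (Fin 2) F) := by
  classical
  by_cases hnn : (P : Subgroup G).Normal
  · exact Or.inl hnn
  right
  have hpr := Fact.out (p := p.Prime)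
  have hsq := Lib.Perm.not_sq_dvd_card hα G
  -- the order of the Sylow subgroup
  have hdG : p ∣ Nat.card G := by
    have h1 : Nat.card (Subgroup.normalizer ((P : Subgroup G) : Set G)) ∣ Nat.card G := Subgroup.card_subgroup_dvd_card _
    rw [hN] at h1
    exact dvd_trans (Dvd.intro_left _ rfl) h1
  have hPc : Nat.card (P : Subgroup G) = p := Lib.Perm.card_sylow_eq_of_not_sq_dvd hdG hsq P
  obtain ⟨z, hz, hzP⟩ := Lib.SmallSimple.BA.exists_gen P hPc
  -- no fixed points
  have hcyc : ∀ u ∈ zpowers z, u ≠ 1 → (u : Equiv.Perm α).IsCycle ∧ (u : Equiv.Perm α).support = Finset.univ := by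
    intro u hu hu1
    have hou : orderOf u = p := by
      have h7 : orderOf u ∣ p := by
        rw [← hz]
        exact orderOf_dvd_of_mem_zpowers hu
      rcases (Nat.dvd_prime hpr).1 h7 with h8 | h8
      · exact absurd (orderOf_eq_one_iff.mp h8) hu1
      · exact h8
    have hou' : orderOf (u : Equiv.Perm α) = p := by rw [Subgroup.orderOf_coe, hou]
    have hc := Equiv.Perm.isCycle_of_prime_order (σ := (u : Equiv.Perm α)) (by rw [hou']; exact hpr) (by
      rw [hou']
      have := Finset.card_le_univ (u : Equiv.Perm α).support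
      omega)
    refine ⟨hc, Finset.eq_univ_of_card _ ?_⟩
    rw [← hc.orderOf, hou', hα]
  have hz1 : z ≠ 1 := by
    intro h
    rw [h, orderOf_one] at hz
    exact hpr.one_lt.ne hz
  have hfree : ∀ u ∈ zpowers z, u ≠ 1 → ∀ a : α, u • a ≠ a := by
    intro u hu hu1 a
    have ha := Finset.mem_univ a
    rw [← (hcyc u hu hu1).2, Equiv.Perm.mem_support] at ha
    exact ha
  have htr : ∀ a b : α, ∃ i : ℤ, (z ^ i) • a = b := by
    intro a b
    obtain ⟨i, hi⟩ := (hcyc z (mem_zpowers z) hz1).1.exists_zpow_eq (hfree z (mem_zpowers z) hz1 a)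
      (hfree z (mem_zpowers z) hz1 b)
    refine ⟨i, ?_⟩
    rw [← hi]
    rfl
  haveI htrans : MulAction.IsPretransitive G α := ⟨fun a b => by
    obtain ⟨i, hi⟩ := htr a b
    exact ⟨z ^ i, hi⟩⟩
  have hne : Nonempty α := by
    rw [← Fintype.card_pos_iff, hα]
    exact hpr.pos
  obtain ⟨a₀⟩ := hne
  have hC : centralizer ({z} : Set G) = zpowers z := by
    apply le_antisymm
    · intro u hu
      rw [Subgroup.mem_centralizer_singleton_iff] at hu
      have hcu : Commute u z := hu
      obtain ⟨i, hi⟩ := htr a₀ (u • a₀)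
      have h1 : (z ^ i)⁻¹ * u = 1 := by
        apply FaithfulSMul.eq_of_smul_eq_smul (α := α)
        intro b
        obtain ⟨j, rfl⟩ := htr a₀ b
        have hcw : Commute ((z ^ i)⁻¹ * u) (z ^ j) :=
          Commute.mul_left (((Commute.refl z).zpow_zpow i j).inv_left) (hcu.zpow_right j)
        rw [one_smul, ← mul_smul, hcw.eq, mul_smul, mul_smul, ← hi, inv_smul_smul]
      have h2 : u = z ^ i := by
        rw [inv_mul_eq_one] at h1
        exact h1.symm
      rw [h2]
      exact zpow_mem (mem_zpowers z) i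
    · rw [zpowers_le, Subgroup.mem_centralizer_singleton_iff]
  have hp5 : 5 ≤ p := by
    by_contra h
    have hp3 : p = 3 ∨ p = 4 := by omega
    rcases hp3 with h3 | h3
    · apply hnn
      have h4 : Nat.card G ∣ 6 := by
        have h1 : Nat.card G ∣ Nat.card (Equiv.Perm α) := Subgroup.card_subgroup_dvd_card G
        rw [Nat.card_perm, Nat.card_eq_fintype_card (α := α), hα, h3] at h1
        exact h1
      have h5 : Nat.card (Subgroup.normalizer ((P : Subgroup G) : Set G)) ∣ Nat.card G := Subgroup.card_subgroup_dvd_card _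
      rw [hN, h3] at h5
      have h6 : normalizer ((P : Subgroup G) : Set G) = ⊤ := by
        apply Subgroup.eq_top_of_card_eq
        rw [hN, h3]
        exact Nat.dvd_antisymm h5 h4
      exact normalizer_eq_top_iff.mp h6
    · subst h3
      exact absurd hpr (by norm_num)
  have hnp : ∀ K : Subgroup G, K.Normal → K ≠ ⊥ → p ∣ Nat.card K := by
    intro K hKn hK0
    haveI := Lib.Perm.normal_transitive_of_prime_degree hα G K hK0
    exact Lib.Perm.prime_dvd_card_of_transitive (Γ := K) hα
  have hPC : ∀ a ∈ (P : Subgroup G), ∀ b ∈ (P : Subgroup G), a * b = b * a := by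
    rw [← hzP]
    intro a ha b hb
    obtain ⟨i, rfl⟩ := mem_zpowers_iff.mp ha
    obtain ⟨j, rfl⟩ := mem_zpowers_iff.mp hb
    exact (Commute.refl z).zpow_zpow i j
  have hperf : commutator G = ⊤ := perfect_of_two P hPc hsq hPC hN hnn hnp
  have h2 : ∀ a b c d : α, a ≠ b → c ≠ d → ∃ g : G, g • a = c ∧ g • b = d := by
    rcases Cfsg.Agent.S0675.result (by rw [hα]; exact hpr) G with hsol | h2
    · exfalso
      have hds : ∀ n, derivedSeries G n = ⊤ := by
        intro n
        induction n with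
        | zero => rfl
        | succ n ih =>
          rw [derivedSeries_succ, ih]
          exact hperf
      obtain ⟨n, hn⟩ := hsol.solvable
      rw [hds n] at hn
      have h3 : Nat.card (⊤ : Subgroup G) = Nat.card (⊥ : Subgroup G) := by rw [hn]
      rw [Subgroup.card_top, Subgroup.card_bot] at h3
      rw [h3] at hdG
      exact hpr.one_lt.ne' (Nat.dvd_one.mp hdG)
    · intro a b c d hab hcd
      exact MulAction.is_two_pretransitive_iff.mp h2 hab hcd
  letI : Fintype G := Fintype.ofFinite G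
  have hN' : Nat.card (normalizer ((zpowers z : Subgroup G) : Set G)) = 2 * p := by
    rw [hzP]
    exact hN
  obtain ⟨e, he, hF⟩ := Lib.BR.two_core (α := α) hp5 hα hperf h2 hz hC hN' hsq hfree
  have he0 : e ≠ 0 := by
    rintro rfl
    simp at he
    omega
  letI : Fintype (GaloisField 2 e) := Fintype.ofFinite _
  have hc : Fintype.card (GaloisField 2 e) = 2 ^ e := by
    rw [← Nat.card_eq_fintype_card, GaloisField.card 2 e he0]
  obtain ⟨φ⟩ := hF _ hc
  obtain ⟨ρ⟩ := Cfsg.Agent.S4701.psl_equiv_sl hc he0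
  exact ⟨e, GaloisField 2 e, inferInstance, inferInstance, he, hc, ⟨φ.trans ρ⟩⟩

end Cfsg.Agent.S4706
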