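import Cfsg.Statements.S4707
import Mathlib
import Cfsg.Agent.Lib.BR.TwoDeg
import Cfsg.Agent.S4706
import Cfsg.Agent.S0493
import Cfsg.Agent.S0494

set_option autoImplicit false
open Cfsg

namespace Cfsg.Agent.S4707

open Subgroup
open scoped commutatorElement

/-- A normal subgroup not fixing every point is transitive, so its order is a multiple of the degree. -/
theorem dvd_card_of_normal {α : Type*} [Fintype α] [DecidableEq α] {n : ℕ} (hα : Fintype.card α = n)
    (G : Subgroup (Equiv.Perm α)) (hprim : MulAction.IsPreprimitive G α) (K : Subgroup G) [hKn : K.Normal]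
    (hK : K ≠ ⊥) : n ∣ Nat.card K := by
  have htr : MulAction.IsPretransitive K α := by
    apply MulAction.IsQuasiPreprimitive.isPretransitive_of_normal (G := G)
    intro h
    apply hK
    rw [eq_bot_iff]
    intro g hg
    rw [Subgroup.mem_bot]
    apply Subtype.ext
    ext x
    have hx : x ∈ MulAction.fixedPoints K α := by
      rw [h]
      trivial
    have := hx ⟨g, hg⟩
    exact this
  obtain ⟨a⟩ : Nonempty α := by
    by_contra hne
    rw [not_nonempty_iff] at hne
    apply hK
    rw [eq_bot_iff]
    intro g _
    rw [Subgroup.mem_bot]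
    apply Subtype.ext
    ext x
    exact hne.elim x
  have h1 := (MulAction.stabilizer K a).card_mul_index
  rw [MulAction.index_stabilizer] at h1
  have h3 : MulAction.orbit K a = Set.univ := by
    ext y
    simp only [Set.mem_univ, iff_true]
    exact MulAction.exists_smul_eq K a y
  rw [h3, Set.ncard_univ, Nat.card_eq_fintype_card (α := α), hα] at h1
  exact ⟨_, by rw [← h1, mul_comm]⟩

/-- Let p > 3 be a prime and G a primitive permutation group of degree 2p that is not doubly transitive. If a Sylow p-subgroup of G has normalizer of order 2p, then p = 5 and G is isomorphic to the alternating group of degree 5. -/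
theorem result {α : Type*} [Fintype α] [DecidableEq α] {p : ℕ} [Fact p.Prime] (hp : 3 < p) (hα : Fintype.card α = 2 * p) (G : Subgroup (Equiv.Perm α)) (hprim : MulAction.IsPreprimitive G α) (hnot2 : ¬ MulAction.IsMultiplyPretransitive G α 2) (P : Sylow p G) (hN : Nat.card (Subgroup.normalizer ((P : Subgroup G) : Set G)) = 2 * p) : p = 5 ∧ Nonempty (G ≃* alternatingGroup (Fin 5)) := by
  classical
  have hpr := Fact.out (p := p.Prime)
  have hp5 : 5 ≤ p := by
    by_contra h
    have h4 : p = 4 := by omega
    subst h4
    exact absurd hpr (by norm_num)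
  letI : Fintype G := Fintype.ofFinite G
  -- the order of the Sylow subgroup
  have hdG : p ∣ Nat.card G := by
    have h1 : Nat.card (Subgroup.normalizer ((P : Subgroup G) : Set G)) ∣ Nat.card G := Subgroup.card_subgroup_dvd_card _
    rw [hN] at h1
    exact dvd_trans (Dvd.intro_left _ rfl) h1
  have hPle : Nat.card (P : Subgroup G) ∣ 2 * p := by
    rw [← hN]
    exact Subgroup.card_dvd_of_le le_normalizer
  have hPc : Nat.card (P : Subgroup G) = p := by
    obtain ⟨k, hk⟩ := IsPGroup.iff_card.mp P.isPGroup'
    have hk0 : k ≠ 0 := by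
      rintro rfl
      rw [pow_zero] at hk
      exact P.ne_bot_of_dvd_card hdG ((Subgroup.card_eq_one).mp hk)
    rcases Nat.lt_or_ge k 2 with h | h
    · have : k = 1 := by omega
      rw [hk, this, pow_one]
    · exfalso
      have h1 : p ^ 2 ∣ 2 * p := dvd_trans (pow_dvd_pow p h) (by rw [← hk]; exact hPle)
      rw [pow_two, mul_comm 2 p] at h1
      have h2 : p ∣ 2 := Nat.dvd_of_mul_dvd_mul_left hpr.pos h1
      have := Nat.le_of_dvd (by norm_num) h2
      omega
  have hsq : ¬ p ^ 2 ∣ Nat.card G := by
    intro h
    have h1 := P.pow_dvd_card_of_pow_dvd_card h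
    rw [hPc, pow_two] at h1
    have h2 : p * p ≤ p := Nat.le_of_dvd hpr.pos h1
    nlinarith
  obtain ⟨z, hz, hzP⟩ := Lib.SmallSimple.BA.exists_gen P hPc
  have htrans : MulAction.IsPretransitive G α := hprim.toIsPretransitive
  have htr : ∀ a b : α, ∃ g : G, g • a = b := fun a b => MulAction.exists_smul_eq G a b
  have hnp : ∀ K : Subgroup G, K.Normal → K ≠ ⊥ → p ∣ Nat.card K := by
    intro K hKn hK0
    exact dvd_trans (Dvd.intro_left _ rfl) (dvd_card_of_normal hα G hprim K hK0)
  have hnn : ¬ (P : Subgroup G).Normal := by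
    intro hn
    have h1 := dvd_card_of_normal hα G hprim (P : Subgroup G) (P.ne_bot_of_dvd_card hdG)
    rw [hPc, mul_comm] at h1
    have h2 : 2 ∣ 1 := by
      have h3 : p * 2 ∣ p * 1 := by simpa using h1
      exact Nat.dvd_of_mul_dvd_mul_left hpr.pos h3
    omega
  have hPC : ∀ a ∈ (P : Subgroup G), ∀ b ∈ (P : Subgroup G), a * b = b * a := by
    rw [← hzP]
    intro a ha b hb
    obtain ⟨i, rfl⟩ := mem_zpowers_iff.mp ha
    obtain ⟨j, rfl⟩ := mem_zpowers_iff.mp hb
    exact (Commute.refl z).zpow_zpow i j
  have hperf : commutator G = ⊤ := Cfsg.Agent.S4706.perfect_of_two P hPc hsq hPC hN hnn hnp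
  have hN' : Nat.card (normalizer ((zpowers z : Subgroup G) : Set G)) = 2 * p := by
    rw [hzP]
    exact hN
  have hC : centralizer ({z} : Set G) = zpowers z := by
    have hle : zpowers z ≤ centralizer ({z} : Set G) := by
      rw [zpowers_le, Subgroup.mem_centralizer_singleton_iff]
    have hCN : centralizer ({z} : Set G) ≤ normalizer ((zpowers z : Subgroup G) : Set G) := by
      intro y hy
      rw [Subgroup.mem_centralizer_singleton_iff] at hy
      have hcy : Commute y z := hy
      rw [mem_normalizer_iff]
      intro w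
      have key : ∀ i : ℤ, y * z ^ i * y⁻¹ = z ^ i := by
        intro i
        rw [(hcy.zpow_right i).eq]
        group
      constructor
      · intro hw
        obtain ⟨i, rfl⟩ := mem_zpowers_iff.mp hw
        rw [key]
        exact zpow_mem (mem_zpowers z) i
      · intro hw
        obtain ⟨i, hi⟩ := mem_zpowers_iff.mp hw
        have h1 : w = z ^ i := by
          have h2 : w = y⁻¹ * (y * w * y⁻¹) * y := by group
          rw [h2, ← hi]
          have h3 := key i
          calc y⁻¹ * z ^ i * y = y⁻¹ * (y * z ^ i * y⁻¹) * y := by rw [h3]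
            _ = z ^ i := by group
        rw [h1]
        exact zpow_mem (mem_zpowers z) i
    have hd1 : p ∣ Nat.card (centralizer ({z} : Set G)) := by
      have h1 := Subgroup.card_dvd_of_le hle
      rwa [Nat.card_zpowers, hz] at h1
    have hd2 : Nat.card (centralizer ({z} : Set G)) ∣ 2 * p := by
      rw [← hN']
      exact Subgroup.card_dvd_of_le hCN
    obtain ⟨c, hc⟩ := hd1
    have hc2 : c ∣ 2 := by
      rw [hc, mul_comm 2 p] at hd2
      exact Nat.dvd_of_mul_dvd_mul_left hpr.pos hd2
    rcases (Nat.dvd_prime Nat.prime_two).1 hc2 with h | h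
    · apply le_antisymm _ hle
      refine (Subgroup.eq_of_le_of_card_ge hle ?_).ge
      rw [Nat.card_zpowers, hz, hc, h, mul_one]
    · exfalso
      have hNC0 : normalizer ((zpowers z : Subgroup G) : Set G) = centralizer ({z} : Set G) := by
        refine (Subgroup.eq_of_le_of_card_ge hCN ?_).symm
        rw [hN', hc, h, mul_comm]
      have hNC : normalizer ((P : Subgroup G) : Set G) ≤ centralizer ((P : Subgroup G) : Set G) := by
        rw [← hzP, hNC0]
        intro y hy
        rw [Subgroup.mem_centralizer_singleton_iff] at hy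
        rw [Subgroup.mem_centralizer_iff]
        intro q hq
        obtain ⟨i, rfl⟩ := mem_zpowers_iff.mp hq
        have hcy : Commute y z := hy
        exact (hcy.zpow_right i).eq.symm
      have hcomp := MonoidHom.ker_transferSylow_isComplement' P hNC
      have hcommQ : ∀ a b : (P : Subgroup G), a * b = b * a := by
        intro a b
        apply Subtype.ext
        exact hPC _ a.2 _ b.2
      have hk : commutator G ≤ (MonoidHom.transferSylow P hNC).ker := by
        rw [_root_.commutator_def, Subgroup.commutator_le]
        intro a _ b _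
        rw [MonoidHom.mem_ker, map_commutatorElement, commutatorElement_eq_one_iff_commute]
        exact hcommQ _ _
      rw [hperf, top_le_iff] at hk
      have h5 := hcomp.card_mul_card
      rw [hk, Subgroup.card_top, hPc] at h5
      have hpos : 0 < Nat.card G := Nat.card_pos
      have h6 := hpr.two_le
      have h7 : Nat.card G * 1 < Nat.card G * p := Nat.mul_lt_mul_of_pos_left (by omega) hpos
      omega
  have hnot2' : ¬ ∀ a b c d : α, a ≠ b → c ≠ d → ∃ g : G, g • a = c ∧ g • b = d := fun h =>
    hnot2 (MulAction.is_two_pretransitive_iff.mpr fun {a b c d} hab hcd => h a b c d hab hcd)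
  obtain ⟨h5, hcard⟩ := Lib.BR.two_rank_core (α := α) hp5 hα htr hnot2' hperf hz hC hN' hsq hnp
  refine ⟨h5, ?_⟩
  -- the group is simple
  haveI hnt : Nontrivial G := by
    rw [← Finite.one_lt_card_iff_nontrivial, hcard]
    norm_num
  obtain ⟨M, hMn, hMtop, hmax⟩ := Lib.BR.exists_simple_quot (X := G)
  haveI hs := Lib.BR.simple_quot hMtop hmax
  have hperfq := Lib.BR.perfect_quot hperf M
  have hnc := Lib.BR.not_cyclic_of_perfect hperfq
  have hc1 : Nat.card (G ⧸ M) * Nat.card M = 60 := by
    rw [← hcard]
    exact (Subgroup.card_eq_card_quotient_mul_card_subgroup M).symm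
  have hle : Nat.card (G ⧸ M) ≤ 60 := by
    have hM0 : 0 < Nat.card M := Nat.card_pos
    nlinarith
  have hq := Cfsg.Agent.S0493.result hnc (by omega)
  rw [hq] at hc1
  have hM1 : Nat.card M = 1 := by omega
  have hMbot : M = ⊥ := (Subgroup.card_eq_one).mp hM1
  subst hMbot
  haveI : IsSimpleGroup G := ⟨fun N hN => (hmax N hN bot_le)⟩
  exact Cfsg.Agent.S0494.result hcard

end Cfsg.Agent.S4707
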