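import Cfsg.Statements.S4708
import Cfsg.Agent.Lib.Block.Quick

set_option autoImplicit false
open Cfsg

namespace Cfsg.Agent.S4708

/-- Let p be a prime, M a maximal ideal of the algebraic integers containing p, G a finite group and H a normal subgroup. Write λ(X) for the sum of the squares of the degrees of the irreducible characters in the principal p-block of a group X. Then λ(H) ≤ λ(G) ≤ [G : H]·λ(H). -/
theorem result {G : Type*} [Group G] [Finite G] (p : ℕ) [Fact p.Prime] (M : Ideal Cfsg.AlgInt) (hM : Cfsg.IsPModular p M) (H : Subgroup G) [H.Normal] : (∑ᶠ θ ∈ Cfsg.principalBlock M H, Cfsg.charDegree (θ : H → ℂ) ^ 2) ≤ (∑ᶠ χ ∈ Cfsg.principalBlock M G, Cfsg.charDegree (χ : G → ℂ) ^ 2) ∧ (∑ᶠ χ ∈ Cfsg.principalBlock M G, Cfsg.charDegree (χ : G → ℂ) ^ 2) ≤ H.index * ∑ᶠ θ ∈ Cfsg.principalBlock M H, Cfsg.charDegree (θ : H → ℂ) ^ 2 := by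
  classical
  haveI := Fintype.ofFinite G
  haveI : Fintype H := Fintype.ofFinite _
  have := Cfsg.Agent.Lib.Block.isPModular_isPrime hM
  have e1 : (∑ᶠ θ ∈ Cfsg.principalBlock M H, Cfsg.charDegree (θ : H → ℂ) ^ 2) = Cfsg.Agent.Lib.Block.lamSum (Cfsg.principalBlock M H) := by
    rw [Cfsg.Agent.Lib.Block.finsum_mem_irr]
    rfl
  have e2 : (∑ᶠ χ ∈ Cfsg.principalBlock M G, Cfsg.charDegree (χ : G → ℂ) ^ 2) = Cfsg.Agent.Lib.Block.lamSum (Cfsg.principalBlock M G) := by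
    rw [Cfsg.Agent.Lib.Block.finsum_mem_irr]
    rfl
  rw [e1, e2]
  constructor
  · apply Cfsg.Agent.Lib.Block.lamSum_le_of_cover H
    intro θ hθ
    refine Cfsg.Agent.Lib.CharExtra.exists_over_of_cover (N := H) (M := M) (B := Cfsg.principalBlock M G) ⟨Cfsg.Agent.Lib.Block.oneIrr G, rfl⟩ (b := Cfsg.principalBlock M H) ⟨Cfsg.Agent.Lib.Block.oneIrr H, rfl⟩ ?_ hθ
    refine ⟨Cfsg.Agent.Lib.Block.oneIrr G, Cfsg.Agent.Lib.Block.sameBlock_refl _, Cfsg.Agent.Lib.Block.oneIrr H, Cfsg.Agent.Lib.Block.sameBlock_refl _, ?_⟩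
    exact (Cfsg.Agent.Lib.Block.classInner_one_iff H (Cfsg.Agent.Lib.Block.oneIrr G)).2 (fun _ _ => rfl)
  · rw [← Cfsg.Agent.Lib.Block.lamSum_over H (Cfsg.Agent.Lib.Block.isStable_principal H)]
    exact Cfsg.Agent.Lib.Block.lamSum_mono (Cfsg.Agent.Lib.Block.principal_subset_over H hM)

end Cfsg.Agent.S4708
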