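import Cfsg.Statements.S4712
import Mathlib
import Cfsg.Agent.Lib.Block.PRat

set_option autoImplicit false
open Cfsg

namespace Cfsg.Agent.S4712

/-- Let p be an odd prime, M a maximal ideal of the algebraic integers containing p, G a finite group of order n with p-part p^a, and B a p-block of G. Call an irreducible character χ p-rational when χ(g^k) = χ(g) for every g and every k coprime to n with k ≡ 1 modulo n/p^a (χ is fixed by the Galois automorphisms fixing the roots of unity of order prime to p). Then the number of p-rational irreducible characters in B is at least the p-regular rank of B (the number of irreducible Brauer characters in B). -/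
theorem result {G : Type*} [Group G] [Finite G] (p : ℕ) [Fact p.Prime] (hodd : p ≠ 2) (M : Ideal Cfsg.AlgInt) (hM : Cfsg.IsPModular p M) (B : Set (Cfsg.IrrCharacter G)) (hB : Cfsg.IsPBlock M B) : Cfsg.blockRank p B ≤ Nat.card {χ : Cfsg.IrrCharacter G // χ ∈ B ∧ ∀ k : ℕ, Nat.Coprime k (Nat.card G) → k ≡ 1 [MOD Nat.card G / p ^ (Nat.card G).factorization p] → ∀ g : G, (χ : G → ℂ) (g ^ k) = (χ : G → ℂ) g} := by
  classical
  haveI : Fintype G := Fintype.ofFinite _
  have hne : Nat.card G ≠ 0 := Nat.card_pos.ne'
  set a := (Nat.card G).factorization p with ha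
  set m := Nat.card G / p ^ a with hm
  have hn : p ^ a * m = Nat.card G := Nat.ordProj_mul_ordCompl_eq_self _ _
  have hcop : Nat.Coprime p m := by
    have h1 : ¬ p ∣ m := Nat.not_dvd_ordCompl (Fact.out : p.Prime) hne
    exact (Nat.Prime.coprime_iff_not_dvd Fact.out).2 h1
  obtain ⟨k₀, h1, h2, h3⟩ := Cfsg.Agent.Lib.Block.exists_gen_unit p a m hodd hcop
  rw [hn] at h1 h3
  have hmain := Cfsg.Agent.Lib.Block.blockRank_le_card_fixed hM hB h1 h2
  refine hmain.trans ?_
  refine Nat.card_le_card_of_injective (fun χ => ⟨χ.1.1, χ.1.2, ?_⟩) ?_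
  · intro k hk0 hk g
    obtain ⟨j, hj⟩ := h3 k hk0 hk
    have h4 : g ^ k = g ^ (k₀ ^ j) := by
      have h5 : k ≡ k₀ ^ j [MOD orderOf g] := hj.of_dvd (orderOf_dvd_natCard g)
      exact pow_eq_pow_iff_modEq.2 h5
    rw [h4]
    have h6 : ∀ (i : ℕ) (x : G), (χ.1.1 : G → ℂ) (x ^ (k₀ ^ i)) = (χ.1.1 : G → ℂ) x := by
      intro i
      induction i with
      | zero => simp
      | succ i ih =>
        intro x
        rw [pow_succ, pow_mul, χ.2, ih]
    exact h6 j g
  · intro χ χ' h
    have h7 : χ.1.1 = χ'.1.1 := by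
      simpa using h
    exact Subtype.ext (Subtype.ext h7)

end Cfsg.Agent.S4712
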