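import Cfsg.Statements.S4713
import Cfsg.Agent.Lib.CharExtra.Ito
import Mathlib

set_option autoImplicit false
open Cfsg

namespace Cfsg.Agent.S4713

/-- Let p be a prime and G a finite p-solvable group. Then G has a normal abelian Sylow p-subgroup if and only if the degree of every irreducible character of G is prime to p. -/
theorem result {G : Type*} [Group G] [Finite G] (p : ℕ) [Fact p.Prime] (hsolv : Cfsg.IsPSolvable p G) (P : Sylow p G) : ((P : Subgroup G).Normal ∧ IsMulCommutative P) ↔ ∀ χ : Cfsg.IrrCharacter G, ¬ p ∣ Cfsg.charDegree (χ : G → ℂ) := by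
  have hp : p.Prime := Fact.out
  constructor
  · rintro ⟨hn, hc⟩ χ
    haveI := hn
    refine Cfsg.Agent.Lib.CharExtra.degrees_of_normal_abelian_sylow (P : Subgroup G) P.2 ?_ ?_ χ
    · exact P.not_dvd_index
    · intro a ha b hb
      have := hc.is_comm.comm ⟨a, ha⟩ ⟨b, hb⟩
      exact congrArg Subtype.val this
  · intro hdeg
    have hstep := Cfsg.Agent.Lib.PSolv.pStep_of_isPSolvable hp hsolv
    have hn := Cfsg.Agent.Lib.CharExtra.sylow_normal_of_degrees _ G rfl hstep hdeg P
    haveI := hn
    refine ⟨hn, ⟨⟨?_⟩⟩⟩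
    exact Cfsg.Agent.Lib.CharExtra.sylow_comm_of_degrees (P : Subgroup G) P.2 hdeg

end Cfsg.Agent.S4713
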