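import Cfsg.Statements.S4714
import Cfsg.Agent.Lib.Block.Restrict

set_option autoImplicit false
open Cfsg

namespace Cfsg.Agent.S4714

/-- Let p be a prime, M a maximal ideal of the algebraic integers containing p, D a p-subgroup of the finite group G with G = D·C_G(D), and B a p-block with defect group D. Let χ be a member of B having D in its kernel (there is exactly one, the canonical character of B). Then the irreducible characters in B are exactly the functions θ on G for which there is an irreducible character ζ of D such that θ(yx) = ζ(y)χ(x) whenever y ∈ D, x has order prime to p and x commutes with y, and θ(z) = 0 whenever the p-part of z does not lie in D. -/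
theorem result {G : Type*} [Group G] [Finite G] (p : ℕ) [Fact p.Prime] (M : Ideal Cfsg.AlgInt) (hM : Cfsg.IsPModular p M) (D : Subgroup G) (hD : IsPGroup p D) (hG : D ⊔ Subgroup.centralizer (D : Set G) = ⊤) (B : Set (Cfsg.IrrCharacter G)) (hB : Cfsg.IsPBlock M B) (hBD : Cfsg.IsDefectGroup p M B D) (χ : Cfsg.IrrCharacter G) (hχ : χ ∈ B) (hχD : ∀ y ∈ D, (χ : G → ℂ) y = (χ : G → ℂ) 1) : (∀ θ : Cfsg.IrrCharacter G, θ ∈ B ↔ ∃ ζ : Cfsg.IrrCharacter D, (∀ (y : D) (x : G), ¬ p ∣ orderOf x → Commute (y : G) x → (θ : G → ℂ) ((y : G) * x) = (ζ : D → ℂ) y * (χ : G → ℂ) x) ∧ (∀ z : G, (∀ y : G, Cfsg.IsPPart p z y → y ∉ D) → (θ : G → ℂ) z = 0)) ∧ ∀ ζ : Cfsg.IrrCharacter D, ∃ θ ∈ B, (∀ (y : D) (x : G), ¬ p ∣ orderOf x → Commute (y : G) x → (θ : G → ℂ) ((y : G) * x) = (ζ : D → ℂ) y * (χ : G → ℂ) x) ∧ (∀ z : G, (∀ y : G, Cfsg.IsPPart p z y → y ∉ D) → (θ : G → ℂ) z = 0) := by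
  classical
  have := Cfsg.Agent.Lib.Block.isPModular_isPrime hM
  letI : Fintype G := Fintype.ofFinite G
  letI : Fintype D := Fintype.ofFinite _
  letI : Fintype (G ⧸ D) := Fintype.ofFinite _
  open Cfsg.Agent.Lib.Block Cfsg.Agent.Lib.Char in
  haveI hDn : D.Normal := normal_of_sup_centralizer hG
  open Cfsg.Agent.Lib.Block Cfsg.Agent.Lib.Char in
  obtain ⟨ψ, rfl⟩ := Cfsg.Agent.Lib.Degree.exists_inflate D hχD
  open Cfsg.Agent.Lib.Block Cfsg.Agent.Lib.Char in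
  obtain ⟨h1, h2⟩ := restrict_block hM hD hG hB hBD hχ
  open Cfsg.Agent.Lib.Block Cfsg.Agent.Lib.Char in
  have hc1 : (ψ : G ⧸ D → ℂ) 1 = (Cfsg.charDegree (ψ : G ⧸ D → ℂ) : ℂ) :=
    map_one_eq_charDegree (IsIrrCharacter.isCharacter ψ.2)
  open Cfsg.Agent.Lib.Block Cfsg.Agent.Lib.Char in
  have hc0 : (Cfsg.charDegree (ψ : G ⧸ D → ℂ) : ℂ) ≠ 0 := by
    rw [← hc1]; exact isIrr_one_ne_zero ψ.2
  -- the two properties for a member of the block with given restriction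
  open Cfsg.Agent.Lib.Block Cfsg.Agent.Lib.Char in
  have key : ∀ θ ∈ B, ∀ ζ : Cfsg.IrrCharacter D,
      (∀ x : D, (θ : G → ℂ) x = (Cfsg.charDegree (ψ : G ⧸ D → ℂ) : ℂ) * (ζ : D → ℂ) x) →
      (∀ (y : D) (x : G), ¬ p ∣ orderOf x → Commute (y : G) x →
        (θ : G → ℂ) ((y : G) * x) = (ζ : D → ℂ) y * ((Cfsg.Agent.Lib.Degree.inflate D ψ : Cfsg.IrrCharacter G) : G → ℂ) x) ∧
      (∀ z : G, (∀ y : G, Cfsg.IsPPart p z y → y ∉ D) → (θ : G → ℂ) z = 0) := by
    intro θ hθ ζ hr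
    constructor
    · intro y x hx _
      have h3 := irr_mul_reg hM hD hG hB hBD hχ hθ y.2 hx
      rw [hc1, hr y] at h3
      simp only [Cfsg.Agent.Lib.Degree.inflate_apply]
      apply mul_left_cancel₀ hc0
      linear_combination h3
    · intro z hz
      obtain ⟨x, hx⟩ := isPPart_exists (p := p) z
      apply eq_zero_of_pPart_notMem_defect hM θ hx
      intro D' hD'
      rw [← blockOf_eq_of_mem hB hθ] at hD'
      rw [eq_of_isDefectGroup_normal hM hB hBD hD']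
      exact hz x hx
  refine ⟨fun θ => ⟨fun hθ => ?_, ?_⟩, fun ζ => ?_⟩
  · obtain ⟨ζ, hζ⟩ := h1 θ hθ
    exact ⟨ζ, key θ hθ ζ hζ⟩
  · rintro ⟨ζ, ha, hb⟩
    obtain ⟨θ', hθ', hr⟩ := h2 ζ
    obtain ⟨ha', hb'⟩ := key θ' hθ' ζ hr
    have hθe : θ = θ' := by
      apply Subtype.ext
      funext g
      obtain ⟨x, hxp⟩ := Cfsg.Agent.Lib.Block.isPPart_exists (p := p) g
      by_cases hx : x ∈ D
      · obtain ⟨y, rfl, hcomm, _, hy⟩ := hxp
        rw [ha ⟨x, hx⟩ y hy hcomm, ha' ⟨x, hx⟩ y hy hcomm]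
      · have hz : ∀ y : G, Cfsg.IsPPart p g y → y ∉ D := fun y hy => by
          rw [Cfsg.Agent.Lib.Block.IsPPart_eq hy hxp]
          exact hx
        rw [hb g hz, hb' g hz]
    rw [hθe]
    exact hθ'
  · obtain ⟨θ', hθ', hr⟩ := h2 ζ
    exact ⟨θ', hθ', key θ' hθ' ζ hr⟩

end Cfsg.Agent.S4714
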