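import Cfsg.Statements.S4718
import Cfsg.Agent.Lib.Block.Landau

set_option autoImplicit false
universe u
open Cfsg

namespace Cfsg.Agent.S4718

/-- Let p be a prime and a a natural number. There is a bound N such that every finite group whose Sylow p-subgroups have order p^a and whose only p-block (relative to a maximal ideal of the algebraic integers containing p) is the principal block has order at most N. -/
theorem result (p : ℕ) [Fact p.Prime] (a : ℕ) : ∃ N : ℕ, ∀ (G : Type u) [Group G] [Finite G] (M : Ideal Cfsg.AlgInt), Cfsg.IsPModular p M → (Nat.card G).factorization p = a → (∀ B : Set (Cfsg.IrrCharacter G), Cfsg.IsPBlock M B → B = Cfsg.principalBlock M G) → Nat.card G ≤ N := by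
  classical
  refine ⟨(Finset.range (p ^ (2 * a) + 5)).sup (fun k => Cfsg.Agent.Lib.Block.landauBound k 1), ?_⟩
  intro G _ _ M hM ha h
  cases nonempty_fintype G
  have := Cfsg.Agent.Lib.Block.isPModular_isPrime hM
  have hone : Cfsg.IsPBlock M (Cfsg.principalBlock M G) := ⟨Cfsg.Agent.Lib.Block.oneIrr G, rfl⟩
  have hbf := Cfsg.Agent.Lib.Block.brauer_feit hM hone
  have hall : Cfsg.principalBlock M G = Set.univ := by
    ext χ
    simp only [Set.mem_univ, iff_true]
    have h1 : Cfsg.IsPBlock M (Cfsg.blockOf M (χ : G → ℂ)) := ⟨χ, rfl⟩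
    have h2 := h _ h1
    rw [← h2]
    exact Cfsg.Agent.Lib.Block.mem_blockOf_self χ
  have hcard : Nat.card (Cfsg.principalBlock M G) = Nat.card (ConjClasses G) := by
    rw [hall, ← Cfsg.Agent.Lib.Char.card_irr_eq_card_conjClasses]
    exact Nat.card_congr (Equiv.Set.univ _)
  have hd : Cfsg.blockDefect p (Cfsg.principalBlock M G) ≤ a := by
    rw [← ha]
    exact Nat.sub_le _ _
  have hp : 0 < p := (Fact.out : p.Prime).pos
  have hle : p ^ (2 * Cfsg.blockDefect p (Cfsg.principalBlock M G)) ≤ p ^ (2 * a) :=
    Nat.pow_le_pow_right hp (by omega)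
  have hk : Nat.card (ConjClasses G) ∈ Finset.range (p ^ (2 * a) + 5) := by
    rw [Finset.mem_range, ← hcard]
    omega
  refine (Cfsg.Agent.Lib.Block.card_le_landauBound (G := G)).trans ?_
  exact Finset.le_sup (f := fun k => Cfsg.Agent.Lib.Block.landauBound k 1) hk

end Cfsg.Agent.S4718
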