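import Cfsg.Statements.S4720
import Mathlib
import Cfsg.Agent.Lib.Degree.Sums
import Cfsg.Agent.Lib.Block.Principal
import Cfsg.Agent.Lib.Block.CentralDefect3

set_option autoImplicit false
open Cfsg

namespace Cfsg.Agent.S4720


open Cfsg.Agent.Lib.Block Cfsg.Agent.Lib.Char Cfsg.Agent.Lib.Degree
open scoped ComplexConjugate

/-- A sum over `N` of a function of the conjugate `x y x⁻¹` fibred over the `N`-class of `y`. -/
theorem sum_conj_fibre {G : Type*} [Group G] [Fintype G] (P N : Subgroup G) [Fintype P] [Fintype N]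
    (hNN : N ≤ Subgroup.normalizer (P : Set G)) (y : P)
    (hfus : ∀ g : G, g * (y : G) * g⁻¹ ∈ (P : Set G) → ∃ n ∈ N, n * (y : G) * n⁻¹ = g * (y : G) * g⁻¹)
    (η : ↥P → ℂ) [DecidableRel (IsConj : G → G → Prop)] :
    ∑ x : N, Cfsg.extendByZero P η ((x : G) * (y : G) * (x : G)⁻¹) =
      (Nat.card ↥(N ⊓ Subgroup.centralizer ({(y : G)} : Set G)) : ℂ) *
        ∑ z : P, if IsConj (y : G) (z : G) then η z else 0 := by
  classical
  have hmem : ∀ x : N, (x : G) * (y : G) * (x : G)⁻¹ ∈ P := by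
    intro x
    exact (Subgroup.mem_normalizer_iff.mp (hNN x.2) y).mp y.2
  let f : N → P := fun x => ⟨(x : G) * (y : G) * (x : G)⁻¹, hmem x⟩
  have h1 : ∀ x : N, Cfsg.extendByZero P η ((x : G) * (y : G) * (x : G)⁻¹) = η (f x) := fun x =>
    extendByZero_of_mem P η (hmem x)
  simp only [h1]
  rw [← Finset.sum_fiberwise (Finset.univ : Finset N) f, Finset.mul_sum]
  refine Finset.sum_congr rfl fun z _ => ?_
  have h2 : ∑ x ∈ Finset.univ.filter (fun x => f x = z), η (f x) =
      ((Finset.univ.filter (fun x => f x = z)).card : ℂ) * η z := by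
    rw [Finset.sum_congr rfl (fun x hx => by rw [(Finset.mem_filter.mp hx).2]), Finset.sum_const,
      nsmul_eq_mul]
  rw [h2]
  by_cases hc : IsConj (y : G) (z : G)
  · rw [if_pos hc]
    congr 2
    obtain ⟨g, hg⟩ := isConj_iff.mp hc
    obtain ⟨n, hn, hnz⟩ := hfus g (by rw [hg]; exact z.2)
    rw [hg] at hnz
    have key : ∀ a : G, n⁻¹ * a ∈ Subgroup.centralizer ({(y : G)} : Set G) ↔
        a * (y : G) * a⁻¹ = n * (y : G) * n⁻¹ := by
      intro a
      rw [Subgroup.mem_centralizer_singleton_iff]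
      constructor
      · intro h
        calc a * (y : G) * a⁻¹ = n * (n⁻¹ * a * (y : G)) * a⁻¹ := by group
          _ = n * ((y : G) * (n⁻¹ * a)) * a⁻¹ := by rw [h]
          _ = n * (y : G) * n⁻¹ := by group
      · intro h
        calc n⁻¹ * a * (y : G) = n⁻¹ * (a * (y : G) * a⁻¹) * a := by group
          _ = n⁻¹ * (n * (y : G) * n⁻¹) * a := by rw [h]
          _ = (y : G) * (n⁻¹ * a) := by group
    have hfz : ∀ x : N, f x = z ↔ (x : G) * (y : G) * (x : G)⁻¹ = n * (y : G) * n⁻¹ := by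
      intro x
      rw [Subtype.ext_iff, hnz]
    rw [← Fintype.card_subtype, ← Nat.card_eq_fintype_card]
    refine Nat.card_congr ⟨fun x => ⟨n⁻¹ * (x.1 : G), N.mul_mem (N.inv_mem hn) x.1.2,
        (key _).mpr ((hfz _).mp x.2)⟩,
      fun u => ⟨⟨n * (u : G), N.mul_mem hn u.2.1⟩, (hfz _).mpr (by
        rw [← key]
        simpa using u.2.2)⟩, ?_, ?_⟩
    · intro x
      apply Subtype.ext
      apply Subtype.ext
      simp
    · intro u
      apply Subtype.ext
      simp
  · rw [if_neg hc, mul_zero]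
    have : Finset.univ.filter (fun x => f x = z) = ∅ := by
      rw [Finset.filter_eq_empty_iff]
      intro x _ hx
      apply hc
      exact isConj_iff.mpr ⟨x, congrArg Subtype.val hx⟩
    rw [this]
    simp

/-- Let p be a prime, M a maximal ideal of the algebraic integers containing p, P a p-subgroup of the finite group G, N a subgroup with P ≤ N ≤ N_G(P), and U a nonempty subset of P normalized by N such that an element of U and an element of P that are conjugate in G are already conjugate in N, and such that λ(C_G(y)) = w·#C_N(y) for every y ∈ U with one rational number w, where λ(X) denotes the sum of the squares of the degrees of the irreducible characters in the principal p-block of X. For a complex function θ on P and χ in the principal block of G put a_χ(θ) = #P⁻¹ Σ_{y ∈ P} χ(y) θ(y⁻¹). Then for generalized characters θ, η of P with θ vanishing outside U, Σ_χ a_χ(θ)·conj(a_χ(η)) = (w/#P²)·Σ_{y ∈ P} θ(y)·conj(Σ_{x ∈ N} η(x y x⁻¹)) (η extended by zero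 off P; the conjugates lie in P), the first sum over the principal p-block of G. -/
theorem result {G : Type*} [Group G] [Finite G] (p : ℕ) [Fact p.Prime] (M : Ideal Cfsg.AlgInt) (hM : Cfsg.IsPModular p M) (P : Subgroup G) (hP : IsPGroup p P) (N : Subgroup G) (hPN : P ≤ N) (hNN : N ≤ Subgroup.normalizer (P : Set G)) (U : Set G) (hUne : U.Nonempty) (hUP : U ⊆ (P : Set G)) (hUN : ∀ n ∈ N, ∀ u ∈ U, n * u * n⁻¹ ∈ U) (hfus : ∀ u ∈ U, ∀ g : G, g * u * g⁻¹ ∈ (P : Set G) → ∃ n ∈ N, n * u * n⁻¹ = g * u * g⁻¹) (w : ℚ) (hw : ∀ y ∈ U, ((∑ᶠ ψ ∈ Cfsg.principalBlock M ↥(Subgroup.centralizer ({y} : Set G)), Cfsg.charDegree (ψ : ↥(Subgroup.centralizer ({y} : Set G)) → ℂ) ^ 2) : ℚ) = w * Nat.card ↥(N ⊓ Subgroup.centralizer ({y} : Set G))) (θ η : ↥P → ℂ) (hθ : Cfsg.IsGeneralizedCharacter ↥P θ) (hη : Cfsg.IsGeneralizedCharacter ↥P η) (hθU : ∀ y : ↥P, (y : G) ∉ U → θ y = 0) : ∑ᶠ χ ∈ Cfsg.principalBlock M G, ((Nat.card ↥P : ℂ)⁻¹ * ∑ᶠ y : ↥P, (χ : G → ℂ) (y : G) * θ y⁻¹) * (starRingEnd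 ℂ) ((Nat.card ↥P : ℂ)⁻¹ * ∑ᶠ y : ↥P, (χ : G → ℂ) (y : G) * η y⁻¹) = ((w : ℂ) / ((Nat.card ↥P : ℂ) ^ 2)) * ∑ᶠ y : ↥P, θ y * (starRingEnd ℂ) (∑ᶠ x : ↥N, Cfsg.extendByZero P η ((x : G) * (y : G) * (x : G)⁻¹)) := by

  classical
  have : Fintype G := Fintype.ofFinite G
  have : Fintype P := Fintype.ofFinite _
  have : Fintype N := Fintype.ofFinite _
  have hprime := isPModular_isPrime hM
  have hB : IsBlockUnion M (principalBlock M G) :=
    isBlockUnion_of_isPBlock (isPBlock_blockOf (oneIrr G))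
  have hPc : (Nat.card P : ℂ) ≠ 0 := by
    exact_mod_cast Nat.card_pos.ne'
  have ha : ∀ (χ : IrrCharacter G) (τ : ↥P → ℂ), ∑ᶠ y : ↥P, (χ : G → ℂ) (y : G) * τ y⁻¹ =
      ∑ y : P, conj ((χ : G → ℂ) (y : G)) * τ y := by
    intro χ τ
    rw [finsum_eq_sum_of_fintype, ← Equiv.sum_comp (Equiv.inv P)]
    refine Finset.sum_congr rfl fun y _ => ?_
    simp only [Equiv.inv_apply, inv_inv]
    rw [Subgroup.coe_inv, irr_map_inv]
  let S : P → P → ℂ := fun y z => ∑ χ : IrrCharacter G,
    if χ ∈ principalBlock M G then conj ((χ : G → ℂ) (y : G)) * (χ : G → ℂ) (z : G) else 0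
  have hL : ∑ᶠ χ ∈ principalBlock M G, ((Nat.card ↥P : ℂ)⁻¹ * ∑ᶠ y : ↥P, (χ : G → ℂ) (y : G) * θ y⁻¹) *
      (starRingEnd ℂ) ((Nat.card ↥P : ℂ)⁻¹ * ∑ᶠ y : ↥P, (χ : G → ℂ) (y : G) * η y⁻¹) =
      ((Nat.card P : ℂ)⁻¹) ^ 2 * ∑ y : P, θ y * ∑ z : P, conj (η z) * S y z := by
    rw [finsum_mem_irr]
    simp only [S, Finset.mul_sum]
    have e1 : ∀ χ : IrrCharacter G, ((Nat.card ↥P : ℂ)⁻¹ * ∑ᶠ y : ↥P, (χ : G → ℂ) (y : G) * θ y⁻¹) *
        (starRingEnd ℂ) ((Nat.card ↥P : ℂ)⁻¹ * ∑ᶠ y : ↥P, (χ : G → ℂ) (y : G) * η y⁻¹) =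
        ∑ y : P, ∑ z : P, ((Nat.card P : ℂ)⁻¹) ^ 2 * (θ y * (conj (η z) *
          (conj ((χ : G → ℂ) (y : G)) * (χ : G → ℂ) (z : G)))) := by
      intro χ
      rw [ha, ha, map_mul, map_sum, map_inv₀, Complex.conj_natCast]
      rw [mul_mul_mul_comm, Finset.sum_mul_sum, Finset.mul_sum]
      refine Finset.sum_congr rfl fun y _ => ?_
      rw [Finset.mul_sum]
      refine Finset.sum_congr rfl fun z _ => ?_
      rw [map_mul, Complex.conj_conj]
      ring
    simp only [e1]
    have e2 : ∀ χ : IrrCharacter G, (if χ ∈ principalBlock M G then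
        ∑ y : P, ∑ z : P, ((Nat.card P : ℂ)⁻¹) ^ 2 * (θ y * (conj (η z) *
          (conj ((χ : G → ℂ) (y : G)) * (χ : G → ℂ) (z : G)))) else 0) =
        ∑ y : P, ∑ z : P, ((Nat.card P : ℂ)⁻¹) ^ 2 * (θ y * (conj (η z) *
          (if χ ∈ principalBlock M G then conj ((χ : G → ℂ) (y : G)) * (χ : G → ℂ) (z : G) else 0))) := by
      intro χ
      split_ifs <;> simp
    simp only [e2]
    rw [Finset.sum_comm]
    refine Finset.sum_congr rfl fun y _ => ?_
    rw [Finset.sum_comm]
  -- the inner sums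
  have hS : ∀ y : P, (y : G) ∈ U → ∑ z : P, conj (η z) * S y z =
      (w : ℂ) * conj (∑ x : N, Cfsg.extendByZero P η ((x : G) * (y : G) * (x : G)⁻¹)) := by
    intro y hyU
    have hyp : IsPPart p (y : G) (y : G) := isPPart_of_pElement hP y.2
    have hyord : ∃ k, orderOf (y : G) = p ^ k := by
      obtain ⟨k, hk⟩ := (IsPGroup.iff_orderOf.mp hP) y
      exact ⟨k, by rw [← hk]; exact Subgroup.orderOf_coe y⟩
    -- values of `S`
    have hS1 : ∀ z : P, S y z = if IsConj (y : G) (z : G) then S y y else 0 := by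
      intro z
      by_cases hc : IsConj (y : G) (z : G)
      · rw [if_pos hc]
        refine Finset.sum_congr rfl fun χ _ => ?_
        rw [irr_map_isConj χ hc]
      · rw [if_neg hc]
        have h1 := block_orthogonality hM (isPPart_of_pElement hP z.2) hyp
          (fun h => hc h.symm) hB
        rw [finsum_mem_irr] at h1
        rw [← h1]
        refine Finset.sum_congr rfl fun χ _ => ?_
        split_ifs
        · rw [irr_map_inv, mul_comm]
        · rfl
    have : Fintype (Subgroup.centralizer ({(y : G)} : Set G)) := Fintype.ofFinite _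
    have hSyy : S y y = (w : ℂ) * (Nat.card ↥(N ⊓ Subgroup.centralizer ({(y : G)} : Set G)) : ℂ) := by
      have h1 := sum_principal_section hM hyord (1 : Subgroup.centralizer ({(y : G)} : Set G))
        (by rw [orderOf_one]; exact Nat.Prime.not_dvd_one Fact.out)
      have h2 := hw y hyU
      have h3 := congrArg (fun q : ℚ => (q : ℂ)) h2
      simp only [Rat.cast_mul, Rat.cast_natCast] at h3
      rw [← h3, finsum_mem_irr]
      have e : S y y = ∑ ζ : IrrCharacter G, (if ζ ∈ principalBlock M G then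
          conj ((ζ : G → ℂ) ((y : G) * ((1 : Subgroup.centralizer ({(y : G)} : Set G)) : G))) *
            (ζ : G → ℂ) ((y : G) * ((1 : Subgroup.centralizer ({(y : G)} : Set G)) : G)) else 0) := by
        simp only [S, OneMemClass.coe_one, mul_one]
      rw [e, h1]
      push_cast
      refine Finset.sum_congr rfl fun ξ _ => ?_
      split_ifs
      · rw [map_one_eq_charDegree (IsIrrCharacter.isCharacter ξ.2), Complex.conj_natCast]
        push_cast
        ring
      · simp
    have hfib := sum_conj_fibre P N hNN y (fun g hg => hfus y hyU g hg) η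
    calc ∑ z : P, conj (η z) * S y z
        = ∑ z : P, ((w : ℂ) * (Nat.card ↥(N ⊓ Subgroup.centralizer ({(y : G)} : Set G)) : ℂ)) *
            conj (if IsConj (y : G) (z : G) then η z else 0) := by
          refine Finset.sum_congr rfl fun z _ => ?_
          rw [hS1 z, hSyy]
          split_ifs
          · ring
          · simp
      _ = _ := by
          rw [hfib, map_mul, Complex.conj_natCast, map_sum, ← mul_assoc, Finset.mul_sum]
  rw [hL, finsum_eq_sum_of_fintype, div_eq_mul_inv, Finset.mul_sum, Finset.mul_sum]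
  refine Finset.sum_congr rfl fun y _ => ?_
  by_cases hyU : (y : G) ∈ U
  · rw [hS y hyU, finsum_eq_sum_of_fintype, inv_pow]
    ring
  · rw [hθU y hyU]
    simp

end Cfsg.Agent.S4720
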