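import Cfsg.Statements.S4721
import Mathlib
import Cfsg.Agent.Lib.Exc3.Main

set_option autoImplicit false
open Cfsg
open Cfsg.Agent.Lib.Exc3 Cfsg.Agent.Lib.Block Cfsg.Agent.Lib.Char

namespace Cfsg.Agent.S4721

/-- Let p be a prime, M a maximal ideal of the algebraic integers containing p, and G a finite group with a nontrivial abelian Sylow p-subgroup P, N = N_G(P), C = C_G(P), such that N/C is cyclic of order 3, #P > 4, and C_G(y) ∩ N = C for every non-identity y ∈ P. Then the principal p-block is the disjoint union of a set X of exactly 3 characters containing the principal character and a set Y of (#P − 1)/3 characters, with signs a_χ = ±1 (χ ∈ X, a = 1 at the principal character) and δ = ±1 such that every χ ∈ X takes the value a_χ at every element whose p-part is a non-identity element of P, and there is a map ζ from the non-principal linear characters of P onto Y, constant on N-conjugacy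 classes, with ζ_ψ(z) = δ·Σ ψ'(y) over the N-orbit of ψ, for z with p-part y ≠ 1 in P. If moreover G has an involution lying in no proper normal subgroup of G, then exactly two of the three numbers −δ and a_χ (χ ∈ X non-principal) equal −1, and the product of the degrees of the two non-principal members of X and of any member of Y is a perfect square. -/
theorem result {G : Type*} [Group G] [Finite G] (p : ℕ) [Fact p.Prime] (M : Ideal Cfsg.AlgInt) (hM : Cfsg.IsPModular p M) (P : Sylow p G) (hab : IsMulCommutative P) (hP1 : Nat.card P ≠ 1) (hCN : (Subgroup.centralizer ((P : Subgroup G) : Set G)).relIndex (Subgroup.normalizer ((P : Subgroup G) : Set G)) = 3) (hcyc : ∃ g : G, g ∈ Subgroup.normalizer ((P : Subgroup G) : Set G) ∧ Subgroup.centralizer ((P : Subgroup G) : Set G) ⊔ Subgroup.zpowers g = Subgroup.normalizer ((P : Subgroup G) : Set G)) (hm2 : 3 + 1 < Nat.card P) (hfrob : ∀ y : G, y ∈ (P :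 Subgroup G) → y ≠ 1 → Subgroup.centralizer ({y} : Set G) ⊓ Subgroup.normalizer ((P : Subgroup G) : Set G) = Subgroup.centralizer ((P : Subgroup G) : Set G)) : ∃ (X Y : Set (Cfsg.IrrCharacter G)), Cfsg.principalBlock M G = X ∪ Y ∧ Disjoint X Y ∧ Nat.card X = 3 ∧ Nat.card Y = (Nat.card P - 1) / 3 ∧ (∃ χ₁ ∈ X, (χ₁ : G → ℂ) = fun _ => 1) ∧ ∃ (a : Cfsg.IrrCharacter G → ℤ) (δ : ℤ) (ζ : (↥(P : Subgroup G) →* ℂˣ) → Cfsg.IrrCharacter G), (δ = 1 ∨ δ = -1) ∧ (∀ χ ∈ X, (a χ = 1 ∨ a χ = -1) ∧ ∀ z y : G, Cfsg.IsPPart p z y → y ∈ (P : Subgroup G) → y ≠ 1 → (χ : G → ℂ) z = (a χ : ℂ)) ∧ (∀ ψ : ↥(P : Subgroup G) →* ℂˣ, ψ ≠ 1 → ζ ψ ∈ Y) ∧ (∀ η ∈ Y, ∃ ψ : ↥(P : Subgroup G) →* ℂˣ, ψ ≠ 1 ∧ ζ ψ = η) ∧ (∀ ψ ψ' : ↥(P : Subgroup G) →* ℂˣ, ψ ≠ 1 → (∃ n : G, n ∈ Subgroup.normalizer ((P : Subgroup G) : Set G) ∧ ∀ w w' : ↥(P : Subgroup G), (w' : G) = n * w * n⁻¹ → ψ' w' = ψ w) → ζ ψ' = ζ ψ) ∧ (∀ ψ : ↥(P : Subgroup G) →* ℂˣ,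 ψ ≠ 1 → ∀ (z : G) (y : ↥(P : Subgroup G)), Cfsg.IsPPart p z (y : G) → (y : G) ≠ 1 → (ζ ψ : G → ℂ) z = (δ : ℂ) * ∑ᶠ ψ' ∈ {ψ' : ↥(P : Subgroup G) →* ℂˣ | ∃ n : G, n ∈ Subgroup.normalizer ((P : Subgroup G) : Set G) ∧ ∀ w w' : ↥(P : Subgroup G), (w' : G) = n * w * n⁻¹ → ψ' w' = ψ w}, ((ψ' y : ℂˣ) : ℂ)) ∧ ((∃ t : G, orderOf t = 2 ∧ ∀ K : Subgroup G, K.Normal → t ∈ K → K = ⊤) → Nat.card {χ : Cfsg.IrrCharacter G // χ ∈ X ∧ (χ : G → ℂ) ≠ (fun _ => 1) ∧ a χ = -1} + (if δ = 1 then 1 else 0) = 2 ∧ ∀ η ∈ Y, IsSquare (Cfsg.charDegree (η : G → ℂ) * ∏ᶠ χ ∈ {χ : Cfsg.IrrCharacter G | χ ∈ X ∧ (χ : G → ℂ) ≠ fun _ => 1}, Cfsg.charDegree (χ : G → ℂ))) := by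
  classical
  letI : Fintype G := Fintype.ofFinite G
  letI : ∀ H : Subgroup G, Fintype H := fun H => Fintype.ofFinite H
  obtain ⟨W, E⟩ := exists_excSetup P hab hCN hfrob
  letI : Fintype W := Fintype.ofFinite W
  haveI := finite_dual E.hab
  letI : Fintype (↥(P : Subgroup G) →* ℂˣ) := Fintype.ofFinite _
  have hm2' : 3 + 1 < Nat.card ↥(P : Subgroup G) := hm2
  obtain ⟨S⟩ := exists_excStruct E hm2'
  have hone : ((oneIrr G : IrrCharacter G) : G → ℂ) = fun _ => 1 := rfl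
  have hne_one : ∀ χ : IrrCharacter G, (χ : G → ℂ) ≠ (fun _ => 1) ↔ χ ≠ oneIrr G := by
    intro χ
    constructor
    · intro h h2
      apply h
      rw [h2]
      rfl
    · intro h h2
      exact h (Subtype.ext h2)
  have hξ₁ζ : ∀ ψ, ψ ≠ 1 → S.ζ ψ ≠ S.ξ₁ := fun ψ hψ => (S.hval ψ hψ).2.2.2.2.1
  have hξ₂ζ : ∀ ψ, ψ ≠ 1 → S.ζ ψ ≠ S.ξ₂ := fun ψ hψ => (S.hval ψ hψ).2.2.2.2.2.1
  have honeζ : ∀ ψ, ψ ≠ 1 → S.ζ ψ ≠ oneIrr G := fun ψ hψ => (S.hval ψ hψ).2.2.2.1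
  let X₀ : Finset (IrrCharacter G) := {oneIrr G, S.ξ₁, S.ξ₂}
  have hX₀ : ∀ χ, χ ∈ (X₀ : Set (IrrCharacter G)) ↔ χ = oneIrr G ∨ χ = S.ξ₁ ∨ χ = S.ξ₂ := by
    intro χ
    simp [X₀]
  let a : IrrCharacter G → ℤ := fun χ => if χ = S.ξ₁ then -S.s₁ else if χ = S.ξ₂ then -S.s₂ else 1
  have ha₁ : a S.ξ₁ = -S.s₁ := if_pos rfl
  have ha₂ : a S.ξ₂ = -S.s₂ := by
    show (if S.ξ₂ = S.ξ₁ then -S.s₁ else if S.ξ₂ = S.ξ₂ then -S.s₂ else 1) = _
    rw [if_neg S.hne.symm, if_pos rfl]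
  have ha₀ : a (oneIrr G) = 1 := by
    show (if oneIrr G = S.ξ₁ then -S.s₁ else if oneIrr G = S.ξ₂ then -S.s₂ else 1) = _
    rw [if_neg S.hξ₁.symm, if_neg S.hξ₂.symm]
  refine ⟨X₀, S.ζ '' {ψ | ψ ≠ 1}, ?_, ?_, ?_, ?_, ⟨oneIrr G, (hX₀ _).2 (Or.inl rfl), rfl⟩, a, S.δ, S.ζ, S.hδ, ?_, ?_, ?_, ?_, ?_, ?_⟩
  · -- the block
    ext χ
    constructor
    · intro hχ
      rcases principal_subset E S hM hχ with h | h | h | ⟨ψ, hψ, h⟩
      · exact Or.inl ((hX₀ _).2 (Or.inl h))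
      · exact Or.inl ((hX₀ _).2 (Or.inr (Or.inl h)))
      · exact Or.inl ((hX₀ _).2 (Or.inr (Or.inr h)))
      · exact Or.inr ⟨ψ, hψ, h.symm⟩
    · rintro (h | ⟨ψ, hψ, rfl⟩)
      · rcases (hX₀ _).1 h with rfl | rfl | rfl
        · exact one_mem_principal E hM
        · exact ξ₁_mem E S hM
        · exact ξ₂_mem E S hM
      · exact ζ_mem E S hM hψ
  · -- disjointness
    rw [Set.disjoint_left]
    rintro χ h ⟨ψ, hψ, rfl⟩
    rcases (hX₀ _).1 h with h1 | h1 | h1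
    · exact honeζ ψ hψ h1
    · exact hξ₁ζ ψ hψ h1
    · exact hξ₂ζ ψ hψ h1
  · -- the card of `X`
    rw [Nat.card_coe_set_eq, Set.ncard_coe_finset]
    exact Finset.card_eq_three.2 ⟨_, _, _, S.hξ₁.symm, S.hξ₂.symm, S.hne, rfl⟩
  · -- the card of `Y`
    exact card_image_zeta E S
  · -- the values on `X`
    intro χ hχ
    rcases (hX₀ _).1 hχ with rfl | rfl | rfl
    · refine ⟨Or.inl ha₀, fun z y _ _ _ => ?_⟩
      rw [ha₀]
      simp [hone]
    · refine ⟨?_, fun z y hz hy hy1 => ?_⟩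
      · rw [ha₁]
        rcases S.hs₁ with h | h <;> rw [h] <;> simp
      · have h1 : (⟨y, hy⟩ : ↥(P : Subgroup G)) ≠ 1 := fun h => hy1 (congrArg Subtype.val h)
        rw [irr_of_isPPart E hM (ξ₁_mem E S hM) (y := ⟨y, hy⟩) hz h1, ξ₁_val E S hM h1, ha₁]
        push_cast
        rfl
    · refine ⟨?_, fun z y hz hy hy1 => ?_⟩
      · rw [ha₂]
        rcases S.hs₂ with h | h <;> rw [h] <;> simp
      · have h1 : (⟨y, hy⟩ : ↥(P : Subgroup G)) ≠ 1 := fun h => hy1 (congrArg Subtype.val h)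
        rw [irr_of_isPPart E hM (ξ₂_mem E S hM) (y := ⟨y, hy⟩) hz h1, ξ₂_val E S hM h1, ha₂]
        push_cast
        rfl
  · intro ψ hψ
    exact ⟨ψ, hψ, rfl⟩
  · rintro η ⟨ψ, hψ, rfl⟩
    exact ⟨ψ, hψ, rfl⟩
  · intro ψ ψ' hψ h
    exact zeta_of_conj E S hψ h
  · intro ψ hψ z y hz hy
    have h1 : y ≠ 1 := fun h => hy (congrArg Subtype.val h)
    rw [irr_of_isPPart E hM (ζ_mem E S hM hψ) hz h1, ζ_val E S hM hψ h1, finsum_orbit E hψ y]
  · rintro ⟨t, ht, hK⟩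
    by_cases hp2 : p = 2
    · exact (even_case E S hM hp2 ht hK hm2').elim
    obtain ⟨hsign, hsq⟩ := odd_case E S hp2 ht hK
    obtain ⟨h₁, h₂, h₃, h₄, h₅, h₆, h₇, h₈⟩ := S.hval S.ψ₀ S.hψ₀
    refine ⟨?_, ?_⟩
    · -- the count
      have hnot : ¬ (S.s₁ = -1 ∧ S.s₂ = -1 ∧ S.δ = -1) := by
        rintro ⟨e₁, e₂, e₃⟩
        have hdeg := S.hdeg
        have hx₁ : (0 : ℤ) < (charDegree (S.ξ₁ : G → ℂ) : ℤ) := by exact_mod_cast charDegree_pos_of_irr S.ξ₁.2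
        have hx₂ : (0 : ℤ) < (charDegree (S.ξ₂ : G → ℂ) : ℤ) := by exact_mod_cast charDegree_pos_of_irr S.ξ₂.2
        have hD := S.hD
        rw [e₁, e₂, e₃] at hdeg
        omega
      have hpred : ∀ χ : IrrCharacter G, (χ ∈ (X₀ : Set (IrrCharacter G)) ∧ (χ : G → ℂ) ≠ (fun _ => 1) ∧ a χ = -1) ↔
          (χ = S.ξ₁ ∧ S.s₁ = 1) ∨ (χ = S.ξ₂ ∧ S.s₂ = 1) := by
        intro χ
        rw [hX₀, hne_one]
        constructor
        · rintro ⟨h | h | h, h2, h3⟩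
          · exact absurd h h2
          · left
            refine ⟨h, ?_⟩
            rw [h, ha₁] at h3
            omega
          · right
            refine ⟨h, ?_⟩
            rw [h, ha₂] at h3
            omega
        · rintro (⟨rfl, h⟩ | ⟨rfl, h⟩)
          · refine ⟨Or.inr (Or.inl rfl), S.hξ₁, ?_⟩
            rw [ha₁, h]
          · refine ⟨Or.inr (Or.inr rfl), S.hξ₂, ?_⟩
            rw [ha₂, h]
      rcases S.hs₁ with e₁ | e₁ <;> rcases S.hs₂ with e₂ | e₂ <;> rcases S.hδ with e₃ | e₃ <;>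
        rw [e₁, e₂, e₃] at hsign <;> norm_num at hsign
      · -- (1, 1, -1)
        have h9 : Nat.card {χ : IrrCharacter G // χ ∈ (X₀ : Set (IrrCharacter G)) ∧ (χ : G → ℂ) ≠ (fun _ => 1) ∧ a χ = -1} =
            ({S.ξ₁, S.ξ₂} : Finset (IrrCharacter G)).card := by
          apply Nat.subtype_card
          intro χ
          rw [hpred, e₁, e₂]
          simp
        rw [h9, Finset.card_pair S.hne, e₃]
        norm_num
      · -- (1, -1, 1)
        have h9 : Nat.card {χ : IrrCharacter G // χ ∈ (X₀ : Set (IrrCharacter G)) ∧ (χ : G → ℂ) ≠ (fun _ => 1) ∧ a χ = -1} =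
            ({S.ξ₁} : Finset (IrrCharacter G)).card := by
          apply Nat.subtype_card
          intro χ
          rw [hpred, e₁, e₂]
          simp
        rw [h9, Finset.card_singleton, e₃]
        norm_num
      · -- (-1, 1, 1)
        have h9 : Nat.card {χ : IrrCharacter G // χ ∈ (X₀ : Set (IrrCharacter G)) ∧ (χ : G → ℂ) ≠ (fun _ => 1) ∧ a χ = -1} =
            ({S.ξ₂} : Finset (IrrCharacter G)).card := by
          apply Nat.subtype_card
          intro χ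
          rw [hpred, e₁, e₂]
          simp
        rw [h9, Finset.card_singleton, e₃]
        norm_num
      · exact absurd ⟨e₁, e₂, e₃⟩ hnot
    · -- the square
      rintro η ⟨ψ, hψ, rfl⟩
      have hset : {χ : IrrCharacter G | χ ∈ (X₀ : Set (IrrCharacter G)) ∧ (χ : G → ℂ) ≠ fun _ => 1} = {S.ξ₁, S.ξ₂} := by
        ext χ
        simp only [Set.mem_setOf_eq, Set.mem_insert_iff, Set.mem_singleton_iff]
        rw [hX₀, hne_one]
        constructor
        · rintro ⟨h | h | h, h2⟩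
          · exact absurd h h2
          · exact Or.inl h
          · exact Or.inr h
        · rintro (rfl | rfl)
          · exact ⟨Or.inr (Or.inl rfl), S.hξ₁⟩
          · exact ⟨Or.inr (Or.inr rfl), S.hξ₂⟩
      rw [hset, finprod_mem_pair S.hne]
      have hdeg : charDegree (S.ζ ψ : G → ℂ) = charDegree (S.ζ S.ψ₀ : G → ℂ) := by
        have e₁ := (S.hval ψ hψ).2.2.2.2.2.2.1
        have e₂ := (S.hval S.ψ₀ S.hψ₀).2.2.2.2.2.2.1
        have : (charDegree (S.ζ ψ : G → ℂ) : ℤ) = charDegree (S.ζ S.ψ₀ : G → ℂ) := by rw [e₁, e₂]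
        exact_mod_cast this
      rw [hdeg]
      exact hsq

end Cfsg.Agent.S4721
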