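import Cfsg.Statements.S4722
import Mathlib
import Cfsg.Agent.Lib.Degree.Sums
import Cfsg.Agent.Lib.Block.Principal
import Cfsg.Agent.Lib.Block.CentralDefect3
import Cfsg.Agent.Lib.Block.Jordan
import Cfsg.Agent.Lib.Block.Height
import Cfsg.Agent.Lib.Core.Basic

set_option autoImplicit false
open Cfsg

namespace Cfsg.Agent.S4722


open Cfsg.Agent.Lib.Block Cfsg.Agent.Lib.Char Cfsg.Agent.Lib.Degree
open scoped ComplexConjugate

/-- A weighted sum of squares argument. -/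
theorem ratio_eq {ι : Type*} [DecidableEq ι] (A : Finset ι) (a f x : ι → ℝ) (hf : ∀ i ∈ A, 0 < f i)
    (h1 : ∑ i ∈ A, a i * x i ^ 2 / f i = 0) (h2 : ∑ i ∈ A, a i * f i = 0)
    (h3 : ∑ i ∈ A, a i * x i = 0) {c e : ι} (hc : c ∈ A) (hoth : ∀ i ∈ A, i ≠ c → 0 ≤ a i)
    (he : e ∈ A) (hae : 0 < a e) (hec : e ≠ c) : x e / f e = x c / f c := by
  set r := x c / f c with hr
  have hsum : ∑ i ∈ A, a i * f i * (x i / f i - r) ^ 2 = 0 := by
    have h4 : ∀ i ∈ A, a i * f i * (x i / f i - r) ^ 2 =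
        a i * x i ^ 2 / f i - 2 * r * (a i * x i) + r ^ 2 * (a i * f i) := by
      intro i hi
      have := (hf i hi).ne'
      field_simp
      ring
    rw [Finset.sum_congr rfl h4, Finset.sum_add_distrib, Finset.sum_sub_distrib, ← Finset.mul_sum,
      ← Finset.mul_sum, h1, h2, h3]
    ring
  rw [← Finset.add_sum_erase A _ hc] at hsum
  have hc0 : a c * f c * (x c / f c - r) ^ 2 = 0 := by
    rw [hr]; simp
  rw [hc0, zero_add] at hsum
  have hnn : ∀ i ∈ A.erase c, 0 ≤ a i * f i * (x i / f i - r) ^ 2 := by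
    intro i hi
    have hi' := Finset.mem_erase.mp hi
    exact mul_nonneg (mul_nonneg (hoth i hi'.2 hi'.1) (hf i hi'.2).le) (sq_nonneg _)
  have h5 := (Finset.sum_eq_zero_iff_of_nonneg hnn).mp hsum e (Finset.mem_erase.mpr ⟨hec, he⟩)
  have hpos : a e * f e ≠ 0 := (mul_pos hae (hf e he)).ne'
  have h6 : (x e / f e - r) ^ 2 = 0 := (mul_eq_zero.mp h5).resolve_left hpos
  have h7 := pow_eq_zero_iff (two_ne_zero) |>.mp h6
  linarith

/-- The dichotomy for real numbers. -/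
theorem exists_ratio_one {ι : Type*} [DecidableEq ι] (A : Finset ι) (a f x : ι → ℝ)
    (hf : ∀ i ∈ A, 0 < f i) (h1 : ∑ i ∈ A, a i * x i ^ 2 / f i = 0) (h2 : ∑ i ∈ A, a i * f i = 0)
    (h3 : ∑ i ∈ A, a i * x i = 0) {e : ι} (he : e ∈ A) (hae : 0 < a e) (hxe : x e = f e)
    (hor : (∀ i ∈ A, ∀ j ∈ A, a i < 0 → a j < 0 → i = j) ∨
      (∀ i ∈ A, ∀ j ∈ A, 0 < a i → 0 < a j → i = j)) :
    ∃ c ∈ A, a c < 0 ∧ x c = f c := by
  obtain ⟨c, hc, hac⟩ : ∃ c ∈ A, a c < 0 := by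
    by_contra hcon
    push Not at hcon
    have h4 : 0 < ∑ i ∈ A, a i * f i :=
      Finset.sum_pos' (fun i hi => mul_nonneg (hcon i hi) (hf i hi).le)
        ⟨e, he, mul_pos hae (hf e he)⟩
    linarith
  have hec : e ≠ c := by
    rintro rfl
    linarith
  have hfe := (hf e he).ne'
  have hfc := (hf c hc).ne'
  refine ⟨c, hc, hac, ?_⟩
  rcases hor with hneg | hpos
  · have h4 := ratio_eq A a f x hf h1 h2 h3 hc (fun i hi hic => by
      by_contra hcon
      push Not at hcon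
      exact hic (hneg i hi c hc hcon hac)) he hae hec
    rw [hxe, div_self hfe] at h4
    field_simp at h4
    exact h4.symm
  · have h4 := ratio_eq A (fun i => - a i) f x hf
      (by simp only [neg_mul, neg_div, Finset.sum_neg_distrib, h1, neg_zero])
      (by simp only [neg_mul, Finset.sum_neg_distrib, h2, neg_zero])
      (by simp only [neg_mul, Finset.sum_neg_distrib, h3, neg_zero]) he
      (fun i hi hie => by
        by_contra hcon
        push Not at hcon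
        exact hie (hpos i hi e he (by simpa using hcon) hae)) hc (by simpa using hac) hec.symm
    rw [hxe, div_self hfe] at h4
    field_simp at h4
    exact h4

/-- Let M be a maximal ideal of the algebraic integers containing 2, P a 2-subgroup of the finite group G, U a subset of P, and t an involution of G such that no element of U is inverted by any conjugate of t. Let θ be a generalized character of P vanishing outside U, and for χ in the principal 2-block B₀ put a_χ = #P⁻¹ Σ_{y ∈ P} χ(y) θ(y⁻¹). Then Σ_{χ ∈ B₀} a_χ χ(t)^2/χ(1) = 0, Σ_{χ ∈ B₀} a_χ χ(1) = 0 and Σ_{χ ∈ B₀} a_χ χ(t) = 0. If moreover #P⁻¹ Σ_{y ∈ P} θ(y) ≠ 0, then either at least two of the a_χ have positive real part and at least two have negative real part, or G has a proper normal subgroup containing O_2'(G) and t. -/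
theorem result {G : Type*} [Group G] [Finite G] (M : Ideal Cfsg.AlgInt) (hM : Cfsg.IsPModular 2 M) (P : Subgroup G) (hP : IsPGroup 2 P) (U : Set G) (hUP : U ⊆ (P : Set G)) (t : G) (ht : orderOf t = 2) (hinv : ∀ u ∈ U, ∀ g : G, (g * t * g⁻¹) * u * (g * t * g⁻¹)⁻¹ ≠ u⁻¹) (θ : ↥P → ℂ) (hθ : Cfsg.IsGeneralizedCharacter ↥P θ) (hθU : ∀ y : ↥P, (y : G) ∉ U → θ y = 0) : (∑ᶠ χ ∈ Cfsg.principalBlock M G, ((Nat.card ↥P : ℂ)⁻¹ * ∑ᶠ y : ↥P, (χ : G → ℂ) (y : G) * θ y⁻¹) * (χ : G → ℂ) t ^ 2 / (χ : G → ℂ) 1 = 0) ∧ (∑ᶠ χ ∈ Cfsg.principalBlock M G, ((Nat.card ↥P : ℂ)⁻¹ * ∑ᶠ y : ↥P, (χ : G → ℂ) (y : G) * θ y⁻¹) * (χ : G → ℂ) 1 = 0) ∧ (∑ᶠ χ ∈ Cfsg.principalBlock M G, ((Nat.card ↥P : ℂ)⁻¹ * ∑ᶠ y : ↥P, (χ : G → ℂ) (y : G) * θ y⁻¹) * (χ : G → ℂ) t = 0) ∧ ((Nat.card ↥P : ℂ)⁻¹ * ∑ᶠ y : ↥P, θ y ≠ 0 → (2 ≤ Nat.card {χ : Cfsg.IrrCharacter G // χ ∈ Cfsg.principalBlock M G ∧ 0 < (((Nat.card ↥P : ℂ)⁻¹ * ∑ᶠ y : ↥P, (χ : G → ℂ) (y : G) * θ y⁻¹)).re} ∧ 2 ≤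 Nat.card {χ : Cfsg.IrrCharacter G // χ ∈ Cfsg.principalBlock M G ∧ (((Nat.card ↥P : ℂ)⁻¹ * ∑ᶠ y : ↥P, (χ : G → ℂ) (y : G) * θ y⁻¹)).re < 0}) ∨ ∃ K : Subgroup G, K.Normal ∧ K ≠ ⊤ ∧ Cfsg.pPrimeCore 2 G ≤ K ∧ t ∈ K) := by

  classical
  have : Fintype G := Fintype.ofFinite G
  have : Fintype P := Fintype.ofFinite _
  haveI : Fact (Nat.Prime 2) := ⟨Nat.prime_two⟩
  have hprime := isPModular_isPrime hM
  have hB : IsBlockUnion M (principalBlock M G) :=
    isBlockUnion_of_isPBlock (isPBlock_blockOf (oneIrr G))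
  have htt : t * t = 1 := by rw [← pow_two, ← ht, pow_orderOf_eq_one]
  have hti : t⁻¹ = t := inv_eq_of_mul_eq_one_left htt
  let a : IrrCharacter G → ℂ := fun χ => (Nat.card ↥P : ℂ)⁻¹ * ∑ᶠ y : ↥P, (χ : G → ℂ) (y : G) * θ y⁻¹
  have ha : ∀ χ : IrrCharacter G, a χ = (Nat.card ↥P : ℂ)⁻¹ * ∑ y : P, (χ : G → ℂ) (y : G) * θ y⁻¹ := by
    intro χ
    show _ * _ = _
    rw [finsum_eq_sum_of_fintype]
  -- elements inverted by conjugates of `t` are not conjugate to `U⁻¹`
  have hnc : ∀ (y : P) (x : G), (y : G)⁻¹ ∈ U → (∃ g, (g * t * g⁻¹) * x * (g * t * g⁻¹)⁻¹ = x⁻¹) →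
      ¬ IsConj (y : G) x := by
    rintro y x hy ⟨g, hg⟩ hc
    obtain ⟨c, rfl⟩ := isConj_iff.mp hc
    apply hinv _ hy (c⁻¹ * g)
    have e1 : ((c⁻¹ * g) * t * (c⁻¹ * g)⁻¹) * (y : G) * ((c⁻¹ * g) * t * (c⁻¹ * g)⁻¹)⁻¹ = (y : G)⁻¹ := by
      calc ((c⁻¹ * g) * t * (c⁻¹ * g)⁻¹) * (y : G) * ((c⁻¹ * g) * t * (c⁻¹ * g)⁻¹)⁻¹
          = c⁻¹ * ((g * t * g⁻¹) * (c * (y : G) * c⁻¹) * (g * t * g⁻¹)⁻¹) * c := by group
        _ = c⁻¹ * (c * (y : G) * c⁻¹)⁻¹ * c := by rw [hg]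
        _ = (y : G)⁻¹ := by group
    have e2 : ((c⁻¹ * g) * t * (c⁻¹ * g)⁻¹) * (y : G)⁻¹ * ((c⁻¹ * g) * t * (c⁻¹ * g)⁻¹)⁻¹ =
        (((c⁻¹ * g) * t * (c⁻¹ * g)⁻¹) * (y : G) * ((c⁻¹ * g) * t * (c⁻¹ * g)⁻¹)⁻¹)⁻¹ := by group
    rw [e2, e1]
  -- vanishing
  have hpart : ∀ h : G, (∃ x, IsPPart 2 h x ∧ ∃ g, (g * t * g⁻¹) * x * (g * t * g⁻¹)⁻¹ = x⁻¹) →
      ∑ χ : IrrCharacter G, (if χ ∈ principalBlock M G then a χ * (χ : G → ℂ) h⁻¹ else 0) = 0 := by
    rintro h ⟨x, hx, hinvx⟩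
    have e : ∀ χ : IrrCharacter G, (if χ ∈ principalBlock M G then a χ * (χ : G → ℂ) h⁻¹ else 0) =
        (Nat.card ↥P : ℂ)⁻¹ * ∑ y : P, θ y⁻¹ *
          (if χ ∈ principalBlock M G then (χ : G → ℂ) (y : G) * (χ : G → ℂ) h⁻¹ else 0) := by
      intro χ
      split_ifs
      · rw [ha, mul_assoc, Finset.sum_mul]
        congr 1
        refine Finset.sum_congr rfl fun y _ => ?_
        ring
      · simp
    simp only [e]
    rw [← Finset.mul_sum, Finset.sum_comm]
    apply mul_eq_zero_of_right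
    refine Finset.sum_eq_zero fun y _ => ?_
    rw [← Finset.mul_sum]
    by_cases hy : ((y⁻¹ : P) : G) ∈ U
    · have h1 := block_orthogonality hM (isPPart_of_pElement hP y.2) hx
        (hnc y x (by simpa using hy) hinvx) hB
      rw [finsum_mem_irr] at h1
      rw [h1, mul_zero]
    · rw [hθU _ hy, zero_mul]
  have hone : ∑ χ : IrrCharacter G, (if χ ∈ principalBlock M G then a χ * (χ : G → ℂ) 1 else 0) = 0 := by
    have h1 := hpart 1 ⟨1, ⟨1, by simp, Commute.one_left _, ⟨0, by simp⟩, by simp⟩, 1, by simp⟩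
    simpa using h1
  have htwo : ∑ χ : IrrCharacter G, (if χ ∈ principalBlock M G then a χ * (χ : G → ℂ) t else 0) = 0 := by
    have h1 := hpart t ⟨t, ⟨1, by simp, Commute.one_right _, ⟨1, by simp [ht]⟩, by simp⟩, 1, by
      simp [hti, htt]⟩
    simpa [hti] using h1
  have hthree : ∑ χ : IrrCharacter G, (if χ ∈ principalBlock M G then
      a χ * (χ : G → ℂ) t ^ 2 / (χ : G → ℂ) 1 else 0) = 0 := by
    have hG : (Fintype.card G : ℂ) ≠ 0 := by exact_mod_cast Fintype.card_ne_zero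
    have hc : ∀ c : G, ∑ χ : IrrCharacter G, (if χ ∈ principalBlock M G then
        a χ * (χ : G → ℂ) (t * (c * t * c⁻¹)) else 0) = 0 := by
      intro c
      have hss : (c * t * c⁻¹) * (c * t * c⁻¹) = 1 := by
        calc (c * t * c⁻¹) * (c * t * c⁻¹) = c * (t * t) * c⁻¹ := by group
          _ = 1 := by rw [htt]; group
      have hsi : (c * t * c⁻¹)⁻¹ = c * t * c⁻¹ := inv_eq_of_mul_eq_one_left hss
      obtain ⟨x, hx⟩ := isPPart_exists (p := 2) (t * (c * t * c⁻¹))⁻¹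
      have h1 := hpart (t * (c * t * c⁻¹))⁻¹ ⟨x, hx, 1, by
        obtain ⟨w, hw, hcomm, hxp, hwp⟩ := hx
        have hm := mem_zpowers_of_mul hcomm hxp hwp
        rw [hw] at hm
        have hxm : x ∈ Subgroup.zpowers (t * (c * t * c⁻¹))⁻¹ := by
          have e3 : x = (t * (c * t * c⁻¹))⁻¹ * w⁻¹ := by
            rw [← hw]
            group
          rw [e3]
          exact Subgroup.mul_mem _ (Subgroup.mem_zpowers _) (Subgroup.inv_mem _ hm)
        obtain ⟨n, hn⟩ := Subgroup.mem_zpowers_iff.mp hxm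
        have hh : t * (t * (c * t * c⁻¹))⁻¹ * t⁻¹ = ((t * (c * t * c⁻¹))⁻¹)⁻¹ := by
          rw [inv_inv, mul_inv_rev, hsi, hti]
          calc t * (c * t * c⁻¹ * t) * t = (t * (c * t * c⁻¹)) * (t * t) := by group
            _ = t * (c * t * c⁻¹) := by rw [htt, mul_one]
        have hconj : t * x * t⁻¹ = x⁻¹ := by
          rw [← hn]
          have e1 := map_zpow (MulAut.conj t) (t * (c * t * c⁻¹))⁻¹ n
          simp only [MulAut.conj_apply] at e1
          rw [e1, hh, inv_zpow]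
        simpa using hconj⟩
      simpa only [inv_inv] using h1
    have e : ∀ χ : IrrCharacter G, (if χ ∈ principalBlock M G then
        a χ * (χ : G → ℂ) t ^ 2 / (χ : G → ℂ) 1 else 0) =
        (Fintype.card G : ℂ)⁻¹ * ∑ c : G, (if χ ∈ principalBlock M G then
          a χ * (χ : G → ℂ) (t * (c * t * c⁻¹)) else 0) := by
      intro χ
      split_ifs
      · rw [← Finset.mul_sum, irr_sum_conj]
        field_simp
      · simp
    simp only [e]
    rw [← Finset.mul_sum, Finset.sum_comm]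
    apply mul_eq_zero_of_right
    exact Finset.sum_eq_zero fun c _ => hc c
  refine ⟨?_, ?_, ?_, ?_⟩
  · rw [finsum_mem_irr]
    exact hthree
  · rw [finsum_mem_irr]
    exact hone
  · rw [finsum_mem_irr]
    exact htwo
  intro hne
  by_cases hcard : (2 ≤ Nat.card {χ : Cfsg.IrrCharacter G // χ ∈ Cfsg.principalBlock M G ∧ 0 < (((Nat.card ↥P : ℂ)⁻¹ * ∑ᶠ y : ↥P, (χ : G → ℂ) (y : G) * θ y⁻¹)).re} ∧ 2 ≤ Nat.card {χ : Cfsg.IrrCharacter G // χ ∈ Cfsg.principalBlock M G ∧ (((Nat.card ↥P : ℂ)⁻¹ * ∑ᶠ y : ↥P, (χ : G → ℂ) (y : G) * θ y⁻¹)).re < 0})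
  · exact Or.inl hcard
  right
  -- the `a χ` are real
  have hreal : ∀ χ : IrrCharacter G, a χ = ((a χ).re : ℂ) := by
    intro χ
    obtain ⟨ψ₁, ψ₂, h₁, h₂, hθeq⟩ := hθ
    obtain ⟨n₁, hn₁⟩ := classInner_isCharacter_nat
      (IsCharacter.restrict P (IsIrrCharacter.isCharacter χ.2)) h₁
    obtain ⟨n₂, hn₂⟩ := classInner_isCharacter_nat
      (IsCharacter.restrict P (IsIrrCharacter.isCharacter χ.2)) h₂
    have e : a χ = ((n₁ : ℝ) - (n₂ : ℝ) : ℝ) := by
      rw [ha]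
      push_cast
      rw [← hn₁, ← hn₂, classInner_def, classInner_def, ← mul_sub, ← Finset.sum_sub_distrib]
      congr 1
      refine Finset.sum_congr rfl fun y _ => ?_
      rw [hθeq]
      simp only [Pi.sub_apply]
      rw [IsCharacter.map_inv' h₁, IsCharacter.map_inv' h₂]
      ring
    rw [e]
    simp
  have hxreal : ∀ χ : IrrCharacter G, (χ : G → ℂ) t = (((χ : G → ℂ) t).re : ℂ) := by
    intro χ
    have h1 : conj ((χ : G → ℂ) t) = (χ : G → ℂ) t := by
      rw [← irr_map_inv, hti]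
    exact (Complex.conj_eq_iff_re.mp h1).symm
  have hfreal : ∀ χ : IrrCharacter G, (χ : G → ℂ) 1 = ((charDegree (χ : G → ℂ) : ℝ) : ℂ) := by
    intro χ
    rw [map_one_eq_charDegree (IsIrrCharacter.isCharacter χ.2)]
    simp
  let A : Finset (IrrCharacter G) := Finset.univ.filter (fun χ => χ ∈ principalBlock M G)
  let a' : IrrCharacter G → ℝ := fun χ => (a χ).re
  let f : IrrCharacter G → ℝ := fun χ => (charDegree (χ : G → ℂ) : ℝ)
  let x : IrrCharacter G → ℝ := fun χ => ((χ : G → ℂ) t).re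
  have hf : ∀ i ∈ A, 0 < f i := fun i _ => by
    show (0 : ℝ) < (charDegree (i : G → ℂ) : ℝ)
    exact_mod_cast charDegree_pos_of_irr i.2
  have h1 : ∑ i ∈ A, a' i * x i ^ 2 / f i = 0 := by
    apply Complex.ofReal_injective
    rw [Complex.ofReal_zero, ← hthree, Complex.ofReal_sum, Finset.sum_filter]
    refine Finset.sum_congr rfl fun χ _ => ?_
    split_ifs
    · simp only [a', x, f, Complex.ofReal_div, Complex.ofReal_mul, Complex.ofReal_pow]
      rw [← hreal χ, ← hxreal χ, ← hfreal χ]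
    · rfl
  have h2 : ∑ i ∈ A, a' i * f i = 0 := by
    apply Complex.ofReal_injective
    rw [Complex.ofReal_zero, ← hone, Complex.ofReal_sum, Finset.sum_filter]
    refine Finset.sum_congr rfl fun χ _ => ?_
    split_ifs
    · simp only [a', f, Complex.ofReal_mul]
      rw [← hreal χ, ← hfreal χ]
    · rfl
  have h3 : ∑ i ∈ A, a' i * x i = 0 := by
    apply Complex.ofReal_injective
    rw [Complex.ofReal_zero, ← htwo, Complex.ofReal_sum, Finset.sum_filter]
    refine Finset.sum_congr rfl fun χ _ => ?_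
    split_ifs
    · simp only [a', x, Complex.ofReal_mul]
      rw [← hreal χ, ← hxreal χ]
    · rfl
  -- the principal character
  have heA : oneIrr G ∈ A := Finset.mem_filter.mpr ⟨Finset.mem_univ _, mem_blockOf_self (oneIrr G)⟩
  have hae : a (oneIrr G) ≠ 0 := by
    rw [ha]
    have e : ∑ y : P, ((oneIrr G : IrrCharacter G) : G → ℂ) (y : G) * θ y⁻¹ = ∑ y : P, θ y := by
      rw [← Equiv.sum_comp (Equiv.inv P) (fun y => θ y)]
      refine Finset.sum_congr rfl fun y _ => ?_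
      simp [oneIrr_coe]
    rw [e]
    rwa [finsum_eq_sum_of_fintype] at hne
  have hae' : a' (oneIrr G) ≠ 0 := by
    intro h0
    apply hae
    rw [hreal]
    show ((a' (oneIrr G) : ℝ) : ℂ) = 0
    rw [h0]
    simp
  have hxe : x (oneIrr G) = f (oneIrr G) := by
    have h5 : charDegree (((oneIrr G : IrrCharacter G)) : G → ℂ) = 1 := by
      have h6 := map_one_eq_charDegree (IsIrrCharacter.isCharacter (oneIrr G).2)
      rw [oneIrr_coe] at h6
      simp only at h6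
      rw [oneIrr_coe]
      exact_mod_cast h6.symm
    show (((oneIrr G : IrrCharacter G) : G → ℂ) t).re = (charDegree (((oneIrr G : IrrCharacter G)) : G → ℂ) : ℝ)
    rw [h5, oneIrr_coe]
    simp
  -- subsingleton facts
  have hsub : ((∀ i ∈ A, ∀ j ∈ A, a' i < 0 → a' j < 0 → i = j) ∨
      (∀ i ∈ A, ∀ j ∈ A, 0 < a' i → 0 < a' j → i = j)) := by
    by_contra hcon
    push Not at hcon
    obtain ⟨⟨i, hi, j, hj, hai, haj, hij⟩, ⟨i', hi', j', hj', hai', haj', hij'⟩⟩ := hcon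
    apply hcard
    constructor
    · by_contra hc
      have h5 : Nat.card {χ : Cfsg.IrrCharacter G // χ ∈ Cfsg.principalBlock M G ∧ 0 < (((Nat.card ↥P : ℂ)⁻¹ * ∑ᶠ y : ↥P, (χ : G → ℂ) (y : G) * θ y⁻¹)).re} ≤ 1 := by omega
      have h6 := Finite.card_le_one_iff_subsingleton.mp h5
      have h7 := h6.elim ⟨i', (Finset.mem_filter.mp hi').2, hai'⟩ ⟨j', (Finset.mem_filter.mp hj').2, haj'⟩
      exact hij' (congrArg Subtype.val h7)
    · by_contra hc
      have h5 : Nat.card {χ : Cfsg.IrrCharacter G // χ ∈ Cfsg.principalBlock M G ∧ (((Nat.card ↥P : ℂ)⁻¹ * ∑ᶠ y : ↥P, (χ : G → ℂ) (y : G) * θ y⁻¹)).re < 0} ≤ 1 := by omega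
      have h6 := Finite.card_le_one_iff_subsingleton.mp h5
      have h7 := h6.elim ⟨i, (Finset.mem_filter.mp hi).2, hai⟩ ⟨j, (Finset.mem_filter.mp hj).2, haj⟩
      exact hij (congrArg Subtype.val h7)
  -- a nonprincipal member with `t` in its kernel
  obtain ⟨c, hcA, hce, hxc⟩ : ∃ c ∈ A, c ≠ oneIrr G ∧ x c = f c := by
    rcases lt_or_gt_of_ne hae' with hneg | hpos
    · obtain ⟨c, hc, hc1, hc2⟩ := exists_ratio_one A (fun i => - a' i) f x hf
        (by simp only [neg_mul, neg_div, Finset.sum_neg_distrib, h1, neg_zero])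
        (by simp only [neg_mul, Finset.sum_neg_distrib, h2, neg_zero])
        (by simp only [neg_mul, Finset.sum_neg_distrib, h3, neg_zero]) heA (by simpa using hneg) hxe
        (by
          rcases hsub with h | h
          · right
            intro i hi j hj hai haj
            exact h i hi j hj (by simpa using hai) (by simpa using haj)
          · left
            intro i hi j hj hai haj
            exact h i hi j hj (by simpa using hai) (by simpa using haj))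
      refine ⟨c, hc, ?_, hc2⟩
      rintro rfl
      simp only [neg_lt_zero] at hc1
      linarith
    · obtain ⟨c, hc, hc1, hc2⟩ := exists_ratio_one A a' f x hf h1 h2 h3 heA hpos hxe hsub
      refine ⟨c, hc, ?_, hc2⟩
      rintro rfl
      linarith
  have hcB : c ∈ principalBlock M G := (Finset.mem_filter.mp hcA).2
  have hct : (c : G → ℂ) t = (c : G → ℂ) 1 := by
    rw [hxreal c, hfreal c]
    exact congrArg _ hxc
  refine ⟨blockKerSubgroup {c}, blockKerSubgroup_normal _, ?_, ?_, ?_⟩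
  · intro htop
    have hall : ∀ g : G, (c : G → ℂ) g = (c : G → ℂ) 1 := by
      intro g
      have : g ∈ blockKerSubgroup ({c} : Set (IrrCharacter G)) := by
        rw [htop]
        exact Subgroup.mem_top g
      exact this c rfl
    have h5 := classInner_irr_of_ne c.2 (oneIrr G).2 (fun h => hce (Subtype.ext h))
    rw [classInner_def] at h5
    have h6 : (Nat.card G : ℂ) ≠ 0 := card_ne_zero_complex G
    have h7 : ∑ g : G, (c : G → ℂ) g * conj (((oneIrr G : IrrCharacter G) : G → ℂ) g) =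
        (Nat.card G : ℂ) * (c : G → ℂ) 1 := by
      simp only [oneIrr_coe, map_one, mul_one]
      simp only [hall, Finset.sum_const, Finset.card_univ, nsmul_eq_mul, Nat.card_eq_fintype_card]
    rw [h7] at h5
    have h8 := irr_degree_ne_zero c
    simp [h6, h8] at h5
  · intro n hn ψ hψ
    rw [Set.mem_singleton_iff] at hψ
    rw [hψ]
    exact ker_of_principal (Cfsg.pPrimeCore 2 G) hM (Cfsg.Agent.Lib.Core.not_dvd_card_pPrimeCore) hcB n hn
  · intro ψ hψ
    rw [Set.mem_singleton_iff] at hψ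
    rw [hψ]
    exact hct

end Cfsg.Agent.S4722
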