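import Cfsg.Statements.S4723
import Mathlib
import Cfsg.Agent.Lib.Degree.InvHeight
import Cfsg.Agent.Lib.BPair.AlperinDade

set_option autoImplicit false
open Cfsg
open Cfsg.Agent.Lib.Block Cfsg.Agent.Lib.Char Cfsg.Agent.Lib.BPair

namespace Cfsg.Agent.S4723

/-- Let p be a prime, M a maximal ideal of the algebraic integers containing p, H a normal subgroup of the finite group G and b a p-block of H. Let T be the stabilizer of b in G. Then b contains a character θ of height zero whose own stabilizer in G (the elements g with θ(g h g⁻¹) = θ(h) for all h ∈ H) has index prime to p in T, i.e. contains a Sylow p-subgroup of T. -/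
theorem result {G : Type*} [Group G] [Finite G] (p : ℕ) [Fact p.Prime] (M : Ideal Cfsg.AlgInt) (hM : Cfsg.IsPModular p M) (H : Subgroup G) [H.Normal] (b : Set (Cfsg.IrrCharacter ↥H)) (hb : Cfsg.IsPBlock M b) (T : Subgroup G) (hT : (∀ g : G, g ∈ T ↔ ∀ θ ∈ b, ∀ θ' : Cfsg.IrrCharacter ↥H, (∀ h h' : ↥H, (h' : G) = g * h * g⁻¹ → (θ' : ↥H → ℂ) h' = (θ : ↥H → ℂ) h) → θ' ∈ b)) : ∃ θ ∈ b, Cfsg.blockHeight p b (θ : ↥H → ℂ) = 0 ∧ ∃ S : Subgroup G, S ≤ T ∧ (∀ g : G, g ∈ S ↔ (g ∈ T ∧ ∀ h h' : ↥H, (h' : G) = g * h * g⁻¹ → (θ : ↥H → ℂ) h' = (θ : ↥H → ℂ) h)) ∧ ¬ p ∣ S.relIndex T := by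
  classical
  haveI : Fintype G := Fintype.ofFinite G
  haveI : Fintype H := Fintype.ofFinite H
  haveI := isPModular_isPrime hM
  obtain ⟨P⟩ : Nonempty (Sylow p T) := inferInstance
  set PP : Subgroup G := (P : Subgroup T).map T.subtype with hPP
  have hPPT : PP ≤ T := by
    rintro _ ⟨a, _, rfl⟩
    exact a.2
  have hHT : H ≤ T := by
    intro g hg
    rw [hT]
    intro θ hθ θ' hθ'
    have : θ' = θ := by
      apply Subtype.ext
      funext n
      have h1 := hθ' (⟨g, hg⟩⁻¹ * n * ⟨g, hg⟩) n (by simp only [Subgroup.coe_mul, InvMemClass.coe_inv]; group)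
      rw [h1]
      have h2 := IsCharacter.isClassFunction (IsIrrCharacter.isCharacter θ.2) n (⟨g, hg⟩⁻¹ : H)
      rw [inv_inv] at h2
      exact h2
    rw [this]
    exact hθ
  set X : Subgroup G := PP ⊔ H with hX
  have hXT : X ≤ T := sup_le hPPT hHT
  have hHX : H ≤ X := le_sup_right
  have hPX : PP ≤ X := le_sup_left
  haveI : Fintype X := Fintype.ofFinite X
  set N' : Subgroup X := H.subgroupOf X with hN'
  haveI : N'.Normal := inferInstance
  haveI : Fintype N' := Fintype.ofFinite N'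
  set φ : N' ≃* H := Subgroup.subgroupOfEquivOfLe hHX with hφ
  set b' : Set (IrrCharacter N') := {θ | mapIrr φ θ ∈ b} with hb'def
  have hbb : ∀ θ₁ : IrrCharacter N', θ₁ ∈ b' ↔ mapIrr φ θ₁ ∈ b := fun _ => Iff.rfl
  have hmm : ∀ θ₁ : IrrCharacter H, mapIrr φ (mapIrr φ.symm θ₁) = θ₁ := by
    intro θ₁
    exact mapIrr_symm_mapIrr φ.symm θ₁
  have hb' : IsPBlock M b' := by
    obtain ⟨χ, rfl⟩ := hb
    refine ⟨mapIrr φ.symm χ, ?_⟩
    ext θ₁
    rw [hbb]
    show SameBlock M (χ : H → ℂ) (mapIrr φ θ₁ : H → ℂ) ↔ SameBlock M (mapIrr φ.symm χ : N' → ℂ) (θ₁ : N' → ℂ)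
    rw [← sameBlock_mapIrr_iff φ, hmm]
  have key : ∀ (g : X) (θ₁ : IrrCharacter N') (h h' : H), (h' : G) = (g : G) * h * (g : G)⁻¹ →
      (mapIrr φ (conjIrr N' g θ₁) : H → ℂ) h = (mapIrr φ θ₁ : H → ℂ) h' := by
    intro g θ₁ h h' e
    rw [mapIrr_apply', mapIrr_apply', conjIrr_coe]
    refine congrArg (θ₁ : N' → ℂ) ?_
    apply Subtype.ext
    apply Subtype.ext
    exact e.symm
  have hst : IsStable N' b' := by
    intro g θ₁ hθ₁
    rw [hbb] at hθ₁ ⊢
    have hg : ((g⁻¹ : X) : G) ∈ T := hXT (g⁻¹ : X).2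
    refine (hT _).mp hg _ hθ₁ _ ?_
    intro h h' e
    -- `h'` is the conjugate of `h` by `g⁻¹`
    have e' : (h : G) = (g : G) * h' * (g : G)⁻¹ := by
      rw [e]
      simp only [InvMemClass.coe_inv]
      group
    exact key g θ₁ h' h e'
  have hk : ∃ k : ℕ, N'.index = p ^ k := by
    have h1 : N'.index = H.relIndex PP := by
      show H.relIndex X = _
      rw [hX]
      exact Subgroup.relIndex_sup_right PP H
    have h2 : H.relIndex PP ∣ Nat.card PP := Subgroup.index_dvd_card _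
    have h3 : IsPGroup p PP := P.isPGroup'.map _
    obtain ⟨n, hn⟩ := IsPGroup.iff_card.mp h3
    rw [hn] at h2
    obtain ⟨j, -, hj⟩ := (Nat.dvd_prime_pow (Fact.out : p.Prime)).mp h2
    exact ⟨j, h1.trans hj⟩
  obtain ⟨k, hk⟩ := hk
  obtain ⟨θ₀, hθ₀, hv, hinv⟩ := Cfsg.Agent.Lib.Degree.exists_invariant_height_zero N' hM hb' hst hk
  have hdeg : ∀ (θ₁ : IrrCharacter N'), charDegree (mapIrr φ θ₁ : H → ℂ) = charDegree (θ₁ : N' → ℂ) := by
    intro θ₁
    unfold charDegree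
    rw [mapIrr_apply', map_one]
  refine ⟨mapIrr φ θ₀, hθ₀, ?_, T ⊓ inertia (inferInstance : H.Normal) (mapIrr φ θ₀ : H → ℂ), inf_le_left, ?_, ?_⟩
  · unfold blockHeight
    apply Nat.sub_eq_zero_of_le
    refine le_csInf ?_ ?_
    · exact (IsPBlock_nonempty hb).image _
    · rintro _ ⟨θ₁, hθ₁, rfl⟩
      simp only [hdeg, hv]
      have h1 : mapIrr φ.symm θ₁ ∈ b' := by
        rw [hbb, hmm]
        exact hθ₁
      have h2 := minExp_le (p := p) h1
      have h3 := hdeg (mapIrr φ.symm θ₁)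
      rw [hmm] at h3
      rw [h3]
      exact h2
  · intro g
    rw [Subgroup.mem_inf, mem_inertia_iff]
    refine and_congr_right fun _ => ?_
    constructor
    · intro h1 h h' e
      have h2 := h1 h
      rw [← h2]
      exact congrArg (mapIrr φ θ₀ : H → ℂ) (Subtype.ext e)
    · intro h1 h
      exact h1 h ⟨(g : G) * h * g⁻¹, (inferInstance : H.Normal).conj_mem _ h.2 g⟩ rfl
  · have hle : (P : Subgroup T) ≤ (T ⊓ inertia (inferInstance : H.Normal) (mapIrr φ θ₀ : H → ℂ)).subgroupOf T := by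
      intro t ht
      rw [Subgroup.mem_subgroupOf, Subgroup.mem_inf]
      refine ⟨t.2, ?_⟩
      rw [mem_inertia_iff]
      intro h
      have htX : (t : G) ∈ X := hPX (Subgroup.mem_map_of_mem _ ht)
      have h1 := key ⟨t, htX⟩ θ₀ h ⟨(t : G) * h * (t : G)⁻¹, (inferInstance : H.Normal).conj_mem _ h.2 t⟩ rfl
      rw [hinv] at h1
      exact h1.symm
    intro hd
    exact P.not_dvd_index (hd.trans (Subgroup.index_dvd_of_le hle))

end Cfsg.Agent.S4723
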