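import Cfsg.Statements.S4730
import Mathlib
import Cfsg.Agent.Lib.Block.Height
import Cfsg.Agent.Lib.CharExtra.PReg
import Cfsg.Agent.Lib.Char.Burnside
import Cfsg.Agent.Lib.Degree.Sums

set_option autoImplicit false
open Cfsg
open Cfsg.Agent.Lib.Block Cfsg.Agent.Lib.CharExtra Cfsg.Agent.Lib.Char

namespace Cfsg.Agent.S4730


theorem memLocalIdeal_pow_mul_div {p : ℕ} {M : Ideal AlgInt} (hM : IsPModular p M) {b m d : ℕ} (hd : d ≠ 0)
    (h : d.factorization p < b) : MemLocalIdeal M (((p ^ b * m : ℕ) : ℂ) / (d : ℂ)) := by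
  have := isPModular_isPrime hM
  have hp := isPModular_prime hM
  have e1 : p ^ d.factorization p * (d / p ^ d.factorization p) = d := Nat.ordProj_mul_ordCompl_eq_self d p
  have hnd : ¬ p ∣ d / p ^ d.factorization p := Nat.not_dvd_ordCompl hp hd
  set e := d.factorization p
  set d' := d / p ^ e
  have hp0 : (p : ℂ) ≠ 0 := by exact_mod_cast hp.ne_zero
  have hd'0 : (d' : ℂ) ≠ 0 := by
    have : d' ≠ 0 := fun h0 => hnd (h0 ▸ dvd_zero p)
    exact_mod_cast this
  obtain ⟨k, rfl⟩ : ∃ k, b = e + 1 + k := ⟨b - (e+1), by omega⟩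
  have e2 : ((p ^ (e + 1 + k) * m : ℕ) : ℂ) / (d : ℂ) = ((p : ℂ) * ((p ^ k * m : ℕ) : ℂ)) * (d' : ℂ)⁻¹ := by
    rw [← e1]
    push_cast
    field_simp
    ring
  rw [e2]
  exact memLocalIdeal_mul_right (memLocalIdeal_mul_right (memLocalIdeal_p hM) (memLocalRing_natCast _))
    (memLocalRing_natCast_inv hM hnd)

theorem char_vanish {G : Type*} [Group G] [Finite G] {p : ℕ} [Fact p.Prime] (hZ : Subgroup.center G = ⊥)
    (P : Sylow p G) (χ : Cfsg.IrrCharacter G) (hfaith : ∀ g : G, (χ : G → ℂ) g = (χ : G → ℂ) 1 → g = 1)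
    (n : ℕ) (hdeg : Cfsg.charDegree (χ : G → ℂ) = p ^ n) {z : G}
    (hz : (P : Subgroup G) ≤ Subgroup.centralizer ({z} : Set G)) (hz1 : z ≠ 1) : (χ : G → ℂ) z = 0 := by
  obtain ⟨f, k, ρ, hρ, rfl⟩ := χ
  simp only at hfaith hdeg ⊢
  have hfin : Module.finrank ℂ (Fin k → ℂ) = p ^ n := by
    rw [← hdeg]
    symm
    apply Cfsg.Agent.Lib.Char.charDegree_natCast
    rw [Representation.char_one]
  have hidx : ¬ p ∣ (Subgroup.centralizer ({z} : Set G)).index := fun h =>
    P.not_dvd_index (h.trans (Subgroup.index_dvd_of_le hz))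
  have hp : p.Prime := Fact.out
  have hcop : Nat.Coprime (Module.finrank ℂ (Fin k → ℂ)) (Subgroup.centralizer ({z} : Set G)).index := by
    rw [hfin]
    exact Nat.Coprime.pow_left _ ((Nat.Prime.coprime_iff_not_dvd hp).mpr hidx)
  rcases character_eq_zero_or_norm_of_coprime ρ hρ z hcop with h0 | h0
  · exact h0
  · exfalso
    obtain ⟨ω, hω⟩ := (norm_character_eq_iff ρ z (isOfFinOrder_of_finite z)).mp h0
    apply hz1
    have hcen : z ∈ Subgroup.center G := by
      rw [Subgroup.mem_center_iff]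
      intro g
      have h1 : ρ (g * z) = ρ (z * g) := by
        rw [map_mul, map_mul, hω]
        ext v
        simp
      have h2 : ρ (z * g * (g * z)⁻¹) = 1 := by
        rw [map_mul, ← h1, ← map_mul, mul_inv_cancel, map_one]
      have h3 : ρ.character (z * g * (g * z)⁻¹) = ρ.character 1 := by
        unfold Representation.character
        rw [h2, ρ.map_one]
      have h4 := hfaith _ h3
      exact (mul_inv_eq_one.mp h4).symm
    rw [hZ] at hcen
    simpa using hcen

theorem val_ge {G : Type*} [Group G] [Finite G] {p : ℕ} [Fact p.Prime] {M : Ideal Cfsg.AlgInt}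
    (hM : Cfsg.IsPModular p M) (hZ : Subgroup.center G = ⊥) (P : Sylow p G) (b : ℕ)
    (hb : Nat.card (Subgroup.center ↥(P : Subgroup G)) = p ^ b) (χ : Cfsg.IrrCharacter G)
    (hfaith : ∀ g : G, (χ : G → ℂ) g = (χ : G → ℂ) 1 → g = 1) (n : ℕ)
    (hdeg : Cfsg.charDegree (χ : G → ℂ) = p ^ n) (ψ : Cfsg.IrrCharacter G) (hψ : ψ ∈ blockOf M (χ : G → ℂ)) :
    b ≤ (charDegree (ψ : G → ℂ)).factorization p := by
  classical
  have := isPModular_isPrime hM
  have hp : p.Prime := isPModular_prime hM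
  have := Fintype.ofFinite G
  by_contra hlt
  push Not at hlt
  have hd0 : charDegree (ψ : G → ℂ) ≠ 0 := charDegree_ne_zero
  have hψ1 : (ψ : G → ℂ) 1 = (charDegree (ψ : G → ℂ) : ℂ) :=
    map_one_eq_charDegree (IsIrrCharacter.isCharacter ψ.2)
  have hψ0 : (ψ : G → ℂ) 1 ≠ 0 := Cfsg.Agent.Lib.Degree.irr_degree_ne_zero ψ
  -- the elements of the centre
  let ι : Subgroup.center ↥(P : Subgroup G) →* G :=
    (P : Subgroup G).subtype.comp (Subgroup.center ↥(P : Subgroup G)).subtype
  have hιinj : Function.Injective ι := by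
    intro a b h
    exact Subtype.ext (Subtype.ext h)
  have hcen : ∀ z : Subgroup.center ↥(P : Subgroup G),
      (P : Subgroup G) ≤ Subgroup.centralizer ({ι z} : Set G) := by
    intro z u hu
    rw [Subgroup.mem_centralizer_singleton_iff]
    have := (Subgroup.mem_center_iff.mp z.2) ⟨u, hu⟩
    exact congrArg Subtype.val this
  have hloc : ∀ z : Subgroup.center ↥(P : Subgroup G), z ≠ 1 →
      MemLocalIdeal M ((ψ : G → ℂ) (ι z) / (ψ : G → ℂ) 1) := by
    intro z hz
    have hz' : ι z ≠ 1 := fun h => hz (hιinj (by rw [h, map_one]))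
    have h0 := char_vanish hZ P χ hfaith n hdeg (hcen z) hz'
    have h1 := hψ (ι z)
    have h2 : centralChar (χ : G → ℂ) (ι z) = 0 := by
      unfold centralChar
      rw [h0]
      simp
    rw [h2, zero_sub] at h1
    have h3 := memLocalIdeal_neg h1
    rw [neg_neg] at h3
    have hidx : ¬ p ∣ (Subgroup.centralizer ({ι z} : Set G)).index := fun h =>
      P.not_dvd_index (h.trans (Subgroup.index_dvd_of_le (hcen z)))
    refine memLocalIdeal_of_mul_unit (memLocalRing_natCast _) (not_memLocalIdeal_natCast hM hidx) ?_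
    unfold centralChar at h3
    convert h3 using 1
    ring
  -- the sum
  have hchar : IsCharacter (Subgroup.center ↥(P : Subgroup G)) ((ψ : G → ℂ) ∘ ι) :=
    IsCharacter.comp ι (IsIrrCharacter.isCharacter ψ.2)
  obtain ⟨m, hm⟩ := classInner_isCharacter_nat hchar (IsCharacter.one (G := Subgroup.center ↥(P : Subgroup G)))
  have hcardne : ((p ^ b : ℕ) : ℂ) ≠ 0 := by
    exact_mod_cast (pow_pos hp.pos b).ne'
  have hsum : ∑ z : Subgroup.center ↥(P : Subgroup G), (ψ : G → ℂ) (ι z) = ((p ^ b * m : ℕ) : ℂ) := by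
    unfold classInner at hm
    simp only [Function.comp, map_one, mul_one] at hm
    rw [hb] at hm
    rw [inv_mul_eq_iff_eq_mul₀ hcardne] at hm
    rw [hm]
    push_cast
    ring
  have hone : ∑ z : Subgroup.center ↥(P : Subgroup G), (ψ : G → ℂ) (ι z) / (ψ : G → ℂ) 1 =
      ((p ^ b * m : ℕ) : ℂ) / (charDegree (ψ : G → ℂ) : ℂ) := by
    rw [← hsum, ← hψ1, Finset.sum_div]
  rw [← Finset.add_sum_erase _ _ (Finset.mem_univ (1 : Subgroup.center ↥(P : Subgroup G)))] at hone
  have h1 : (ψ : G → ℂ) (ι 1) / (ψ : G → ℂ) 1 = 1 := by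
    rw [map_one]
    exact div_self hψ0
  rw [h1] at hone
  have h2 : MemLocalIdeal M (∑ z ∈ Finset.univ.erase (1 : Subgroup.center ↥(P : Subgroup G)),
      (ψ : G → ℂ) (ι z) / (ψ : G → ℂ) 1) :=
    memLocalIdeal_sum _ _ fun z hz => hloc z (Finset.ne_of_mem_erase hz)
  have h3 := memLocalIdeal_pow_mul_div hM (m := m) hd0 hlt
  rw [← hone] at h3
  have h4 := memLocalIdeal_sub h3 h2
  rw [add_sub_cancel_right] at h4
  exact not_memLocalIdeal_one h4

/-- Let p be a prime, M a maximal ideal of the algebraic integers containing p, and G a finite group with trivial centre, Sylow p-subgroup P of order p^a and centre Z(P) of order p^b. If χ is a faithful irreducible character of G whose degree is a power of p, then the p-block of χ has defect at most a − b; in particular, if P is abelian then χ lies in a block of defect zero. -/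
theorem result {G : Type*} [Group G] [Finite G] (p : ℕ) [Fact p.Prime] (M : Ideal Cfsg.AlgInt) (hM : Cfsg.IsPModular p M) (hZ : Subgroup.center G = ⊥) (P : Sylow p G) (a b : ℕ) (ha : Nat.card P = p ^ a) (hb : Nat.card (Subgroup.center ↥(P : Subgroup G)) = p ^ b) (χ : Cfsg.IrrCharacter G) (hfaith : ∀ g : G, (χ : G → ℂ) g = (χ : G → ℂ) 1 → g = 1) (n : ℕ) (hdeg : Cfsg.charDegree (χ : G → ℂ) = p ^ n) : Cfsg.blockDefect p (Cfsg.blockOf M (χ : G → ℂ)) ≤ a - b ∧ (IsMulCommutative ↥(P : Subgroup G) → Cfsg.blockDefect p (Cfsg.blockOf M (χ : G → ℂ)) = 0) := by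

  classical
  have := isPModular_isPrime hM
  have hp : p.Prime := isPModular_prime hM
  have := Fintype.ofFinite G
  have hab : blockDefect p (blockOf M (χ : G → ℂ)) ≤ a - b := by
    obtain ⟨χ₀, h₀, h₁, -⟩ := exists_min_height (isPBlock_blockOf (M := M) χ) hM
    unfold blockDefect
    rw [← h₁]
    have h2 := val_ge hM hZ P b hb χ hfaith n hdeg χ₀ h₀
    have h3 : (Nat.card G).factorization p = a := by
      have := P.card_eq_multiplicity
      rw [ha] at this
      exact (Nat.pow_right_injective hp.two_le this).symm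
    omega
  refine ⟨hab, fun hc => ?_⟩
  have htop : Subgroup.center ↥(P : Subgroup G) = ⊤ := by
    rw [Subgroup.eq_top_iff']
    intro x
    rw [Subgroup.mem_center_iff]
    intro g
    exact hc.is_comm.comm g x
  rw [htop] at hb
  have h4 : Nat.card (⊤ : Subgroup ↥(P : Subgroup G)) = Nat.card P := Nat.card_congr Subgroup.topEquiv.toEquiv
  rw [h4, ha] at hb
  have h5 : a = b := Nat.pow_right_injective hp.two_le hb
  have h6 : a - b = 0 := by omega
  omega

end Cfsg.Agent.S4730
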