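import Cfsg.Statements.S4725
import Mathlib
import Cfsg.Agent.S4730
import Cfsg.Agent.Lib.CharExtra.PRegInd

set_option autoImplicit false
open Cfsg
open Cfsg.Agent.Lib.Block Cfsg.Agent.Lib.CharExtra Cfsg.Agent.Lib.Char

namespace Cfsg.Agent.S4725

/-- Let p be a prime, M a maximal ideal of the algebraic integers containing p, H a subgroup of the finite group G, and b a p-block of H inducing the p-block B of G, with b and B of the same defect. Then for every height-zero ζ ∈ b there is a height-zero χ ∈ B whose multiplicity in the character induced from ζ is not divisible by p. -/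
theorem result {G : Type*} [Group G] [Fintype G] (p : ℕ) [Fact p.Prime] (M : Ideal Cfsg.AlgInt) (hM : Cfsg.IsPModular p M) (H : Subgroup G) (b : Set (Cfsg.IrrCharacter ↥H)) (B : Set (Cfsg.IrrCharacter G)) (hind : Cfsg.IsInducedBlock M H b B) (hdef : Cfsg.blockDefect p b = Cfsg.blockDefect p B) (ζ : Cfsg.IrrCharacter ↥H) (hζ : ζ ∈ b) (hζ0 : Cfsg.blockHeight p b (ζ : ↥H → ℂ) = 0) : ∃ χ ∈ B, Cfsg.blockHeight p B (χ : G → ℂ) = 0 ∧ ∃ a : ℕ, Cfsg.classInner (Cfsg.indFun H (ζ : ↥H → ℂ)) (χ : G → ℂ) = (a : ℂ) ∧ ¬ p ∣ a := by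

  classical
  have := isPModular_isPrime hM
  have hp : p.Prime := Fact.out
  have : Fintype H := Fintype.ofFinite H
  obtain ⟨hb, hB, hcong⟩ := hind
  by_contra hcon
  push Not at hcon
  have hF : IsCharacter G (indFun H (ζ : H → ℂ)) := indFun_isCharacter H (IsIrrCharacter.isCharacter ζ.2)
  obtain ⟨χ₀, h₀⟩ := IsPBlock_nonempty hB
  have hω : MemLocalIdeal M (om (ζ : H → ℂ) (resAlg H (blockElt B)) - 1) := by
    have h1 := memLocalIdeal_om_resAlg_sub H (M := M) (ξ := (ζ : H → ℂ)) (χ := (χ₀ : G → ℂ))
      (IsCharacter.isClassFunction (IsIrrCharacter.isCharacter χ₀.2)) (hcong ζ hζ χ₀ h₀)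
      (isCentralElt_blockElt B) (localCoeff_blockElt (isBlockUnion_of_isPBlock hB))
    rwa [om_blockElt_of_mem h₀] at h1
  -- the degree of the induced character
  have hdeg : charDegree (indFun H (ζ : H → ℂ)) = H.index * charDegree (ζ : H → ℂ) := by
    apply charDegree_natCast
    rw [indFun_one]
    push_cast
    rw [map_one_eq_charDegree (IsIrrCharacter.isCharacter ζ.2)]
  have hζd : charDegree (ζ : H → ℂ) ≠ 0 := charDegree_ne_zero
  have hidx0 : H.index ≠ 0 := Subgroup.index_ne_zero_of_finite
  have hD0 : charDegree (indFun H (ζ : H → ℂ)) ≠ 0 := by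
    rw [hdeg]
    exact mul_ne_zero hidx0 hζd
  have hv : (charDegree (indFun H (ζ : H → ℂ))).factorization p = minExp p B := by
    have h1 := Subgroup.index_mul_card H
    have h2 : (Nat.card G).factorization p = H.index.factorization p + (Nat.card H).factorization p := by
      rw [← h1, Nat.factorization_mul hidx0 Nat.card_pos.ne']
      rfl
    have h3 : (charDegree (indFun H (ζ : H → ℂ))).factorization p =
        H.index.factorization p + (charDegree (ζ : H → ℂ)).factorization p := by
      rw [hdeg, Nat.factorization_mul hidx0 hζd]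
      rfl
    have h4 := factorization_eq_minExp_of_height hζ hζ0
    have h5 := minExp_le_factorization_card (p := p) (IsPBlock_nonempty hb)
    have h6 := minExp_le_factorization_card (p := p) (IsPBlock_nonempty hB)
    have h7 : (Nat.card H).factorization p - minExp p b = (Nat.card G).factorization p - minExp p B := hdef
    omega
  -- the sum
  have hterm : ∀ χ : IrrCharacter G, ∃ s : ℕ, (if χ ∈ B then
      @classInner G _ (Fintype.ofFinite G) (indFun H (ζ : H → ℂ)) (χ : G → ℂ) * (χ : G → ℂ) 1 else 0) =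
        ((p ^ (minExp p B + 1) * s : ℕ) : ℂ) := by
    intro χ
    split_ifs with hχ
    · obtain ⟨a, ha⟩ := classInner_isCharacter_nat hF (IsIrrCharacter.isCharacter χ.2)
      rw [classInner_fintype_irrel (Fintype.ofFinite G) ‹_›, ha, map_one_eq_charDegree (IsIrrCharacter.isCharacter χ.2)]
      have hdvd : p ^ (minExp p B + 1) ∣ a * charDegree (χ : G → ℂ) := by
        by_cases h0 : blockHeight p B (χ : G → ℂ) = 0
        · have h1 := hcon χ hχ h0 a ha
          have h2 := factorization_eq_minExp_of_height hχ h0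
          rw [pow_succ, mul_comm]
          refine mul_dvd_mul h1 ?_
          rw [← h2]
          exact Nat.ordProj_dvd _ _
        · have h1 := minExp_le (p := p) hχ
          have h2 : minExp p B + 1 ≤ (charDegree (χ : G → ℂ)).factorization p := by
            unfold blockHeight at h0
            have : minExp p B = sInf ((fun χ : IrrCharacter G => (charDegree (χ : G → ℂ)).factorization p) '' B) := rfl
            omega
          exact ((Nat.Prime.pow_dvd_iff_le_factorization hp charDegree_ne_zero).mpr h2).trans (dvd_mul_left _ _)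
      obtain ⟨s, hs⟩ := hdvd
      refine ⟨s, ?_⟩
      rw [← hs]
      push_cast
      rfl
    · exact ⟨0, by simp⟩
  choose s hs using hterm
  have hpart : blockPart B (indFun H (ζ : H → ℂ)) 1 = ((p ^ (minExp p B + 1) * ∑ χ, s χ : ℕ) : ℂ) := by
    show ∑ᶠ χ ∈ B, @classInner G _ (Fintype.ofFinite G) (indFun H (ζ : H → ℂ)) (χ : G → ℂ) * (χ : G → ℂ) 1 = _
    rw [finsum_mem_irr, Finset.mul_sum]
    push_cast
    refine Finset.sum_congr rfl fun χ _ => ?_
    rw [hs χ]
    push_cast
    rfl
  have hω' : om (ζ : H → ℂ) (resAlg H (blockElt B)) =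
      ((p ^ (minExp p B + 1) * ∑ χ, s χ : ℕ) : ℂ) / (charDegree (indFun H (ζ : H → ℂ)) : ℂ) := by
    rw [← hpart, blockPart_indFun_one H B ζ]
    have : (charDegree (indFun H (ζ : H → ℂ)) : ℂ) ≠ 0 := by exact_mod_cast hD0
    field_simp
  have h8 := Cfsg.Agent.S4730.memLocalIdeal_pow_mul_div hM (m := ∑ χ, s χ) hD0 (b := minExp p B + 1) (by omega)
  rw [← hω'] at h8
  have h9 := memLocalIdeal_sub h8 hω
  rw [sub_sub_cancel] at h9
  exact not_memLocalIdeal_one h9

end Cfsg.Agent.S4725
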