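import Cfsg.Statements.S4726
import Mathlib
import Cfsg.Agent.Lib.BPair.Corr
import Cfsg.Agent.Lib.BPair.Induced
import Cfsg.Agent.Lib.BPair.Inertial
import Cfsg.Agent.Lib.BPair.Defect

set_option autoImplicit false
open Cfsg

namespace Cfsg.Agent.S4726


open Cfsg.Agent.Lib.Block Cfsg.Agent.Lib.Char Cfsg.Agent.Lib.BPair Cfsg.Agent.Lib.CharExtra

attribute [local instance] Cfsg.Agent.Lib.BPair.subFintype

section

variable {G : Type*} [Group G] [Fintype G] {M : Ideal Cfsg.AlgInt} [hMp : M.IsPrime] {p : ℕ} [hp : Fact p.Prime]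
  {L : Subgroup G} {S : Subgroup L}

/-- A block with a pair whose centralizer lies in `L` induces the block of the lifted pair. -/
theorem induced_of_pair (hM : Cfsg.IsPModular p M) {b : Set (Cfsg.IrrCharacter L)}
    {s : Set (Cfsg.IrrCharacter (Cen S))} (hs : Cfsg.IsBrauerPairOf p M b S s) (hC : Cen (up S) ≤ L)
    {B : Set (Cfsg.IrrCharacter G)} (hB : Cfsg.IsBrauerPairOf p M B (up S) (mapBlock (cenIso S hC) s)) :
    Cfsg.IsInducedBlock M L b B := by
  obtain ⟨hSs, hb, -⟩ := isBrauerPairOf_iff.1 hs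
  obtain ⟨-, hB', -⟩ := isBrauerPairOf_iff.1 hB
  refine ⟨hb, hB', fun θ hθ χ hχ g => ?_⟩
  obtain ⟨ξ, hξ⟩ := IsPBlock_nonempty hSs.2
  have hξ' : mapIrr (cenIso S hC) ξ ∈ mapBlock (cenIso S hC) s := mapIrr_mem_mapBlock.2 hξ
  have hzc := isCentralElt_classSum g
  have hzl : LocalCoeff M (classSum g) := Cfsg.Agent.Lib.Block.localCoeff_classSum g
  have h1 := om_resAlg_congr hM hB hξ' hχ hzc hzl
  rw [om_res_res hC, mapIrr_symm_mapIrr,
    om_classSum (IsCharacter.isClassFunction (IsIrrCharacter.isCharacter χ.2))] at h1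
  have h2 := om_resAlg_congr hM hs hξ hθ (isCentralElt_resAlg L hzc) (localCoeff_resAlg _ hzl)
  rw [om_resAlg_classSum'] at h2
  have h3 := memLocalIdeal_sub h1 h2
  convert h3 using 1
  ring

/-- A lifted normal inclusion stays in the subgroup only at a maximal pair. -/
theorem eq_of_normal_up (hM : Cfsg.IsPModular p M) {b : Set (Cfsg.IrrCharacter L)}
    {s : Set (Cfsg.IrrCharacter (Cen S))} (hmax : Cfsg.IsMaximalBrauerPair p M b S s) (hC : Cen (up S) ≤ L)
    {R₀ : Subgroup G} {g₀ : Set (Cfsg.IrrCharacter (Cen R₀))} (hle : up S ≤ R₀) (hR₀L : R₀ ≤ L)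
    (hn : Cfsg.IsNormalSubpair p M (up S) (mapBlock (cenIso S hC) s) R₀ g₀) : R₀ ≤ up S := by
  obtain ⟨R₁, rfl⟩ : ∃ R₁ : Subgroup L, up R₁ = R₀ := ⟨R₀.subgroupOf L, Subgroup.map_subgroupOf_eq_of_le hR₀L⟩
  have hC' : Cen (up R₁) ≤ L := (cen_le_cen hle).trans hC
  have hn' := isNormalSubpair_down hC hC' hn
  have hpairR := isBrauerPairOf_of_normal_up hM hn' hmax.1
  have heq := hmax.2 _ _ hpairR (Relation.ReflTransGen.single hn')
  rw [heq]

end

/-- Let p be a prime, M a maximal ideal of the algebraic integers containing p, H a subgroup of the finite group G and b a p-block of H with defect group D₀ such that C_G(D₀) ≤ H. Then b induces a block of G, and for every block B of G induced by b there is a defect group D of B with Z(D) ≤ Z(D₀) ≤ D₀ ≤ D (as subgroups of G). In particular, if the defect groups of B are abelian then D₀ is a defect group of B. -/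
theorem result {G : Type*} [Group G] [Finite G] (p : ℕ) [Fact p.Prime] (M : Ideal Cfsg.AlgInt) (hM : Cfsg.IsPModular p M) (H : Subgroup G) (b : Set (Cfsg.IrrCharacter ↥H)) (hb : Cfsg.IsPBlock M b) (D₀ : Subgroup ↥H) (hD₀ : Cfsg.IsDefectGroup p M b D₀) (hC : Subgroup.centralizer ((D₀.map H.subtype : Subgroup G) : Set G) ≤ H) : Cfsg.InducedBlockDefined M H b ∧ ∀ B : Set (Cfsg.IrrCharacter G), Cfsg.IsInducedBlock M H b B → (∃ D : Subgroup G, Cfsg.IsDefectGroup p M B D ∧ (Subgroup.center ↥D).map D.subtype ≤ ((Subgroup.center ↥D₀).map D₀.subtype).map H.subtype ∧ ((Subgroup.center ↥D₀).map D₀.subtype).map H.subtype ≤ D₀.map H.subtype ∧ D₀.map H.subtype ≤ D) ∧ (∀ D : Subgroup G, Cfsg.IsDefectGroup p M B D → IsMulCommutative ↥D → Cfsg.IsDefectGroup p M B (D₀.map H.subtype)) := by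
  classical
  haveI := Fintype.ofFinite G
  haveI : M.IsPrime := hM.2.1.isPrime
  obtain ⟨s, hs⟩ := exists_pair_on_defect hM hD₀ hb
  have hmaxb := isMaximal_of_defect hM hD₀ hs
  have hpg : IsPGroup p (up D₀) := (isPGroup_of_isDefectGroup hD₀).map H.subtype
  have hC' : Cen (up D₀) ≤ H := hC
  have hbr : Cfsg.IsBrauerPair p M (up D₀) (mapBlock (cenIso D₀ hC') s) :=
    ⟨hpg, isPBlock_mapBlock _ (isBrauerPairOf_iff.1 hs).1.2⟩
  obtain ⟨B₀, hB₀, -⟩ := existsUnique_block_of_pair hM hbr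
  refine ⟨⟨B₀, induced_of_pair hM hs hC' hB₀⟩, fun B hB => ?_⟩
  have hup := isBrauerPairOf_up hM hB hC' hs hpg
  obtain ⟨D, e, hmax, hle⟩ := exists_max_above hM _ _ _ rfl hup
  have hDdef := isDefectGroup_of_max hM hmax
  have hSD : up D₀ ≤ D := le_of_subpairLE hle
  have hDe := (isBrauerPairOf_iff.1 hmax.1).1
  -- the centre of `D` lies in `D₀`
  have hZ : (Subgroup.center D).map D.subtype ≤ up D₀ := by
    have hZC : (Subgroup.center D).map D.subtype ≤ Cen (up D₀) := by
      rintro _ ⟨z, hz, rfl⟩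
      rw [Subgroup.mem_centralizer_iff]
      intro u hu
      have h1 := (Subgroup.mem_center_iff.1 hz) ⟨u, hSD hu⟩
      exact congrArg Subtype.val h1
    have hRD : up D₀ ⊔ (Subgroup.center D).map D.subtype ≤ D :=
      sup_le hSD (Subgroup.map_subtype_le _)
    obtain ⟨g₀, ⟨hg₀, hg₀le⟩, -⟩ := existsUnique_subpair hM hDe hRD
    have hcn : Cen (up D₀) ≤ Subgroup.normalizer ((up D₀ : Subgroup G) : Set G) := cen_le_normalizer _
    have hn := isNormalSubpair_of_le hM hDe hle hg₀le le_sup_left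
      (sup_le Subgroup.le_normalizer (hZC.trans hcn))
    have hRH : up D₀ ⊔ (Subgroup.center D).map D.subtype ≤ H :=
      sup_le (Subgroup.map_subtype_le _) (hZC.trans hC')
    exact le_sup_right.trans (eq_of_normal_up hM hmaxb hC' le_sup_left hRH hn)
  refine ⟨⟨D, hDdef, ?_, ?_, hSD⟩, fun D' hD' hab => ?_⟩
  · intro z hz
    obtain ⟨d, hd, hdz⟩ := hZ hz
    have hd0 : (⟨d, hd⟩ : D₀) ∈ Subgroup.center D₀ := by
      rw [Subgroup.mem_center_iff]
      intro u
      apply Subtype.ext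
      apply Subtype.ext
      obtain ⟨z', hz', e'⟩ := hz
      have h1 := (Subgroup.mem_center_iff.1 hz') ⟨((u : H) : G), hSD ⟨(u : H), u.2, rfl⟩⟩
      have h2 := congrArg Subtype.val h1
      simp only [Subgroup.coe_mul] at h2
      have e2 : (z' : G) = (d : G) := e'.trans hdz.symm
      rw [e2] at h2
      exact h2
    exact ⟨d, ⟨⟨d, hd⟩, hd0, rfl⟩, hdz⟩
  · rintro _ ⟨h, ⟨d, hd, rfl⟩, rfl⟩
    exact ⟨(d : H), d.2, rfl⟩
  · obtain ⟨x, hx⟩ := exists_conj_le_defect hM hmax.1 hD'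
    have hDZ : D ≤ (Subgroup.center D).map D.subtype := by
      intro z hz
      refine ⟨⟨z, hz⟩, ?_, rfl⟩
      show (⟨z, hz⟩ : D) ∈ Subgroup.center D
      rw [Subgroup.mem_center_iff]
      intro u
      apply Subtype.ext
      have h1 := mem_cj.1 (hx hz)
      have h2 := mem_cj.1 (hx u.2)
      have h3 := hab.is_comm.comm (⟨_, h2⟩ : D') (⟨_, h1⟩ : D')
      have h4 := congrArg Subtype.val h3
      simp only [Subgroup.coe_mul] at h4
      have h5 : x⁻¹ * (u : G) * x * (x⁻¹ * z * x) = x⁻¹ * ((u : G) * z) * x := by group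
      have h6 : x⁻¹ * z * x * (x⁻¹ * (u : G) * x) = x⁻¹ * (z * (u : G)) * x := by group
      rw [h5, h6] at h4
      have h7 := mul_left_cancel (mul_right_cancel h4)
      exact h7
    have hEq : D = D₀.map H.subtype := le_antisymm (hDZ.trans hZ) hSD
    rw [← hEq]
    exact hDdef

end Cfsg.Agent.S4726
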