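import Cfsg.Statements.S4727
import Mathlib
import Cfsg.Agent.Lib.Degree.PiKer
import Cfsg.Agent.Lib.Block.Principal

set_option autoImplicit false
open Cfsg

namespace Cfsg.Agent.S4727


open Cfsg.Agent.Lib.Block Cfsg.Agent.Lib.Char Cfsg.Agent.Lib.BPair Cfsg.Agent.Lib.Degree

attribute [local instance] Cfsg.Agent.Lib.BPair.subFintype

open Classical in
/-- The section formula for a union of blocks. -/
theorem irr_section_block {G : Type*} [Group G] [Fintype G] {p : ℕ} [Fact p.Prime] {M : Ideal Cfsg.AlgInt}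
    (hM : Cfsg.IsPModular p M) {B : Set (Cfsg.IrrCharacter G)} (hB : IsBlockUnion M B) {u : G}
    (hu : ∃ k, orderOf u = p ^ k)
    (y : Subgroup.centralizer ({u} : Set G)) (hy : ¬ p ∣ orderOf y)
    (χ : Cfsg.IrrCharacter G) (hχ : χ ∈ B) :
    (χ : G → ℂ) (u * y) = ∑ ξ : Cfsg.IrrCharacter (Subgroup.centralizer ({u} : Set G)),
      if ξ ∈ indSet M (Subgroup.centralizer ({u} : Set G)) B then
        Cfsg.classInner (fun c : Subgroup.centralizer ({u} : Set G) => (χ : G → ℂ) (u * c))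
          (ξ : Subgroup.centralizer ({u} : Set G) → ℂ) * (ξ : Subgroup.centralizer ({u} : Set G) → ℂ) y else 0 := by
  have := isPModular_isPrime hM
  have h1 := tr_irr_section hM hB hu y hy χ
  rw [tr_mul_central χ.2 (isCentralElt_blockElt _), om_blockElt_of_mem hχ, one_mul, tr_single, one_mul,
    tr_blockElt_mul _ (isClassFunction_section _ (IsCharacter.isClassFunction (IsIrrCharacter.isCharacter χ.2)))] at h1
  rw [h1]
  refine Finset.sum_congr rfl fun ξ _ => ?_
  rw [tr_single, one_mul]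

/-- Members of `indSet` at a centralizer of a `p`-subgroup give Brauer pairs of the block. -/
theorem isBrauerPairOf_of_indSet {G : Type*} [Group G] [Fintype G] {p : ℕ} [Fact p.Prime] {M : Ideal Cfsg.AlgInt}
    [M.IsPrime] {B : Set (Cfsg.IrrCharacter G)} (hB : Cfsg.IsPBlock M B) {Q : Subgroup G} (hQ : IsPGroup p Q)
    (ξ : Cfsg.IrrCharacter (Cen Q)) (hξ : ξ ∈ indSet M (Cen Q) B) :
    Cfsg.IsBrauerPairOf p M B Q (Cfsg.blockOf M (ξ : Cen Q → ℂ)) := by
  refine isBrauerPairOf_of_induced hQ ⟨isPBlock_blockOf ξ, hB, fun θ hθ χ hχ g => ?_⟩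
  obtain ⟨χ', hχ', hc⟩ := hξ
  exact memLocalIdeal_sub_trans
    (memLocalIdeal_induced_sub_of_sameBlock θ.2 ξ.2 (sameBlock_symm hθ) g)
    (memLocalIdeal_sub_trans (hc g) (sameBlock_of_mem hB hχ' hχ g))

/-- The kernel property for members of `indSet`. -/
theorem ker_of_indSet {G : Type*} [Group G] [Fintype G] {p : ℕ} [Fact p.Prime] {M : Ideal Cfsg.AlgInt}
    [M.IsPrime] {π' : Set ℕ} {B : Set (Cfsg.IrrCharacter G)} (hB : Cfsg.IsPBlock M B)
    (hall : ∀ {Q : Subgroup G} {f : Set (Cfsg.IrrCharacter (Cen Q))}, Cfsg.IsBrauerPairOf p M B Q f → PiKerProp π' Q f)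
    {Q C' : Subgroup G} (hQ : IsPGroup p Q) (hC' : C' = Cen Q)
    (ξ : Cfsg.IrrCharacter C') (hξ : ξ ∈ indSet M C' B) (x : C') (hx : x ∈ Cfsg.piCore π' C') :
    (ξ : C' → ℂ) x = (ξ : C' → ℂ) 1 := by
  subst hC'
  exact hall (isBrauerPairOf_of_indSet hB hQ ξ hξ) x hx ξ (mem_blockOf_self ξ)

/-- Let p be a prime, π a set of primes containing p, M a maximal ideal of the algebraic integers containing p, and B a p-block of the finite group G with defect group D; let B₁ be the block of N_G(D) with defect group D that induces B (the Brauer correspondent of B). Suppose every element of O_π'(N_G(D)), the largest normal subgroup of N_G(D) whose order has no prime divisor in π, lies in the kernel of every member of B₁. If y is a p-element whose centralizer C has a normal Hall π'-subgroup (every element of C whose order has no prime divisor in π lies in O_π'(C)), then χ(y x) = χ(y) for every χ ∈ B and every x ∈ C whose order has no prime divisor in π. -/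
theorem result {G : Type*} [Group G] [Finite G] (p : ℕ) [Fact p.Prime] (M : Ideal Cfsg.AlgInt) (hM : Cfsg.IsPModular p M) (π : Set ℕ) (hpπ : p ∈ π) (B : Set (Cfsg.IrrCharacter G)) (hB : Cfsg.IsPBlock M B) (D : Subgroup G) (hBD : Cfsg.IsDefectGroup p M B D) (B₁ : Set (Cfsg.IrrCharacter ↥(Subgroup.normalizer (D : Set G)))) (hB₁ : Cfsg.IsInducedBlock M (Subgroup.normalizer (D : Set G)) B₁ B) (hB₁D : Cfsg.IsDefectGroup p M B₁ (D.subgroupOf (Subgroup.normalizer (D : Set G)))) (hker : ∀ n : ↥(Subgroup.normalizer (D : Set G)), n ∈ Cfsg.piCore {q | q ∉ π} ↥(Subgroup.normalizer (D : Set G)) → n ∈ Cfsg.blockKer B₁) (y : G) (hy : ∃ k : ℕ, orderOf y = p ^ k) (hC : ∀ x : ↥(Subgroup.centralizer ({y} : Set G)), (∀ q : ℕ, q.Prime → q ∣ orderOf x → q ∉ π) → x ∈ Cfsg.piCore {q | q ∉ π} ↥(Subgroup.centralizer ({y} : Set G))) : ∀ χ ∈ B, ∀ x : G, x ∈ Subgroup.centralizer ({y} : Set G) → (∀ q : ℕ, q.Prime → q ∣ orderOf x → q ∉ π) → (χ : G → ℂ) (y * x) = (χ : G → ℂ) y := by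
  classical
  haveI := Fintype.ofFinite G
  haveI : M.IsPrime := hM.2.1.isPrime
  intro χ hχ x hx hxq
  have hp' : p ∉ {q | q ∉ π} := by simpa using hpπ
  have hBU := isBlockUnion_of_isPBlock hB
  have hall : ∀ {Q : Subgroup G} {f : Set (Cfsg.IrrCharacter (Cen Q))}, Cfsg.IsBrauerPairOf p M B Q f →
      PiKerProp {q | q ∉ π} Q f := fun h => piKer_all_pairs hM hp' hBD hB₁ hB₁D hker h
  let x' : Subgroup.centralizer ({y} : Set G) := ⟨x, hx⟩
  have hord : orderOf x' = orderOf x := Subgroup.orderOf_mk _ _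
  have hxreg : ¬ p ∣ orderOf x' := by
    rw [hord]
    intro hd
    exact hxq p (Fact.out) hd hpπ
  have hxm : x' ∈ Cfsg.piCore {q | q ∉ π} (Subgroup.centralizer ({y} : Set G)) := by
    apply hC
    rw [hord]
    exact hxq
  have h1 := irr_section_block hM hBU hy x' hxreg χ hχ
  have h2 := irr_section_block hM hBU hy (1 : Subgroup.centralizer ({y} : Set G)) (by
    rw [orderOf_one]
    exact fun hd => (Fact.out : p.Prime).one_lt.ne' (Nat.dvd_one.mp hd)) χ hχ
  have e1 : (χ : G → ℂ) (y * x) = (χ : G → ℂ) (y * ((1 : Subgroup.centralizer ({y} : Set G)) : G)) := by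
    show (χ : G → ℂ) (y * (x' : G)) = _
    rw [h1, h2]
    refine Finset.sum_congr rfl fun ξ _ => ?_
    split_ifs with hξ
    · rw [ker_of_indSet hB hall (isPGroup_zpowers_of_orderOf (p := p) hy) (centralizer_zpowers_eq y).symm ξ hξ x' hxm]
    · rfl
  rw [e1]
  simp

end Cfsg.Agent.S4727
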