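import Cfsg.Statements.S4728
import Mathlib
import Cfsg.Agent.Lib.Degree.PiKerUp
import Cfsg.Agent.Lib.Block.CentralDefect
import Cfsg.Agent.Lib.Block.Cover
import Cfsg.Agent.Lib.Block.FirstMain

set_option autoImplicit false
open Cfsg

namespace Cfsg.Agent.S4728


open Cfsg.Agent.Lib.Block Cfsg.Agent.Lib.Char Cfsg.Agent.Lib.BPair Cfsg.Agent.Lib.Degree

attribute [local instance] Cfsg.Agent.Lib.BPair.subFintype

theorem cen_le_nor {G : Type*} [Group G] (D : Subgroup G) : Cen D ≤ Subgroup.normalizer (D : Set G) := by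
  intro c hc
  rw [Subgroup.mem_normalizer_iff]
  intro h
  constructor
  · intro hh
    have h1 := Subgroup.mem_centralizer_iff.1 hc h hh
    have e : c * h * c⁻¹ = h := by
      rw [← h1]
      group
    rwa [e]
  · intro hh
    have h2 := Subgroup.mem_centralizer_iff.1 hc _ hh
    have e : h = c * h * c⁻¹ := by
      have h3 : c * h = c * (c * h * c⁻¹) := by
        calc c * h = (c * h * c⁻¹) * c := by group
          _ = c * (c * h * c⁻¹) := h2
      exact mul_left_cancel h3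
    rwa [e]

/-- Let p be a prime, π a set of primes containing p, M a maximal ideal of the algebraic integers containing p, B a p-block of the finite group G with defect group D, and B₁ the block of N_G(D) with defect group D inducing B. Let D₀ be a p-subgroup, H₀ = D₀·C_G(D₀), and b a block of H₀ inducing B. Write O_π'(X) for the largest normal subgroup of X whose order has no prime divisor in π. Suppose that O_π'(C_G(D₀)) is a normal Hall π'-subgroup of C_G(D₀) (it contains every element of C_G(D₀) whose order has no prime divisor in π) and that every element of it lies in the kernel of every member of b. Then every element of O_π'(N_G(D)) lies in the kernel of every member of B₁. -/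
theorem result {G : Type*} [Group G] [Finite G] (p : ℕ) [Fact p.Prime] (M : Ideal Cfsg.AlgInt) (hM : Cfsg.IsPModular p M) (π : Set ℕ) (hpπ : p ∈ π) (B : Set (Cfsg.IrrCharacter G)) (hB : Cfsg.IsPBlock M B) (D : Subgroup G) (hBD : Cfsg.IsDefectGroup p M B D) (B₁ : Set (Cfsg.IrrCharacter ↥(Subgroup.normalizer (D : Set G)))) (hB₁ : Cfsg.IsInducedBlock M (Subgroup.normalizer (D : Set G)) B₁ B) (hB₁D : Cfsg.IsDefectGroup p M B₁ (D.subgroupOf (Subgroup.normalizer (D : Set G)))) (D₀ : Subgroup G) (hD₀ : IsPGroup p D₀) (H₀ : Subgroup G) (hH₀ : H₀ = D₀ ⊔ Subgroup.centralizer (D₀ : Set G)) (b : Set (Cfsg.IrrCharacter ↥H₀)) (hb : Cfsg.IsInducedBlock M H₀ b B) (hcompl : ∀ x : ↥(Subgroup.centralizer (D₀ : Set G)), (∀ q : ℕ, q.Prime → q ∣ orderOf x → q ∉ π) → x ∈ Cfsg.piCore {q | q ∉ π} ↥(Subgroup.centralizer (D₀ : Set G))) (hkerb : ∀ x : ↥(Subgroup.centralizer (D₀ : Set G)), x ∈ Cfsg.piCore {q | q ∉ π} ↥(Subgroup.centralizer (D₀ : Set G)) → ∀ θ ∈ b, ∀ h : ↥H₀, (h :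 G) = (x : G) → (θ : ↥H₀ → ℂ) h = (θ : ↥H₀ → ℂ) 1) : ∀ n : ↥(Subgroup.normalizer (D : Set G)), n ∈ Cfsg.piCore {q | q ∉ π} ↥(Subgroup.normalizer (D : Set G)) → n ∈ Cfsg.blockKer B₁ := by
  classical
  haveI := Fintype.ofFinite G
  haveI : M.IsPrime := hM.2.1.isPrime
  have hp' : p ∉ {q | q ∉ π} := by simpa using hpπ
  have hD₀H : D₀ ≤ H₀ := hH₀ ▸ le_sup_left
  have hCH : Cen D₀ ≤ H₀ := hH₀ ▸ le_sup_right
  have hHN : H₀ ≤ Subgroup.normalizer (D₀ : Set G) :=
    hH₀.le.trans (sup_le Subgroup.le_normalizer (cen_le_nor D₀))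
  let S : Subgroup H₀ := D₀.subgroupOf H₀
  haveI hSN : S.Normal := by
    constructor
    intro n hn g
    rw [Subgroup.mem_subgroupOf] at hn ⊢
    exact (Subgroup.mem_normalizer_iff.1 (hHN g.2) _).1 hn
  have hSp : IsPGroup p S := hD₀.comap_of_injective H₀.subtype H₀.subtype_injective
  obtain ⟨D₁, hD₁⟩ := Cfsg.Agent.Lib.CharExtra.exists_isDefectGroup hM hb.1
  obtain ⟨f₁, hf₁⟩ := exists_pair_on_defect hM hD₁ hb.1
  obtain ⟨c, hc, hcu⟩ := exists_coeff_of_pair hf₁
  have hSD₁ : S ≤ D₁ := normal_le_defect hM hSp hb.1 hD₁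
  obtain ⟨s, hs⟩ := exists_pair_of_coeff hM hb.1 hSp (cen_le_cen hSD₁ hc) hcu
  have hsup : S ⊔ Subgroup.centralizer (S : Set H₀) = ⊤ := by
    rw [eq_top_iff]
    intro h _
    have hle : H₀ ≤ (S ⊔ Subgroup.centralizer (S : Set H₀)).map H₀.subtype := by
      refine hH₀.le.trans (sup_le ?_ ?_)
      · intro x hx
        exact ⟨⟨x, hD₀H hx⟩, Subgroup.mem_sup_left (Subgroup.mem_subgroupOf.2 hx), rfl⟩
      · intro x hx
        refine ⟨⟨x, hCH hx⟩, Subgroup.mem_sup_right ?_, rfl⟩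
        rw [Subgroup.mem_centralizer_iff]
        intro u hu
        apply Subtype.ext
        exact Subgroup.mem_centralizer_iff.1 hx u (Subgroup.mem_subgroupOf.1 hu)
    obtain ⟨h', hh', e⟩ := hle h.2
    have : h' = h := Subtype.ext e
    rwa [← this]
  have hidx := exists_index_centralizer hsup hSp
  have hregC : ∀ n : H₀, ¬ p ∣ orderOf n → (n : G) ∈ Cen D₀ := by
    intro n hn
    have h1 : n ∈ Subgroup.centralizer (S : Set H₀) := mem_of_regular_of_index _ hidx hn
    rw [Subgroup.mem_centralizer_iff]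
    intro d hd
    have h2 := Subgroup.mem_centralizer_iff.1 h1 ⟨d, hD₀H hd⟩ (Subgroup.mem_subgroupOf.2 hd)
    exact congrArg Subtype.val h2
  have hkerH : ∀ n ∈ Cfsg.piCore {q | q ∉ π} H₀, ∀ θ ∈ b, (θ : H₀ → ℂ) n = (θ : H₀ → ℂ) 1 := by
    intro n hn θ hθ
    have hprimes : ∀ q : ℕ, q.Prime → q ∣ orderOf n → q ∉ π := by
      have h1 := orderOf_dvd_natCard (⟨n, hn⟩ : Cfsg.piCore {q | q ∉ π} H₀)
      rw [Subgroup.orderOf_mk] at h1
      intro q hq hd
      exact piCore_primes _ q hq (hd.trans h1)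
    have hnreg : ¬ p ∣ orderOf n := fun hd => hprimes p Fact.out hd hpπ
    have hnC := hregC n hnreg
    have hprimes' : ∀ q : ℕ, q.Prime → q ∣ orderOf (⟨n, hnC⟩ : Subgroup.centralizer (D₀ : Set G)) → q ∉ π := by
      rw [Subgroup.orderOf_mk, Subgroup.orderOf_coe]
      exact hprimes
    exact hkerb ⟨n, hnC⟩ (hcompl _ hprimes') θ hθ n rfl
  have hp0 := piKer_of_normal_pair hM hp' hSN hs hkerH
  have hupS : up S = D₀ := Subgroup.map_subgroupOf_eq_of_le hD₀H
  have hCL : Cen (up S) ≤ H₀ := by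
    rw [hupS]
    exact hCH
  have hq := isBrauerPairOf_up hM hb hCL hs (by rw [hupS]; exact hD₀)
  have hq0 := piKer_mapBlock' (cenIso S hCL) hp0
  have hcc : PiCompl {q | q ∉ π} D₀ := hcompl
  have hupT : up (D.subgroupOf (Subgroup.normalizer (D : Set G))) = D :=
    Subgroup.map_subgroupOf_eq_of_le Subgroup.le_normalizer
  have hCN : Cen (up (D.subgroupOf (Subgroup.normalizer (D : Set G)))) ≤ Subgroup.normalizer (D : Set G) := by
    rw [hupT]
    exact cen_le_nor D
  obtain ⟨t, ht⟩ := exists_pair_on_defect hM hB₁D hB₁.1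
  have hup := isBrauerPairOf_up hM hB₁ hCN ht (by
    rw [hupT]
    exact isPGroup_of_isDefectGroup hBD)
  have hprop := piKer_all_of_low hM hp' hcc hq hupS.ge hq0 hup
  have hprop' := piKer_mapBlock _ hprop
  intro n hn χ hχ
  exact le_ker_of_pair hM hp' ht hprop' n hn χ hχ

end Cfsg.Agent.S4728
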