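import Cfsg.Statements.S4729
import Mathlib
import Cfsg.Agent.Lib.Block.Height
import Cfsg.Agent.Lib.Char.DetExt
import Cfsg.Agent.Lib.Degree.Sums

set_option autoImplicit false
open Cfsg
open Cfsg.Agent.Lib.Block Cfsg.Agent.Lib.Char

namespace Cfsg.Agent.S4729


theorem pprime_trivial {G : Type*} [Group G] [Fintype G] (p : ℕ) [Fact p.Prime] (M : Ideal Cfsg.AlgInt)
    (hM : Cfsg.IsPModular p M) (hperf : commutator G = ⊤) (P : Sylow p G) (χ : Cfsg.IrrCharacter G)
    (hχ : χ ∈ Cfsg.principalBlock M G) (hfaith : ∀ g : G, (χ : G → ℂ) g = (χ : G → ℂ) 1 → g = 1)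
    (hdeg : Cfsg.charDegree (χ : G → ℂ) < 2 * p) (y : G)
    (hy : (P : Subgroup G) ≤ Subgroup.centralizer ({y} : Set G)) (hpy : ¬ p ∣ orderOf y) : y = 1 := by
  classical
  have := isPModular_isPrime hM
  have hp : p.Prime := Fact.out
  have hχ1 : (χ : G → ℂ) 1 ≠ 0 := Cfsg.Agent.Lib.Degree.irr_degree_ne_zero χ
  have stepA : ∀ j : ℕ, MemLocalIdeal M ((χ : G → ℂ) (y ^ j) - (χ : G → ℂ) 1) := by
    intro j
    have hle : (P : Subgroup G) ≤ Subgroup.centralizer ({y ^ j} : Set G) := by
      intro u hu
      rw [Subgroup.mem_centralizer_singleton_iff]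
      have h1 : Commute u y := Subgroup.mem_centralizer_singleton_iff.mp (hy hu)
      exact h1.pow_right j
    have hidx : ¬ p ∣ (Subgroup.centralizer ({y ^ j} : Set G)).index := fun h =>
      P.not_dvd_index (h.trans (Subgroup.index_dvd_of_le hle))
    have h1 := hχ (y ^ j)
    have h2 : centralChar (fun _ : G => (1 : ℂ)) (y ^ j) - centralChar (χ : G → ℂ) (y ^ j) =
        (1 - (χ : G → ℂ) (y ^ j) / (χ : G → ℂ) 1) * ((Subgroup.centralizer ({y ^ j} : Set G)).index : ℂ) := by
      unfold centralChar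
      simp only [div_one, mul_one]
      ring
    rw [h2] at h1
    have h3 := memLocalIdeal_of_mul_unit (memLocalRing_natCast _) (not_memLocalIdeal_natCast hM hidx) h1
    have h4 := memLocalIdeal_mul_right h3 (char_isIntegral_local (χ := χ) (M := M) 1)
    have h5 := memLocalIdeal_neg h4
    convert h5 using 1
    field_simp
    ring
  have hd1 : (χ : G → ℂ) 1 = (Cfsg.charDegree (χ : G → ℂ) : ℂ) :=
    map_one_eq_charDegree (IsIrrCharacter.isCharacter χ.2)
  obtain ⟨n, ρ, hρ, hc⟩ := χ.2
  have hc' : ∀ g, (χ : G → ℂ) g = ρ.character g := fun g => by rw [hc]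
  obtain ⟨b, ζ, hζ, hb⟩ := exists_eigenbasis_rep ρ y (isOfFinOrder_of_finite y)
  have ho : orderOf y ≠ 0 := (orderOf_pos y).ne'
  set o := orderOf y
  have hchar : ∀ j : ℕ, (χ : G → ℂ) (y ^ j) = ∑ i, ζ i ^ j := by
    intro j
    rw [hc']
    exact trace_of_diagonal b (ρ (y ^ j)) (fun i => ζ i ^ j) (fun i => by
      have := hb i j
      simpa [zpow_natCast] using this)
  have hdeg1 : (χ : G → ℂ) 1 = (Module.finrank ℂ (Fin n → ℂ) : ℂ) := by
    rw [hc', Representation.char_one]
  have hdeg2 : Cfsg.charDegree (χ : G → ℂ) = Module.finrank ℂ (Fin n → ℂ) := charDegree_natCast hdeg1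
  rw [hdeg2] at hdeg
  have hgeom : ∀ η : ℂ, η ^ o = 1 → η ≠ 1 → ∑ j ∈ Finset.range o, η ^ j = 0 := by
    intro η h1 h2
    have h3 := geom_sum_mul η o
    rw [h1, sub_self] at h3
    exact (mul_eq_zero.mp h3).resolve_right (sub_ne_zero.mpr h2)
  have stepB : ∀ ε : ℂ, ε ^ o = 1 → ε ≠ 1 → p ∣ (Finset.univ.filter (fun i => ζ i = ε)).card := by
    intro ε hε hε1
    have hε0 : ε ≠ 0 := by
      rintro rfl
      rw [zero_pow ho] at hε
      exact zero_ne_one hε
    have hinv : (ε⁻¹) ^ o = 1 := by rw [inv_pow, hε, inv_one]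
    have hint : IsIntegral ℤ ε⁻¹ := by
      refine IsIntegral.of_pow (Nat.pos_of_ne_zero ho) ?_
      rw [hinv]
      exact isIntegral_one
    have h1 : MemLocalIdeal M (∑ j ∈ Finset.range o, ((χ : G → ℂ) (y ^ j) - (χ : G → ℂ) 1) * ε⁻¹ ^ j) :=
      memLocalIdeal_sum _ _ fun j _ => memLocalIdeal_mul_right (stepA j)
        (memLocalRing_of_isIntegral (hint.pow j))
    have h2 : ∑ j ∈ Finset.range o, ((χ : G → ℂ) (y ^ j) - (χ : G → ℂ) 1) * ε⁻¹ ^ j =
        ((o * (Finset.univ.filter (fun i => ζ i = ε)).card : ℕ) : ℂ) := by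
      simp_rw [sub_mul]
      rw [Finset.sum_sub_distrib]
      have g1 : ∑ j ∈ Finset.range o, (χ : G → ℂ) 1 * ε⁻¹ ^ j = 0 := by
        rw [← Finset.mul_sum, hgeom _ hinv (fun h => hε1 (inv_eq_one.mp h)), mul_zero]
      rw [g1, sub_zero]
      simp_rw [hchar, Finset.sum_mul]
      rw [Finset.sum_comm]
      have g2 : ∀ i, ∑ j ∈ Finset.range o, ζ i ^ j * ε⁻¹ ^ j = if ζ i = ε then (o : ℂ) else 0 := by
        intro i
        simp_rw [← mul_pow]
        split_ifs with h
        · rw [h, mul_inv_cancel₀ hε0]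
          simp
        · refine hgeom _ ?_ ?_
          · rw [mul_pow, hζ i, hinv, mul_one]
          · intro h3
            apply h
            field_simp at h3
            exact h3
      simp_rw [g2]
      rw [Finset.sum_ite, Finset.sum_const_zero, add_zero, Finset.sum_const, nsmul_eq_mul]
      push_cast
      ring
    rw [h2, memLocalIdeal_natCast_iff hM] at h1
    exact (hp.dvd_mul.mp h1).resolve_left hpy
  have hle_mult : ∀ i₀, ζ i₀ ≠ 1 → p ≤ (Finset.univ.filter (fun i => ζ i = ζ i₀)).card := by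
    intro i₀ hi
    refine Nat.le_of_dvd (Finset.card_pos.mpr ⟨i₀, by simp⟩) (stepB _ (hζ i₀) hi)
  have stepC : ∀ i, ζ i = 1 := by
    by_contra hcon
    push Not at hcon
    obtain ⟨i₀, hi₀⟩ := hcon
    have hS1 := hle_mult i₀ hi₀
    have honly : ∀ i, ζ i = 1 ∨ ζ i = ζ i₀ := by
      by_contra hcon2
      push Not at hcon2
      obtain ⟨i₁, h1, h2⟩ := hcon2
      have hS2 := hle_mult i₁ h1
      have hdisj : Disjoint (Finset.univ.filter (fun i => ζ i = ζ i₀)) (Finset.univ.filter (fun i => ζ i = ζ i₁)) := by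
        rw [Finset.disjoint_filter]
        intro i _ h3 h4
        exact h2 (h4.symm.trans h3)
      have hcard := Finset.card_union_of_disjoint hdisj
      have hle := Finset.card_le_univ (Finset.univ.filter (fun i => ζ i = ζ i₀) ∪ Finset.univ.filter (fun i => ζ i = ζ i₁))
      rw [Fintype.card_fin] at hle
      omega
    set ε := ζ i₀ with hε
    have hdet : LinearMap.det (ρ y) = ∏ i, ζ i := by
      rw [← LinearMap.det_toMatrix b (ρ y)]
      have hdiag : LinearMap.toMatrix b b (ρ y) = Matrix.diagonal ζ := by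
        ext i j
        have := hb j 1
        rw [zpow_one, zpow_one] at this
        rw [LinearMap.toMatrix_apply, this, map_smul, Module.Basis.repr_self, Matrix.diagonal_apply]
        by_cases hij : i = j
        · subst hij
          simp
        · simp [hij]
      rw [hdiag, Matrix.det_diagonal]
    have hdet1 : LinearMap.det (ρ y) = 1 := by
      have h1 : y ∈ commutator G := by
        rw [hperf]
        exact Subgroup.mem_top y
      have h2 := Abelianization.commutator_subset_ker (detHom ρ) h1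
      have h3 : detHom ρ y = 1 := h2
      have h4 : ((detHom ρ y : ℂˣ) : ℂ) = 1 := by rw [h3]; rfl
      rw [detHom_apply] at h4
      exact h4
    have hprod : ∏ i, ζ i = ε ^ (Finset.univ.filter (fun i => ζ i = ε)).card := by
      rw [← Finset.prod_filter_mul_prod_filter_not Finset.univ (fun i => ζ i = ε)]
      have h1 : ∏ i ∈ Finset.univ.filter (fun i => ζ i = ε), ζ i = ε ^ (Finset.univ.filter (fun i => ζ i = ε)).card := by
        rw [Finset.prod_congr rfl (fun i hi => (Finset.mem_filter.mp hi).2), Finset.prod_const]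
      have h2 : ∏ i ∈ Finset.univ.filter (fun i => ¬ ζ i = ε), ζ i = 1 := by
        refine Finset.prod_eq_one fun i hi => ?_
        exact (honly i).resolve_right (Finset.mem_filter.mp hi).2
      rw [h1, h2, mul_one]
    have hcardeq : (Finset.univ.filter (fun i => ζ i = ε)).card = p := by
      obtain ⟨k, hk⟩ := stepB ε (hζ i₀) hi₀
      have hle := Finset.card_le_univ (Finset.univ.filter (fun i => ζ i = ε))
      rw [Fintype.card_fin] at hle
      have : k = 1 := by
        have h1 : k < 2 := by
          by_contra h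
          push Not at h
          nlinarith
        have h2 : 1 ≤ k := by
          by_contra h
          push Not at h
          have : k = 0 := by omega
          subst this
          omega
        omega
      rw [hk, this, mul_one]
    have hεp : ε ^ p = 1 := by
      rw [← hcardeq, ← hprod, ← hdet, hdet1]
    have hεo : ε ^ o = 1 := hζ i₀
    have hdvd : orderOf ε ∣ Nat.gcd p o := Nat.dvd_gcd (orderOf_dvd_of_pow_eq_one hεp) (orderOf_dvd_of_pow_eq_one hεo)
    have hcop : Nat.gcd p o = 1 := (Nat.Prime.coprime_iff_not_dvd hp).mpr hpy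
    rw [hcop, Nat.dvd_one, orderOf_eq_one_iff] at hdvd
    exact hi₀ hdvd
  apply hfaith
  have h1 := hchar 1
  rw [pow_one] at h1
  rw [h1, hdeg1]
  simp [stepC]

/-- Let p be a prime, M a maximal ideal of the algebraic integers containing p, G a finite perfect group and P a Sylow p-subgroup. If the principal p-block of G contains a faithful irreducible character of degree less than 2p, then the centralizer of P is a p-group. -/
theorem result {G : Type*} [Group G] [Finite G] (p : ℕ) [Fact p.Prime] (M : Ideal Cfsg.AlgInt) (hM : Cfsg.IsPModular p M) (hperf : commutator G = ⊤) (P : Sylow p G) (χ : Cfsg.IrrCharacter G) (hχ : χ ∈ Cfsg.principalBlock M G) (hfaith : ∀ g : G, (χ : G → ℂ) g = (χ : G → ℂ) 1 → g = 1) (hdeg : Cfsg.charDegree (χ : G → ℂ) < 2 * p) : IsPGroup p ↥(Subgroup.centralizer ((P : Subgroup G) : Set G)) := by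

  classical
  have := Fintype.ofFinite G
  have hp : p.Prime := Fact.out
  rw [IsPGroup.iff_orderOf]
  rintro ⟨g, hg⟩
  rw [Subgroup.orderOf_mk]
  have h0 : orderOf g ≠ 0 := (orderOf_pos g).ne'
  have e1 : p ^ (orderOf g).factorization p * (orderOf g / p ^ (orderOf g).factorization p) = orderOf g :=
    Nat.ordProj_mul_ordCompl_eq_self _ p
  have hnd : ¬ p ∣ orderOf g / p ^ (orderOf g).factorization p := Nat.not_dvd_ordCompl hp h0
  set a := (orderOf g).factorization p
  set o' := orderOf g / p ^ a
  have hord : orderOf (g ^ p ^ a) = o' := by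
    rw [orderOf_pow' g (pow_ne_zero _ hp.ne_zero)]
    rw [← e1]
    have h5 : p ^ a ∣ p ^ a * o' := dvd_mul_right _ _
    rw [Nat.gcd_eq_right h5]
    exact Nat.mul_div_cancel_left _ (pow_pos hp.pos _)
  have hle : (P : Subgroup G) ≤ Subgroup.centralizer ({g ^ p ^ a} : Set G) := by
    intro u hu
    rw [Subgroup.mem_centralizer_singleton_iff]
    have h1 : Commute u g := by
      have := (Subgroup.mem_centralizer_iff.mp hg) u hu
      exact (show u * g = g * u from this)
    exact h1.pow_right _
  have h1 := pprime_trivial p M hM hperf P χ hχ hfaith hdeg (g ^ p ^ a) hle (by rwa [hord])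
  rw [h1, orderOf_one] at hord
  refine ⟨a, ?_⟩
  rw [← e1, ← hord, mul_one]

end Cfsg.Agent.S4729
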