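import Cfsg.Statements.S4731
import Mathlib
import Cfsg.Agent.Lib.Block.Section
import Cfsg.Agent.Lib.Block.Subsect
import Cfsg.Agent.Lib.Degree.Sums
import Cfsg.Agent.Lib.Char.Ops

set_option autoImplicit false
open Cfsg

namespace Cfsg.Agent.S4731

/-- Let p ≠ q be primes, M_p and M_q maximal ideals of the algebraic integers containing p and q respectively, and G a finite group with no element of order pq; let q^b be the q-part of the order of G. For a p-block B_p (relative to M_p), a q-block B_q (relative to M_q) and a p-singular element y, the sum of χ(1)χ(y) over the irreducible characters χ lying in both B_p and B_q is q^b times an algebraic integer. -/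
theorem result {G : Type*} [Group G] [Finite G] (p q : ℕ) [Fact p.Prime] [Fact q.Prime] (hpq : p ≠ q) (Mp Mq : Ideal Cfsg.AlgInt) (hMp : Cfsg.IsPModular p Mp) (hMq : Cfsg.IsPModular q Mq) (hno : ∀ g : G, orderOf g ≠ p * q) (b : ℕ) (hb : (Nat.card G).factorization q = b) (Bp : Set (Cfsg.IrrCharacter G)) (hBp : Cfsg.IsPBlock Mp Bp) (Bq : Set (Cfsg.IrrCharacter G)) (hBq : Cfsg.IsPBlock Mq Bq) (y : G) (hy : p ∣ orderOf y) : ∃ ω : Cfsg.AlgInt, ∑ᶠ χ ∈ Bp ∩ Bq, (Cfsg.charDegree (χ : G → ℂ) : ℂ) * (χ : G → ℂ) y = (q : ℂ) ^ b * (ω : ℂ) := by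
  classical
  haveI := Fintype.ofFinite G
  haveI : Mp.IsPrime := hMp.2.1.isPrime
  haveI : Mq.IsPrime := hMq.2.1.isPrime
  -- a `q`-singular element is `p`-regular
  have hreg : ∀ u : G, q ∣ orderOf u → ¬ p ∣ orderOf u := by
    intro u hq hp
    have hp' : p.Prime := Fact.out
    have hq' : q.Prime := Fact.out
    have hcop : Nat.Coprime p q := (Nat.coprime_primes hp' hq').2 hpq
    have hpq' : p * q ∣ orderOf u := hcop.mul_dvd_of_dvd_of_dvd hp hq
    apply hno (u ^ (orderOf u / (p * q)))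
    exact orderOf_pow_orderOf_div (orderOf_pos u).ne' hpq'
  -- the `p`-part of `y`
  obtain ⟨x₀, hx₀⟩ := Cfsg.Agent.Lib.Block.isPPart_exists (p := p) y
  have hx₀1 : x₀ ≠ 1 := by
    rintro rfl
    obtain ⟨w, hw, -, -, hw2⟩ := hx₀
    rw [one_mul] at hw
    rw [hw] at hw2
    exact hw2 hy
  have hinvpart : IsPPart p y⁻¹ x₀⁻¹ := by
    obtain ⟨w, hw, hc, h1, h2⟩ := hx₀
    refine ⟨w⁻¹, ?_, hc.inv_inv, by rwa [orderOf_inv], by rwa [orderOf_inv]⟩
    rw [← hw, mul_inv_rev, hc.inv_inv.eq]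
  let c : IrrCharacter G → ℂ := fun χ => if χ ∈ Bp then (χ : G → ℂ) y else 0
  let F : G → ℂ := fun g => ∑ χ : IrrCharacter G, c χ * (χ : G → ℂ) g
  have hFvan : ∀ g : G, ¬ p ∣ orderOf g → F g = 0 := by
    intro g hg
    have hg1 : IsPPart p g 1 := ⟨g, by simp, Commute.one_left _, ⟨0, by simp⟩, hg⟩
    have h1 := Cfsg.Agent.Lib.Block.block_orthogonality hMp hg1 hinvpart (x := 1) (y := x₀⁻¹)
      (fun h => hx₀1 (by
        have h2 := isConj_one_right.1 h
        exact inv_eq_one.1 h2))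
      (Cfsg.Agent.Lib.Block.isBlockUnion_of_isPBlock hBp)
    rw [Cfsg.Agent.Lib.Block.finsum_mem_irr] at h1
    rw [← h1]
    refine Finset.sum_congr rfl fun χ _ => ?_
    simp only [c, inv_inv]
    split_ifs <;> simp [mul_comm]
  have hFclass : IsClassFunction G F := by
    intro g h
    simp only [F]
    refine Finset.sum_congr rfl fun χ _ => ?_
    rw [Cfsg.Agent.Lib.Degree.irr_isClassFunction χ g h]
  have hFinner : ∀ ψ : IrrCharacter G, classInner F (ψ : G → ℂ) = c ψ := by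
    intro ψ
    have h1 : classInner F (ψ : G → ℂ) = ∑ χ : IrrCharacter G, c χ * classInner (χ : G → ℂ) (ψ : G → ℂ) := by
      unfold classInner
      simp only [F, Finset.mul_sum, Finset.sum_mul]
      rw [Finset.sum_comm]
      refine Finset.sum_congr rfl fun χ _ => ?_
      refine Finset.sum_congr rfl fun g _ => ?_
      ring
    rw [h1, Finset.sum_eq_single ψ]
    · rw [Cfsg.Agent.Lib.Char.classInner_irr_self ψ.2, mul_one]
    · intro χ _ hne
      rw [Cfsg.Agent.Lib.Char.classInner_irr_of_ne χ.2 ψ.2 (fun h => hne (Subtype.ext h)), mul_zero]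
    · simp
  let Φ : G → ℂ := fun g => ∑ χ : IrrCharacter G, (if χ ∈ Bq then c χ * (χ : G → ℂ) g else 0)
  have hΦ : ∀ g, Φ g = blockPart Bq F g := by
    intro g
    show _ = ∑ᶠ χ ∈ Bq, @classInner G _ (Fintype.ofFinite G) F (χ : G → ℂ) * (χ : G → ℂ) g
    rw [Cfsg.Agent.Lib.Block.finsum_mem_irr]
    refine Finset.sum_congr rfl fun χ _ => ?_
    rw [Cfsg.Agent.Lib.Block.classInner_fintype_irrel (Fintype.ofFinite G) ‹_›, hFinner]
  have hsing : ∀ u z : G, IsPPart q u z → z ≠ 1 → q ∣ orderOf u := by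
    intro u z hu hz
    by_contra hnq
    have h1 : IsPPart q u 1 := ⟨u, by simp, Commute.one_left _, ⟨0, by simp⟩, hnq⟩
    exact hz (Cfsg.Agent.Lib.Block.IsPPart_eq hu h1)
  have hΦvan : ∀ t : G, t ≠ 1 → (∃ k, orderOf t = q ^ k) → Φ t = 0 := by
    intro t ht htq
    rw [hΦ]
    have htp : IsPPart q t t := ⟨1, by simp, Commute.one_right _, htq, by simpa using (Fact.out : q.Prime).one_lt.ne'⟩
    refine Cfsg.Agent.Lib.Block.blockPart_eq_zero_of_section hMq F hFclass (x := t) ?_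
      (Cfsg.Agent.Lib.Block.isBlockUnion_of_isPBlock hBq) htp (IsConj.refl t)
    intro u z hu hz
    apply hFvan
    apply hreg
    apply hsing u z hu
    rintro rfl
    exact ht (isConj_one_right.1 hz.symm)
  -- the Sylow subgroup
  obtain ⟨Q⟩ : Nonempty (Sylow q G) := inferInstance
  have hQcard : Nat.card (Q : Subgroup G) = q ^ b := by
    rw [Q.card_eq_multiplicity, hb]
  haveI : Fintype (Q : Subgroup G) := Fintype.ofFinite _
  have hsum : ∑ t : (Q : Subgroup G), Φ t = Φ 1 := by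
    rw [Finset.sum_eq_single (1 : (Q : Subgroup G))]
    · rfl
    · intro t _ ht
      apply hΦvan
      · exact fun h => ht (Subtype.ext h)
      · obtain ⟨k, hk⟩ := IsPGroup.iff_orderOf.1 Q.isPGroup' t
        exact ⟨k, by rw [← hk, Subgroup.orderOf_coe]⟩
    · simp
  have hnat : ∀ χ : IrrCharacter G, ∃ n : ℕ, ∑ t : (Q : Subgroup G), (χ : G → ℂ) t = (q : ℂ) ^ b * n := by
    intro χ
    have h1 := Cfsg.Agent.Lib.Char.IsCharacter.restrict (Q : Subgroup G) (Cfsg.Agent.Lib.Char.IsIrrCharacter.isCharacter χ.2)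
    obtain ⟨n, hn⟩ := Cfsg.Agent.Lib.Char.classInner_isCharacter_nat h1
      (Cfsg.Agent.Lib.Char.IsCharacter.one (G := (Q : Subgroup G)))
    refine ⟨n, ?_⟩
    unfold classInner at hn
    simp only [map_one, mul_one] at hn
    rw [hQcard] at hn
    have hq0 : ((q ^ b : ℕ) : ℂ) ≠ 0 := by
      exact_mod_cast pow_ne_zero _ (Fact.out : q.Prime).ne_zero
    push_cast at hn hq0
    rw [← hn]
    field_simp
  choose n hn using hnat
  have hval : IsIntegral ℤ (∑ χ : IrrCharacter G, (if χ ∈ Bq then c χ * (n χ : ℂ) else 0)) := by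
    apply IsIntegral.sum
    intro χ _
    split_ifs
    · apply IsIntegral.mul
      · simp only [c]
        split_ifs
        · exact Cfsg.Agent.Lib.Char.IsCharacter.isIntegral' (Cfsg.Agent.Lib.Char.IsIrrCharacter.isCharacter χ.2) y
        · exact isIntegral_zero
      · exact isIntegral_natCast (R := ℤ) (B := ℂ) (n χ)
    · exact isIntegral_zero
  refine ⟨⟨_, hval⟩, ?_⟩
  have h1 : Φ 1 = (q : ℂ) ^ b * (∑ χ : IrrCharacter G, (if χ ∈ Bq then c χ * (n χ : ℂ) else 0)) := by
    rw [← hsum]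
    simp only [Φ]
    rw [Finset.sum_comm, Finset.mul_sum]
    refine Finset.sum_congr rfl fun χ _ => ?_
    split_ifs
    · rw [← Finset.mul_sum, hn χ]
      ring
    · simp
  show _ = (q : ℂ) ^ b * (∑ χ : IrrCharacter G, (if χ ∈ Bq then c χ * (n χ : ℂ) else 0))
  rw [← h1, Cfsg.Agent.Lib.Block.finsum_mem_irr]
  refine Finset.sum_congr rfl fun χ _ => ?_
  have hdeg : ((charDegree (χ : G → ℂ) : ℕ) : ℂ) = (χ : G → ℂ) 1 :=
    Cfsg.Agent.Lib.Block.charDegree_cast (Cfsg.Agent.Lib.Char.IsIrrCharacter.isCharacter χ.2)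
  simp only [c, Set.mem_inter_iff, hdeg]
  by_cases h2 : χ ∈ Bp <;> by_cases h3 : χ ∈ Bq <;> simp [h2, h3, mul_comm]

end Cfsg.Agent.S4731
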