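import Cfsg.Statements.S4733
import Mathlib
import Cfsg.Agent.Lib.Block.DefectZero
import Cfsg.Agent.Lib.Block.Height
import Cfsg.Agent.Lib.CharExtra.PRegRank

set_option autoImplicit false
open Cfsg
open Cfsg.Agent.Lib.Block Cfsg.Agent.Lib.CharExtra Cfsg.Agent.Lib.Char

namespace Cfsg.Agent.S4733

/-- Let p be a prime, M a maximal ideal of the algebraic integers containing p, and B a p-block of the finite group G with k irreducible characters and p-regular rank l (the number of irreducible Brauer characters). Then l ≤ k, and the following are equivalent: B has defect 0; k = l = 1; k = l. -/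
theorem result {G : Type*} [Group G] [Finite G] (p : ℕ) [Fact p.Prime] (M : Ideal Cfsg.AlgInt) (hM : Cfsg.IsPModular p M) (B : Set (Cfsg.IrrCharacter G)) (hB : Cfsg.IsPBlock M B) : Cfsg.blockRank p B ≤ Nat.card B ∧ (Cfsg.blockDefect p B = 0 ↔ (Nat.card B = 1 ∧ Cfsg.blockRank p B = 1)) ∧ (Cfsg.blockDefect p B = 0 ↔ Nat.card B = Cfsg.blockRank p B) := by

  classical
  have : Fintype G := Fintype.ofFinite G
  have := isPModular_isPrime hM
  have hrank : blockRank p B ≤ Nat.card B := by
    unfold blockRank
    have h1 := finrank_span_le_card (R := ℂ) ((fun χ : IrrCharacter G => pRegularPart p (χ : G → ℂ)) '' B)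
    rw [Set.toFinset_card, ← Nat.card_eq_fintype_card] at h1
    refine h1.trans ?_
    rw [Nat.card_coe_set_eq, Nat.card_coe_set_eq]
    exact Set.ncard_image_le (Set.toFinite B)
  have hback : Nat.card B = blockRank p B → blockDefect p B = 0 := by
    intro hc
    have hli : LinearIndependent ℂ (fun χ : B => pRegularPart p ((χ : IrrCharacter G) : G → ℂ)) := by
      rw [linearIndependent_iff_card_eq_finrank_span, ← Nat.card_eq_fintype_card, hc]
      unfold blockRank Set.finrank
      rw [Set.image_eq_range]
    have hvan : ∀ θ ∈ B, ∀ y : G, p ∣ orderOf y → (θ : G → ℂ) y = 0 := by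
      intro θ hθ y hy
      have hsum : ∑ χ : B, starRingEnd ℂ (((χ : IrrCharacter G) : G → ℂ) y) •
          pRegularPart p ((χ : IrrCharacter G) : G → ℂ) = 0 := by
        funext x
        rw [Finset.sum_apply]
        simp only [Pi.smul_apply, smul_eq_mul, Pi.zero_apply, pRegularPart_eq_ite]
        by_cases hx : p ∣ orderOf x
        · simp [hx]
        · simp only [hx, if_false]
          have h1 := sum_block_eq_zero hM (isBlockUnion_of_isPBlock hB) hx hy
          rw [← h1, ← Finset.sum_filter]
          exact (Finset.sum_subtype (Finset.univ.filter (· ∈ B)) (by simp)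
            (fun χ : IrrCharacter G => starRingEnd ℂ ((χ : G → ℂ) y) * (χ : G → ℂ) x)).symm
      have h2 := Fintype.linearIndependent_iff.mp hli _ hsum ⟨θ, hθ⟩
      simpa using h2
    obtain ⟨χ₀, h₀, h₁, -⟩ := exists_min_height hB hM
    unfold blockDefect
    rw [← h₁]
    have h3 := pow_dvd_degree_of_vanish (IsIrrCharacter.isCharacter χ₀.2) (hvan χ₀ h₀)
    have h4 := (Nat.Prime.pow_dvd_iff_le_factorization (Fact.out : p.Prime)
      charDegree_ne_zero).mp h3
    omega
  have hfwd : blockDefect p B = 0 → Nat.card B = 1 ∧ blockRank p B = 1 := by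
    intro h0
    obtain ⟨χ₀, h₀, h₁, -⟩ := exists_min_height hB hM
    unfold blockDefect at h0
    rw [← h₁] at h0
    have hd := Cfsg.Agent.Lib.Char.charDegree_dvd_card χ₀.2
    have hd0 : charDegree (χ₀ : G → ℂ) ≠ 0 := charDegree_ne_zero
    have h3 : p ^ (Nat.card G).factorization p ∣ charDegree (χ₀ : G → ℂ) :=
      (Nat.Prime.pow_dvd_iff_le_factorization (Fact.out : p.Prime) hd0).mpr (by omega)
    have h4 := (not_dvd_card_div_iff (Fact.out : p.Prime) hd).mpr h3
    have h5 := blockOf_eq_singleton_of_not_dvd hM χ₀ h4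
    have h6 : B = {χ₀} := by rw [blockOf_eq_of_mem hB h₀, h5]
    subst h6
    refine ⟨by simp, ?_⟩
    unfold blockRank
    rw [Set.image_singleton, finrank_span_singleton]
    intro h7
    have h8 := congrFun h7 1
    rw [pRegularPart_eq_of_regular] at h8
    · exact Cfsg.Agent.Lib.Degree.irr_degree_ne_zero χ₀ h8
    · simpa using (Fact.out : p.Prime).one_lt.ne'
  refine ⟨hrank, ⟨hfwd, fun h => hback (by omega)⟩, ⟨fun h => ?_, hback⟩⟩
  obtain ⟨h1, h2⟩ := hfwd h
  omega

end Cfsg.Agent.S4733
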