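import Cfsg.Statements.S4735
import Mathlib
import Cfsg.Agent.Lib.Degree.InflateBlock
import Cfsg.Agent.Lib.CharExtra.DefectClass
import Cfsg.Agent.Lib.Core.Basic
import Cfsg.Agent.Lib.Char.Constituent

set_option autoImplicit false
open Cfsg

namespace Cfsg.Agent.S4735

/-- Let p be a prime, M a maximal ideal of the algebraic integers containing p, G a finite group, H = O_p'(G) and Ḡ = G/H. For x ∈ G write λ(G, x) for the sum of |χ(x)|^2 over the irreducible characters χ in the principal p-block of G. Then λ(G, x) is a positive integer, λ(G, x) = λ(Ḡ, x̄) where x̄ is the image of x, and λ(G, x) ≤ #C_Ḡ(x̄). Moreover λ(G, 1) = [G : H] if and only if the principal block is the only p-block of Ḡ. -/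
theorem result {G : Type*} [Group G] [Finite G] (p : ℕ) [Fact p.Prime] (M : Ideal Cfsg.AlgInt) (hM : Cfsg.IsPModular p M) (x : G) : (∃ n : ℕ, 0 < n ∧ ∑ᶠ χ ∈ Cfsg.principalBlock M G, Complex.normSq ((χ : G → ℂ) x) = n) ∧ ∑ᶠ χ ∈ Cfsg.principalBlock M G, Complex.normSq ((χ : G → ℂ) x) = ∑ᶠ ψ ∈ Cfsg.principalBlock M (G ⧸ Cfsg.pPrimeCore p G), Complex.normSq ((ψ : G ⧸ Cfsg.pPrimeCore p G → ℂ) (QuotientGroup.mk x)) ∧ ∑ᶠ χ ∈ Cfsg.principalBlock M G, Complex.normSq ((χ : G → ℂ) x) ≤ (Nat.card ↥(Subgroup.centralizer ({(QuotientGroup.mk x : G ⧸ Cfsg.pPrimeCore p G)} : Set (G ⧸ Cfsg.pPrimeCore p G))) : ℝ) ∧ ((∑ᶠ χ ∈ Cfsg.principalBlock M G, Cfsg.charDegree (χ : G → ℂ) ^ 2) = (Cfsg.pPrimeCore p G).index ↔ ∀ B : Set (Cfsg.IrrCharacter (G ⧸ Cfsg.pPrimeCore p G)), Cfsg.IsPBlock M B → B = Cfsg.principalBlock M (G ⧸ Cfsg.pPrimeCore p G)) := by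
  classical
  haveI : Fintype G := Fintype.ofFinite G
  have hPr := Cfsg.Agent.Lib.Block.isPModular_isPrime hM
  let N := Cfsg.pPrimeCore p G
  have hNp : ¬ p ∣ Nat.card N := Cfsg.Agent.Lib.Core.not_dvd_card_pPrimeCore
  have hbij := Cfsg.Agent.Lib.Degree.bijOn_inflate_principal (M := M) N hM hNp
  haveI : Fintype (G ⧸ N) := Fintype.ofFinite _
  have hfin1 : ∑ᶠ χ ∈ Cfsg.principalBlock M G, Complex.normSq ((χ : G → ℂ) x) =
      ∑ᶠ ψ ∈ Cfsg.principalBlock M (G ⧸ N), Complex.normSq ((ψ : G ⧸ N → ℂ) (QuotientGroup.mk x)) :=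
    (finsum_mem_eq_of_bijOn (Cfsg.Agent.Lib.Degree.inflate N) hbij (fun ψ _ => rfl)).symm
  refine ⟨Cfsg.Agent.Lib.Degree.exists_nat_sum_normSq_principal hM x, hfin1, ?_, ?_⟩
  · rw [hfin1, Cfsg.Agent.Lib.Block.finsum_mem_irr]
    have h1 := Cfsg.Agent.Lib.Char.second_orthogonality' (G := G ⧸ N) (QuotientGroup.mk x) (QuotientGroup.mk x)
    rw [if_pos (IsConj.refl _)] at h1
    have h2 : ((∑ ψ : IrrCharacter (G ⧸ N), Complex.normSq ((ψ : G ⧸ N → ℂ) (QuotientGroup.mk x)) : ℝ) : ℂ) =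
        ((Nat.card ↥(Subgroup.centralizer ({(QuotientGroup.mk x : G ⧸ N)} : Set (G ⧸ N))) : ℝ) : ℂ) := by
      push_cast
      rw [← h1]
      refine Finset.sum_congr rfl fun ψ _ => ?_
      rw [Complex.mul_conj]
    have h3 : (∑ ψ : IrrCharacter (G ⧸ N), Complex.normSq ((ψ : G ⧸ N → ℂ) (QuotientGroup.mk x)) : ℝ) =
        (Nat.card ↥(Subgroup.centralizer ({(QuotientGroup.mk x : G ⧸ N)} : Set (G ⧸ N))) : ℝ) := by
      exact_mod_cast h2
    rw [← h3]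
    refine Finset.sum_le_sum fun ψ _ => ?_
    split_ifs
    · exact le_rfl
    · exact Complex.normSq_nonneg _
  · have hfin2 : ∑ᶠ χ ∈ Cfsg.principalBlock M G, Cfsg.charDegree (χ : G → ℂ) ^ 2 =
        ∑ᶠ ψ ∈ Cfsg.principalBlock M (G ⧸ N), Cfsg.charDegree (ψ : G ⧸ N → ℂ) ^ 2 :=
      (finsum_mem_eq_of_bijOn (Cfsg.Agent.Lib.Degree.inflate N) hbij (fun ψ _ => rfl)).symm
    have hD : ∑ ψ : IrrCharacter (G ⧸ N), Cfsg.charDegree (ψ : G ⧸ N → ℂ) ^ 2 = N.index := by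
      have h1 := Cfsg.Agent.Lib.Char.sum_degree_sq (G := G ⧸ N)
      have h2 : ((∑ ψ : IrrCharacter (G ⧸ N), Cfsg.charDegree (ψ : G ⧸ N → ℂ) ^ 2 : ℕ) : ℂ) =
          (N.index : ℂ) := by
        push_cast
        have h3 : (N.index : ℂ) = (Nat.card (G ⧸ N) : ℂ) := rfl
        rw [h3, ← h1]
        refine Finset.sum_congr rfl fun ψ _ => ?_
        rw [← Cfsg.Agent.Lib.Char.map_one_eq_charDegree (Cfsg.Agent.Lib.Char.IsIrrCharacter.isCharacter ψ.2)]
      exact_mod_cast h2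
    rw [hfin2, Cfsg.Agent.Lib.Block.finsum_mem_irr, ← hD]
    constructor
    · intro h B hB
      have hall : ∀ ψ : IrrCharacter (G ⧸ N), ψ ∈ Cfsg.principalBlock M (G ⧸ N) := by
        by_contra hcon
        push Not at hcon
        obtain ⟨ψ₀, hψ₀⟩ := hcon
        have h1 : ∑ ψ : IrrCharacter (G ⧸ N), (if ψ ∈ Cfsg.principalBlock M (G ⧸ N) then
            Cfsg.charDegree (ψ : G ⧸ N → ℂ) ^ 2 else 0) <
            ∑ ψ : IrrCharacter (G ⧸ N), Cfsg.charDegree (ψ : G ⧸ N → ℂ) ^ 2 := by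
          refine Finset.sum_lt_sum (fun ψ _ => ?_) ⟨ψ₀, Finset.mem_univ _, ?_⟩
          · split_ifs
            · exact le_rfl
            · exact Nat.zero_le _
          · rw [if_neg hψ₀]
            exact pow_pos (Cfsg.Agent.Lib.Char.charDegree_pos_of_irr ψ₀.2) 2
        omega
      obtain ⟨χ₀, rfl⟩ := hB
      have h2 := Cfsg.Agent.Lib.Block.blockOf_eq_of_mem
        (Cfsg.Agent.Lib.CharExtra.isPBlock_principalBlock (M := M) (G := G ⧸ N)) (hall χ₀)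
      exact h2.symm
    · intro h
      refine Finset.sum_congr rfl fun ψ _ => ?_
      have h1 : ψ ∈ Cfsg.principalBlock M (G ⧸ N) := by
        rw [← h _ (Cfsg.Agent.Lib.Block.isPBlock_blockOf ψ)]
        exact Cfsg.Agent.Lib.Block.mem_blockOf_self ψ
      rw [if_pos h1]

end Cfsg.Agent.S4735
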