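import Cfsg.Statements.S4955
import Cfsg.Agent.Lib.Degree.Burnside
import Cfsg.Agent.Lib.Degree.ItoSplit
import Cfsg.Agent.Lib.Degree.PElement
import Cfsg.Agent.Lib.Degree.Inflate
import Cfsg.Agent.Lib.Degree.Linear
import Mathlib

set_option autoImplicit false
open Cfsg

namespace Cfsg.Agent.S4955

open Cfsg.Agent.Lib.Degree Cfsg.Agent.Lib.Char

/-- Isomorphic groups have equally many classes. -/
theorem card_conjClasses_congr {A B : Type*} [Group A] [Group B] [Finite A] [Finite B] (e : A ≃* B) :
    Nat.card (ConjClasses A) = Nat.card (ConjClasses B) := by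
  apply le_antisymm
  · exact Nat.card_le_card_of_surjective _ (ConjClasses.map_surjective (f := e.symm.toMonoidHom) e.symm.surjective)
  · exact Nat.card_le_card_of_surjective _ (ConjClasses.map_surjective (f := e.toMonoidHom) e.surjective)

/-- Let X be a finite group with an abelian normal Sylow p-subgroup V (a normal p-subgroup of index prime to p in which any two elements commute), and let G be a complement to V in X. Then for every v in V, writing C for the centralizer of v in G, the number k(X) of conjugacy classes of X satisfies k(X) ≤ (order of C)·(order of V) − ((order of G) − k(G)); the statement is written with the subtracted term moved to the left. In particular, if some v in V is centralized by no nonidentity element of G, then k(X) is at most the order of V. -/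
theorem result {X : Type*} [Group X] [Finite X] (p : ℕ) [Fact p.Prime] (V : Subgroup X) [V.Normal] (hVp : IsPGroup p V) (hidx : ¬ p ∣ V.index) (hab : ∀ a ∈ V, ∀ b ∈ V, a * b = b * a) (G : Subgroup X) (hGV : Subgroup.IsComplement' V G) (v : X) (hv : v ∈ V) : Nat.card (ConjClasses X) + Nat.card G ≤ Nat.card ↥(G ⊓ Subgroup.centralizer ({v} : Set X)) * Nat.card V + Nat.card (ConjClasses G) := by
  classical
  cases nonempty_fintype X
  have : Fintype V := Fintype.ofFinite V
  have hcardX : Nat.card X = Nat.card V * Nat.card G := hGV.card_mul_card.symm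
  have hindex : V.index = Nat.card G := by
    have h1 := V.card_mul_index
    rw [hcardX] at h1
    exact Nat.eq_of_mul_eq_mul_left Nat.card_pos h1
  have hp := (Fact.out : p.Prime)
  set n := Nat.card X with hn
  have hn0 : NeZero n := ⟨Nat.card_pos.ne'⟩
  -- the two sets of irreducible characters
  let K : Cfsg.IrrCharacter X → Prop := fun χ => KerContains V (χ : X → ℂ)
  let S₁ : Finset (Cfsg.IrrCharacter X) := Finset.univ.filter K
  let S₂ : Finset (Cfsg.IrrCharacter X) := Finset.univ.filter (fun χ => ¬ K χ)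
  have hk : Nat.card (ConjClasses X) = S₁.card + S₂.card := by
    rw [← card_irr_eq_card_conjClasses, Nat.card_eq_fintype_card, ← Finset.card_univ]
    exact (Finset.card_filter_add_card_filter_not (s := Finset.univ) K).symm
  have hS₁ : S₁.card = Nat.card (ConjClasses G) := by
    have h1 := card_irr_kerContains V
    rw [card_conjClasses_congr hGV.symm.QuotientMulEquiv] at h1
    rw [← h1, Nat.card_eq_fintype_card, Fintype.card_subtype]
  -- values on `V` for `S₁`
  have hsum₁ : ∀ a ∈ V, ∑ χ ∈ S₁, ‖(χ : X → ℂ) a‖ ^ 2 = (Nat.card G : ℝ) := by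
    intro a ha
    have h1 := sum_kerContains_degree_sq V (G := X)
    rw [hindex] at h1
    have h2 : ∑ χ ∈ S₁, ((‖(χ : X → ℂ) a‖ ^ 2 : ℝ) : ℂ) = (Nat.card G : ℂ) := by
      rw [← h1]
      refine Finset.sum_congr rfl fun χ hχ => ?_
      have h3 : (χ : X → ℂ) a = (χ : X → ℂ) 1 := (Finset.mem_filter.mp hχ).2 a ha
      rw [h3, ← irr_degree_norm χ]
      push_cast
      simp
    exact_mod_cast h2
  -- second orthogonality
  have hcentk : ∀ k : ℕ, k.Coprime n →
      Subgroup.centralizer ({v ^ k} : Set X) = Subgroup.centralizer ({v} : Set X) := by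
    intro k hk
    ext x
    rw [Subgroup.mem_centralizer_singleton_iff, Subgroup.mem_centralizer_singleton_iff]
    have hc : Commute v (v ^ k) := (Commute.refl v).pow_right k
    constructor
    · intro h
      obtain ⟨m, hm⟩ : ∃ m : ℕ, (v ^ k) ^ m = v :=
        exists_pow_eq_self_of_coprime (Nat.Coprime.coprime_dvd_right (orderOf_dvd_natCard v) hk)
      have h2 : Commute x (v ^ k) := h
      have h3 := h2.pow_right m
      rw [hm] at h3
      exact h3
    · intro h
      have h2 : Commute x v := h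
      exact h2.pow_right k
  have hsumk : ∀ k : ℕ, k.Coprime n →
      ∑ χ : Cfsg.IrrCharacter X, ‖(χ : X → ℂ) (v ^ k)‖ ^ 2 =
        (Nat.card (Subgroup.centralizer ({v} : Set X)) : ℝ) := by
    intro k hk
    have h1 := second_orthogonality (v ^ k) (v ^ k)
    rw [if_pos (IsConj.refl _), hcentk k hk] at h1
    have h2 : ∑ χ : Cfsg.IrrCharacter X, ((‖(χ : X → ℂ) (v ^ k)‖ ^ 2 : ℝ) : ℂ) =
        (Nat.card (Subgroup.centralizer ({v} : Set X)) : ℂ) := by
      rw [← h1]
      refine Finset.sum_congr rfl fun χ _ => ?_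
      rw [Complex.mul_conj, Complex.normSq_eq_norm_sq]
    exact_mod_cast h2
  have hsum₂ : ∀ k : ℕ, k.Coprime n →
      ∑ χ ∈ S₂, ‖(χ : X → ℂ) (v ^ k)‖ ^ 2 + (Nat.card G : ℝ) =
        (Nat.card (Subgroup.centralizer ({v} : Set X)) : ℝ) := by
    intro k hk
    have hvk : v ^ k ∈ V := V.pow_mem hv k
    rw [← hsumk k hk, ← hsum₁ _ hvk, add_comm]
    exact Finset.sum_filter_add_sum_filter_not Finset.univ K _
  -- nonvanishing
  have hne : ∀ χ : Cfsg.IrrCharacter X, (χ : X → ℂ) v ≠ 0 := by
    intro χ
    obtain ⟨d, hd, hdvd⟩ := irr_degree_dvd_card_complement V G hab hGV χ.2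
    obtain ⟨a, ha⟩ := hVp ⟨v, hv⟩
    have hva : v ^ p ^ a = 1 := by
      have := congrArg Subtype.val ha
      simpa using this
    refine character_ne_zero_of_pow_prime_pow (Lib.Char.IsIrrCharacter.isCharacter χ.2) p hp v a hva d hd ?_
    intro hpd
    apply hidx
    rw [hindex]
    exact hpd.trans hdvd
  -- Burnside
  have hvn : v ^ n = 1 := pow_card_eq_one'
  have hBurn : ((S₂.card : ℕ) : ℝ) + (Nat.card G : ℝ) ≤
      (Nat.card (Subgroup.centralizer ({v} : Set X)) : ℝ) := by
    have h1 : ∀ χ ∈ S₂, (n.totient : ℝ) ≤ ∑ u : (ZMod n)ˣ, ‖(χ : X → ℂ) (v ^ (u : ZMod n).val)‖ ^ 2 :=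
      fun χ _ => totient_le_sum_norm_sq (Lib.Char.IsIrrCharacter.isCharacter χ.2) v n hvn (hne χ)
    have h2 := Finset.sum_le_sum h1
    rw [Finset.sum_comm] at h2
    have h3 : ∀ u : (ZMod n)ˣ, ∑ χ ∈ S₂, ‖(χ : X → ℂ) (v ^ (u : ZMod n).val)‖ ^ 2 =
        (Nat.card (Subgroup.centralizer ({v} : Set X)) : ℝ) - (Nat.card G : ℝ) := by
      intro u
      have := hsum₂ _ (ZMod.val_coe_unit_coprime u)
      linarith
    simp only [h3, Finset.sum_const, Finset.card_univ, ZMod.card_units_eq_totient, nsmul_eq_mul] at h2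
    have hφ : (0 : ℝ) < (n.totient : ℝ) := by
      exact_mod_cast Nat.totient_pos.mpr (NeZero.pos n)
    have h4 := le_of_mul_le_mul_right (by linarith [h2] :
      ((S₂.card : ℝ)) * (n.totient : ℝ) ≤ ((Nat.card (Subgroup.centralizer ({v} : Set X)) : ℝ) - (Nat.card G : ℝ)) * (n.totient : ℝ)) hφ
    linarith
  -- the centralizer
  have hcent : Nat.card (Subgroup.centralizer ({v} : Set X)) =
      Nat.card ↥(G ⊓ Subgroup.centralizer ({v} : Set X)) * Nat.card V := by
    rw [mul_comm, ← Nat.card_prod]
    have hVC : ∀ a ∈ V, a ∈ Subgroup.centralizer ({v} : Set X) := by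
      intro a ha
      exact Subgroup.mem_centralizer_singleton_iff.mpr (hab a ha v hv)
    refine (Nat.card_congr (Equiv.ofBijective
      (fun p : V × ↥(G ⊓ Subgroup.centralizer ({v} : Set X)) =>
        (⟨(p.1 : X) * (p.2 : X), Subgroup.mul_mem _ (hVC _ p.1.2) p.2.2.2⟩ :
          Subgroup.centralizer ({v} : Set X))) ⟨?_, ?_⟩)).symm
    · rintro ⟨a, h⟩ ⟨a', h'⟩ heq
      have h1 : (a : X) * (h : X) = (a' : X) * (h' : X) := congrArg Subtype.val heq
      have h2 : (a' : X)⁻¹ * (a : X) = (h' : X) * (h : X)⁻¹ := by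
        rw [inv_mul_eq_iff_eq_mul, ← mul_assoc, ← h1]
        group
      have h3 : (a' : X)⁻¹ * (a : X) = 1 :=
        Subgroup.disjoint_def.mp hGV.disjoint (V.mul_mem (V.inv_mem a'.2) a.2)
          (by rw [h2]; exact G.mul_mem h'.2.1 (G.inv_mem h.2.1))
      have h4 : (a : X) = a' := by
        rw [inv_mul_eq_iff_eq_mul, mul_one] at h3
        exact h3
      have h5 : (h : X) = h' := by
        rw [h4] at h1
        exact mul_left_cancel h1
      exact Prod.ext (Subtype.ext h4) (Subtype.ext h5)
    · rintro ⟨t, ht⟩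
      obtain ⟨⟨⟨a, ha⟩, ⟨g, hg⟩⟩, hx, -⟩ := Subgroup.IsComplement.existsUnique hGV t
      simp only at hx
      have hgC : g ∈ Subgroup.centralizer ({v} : Set X) := by
        have := Subgroup.mul_mem _ (Subgroup.inv_mem _ (hVC a ha)) ht
        rw [← hx] at this
        simpa using this
      exact ⟨(⟨a, ha⟩, ⟨g, hg, hgC⟩), Subtype.ext hx⟩
  rw [hk, hS₁]
  rw [hcent] at hBurn
  have h6 : S₂.card + Nat.card G ≤ Nat.card ↥(G ⊓ Subgroup.centralizer ({v} : Set X)) * Nat.card V := by
    exact_mod_cast hBurn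
  omega

end Cfsg.Agent.S4955
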