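import Cfsg.Statements.S4964
import Mathlib
import Cfsg.Agent.Lib.CharExtra.BlockCent
import Cfsg.Agent.Lib.Hall.CoprimeLemmas
import Cfsg.Agent.Lib.Coprime.Kaz2
import Cfsg.Agent.Lib.Degree.Inflate
import Cfsg.Agent.Lib.Degree.Avg
import Cfsg.Agent.Lib.Transfer.Frat
import Cfsg.Agent.Lib.Block.Defect

set_option autoImplicit false
open Cfsg
open Cfsg.Agent.Lib.Block Cfsg.Agent.Lib.CharExtra Cfsg.Agent.Lib.Char

namespace Cfsg.Agent.S4964


section

variable {G : Type*} [Group G] {p : ℕ} [hp : Fact p.Prime]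
  (D : Subgroup G) [hD' : D.Normal]

theorem index_dvd_lift [Finite G] (g : G) :
    (Subgroup.centralizer ({(g : G ⧸ ⁅D, D⁆)} : Set (G ⧸ ⁅D, D⁆))).index ∣ (Subgroup.centralizer ({g} : Set G)).index := by
  have h1 : Subgroup.centralizer ({g} : Set G) ≤
      (Subgroup.centralizer ({(g : G ⧸ ⁅D, D⁆)} : Set (G ⧸ ⁅D, D⁆))).comap (QuotientGroup.mk' ⁅D, D⁆) := by
    intro c hc
    rw [Subgroup.mem_comap, Subgroup.mem_centralizer_singleton_iff]
    have h2 := Subgroup.mem_centralizer_singleton_iff.mp hc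
    show ((c * g : G) : G ⧸ ⁅D, D⁆) = ((g * c : G) : G ⧸ ⁅D, D⁆)
    rw [h2]
  have h2 := Subgroup.index_dvd_of_le h1
  rwa [Subgroup.index_comap_of_surjective _ (QuotientGroup.mk'_surjective _)] at h2

theorem mem_centralizer_of_lift [Finite G] (hD : IsPGroup p D) {g : G} (hg : ¬ p ∣ orderOf g)
    (h : (g : G ⧸ ⁅D, D⁆) ∈ Subgroup.centralizer ((D.map (QuotientGroup.mk' ⁅D, D⁆) : Subgroup _) : Set (G ⧸ ⁅D, D⁆))) :
    g ∈ Subgroup.centralizer (D : Set G) := by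
  have hpp : p.Prime := Fact.out
  have hsub : Subgroup.zpowers g ≤ Subgroup.centralizer (D : Set G) := by
    apply Cfsg.Agent.Lib.Hall.le_centralizer_of_frattini (Subgroup.zpowers g) D
    · rw [Subgroup.normalizer_eq_top_iff.mpr hD']
      exact le_top
    · rw [Nat.card_zpowers]
      have hfr : IsPGroup p (frattini ↥D) := IsPGroup.to_subgroup hD _
      obtain ⟨k, hk⟩ := IsPGroup.iff_card.mp hfr
      rw [hk]
      apply Nat.Coprime.pow_right
      rw [Nat.coprime_comm, Nat.Prime.coprime_iff_not_dvd hpp]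
      exact hg
    · intro a ha k hk
      have h1 : (⁅D, D⁆ : Subgroup G) ≤ (frattini ↥D).map D.subtype := by
        rw [← D.map_subtype_commutator]
        exact Subgroup.map_mono (Cfsg.Agent.Lib.Transfer.commutator_le_frattini hD)
      apply h1
      obtain ⟨i, rfl⟩ := Subgroup.mem_zpowers_iff.mp ha
      rw [← QuotientGroup.eq_one_iff]
      have h2 : (k : G ⧸ ⁅D, D⁆) * (g : G ⧸ ⁅D, D⁆) = (g : G ⧸ ⁅D, D⁆) * (k : G ⧸ ⁅D, D⁆) :=
        Subgroup.mem_centralizer_iff.mp h _ ⟨k, hk, rfl⟩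
      have h3 : Commute (k : G ⧸ ⁅D, D⁆) (g : G ⧸ ⁅D, D⁆) := h2
      have h4 : Commute (k : G ⧸ ⁅D, D⁆) ((g : G ⧸ ⁅D, D⁆) ^ i) := h3.zpow_right i
      simp only [QuotientGroup.mk_mul, QuotientGroup.mk_inv, QuotientGroup.mk_zpow]
      rw [h4.symm.eq]
      group
  exact hsub (Subgroup.mem_zpowers g)

theorem eq_of_lift [Finite G] (hD : IsPGroup p D) {g g' : G} (hg : g ∈ Subgroup.centralizer (D : Set G))
    (h1 : ¬ p ∣ orderOf g) (h2 : ¬ p ∣ orderOf g') (h : (g : G ⧸ ⁅D, D⁆) = (g' : G ⧸ ⁅D, D⁆)) : g = g' := by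
  have hpp : p.Prime := Fact.out
  have hd : g⁻¹ * g' ∈ (⁅D, D⁆ : Subgroup G) := QuotientGroup.eq.mp h
  have hdD : g⁻¹ * g' ∈ D := Subgroup.commutator_le_left D D hd
  set d := g⁻¹ * g' with hddef
  have hg' : g' = g * d := by rw [hddef]; group
  have hcomm : Commute g d := ((Subgroup.mem_centralizer_iff.mp hg) d hdD).symm
  set o := orderOf g * orderOf g' with ho
  have e1 : g ^ o = 1 := by
    rw [ho, pow_mul, pow_orderOf_eq_one, one_pow]
  have e2 : g' ^ o = 1 := by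
    rw [ho, mul_comm, pow_mul, pow_orderOf_eq_one, one_pow]
  have e3 : d ^ o = 1 := by
    have := e2
    rw [hg', hcomm.mul_pow, e1, one_mul] at this
    exact this
  obtain ⟨k, hk⟩ := hD ⟨d, hdD⟩
  have e4 : d ^ p ^ k = 1 := by
    have := congrArg Subtype.val hk
    simpa using this
  have hcop : Nat.Coprime o (p ^ k) := by
    apply Nat.Coprime.pow_right
    rw [Nat.coprime_comm, Nat.Prime.coprime_iff_not_dvd hpp, ho, hpp.dvd_mul]
    tauto
  have h3 : orderOf d ∣ Nat.gcd o (p ^ k) :=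
    Nat.dvd_gcd (orderOf_dvd_of_pow_eq_one e3) (orderOf_dvd_of_pow_eq_one e4)
  rw [hcop, Nat.dvd_one, orderOf_eq_one_iff] at h3
  rw [hg', h3, mul_one]

variable [Fintype G]

open Classical in
/-- The lift of an element of the group algebra of the quotient to the regular elements centralizing `D`. -/
noncomputable def liftElt (p : ℕ) (D : Subgroup G) [D.Normal] (e : MonoidAlgebra ℂ (G ⧸ ⁅D, D⁆)) : MonoidAlgebra ℂ G :=
  ofFun (fun g => if ¬ p ∣ orderOf g ∧ g ∈ Subgroup.centralizer (D : Set G) then e.coeff (g : G ⧸ ⁅D, D⁆) else 0)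

open Classical in
theorem coeff_liftElt (e : MonoidAlgebra ℂ (G ⧸ ⁅D, D⁆)) (g : G) :
    (liftElt p D e).coeff g = if ¬ p ∣ orderOf g ∧ g ∈ Subgroup.centralizer (D : Set G) then e.coeff (g : G ⧸ ⁅D, D⁆) else 0 :=
  coeff_ofFun _ _

theorem isCentralElt_liftElt {e : MonoidAlgebra ℂ (G ⧸ ⁅D, D⁆)} (he : IsCentralElt e) : IsCentralElt (liftElt p D e) := by
  classical
  intro x g
  rw [coeff_liftElt, coeff_liftElt]
  have h1 : orderOf (x * g * x⁻¹) = orderOf g := Cfsg.Agent.Lib.Transfer.orderOf_conj x g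
  have h2 : x * g * x⁻¹ ∈ Subgroup.centralizer (D : Set G) ↔ g ∈ Subgroup.centralizer (D : Set G) := by
    have hn : (Subgroup.centralizer (D : Set G)).Normal := inferInstance
    exact ⟨fun h => by simpa [mul_assoc] using hn.conj_mem _ h x⁻¹, fun h => hn.conj_mem _ h x⟩
  have h3 : e.coeff ((x * g * x⁻¹ : G) : G ⧸ ⁅D, D⁆) = e.coeff (g : G ⧸ ⁅D, D⁆) := by
    simpa using he (x : G ⧸ ⁅D, D⁆) (g : G ⧸ ⁅D, D⁆)
  rw [h1, h3]
  simp only [h2]

theorem localCoeff_liftElt {M : Ideal AlgInt} [M.IsPrime] {e : MonoidAlgebra ℂ (G ⧸ ⁅D, D⁆)} (he : LocalCoeff M e) :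
    LocalCoeff M (liftElt p D e) := by
  classical
  intro g
  rw [coeff_liftElt]
  split_ifs
  · exact he _
  · exact memLocalRing_zero

theorem tr_liftElt [Fintype (G ⧸ ⁅D, D⁆)] (hD : IsPGroup p D) {e : MonoidAlgebra ℂ (G ⧸ ⁅D, D⁆)} (φ : G ⧸ ⁅D, D⁆ → ℂ)
    (hs : ∀ u : G ⧸ ⁅D, D⁆, e.coeff u ≠ 0 → ¬ p ∣ orderOf u ∧
        u ∈ Subgroup.centralizer ((D.map (QuotientGroup.mk' ⁅D, D⁆) : Subgroup _) : Set (G ⧸ ⁅D, D⁆))) :
    tr (φ ∘ QuotientGroup.mk) (liftElt p D e) = tr φ e := by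
  classical
  have hpp : p.Prime := Fact.out
  unfold tr
  refine Finset.sum_bij_ne_zero (fun g _ _ => (g : G ⧸ ⁅D, D⁆)) (fun _ _ _ => Finset.mem_univ _) ?_ ?_ ?_
  · intro g _ hg g' _ hg' h
    rw [coeff_liftElt] at hg hg'
    have hg1 : ¬ p ∣ orderOf g ∧ g ∈ Subgroup.centralizer (D : Set G) := by
      by_contra hc
      rw [if_neg hc, zero_mul] at hg
      exact hg rfl
    have hg2 : ¬ p ∣ orderOf g' ∧ g' ∈ Subgroup.centralizer (D : Set G) := by
      by_contra hc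
      rw [if_neg hc, zero_mul] at hg'
      exact hg' rfl
    exact eq_of_lift D hD hg1.2 hg1.1 hg2.1 h
  · intro u _ hu
    have he0 : e.coeff u ≠ 0 := left_ne_zero_of_mul hu
    obtain ⟨h1, h2⟩ := hs u he0
    have hc : (orderOf u).Coprime p := by
      rw [Nat.coprime_comm, Nat.Prime.coprime_iff_not_dvd hpp]
      exact h1
    obtain ⟨g, hg, hgo⟩ := Cfsg.Agent.Lib.Coprime.exists_lift_coprime_orderOf (QuotientGroup.mk' ⁅D, D⁆)
      (QuotientGroup.mk'_surjective _) hc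
    have hg' : (g : G ⧸ ⁅D, D⁆) = u := hg
    have hreg : ¬ p ∣ orderOf g := by
      rw [← Nat.Prime.coprime_iff_not_dvd hpp, Nat.coprime_comm]
      exact hgo
    have hcen := mem_centralizer_of_lift D hD hreg (by rw [hg']; exact h2)
    refine ⟨g, Finset.mem_univ _, ?_, hg'⟩
    rw [coeff_liftElt, if_pos ⟨hreg, hcen⟩]
    simpa [hg'] using hu
  · intro g _ hg
    rw [coeff_liftElt] at hg ⊢
    have hg1 : ¬ p ∣ orderOf g ∧ g ∈ Subgroup.centralizer (D : Set G) := by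
      by_contra hc
      rw [if_neg hc, zero_mul] at hg
      exact hg rfl
    rw [if_pos hg1]
    rfl

end

/-- Let D be a normal p-subgroup of the finite group G, let D′ be its commutator subgroup (normal in G), and fix a maximal ideal M of the algebraic integers containing p. Then (i) two irreducible characters of G ⧸ D′ lie in the same p-block if and only if their inflations to G do, and (ii) every p-block of G contains the inflation of some irreducible character of G ⧸ D′; so inflation induces a bijection between the p-blocks of G ⧸ D′ and the p-blocks of G. -/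
theorem result {G : Type*} [Group G] [Finite G] (p : ℕ) [Fact p.Prime] (M : Ideal Cfsg.AlgInt) (hM : Cfsg.IsPModular p M) (D : Subgroup G) [D.Normal] (hD : IsPGroup p D) : (∀ χ ψ : Cfsg.IrrCharacter (G ⧸ ⁅D, D⁆), Cfsg.SameBlock M (χ : G ⧸ ⁅D, D⁆ → ℂ) (ψ : G ⧸ ⁅D, D⁆ → ℂ) ↔ Cfsg.SameBlock M ((χ : G ⧸ ⁅D, D⁆ → ℂ) ∘ QuotientGroup.mk) ((ψ : G ⧸ ⁅D, D⁆ → ℂ) ∘ QuotientGroup.mk)) ∧ ∀ B : Set (Cfsg.IrrCharacter G), Cfsg.IsPBlock M B → ∃ χ : Cfsg.IrrCharacter (G ⧸ ⁅D, D⁆), ∃ θ ∈ B, (θ : G → ℂ) = (χ : G ⧸ ⁅D, D⁆ → ℂ) ∘ QuotientGroup.mk := by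

  classical
  have := Fintype.ofFinite G
  have := isPModular_isPrime hM
  have : Fintype (G ⧸ ⁅D, D⁆) := Fintype.ofFinite _
  have hq : IsPGroup p ↥(D.map (QuotientGroup.mk' ⁅D, D⁆)) := hD.map _
  have hcent : ∀ (χ ψ : IrrCharacter (G ⧸ ⁅D, D⁆)) (g : G), MemLocalIdeal M (centralChar (χ : G ⧸ ⁅D, D⁆ → ℂ) (g : G ⧸ ⁅D, D⁆) -
      centralChar (ψ : G ⧸ ⁅D, D⁆ → ℂ) (g : G ⧸ ⁅D, D⁆)) →
      MemLocalIdeal M (centralChar ((χ : G ⧸ ⁅D, D⁆ → ℂ) ∘ QuotientGroup.mk) g -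
        centralChar ((ψ : G ⧸ ⁅D, D⁆ → ℂ) ∘ QuotientGroup.mk) g) := by
    intro χ ψ g h
    obtain ⟨m, hm⟩ := index_dvd_lift D g
    have h1 : ∀ θ : IrrCharacter (G ⧸ ⁅D, D⁆), centralChar ((θ : G ⧸ ⁅D, D⁆ → ℂ) ∘ QuotientGroup.mk) g =
        (m : ℂ) * centralChar (θ : G ⧸ ⁅D, D⁆ → ℂ) (g : G ⧸ ⁅D, D⁆) := by
      intro θ
      unfold centralChar
      rw [hm]
      simp only [Function.comp, QuotientGroup.mk_one]
      push_cast
      ring
    rw [h1, h1, ← mul_sub]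
    exact memLocalIdeal_mul_left (memLocalRing_natCast m) h
  refine ⟨fun χ ψ => ⟨fun h g => ?_, fun h => ?_⟩, fun B hB => ?_⟩
  · exact hcent χ ψ g (h _)
  · by_contra hns
    have hχb : χ ∈ blockOf M (χ : G ⧸ ⁅D, D⁆ → ℂ) := mem_blockOf_self χ
    have hψb : ψ ∉ blockOf M (χ : G ⧸ ⁅D, D⁆ → ℂ) := hns
    have hb : IsPBlock M (blockOf M (χ : G ⧸ ⁅D, D⁆ → ℂ)) := isPBlock_blockOf χ
    set b := blockOf M (χ : G ⧸ ⁅D, D⁆ → ℂ) with hbdef
    have hsupp : ∀ u : G ⧸ ⁅D, D⁆, (blockElt b).coeff u ≠ 0 → ¬ p ∣ orderOf u ∧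
        u ∈ Subgroup.centralizer ((D.map (QuotientGroup.mk' ⁅D, D⁆) : Subgroup _) : Set (G ⧸ ⁅D, D⁆)) := by
      intro u hu
      rw [coeff_blockElt] at hu
      constructor
      · exact regular_of_blockCoeff_ne_zero hM (isBlockUnion_of_isPBlock hb) hu
      · by_contra hnot
        exact hu (blockCoeff_eq_zero_of_notMem_centralizer hM _ hq hb hnot)
    have hzc := isCentralElt_liftElt (p := p) D (isCentralElt_blockElt b)
    have hzl := localCoeff_liftElt (p := p) D (localCoeff_blockElt (isBlockUnion_of_isPBlock hb))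
    have hom : ∀ θ : IrrCharacter (G ⧸ ⁅D, D⁆), om ((θ : G ⧸ ⁅D, D⁆ → ℂ) ∘ QuotientGroup.mk) (liftElt p D (blockElt b)) =
        om (θ : G ⧸ ⁅D, D⁆ → ℂ) (blockElt b) := by
      intro θ
      unfold om
      have e1 : ((θ : G ⧸ ⁅D, D⁆ → ℂ) ∘ QuotientGroup.mk) (1 : G) = (θ : G ⧸ ⁅D, D⁆ → ℂ) 1 := by
        simp only [Function.comp]
        rw [QuotientGroup.mk_one]
      rw [tr_liftElt D hD (θ : G ⧸ ⁅D, D⁆ → ℂ) hsupp, e1]
    have hirr : ∀ θ : IrrCharacter (G ⧸ ⁅D, D⁆), IsIrrCharacter G ((θ : G ⧸ ⁅D, D⁆ → ℂ) ∘ QuotientGroup.mk) :=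
      fun θ => isIrr_comp_surjective (QuotientGroup.mk' ⁅D, D⁆) (QuotientGroup.mk'_surjective _) θ.2
    have h1 := memLocalIdeal_om_sub (hirr χ) (hirr ψ) h hzc hzl
    rw [hom, hom, om_blockElt_of_mem hχb, om_blockElt_of_notMem hψb, sub_zero] at h1
    exact not_memLocalIdeal_one h1
  · by_contra hcon
    push Not at hcon
    have hker : ∀ θ ∈ B, ¬ Cfsg.Agent.Lib.Degree.KerContains ⁅D, D⁆ (θ : G → ℂ) := by
      intro θ hθ hk
      obtain ⟨ψ, hψ⟩ := Cfsg.Agent.Lib.Degree.exists_inflate ⁅D, D⁆ hk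
      exact hcon ψ θ hθ (by rw [← hψ]; rfl)
    obtain ⟨θ₀, hθ₀⟩ := IsPBlock_nonempty hB
    have hzero : ∀ g : G, ∑ d : ↥(⁅D, D⁆ : Subgroup G), blockCoeff B ((d : G) * g) = 0 := by
      intro g
      simp_rw [blockCoeff_eq_sum]
      rw [← Finset.mul_sum, Finset.sum_comm]
      rw [Finset.sum_eq_zero, mul_zero]
      intro χ _
      by_cases hχ : χ ∈ B
      · simp only [if_pos hχ]
        rw [← Finset.mul_sum, ← map_sum, Cfsg.Agent.Lib.Degree.irr_sum_coset_eq_zero ⁅D, D⁆ χ (hker χ hχ) g]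
        simp
      · simp [if_neg hχ]
    have hex : ∃ g : G, blockCoeff B g ≠ 0 := by
      by_contra hall
      push Not at hall
      have h1 := om_blockElt_of_mem hθ₀
      unfold om tr at h1
      simp only [coeff_blockElt, hall, zero_mul, Finset.sum_const_zero, zero_div] at h1
      exact zero_ne_one h1
    obtain ⟨g₀, hg₀⟩ := hex
    have hreg := regular_of_blockCoeff_ne_zero hM (isBlockUnion_of_isPBlock hB) hg₀
    have hcen : g₀ ∈ Subgroup.centralizer (D : Set G) := by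
      by_contra hnot
      exact hg₀ (blockCoeff_eq_zero_of_notMem_centralizer hM D hD hB hnot)
    have h2 := hzero g₀
    rw [Finset.sum_eq_single (1 : ↥(⁅D, D⁆ : Subgroup G))] at h2
    · simp only [OneMemClass.coe_one, one_mul] at h2
      exact hg₀ h2
    · intro d _ hd
      by_contra hne
      have h3 := regular_of_blockCoeff_ne_zero hM (isBlockUnion_of_isPBlock hB) hne
      have h4 : ((g₀ : G) : G ⧸ ⁅D, D⁆) = (((d : G) * g₀ : G) : G ⧸ ⁅D, D⁆) := by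
        rw [QuotientGroup.eq]
        have : g₀⁻¹ * ((d : G) * g₀) = g₀⁻¹ * (d : G) * g₀⁻¹⁻¹ := by group
        rw [this]
        exact (inferInstance : (⁅D, D⁆ : Subgroup G).Normal).conj_mem _ d.2 _
      have h5 := eq_of_lift D hD hcen hreg h3 h4
      apply hd
      apply Subtype.ext
      have h6 : (d : G) * g₀ = 1 * g₀ := by rw [one_mul]; exact h5.symm
      simpa using mul_right_cancel h6
    · simp

end Cfsg.Agent.S4964
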