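import Cfsg.Statements.S4965
import Mathlib

set_option autoImplicit false
open Cfsg

namespace Cfsg.Agent.S4965

/-- Let X be a finite group with an abelian normal subgroup V (any two elements of V commute), and let φ be the action of X ⧸ V on V induced by conjugation (well defined because V is abelian; the hypothesis hφ says that the class of x acts as conjugation by x). Then X has at most as many conjugacy classes as the semidirect product of V by X ⧸ V formed with this action: the split extension has the largest class number among extensions with the given action. -/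
theorem result {X : Type*} [Group X] [Finite X] (V : Subgroup X) [V.Normal] (hab : ∀ a ∈ V, ∀ b ∈ V, a * b = b * a) (φ : X ⧸ V →* MulAut ↥V) (hφ : ∀ (x : X) (v : ↥V), ((φ (QuotientGroup.mk x) v : ↥V) : X) = x * v * x⁻¹) : Nat.card (ConjClasses X) ≤ Nat.card (ConjClasses (SemidirectProduct ↥V (X ⧸ V) φ)) := by
  classical
  have hfin : Finite (SemidirectProduct (↥V) (X ⧸ V) φ) :=
    Finite.of_equiv (↥V × (X ⧸ V)) SemidirectProduct.equivProd.symm
  -- commuting pairs of X
  let π : {p : X × X // Commute p.1 p.2} → (X ⧸ V) × (X ⧸ V) :=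
    fun p => ((QuotientGroup.mk p.1.1 : X ⧸ V), (QuotientGroup.mk p.1.2 : X ⧸ V))
  have : Nonempty {p : X × X // Commute p.1 p.2} := ⟨⟨(1, 1), Commute.one_left 1⟩⟩
  let base : (X ⧸ V) × (X ⧸ V) → {p : X × X // Commute p.1 p.2} := Function.invFun π
  have hbase : ∀ c, π (base (π c)) = π c := fun c => Function.invFun_eq ⟨c, rfl⟩
  have hmem1 : ∀ c : {p : X × X // Commute p.1 p.2}, c.1.1 * (base (π c)).1.1⁻¹ ∈ V := by
    intro c
    have h := congrArg Prod.fst (hbase c)
    have h' : (QuotientGroup.mk (base (π c)).1.1 : X ⧸ V) = QuotientGroup.mk c.1.1 := h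
    have h2 := QuotientGroup.eq.mp h'
    have h3 := Subgroup.Normal.conj_mem ‹V.Normal› _ h2 c.1.1
    have h4 : c.1.1 * ((base (π c)).1.1⁻¹ * c.1.1) * c.1.1⁻¹ = c.1.1 * (base (π c)).1.1⁻¹ := by group
    rwa [h4] at h3
  have hmem2 : ∀ c : {p : X × X // Commute p.1 p.2}, c.1.2 * (base (π c)).1.2⁻¹ ∈ V := by
    intro c
    have h := congrArg Prod.snd (hbase c)
    have h' : (QuotientGroup.mk (base (π c)).1.2 : X ⧸ V) = QuotientGroup.mk c.1.2 := h
    have h2 := QuotientGroup.eq.mp h'
    have h3 := Subgroup.Normal.conj_mem ‹V.Normal› _ h2 c.1.2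
    have h4 : c.1.2 * ((base (π c)).1.2⁻¹ * c.1.2) * c.1.2⁻¹ = c.1.2 * (base (π c)).1.2⁻¹ := by group
    rwa [h4] at h3
  -- the injection
  let f : {p : X × X // Commute p.1 p.2} →
      {p : (SemidirectProduct (↥V) (X ⧸ V) φ) × (SemidirectProduct (↥V) (X ⧸ V) φ) // Commute p.1 p.2} := fun c =>
    ⟨(⟨⟨c.1.1 * (base (π c)).1.1⁻¹, hmem1 c⟩, (QuotientGroup.mk c.1.1 : X ⧸ V)⟩,
      ⟨⟨c.1.2 * (base (π c)).1.2⁻¹, hmem2 c⟩, (QuotientGroup.mk c.1.2 : X ⧸ V)⟩), by
      have hc : c.1.1 * c.1.2 = c.1.2 * c.1.1 := c.2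
      have hb : (base (π c)).1.1 * (base (π c)).1.2 = (base (π c)).1.2 * (base (π c)).1.1 :=
        (base (π c)).2
      have hb1 : (QuotientGroup.mk (base (π c)).1.1 : X ⧸ V) = QuotientGroup.mk c.1.1 :=
        congrArg Prod.fst (hbase c)
      have hb2 : (QuotientGroup.mk (base (π c)).1.2 : X ⧸ V) = QuotientGroup.mk c.1.2 :=
        congrArg Prod.snd (hbase c)
      show _ * _ = _ * _
      apply SemidirectProduct.ext
      · simp only [SemidirectProduct.mul_left]
        apply Subtype.ext
        simp only [Subgroup.coe_mul, MulAut.coe_mul]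
        rw [← hb1, ← hb2, hφ, hφ]
        simp only
        set a₀ := (base (π c)).1.1
        set b₀ := (base (π c)).1.2
        set a := c.1.1
        set b := c.1.2
        have h1 : a * a₀⁻¹ * (a₀ * (b * b₀⁻¹) * a₀⁻¹) = (a * b) * (b₀⁻¹ * a₀⁻¹) := by group
        have h2 : b * b₀⁻¹ * (b₀ * (a * a₀⁻¹) * b₀⁻¹) = (b * a) * (a₀⁻¹ * b₀⁻¹) := by group
        have h3 : b₀⁻¹ * a₀⁻¹ = a₀⁻¹ * b₀⁻¹ := by
          rw [← mul_inv_rev, ← mul_inv_rev, hb]
        rw [h1, h2, h3, hc]
      · simp only [SemidirectProduct.mul_right]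
        rw [← QuotientGroup.mk_mul, ← QuotientGroup.mk_mul, hc]⟩
  have hf : Function.Injective f := by
    intro c d hcd
    have h1 := congrArg (fun p => p.1.1.right) hcd
    have h2 := congrArg (fun p => p.1.2.right) hcd
    have h3 := congrArg (fun p => (p.1.1.left : X)) hcd
    have h4 := congrArg (fun p => (p.1.2.left : X)) hcd
    simp only [f] at h1 h2 h3 h4
    have hπ : π c = π d := Prod.ext h1 h2
    rw [hπ] at h3 h4
    apply Subtype.ext
    apply Prod.ext
    · exact mul_right_cancel h3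
    · exact mul_right_cancel h4
  have hle := Nat.card_le_card_of_injective f hf
  rw [card_comm_eq_card_conjClasses_mul_card, card_comm_eq_card_conjClasses_mul_card] at hle
  have hcardY : Nat.card (SemidirectProduct (↥V) (X ⧸ V) φ) = Nat.card X := by
    have : Nat.card (SemidirectProduct (↥V) (X ⧸ V) φ) = Nat.card V * Nat.card (X ⧸ V) :=
      SemidirectProduct.card
    rw [this, ← Subgroup.index_eq_card, Subgroup.card_mul_index]
  rw [hcardY] at hle
  exact Nat.le_of_mul_le_mul_right hle Nat.card_pos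

end Cfsg.Agent.S4965
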