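import Cfsg.Statements.S4966
import Mathlib

set_option autoImplicit false
open Cfsg

namespace Cfsg.Agent.S4966


section Aux

variable {F : Type*} [Field F] {V : Type*} [AddCommGroup V] [Module F V]

theorem exists_symm_nondeg [FiniteDimensional F V] (W : Submodule F V) :
    ∃ S : LinearMap.BilinForm F V, (∀ x y, S x y = S y x) ∧ ∀ x ∈ W, (∀ y ∈ W, S x y = 0) → x = 0 := by
  classical
  obtain ⟨Y, hY⟩ := W.exists_isCompl
  let π := W.projectionOnto Y hY
  let b := Module.finBasis F W
  let c : Fin (Module.finrank F W) → (V →ₗ[F] F) := fun i => (b.coord i) ∘ₗ π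
  refine ⟨LinearMap.mk₂ F (fun x y => ∑ i, c i x * c i y) ?_ ?_ ?_ ?_, ?_, ?_⟩
  · intro x x' y
    simp only [map_add, add_mul, Finset.sum_add_distrib]
  · intro a x y
    simp only [map_smul, smul_eq_mul, Finset.mul_sum, mul_assoc]
  · intro x y y'
    simp only [map_add, mul_add, Finset.sum_add_distrib]
  · intro a x y
    simp only [map_smul, smul_eq_mul, Finset.mul_sum]
    exact Finset.sum_congr rfl fun i _ => by ring
  · intro x y
    simp only [LinearMap.mk₂_apply]
    exact Finset.sum_congr rfl fun i _ => mul_comm _ _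
  · intro x hx h
    have h1 : π x = ⟨x, hx⟩ := Submodule.projectionOnto_apply_of_mem_left hY hx
    have h2 : ∀ j, b.coord j ⟨x, hx⟩ = 0 := by
      intro j
      have h3 := h (b j : V) (b j).2
      simp only [LinearMap.mk₂_apply] at h3
      have h4 : ∀ i, c i (b j : V) = if i = j then 1 else 0 := by
        intro i
        have h5 : π (b j : V) = b j := Submodule.projectionOnto_apply_of_mem_left hY (b j).2
        show b.coord i (π (b j : V)) = _
        rw [h5, Module.Basis.coord_apply, Module.Basis.repr_self, Finsupp.single_apply]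
        simp only [eq_comm]
      simp only [h4, mul_ite, mul_one, mul_zero, Finset.sum_ite_eq', Finset.mem_univ, if_true] at h3
      have h6 : c j x = b.coord j ⟨x, hx⟩ := by
        show b.coord j (π x) = _
        rw [h1]
      rw [← h6]
      exact h3
    have h7 : (⟨x, hx⟩ : W) = 0 := by
      apply b.ext_elem
      intro j
      have := h2 j
      rw [Module.Basis.coord_apply] at this
      rw [this]
      simp
    exact congrArg Subtype.val h7

theorem glue_forms [FiniteDimensional F V] (U₁ U₂ : Submodule F V) (hd : Disjoint U₁ U₂)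
    (A₁ A₂ : LinearMap.BilinForm F V) (alt₁ : ∀ x, A₁ x x = 0) (alt₂ : ∀ x, A₂ x x = 0) :
    ∃ A : LinearMap.BilinForm F V, (∀ x, A x x = 0) ∧
      ∀ u₁ ∈ U₁, ∀ u₂ ∈ U₂, ∀ v₁ ∈ U₁, ∀ v₂ ∈ U₂, A (u₁ + u₂) (v₁ + v₂) = A₁ u₁ v₁ + A₂ u₂ v₂ := by
  classical
  obtain ⟨Q₁, h1, h1''⟩ := hd.symm.exists_isCompl
  obtain ⟨Q₂, h2, h2''⟩ := hd.exists_isCompl
  have h1' := h1''.symm
  have h2' := h2''.symm
  let π₁ := U₁.projection Q₁ h1'
  let π₂ := U₂.projection Q₂ h2'
  have hπ₁ : ∀ u₁ ∈ U₁, ∀ u₂ ∈ U₂, π₁ (u₁ + u₂) = u₁ := by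
    intro u₁ hu₁ u₂ hu₂
    rw [map_add]
    have h3 : π₁ u₁ = u₁ := Submodule.projection_apply_of_mem_left h1' hu₁
    have h4 : π₁ u₂ = 0 := by
      apply Submodule.projection_apply_eq_zero_iff h1' |>.2 (h1 hu₂)
    rw [h3, h4, add_zero]
  have hπ₂ : ∀ u₁ ∈ U₁, ∀ u₂ ∈ U₂, π₂ (u₁ + u₂) = u₂ := by
    intro u₁ hu₁ u₂ hu₂
    rw [map_add]
    have h3 : π₂ u₂ = u₂ := Submodule.projection_apply_of_mem_left h2' hu₂
    have h4 : π₂ u₁ = 0 := by
      apply Submodule.projection_apply_eq_zero_iff h2' |>.2 (h2 hu₁)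
    rw [h3, h4, zero_add]
  refine ⟨LinearMap.mk₂ F (fun x y => A₁ (π₁ x) (π₁ y) + A₂ (π₂ x) (π₂ y)) ?_ ?_ ?_ ?_, ?_, ?_⟩
  · intro x x' y
    simp only [map_add, LinearMap.add_apply]
    ring
  · intro a x y
    simp only [map_smul, LinearMap.smul_apply, smul_eq_mul]
    ring
  · intro x y y'
    simp only [map_add]
    ring
  · intro a x y
    simp only [map_smul, smul_eq_mul]
    ring
  · intro x
    simp only [LinearMap.mk₂_apply, alt₁, alt₂, add_zero]
  · intro u₁ hu₁ u₂ hu₂ v₁ hv₁ v₂ hv₂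
    simp only [LinearMap.mk₂_apply]
    rw [hπ₁ u₁ hu₁ u₂ hu₂, hπ₁ v₁ hv₁ v₂ hv₂, hπ₂ u₁ hu₁ u₂ hu₂, hπ₂ v₁ hv₁ v₂ hv₂]

end Aux

theorem eq_one_of_isConj_inv {G : Type*} [Group G] [Finite G] (hodd : Odd (Nat.card G)) {g : G}
    (h : IsConj g g⁻¹) : g = 1 := by
  obtain ⟨c, hc⟩ := isConj_iff.1 h
  have hc2 : c * c * g * (c * c)⁻¹ = g := by
    calc c * c * g * (c * c)⁻¹ = c * (c * g * c⁻¹) * c⁻¹ := by group
      _ = c * g⁻¹ * c⁻¹ := by rw [hc]
      _ = (c * g * c⁻¹)⁻¹ := by group
      _ = g := by rw [hc]; group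
  obtain ⟨m, hm⟩ := hodd
  have hpow : c ^ (Nat.card G) = 1 := pow_card_eq_one'
  have hcm : c = (c * c) ^ (m + 1) := by
    have h1 : (c * c) ^ (m + 1) = c ^ (2 * m + 2) := by
      rw [← pow_two, ← pow_mul]; ring_nf
    rw [h1]
    have h2 : c ^ (2 * m + 2) = c ^ (2 * m + 1) * c := by rw [pow_succ]
    rw [h2, ← hm, hpow, one_mul]
  have hcomm : Commute (c * c) g := by
    rw [commute_iff_eq]
    calc c * c * g = (c * c * g * (c * c)⁻¹) * (c * c) := by group
      _ = g * (c * c) := by rw [hc2]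
  have hcomm2 : Commute c g := by
    rw [hcm]
    exact hcomm.pow_left _
  have hinv : g⁻¹ = g := by
    rw [← hc, hcomm2.eq]
    group
  have hg2 : g ^ 2 = 1 := by
    rw [pow_two]
    nth_rw 1 [← hinv]
    group
  have hgc : g ^ (Nat.card G) = 1 := pow_card_eq_one'
  have h3 : orderOf g ∣ 2 := orderOf_dvd_of_pow_eq_one hg2
  have h4 : orderOf g ∣ Nat.card G := orderOf_dvd_of_pow_eq_one hgc
  have h5 : orderOf g ∣ 1 := by
    have : Nat.gcd 2 (Nat.card G) = 1 := by
      rw [hm]
      simp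
    rw [← this]
    exact Nat.dvd_gcd h3 h4
  exact orderOf_eq_one_iff.1 (Nat.dvd_one.1 h5)

theorem exists_class_half {G : Type*} [Group G] [Finite G] {F : Type*} [Field F] [CharP F 2]
    (hodd : Odd (Nat.card G)) :
    ∃ c : G → F, (∀ g h, c (h * g * h⁻¹) = c g) ∧ c 1 = 0 ∧ ∀ g, g ≠ 1 → c g + c g⁻¹ = 1 := by
  classical
  haveI := Fintype.ofFinite G
  haveI : Fintype (ConjClasses G) := Fintype.ofFinite _
  let e := Fintype.equivFin (ConjClasses G)
  refine ⟨fun g => if e (ConjClasses.mk g) < e (ConjClasses.mk g⁻¹) then 1 else 0, ?_, ?_, ?_⟩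
  · intro g h
    have h1 : ConjClasses.mk (h * g * h⁻¹) = ConjClasses.mk g :=
      ConjClasses.mk_eq_mk_iff_isConj.2 (isConj_iff.2 ⟨h⁻¹, by group⟩)
    have h2 : ConjClasses.mk (h * g * h⁻¹)⁻¹ = ConjClasses.mk g⁻¹ :=
      ConjClasses.mk_eq_mk_iff_isConj.2 (isConj_iff.2 ⟨h⁻¹, by group⟩)
    simp only [h1, h2]
  · simp
  · intro g hg
    have hne : e (ConjClasses.mk g) ≠ e (ConjClasses.mk g⁻¹) := by
      intro h
      have h1 := e.injective h
      exact hg (eq_one_of_isConj_inv hodd (ConjClasses.mk_eq_mk_iff_isConj.1 h1))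
    simp only [inv_inv]
    rcases lt_or_gt_of_ne hne with h | h
    · rw [if_pos h, if_neg (not_lt.2 h.le), add_zero]
    · rw [if_neg (not_lt.2 h.le), if_pos h, zero_add]

/-- Let F be a finite field of characteristic p, G a finite group of order prime to p, and V a finite-dimensional representation of G over F carrying a nondegenerate G-invariant bilinear form (equivalently, V is self-dual). Then V is the direct sum of two G-invariant subspaces U and W such that U carries a G-invariant alternating bilinear form that is nondegenerate on U and W carries a G-invariant symmetric bilinear form that is nondegenerate on W; moreover when p = 2 the decomposition can be chosen with G acting trivially on W. -/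
theorem result {F : Type*} [Field F] [Fintype F] (p : ℕ) [Fact p.Prime] [CharP F p] {G : Type*} [Group G] [Finite G] (hcop : ¬ p ∣ Nat.card G) {V : Type*} [AddCommGroup V] [Module F V] [FiniteDimensional F V] (ρ : Representation F G V) (B : LinearMap.BilinForm F V) (hB : B.Nondegenerate) (hBinv : ∀ g : G, ∀ x y : V, B (ρ g x) (ρ g y) = B x y) : ∃ U W : Submodule F V, IsCompl U W ∧ (∀ g : G, ∀ u ∈ U, ρ g u ∈ U) ∧ (∀ g : G, ∀ w ∈ W, ρ g w ∈ W) ∧ (∃ A : LinearMap.BilinForm F V, (∀ x : V, A x x = 0) ∧ (∀ g : G, ∀ x ∈ U, ∀ y ∈ U, A (ρ g x) (ρ g y) = A x y) ∧ (∀ x ∈ U, (∀ y ∈ U, A x y = 0) → x = 0)) ∧ (∃ S : LinearMap.BilinForm F V, (∀ x y : V, S x y = S y x) ∧ (∀ g : G, ∀ x ∈ W, ∀ y ∈ W, S (ρ g x) (ρ g y) = S x y) ∧ (∀ x ∈ W, (∀ y ∈ W, S x y = 0) → x = 0)) ∧ (p = 2 → ∀ g : G, ∀ w ∈ W, ρ g w = w) := by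
  classical
  haveI := Fintype.ofFinite G
  -- the asymmetry
  let τ : Module.End F V := (B.toDual hB).symm.toLinearMap ∘ₗ B.flip
  have hτ : ∀ x y, B (τ y) x = B x y := by
    intro x y
    have h1 : B.toDual hB (τ y) = B.flip y := by
      simp [τ]
    have h2 := LinearMap.congr_fun h1 x
    rw [LinearMap.BilinForm.toDual_def] at h2
    exact h2
  have hleft : ∀ x, (∀ y, B x y = 0) → x = 0 := hB.1
  have hiso : ∀ x y, B (τ x) (τ y) = B x y := by
    intro x y
    rw [hτ, hτ]
  have hρinv : ∀ g (x : V), ρ g (ρ g⁻¹ x) = x := by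
    intro g x
    rw [← Module.End.mul_apply, ← map_mul]; simp
  have hρadj : ∀ g x y, B x (ρ g y) = B (ρ g⁻¹ x) y := by
    intro g x y
    have := hBinv g (ρ g⁻¹ x) y
    rwa [hρinv] at this
  have hτρ : ∀ g y, τ (ρ g y) = ρ g (τ y) := by
    intro g y
    rw [← sub_eq_zero]
    apply hleft
    intro x
    rw [map_sub, LinearMap.sub_apply, hτ, hρadj, ← hτ (ρ g⁻¹ x) y]
    have h1 := hBinv g (τ y) (ρ g⁻¹ x)
    rw [hρinv] at h1
    rw [h1, sub_self]
  -- Fitting
  let T : Module.End F V := τ - 1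
  have hT : ∀ x, T x = τ x - x := fun x => rfl
  have hcτ : Commute T τ := by
    show T * τ = τ * T
    simp only [T, sub_mul, mul_sub, one_mul, mul_one]
  have hTτ : ∀ n x, (T ^ n) (τ x) = τ ((T ^ n) x) := by
    intro n x
    exact LinearMap.congr_fun (hcτ.pow_left n).eq x
  have hτn : ∀ n x, (τ ^ n) (τ x) = (τ ^ (n + 1)) x := by
    intro n x
    rw [pow_succ]; rfl
  have hTρ : ∀ g y, T (ρ g y) = ρ g (T y) := by
    intro g y
    rw [hT, hT, hτρ, map_sub]
  have hTnρ : ∀ n g y, (T ^ n) (ρ g y) = ρ g ((T ^ n) y) := by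
    intro n g y
    have hc : Commute T (ρ g) := by
      ext x
      exact hTρ g x
    exact LinearMap.congr_fun (hc.pow_left n).eq y
  obtain ⟨k, hk1, hk⟩ : ∃ k : ℕ, 1 ≤ k ∧ IsCompl (LinearMap.ker (T ^ k)) (LinearMap.range (T ^ k)) := by
    have h := (LinearMap.eventually_isCompl_ker_pow_range_pow T).and (Filter.eventually_ge_atTop 1)
    obtain ⟨k, h1, h2⟩ := h.exists
    exact ⟨k, h2, h1⟩
  have hTstep : ∀ x w, B x (T w) = - B (T x) (τ w) := by
    intro x w
    simp only [hT, map_sub, LinearMap.sub_apply, hiso]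
    ring
  have hadj : ∀ n x z, B x ((T ^ n) z) = (-1) ^ n * B ((T ^ n) x) ((τ ^ n) z) := by
    intro n
    induction n with
    | zero => intro x z; simp
    | succ n ih =>
      intro x z
      have h1 : (T ^ (n + 1)) z = T ((T ^ n) z) := by rw [pow_succ']; rfl
      have h2 : (T ^ (n + 1)) x = (T ^ n) (T x) := by rw [pow_succ]; rfl
      rw [h1, hTstep, ← hTτ, ih, h2, hτn, pow_succ]
      ring
  have hKmem : ∀ x, x ∈ LinearMap.ker (T ^ k) ↔ (T ^ k) x = 0 := fun x => LinearMap.mem_ker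
  have hKR : ∀ x ∈ LinearMap.ker (T ^ k), ∀ y ∈ LinearMap.range (T ^ k), B x y = 0 := by
    rintro x hx _ ⟨z, rfl⟩
    rw [hadj, (hKmem x).1 hx]
    simp
  have hτK : ∀ x ∈ LinearMap.ker (T ^ k), τ x ∈ LinearMap.ker (T ^ k) := by
    intro x hx
    rw [hKmem, hTτ, (hKmem x).1 hx, map_zero]
  have hRK : ∀ y ∈ LinearMap.range (T ^ k), ∀ x ∈ LinearMap.ker (T ^ k), B y x = 0 := by
    intro y hy x hx
    rw [← hτ]
    exact hKR _ (hτK x hx) y hy
  have hKinv : ∀ g, ∀ x ∈ LinearMap.ker (T ^ k), ρ g x ∈ LinearMap.ker (T ^ k) := by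
    intro g x hx
    rw [hKmem, hTnρ, (hKmem x).1 hx, map_zero]
  have hRinv : ∀ g, ∀ x ∈ LinearMap.range (T ^ k), ρ g x ∈ LinearMap.range (T ^ k) := by
    rintro g _ ⟨z, rfl⟩
    exact ⟨ρ g z, hTnρ k g z⟩
  have hdec : ∀ v : V, ∃ a ∈ LinearMap.ker (T ^ k), ∃ b ∈ LinearMap.range (T ^ k), a + b = v := by
    intro v
    have : v ∈ LinearMap.ker (T ^ k) ⊔ LinearMap.range (T ^ k) := by
      rw [hk.sup_eq_top]; trivial
    exact Submodule.mem_sup.1 this
  have hKRdis : ∀ x, x ∈ LinearMap.ker (T ^ k) → x ∈ LinearMap.range (T ^ k) → x = 0 := by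
    intro x h1 h2
    exact (Submodule.disjoint_def.1 hk.disjoint) x h1 h2
  have ndR : ∀ x ∈ LinearMap.range (T ^ k), (∀ y ∈ LinearMap.range (T ^ k), B x y = 0) → x = 0 := by
    intro x hx h
    apply hleft
    intro v
    obtain ⟨a, ha, b, hb, rfl⟩ := hdec v
    rw [map_add, hRK x hx a ha, h b hb, add_zero]
  have ndK : ∀ x ∈ LinearMap.ker (T ^ k), (∀ y ∈ LinearMap.ker (T ^ k), B x y = 0) → x = 0 := by
    intro x hx h
    apply hleft
    intro v
    obtain ⟨a, ha, b, hb, rfl⟩ := hdec v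
    rw [map_add, hKR x hx b hb, h a ha, add_zero]
  have hTR : ∀ x ∈ LinearMap.range (T ^ k), T x ∈ LinearMap.range (T ^ k) := by
    rintro _ ⟨z, rfl⟩
    refine ⟨T z, ?_⟩
    have : Commute T (T ^ k) := Commute.pow_right (Commute.refl T) k
    exact LinearMap.congr_fun this.symm.eq z
  have hTinj : ∀ x ∈ LinearMap.range (T ^ k), T x = 0 → x = 0 := by
    intro x hx h
    apply hKRdis x _ hx
    rw [hKmem]
    obtain ⟨j, rfl⟩ : ∃ j, k = j + 1 := ⟨k - 1, by omega⟩
    rw [pow_succ]
    show (T ^ j) (T x) = 0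
    rw [h, map_zero]
  -- the alternating form on the range part
  let A : LinearMap.BilinForm F V := B - B.flip
  have hAapp : ∀ x y, A x y = B x y - B y x := fun x y => rfl
  have hAalt : ∀ x, A x x = 0 := fun x => by rw [hAapp, sub_self]
  have hAinv : ∀ g x y, A (ρ g x) (ρ g y) = A x y := by
    intro g x y
    rw [hAapp, hAapp, hBinv, hBinv]
  have ndA : ∀ x ∈ LinearMap.range (T ^ k), (∀ y ∈ LinearMap.range (T ^ k), A x y = 0) → x = 0 := by
    intro x hx h
    apply hTinj x hx
    apply ndR _ (hTR x hx)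
    intro y hy
    have h1 := h y hy
    rw [hAapp, ← hτ y x] at h1
    rw [hT, map_sub, LinearMap.sub_apply]
    rw [sub_eq_zero] at h1 ⊢
    exact h1.symm
  by_cases hp2 : p = 2
  · subst hp2
    have h20 : (2 : F) = 0 := CharTwo.two_eq_zero
    have hneg : ∀ v : V, - v = v := by
      intro v
      have : (2 : F) • v = 0 := by rw [h20, zero_smul]
      rw [two_smul] at this
      exact neg_eq_of_add_eq_zero_left this
    have haddself : ∀ v : V, v + v = 0 := by
      intro v
      have : (2 : F) • v = 0 := by rw [h20, zero_smul]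
      rwa [two_smul] at this
    have hodd : Odd (Nat.card G) := by
      rw [← Nat.not_even_iff_odd, even_iff_two_dvd]
      exact hcop
    have hcard1 : ((Fintype.card G : ℕ) : F) = 1 := by
      rw [← Nat.card_eq_fintype_card]
      obtain ⟨m, hm⟩ := hodd
      rw [hm]
      push_cast
      rw [h20, zero_mul, zero_add]
    let N : Module.End F V := ∑ g : G, ρ g
    have hNapp : ∀ v, N v = ∑ g : G, ρ g v := fun v => by simp [N, LinearMap.sum_apply]
    have hρN : ∀ h v, ρ h (N v) = N v := by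
      intro h v
      rw [hNapp, map_sum]
      have : ∀ g, ρ h (ρ g v) = ρ (h * g) v := by
        intro g
        rw [map_mul]; rfl
      simp only [this]
      exact Equiv.sum_comp (Equiv.mulLeft h) (fun g => ρ g v)
    have hNρ : ∀ h v, N (ρ h v) = N v := by
      intro h v
      rw [hNapp, hNapp]
      have : ∀ g, ρ g (ρ h v) = ρ (g * h) v := by
        intro g
        rw [map_mul]; rfl
      simp only [this]
      exact Equiv.sum_comp (Equiv.mulRight h) (fun g => ρ g v)
    have hNN : ∀ v, N (N v) = N v := by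
      intro v
      rw [hNapp (N v)]
      simp only [hρN]
      rw [Finset.sum_const, Finset.card_univ, ← Nat.cast_smul_eq_nsmul F, hcard1, one_smul]
    have hNadj : ∀ x y, B x (N y) = B (N x) y := by
      intro x y
      rw [hNapp, hNapp, map_sum, map_sum, LinearMap.sum_apply]
      simp only [hρadj]
      exact Equiv.sum_comp (Equiv.inv G) (fun g => B (ρ g x) y)
    have hNT : ∀ n v, (T ^ n) (N v) = N ((T ^ n) v) := by
      intro n v
      rw [hNapp, hNapp, map_sum]
      simp only [hTnρ]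
    have hNK : ∀ x ∈ LinearMap.ker (T ^ k), N x ∈ LinearMap.ker (T ^ k) := by
      intro x hx
      rw [hKmem, hNT, (hKmem x).1 hx, map_zero]
    let D₁ : Submodule F V := LinearMap.ker (T ^ k) ⊓ LinearMap.ker N
    let C₁ : Submodule F V := LinearMap.ker (T ^ k) ⊓ LinearMap.range N
    have hD₁ : ∀ x, x ∈ D₁ ↔ x ∈ LinearMap.ker (T ^ k) ∧ N x = 0 := fun x => by
      simp only [D₁, Submodule.mem_inf, LinearMap.mem_ker]
    have hC₁ : ∀ x, x ∈ C₁ ↔ x ∈ LinearMap.ker (T ^ k) ∧ x ∈ LinearMap.range N := fun x => by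
      simp only [C₁, Submodule.mem_inf]
    have hCfix : ∀ x ∈ C₁, ∀ g, ρ g x = x := by
      intro x hx g
      obtain ⟨_, z, rfl⟩ := (hC₁ x).1 hx
      exact hρN g z
    have hCN : ∀ x ∈ C₁, N x = x := by
      intro x hx
      obtain ⟨_, z, rfl⟩ := (hC₁ x).1 hx
      exact hNN z
    have hsub : ∀ a ∈ LinearMap.ker (T ^ k), a - N a ∈ D₁ := by
      intro a ha
      rw [hD₁]
      refine ⟨Submodule.sub_mem _ ha (hNK a ha), ?_⟩
      rw [map_sub, hNN, sub_self]
    have hNC : ∀ a ∈ LinearMap.ker (T ^ k), N a ∈ C₁ := by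
      intro a ha
      rw [hC₁]
      exact ⟨hNK a ha, a, rfl⟩
    have ndD : ∀ x ∈ D₁, (∀ y ∈ D₁, B x y = 0) → x = 0 := by
      intro x hx h
      obtain ⟨hxK, hxN⟩ := (hD₁ x).1 hx
      apply ndK x hxK
      intro a ha
      have h1 := h _ (hsub a ha)
      rw [map_sub, hNadj, hxN, map_zero, LinearMap.zero_apply, sub_zero] at h1
      exact h1
    obtain ⟨c, hc1, hc2, hc3⟩ := exists_class_half (F := F) hodd
    let z : Module.End F V := ∑ g : G, c g • ρ g
    have hzapp : ∀ v, z v = ∑ g : G, c g • ρ g v := fun v => by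
      simp [z, LinearMap.sum_apply]
    have hzρ : ∀ h v, z (ρ h v) = ρ h (z v) := by
      intro h v
      rw [hzapp, hzapp, map_sum]
      have h1 : ∀ g, c g • ρ g (ρ h v) = (fun g' => c g' • ρ h (ρ g' v)) (h⁻¹ * g * h) := by
        intro g
        have h2 : c (h⁻¹ * g * h) = c g := by
          have := hc1 g h⁻¹
          simpa using this
        simp only [h2]
        congr 1
        rw [← Module.End.mul_apply, ← Module.End.mul_apply, ← map_mul, ← map_mul]
        congr 2
        group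
      simp only [h1, map_smul]
      exact Equiv.sum_comp ((Equiv.mulLeft h⁻¹).trans (Equiv.mulRight h)) (fun g' => c g' • ρ h (ρ g' v))
    have hzτ : ∀ v, z (τ v) = τ (z v) := by
      intro v
      rw [hzapp, hzapp, map_sum]
      simp only [hτρ, map_smul]
    have hzT : ∀ v, z (T v) = T (z v) := by
      intro v
      rw [hT, hT, map_sub, hzτ]
    have hzN : ∀ v, N (z v) = z (N v) := by
      intro v
      rw [hzapp, map_sum, hzapp (N v)]
      simp only [map_smul, hNρ, hρN]
    have hzTn : ∀ n v, z ((T ^ n) v) = (T ^ n) (z v) := by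
      intro n v
      have hcz : Commute z T := by
        ext w
        exact hzT w
      exact LinearMap.congr_fun (hcz.pow_right n).eq v
    have hzD : ∀ x ∈ D₁, z x ∈ D₁ := by
      intro x hx
      obtain ⟨hxK, hxN⟩ := (hD₁ x).1 hx
      rw [hD₁, hKmem, ← hzTn, (hKmem x).1 hxK, map_zero, hzN, hxN, map_zero]
      exact ⟨rfl, rfl⟩
    have hTD : ∀ x ∈ D₁, T x ∈ D₁ := by
      intro x hx
      obtain ⟨hxK, hxN⟩ := (hD₁ x).1 hx
      have h1 : N (T x) = T (N x) := by
        have := hNT 1 x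
        simp only [pow_one] at this
        exact this.symm
      refine (hD₁ _).2 ⟨?_, by rw [h1, hxN, map_zero]⟩
      rw [hKmem]
      have h2 : Commute T (T ^ k) := Commute.pow_right (Commute.refl T) k
      have h3 := LinearMap.congr_fun h2.eq x
      show (T ^ k * T) x = 0 
      rw [← h2.eq]
      show T ((T ^ k) x) = 0
      rw [(hKmem x).1 hxK, map_zero]
    -- second form
    let A₂ : LinearMap.BilinForm F V := LinearMap.mk₂ F (fun x y => B x (z y) + B y (z x))
      (by intro x x' y; simp only [map_add, LinearMap.add_apply]; ring)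
      (by intro a x y; simp only [map_smul, LinearMap.smul_apply, smul_eq_mul]; ring)
      (by intro x y y'; simp only [map_add, LinearMap.add_apply]; ring)
      (by intro a x y; simp only [map_smul, LinearMap.smul_apply, smul_eq_mul]; ring)
    have hA₂app : ∀ x y, A₂ x y = B x (z y) + B y (z x) := fun x y => rfl
    have hA₂alt : ∀ x, A₂ x x = 0 := by
      intro x
      rw [hA₂app, ← two_mul, h20, zero_mul]
    have hA₂inv : ∀ g x y, A₂ (ρ g x) (ρ g y) = A₂ x y := by
      intro g x y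
      rw [hA₂app, hA₂app, hzρ, hzρ, hBinv, hBinv]
    have hsumz : ∀ x y, B x (z y) = B (∑ g : G, c g⁻¹ • ρ g x) y := by
      intro x y
      rw [hzapp, map_sum, map_sum, LinearMap.sum_apply]
      simp only [map_smul, LinearMap.smul_apply, hρadj]
      have h9 := Equiv.sum_comp (Equiv.inv G) (fun g => c g⁻¹ • B (ρ g x) y)
      simp only [Equiv.inv_apply, inv_inv] at h9
      exact h9
    have hflat : ∀ x, N x = 0 → ∑ g : G, c g⁻¹ • ρ g x = x + z x := by
      intro x hx
      have h1 : ∑ g : G, c g⁻¹ • ρ g x + z x = N x - x := by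
        rw [hzapp, hNapp, ← Finset.sum_add_distrib]
        have h2 : ∀ g : G, c g⁻¹ • ρ g x + c g • ρ g x = ρ g x - (if g = 1 then x else 0) := by
          intro g
          by_cases hg1 : g = 1
          · subst hg1
            simp [hc2]
          · rw [← add_smul, add_comm, hc3 g hg1, one_smul, if_neg hg1, sub_zero]
        simp only [h2]
        rw [Finset.sum_sub_distrib, Finset.sum_ite_eq']
        simp
      rw [hx, zero_sub, hneg] at h1
      have h3 : ∑ g : G, c g⁻¹ • ρ g x = x - z x := eq_sub_of_add_eq h1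
      rw [h3, sub_eq_add_neg, hneg]
    have ndA₂ : ∀ x ∈ D₁, (∀ y ∈ D₁, A₂ x y = 0) → x = 0 := by
      intro x hx h
      obtain ⟨hxK, hxN⟩ := (hD₁ x).1 hx
      have hw : x + T (z x) = 0 := by
        apply ndD _ (Submodule.add_mem _ hx (hTD _ (hzD x hx)))
        intro y hy
        have h1 := h y hy
        rw [hA₂app, hsumz, hflat x hxN, ← hτ y (z x), ← LinearMap.add_apply, ← map_add] at h1
        have h2 : x + T (z x) = x + z x + τ (z x) := by
          rw [hT, sub_eq_add_neg, hneg]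
          abel
        rw [h2]
        exact h1
      have hx1 : z (T x) = x := by
        rw [hzT]
        have h3 : T (z x) = - x := eq_neg_of_add_eq_zero_right hw
        rw [h3, hneg]
      let W : Module.End F V := z * T
      have hWx : W x = x := hx1
      have hWn : ∀ n : ℕ, (W ^ n) x = x := by
        intro n
        induction n with
        | zero => simp
        | succ n ih =>
          rw [pow_succ]
          show (W ^ n) (W x) = x
          rw [hWx, ih]
      have hcz : Commute z T := by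
        ext w
        exact hzT w
      have h5 : W ^ k = z ^ k * T ^ k := hcz.mul_pow k
      have h6 := hWn k
      rw [h5] at h6
      have h7 : (z ^ k * T ^ k) x = (z ^ k) ((T ^ k) x) := rfl
      rw [h7, (hKmem x).1 hxK, map_zero] at h6
      exact h6.symm
    have hdis : Disjoint (LinearMap.range (T ^ k)) D₁ := by
      rw [Submodule.disjoint_def]
      intro x hx hx'
      exact hKRdis x ((hD₁ x).1 hx').1 hx
    obtain ⟨Atot, hAtalt, hAglue⟩ := glue_forms (LinearMap.range (T ^ k)) D₁ hdis A A₂ hAalt hA₂alt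
    obtain ⟨S, hS1, hS2⟩ := exists_symm_nondeg C₁
    have hDinv : ∀ g, ∀ x ∈ D₁, ρ g x ∈ D₁ := by
      intro g x hx
      obtain ⟨hxK, hxN⟩ := (hD₁ x).1 hx
      rw [hD₁]
      exact ⟨hKinv g x hxK, by rw [hNρ, hxN]⟩
    refine ⟨LinearMap.range (T ^ k) ⊔ D₁, C₁, ?_, ?_, ?_, ⟨Atot, hAtalt, ?_, ?_⟩, ⟨S, hS1, ?_, hS2⟩, fun _ g w hw => hCfix w hw g⟩
    · constructor
      · rw [Submodule.disjoint_def]
        intro x hx hx'
        obtain ⟨u₁, hu₁, u₂, hu₂, rfl⟩ := Submodule.mem_sup.1 hx
        obtain ⟨hK1, hK2⟩ := (hD₁ u₂).1 hu₂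
        have hxK := ((hC₁ _).1 hx').1
        have hu₁K : u₁ ∈ LinearMap.ker (T ^ k) := by
          have := Submodule.sub_mem _ hxK hK1
          simpa using this
        have hu₁0 := hKRdis u₁ hu₁K hu₁
        rw [hu₁0, zero_add] at hx' ⊢
        have := hCN u₂ hx'
        rw [hK2] at this
        exact this.symm
      · rw [codisjoint_iff, eq_top_iff]
        intro v _
        obtain ⟨a, ha, b, hb, rfl⟩ := hdec v
        have h1 : a + b = (b + (a - N a)) + N a := by abel
        rw [h1]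
        have h2 : b + (a - N a) ∈ LinearMap.range (T ^ k) ⊔ D₁ :=
          Submodule.add_mem _ (Submodule.mem_sup_left hb) (Submodule.mem_sup_right (hsub a ha))
        exact Submodule.add_mem _ (Submodule.mem_sup_left h2) (Submodule.mem_sup_right (hNC a ha))
    · intro g u hu
      obtain ⟨u₁, hu₁, u₂, hu₂, rfl⟩ := Submodule.mem_sup.1 hu
      rw [map_add]
      exact Submodule.add_mem _ (Submodule.mem_sup_left (hRinv g _ hu₁)) (Submodule.mem_sup_right (hDinv g _ hu₂))
    · intro g w hw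
      rw [hCfix w hw g]
      exact hw
    · intro g x hx y hy
      obtain ⟨u₁, hu₁, u₂, hu₂, rfl⟩ := Submodule.mem_sup.1 hx
      obtain ⟨v₁, hv₁, v₂, hv₂, rfl⟩ := Submodule.mem_sup.1 hy
      have h1 : ρ g (u₁ + u₂) = ρ g u₁ + ρ g u₂ := map_add _ _ _
      have h2 : ρ g (v₁ + v₂) = ρ g v₁ + ρ g v₂ := map_add _ _ _
      rw [h1, h2, hAglue _ (hRinv g _ hu₁) _ (hDinv g _ hu₂) _ (hRinv g _ hv₁) _ (hDinv g _ hv₂),
        hAglue _ hu₁ _ hu₂ _ hv₁ _ hv₂, hAinv, hA₂inv]
    · intro x hx h
      obtain ⟨u₁, hu₁, u₂, hu₂, rfl⟩ := Submodule.mem_sup.1 hx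
      have h1 : u₁ = 0 := by
        apply ndA u₁ hu₁
        intro y hy
        have := h (y + 0) (by rw [add_zero]; exact Submodule.mem_sup_left hy)
        rw [hAglue _ hu₁ _ hu₂ _ hy _ (Submodule.zero_mem _), map_zero, add_zero] at this
        exact this
      have h2 : u₂ = 0 := by
        apply ndA₂ u₂ hu₂
        intro y hy
        have := h (0 + y) (by rw [zero_add]; exact Submodule.mem_sup_right hy)
        rw [hAglue _ hu₁ _ hu₂ _ (Submodule.zero_mem _) _ hy, map_zero, zero_add] at this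
        exact this
      rw [h1, h2, add_zero]
    · intro g x hx y hy
      rw [hCfix x hx, hCfix y hy]
  · have h2 : (2 : F) ≠ 0 := by
      intro h
      have h3 : ((2 : ℕ) : F) = 0 := by exact_mod_cast h
      rw [CharP.cast_eq_zero_iff F p] at h3
      exact hp2 ((Nat.prime_dvd_prime_iff_eq (Fact.out) Nat.prime_two).1 h3)
    refine ⟨LinearMap.range (T ^ k), LinearMap.ker (T ^ k), hk.symm, hRinv, hKinv, ⟨A, hAalt, fun g x _ y _ => hAinv g x y, ndA⟩,
      ⟨B + B.flip, ?_, ?_, ?_⟩, fun h => absurd h hp2⟩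
    · intro x y
      show B x y + B y x = B y x + B x y
      ring
    · intro g x _ y _
      show B (ρ g x) (ρ g y) + B (ρ g y) (ρ g x) = B x y + B y x
      rw [hBinv, hBinv]
    · intro x hx h
      have h1 : x + τ x = 0 := by
        apply ndK _ (Submodule.add_mem _ hx (hτK x hx))
        intro y hy
        have h3 : B x y + B y x = 0 := h y hy
        rw [map_add, LinearMap.add_apply, hτ]
        exact h3
      have h4 : T x = (-2 : F) • x := by
        have h5 : τ x = - x := eq_neg_of_add_eq_zero_right h1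
        rw [hT, h5, neg_smul, two_smul]
        abel
      have h6 : ∀ n : ℕ, (T ^ n) x = (-2 : F) ^ n • x := by
        intro n
        induction n with
        | zero => simp
        | succ n ih =>
          rw [pow_succ]
          show (T ^ n) (T x) = _
          rw [h4, map_smul, ih, smul_smul, pow_succ]
          ring_nf
      have h7 := h6 k
      rw [(hKmem x).1 hx] at h7
      have h8 : (-2 : F) ^ k ≠ 0 := pow_ne_zero _ (neg_ne_zero.2 h2)
      exact (smul_eq_zero.1 h7.symm).resolve_left h8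

end Cfsg.Agent.S4966
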