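import Cfsg.Statements.S4967
import Mathlib

set_option autoImplicit false
open Cfsg

namespace Cfsg.Agent.S4967


universe v

section Model

variable {F : Type*} [Field F] [Fintype F] {H : Type*} [CommGroup H] [Finite H]
  {V : Type v} [AddCommGroup V] [Module F V] [FiniteDimensional F V]

theorem exists_model (ρ : Representation F H V) (hfaith : Function.Injective ρ)
    (hirr : ∀ U : Submodule F V, (∀ h : H, ∀ u ∈ U, ρ h u ∈ U) → U = ⊥ ∨ U = ⊤) [Nontrivial V] :
    ∃ (K : Type v) (_ : Field K) (_ : Fintype K) (_ : Algebra F K) (e : K ≃ₗ[F] V) (η : H →* K),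
      Function.Injective η ∧ ∀ h a, ρ h (e a) = e (η h * a) := by
  classical
  let s : Set (Module.End F V) := Set.range ρ
  have hcomm : ∀ a ∈ s, ∀ b ∈ s, a * b = b * a := by
    rintro _ ⟨x, rfl⟩ _ ⟨y, rfl⟩
    rw [← map_mul, ← map_mul, mul_comm]
  let R : Subalgebra F (Module.End F V) := Algebra.adjoin F s
  have hRc : ∀ a ∈ R, ∀ b ∈ R, a * b = b * a := by
    intro a ha b hb
    have := (Algebra.isMulCommutative_adjoin F hcomm).is_comm.comm (⟨a, ha⟩ : Algebra.adjoin F s) ⟨b, hb⟩
    exact congrArg Subtype.val this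
  have hρR : ∀ h, ρ h ∈ R := fun h => Algebra.subset_adjoin ⟨h, rfl⟩
  have hker : ∀ a ∈ R, a ≠ 0 → LinearMap.ker a = ⊥ := by
    intro a ha ha0
    have h1 : ∀ h : H, ∀ u ∈ LinearMap.ker a, ρ h u ∈ LinearMap.ker a := by
      intro h u hu
      rw [LinearMap.mem_ker] at hu ⊢
      have h2 := hRc a ha (ρ h) (hρR h)
      have h3 := LinearMap.congr_fun h2 u
      simp only [Module.End.mul_apply] at h3
      rw [h3, hu, map_zero]
    rcases hirr _ h1 with h4 | h4
    · exact h4
    · exfalso
      apply ha0
      rw [LinearMap.ker_eq_top] at h4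
      exact h4
  obtain ⟨v, hv⟩ := exists_ne (0 : V)
  let e₀ : R →ₗ[F] V :=
    { toFun := fun a => (a : Module.End F V) v
      map_add' := fun a b => rfl
      map_smul' := fun c a => rfl }
  have he₀ : ∀ a : R, e₀ a = (a : Module.End F V) v := fun a => rfl
  have hinj : Function.Injective e₀ := by
    rw [← LinearMap.ker_eq_bot, LinearMap.ker_eq_bot']
    intro a ha
    by_contra hne
    have h1 := hker a a.2 (fun h => hne (Subtype.ext h))
    have h2 : v ∈ LinearMap.ker (a : Module.End F V) := ha
    rw [h1] at h2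
    exact hv h2
  have hsurj : Function.Surjective e₀ := by
    rw [← LinearMap.range_eq_top]
    have h1 : ∀ h : H, ∀ u ∈ LinearMap.range e₀, ρ h u ∈ LinearMap.range e₀ := by
      rintro h _ ⟨a, rfl⟩
      exact ⟨⟨ρ h, hρR h⟩ * a, rfl⟩
    rcases hirr _ h1 with h4 | h4
    · exfalso
      have h5 : v ∈ LinearMap.range e₀ := ⟨1, rfl⟩
      rw [h4] at h5
      exact hv h5
    · exact h4
  haveI hfin : Finite V := Module.finite_of_finite F
  haveI : Finite R := Finite.of_injective _ hinj
  haveI : Nontrivial R := by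
    refine ⟨⟨1, 0, fun h => hv ?_⟩⟩
    have h2 : ((1 : R) : Module.End F V) v = ((0 : R) : Module.End F V) v := by rw [h]
    simpa using h2
  haveI : NoZeroDivisors R := by
    constructor
    intro a b hab
    by_contra hne
    push_neg at hne
    obtain ⟨ha, hb⟩ := hne
    have h1 := hker a a.2 (fun h => ha (Subtype.ext h))
    apply hb
    apply Subtype.ext
    ext u
    have h2 : (a : Module.End F V) ((b : Module.End F V) u) = 0 := by
      have := congrArg (fun c : R => (c : Module.End F V) u) hab
      simpa using this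
    have h3 : (b : Module.End F V) u ∈ LinearMap.ker (a : Module.End F V) := h2
    rw [h1] at h3
    simpa using h3
  haveI : IsDomain R := NoZeroDivisors.to_isDomain R
  let inst : Field R := (Finite.isDomain_to_isField R).toField
  let ft : Fintype R := Fintype.ofFinite R
  let η : H →* R :=
    { toFun := fun h => ⟨ρ h, hρR h⟩
      map_one' := by
        apply Subtype.ext
        show ρ 1 = 1
        exact map_one ρ
      map_mul' := by
        intro x y
        apply Subtype.ext
        show ρ (x * y) = ρ x * ρ y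
        exact map_mul ρ x y }
  refine ⟨R, inst, ft, inferInstance, LinearEquiv.ofBijective e₀ ⟨hinj, hsurj⟩, η, ?_, ?_⟩
  · intro x y hxy
    apply hfaith
    exact congrArg Subtype.val hxy
  · intro h a
    rfl

end Model

section Main

variable {F : Type*} [Field F] [Fintype F] {K : Type*} [Field K] [Fintype K] [Algebra F K]
  {H : Type*} [CommGroup H] [Finite H]

theorem frob_iter (j : ℕ) (a : K) :
    (FiniteField.frobeniusAlgHom F K)^[j] a = a ^ (Fintype.card F) ^ j := by
  rw [FiniteField.coe_frobeniusAlgHom]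
  exact congrFun (pow_iterate _ _) a

theorem no_fix (η : H →* K) (hirr : ∀ U : Submodule F K, (∀ h : H, ∀ u ∈ U, η h * u ∈ U) → U = ⊥ ∨ U = ⊤)
    (h₀ : H) (hgen : ∀ h : H, h ∈ Submonoid.powers h₀) {j : ℕ} (hj0 : 0 < j) (hjn : j < Module.finrank F K)
    (hfix : (η h₀) ^ (Fintype.card F) ^ j = η h₀) : False := by
  classical
  set q := Fintype.card F with hq
  have hq1 : 1 < q := Fintype.one_lt_card
  let ψ : Module.End F K := ((FiniteField.frobeniusAlgHom F K).toLinearMap : Module.End F K) ^ j
  have hψ : ∀ a, ψ a = a ^ q ^ j := by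
    intro a
    have h1 : ψ a = (FiniteField.frobeniusAlgHom F K)^[j] a := by
      show (((FiniteField.frobeniusAlgHom F K).toLinearMap : Module.End F K) ^ j) a = _
      rw [Module.End.pow_apply]
      rfl
    rw [h1, frob_iter]
  let U : Submodule F K := LinearMap.ker (ψ - 1)
  have hU : ∀ a, a ∈ U ↔ a ^ q ^ j = a := by
    intro a
    show (ψ - 1) a = 0 ↔ _
    rw [LinearMap.sub_apply, hψ, sub_eq_zero]
    rfl
  have hη : ∀ h, (η h) ^ q ^ j = η h := by
    intro h
    obtain ⟨k, rfl⟩ := hgen h
    rw [map_pow, ← pow_mul, mul_comm, pow_mul, hfix]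
  have hinv : ∀ h : H, ∀ u ∈ U, η h * u ∈ U := by
    intro h u hu
    rw [hU] at hu ⊢
    rw [mul_pow, hη, hu]
  rcases hirr U hinv with h | h
  · have h1 : (1 : K) ∈ U := by
      rw [hU]; simp
    rw [h] at h1
    exact one_ne_zero h1
  · have hall : ∀ a : K, a ^ q ^ j = a := by
      intro a
      rw [← hU, h]
      trivial
    have hne : ((Polynomial.X : Polynomial K) ^ q ^ j - Polynomial.X) ≠ 0 :=
      FiniteField.X_pow_card_pow_sub_X_ne_zero K hj0.ne' hq1
    have hdeg : ((Polynomial.X : Polynomial K) ^ q ^ j - Polynomial.X).natDegree = q ^ j :=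
      FiniteField.X_pow_card_pow_sub_X_natDegree_eq K hj0.ne' hq1
    have hcard : (Finset.univ : Finset K).card ≤ ((Polynomial.X : Polynomial K) ^ q ^ j - Polynomial.X).natDegree := by
      apply Polynomial.card_le_degree_of_subset_roots
      intro a _
      rw [Polynomial.mem_roots hne, Polynomial.IsRoot.def]
      simp [hall]
    rw [hdeg, Finset.card_univ, Module.card_eq_pow_finrank (K := F) (V := K)] at hcard
    have := (Nat.pow_le_pow_iff_right hq1).1 hcard
    omega

theorem exists_frob_inv (η : H →* K) (hinjη : Function.Injective η)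
    (hirr : ∀ U : Submodule F K, (∀ h : H, ∀ u ∈ U, η h * u ∈ U) → U = ⊥ ∨ U = ⊤)
    (h₀ : H) (hgen : ∀ h : H, h ∈ Submonoid.powers h₀)
    (B : LinearMap.BilinForm F K) (hright : ∀ c, (∀ a, B a c = 0) → c = 0)
    (hinv : ∀ h a b, B (η h * a) (η h * b) = B a b) :
    ∃ i < Module.finrank F K, (η h₀) ^ (Fintype.card F) ^ i = (η h₀)⁻¹ := by
  classical
  set q := Fintype.card F with hq
  set ω := η h₀ with hω
  have hq1 : 1 < q := Fintype.one_lt_card
  have hω0 : ω ≠ 0 := by
    intro h
    have h1 : η h₀ * η h₀⁻¹ = 1 := by rw [← map_mul]; simp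
    rw [← hω, h, zero_mul] at h1
    exact zero_ne_one h1
  set n := Module.finrank F K with hn
  have hstep : ∀ a b, B (ω * a) b = B a (ω⁻¹ * b) := by
    intro a b
    have h1 := hinv h₀ a (ω⁻¹ * b)
    rw [← hω, ← mul_assoc, mul_inv_cancel₀ hω0, one_mul] at h1
    exact h1
  have hpow : ∀ (k : ℕ) a b, B (ω ^ k * a) b = B a (ω⁻¹ ^ k * b) := by
    intro k
    induction k with
    | zero => intro a b; simp
    | succ k ih =>
      intro a b
      have h1 : ω ^ (k + 1) * a = ω ^ k * (ω * a) := by rw [pow_succ]; ring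
      rw [h1, ih, hstep, pow_succ]
      congr 1
      ring
  have hadj : ∀ (f : Polynomial F) a b, B (Polynomial.aeval ω f * a) b = B a (Polynomial.aeval ω⁻¹ f * b) := by
    intro f
    induction f using Polynomial.induction_on' with
    | add p r hp hr =>
      intro a b
      simp only [map_add, add_mul, LinearMap.add_apply, hp, hr]
    | monomial k c =>
      intro a b
      simp only [Polynomial.aeval_monomial]
      rw [mul_assoc, ← Algebra.smul_def, map_smul, LinearMap.smul_apply, hpow, mul_assoc, ← Algebra.smul_def, map_smul]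
  let μ := minpoly F ω
  have hμ0 : μ ≠ 0 := minpoly.ne_zero (Algebra.IsIntegral.isIntegral ω)
  have hμω : Polynomial.aeval ω μ = 0 := minpoly.aeval F ω
  have hdeg : μ.natDegree ≤ n := minpoly.natDegree_le ω
  have hinvroot : Polynomial.aeval ω⁻¹ μ = 0 := by
    have h1 : ∀ a, B a (Polynomial.aeval ω⁻¹ μ) = 0 := by
      intro a
      have h2 := hadj μ a 1
      rw [hμω, zero_mul, map_zero, LinearMap.zero_apply, mul_one] at h2
      exact h2.symm
    exact hright _ h1
  have hmem : ∀ x : K, Polynomial.aeval x μ = 0 → x ∈ (μ.map (algebraMap F K)).roots := by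
    intro x hx
    rw [Polynomial.mem_roots (Polynomial.map_ne_zero hμ0), Polynomial.IsRoot.def, Polynomial.eval_map_algebraMap]
    exact hx
  have hfrob : ∀ j : ℕ, Polynomial.aeval (ω ^ q ^ j) μ = 0 := by
    intro j
    have h1 : ω ^ q ^ j = (FiniteField.frobeniusAlgHom F K)^[j] ω := (frob_iter j ω).symm
    rw [h1]
    induction j with
    | zero => simpa using hμω
    | succ j ih =>
      rw [Function.iterate_succ_apply', Polynomial.aeval_algHom_apply, ih (by rw [frob_iter]), map_zero]
  have hpowinj : ∀ j : ℕ, Function.Injective (fun x : K => x ^ q ^ j) := by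
    intro j x y hxy
    have h1 : Function.Injective (FiniteField.frobeniusAlgHom F K : K → K) := RingHom.injective (FiniteField.frobeniusAlgHom F K).toRingHom
    have h2 := h1.iterate j
    apply h2
    rw [frob_iter, frob_iter]
    exact hxy
  have hdist : Set.InjOn (fun j : ℕ => ω ^ q ^ j) (Finset.range n : Set ℕ) := by
    have key : ∀ a b : ℕ, a < b → b < n → ω ^ q ^ a ≠ ω ^ q ^ b := by
      intro a b hab hb h
      have h3 : (ω ^ q ^ (b - a)) ^ q ^ a = ω ^ q ^ a := by
        rw [← pow_mul, ← pow_add, Nat.sub_add_cancel hab.le]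
        exact h.symm
      have h4 := hpowinj a h3
      exact no_fix η hirr h₀ hgen (Nat.sub_pos_of_lt hab) (by omega) h4
    intro a ha b hb h
    simp only [Finset.coe_range, Set.mem_Iio] at ha hb
    rcases lt_trichotomy a b with h1 | h1 | h1
    · exact absurd h (key a b h1 hb)
    · exact h1
    · exact absurd h.symm (key b a h1 ha)
  by_contra hno
  push_neg at hno
  let S : Finset K := (Finset.range n).image (fun j : ℕ => ω ^ q ^ j)
  have hScard : S.card = n := by
    rw [Finset.card_image_of_injOn hdist, Finset.card_range]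
  have hnotin : ω⁻¹ ∉ S := by
    intro h
    obtain ⟨j, hj, hj2⟩ := Finset.mem_image.1 h
    exact hno j (Finset.mem_range.1 hj) hj2
  have hcard : (insert ω⁻¹ S).card ≤ (μ.map (algebraMap F K)).natDegree := by
    apply Polynomial.card_le_degree_of_subset_roots
    intro x hx
    rw [Finset.insert_val_of_notMem hnotin, Multiset.mem_cons] at hx
    rcases hx with rfl | hx
    · exact hmem _ hinvroot
    · obtain ⟨j, _, rfl⟩ := Finset.mem_image.1 (show x ∈ S from hx)
      exact hmem _ (hfrob j)
  rw [Finset.card_insert_of_notMem hnotin, hScard, Polynomial.natDegree_map] at hcard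
  omega

theorem even_of_frob (η : H →* K)
    (hirr : ∀ U : Submodule F K, (∀ h : H, ∀ u ∈ U, η h * u ∈ U) → U = ⊥ ∨ U = ⊤)
    (h₀ : H) (hgen : ∀ h : H, h ∈ Submonoid.powers h₀) (hn : 2 ≤ Module.finrank F K)
    {i : ℕ} (hi : i < Module.finrank F K) (hfi : (η h₀) ^ (Fintype.card F) ^ i = (η h₀)⁻¹) (hω0 : η h₀ ≠ 0) :
    Even (Module.finrank F K) ∧ (η h₀) ^ ((Fintype.card F) ^ (Module.finrank F K / 2) + 1) = 1 := by
  classical
  set q := Fintype.card F with hq
  set ω := η h₀ with hω
  set n := Module.finrank F K with hndef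
  rcases Nat.eq_zero_or_pos i with h0 | hipos
  · exfalso
    subst h0
    have h1 : ω = ω⁻¹ := by simpa using hfi
    have h2 : ω * ω = 1 := by
      nth_rw 1 [h1]
      exact inv_mul_cancel₀ hω0
    have h3 : ω ^ q ^ 1 = ω := by
      rw [pow_one]
      rcases mul_self_eq_one_iff.1 h2 with h4 | h4
      · rw [h4, one_pow]
      · have h5 : ω = algebraMap F K (-1) := by rw [h4]; simp
        rw [h5, ← map_pow, FiniteField.pow_card]
    exact no_fix η hirr h₀ hgen (by norm_num) (by omega) h3
  · have h2i : ω ^ q ^ (2 * i) = ω := by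
      rw [two_mul, pow_add, pow_mul, hfi, inv_pow, hfi, inv_inv]
    have hcardK : Fintype.card K = q ^ n := Module.card_eq_pow_finrank (K := F) (V := K)
    have hqn : ω ^ q ^ n = ω := by
      rw [← hcardK]
      exact FiniteField.pow_card ω
    rcases lt_trichotomy (2 * i) n with h | h | h
    · exact (no_fix η hirr h₀ hgen (by omega) h h2i).elim
    · have hi2 : n / 2 = i := by omega
      refine ⟨⟨i, by omega⟩, ?_⟩
      rw [hi2, pow_succ, hfi]
      exact inv_mul_cancel₀ hω0
    · exfalso
      have h3 : ω ^ q ^ (2 * i - n) = ω := by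
        have h4 : 2 * i = n + (2 * i - n) := by omega
        rw [h4, pow_add, pow_mul, hqn] at h2i
        have h5 : n + (2 * i - n) - n = 2 * i - n := by omega
        exact h2i
      exact no_fix η hirr h₀ hgen (by omega) (by omega) h3

theorem exists_form (η : H →* K) (m : ℕ) (hm : Nat.card H ∣ (Fintype.card F) ^ m + 1) :
    ∃ B : LinearMap.BilinForm F K, (∀ a, (∀ b, B a b = 0) → a = 0) ∧ (∀ b, (∀ a, B a b = 0) → b = 0) ∧
      ∀ h a b, B (η h * a) (η h * b) = B a b := by
  classical
  set q := Fintype.card F with hq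
  obtain ⟨ℓ, hℓ⟩ : ∃ ℓ : Module.Dual F K, ℓ 1 ≠ 0 := by
    by_contra hno
    push Not at hno
    exact one_ne_zero ((Module.forall_dual_apply_eq_zero_iff F (1 : K)).1 hno)
  let ψ : Module.End F K := ((FiniteField.frobeniusAlgHom F K).toLinearMap : Module.End F K) ^ m
  have hψ : ∀ a, ψ a = a ^ q ^ m := by
    intro a
    have h1 : ψ a = (FiniteField.frobeniusAlgHom F K)^[m] a := by
      show (((FiniteField.frobeniusAlgHom F K).toLinearMap : Module.End F K) ^ m) a = _
      rw [Module.End.pow_apply]
      rfl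
    rw [h1, frob_iter]
  have hinj : Function.Injective ψ := by
    intro x y hxy
    rw [hψ, hψ] at hxy
    have h1 : Function.Injective (FiniteField.frobeniusAlgHom F K : K → K) := RingHom.injective (FiniteField.frobeniusAlgHom F K).toRingHom
    have h2 := h1.iterate m
    apply h2
    rw [frob_iter, frob_iter]
    exact hxy
  have hsurj : Function.Surjective ψ := Finite.injective_iff_surjective.1 hinj
  refine ⟨LinearMap.mk₂ F (fun a b => ℓ (a * ψ b)) ?_ ?_ ?_ ?_, ?_, ?_, ?_⟩
  · intro a a' b
    rw [add_mul, map_add]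
  · intro c a b
    rw [smul_mul_assoc, map_smul]
  · intro a b b'
    rw [map_add, mul_add, map_add]
  · intro c a b
    rw [map_smul, mul_smul_comm, map_smul]
  · intro a h
    by_contra ha
    obtain ⟨b, hb⟩ := hsurj a⁻¹
    have h1 := h b
    simp only [LinearMap.mk₂_apply] at h1
    rw [hb, mul_inv_cancel₀ ha] at h1
    exact hℓ h1
  · intro b h
    by_contra hb
    have hb' : ψ b ≠ 0 := fun h0 => hb (hinj (by rw [h0, map_zero]))
    have h1 := h (ψ b)⁻¹
    simp only [LinearMap.mk₂_apply] at h1
    rw [inv_mul_cancel₀ hb'] at h1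
    exact hℓ h1
  · intro h a b
    simp only [LinearMap.mk₂_apply]
    congr 1
    rw [hψ, hψ, mul_pow]
    have h1 : (η h) ^ (q ^ m + 1) = 1 := by
      rw [← map_pow]
      obtain ⟨t, ht⟩ := hm
      rw [ht, pow_mul, pow_card_eq_one', one_pow, map_one]
    have h2 : η h * a * ((η h) ^ q ^ m * b ^ q ^ m) = (η h) ^ (q ^ m + 1) * (a * b ^ q ^ m) := by
      ring
    rw [h2, h1, one_mul]

end Main

/-- Let F be a finite field with r elements and of characteristic p, H a finite abelian group of order prime to p, and V a faithful irreducible representation of H over F of dimension n (faithful: distinct elements act differently; irreducible: the only H-invariant subspaces are 0 and V). Call V self-dual when it carries a nondegenerate H-invariant bilinear form. If n = 1 and V is self-dual then H has order at most 2. If n ≥ 2 then V is self-dual if and only if n is even and the order of H divides r^(n/2) + 1. -/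
theorem result {F : Type*} [Field F] [Fintype F] (p : ℕ) [Fact p.Prime] [CharP F p] {H : Type*} [CommGroup H] [Finite H] (hcop : ¬ p ∣ Nat.card H) {V : Type*} [AddCommGroup V] [Module F V] [FiniteDimensional F V] (ρ : Representation F H V) (hfaith : Function.Injective ρ) (hirr : ∀ U : Submodule F V, (∀ h : H, ∀ u ∈ U, ρ h u ∈ U) → U = ⊥ ∨ U = ⊤) : (Module.finrank F V = 1 → (∃ B : LinearMap.BilinForm F V, B.Nondegenerate ∧ ∀ h : H, ∀ x y : V, B (ρ h x) (ρ h y) = B x y) → Nat.card H ≤ 2) ∧ (2 ≤ Module.finrank F V → ((∃ B : LinearMap.BilinForm F V, B.Nondegenerate ∧ ∀ h : H, ∀ x y : V, B (ρ h x) (ρ h y) = B x y) ↔ (Even (Module.finrank F V) ∧ Nat.card H ∣ Fintype.card F ^ (Module.finrank F V / 2) + 1))) := by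
  classical
  haveI := Fintype.ofFinite H
  have hirrK : ∀ {K : Type _} [Field K] [Fintype K] [Algebra F K] (e : K ≃ₗ[F] V) (η : H →* K),
      (∀ h a, ρ h (e a) = e (η h * a)) →
      ∀ U : Submodule F K, (∀ h : H, ∀ u ∈ U, η h * u ∈ U) → U = ⊥ ∨ U = ⊤ := by
    intro K _ _ _ e η hη U hU
    have h1 : ∀ h : H, ∀ u ∈ U.map (e : K →ₗ[F] V), ρ h u ∈ U.map (e : K →ₗ[F] V) := by
      rintro h _ ⟨a, ha, rfl⟩
      refine ⟨η h * a, hU h a ha, ?_⟩
      exact (hη h a).symm
    rcases hirr _ h1 with h2 | h2
    · left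
      rw [Submodule.eq_bot_iff]
      intro x hx
      have h3 : e x ∈ U.map (e : K →ₗ[F] V) := ⟨x, hx, rfl⟩
      rw [h2] at h3
      have h4 : e x = 0 := h3
      simpa using h4
    · right
      rw [eq_top_iff]
      intro a _
      have h3 : e a ∈ U.map (e : K →ₗ[F] V) := by rw [h2]; trivial
      obtain ⟨b, hb, hbe⟩ := h3
      have : b = a := e.injective hbe
      rwa [← this]
  have hfrob : ∀ (B : LinearMap.BilinForm F V), B.Nondegenerate → (∀ h : H, ∀ x y : V, B (ρ h x) (ρ h y) = B x y) →
      [Nontrivial V] → ∃ (h₀ : H), (∀ h, h ∈ Submonoid.powers h₀) ∧ ((Module.finrank F V = 1 → h₀ ^ 2 = 1) ∧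
        (2 ≤ Module.finrank F V → Even (Module.finrank F V) ∧ h₀ ^ ((Fintype.card F) ^ (Module.finrank F V / 2) + 1) = 1)) := by
    intro B hB hinv _
    obtain ⟨K, _, _, _, e, η, hinjη, hη⟩ := exists_model ρ hfaith hirr
    have hirrK' := hirrK e η hη
    haveI : IsCyclic H := isCyclic_of_injective_ringHom η hinjη
    obtain ⟨h₀, hgen⟩ := IsCyclic.exists_monoid_generator (α := H)
    refine ⟨h₀, hgen, ?_⟩
    let B' : LinearMap.BilinForm F K := B.comp (e : K →ₗ[F] V) (e : K →ₗ[F] V)
    have hB'app : ∀ a b, B' a b = B (e a) (e b) := fun a b => rfl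
    have hright : ∀ c, (∀ a, B' a c = 0) → c = 0 := by
      intro c h
      have h1 : e c = 0 := by
        apply hB.2
        intro x
        have := h (e.symm x)
        rwa [hB'app, e.apply_symm_apply] at this
      simpa using h1
    have hinv' : ∀ h a b, B' (η h * a) (η h * b) = B' a b := by
      intro h a b
      rw [hB'app, hB'app, ← hη, ← hη, hinv]
    obtain ⟨i, hi, hfi⟩ := exists_frob_inv η hinjη hirrK' h₀ hgen B' hright hinv'
    have hfin : Module.finrank F K = Module.finrank F V := e.finrank_eq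
    have hω0 : η h₀ ≠ 0 := by
      intro h
      have h1 : η h₀ * η h₀⁻¹ = 1 := by rw [← map_mul]; simp
      rw [h, zero_mul] at h1
      exact zero_ne_one h1
    constructor
    · intro h1
      have hi0 : i = 0 := by omega
      subst hi0
      apply hinjη
      rw [map_pow, map_one, pow_two]
      have h2 : η h₀ = (η h₀)⁻¹ := by simpa using hfi
      nth_rw 1 [h2]
      exact inv_mul_cancel₀ hω0
    · intro h2
      rw [← hfin] at h2 ⊢
      obtain ⟨h3, h4⟩ := even_of_frob η hirrK' h₀ hgen h2 hi hfi hω0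
      refine ⟨h3, hinjη ?_⟩
      rw [map_pow, map_one]
      exact h4
  have hcard : ∀ h₀ : H, (∀ h, h ∈ Submonoid.powers h₀) → orderOf h₀ = Nat.card H := by
    intro h₀ hgen
    apply orderOf_eq_card_of_forall_mem_zpowers
    intro h
    obtain ⟨k, rfl⟩ := hgen h
    exact Subgroup.npow_mem_zpowers _ _
  refine ⟨?_, ?_⟩
  · rintro h1 ⟨B, hB, hinv⟩
    haveI : Nontrivial V := Module.nontrivial_of_finrank_pos (R := F) (by omega)
    obtain ⟨h₀, hgen, h2, -⟩ := hfrob B hB hinv
    rw [← hcard h₀ hgen]
    exact Nat.le_of_dvd (by norm_num) (orderOf_dvd_of_pow_eq_one (h2 h1))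
  · intro h2
    haveI : Nontrivial V := Module.nontrivial_of_finrank_pos (R := F) (by omega)
    constructor
    · rintro ⟨B, hB, hinv⟩
      obtain ⟨h₀, hgen, -, h3⟩ := hfrob B hB hinv
      obtain ⟨h4, h5⟩ := h3 h2
      refine ⟨h4, ?_⟩
      rw [← hcard h₀ hgen]
      exact orderOf_dvd_of_pow_eq_one h5
    · rintro ⟨-, h5⟩
      obtain ⟨K, _, _, _, e, η, hinjη, hη⟩ := exists_model ρ hfaith hirr
      obtain ⟨B', h6, h7, h8⟩ := exists_form (F := F) η _ h5
      refine ⟨B'.comp (e.symm : V →ₗ[F] K) (e.symm : V →ₗ[F] K), ⟨?_, ?_⟩, ?_⟩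
      · intro x hx
        have h9 : e.symm x = 0 := by
          apply h6
          intro b
          have := hx (e b)
          simpa using this
        simpa using h9
      · intro y hy
        have h9 : e.symm y = 0 := by
          apply h7
          intro a
          have := hy (e a)
          simpa using this
        simpa using h9
      · intro h x y
        have hs : ∀ z, e.symm (ρ h z) = η h * e.symm z := by
          intro z
          have := hη h (e.symm z)
          rw [e.apply_symm_apply] at this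
          rw [this, e.symm_apply_apply]
        show B' (e.symm (ρ h x)) (e.symm (ρ h y)) = B' (e.symm x) (e.symm y)
        rw [hs, hs, h8]

end Cfsg.Agent.S4967
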