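import Cfsg.Statements.S5015
import Mathlib
import Cfsg.Agent.Lib.RootSubgroups.RankOne

set_option autoImplicit false
open Cfsg

open Cfsg.Agent.Lib.RootSubgroups

namespace Cfsg.Agent.S5015
theorem conjBy_eq_of_smul_eq {Y Ω : Type*} [Group Y] [MulAction Y Ω] {α : Ω} {A : Subgroup Y}
    (hAn : ∀ y ∈ MulAction.stabilizer Y α, Cfsg.conjBy A y = A) {g g' : Y} (e : g • α = g' • α) :
    Cfsg.conjBy A g = Cfsg.conjBy A g' := by
  rw [conjBy_eq_conjBy_iff]
  apply hAn
  rw [MulAction.mem_stabilizer_iff, mul_smul, e, inv_smul_smul]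

/-- Let a group Y act doubly transitively on a set Ω with at least three points, and suppose that the stabilizer of a point α contains a nilpotent subgroup A, normalized by that stabilizer, which acts regularly on the points other than α. Then for any y in Y moving α, the subgroups A and y A y⁻¹ are the unipotent subgroups of a rank one group, and the normal closure of A in Y (the subgroup generated by all conjugates of A) is generated by A and y A y⁻¹ alone. -/
theorem result {Y Ω : Type*} [Group Y] [MulAction Y Ω]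
    (h2 : MulAction.IsMultiplyPretransitive Y Ω 2) (hΩ : 3 ≤ ENat.card Ω) (α : Ω) (A : Subgroup Y)
    (hA : A ≤ MulAction.stabilizer Y α) (hAn : ∀ y ∈ MulAction.stabilizer Y α, Cfsg.conjBy A y = A)
    (hnil : Group.IsNilpotent A) (hreg : ∀ β γ : Ω, β ≠ α → γ ≠ α → ∃! a : Y, a ∈ A ∧ a • β = γ)
    (y : Y) (hy : y ∉ MulAction.stabilizer Y α) :
    Cfsg.IsRankOnePair A (Cfsg.conjBy A y) ∧ Subgroup.normalClosure (A : Set Y) = A ⊔ Cfsg.conjBy A y := by
  classical
  set β : Ω := y • α with hβdef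
  have hβα : β ≠ α := hy
  -- a third point
  have hthird : ∃ γ : Ω, γ ≠ α ∧ γ ≠ β := by
    by_contra hcon
    push Not at hcon
    have hsub : (Set.univ : Set Ω) ⊆ {α, β} := by
      intro γ _
      by_cases hγ : γ = α
      · simp [hγ]
      · simp [hcon γ hγ]
    have h1 : Set.encard (Set.univ : Set Ω) ≤ 2 :=
      (Set.encard_le_encard hsub).trans (Set.encard_insert_le _ _ |>.trans (by simp; norm_num))
    have h3 : (3 : ℕ∞) ≤ Set.encard (Set.univ : Set Ω) := by
      simpa [Set.encard_univ] using hΩ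
    have : (3 : ℕ∞) ≤ 2 := h3.trans h1
    exact absurd this (by decide)
  -- A acts fixing α, and non-identity elements fix nothing else
  have hAfix : ∀ a ∈ A, a • α = α := fun a ha => hA ha
  have hAfree : ∀ a ∈ A, ∀ γ : Ω, γ ≠ α → a • γ = γ → a = 1 := by
    intro a ha γ hγ e
    obtain ⟨c, -, hc⟩ := hreg γ γ hγ hγ
    rw [hc a ⟨ha, e⟩, hc 1 ⟨A.one_mem, one_smul _ _⟩]
  set B := Cfsg.conjBy A y with hB
  -- elements of B
  have hBmem : ∀ {b : Y}, b ∈ B ↔ y⁻¹ * b * y ∈ A := mem_conjBy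
  have hBfix : ∀ b ∈ B, b • β = β := by
    intro b hb
    have := hAfix _ (hBmem.1 hb)
    have h2 : (y⁻¹ * b * y) • α = α := this
    rw [hβdef]
    calc b • y • α = y • ((y⁻¹ * b * y) • α) := by simp [mul_smul]
      _ = y • α := by rw [h2]
  have hBfree : ∀ b ∈ B, ∀ γ : Ω, γ ≠ β → b • γ = γ → b = 1 := by
    intro b hb γ hγ e
    have h1 : y⁻¹ • γ ≠ α := by
      intro h
      apply hγ
      rw [hβdef, ← h, smul_inv_smul]
    have h2 : (y⁻¹ * b * y) • (y⁻¹ • γ) = y⁻¹ • γ := by simp [mul_smul, e]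
    have := hAfree _ (hBmem.1 hb) _ h1 h2
    have h3 : b = y * (y⁻¹ * b * y) * y⁻¹ := by group
    rw [h3, this]; simp
  have hBreg : ∀ γ δ : Ω, γ ≠ β → δ ≠ β → ∃ b ∈ B, b • γ = δ := by
    intro γ δ hγ hδ
    have h1 : y⁻¹ • γ ≠ α := by
      intro h
      apply hγ
      rw [hβdef, ← h, smul_inv_smul]
    have h2 : y⁻¹ • δ ≠ α := by
      intro h
      apply hδ
      rw [hβdef, ← h, smul_inv_smul]
    obtain ⟨a, ⟨ha, hae⟩, -⟩ := hreg _ _ h1 h2
    refine ⟨y * a * y⁻¹, conj_mem_conjBy ha, ?_⟩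
    calc (y * a * y⁻¹) • γ = y • (a • (y⁻¹ • γ)) := by simp [mul_smul]
      _ = y • (y⁻¹ • δ) := by rw [hae]
      _ = δ := smul_inv_smul _ _
  have hAreg : ∀ γ δ : Ω, γ ≠ α → δ ≠ α → ∃ a ∈ A, a • γ = δ := by
    intro γ δ hγ hδ
    obtain ⟨a, ⟨ha, hae⟩, -⟩ := hreg _ _ hγ hδ
    exact ⟨a, ha, hae⟩
  -- conjugates determined by image of α
  have hconj : ∀ {g g' : Y}, g • α = g' • α → Cfsg.conjBy A g = Cfsg.conjBy A g' :=
    fun e => conjBy_eq_of_smul_eq hAn e
  have hBconj : ∀ g : Y, Cfsg.conjBy B g = Cfsg.conjBy A (g * y) := by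
    intro g; rw [hB, conjBy_mul]
  have hne : A ≠ B := by
    intro e
    obtain ⟨γ, hγα, hγβ⟩ := hthird
    obtain ⟨b, hb, hbe⟩ := hBreg α γ hβα.symm hγβ
    rw [← e] at hb
    exact hγα (hbe.symm.trans (hAfix b hb))
  have hnilB : Group.IsNilpotent B := isNilpotent_conjBy hnil y
  refine ⟨⟨hne, hnil, hnilB, ?_, ?_⟩, ?_⟩
  · -- cond_left
    intro a ha ha1
    have h1 : a⁻¹ • β ≠ β := by
      intro e
      have := hAfree a⁻¹ (A.inv_mem ha) β hβα e
      exact ha1 (by simpa using this)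
    have h2 : α ≠ β := hβα.symm
    obtain ⟨b', hb', hb'e⟩ := hBreg α (a⁻¹ • β) h2 h1
    have h3 : a⁻¹ • β ≠ α := by
      intro e
      apply hβα
      have := congrArg (fun z => a • z) e
      simpa [hAfix a ha] using this
    refine ⟨b'⁻¹, B.inv_mem hb', ?_, ?_⟩
    · intro e
      have : b' = 1 := by simpa using e
      rw [this, one_smul] at hb'e
      exact h3 hb'e.symm
    · rw [hBconj, inv_inv]
      apply hconj
      rw [hb'e, mul_smul]
  · -- cond_right
    intro b hb hb1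
    have h1 : b⁻¹ • α ≠ α := by
      intro e
      have := hBfree b⁻¹ (B.inv_mem hb) α hβα.symm e
      exact hb1 (by simpa using this)
    obtain ⟨a', ha', ha'e⟩ := hAreg β (b⁻¹ • α) hβα h1
    have h3 : b⁻¹ • α ≠ β := by
      intro e
      apply hβα.symm
      have := congrArg (fun z => b • z) e
      simpa [hBfix b hb] using this
    refine ⟨a'⁻¹, A.inv_mem ha', ?_, ?_⟩
    · intro e
      have : a' = 1 := by simpa using e
      rw [this, one_smul] at ha'e
      exact h3 ha'e.symm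
    · rw [hBconj, inv_inv]
      apply hconj
      rw [mul_smul, ← hβdef, ha'e]
  · -- normal closure
    apply le_antisymm
    · -- transitivity
      have htrans : ∀ γ : Ω, ∃ x ∈ A ⊔ B, x • α = γ := by
        intro γ
        by_cases hγ : γ = α
        · exact ⟨1, Subgroup.one_mem _, by simp [hγ]⟩
        · obtain ⟨δ, hδα, hδβ⟩ := hthird
          obtain ⟨b, hb, hbe⟩ := hBreg α δ hβα.symm hδβ
          obtain ⟨a, ha, hae⟩ := hAreg δ γ hδα hγ
          refine ⟨a * b, Subgroup.mul_mem _ (Subgroup.mem_sup_left ha) (Subgroup.mem_sup_right hb), ?_⟩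
          rw [mul_smul, hbe, hae]
      rw [Subgroup.normalClosure, Subgroup.closure_le]
      intro z hz
      rw [Group.mem_conjugatesOfSet_iff] at hz
      obtain ⟨a, ha, hc⟩ := hz
      obtain ⟨g, rfl⟩ := isConj_iff.1 hc
      obtain ⟨x, hx, hxe⟩ := htrans (g • α)
      have h1 : g * a * g⁻¹ ∈ Cfsg.conjBy A g := conj_mem_conjBy ha
      rw [← hconj hxe] at h1
      rw [mem_conjBy] at h1
      have h2 : g * a * g⁻¹ = x * (x⁻¹ * (g * a * g⁻¹) * x) * x⁻¹ := by group
      change g * a * g⁻¹ ∈ ((A ⊔ B : Subgroup Y) : Set Y)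
      rw [h2]
      exact Subgroup.mul_mem _ (Subgroup.mul_mem _ hx (Subgroup.mem_sup_left h1)) (Subgroup.inv_mem _ hx)
    · apply sup_le
      · exact Subgroup.subset_normalClosure
      · rintro _ ⟨a, ha, rfl⟩
        exact Subgroup.normalClosure_normal.conj_mem _ (Subgroup.subset_normalClosure ha) y

end Cfsg.Agent.S5015
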