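import Cfsg.Statements.S5017
import Mathlib
import Cfsg.Agent.Lib.RootSubgroups.RankOne

set_option autoImplicit false
open Cfsg

open Cfsg.Agent.Lib.RootSubgroups

namespace Cfsg.Agent.S5017


/-- Let X be a rank one group with unipotent subgroups A and B and N a normal subgroup of X. Then either X = N A or N lies in the centre of X. Consequently a perfect rank one group is quasisimple. -/
theorem result {X : Type*} [Group X] {A B : Subgroup X} (h : Cfsg.IsRankOneGroup X A B) :
    (∀ N : Subgroup X, N.Normal → N ⊔ A = ⊤ ∨ N ≤ Subgroup.center X) ∧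
    (Group.IsPerfect X → Cfsg.IsQuasisimple X) := by
  obtain ⟨hgen, hp⟩ := h
  refine ⟨fun N hN => normal_dichotomy hgen hp N hN, ?_⟩
  intro hperf
  refine ⟨hperf, ?_⟩
  haveI : Nontrivial (X ⧸ Subgroup.center X) := QuotientGroup.nontrivial_iff.2 (center_ne_top hp)
  refine ⟨?_⟩
  intro H hH
  have hN : (H.comap (QuotientGroup.mk' (Subgroup.center X))).Normal := hH.comap _
  rcases normal_dichotomy hgen hp _ hN with h1 | h1
  · right
    set N := H.comap (QuotientGroup.mk' (Subgroup.center X)) with hNdef
    haveI := hN
    -- `X / N` is nilpotent and perfect, hence trivial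
    have hsurj : Function.Surjective ((QuotientGroup.mk' N).comp A.subtype) := by
      rw [← MonoidHom.range_eq_top, MonoidHom.range_comp, Subgroup.range_subtype]
      have h2 := congrArg (Subgroup.map (QuotientGroup.mk' N)) h1
      rw [Subgroup.map_sup, Subgroup.map_top_of_surjective _ (QuotientGroup.mk'_surjective N)] at h2
      have h3 : N.map (QuotientGroup.mk' N) = ⊥ := by
        rw [eq_bot_iff]
        rintro _ ⟨n, hn, rfl⟩
        rw [Subgroup.mem_bot]
        exact (QuotientGroup.eq_one_iff n).2 hn
      rwa [h3, bot_sup_eq] at h2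
    haveI := hp.nilpotent_left
    haveI : Group.IsNilpotent (X ⧸ N) := nilpotent_of_surjective _ hsurj
    have hNtop : N = ⊤ := by
      by_contra hne
      haveI : Nontrivial (X ⧸ N) := QuotientGroup.nontrivial_iff.2 hne
      exact Group.IsPerfect.not_isNilpotent (X ⧸ N) inferInstance
    rw [eq_top_iff]
    intro q _
    obtain ⟨y, rfl⟩ := QuotientGroup.mk'_surjective _ q
    have : y ∈ N := by rw [hNtop]; trivial
    exact this
  · left
    rw [eq_bot_iff]
    intro x hx
    obtain ⟨y, rfl⟩ := QuotientGroup.mk'_surjective _ x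
    have : y ∈ Subgroup.center X := h1 hx
    rw [Subgroup.mem_bot]
    exact (QuotientGroup.eq_one_iff y).2 this

end Cfsg.Agent.S5017
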