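import Cfsg.Statements.S5018
import Mathlib
import Cfsg.Agent.Lib.RootSubgroups.RankOne

set_option autoImplicit false
open Cfsg

open Cfsg.Agent.Lib.RootSubgroups

namespace Cfsg.Agent.S5018


/-- A rank one group is not nilpotent, and its second centre equals its centre. -/
theorem result {X : Type*} [Group X] {A B : Subgroup X} (h : Cfsg.IsRankOneGroup X A B) :
    Subgroup.upperCentralSeries X 2 = Subgroup.center X ∧ ¬ Group.IsNilpotent X := by
  obtain ⟨hgen, hp⟩ := h
  constructor
  · apply le_antisymm
    · intro x hx
      apply mem_center_of_comm_central hgen hp
      intro g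
      have := (Subgroup.mem_upperCentralSeries_succ_iff (G := X) (n := 1) (x := x)).1 hx g
      rwa [Subgroup.upperCentralSeries_one] at this
    · rw [← Subgroup.upperCentralSeries_one]
      exact Subgroup.upperCentralSeries_mono X (by norm_num)
  · intro hnil
    obtain ⟨n, hn⟩ := hnil.nilpotent'
    have h1 : ∀ n, Subgroup.upperCentralSeries X n ≤ Subgroup.center X := by
      intro n
      induction n with
      | zero => simp
      | succ n ih =>
        intro x hx
        apply mem_center_of_comm_central hgen hp
        intro g
        exact ih ((Subgroup.mem_upperCentralSeries_succ_iff (G := X) (n := n) (x := x)).1 hx g)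
    apply center_ne_top hp
    rw [eq_top_iff, ← hn]
    exact h1 n

end Cfsg.Agent.S5018
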