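import Cfsg.Statements.S5020
import Mathlib
import Cfsg.Agent.Lib.RootSubgroups.SpecialPrime
import Cfsg.Agent.Lib.RootSubgroups.SpecialHua
import Cfsg.Agent.Lib.FStar.Basic
import Cfsg.Agent.S5017

set_option autoImplicit false
open Cfsg


namespace Cfsg.Agent.S5020

theorem zmod2_sq : ∀ r : ZMod 2, r * r = 1 → r = 1 := by decide

open Cfsg.Agent.Lib.RootSubgroups Cfsg.Agent.Lib.RootSubgroups.Special Cfsg.Agent.Lib.RootSubgroups.SpecialPrime in
/-- small case -/
theorem small_case {X : Type*} [Group X] {A B : Subgroup X} (h : Cfsg.IsRankOneGroup X A B)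
    (hs : Cfsg.IsSpecialRankOnePair A B) (hab : Cfsg.HasAbelianUnipotents A B)
    (p : ℕ) [hp : Fact p.Prime] [Finite A] (hcard : Nat.card A = p) :
    ∃ φ : Matrix.SpecialLinearGroup (Fin 2) (ZMod p) →* X, Function.Surjective φ ∧
      φ.ker ≤ Subgroup.center (Matrix.SpecialLinearGroup (Fin 2) (ZMod p)) := by
  obtain ⟨a, ha, ha1⟩ := exists_ne_one_left h.2
  obtain ⟨b, hb, hb1, e⟩ := exists_partner_left hs ha ha1
  have hel : Cfsg.IsElementaryAbelian p A := by
    refine ⟨hab.1, ?_⟩
    intro x hx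
    have := pow_card_eq_one' (x := (⟨x, hx⟩ : A))
    rw [hcard] at this
    simpa [Subtype.ext_iff] using this
  obtain ⟨φ, -, -, hker, hrange⟩ := exists_hom hs hel ha ha1 hb hb1 e
  refine ⟨φ, ?_, hker⟩
  rw [← MonoidHom.range_eq_top, hrange, eq_top_iff, ← h.1]
  haveI : Fact (Nat.card A).Prime := by rw [hcard]; exact hp
  have hzp : ∀ x ∈ A, x ∈ Subgroup.zpowers a := by
    intro x hx
    have h1 : Subgroup.zpowers (⟨a, ha⟩ : A) = ⊤ := zpowers_eq_top_of_prime_card (p := Nat.card A) rfl (fun h0 => ha1 (congrArg Subtype.val h0))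
    have h2 : (⟨x, hx⟩ : A) ∈ Subgroup.zpowers (⟨a, ha⟩ : A) := by rw [h1]; trivial
    obtain ⟨k, hk⟩ := h2
    exact ⟨k, by simpa [Subtype.ext_iff] using hk⟩
  have hac : a ∈ Subgroup.closure ({a, b} : Set X) := Subgroup.subset_closure (by simp)
  have hbc : b ∈ Subgroup.closure ({a, b} : Set X) := Subgroup.subset_closure (by simp)
  apply sup_le
  · intro x hx
    obtain ⟨k, rfl⟩ := hzp x hx
    exact Subgroup.zpow_mem _ hac k
  · intro y hy
    rw [← n_conjBy_A hs ha e] at hy
    obtain ⟨x, hx, rfl⟩ := hy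
    obtain ⟨k, rfl⟩ := hzp x hx
    have h3 := n_conj_a hs ha ha1 hb hb1 e
    have h4 : (MulAut.conj (a * b⁻¹ * a)).toMonoidHom (a ^ k) = (b⁻¹) ^ k := by
      rw [map_zpow]
      congr 1
    simp only at h4 ⊢
    rw [h4]
    exact Subgroup.zpow_mem _ (Subgroup.inv_mem _ hbc) k

/-- Let X be a special rank one group with abelian unipotent subgroups A and B, and H = N(A) ∩ N(B) its diagonal subgroup. Then either A has at most three elements and X is isomorphic to SL₂(2), SL₂(3) or PSL₂(3); or X = X' A with the commutator subgroup X' quasisimple and the commutator subgroup ⁅A, H⁆ having more than three elements. -/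
theorem result {X : Type*} [Group X] {A B : Subgroup X} (h : Cfsg.IsRankOneGroup X A B)
    (hs : Cfsg.IsSpecialRankOnePair A B) (hab : Cfsg.HasAbelianUnipotents A B) :
    (ENat.card A ≤ 3 ∧ (Nonempty (X ≃* Matrix.SpecialLinearGroup (Fin 2) (ZMod 2)) ∨
        Nonempty (X ≃* Matrix.SpecialLinearGroup (Fin 2) (ZMod 3)) ∨
        Nonempty (X ≃* Matrix.ProjectiveSpecialLinearGroup (Fin 2) (ZMod 3)))) ∨
    (commutator X ⊔ A = ⊤ ∧ Cfsg.IsQuasisimple (commutator X) ∧
      3 < ENat.card ↥(⁅A, Cfsg.rankOneDiagonal A B⁆ : Subgroup X)) := by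
  open Cfsg.Agent.Lib.RootSubgroups Cfsg.Agent.Lib.RootSubgroups.Special Cfsg.Agent.Lib.RootSubgroups.SpecialPrime in
  by_cases hc : 3 < ENat.card A
  · right
    have hle := le_commutator_diagonal hs hab.1 hc
    have heq : (⁅A, Cfsg.rankOneDiagonal A B⁆ : Subgroup X) = A := le_antisymm commutator_diagonal_le hle
    have hAc : A ≤ commutator X := by
      refine hle.trans ?_
      rw [commutator_def]
      exact Subgroup.commutator_mono le_top le_top
    obtain ⟨a, ha, ha1⟩ := exists_ne_one_left h.2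
    obtain ⟨b, hb, hb1, e⟩ := exists_partner_left hs ha ha1
    have hBc : B ≤ commutator X := by
      rw [← n_conjBy_A hs ha e]
      rintro _ ⟨x, hx, rfl⟩
      exact (inferInstance : (commutator X).Normal).conj_mem x (hAc hx) _
    have htop : commutator X = ⊤ := by
      rw [eq_top_iff, ← h.1]
      exact sup_le hAc hBc
    refine ⟨by rw [htop, top_sup_eq], ?_, by rw [heq]; exact hc⟩
    rw [htop]
    refine Cfsg.Agent.Lib.FStar.qs_of_mulEquiv Subgroup.topEquiv.symm ?_
    refine (Cfsg.Agent.S5017.result h).2 (Group.isPerfect_def.mpr htop)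
  · left
    have hle : ENat.card A ≤ 3 := not_lt.mp hc
    refine ⟨hle, ?_⟩
    have hfin : Finite A := by
      by_contra hinf
      haveI : Infinite A := not_finite_iff_infinite.mp hinf
      rw [ENat.card_eq_top_of_infinite] at hle
      exact absurd hle (by simp)
    have hle' : Nat.card A ≤ 3 := by
      rw [ENat.card_eq_coe_natCard] at hle
      exact_mod_cast hle
    have hone : Nat.card A ≠ 1 := by
      intro h1
      obtain ⟨a, ha, ha1⟩ := exists_ne_one_left h.2
      have := (Subgroup.card_eq_one (H := A)).1 h1 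
      rw [this] at ha
      exact ha1 ((Subgroup.mem_bot).1 ha)
    have hzero : Nat.card A ≠ 0 := Nat.card_pos.ne'
    have hcases : Nat.card A = 2 ∨ Nat.card A = 3 := by omega
    rcases hcases with h2 | h3
    · haveI : Fact (Nat.Prime 2) := ⟨Nat.prime_two⟩
      obtain ⟨φ, hsurj, hker⟩ := small_case h hs hab 2 h2
      left
      have hinj : Function.Injective φ := by
        rw [← MonoidHom.ker_eq_bot_iff, eq_bot_iff]
        intro g hg
        obtain ⟨h01, h10, heq⟩ := (Cfsg.Agent.Lib.KS2.SL2.isScalar_iff_center g).2 (hker hg)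
        rw [Subgroup.mem_bot]
        have hdet := Cfsg.Agent.Lib.KS2.SL2.det_rel g
        rw [h01, h10, ← heq, zero_mul, sub_zero] at hdet
        have h00 : (g : Matrix (Fin 2) (Fin 2) (ZMod 2)) 0 0 = 1 := by
          exact zmod2_sq _ hdet
        apply Cfsg.Agent.Lib.KS2.SL2.ext4 <;> simp [h01, h10, ← heq, h00]
      exact ⟨(MulEquiv.ofBijective φ ⟨hinj, hsurj⟩).symm⟩
    · haveI : Fact (Nat.Prime 3) := ⟨Nat.prime_three⟩
      obtain ⟨φ, hsurj, hker⟩ := small_case h hs hab 3 h3
      right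
      rcases le_center_dichotomy hker with h1 | h1
      · left
        exact ⟨(MulEquiv.ofBijective φ ⟨(MonoidHom.ker_eq_bot_iff φ).1 h1, hsurj⟩).symm⟩
      · right
        exact ⟨(QuotientGroup.quotientKerEquivOfSurjective φ hsurj).symm.trans (QuotientGroup.quotientMulEquivOfEq h1)⟩

end Cfsg.Agent.S5020
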