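import Cfsg.Statements.S5024
import Mathlib
import Cfsg.Agent.Lib.RootSubgroups.Abstract

set_option autoImplicit false
open Cfsg

open Cfsg.Agent.Lib.RootSubgroups

namespace Cfsg.Agent.S5024


/-- Let S be a set of abstract root subgroups of G, A and C members of S, B a rank one partner of A in S and D a rank one partner of C in S. If the rank one group ⟨A, B⟩ is contained in ⟨C, D⟩ then the two coincide, and C and D are conjugates of A inside ⟨A, B⟩. -/
theorem result {G : Type*} [Group G] {S : Set (Subgroup G)} (hS : Cfsg.IsRootSubgroupSet S)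
    {A B C D : Subgroup G} (hA : A ∈ S) (hC : C ∈ S) (hB : B ∈ Cfsg.rankOnePartners S A) (hD : D ∈ Cfsg.rankOnePartners S C)
    (hle : A ⊔ B ≤ C ⊔ D) : A ⊔ B = C ⊔ D ∧ C ∈ Cfsg.unipotentSubgroups A B ∧ D ∈ Cfsg.unipotentSubgroups A B := by
  have hABp : IsRankOnePair A B := hB.2
  have hCDp : IsRankOnePair C D := hD.2
  have hnA : ∃ a ∈ A, ∃ y ∈ C ⊔ D, a * y ≠ y * a := by
    by_contra hcon
    push Not at hcon
    exact IsRankOnePair.not_commute' hABp
      (fun a ha b hb => hcon a ha b (hle (Subgroup.mem_sup_right hb)))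
  have hnB : ∃ a ∈ B, ∃ y ∈ C ⊔ D, a * y ≠ y * a := by
    by_contra hcon
    push Not at hcon
    exact IsRankOnePair.not_commute' (RankOnePair_symm hABp)
      (fun a ha b hb => hcon a ha b (hle (Subgroup.mem_sup_left hb)))
  have hA' : A ∈ unipotentSubgroups C D :=
    mem_unipotent_of_le hS hA hC hD.1 hCDp ((le_sup_left).trans hle) hnA
  have hB' : B ∈ unipotentSubgroups C D :=
    mem_unipotent_of_le hS hB.1 hC hD.1 hCDp ((le_sup_right).trans hle) hnB
  have hsup : A ⊔ B = C ⊔ D := sup_eq_of_ne hCDp hA' hB' hABp.ne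
  refine ⟨hsup, ?_, ?_⟩
  · obtain ⟨x, hx, e⟩ := hA'
    refine ⟨x⁻¹, ?_, ?_⟩
    · rw [hsup]; exact Subgroup.inv_mem _ hx
    · rw [e, conjBy_inv_conjBy]
  · obtain ⟨x, hx, e⟩ := hA'
    obtain ⟨z, hz, e'⟩ := right_mem_unipotent hCDp
    refine ⟨z * x⁻¹, ?_, ?_⟩
    · rw [hsup]; exact Subgroup.mul_mem _ hz (Subgroup.inv_mem _ hx)
    · rw [conjBy_mul, e, conjBy_inv_conjBy]; exact e'

end Cfsg.Agent.S5024
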