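import Cfsg.Statements.S5026
import Mathlib
import Cfsg.Agent.Lib.RootSubgroups.Abstract

set_option autoImplicit false
open Cfsg

open Cfsg.Agent.Lib.RootSubgroups

namespace Cfsg.Agent.S5026
theorem le_centralizer_zpowers_iff {G : Type*} [Group G] {E : Subgroup G} {x : G} :
    E ≤ Subgroup.centralizer ((Subgroup.zpowers x : Subgroup G) : Set G) ↔ ∀ e ∈ E, e * x = x * e := by
  constructor
  · intro h e he
    exact ((Subgroup.mem_centralizer_iff).1 (h he) x (Subgroup.mem_zpowers x)).symm
  · intro h e he
    rw [Subgroup.mem_centralizer_iff]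
    rintro _ ⟨k, rfl⟩
    have : Commute e x := h e he
    exact ((this.zpow_right k).eq).symm

/-- Let S be a degenerate set of abstract root subgroups of G (a set of abstract transvection groups) and let a, b be commuting non-identity elements of members of S with a b ≠ 1. Then the members of S centralizing a b are exactly those centralizing both a and b. -/
theorem result {G : Type*} [Group G] {S : Set (Subgroup G)} (hS : Cfsg.IsRootSubgroupSet S) (hdeg : Cfsg.IsDegenerateRootSet S)
    {a b : G} (ha : a ∈ Cfsg.rootElements S) (hb : b ∈ Cfsg.rootElements S) (hab : a * b = b * a) (hab1 : a * b ≠ 1) :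
    Cfsg.centralizingMembers S (Subgroup.zpowers (a * b)) =
      Cfsg.centralizingMembers S (Subgroup.zpowers a) ∩ Cfsg.centralizingMembers S (Subgroup.zpowers b) := by
  obtain ⟨ha1, A, hA, haA⟩ := ha
  obtain ⟨hb1, B, hB, hbB⟩ := hb
  ext E
  simp only [Cfsg.centralizingMembers, Set.mem_setOf_eq, Set.mem_inter_iff, le_centralizer_zpowers_iff]
  constructor
  · rintro ⟨hE, hEc⟩
    have hcomm : (∀ e ∈ E, e * a = a * e) → (∀ e ∈ E, e * b = b * e) := by
      intro h1 e he
      have h2 := hEc e he
      have h3 := h1 e he
      have : a * (e * b) = a * (b * e) := by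
        calc a * (e * b) = e * a * b := by rw [← mul_assoc, h3]
          _ = e * (a * b) := by group
          _ = a * b * e := h2
          _ = a * (b * e) := by group
      exact mul_left_cancel this
    have hcomm' : (∀ e ∈ E, e * b = b * e) → (∀ e ∈ E, e * a = a * e) := by
      intro h1 e he
      have h2 := hEc e he
      have h3 := h1 e he
      rw [hab] at h2
      have : b * (e * a) = b * (a * e) := by
        calc b * (e * a) = e * b * a := by rw [h3]; group
          _ = e * (b * a) := by group
          _ = b * a * e := h2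
          _ = b * (a * e) := by group
      exact mul_left_cancel this
    by_cases hEA : ⁅E, A⁆ = ⊥
    · have h1 : ∀ e ∈ E, e * a = a * e := fun e he => commute_of_commutator_eq_bot hEA he haA
      exact ⟨⟨hE, h1⟩, ⟨hE, hcomm h1⟩⟩
    by_cases hEB : ⁅E, B⁆ = ⊥
    · have h1 : ∀ e ∈ E, e * b = b * e := fun e he => commute_of_commutator_eq_bot hEB he hbB
      exact ⟨⟨hE, hcomm' h1⟩, ⟨hE, h1⟩⟩
    exfalso
    have hEAp : IsRankOnePair E A := by
      rcases hS.pair E hE A hA with h | h | h
      · exact absurd h hEA
      · exact h
      · exact absurd h (hdeg E hE A hA)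
    have hEBp : IsRankOnePair E B := by
      rcases hS.pair E hE B hB with h | h | h
      · exact absurd h hEB
      · exact h
      · exact absurd h (hdeg E hE B hB)
    have hAE := RankOnePair_symm hEAp
    have hBE := RankOnePair_symm hEBp
    have hnorm : conjBy E (a * b) = E := conjBy_eq_self_of_commute (fun e he => (hEc e he).symm)
    have e1 : conjBy E b = conjBy E a⁻¹ := by
      rw [conjBy_mul] at hnorm
      have := congrArg (fun F => conjBy F a⁻¹) hnorm
      simpa [conjBy_inv_conjBy] using this
    obtain ⟨-, hmem⟩ := key_of_same_action hS hE hB hAE (A.inv_mem haA) (by simpa using ha1) hbB hb1 e1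
    by_cases hBA : B = A
    · subst hBA
      exact conjBy_ne_of_mem_left hBE (B.mul_mem haA hbB) hab1 hnorm
    · apply ha1
      apply eq_one_of_conjBy_eq hAE hmem hBA haA
      have hS' : conjBy B a ∈ S := hS.conj_mem B hB a
      have hb' : b ∈ conjBy B a := by
        rw [mem_conjBy]
        have : a⁻¹ * b * a = b := by
          calc a⁻¹ * b * a = a⁻¹ * (b * a) := by group
            _ = a⁻¹ * (a * b) := by rw [hab]
            _ = b := by group
        rwa [this]
      exact (eq_of_mem_of_mem hS hE hBE hS' hbB hb' hb1).symm
  · rintro ⟨⟨hE, h1⟩, ⟨-, h2⟩⟩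
    refine ⟨hE, fun e he => ?_⟩
    rw [← mul_assoc, h1 e he, mul_assoc, h2 e he, mul_assoc]

end Cfsg.Agent.S5026
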