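import Cfsg.Statements.S5027
import Mathlib
import Cfsg.Agent.Lib.RootSubgroups.Abstract

set_option autoImplicit false
open Cfsg

open Cfsg.Agent.Lib.RootSubgroups

namespace Cfsg.Agent.S5027


/-- Let S be a set of abstract root subgroups of G such that every member of S has a rank one partner in S (the graph of rank one pairs on S has no isolated vertex). Then the second centre of G equals its centre. -/
theorem result {G : Type*} [Group G] {S : Set (Subgroup G)} (hS : Cfsg.IsRootSubgroupSet S)
    (hF : ∀ A ∈ S, ¬ Cfsg.IsIsolatedIn (Cfsg.FAdj S) S A) : Subgroup.upperCentralSeries G 2 = Subgroup.center G := by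
  apply le_antisymm
  · intro z hz
    have hcent : ∀ g : G, z * g * z⁻¹ * g⁻¹ ∈ Subgroup.center G := by
      intro g
      have := (Subgroup.mem_upperCentralSeries_succ_iff (G := G) (n := 1) (x := z)).1 hz g
      rwa [Subgroup.upperCentralSeries_one] at this
    -- z commutes with each member of S
    have hkey : ∀ A ∈ S, ∀ a ∈ A, z * a * z⁻¹ * a⁻¹ = 1 := by
      intro A hA
      obtain ⟨B, hB, h⟩ := exists_partner_of_not_isolated (hF A hA) hA
      have hconj : ∀ a : G, z * a * z⁻¹ = (z * a * z⁻¹ * a⁻¹) * a := by intro a; group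
      have hcentral : ∀ {u : G}, u ∈ Subgroup.center G → ∀ y : G, u * y = y * u := by
        intro u hu y
        exact (Subgroup.mem_center_iff.1 hu y).symm
      -- A' = z A z⁻¹ equals A
      have hAeq : conjBy A z = A := by
        obtain ⟨a₀, ha₀, ha₀1⟩ := exists_ne_one_left h
        have hne : z * a₀ * z⁻¹ ≠ 1 := by
          intro e
          apply ha₀1
          have : a₀ = z⁻¹ * (z * a₀ * z⁻¹) * z := by group
          rw [this, e]; group
        have e : conjBy B (z * a₀ * z⁻¹) = conjBy B a₀ := by
          rw [hconj a₀, conjBy_mul]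
          exact conjBy_eq_self_of_commute (fun y _ => hcentral (hcent a₀) y)
        obtain ⟨-, hmem⟩ := key_of_same_action hS hB (hS.conj_mem A hA z) h ha₀ ha₀1
          (conj_mem_conjBy ha₀) hne e
        by_contra hne'
        refine IsRankOnePair.not_commute' (pair_of_mem_unipotent h hmem left_mem_unipotent hne') ?_
        rintro _ ⟨a₂, ha₂, rfl⟩ a₁ ha₁
        have e2 : (MulAut.conj z).toMonoidHom a₂ = (z * a₂ * z⁻¹ * a₂⁻¹) * a₂ := by
          simp [mul_assoc]
        rw [e2]
        calc (z * a₂ * z⁻¹ * a₂⁻¹) * a₂ * a₁ = (z * a₂ * z⁻¹ * a₂⁻¹) * (a₂ * a₁) := by group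
          _ = (z * a₂ * z⁻¹ * a₂⁻¹) * (a₁ * a₂) := by rw [comm_of_isMulCommutative (hS.commutative A hA) ha₂ ha₁]
          _ = (z * a₂ * z⁻¹ * a₂⁻¹) * a₁ * a₂ := by group
          _ = a₁ * (z * a₂ * z⁻¹ * a₂⁻¹) * a₂ := by rw [hcentral (hcent a₂) a₁]
          _ = a₁ * ((z * a₂ * z⁻¹ * a₂⁻¹) * a₂) := by group
      intro a ha
      have hmemA : z * a * z⁻¹ * a⁻¹ ∈ A := by
        apply A.mul_mem _ (A.inv_mem ha)
        exact conj_mem_of_conjBy_eq hAeq ha
      by_contra hne
      exact conjBy_ne_of_mem_left h hmemA hne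
        (conjBy_eq_self_of_commute (fun y _ => hcentral (hcent a) y))
    rw [Subgroup.mem_center_iff]
    intro g
    have hg : g ∈ (⨆ A ∈ S, A : Subgroup G) := by rw [hS.generates]; trivial
    have hle : (⨆ A ∈ S, A : Subgroup G) ≤ Subgroup.centralizer ({z} : Set G) := by
      apply iSup₂_le
      intro A hA a ha
      rw [Subgroup.mem_centralizer_iff]
      intro w hw
      rw [Set.mem_singleton_iff.1 hw]
      have := hkey A hA a ha
      have h2 : z * a * z⁻¹ = a := by
        have := mul_eq_one_iff_eq_inv.1 this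
        simpa using this
      calc z * a = z * a * z⁻¹ * z := by group
        _ = a * z := by rw [h2]
    have := (Subgroup.mem_centralizer_iff).1 (hle hg) z rfl
    exact this.symm
  · rw [← Subgroup.upperCentralSeries_one]
    exact Subgroup.upperCentralSeries_mono G (by norm_num)

end Cfsg.Agent.S5027
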