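import Cfsg.Statements.S5030
import Mathlib
import Cfsg.Agent.Lib.RootSubgroups.Nilp

set_option autoImplicit false
open Cfsg

open Cfsg Cfsg.Agent.Lib.RootSubgroups

namespace Cfsg.Agent.S5030


/-- Let S be a set of abstract root subgroups of G and A, B, C ∈ S with ⁅A, B⁆ ∈ S and ⁅B, C⁆ ∈ S, where A and C are different and commute. For a non-identity b ∈ B put X = ⟨A, b⁻¹ C b⟩ and Y = ⟨b⁻¹ A b, C⟩ and R = ⟨A, B, C⟩. Then X and Y are either both abelian or both nilpotent of class exactly two; X and Y commute elementwise; XY is normal in R with R = (XY) B; and R is nilpotent. -/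
theorem result {G : Type*} [Group G] {S : Set (Subgroup G)} (hS : Cfsg.IsRootSubgroupSet S)
    {A B C : Subgroup G} (hA : A ∈ S) (hB : B ∈ S) (hC : C ∈ S) (hAB : ⁅A, B⁆ ∈ S) (hBC : ⁅B, C⁆ ∈ S)
    (hAC : C ∈ Cfsg.commutingPartners S A)
    {b : G} (hb : b ∈ B) (hb1 : b ≠ 1) :
    ((IsMulCommutative ↥(A ⊔ Cfsg.conjBy C b⁻¹) ∧ IsMulCommutative ↥(Cfsg.conjBy A b⁻¹ ⊔ C)) ∨
      ((¬ IsMulCommutative ↥(A ⊔ Cfsg.conjBy C b⁻¹) ∧
          ⁅⁅A ⊔ Cfsg.conjBy C b⁻¹, A ⊔ Cfsg.conjBy C b⁻¹⁆, A ⊔ Cfsg.conjBy C b⁻¹⁆ = ⊥) ∧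
        (¬ IsMulCommutative ↥(Cfsg.conjBy A b⁻¹ ⊔ C) ∧
          ⁅⁅Cfsg.conjBy A b⁻¹ ⊔ C, Cfsg.conjBy A b⁻¹ ⊔ C⁆, Cfsg.conjBy A b⁻¹ ⊔ C⁆ = ⊥))) ∧
    ⁅A ⊔ Cfsg.conjBy C b⁻¹, Cfsg.conjBy A b⁻¹ ⊔ C⁆ = ⊥ ∧
    (∀ r ∈ A ⊔ B ⊔ C, Cfsg.conjBy ((A ⊔ Cfsg.conjBy C b⁻¹) ⊔ (Cfsg.conjBy A b⁻¹ ⊔ C)) r =
      (A ⊔ Cfsg.conjBy C b⁻¹) ⊔ (Cfsg.conjBy A b⁻¹ ⊔ C)) ∧
    ((A ⊔ Cfsg.conjBy C b⁻¹) ⊔ (Cfsg.conjBy A b⁻¹ ⊔ C)) ⊔ B = A ⊔ B ⊔ C ∧
    Group.IsNilpotent ↥(A ⊔ B ⊔ C) := by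
  obtain ⟨-, hne, hAC0⟩ := hAC
  have hACc : ∀ a ∈ A, ∀ c ∈ C, a * c = c * a := fun a ha c hc => commute_of_commutator_eq_bot hAC0 ha hc
  have hCAc : ∀ c ∈ C, ∀ a ∈ A, c * a = a * c := fun c hc a ha => (hACc a ha c hc).symm
  have hCA0 : ⁅C, A⁆ = ⊥ := by rw [Subgroup.commutator_comm]; exact hAC0
  have hF : ⁅B, A⁆ ∈ S := by rw [Subgroup.commutator_comm]; exact hAB
  have hH : ⁅B, C⁆ ∈ S := hBC
  set A' := conjBy A b⁻¹ with hA'
  set C' := conjBy C b⁻¹ with hC'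
  have hAab := hS.commutative A hA
  have hCab := hS.commutative C hC
  have hBab := hS.commutative B hB
  have hA'ab : IsMulCommutative A' := hS.commutative _ (hS.conj_mem A hA b⁻¹)
  have hC'ab : IsMulCommutative C' := hS.commutative _ (hS.conj_mem C hC b⁻¹)
  have hPbot : ⁅A, C'⁆ = ⊥ ↔ ⁅A, ⁅B, C⁆⁆ = ⊥ := side_bot_iff hS hB hC hH hACc hb hb1
  have hQbot : ⁅C, A'⁆ = ⊥ ↔ ⁅C, ⁅B, A⁆⁆ = ⊥ := side_bot_iff hS hB hA hF hCAc hb hb1
  have hPQ : ⁅A, C'⁆ = ⊥ ↔ ⁅C, A'⁆ = ⊥ := by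
    rw [hPbot, hQbot]
    exact ⟨three_subgroups_step hAC0, three_subgroups_step hCA0⟩
  -- the abstract facts for `P`
  have hPA : ∀ p ∈ ⁅A, C'⁆, ∀ y ∈ A, p * y = y * p := fun p hp y hy =>
    side_P_comm_A hS hA hB hC hH hACc hb hb1 hp hy
  have hPC' : ∀ p ∈ ⁅A, C'⁆, ∀ y ∈ C', p * y = y * p := fun p hp y hy =>
    side_P_comm_C' hS hA hB hC hH hACc hb hb1 hp hy
  have hQC : ∀ p ∈ ⁅C, A'⁆, ∀ y ∈ C, p * y = y * p := fun p hp y hy =>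
    side_P_comm_A hS hC hB hA hF hCAc hb hb1 hp hy
  have hQA' : ∀ p ∈ ⁅C, A'⁆, ∀ y ∈ A', p * y = y * p := fun p hp y hy =>
    side_P_comm_C' hS hC hB hA hF hCAc hb hb1 hp hy
  have hW1 : (A ⊔ ⁅B, A⁆) ⊔ (C ⊔ ⁅B, C⁆) = (A ⊔ C') ⊔ (A' ⊔ C) := by
    rw [side_sup_eq hS hB hA hF hb hb1, side_sup_eq hS hB hC hH hb hb1, ← hA', ← hC']
    apply le_antisymm
    · refine sup_le (sup_le ?_ ?_) (sup_le ?_ ?_)
      · exact le_sup_of_le_left le_sup_left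
      · exact le_sup_of_le_right le_sup_left
      · exact le_sup_of_le_right le_sup_right
      · exact le_sup_of_le_left le_sup_right
    · refine sup_le (sup_le ?_ ?_) (sup_le ?_ ?_)
      · exact le_sup_of_le_left le_sup_left
      · exact le_sup_of_le_right le_sup_right
      · exact le_sup_of_le_left le_sup_right
      · exact le_sup_of_le_right le_sup_left
  -- (1) and (2) and (3), (4)
  have hnormB : B ≤ Subgroup.normalizer (((A ⊔ ⁅B, A⁆) ⊔ (C ⊔ ⁅B, C⁆) : Subgroup G) : Set G) :=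
    le_normalizer_of_conj (fun g hg y hy => side_W_norm hS hB hC hF hH hA hg hy)
  have hAW : A ≤ (A ⊔ ⁅B, A⁆) ⊔ (C ⊔ ⁅B, C⁆) := le_sup_of_le_left le_sup_left
  have hCW : C ≤ (A ⊔ ⁅B, A⁆) ⊔ (C ⊔ ⁅B, C⁆) := le_sup_of_le_right le_sup_left
  have hnormR : A ⊔ B ⊔ C ≤ Subgroup.normalizer (((A ⊔ ⁅B, A⁆) ⊔ (C ⊔ ⁅B, C⁆) : Subgroup G) : Set G) :=
    sup_le (sup_le (hAW.trans Subgroup.le_normalizer) hnormB) (hCW.trans Subgroup.le_normalizer)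
  have hAR : A ≤ A ⊔ B ⊔ C := le_sup_of_le_left le_sup_left
  have hBR : B ≤ A ⊔ B ⊔ C := le_sup_of_le_left le_sup_right
  have hCR : C ≤ A ⊔ B ⊔ C := le_sup_right
  have hconjR : ∀ {T : Subgroup G}, T ≤ A ⊔ B ⊔ C → conjBy T b⁻¹ ≤ A ⊔ B ⊔ C := by
    rintro T hT _ ⟨t, ht, rfl⟩
    exact Subgroup.mul_mem _ (Subgroup.mul_mem _ (hBR (B.inv_mem hb)) (hT ht)) (Subgroup.inv_mem _ (hBR (B.inv_mem hb)))
  have hA'R : A' ≤ A ⊔ B ⊔ C := hconjR hAR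
  have hC'R : C' ≤ A ⊔ B ⊔ C := hconjR hCR
  have hFR : ⁅B, A⁆ ≤ A ⊔ B ⊔ C := by
    rw [Subgroup.commutator_le]
    intro x hx y hy
    rw [commutatorElement_def]
    exact Subgroup.mul_mem _ (Subgroup.mul_mem _ (Subgroup.mul_mem _ (hBR hx) (hAR hy)) (Subgroup.inv_mem _ (hBR hx))) (Subgroup.inv_mem _ (hAR hy))
  have hHR : ⁅B, C⁆ ≤ A ⊔ B ⊔ C := by
    rw [Subgroup.commutator_le]
    intro x hx y hy
    rw [commutatorElement_def]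
    exact Subgroup.mul_mem _ (Subgroup.mul_mem _ (Subgroup.mul_mem _ (hBR hx) (hCR hy)) (Subgroup.inv_mem _ (hBR hx))) (Subgroup.inv_mem _ (hCR hy))
  have hPR : ⁅A, C'⁆ ≤ A ⊔ B ⊔ C := by
    rw [Subgroup.commutator_le]
    intro x hx y hy
    rw [commutatorElement_def]
    exact Subgroup.mul_mem _ (Subgroup.mul_mem _ (Subgroup.mul_mem _ (hAR hx) (hC'R hy)) (Subgroup.inv_mem _ (hAR hx))) (Subgroup.inv_mem _ (hC'R hy))
  have hQR : ⁅C, A'⁆ ≤ A ⊔ B ⊔ C := by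
    rw [Subgroup.commutator_le]
    intro x hx y hy
    rw [commutatorElement_def]
    exact Subgroup.mul_mem _ (Subgroup.mul_mem _ (Subgroup.mul_mem _ (hCR hx) (hA'R hy)) (Subgroup.inv_mem _ (hCR hx))) (Subgroup.inv_mem _ (hA'R hy))
  have hP₁R : ⁅⁅A, C'⁆, B⁆ ≤ A ⊔ B ⊔ C := by
    rw [Subgroup.commutator_le]
    intro x hx y hy
    rw [commutatorElement_def]
    exact Subgroup.mul_mem _ (Subgroup.mul_mem _ (Subgroup.mul_mem _ (hPR hx) (hBR hy)) (Subgroup.inv_mem _ (hPR hx))) (Subgroup.inv_mem _ (hBR hy))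
  have hQ₁R : ⁅⁅C, A'⁆, B⁆ ≤ A ⊔ B ⊔ C := by
    rw [Subgroup.commutator_le]
    intro x hx y hy
    rw [commutatorElement_def]
    exact Subgroup.mul_mem _ (Subgroup.mul_mem _ (Subgroup.mul_mem _ (hQR hx) (hBR hy)) (Subgroup.inv_mem _ (hQR hx))) (Subgroup.inv_mem _ (hBR hy))
  refine ⟨?_, ?_, ?_, ?_, ?_⟩
  · by_cases h0 : ⁅A, C'⁆ = ⊥
    · left
      refine ⟨(sup_abelian_iff hAab hC'ab).2 h0, ?_⟩
      rw [sup_comm]
      exact (sup_abelian_iff hCab hA'ab).2 (hPQ.1 h0)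
    · right
      refine ⟨⟨fun h => h0 ((sup_abelian_iff hAab hC'ab).1 h), sup_class_two hAab hC'ab hPA hPC'⟩, ?_, ?_⟩
      · rw [sup_comm]
        exact fun h => h0 (hPQ.2 ((sup_abelian_iff hCab hA'ab).1 h))
      · rw [sup_comm]
        exact sup_class_two hCab hA'ab hQC hQA'
  · apply commutator_eq_bot_of_commute
    intro x hx y hy
    have hh : CM ⊥ (A ⊔ C') (A' ⊔ C) := by
      refine CM.sup_bot_left (CM.sup_bot_right ?_ ?_) (CM.sup_bot_right ?_ ?_)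
      · exact CM.of_comm (fun a ha a' ha' => side_comm_C_conj hS hB hA hF hb ha ha')
      · exact CM.of_comm hACc
      · exact CM.of_comm (fun c' hc' a' ha' => side_conj_comm hCAc hc' ha')
      · exact CM.of_comm (fun c' hc' c hc => (side_comm_C_conj hS hB hC hH hb hc hc').symm)
    exact hh.comm hx hy
  · intro r hr
    rw [← hW1]
    exact conjBy_eq_self_iff_mem_normalizer.2 (hnormR hr)
  · apply le_antisymm
    · exact sup_le (sup_le (sup_le hAR hC'R) (sup_le hA'R hCR)) hBR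
    · refine sup_le (sup_le ?_ le_sup_right) ?_
      · exact le_sup_of_le_left (le_sup_of_le_left le_sup_left)
      · exact le_sup_of_le_left (le_sup_of_le_right le_sup_right)
  · -- nilpotency
    have hP1 := side_P1 hS hA hB hC hF hH hACc hb hb1
    have hQ1 := side_P1 hS hC hB hA hH hF hCAc hb hb1
    have hAW' : A ≤ (C ⊔ ⁅B, C⁆) ⊔ (A ⊔ ⁅B, A⁆) := le_sup_of_le_right le_sup_left
    have hCW' : C ≤ (C ⊔ ⁅B, C⁆) ⊔ (A ⊔ ⁅B, A⁆) := le_sup_of_le_left le_sup_left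
    have hFA' : ⁅B, A⁆ ≤ A ⊔ A' := side_commutator_le hS hB hA hF hb hb1
    have hHC' : ⁅B, C⁆ ≤ C ⊔ C' := side_commutator_le hS hB hC hH hb hb1
    refine nilp_core (A := A) (B := B) (C := C) (F := ⁅B, A⁆) (H := ⁅B, C⁆) (P := ⁅A, C'⁆) (Q := ⁅C, A'⁆)
      (P₁ := ⁅⁅A, C'⁆, B⁆) (Q₁ := ⁅⁅C, A'⁆, B⁆) ?_ ?_ ?_ ?_ ?_ ?_ ?_ ?_ ?_ ?_ ?_ ?_ ?_ CM.of_commutator ?_ ?_ CM.of_commutator ?_ ?_ ?_ ?_ ?_ ?_ ?_ hFR hHR hPR hQR hP₁R hQ₁R
    · exact CM.of_comm (fun _ hx _ hg => comm_of_isMulCommutative hAab hx hg)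
    · have e : ⁅B, A⁆ = ⁅A, B⁆ := Subgroup.commutator_comm _ _
      rw [e]
      exact CM.of_commutator
    · exact CM.of_comm hACc
    · exact CM.of_comm (fun _ hx _ hg => comm_of_isMulCommutative hCab hx hg)
    · have e : ⁅B, C⁆ = ⁅C, B⁆ := Subgroup.commutator_comm _ _
      rw [e]
      exact CM.of_commutator
    · exact CM.of_comm (fun _ hx _ hg => comm_of_isMulCommutative hBab hx hg)
    · exact CM.of_comm (fun f hf a ha => side_cHC hS hB hA hF hf ha)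
    · exact CM.of_comm (fun f hf g hg => side_cHB hS hB hA hF hf hg)
    · exact CM.symm (fun c hc f hf => side_comm_mem hS hB hA hF hCAc hb hc (hFA' hf))
    · exact CM.symm (fun a ha f hf => side_comm_mem hS hB hC hH hACc hb ha (hHC' hf))
    · exact CM.of_comm (fun f hf g hg => side_cHB hS hB hC hH hf hg)
    · exact CM.of_comm (fun f hf g hg => side_cHC hS hB hC hH hf hg)
    · exact CM.of_comm hPA
    · exact CM.of_comm (fun p hp c hc => side_P_central hS hA hB hC hF hH hACc hb hb1 hp (hCW hc))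
    · exact CM.of_comm (fun p hp a ha => side_P_central hS hC hB hA hH hF hCAc hb hb1 hp (hAW' ha))
    · exact CM.of_comm hQC
    · exact CM.of_comm (fun t ht y hy => hP1.1 t ht y (hAW hy))
    · exact CM.of_comm hP1.2
    · exact CM.of_comm (fun t ht y hy => hP1.1 t ht y (hCW hy))
    · exact CM.of_comm (fun t ht y hy => hQ1.1 t ht y (hAW' hy))
    · exact CM.of_comm hQ1.2
    · exact CM.of_comm (fun t ht y hy => hQ1.1 t ht y (hCW' hy))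

end Cfsg.Agent.S5030
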