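import Cfsg.Statements.S5031
import Mathlib
import Cfsg.Agent.Lib.RootSubgroups.Commutator

set_option autoImplicit false
open Cfsg

open Cfsg.Agent.Lib.RootSubgroups

namespace Cfsg.Agent.S5031

theorem core {G : Type*} [Group G] {S : Set (Subgroup G)} (hS : Cfsg.IsRootSubgroupSet S)
    {A B D E : Subgroup G} (hA : A ∈ S) (hB : B ∈ S) (hD : D ∈ S) (hE : E ∈ S) (h : Cfsg.IsRankOnePair A D)
    (hAB : ∀ a ∈ A, ∀ b ∈ B, a * b = b * a) {a b : G} (ha : a ∈ A) (ha1 : a ≠ 1) (hb : b ∈ B)
    (hx : a * b ∈ E) (hb1 : b ≠ 1) (hx1 : a * b ≠ 1) (hDB : ¬ Cfsg.IsRankOnePair D B) : Cfsg.IsRankOnePair E D := by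
  -- (D, B) is in the commutator case
  have hcomm : RootCommutatorCase S B D := by
    rcases hS.pair D hD B hB with h1 | h1 | h1
    · exfalso
      have hz : b ∈ Subgroup.centralizer ((A ⊔ D : Subgroup G) : Set G) := by
        rw [Subgroup.mem_centralizer_iff]
        intro y hy
        have hle : A ⊔ D ≤ Subgroup.centralizer ({b} : Set G) := by
          apply sup_le
          · intro a' ha'
            rw [Subgroup.mem_centralizer_iff]
            intro w hw
            rw [Set.mem_singleton_iff.1 hw]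
            exact (hAB a' ha' b hb).symm
          · intro d hd
            rw [Subgroup.mem_centralizer_iff]
            intro w hw
            rw [Set.mem_singleton_iff.1 hw]
            exact (commute_of_commutator_eq_bot h1 hd hb).symm
        exact ((Subgroup.mem_centralizer_iff).1 (hle hy) b rfl).symm
      refine Cfsg.Agent.S5025.result hS hA ⟨hD, h⟩ hz hb1 a ha ha1 ?_
      rw [← hAB a ha b hb]
      exact ⟨hx1, E, hE, hx⟩
    · exact absurd h1 hDB
    · exact RootCommutatorCase.symm' h1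
  have hDab := hS.commutative D hD
  have hD1comm : ∀ d ∈ D, ∀ c ∈ conjBy D b, d * c = c * d :=
    commutator_case_commute hcomm hDab hb
  have hDmem : D ∈ unipotentSubgroups A D := right_mem_unipotent h
  have hD3mem : conjBy D a⁻¹ ∈ unipotentSubgroups A D :=
    conjBy_mem_unipotent h hDmem (Subgroup.mem_sup_left (A.inv_mem ha))
  have hD3ne : conjBy D a⁻¹ ≠ D := conjBy_ne_of_mem_left h (A.inv_mem ha) (by simpa using ha1)
  have hxconj : conjBy D (a * b) = conjBy (conjBy D b) a := conjBy_mul D a b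
  rcases hS.pair E hE D hD with h1 | h1 | h1
  · exfalso
    have h2 : conjBy D (a * b) = D :=
      conjBy_eq_self_of_commute (fun d hd => commute_of_commutator_eq_bot h1 hx hd)
    rw [hxconj] at h2
    have h3 : conjBy D b = conjBy D a⁻¹ := conjBy_eq_iff_eq_conjBy_inv.1 h2
    apply IsRankOnePair.not_commute' (pair_of_mem_unipotent h hDmem hD3mem hD3ne.symm)
    intro d hd c hc
    rw [← h3] at hc
    exact hD1comm d hd c hc
  · exact h1
  · exfalso
    have h2 := commutator_case_commute h1 hDab hx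
    rw [hxconj] at h2
    -- `conjBy D b` commutes with `conjBy D a⁻¹`
    have h3 : ∀ y ∈ conjBy D b, ∀ d ∈ conjBy D a⁻¹, y * d = d * y := by
      intro y hy d hd
      rw [mem_conjBy, inv_inv] at hd
      have h4 : a * y * a⁻¹ ∈ conjBy (conjBy D b) a := conj_mem_conjBy hy
      have h5 := h2 _ hd _ h4
      have h6 : a * d * a⁻¹ * (a * y * a⁻¹) = a * (d * y) * a⁻¹ := by group
      have h7 : a * y * a⁻¹ * (a * d * a⁻¹) = a * (y * d) * a⁻¹ := by group
      rw [h6, h7] at h5
      have h8 : d * y = y * d := by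
        have := mul_left_cancel (mul_right_cancel h5)
        exact this
      exact h8.symm
    have hsup : D ⊔ conjBy D a⁻¹ = A ⊔ D := sup_eq_of_ne h hDmem hD3mem hD3ne.symm
    -- `(A, conjBy D b)` is a rank one pair
    have hAfix : conjBy A b = A :=
      conjBy_eq_self_of_commute (fun a' ha' => (hAB a' ha' b hb).symm)
    have hp : IsRankOnePair A (conjBy D b) := by
      have := conjBy_pair h b
      rwa [hAfix] at this
    apply IsRankOnePair.not_commute' hp
    intro a' ha' y hy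
    have := commute_of_mem_sup (A := D) (B := conjBy D a⁻¹) (x := y) (y := a')
      (fun d hd => (hD1comm d hd y hy).symm) (fun d hd => h3 y hy d hd)
      (by rw [hsup]; exact Subgroup.mem_sup_left ha')
    exact this.symm

/-- Let S be a set of abstract root subgroups of G and let A, B ∈ S lie in different connected components of the graph of rank one pairs on S, each component having more than one member. Then B is not a line partner of A. -/
theorem result {G : Type*} [Group G] {S : Set (Subgroup G)} (hS : Cfsg.IsRootSubgroupSet S)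
    {A B : Subgroup G} (hA : A ∈ S) (hB : B ∈ S)
    (hne : Cfsg.componentOf (Cfsg.FAdj S) S A ≠ Cfsg.componentOf (Cfsg.FAdj S) S B)
    (hA2 : ∃ A' ∈ Cfsg.componentOf (Cfsg.FAdj S) S A, A' ≠ A) (hB2 : ∃ B' ∈ Cfsg.componentOf (Cfsg.FAdj S) S B, B' ≠ B) :
    B ∉ Cfsg.linePartners S A := by
  intro hline
  obtain ⟨⟨-, hABne, hABc⟩, hpart⟩ := hline
  have hcommAB : ∀ a ∈ A, ∀ b ∈ B, a * b = b * a := fun a ha b hb =>
    commute_of_commutator_eq_bot hABc ha hb
  -- symmetric adjacency
  have hsymm : ∀ X Y : Subgroup G, Cfsg.FAdj S X Y → Cfsg.FAdj S Y X := by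
    rintro X Y ⟨h1, h2, h3⟩
    exact ⟨h2, h1, RankOnePair_symm h3⟩
  have hreachsymm : ∀ {X Y : Subgroup G}, Relation.ReflTransGen (Cfsg.FAdj S) X Y →
      Relation.ReflTransGen (Cfsg.FAdj S) Y X := by
    intro X Y hXY
    induction hXY with
    | refl => exact .refl
    | tail _ h ih => exact (Relation.ReflTransGen.single (hsymm _ _ h)).trans ih
  have hpartner : ∀ {X : Subgroup G}, (∃ X' ∈ Cfsg.componentOf (Cfsg.FAdj S) S X, X' ≠ X) →
      ∃ Y ∈ S, Cfsg.IsRankOnePair X Y := by
    rintro X ⟨X', ⟨-, hr⟩, hne'⟩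
    rcases Relation.ReflTransGen.cases_head hr with h1 | ⟨Y, hY, -⟩
    · exact absurd h1.symm hne'
    · exact ⟨Y, hY.2.1, hY.2.2⟩
  have hnotreach : ¬ Relation.ReflTransGen (Cfsg.FAdj S) A B := by
    intro hr
    apply hne
    ext X
    simp only [Cfsg.componentOf, Set.mem_setOf_eq]
    constructor
    · rintro ⟨h1, h2⟩
      exact ⟨h1, (hreachsymm hr).trans h2⟩
    · rintro ⟨h1, h2⟩
      exact ⟨h1, hr.trans h2⟩
  obtain ⟨D, hD, hAD⟩ := hpartner hA2
  obtain ⟨B₁, hB₁, hBB₁⟩ := hpartner hB2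
  obtain ⟨a, ha, ha1⟩ := exists_ne_one_left hAD
  obtain ⟨b, hb, hb1⟩ := exists_ne_one_left hBB₁
  have hab1 : a * b ≠ 1 := by
    intro e
    have h1 : a = b⁻¹ := mul_eq_one_iff_eq_inv.1 e
    have h2 : a ∈ B := h1 ▸ B.inv_mem hb
    exact hABne (eq_of_mem_of_mem hS hD hAD hB ha h2 ha1).symm
  have hx : a * b ∈ A ⊔ B := Subgroup.mul_mem _ (Subgroup.mem_sup_left ha) (Subgroup.mem_sup_right hb)
  obtain ⟨E, ⟨hE, -⟩, hxE⟩ := hpart.2.1 (a * b) hx hab1
  have hDB : ¬ Cfsg.IsRankOnePair D B := by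
    intro hp
    apply hnotreach
    exact (Relation.ReflTransGen.single ⟨hA, hD, hAD⟩).trans (Relation.ReflTransGen.single ⟨hD, hB, hp⟩)
  have hBA : ¬ Cfsg.IsRankOnePair B₁ A := by
    intro hp
    apply hnotreach
    exact hreachsymm ((Relation.ReflTransGen.single ⟨hB, hB₁, hBB₁⟩).trans (Relation.ReflTransGen.single ⟨hB₁, hA, hp⟩))
  have h1 : Cfsg.IsRankOnePair E D := core hS hA hB hD hE hAD hcommAB ha ha1 hb hxE hb1 hab1 hDB
  have h2 : Cfsg.IsRankOnePair E B₁ := by
    refine core hS hB hA hB₁ hE hBB₁ (fun b hb a ha => (hcommAB a ha b hb).symm) hb hb1 ha ?_ ha1 ?_ hBA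
    · rw [← hcommAB a ha b hb]; exact hxE
    · rw [← hcommAB a ha b hb]; exact hab1
  apply hnotreach
  have r1 : Relation.ReflTransGen (Cfsg.FAdj S) A E :=
    (Relation.ReflTransGen.single ⟨hA, hD, hAD⟩).trans (Relation.ReflTransGen.single ⟨hD, hE, RankOnePair_symm h1⟩)
  have r2 : Relation.ReflTransGen (Cfsg.FAdj S) E B :=
    (Relation.ReflTransGen.single ⟨hE, hB₁, h2⟩).trans (Relation.ReflTransGen.single ⟨hB₁, hB, RankOnePair_symm hBB₁⟩)
  exact r1.trans r2

end Cfsg.Agent.S5031
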