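import Cfsg.Statements.S5032
import Mathlib
import Cfsg.Agent.S5029
import Cfsg.Agent.S5031

set_option autoImplicit false
open Cfsg

open Cfsg.Agent.Lib.RootSubgroups

namespace Cfsg.Agent.S5032


/-- Let S be a set of abstract root subgroups of G with more than one member. Then the graph of rank one pairs on S is connected if and only if S is a single conjugacy class of G and some member of S has a rank one partner in S. -/
theorem result {G : Type*} [Group G] {S : Set (Subgroup G)} (hS : Cfsg.IsRootSubgroupSet S) (h2 : ∃ A ∈ S, ∃ B ∈ S, A ≠ B) :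
    Cfsg.IsConnectedFamily (Cfsg.FAdj S) S ↔
      (Cfsg.IsConjClassOfSubgroups S ∧ ∃ A ∈ S, ¬ Cfsg.IsIsolatedIn (Cfsg.FAdj S) S A) := by
  have hsymm : ∀ X Y : Subgroup G, Cfsg.FAdj S X Y → Cfsg.FAdj S Y X := by
    rintro X Y ⟨h1, h2, h3⟩
    exact ⟨h2, h1, RankOnePair_symm h3⟩
  have hreachsymm : ∀ {X Y : Subgroup G}, Relation.ReflTransGen (Cfsg.FAdj S) X Y →
      Relation.ReflTransGen (Cfsg.FAdj S) Y X := by
    intro X Y hXY
    induction hXY with
    | refl => exact .refl
    | tail _ h ih => exact (Relation.ReflTransGen.single (hsymm _ _ h)).trans ih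
  constructor
  · intro hconn
    obtain ⟨A₀, hA₀, B₀, hB₀, hne⟩ := h2
    refine ⟨⟨⟨A₀, hA₀⟩, ?_⟩, A₀, hA₀, ?_⟩
    · intro A hA B hB
      have := hconn A hA B hB
      induction this with
      | refl => exact ⟨1, by simp⟩
      | @tail X Y _ hXY ih =>
        obtain ⟨g, hg⟩ := ih hXY.1
        obtain ⟨x, -, hx⟩ := right_mem_unipotent hXY.2.2
        refine ⟨x * g, ?_⟩
        rw [conjBy_mul, ← hg]
        exact hx
    · intro hiso
      rcases Relation.ReflTransGen.cases_head (hconn A₀ hA₀ B₀ hB₀) with h1 | ⟨Y, hY, -⟩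
      · exact hne h1
      · exact (hiso.2 Y).1 hY
  · rintro ⟨⟨hne', hconj⟩, A₀, hA₀, hiso⟩
    obtain ⟨D₀, hD₀, hp₀⟩ := exists_partner_of_not_isolated hiso hA₀
    -- every member has a partner
    have hpartner : ∀ X ∈ S, ∃ Y ∈ S, IsRankOnePair X Y := by
      intro X hX
      obtain ⟨g, rfl⟩ := hconj A₀ hA₀ X hX
      exact ⟨conjBy D₀ g, hS.conj_mem D₀ hD₀ g, conjBy_pair hp₀ g⟩
    have hnoniso : ∀ X ∈ S, ¬ IsIsolatedIn (FAdj S) S X := by
      intro X hX hi
      obtain ⟨Y, hY, hp⟩ := hpartner X hX
      exact (hi.2 Y).1 ⟨hX, hY, hp⟩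
    -- components have at least two members
    have hcomp2 : ∀ X ∈ S, ∃ X' ∈ componentOf (FAdj S) S X, X' ≠ X := by
      intro X hX
      obtain ⟨Y, hY, hp⟩ := hpartner X hX
      exact ⟨Y, ⟨hY, Relation.ReflTransGen.single ⟨hX, hY, hp⟩⟩, hp.ne.symm⟩
    -- line partners are in the same component
    have hline : ∀ {X C : Subgroup G}, X ∈ S → C ∈ S → X ∈ linePartners S C →
        Relation.ReflTransGen (FAdj S) C X := by
      intro X C hX hC hl
      have hcomp : componentOf (FAdj S) S C = componentOf (FAdj S) S X := by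
        by_contra hne
        exact Cfsg.Agent.S5031.result hS hC hX hne (hcomp2 C hC) (hcomp2 X hX) hl
      have : X ∈ componentOf (FAdj S) S C := by
        rw [hcomp]; exact ⟨hX, .refl⟩
      exact this.2
    -- a single conjugation stays in the component
    have hstep : ∀ X ∈ S, ∀ E ∈ S, ∀ e ∈ E, Relation.ReflTransGen (FAdj S) X (conjBy X e) := by
      intro X hX E hE e he
      rcases hS.pair X hX E hE with h1 | h1 | h1
      · have : conjBy X e = X := conjBy_eq_self_of_commute
          (fun x hx => (commute_of_commutator_eq_bot h1 hx he).symm)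
        rw [this]
      · by_cases hfix : conjBy X e = X
        · rw [hfix]
        · have hmem : conjBy X e ∈ unipotentSubgroups X E :=
            conjBy_mem_unipotent h1 left_mem_unipotent (Subgroup.mem_sup_right he)
          exact Relation.ReflTransGen.single
            ⟨hX, hS.conj_mem X hX e, pair_of_mem_unipotent h1 left_mem_unipotent hmem (Ne.symm hfix)⟩
      · have hC : ⁅X, E⁆ ∈ S := h1.1
        have hl1 := (Cfsg.Agent.S5029.result hS (hnoniso X hX) hX hE hC).2.2.1
        have r1 := hline hX hC hl1
        -- the conjugate has the same commutator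
        have hcomm : ⁅conjBy X e, E⁆ = ⁅X, E⁆ := by
          have h2 : conjBy ⁅X, E⁆ e = ⁅X, E⁆ := by
            rw [Subgroup.commutator_comm]
            exact conjBy_commutator_left he
          have h3 : conjBy ⁅X, E⁆ e = ⁅conjBy X e, conjBy E e⁆ := Subgroup.map_commutator _ _ _
          rw [conjBy_of_mem he] at h3
          rw [← h3, h2]
        have hX' : conjBy X e ∈ S := hS.conj_mem X hX e
        have hl2 := (Cfsg.Agent.S5029.result hS (hnoniso _ hX') hX' hE (hcomm ▸ hC)).2.2.1
        rw [hcomm] at hl2
        have r2 := hline hX' hC hl2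
        exact (hreachsymm r1).trans r2
    -- the subgroup
    let H : Subgroup G :=
      { carrier := {g | ∀ X ∈ S, Relation.ReflTransGen (FAdj S) X (conjBy X g) ∧
          Relation.ReflTransGen (FAdj S) X (conjBy X g⁻¹)}
        one_mem' := by
          intro X _
          simp
          exact .refl
        mul_mem' := by
          intro g g' hg hg' X hX
          constructor
          · rw [conjBy_mul]
            exact (hg' X hX).1.trans (hg _ (hS.conj_mem X hX g')).1
          · rw [mul_inv_rev, conjBy_mul]
            exact (hg X hX).2.trans (hg' _ (hS.conj_mem X hX g⁻¹)).2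
        inv_mem' := by
          intro g hg X hX
          constructor
          · exact (hg X hX).2
          · rw [inv_inv]; exact (hg X hX).1 }
    have hH : H = ⊤ := by
      rw [eq_top_iff, ← hS.generates]
      apply iSup₂_le
      intro E hE e he X hX
      exact ⟨hstep X hX E hE e he, hstep X hX E hE e⁻¹ (E.inv_mem he)⟩
    intro A hA B hB
    obtain ⟨g, rfl⟩ := hconj A hA B hB
    have hg : g ∈ H := by rw [hH]; trivial
    exact (hg A hA).1

end Cfsg.Agent.S5032
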