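import Cfsg.Statements.S5033
import Mathlib
import Cfsg.Agent.S5032
import Cfsg.Agent.Lib.RootSubgroups.Quasisimple

set_option autoImplicit false
open Cfsg


namespace Cfsg.Agent.S5033


/-- Quasisimplicity criterion for groups generated by abstract root subgroups. Let S be a set of abstract root subgroups of G with more than one member such that: the graph of rank one pairs on S is connected; no two different members of S have the same set of commuting members of S; if S is degenerate then every member of S has more than three elements; and every rank one pair in S is special. Then for every A ∈ S one has G = G' A with A ∩ G' ≠ 1, and the commutator subgroup G' is quasisimple. Moreover G is perfect if S is non-degenerate, or if some rank one pair A, B in S generates a perfect group. -/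
theorem result {G : Type*} [Group G] {S : Set (Subgroup G)} (hS : Cfsg.IsRootSubgroupSet S) (h2 : ∃ A ∈ S, ∃ B ∈ S, A ≠ B)
    (h1 : Cfsg.IsConnectedFamily (Cfsg.FAdj S) S)
    (h2' : ∀ A ∈ S, ∀ C ∈ S, A ≠ C → Cfsg.centralizingMembers S A ≠ Cfsg.centralizingMembers S C)
    (h3 : Cfsg.IsDegenerateRootSet S → ∀ A ∈ S, 3 < ENat.card A)
    (h4 : ∀ A ∈ S, ∀ B ∈ Cfsg.rankOnePartners S A, Cfsg.IsSpecialRankOnePair A B) :
    (∀ A ∈ S, commutator G ⊔ A = ⊤ ∧ A ⊓ commutator G ≠ ⊥) ∧ Cfsg.IsQuasisimple ↥(commutator G) ∧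
    (Cfsg.IsNondegenerateRootSet S → commutator G = ⊤) ∧
    ((∃ A ∈ S, ∃ B ∈ Cfsg.rankOnePartners S A, Group.IsPerfect ↥(A ⊔ B)) → commutator G = ⊤) := by
  obtain ⟨⟨-, hconj⟩, A₀, hA₀, hiso⟩ := (Cfsg.Agent.S5032.result hS h2).mp h1
  obtain ⟨D₀, hD₀, hp₀⟩ := Cfsg.Agent.Lib.RootSubgroups.exists_partner_of_not_isolated hiso hA₀
  have hpart : ∀ A ∈ S, ∃ B ∈ S, Cfsg.IsRankOnePair A B := by
    intro X hX
    obtain ⟨g, rfl⟩ := hconj A₀ hA₀ X hX
    exact ⟨Cfsg.conjBy D₀ g, hS.conj_mem D₀ hD₀ g, Cfsg.Agent.Lib.RootSubgroups.conjBy_pair hp₀ g⟩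
  have hne : ∃ A ∈ S, True := ⟨A₀, hA₀, trivial⟩
  have hcomm : commutator G = ⊤ :=
    Cfsg.Agent.Lib.RootSubgroups.Qs.isPerfect_main hS hconj hpart h2' h3 h4 hne
  have hqs : Cfsg.IsQuasisimple G :=
    Cfsg.Agent.Lib.RootSubgroups.Qs.isQuasisimple_main hS hconj hpart h2' h3 h4 hne
  refine ⟨?_, ?_, fun _ => hcomm, fun _ => hcomm⟩
  · intro A hA
    refine ⟨by rw [hcomm, top_sup_eq], ?_⟩
    rw [hcomm, inf_top_eq]
    exact hS.ne_bot A hA
  · rw [hcomm]
    exact Cfsg.Agent.Lib.FStar.qs_of_mulEquiv Subgroup.topEquiv.symm hqs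

end Cfsg.Agent.S5033
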