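import Cfsg.Statements.S5035
import Mathlib
import Cfsg.Agent.Lib.RootSubgroups.Commutator

set_option autoImplicit false
open Cfsg

open Cfsg.Agent.Lib.RootSubgroups

namespace Cfsg.Agent.S5035

theorem map_conjBy' {G H : Type*} [Group G] [Group H] (f : G →* H) (A : Subgroup G) (g : G) :
    (Cfsg.conjBy A g).map f = Cfsg.conjBy (A.map f) (f g) := by
  ext x
  constructor
  · rintro ⟨_, ⟨y, hy, rfl⟩, rfl⟩
    rw [mem_conjBy]
    exact ⟨y, hy, by simp; group⟩
  · intro hx
    rw [mem_conjBy] at hx
    obtain ⟨y, hy, e⟩ := hx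
    refine ⟨g * y * g⁻¹, ⟨y, hy, by simp⟩, ?_⟩
    have e' : f y = (f g)⁻¹ * x * f g := e
    simp only [map_mul, map_inv, e']
    group

theorem rankOne_image {G H : Type*} [Group G] [Group H] (f : G →* H) {A B : Subgroup G}
    (h : Cfsg.IsRankOnePair A B) : A.map f = B.map f ∨ Cfsg.IsRankOnePair (A.map f) (B.map f) := by
  by_cases hne : A.map f = B.map f
  · exact Or.inl hne
  right
  have key : ∀ {A B : Subgroup G}, Cfsg.RankOneCondition A B → A.map f ≠ B.map f →
      Cfsg.RankOneCondition (A.map f) (B.map f) := by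
    intro A B hc hne
    rintro _ ⟨a, ha, rfl⟩ ha1
    have ha1' : a ≠ 1 := by
      rintro rfl
      simp at ha1
    obtain ⟨b, hb, hb1, e⟩ := hc a ha ha1'
    refine ⟨f b, Subgroup.mem_map_of_mem f hb, ?_, ?_⟩
    · intro hfb
      apply hne
      have e2 := congrArg (fun X => X.map f) e
      simp only [map_conjBy', map_inv, hfb, inv_one] at e2
      have e3 : Cfsg.conjBy (A.map f) 1 = A.map f := by simp
      rw [e3] at e2
      have e4 : Cfsg.conjBy (A.map f) (f a) = B.map f := by rw [e2, conjBy_conjBy_inv]
      rw [conjBy_of_mem (Subgroup.mem_map_of_mem f ha)] at e4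
      exact e4
    · have e2 := congrArg (fun X => X.map f) e
      simpa only [map_conjBy', map_inv] using e2
  refine ⟨hne, ?_, ?_, key h.cond_left hne, key h.cond_right (Ne.symm hne)⟩
  · haveI := h.nilpotent_left
    exact nilpotent_of_surjective (f.subgroupMap A) (f.subgroupMap_surjective A)
  · haveI := h.nilpotent_right
    exact nilpotent_of_surjective (f.subgroupMap B) (f.subgroupMap_surjective B)

theorem map_eq_bot_of_rankOne {G H : Type*} [Group G] [Group H] (f : G →* H) {A B : Subgroup G}
    (h : Cfsg.IsRankOnePair A B) (hA : A.map f = ⊥) : B.map f = ⊥ := by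
  obtain ⟨a, ha, ha1⟩ := exists_ne_one_left h
  obtain ⟨b, hb, hb1, e⟩ := h.cond_left a ha ha1
  have e2 := congrArg (fun X => X.map f) e
  simp only [map_conjBy', map_inv] at e2
  have hfa : f a = 1 := by
    have : f a ∈ A.map f := Subgroup.mem_map_of_mem f ha
    rw [hA] at this
    simpa using this
  rw [hA, hfa, inv_one] at e2
  have e3 : Cfsg.conjBy (B.map f) 1 = B.map f := by simp
  rw [e3] at e2
  rw [← e2]
  ext x
  rw [mem_conjBy]
  simp only [Subgroup.mem_bot]
  constructor
  · intro h1
    have : x = f b⁻¹ * ((f b⁻¹)⁻¹ * x * f b⁻¹) * (f b⁻¹)⁻¹ := by group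
    rw [this, map_inv, h1]
    group
  · rintro rfl
    group

/-- Let S be a set of abstract root subgroups of G whose graph of rank one pairs is connected, and f a homomorphism from G onto a group H. Then either the images of the members of S form a set of abstract root subgroups of H whose graph of rank one pairs is again connected, or H equals the image of a member of S. -/
theorem result {G H : Type*} [Group G] [Group H] {S : Set (Subgroup G)} (hS : Cfsg.IsRootSubgroupSet S)
    (hc : Cfsg.IsConnectedFamily (Cfsg.FAdj S) S) (f : G →* H) (hf : Function.Surjective f) :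
    (Cfsg.IsRootSubgroupSet ((fun A : Subgroup G => A.map f) '' S) ∧
      Cfsg.IsConnectedFamily (Cfsg.FAdj ((fun A : Subgroup G => A.map f) '' S)) ((fun A : Subgroup G => A.map f) '' S)) ∨
    ∃ A ∈ S, A.map f = ⊤ := by
  classical
  set T := (fun A : Subgroup G => A.map f) '' S with hT
  by_cases hbot : ∃ A ∈ S, A.map f = ⊥
  · right
    obtain ⟨A₀, hA₀, hA₀b⟩ := hbot
    -- all members are mapped to the trivial subgroup
    have hall : ∀ A ∈ S, A.map f = ⊥ := by
      intro A hA
      have := hc A₀ hA₀ A hA
      induction this with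
      | refl => exact hA₀b
      | @tail X Y _ hXY ih =>
        exact map_eq_bot_of_rankOne f hXY.2.2 (ih hXY.1)
    refine ⟨A₀, hA₀, ?_⟩
    have hker : (⨆ A ∈ S, A : Subgroup G) ≤ f.ker := by
      apply iSup₂_le
      intro A hA a ha
      have : f a ∈ A.map f := Subgroup.mem_map_of_mem f ha
      rw [hall A hA] at this
      simpa [MonoidHom.mem_ker] using this
    rw [hS.generates] at hker
    rw [hA₀b, eq_comm, eq_bot_iff]
    rintro y -
    obtain ⟨g, rfl⟩ := hf y
    have : g ∈ f.ker := hker trivial
    simpa [MonoidHom.mem_ker] using this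
  · left
    push Not at hbot
    have hrs : IsRootSubgroupSet T := by
      refine ⟨?_, ?_, ?_, ?_, ?_⟩
      · rintro _ ⟨A, hA, rfl⟩
        have hAc := hS.commutative A hA
        refine ⟨⟨?_⟩⟩
        rintro ⟨_, a, ha, rfl⟩ ⟨_, a', ha', rfl⟩
        apply Subtype.ext
        change f a * f a' = f a' * f a
        rw [← map_mul, ← map_mul, comm_of_isMulCommutative hAc ha ha']
      · rintro _ ⟨A, hA, rfl⟩
        exact hbot A hA
      · rw [eq_top_iff]
        rintro y -
        obtain ⟨g, rfl⟩ := hf y
        have hg : g ∈ (⨆ A ∈ S, A : Subgroup G) := by rw [hS.generates]; trivial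
        have hle : (⨆ A ∈ S, A : Subgroup G) ≤ (⨆ A ∈ T, A : Subgroup H).comap f := by
          apply iSup₂_le
          intro A hA a ha
          rw [Subgroup.mem_comap]
          have h1 : A.map f ≤ (⨆ A ∈ T, A : Subgroup H) :=
            le_iSup₂_of_le (A.map f) ⟨A, hA, rfl⟩ le_rfl
          exact h1 (Subgroup.mem_map_of_mem f ha)
        exact hle hg
      · rintro _ ⟨A, hA, rfl⟩ y
        obtain ⟨g, rfl⟩ := hf y
        exact ⟨Cfsg.conjBy A g, hS.conj_mem A hA g, map_conjBy' f A g⟩
      · rintro _ ⟨A, hA, rfl⟩ _ ⟨B, hB, rfl⟩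
        rcases hS.pair A hA B hB with h1 | h1 | h1
        · left
          have := Subgroup.map_commutator A B f
          change (⁅A.map f, B.map f⁆ : Subgroup H) = ⊥
          rw [← this, h1]; simp
        · rcases rankOne_image f h1 with h2 | h2
          · left
            change (⁅A.map f, B.map f⁆ : Subgroup H) = ⊥
            rw [← h2]
            apply commutator_eq_bot_of_commute
            rintro _ ⟨a, ha, rfl⟩ _ ⟨a', ha', rfl⟩
            rw [← map_mul, ← map_mul, comm_of_isMulCommutative (hS.commutative A hA) ha ha']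
          · right; left; exact h2
        · right; right
          have hmc : (⁅A.map f, B.map f⁆ : Subgroup H) = (⁅A, B⁆ : Subgroup G).map f :=
            (Subgroup.map_commutator A B f).symm
          refine ⟨?_, ?_, ?_, ?_⟩
          · change (⁅A.map f, B.map f⁆ : Subgroup H) ∈ T
            rw [hmc]
            exact ⟨_, h1.1, rfl⟩
          · change ∀ c ∈ (⁅A.map f, B.map f⁆ : Subgroup H), ∀ x ∈ A.map f ⊔ B.map f, c * x = x * c
            rw [hmc, ← Subgroup.map_sup]
            rintro _ ⟨c, hc', rfl⟩ _ ⟨x, hx, rfl⟩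
            rw [← map_mul, ← map_mul, h1.2.1 c hc' x hx]
          · change ∀ a ∈ A.map f, a ≠ 1 → Subgroup.closure ((fun b : H => a * b * a⁻¹ * b⁻¹) '' ((B.map f : Subgroup H) : Set H)) = ⁅A.map f, B.map f⁆
            rintro _ ⟨a, ha, rfl⟩ ha1
            have ha1' : a ≠ 1 := by
              rintro rfl
              simp at ha1
            rw [hmc, ← h1.2.2.1 a ha ha1', MonoidHom.map_closure]
            congr 1
            rw [Subgroup.coe_map, Set.image_image, Set.image_image]
            simp
          · change ∀ b ∈ B.map f, b ≠ 1 → Subgroup.closure ((fun a : H => a * b * a⁻¹ * b⁻¹) '' ((A.map f : Subgroup H) : Set H)) = ⁅A.map f, B.map f⁆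
            rintro _ ⟨b, hb, rfl⟩ hb1
            have hb1' : b ≠ 1 := by
              rintro rfl
              simp at hb1
            rw [hmc, ← h1.2.2.2 b hb hb1', MonoidHom.map_closure]
            congr 1
            rw [Subgroup.coe_map, Set.image_image, Set.image_image]
            simp
    refine ⟨hrs, ?_⟩
    rintro _ ⟨A, hA, rfl⟩ _ ⟨B, hB, rfl⟩
    have := hc A hA B hB
    induction this with
    | refl => exact .refl
    | @tail X Y _ hXY ih =>
      refine (ih hXY.1).trans ?_
      rcases rankOne_image f hXY.2.2 with h1 | h1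
      · change Relation.ReflTransGen _ (X.map f) (Y.map f)
        rw [h1]
      · exact Relation.ReflTransGen.single ⟨⟨X, hXY.1, rfl⟩, ⟨Y, hXY.2.1, rfl⟩, h1⟩

end Cfsg.Agent.S5035
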