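import Cfsg.Statements.S5037
import Mathlib
import Cfsg.Agent.Lib.RootSubgroups.Preorder

set_option autoImplicit false
open Cfsg

open Cfsg Cfsg.Agent.Lib.RootSubgroups

namespace Cfsg.Agent.S5037


/-- Let S be a class of abstract root subgroups of G that is either degenerate or non-degenerate (so either the commutator case never occurs, or all three cases occur), and A ≠ C members of S. If every member of S commuting with A commutes with C, then A and C have the same commuting members of S; and if every rank one partner of A is a rank one partner of C, then A and C commute and have the same rank one partners. -/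
theorem result {G : Type*} [Group G] {S : Set (Subgroup G)} (hS : Cfsg.IsRootSubgroupClass S)
    (hdn : Cfsg.IsDegenerateRootSet S ∨ Cfsg.IsNondegenerateRootSet S)
    {A C : Subgroup G} (hA : A ∈ S) (hC : C ∈ S) (hAC : A ≠ C) :
    (Cfsg.centralizingMembers S A ⊆ Cfsg.centralizingMembers S C →
      Cfsg.centralizingMembers S A = Cfsg.centralizingMembers S C) ∧
    (Cfsg.rankOnePartners S A ⊆ Cfsg.rankOnePartners S C →
      ⁅A, C⁆ = ⊥ ∧ Cfsg.rankOnePartners S A = Cfsg.rankOnePartners S C) := by
  have hS1 := hS.1
  have hprop : ∀ {P Q : Subgroup G}, P ∈ S → Q ∈ S → (∃ X ∈ S, IsRankOnePair P X) → ∃ X ∈ S, IsRankOnePair Q X := by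
    rintro P Q hP hQ ⟨X, hX, h⟩
    obtain ⟨g, rfl⟩ := hS.2.2 P hP Q hQ
    exact ⟨conjBy X g, hS1.conj_mem X hX g, conjBy_pair h g⟩
  refine ⟨?_, ?_⟩
  · intro hle
    apply Set.Subset.antisymm hle
    have hAmem : A ∈ centralizingMembers S A := mem_centralizingMembers_iff.2
      ⟨hA, fun e he u hu => comm_of_isMulCommutative (hS1.commutative A hA) hu he⟩
    have hAC' := (mem_centralizingMembers_iff.1 (hle hAmem)).2
    by_cases hX : ∃ X ∈ S, IsRankOnePair C X
    · obtain ⟨X, hX, hCX⟩ := hX
      have hAX : IsRankOnePair A X := by
        rcases hS1.pair A hA X hX with h | h | h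
        · exfalso
          have h1 : X ∈ centralizingMembers S A := mem_centralizingMembers_iff.2
            ⟨hX, fun e he u hu => commute_of_commutator_eq_bot h hu he⟩
          have h2 := (mem_centralizingMembers_iff.1 (hle h1)).2
          exact IsRankOnePair.not_commute' hCX (fun c hc x hx => h2 x hx c hc)
        · exact h
        · exfalso
          have h1 : ⁅A, X⁆ ∈ centralizingMembers S A := mem_centralizingMembers_iff.2
            ⟨h.1, fun e he u hu => (h.2.1 e he u (Subgroup.mem_sup_left hu)).symm⟩
          have h2 := mem_centralizingMembers_iff.1 (hle h1)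
          exact kernel_arg hS1 hCX (fun a ha c hc => (hAC' a ha c hc).symm) h
            (fun p hp c hc => (h2.2 p hp c hc).symm)
      refine rel_symm_core (Rel := fun P Q => centralizingMembers S P ⊆ centralizingMembers S Q)
        (fun g h => rel_centralizing_conj hS1 g h) (fun h1 h2 => h1.trans h2)
        (fun a ha c hc => (hAC' a ha c hc).symm) hAX hCX ?_ hle
      intro u hu hu1 h
      have hr := not_commute_conj_of_rank hCX hu hu1
      have h1 : conjBy C u ∈ centralizingMembers S (conjBy C u) := mem_centralizingMembers_iff.2
        ⟨hS1.conj_mem C hC u, fun e he v hv => comm_of_isMulCommutative (hS1.commutative _ (hS1.conj_mem C hC u)) hv he⟩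
      have h2 := (mem_centralizingMembers_iff.1 (h h1)).2
      exact IsRankOnePair.not_commute' hr (fun c hc d hd => h2 d hd c hc)
    · intro E hE
      rw [mem_centralizingMembers_iff] at hE ⊢
      refine ⟨hE.1, ?_⟩
      rcases hdn with hd | hnd
      · intro e he a ha
        rcases hS1.pair A hA E hE.1 with h | h | h
        · exact commute_of_commutator_eq_bot h ha he
        · exact absurd (hprop hA hC ⟨E, hE.1, h⟩) hX
        · exact absurd h (hd A hA E hE.1)
      · exact absurd (nondeg_hP hS hnd C hC) hX
  · intro hle
    have hAC0 : ⁅A, C⁆ = ⊥ := by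
      rcases hS1.pair A hA C hC with h | h | h
      · exact h
      · exfalso
        have := hle ⟨hC, h⟩
        exact this.2.ne rfl
      · exfalso
        rcases hdn with hd | hnd
        · exact hd A hA C hC h
        · have hP := nondeg_hP hS hnd
          have hF : ⁅C, A⁆ ∈ S := by rw [Subgroup.commutator_comm]; exact h.1
          have h1 := line_of_commutator hS1 hP hC hA hF
          obtain ⟨W, hW, e⟩ := exists_commutator_eq_of_line hS1 hP hF h1
          have K : LineConfig S C A ⁅C, A⁆ W := ⟨hC, hA, hF, hW, rfl, e⟩
          have hrk := K.rank hS1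
          have h2 := hle ⟨hW, hrk⟩
          exact IsRankOnePair.not_commute' h2.2 (fun c hc w hw => K.comm_ad hS1 hc hw)
    refine ⟨hAC0, Set.Subset.antisymm hle ?_⟩
    by_cases hX : ∃ X ∈ S, IsRankOnePair A X
    · obtain ⟨X, hX, hAX⟩ := hX
      have hCX := (hle ⟨hX, hAX⟩).2
      refine rel_symm_core (Rel := fun P Q => rankOnePartners S P ⊆ rankOnePartners S Q)
        (fun g h => rel_rankOne_conj hS1 g h) (fun h1 h2 => h1.trans h2)
        (fun a ha c hc => commute_of_commutator_eq_bot hAC0 ha hc) hAX hCX ?_ hle
      intro u hu hu1 h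
      have hr := not_commute_conj_of_rank hCX hu hu1
      have := h ⟨hC, RankOnePair_symm hr⟩
      exact this.2.ne rfl
    · intro Y hY
      exact absurd (hprop hC hA ⟨Y, hY.1, hY.2⟩) hX

end Cfsg.Agent.S5037
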