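import Cfsg.Statements.S5045
import Mathlib
import Cfsg.Agent.Lib.RootInv.Basic

set_option autoImplicit false
open Cfsg

open Cfsg Cfsg.Agent.Lib.RootInv

namespace Cfsg.Agent.S5045


/-- Let G be a finite group generated by a set D of root involutions, and W the set of members of D whose product with every other member of D has even order or is trivial (the isolated vertices of the odd-order-product graph on D). Then W is conjugation-invariant and generates a normal 2-subgroup of G meeting D in exactly W; the commutator of two members of D lying in different connected components of that graph, each with more than one member, lies in the subgroup generated by W; and for a in such a component, every member of D commuting with a, different from a and with product with a in D, lies in that component or in W. -/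
theorem result {G : Type*} [Group G] [Finite G] {D : Set G} (hD : Cfsg.IsRootInvolutionSet D) :
    (∀ w ∈ {w | Cfsg.IsIsolatedElem (Cfsg.OddAdj D) D w}, ∀ g : G, g * w * g⁻¹ ∈ {w | Cfsg.IsIsolatedElem (Cfsg.OddAdj D) D w}) ∧
    (Subgroup.closure {w | Cfsg.IsIsolatedElem (Cfsg.OddAdj D) D w}).Normal ∧
    IsPGroup 2 ↥(Subgroup.closure {w | Cfsg.IsIsolatedElem (Cfsg.OddAdj D) D w}) ∧
    (Subgroup.closure {w | Cfsg.IsIsolatedElem (Cfsg.OddAdj D) D w} : Set G) ∩ D = {w | Cfsg.IsIsolatedElem (Cfsg.OddAdj D) D w} ∧
    (∀ a ∈ D, ∀ b ∈ D, (∃ a' ∈ Cfsg.elemComponentOf (Cfsg.OddAdj D) D a, a' ≠ a) →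
      (∃ b' ∈ Cfsg.elemComponentOf (Cfsg.OddAdj D) D b, b' ≠ b) →
      Cfsg.elemComponentOf (Cfsg.OddAdj D) D a ≠ Cfsg.elemComponentOf (Cfsg.OddAdj D) D b →
        a * b * a⁻¹ * b⁻¹ ∈ Subgroup.closure {w | Cfsg.IsIsolatedElem (Cfsg.OddAdj D) D w}) ∧
    (∀ a ∈ D, (∃ a' ∈ Cfsg.elemComponentOf (Cfsg.OddAdj D) D a, a' ≠ a) →
      Cfsg.productPartners D a ⊆ Cfsg.elemComponentOf (Cfsg.OddAdj D) D a ∪ {w | Cfsg.IsIsolatedElem (Cfsg.OddAdj D) D w}) := by
  refine ⟨fun w hw g => isolated_conj hD hw g, closure_isolated_normal hD, closure_isolated_isPGroup hD,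
    closure_isolated_inter hD, ?_, fun a ha h2 e he => productPartner_mem hD ha h2 he⟩
  intro a ha b hb h1 h2 hne
  by_cases hadj : Relation.ReflTransGen (OddAdj D) a b
  · exfalso
    apply hne
    ext c
    constructor
    · rintro ⟨hc, hr⟩
      exact ⟨hc, (reach_symm hD hadj).trans hr⟩
    · rintro ⟨hc, hr⟩
      exact ⟨hc, hadj.trans hr⟩
  have hnotodd : ¬ Odd (orderOf (a * b)) := by
    intro hodd
    by_cases hab : a = b
    · exact hadj (by rw [hab])
    · exact hadj (Relation.ReflTransGen.single ⟨ha, hb, hab, hodd⟩)
  have hai := inv_eq hD ha
  have hbi := inv_eq hD hb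
  rcases hD.pair a ha b hb with h3 | h3 | h3
  · rw [h3]
    have e : b * a * a⁻¹ * b⁻¹ = 1 := by group
    rw [e]
    exact Subgroup.one_mem _
  · exact absurd h3 hnotodd
  · obtain ⟨h4, hc⟩ := h3
    have e : a * b * a⁻¹ * b⁻¹ = (a * b) ^ 2 := by
      rw [hai, hbi, pow_two]
      group
    rw [e]
    set c := (a * b) ^ 2 with hcdef
    have hcomm_a : c * a = a * c := by
      rw [hcdef, pow_two]
      -- `a` inverts `a b`
      have h5 : (a * b) * (a * b) * a = a * ((b * a) * (b * a)) := by group
      have h6 : (b * a) * (b * a) = (a * b) * (a * b) := by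
        have h7 : ((a * b) * (a * b))⁻¹ = (b * a) * (b * a) := by
          rw [mul_inv_rev, inv_mul hD ha hb]
        rw [← h7]
        have h8 : (a * b) * (a * b) * ((a * b) * (a * b)) = 1 := by
          have := pow_orderOf_eq_one (a * b)
          rw [h4] at this
          rw [← this]
          simp only [pow_succ, pow_zero, one_mul]
          group
        exact (eq_inv_of_mul_eq_one_left h8).symm
      rw [h5, h6]
    have hcomm_b : c * b = b * c := by
      rw [hcdef, pow_two]
      have h5 : (a * b) * (a * b) * b = b * ((b * a) * (b * a)) := by
        calc (a * b) * (a * b) * b = a * b * a * (b * b) := by group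
          _ = a * b * a := by rw [sq_one hD hb, mul_one]
          _ = (b * b) * a * b * a := by rw [sq_one hD hb, one_mul]
          _ = _ := by group
      have h6 : (b * a) * (b * a) = (a * b) * (a * b) := by
        have h7 : ((a * b) * (a * b))⁻¹ = (b * a) * (b * a) := by
          rw [mul_inv_rev, inv_mul hD ha hb]
        rw [← h7]
        have h8 : (a * b) * (a * b) * ((a * b) * (a * b)) = 1 := by
          have := pow_orderOf_eq_one (a * b)
          rw [h4] at this
          rw [← this]
          simp only [pow_succ, pow_zero, one_mul]
          group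
        exact (eq_inv_of_mul_eq_one_left h8).symm
      rw [h5, h6]
    have hne1 : c ≠ 1 := by
      intro h5
      have h6 : orderOf (a * b) ∣ 2 := orderOf_dvd_of_pow_eq_one h5
      rw [h4] at h6
      exact absurd h6 (by decide)
    -- `c ≠ a`, `c a ∈ D`
    have hca : c ≠ a := by
      intro h5
      -- then `a` commutes with `b`
      rw [h5] at hcomm_b
      have h6 : a = (a * b) * (a * b) := by rw [← pow_two]; exact h5.symm
      have h7 : (1 : G) = b * a * b := by
        calc (1 : G) = a * a := (sq_one hD ha).symm
          _ = a * ((a * b) * (a * b)) := by rw [← h6]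
          _ = (a * a) * b * a * b := by group
          _ = b * a * b := by rw [sq_one hD ha, one_mul]
      apply ne_one hD ha
      have h8 : b * (b * a * b) * b = a := by
        calc b * (b * a * b) * b = (b * b) * a * (b * b) := by group
          _ = a := by rw [sq_one hD hb, one_mul, mul_one]
      rw [← h8, ← h7]
      calc b * 1 * b = b * b := by group
        _ = 1 := sq_one hD hb
    have hcb : c ≠ b := by
      intro h5
      rw [h5] at hcomm_a
      have h6 : b = (a * b) * (a * b) := by rw [← pow_two]; exact h5.symm
      have h7 : (1 : G) = a * b * a := by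
        calc (1 : G) = b * b := (sq_one hD hb).symm
          _ = ((a * b) * (a * b)) * b := by rw [← h6]
          _ = a * b * a * (b * b) := by group
          _ = a * b * a := by rw [sq_one hD hb, mul_one]
      apply ne_one hD hb
      have h8 : a * (a * b * a) * a = b := by
        calc a * (a * b * a) * a = (a * a) * b * (a * a) := by group
          _ = b := by rw [sq_one hD ha, one_mul, mul_one]
      rw [← h8, ← h7]
      calc a * 1 * a = a * a := by group
        _ = 1 := sq_one hD ha
    have hca' : c * a ∈ D := by
      have h5 : c * a = b * a * b⁻¹ := by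
        rw [hbi, hcdef, pow_two]
        calc (a * b) * (a * b) * a = a * b * a * b * a := by group
          _ = a * ((b * a) * (b * a)) := by group
          _ = a * ((a * b) * (a * b)) := by
            have h6 : (b * a) * (b * a) = (a * b) * (a * b) := by
              have h7 : ((a * b) * (a * b))⁻¹ = (b * a) * (b * a) := by
                rw [mul_inv_rev, inv_mul hD ha hb]
              rw [← h7]
              have h8 : (a * b) * (a * b) * ((a * b) * (a * b)) = 1 := by
                have := pow_orderOf_eq_one (a * b)
                rw [h4] at this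
                rw [← this]
                simp only [pow_succ, pow_zero, one_mul]
                group
              exact (eq_inv_of_mul_eq_one_left h8).symm
            rw [h6]
          _ = (a * a) * b * a * b := by group
          _ = b * a * b := by rw [sq_one hD ha, one_mul]
      rw [h5]
      exact hD.conj_mem a ha b
    have hcb' : c * b ∈ D := by
      have h5 : c * b = a * b * a⁻¹ := by
        rw [hai, hcdef, pow_two]
        calc (a * b) * (a * b) * b = a * b * a * (b * b) := by group
          _ = a * b * a := by rw [sq_one hD hb, mul_one]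
      rw [h5]
      exact hD.conj_mem b hb a
    have hpa : c ∈ productPartners D a := ⟨⟨hc, hcomm_a, hca⟩, hca'⟩
    have hpb : c ∈ productPartners D b := ⟨⟨hc, hcomm_b, hcb⟩, hcb'⟩
    rcases productPartner_mem hD ha h1 hpa with h5 | h5
    · rcases productPartner_mem hD hb h2 hpb with h6 | h6
      · exfalso
        exact hadj (h5.2.trans (reach_symm hD h6.2))
      · exact Subgroup.subset_closure h6
    · exact Subgroup.subset_closure h5

end Cfsg.Agent.S5045
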