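import Cfsg.Statements.S5046
import Mathlib
import Cfsg.Agent.Lib.RootInv.Twin

set_option autoImplicit false
open Cfsg

namespace Cfsg.Agent.S5046

section aux
open Cfsg.Agent.Lib.RootInv

variable {G : Type*} [Group G] {D : Set G}

lemma union_eq (hD : Cfsg.IsRootInvolutionSet D) (e : G) (he : e ∈ D) :
    Cfsg.commutingMembers D e ∪ Cfsg.fourPartners D e = {f | f ∈ D ∧ f ∉ Cfsg.oddPartners D e} := by
  ext f
  constructor
  · rintro (⟨hf, hc⟩ | ⟨hf, h4⟩)
    · refine ⟨hf, fun hm => ?_⟩
      exact not_comm_of_odd hD he hf hm.2.2 hm.2.1.symm hc.symm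
    · refine ⟨hf, fun hm => ?_⟩
      have := hm.2.2
      rw [h4] at this
      exact absurd this (by decide)
  · rintro ⟨hf, hn⟩
    rcases hD.pair e he f hf with h | h | h
    · exact Or.inl ⟨hf, h.symm⟩
    · by_cases hfe : f = e
      · left
        exact ⟨hf, by rw [hfe]⟩
      · exact absurd ⟨hf, hfe, h⟩ hn
    · exact Or.inr ⟨hf, h.1⟩

lemma odd_of_same_comm (hD : Cfsg.IsRootInvolutionSet D) {d e : G} (hd : d ∈ D) (he : e ∈ D)
    (h : Cfsg.commutingMembers D d = Cfsg.commutingMembers D e) :
    Cfsg.oddPartners D d ⊆ Cfsg.oddPartners D e := by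
  intro x hx
  by_contra hne
  have hxD := hx.1
  have hnc : x ∉ Cfsg.commutingMembers D e := by
    intro hm
    rw [← h] at hm
    exact not_comm_of_odd hD hd hxD hx.2.2 hx.2.1.symm hm.2.symm
  have hxe : x ≠ e := by
    rintro rfl
    exact hnc ⟨he, rfl⟩
  have hnot : ¬ Odd (orderOf (e * x)) := fun ho => hne ⟨hxD, hxe, ho⟩
  have hde : d * e = e * d := by
    have : d ∈ Cfsg.commutingMembers D e := by
      rw [← h]; exact ⟨hd, rfl⟩
    exact this.2
  rcases hD.pair e he x hxD with h1 | h1 | h1
  · exact hnc ⟨hxD, h1.symm⟩
  · exact hnot h1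
  · -- order four
    have hz := h1.2
    have hee := sq_one hD he
    have hxx := sq_one hD hxD
    have h4 : (e * x) ^ 4 = 1 := by rw [← h1.1]; exact pow_orderOf_eq_one _
    have hy := comm_of_pow4 hD he hxD h4
    have hzdef : (e * x) ^ 2 = (e * x * e) * x := by rw [pow_two]; group
    have hze : (e * x) ^ 2 * e = e * (e * x) ^ 2 := by
      have h4' : (x * e) ^ 4 = 1 := by
        have h5 : (e * x)⁻¹ = x * e := inv_mul hD he hxD
        rw [← h5, inv_pow, h4, inv_one]
      have h6 := comm_of_pow4 hD hxD he h4'
      have e1 : (e * x) ^ 2 = e * (x * e * x) := by rw [pow_two]; group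
      rw [e1]
      calc e * (x * e * x) * e = e * ((x * e * x) * e) := by group
        _ = e * (e * (x * e * x)) := by rw [h6]
    have hzx : (e * x) ^ 2 * x = x * (e * x) ^ 2 := by
      rw [hzdef]
      calc (e * x * e) * x * x = (e * x * e) * (x * x) := by group
        _ = x * (x * (e * x * e)) * (x * x) * x * x := by
            rw [← mul_assoc x x, hxx, one_mul]
            simp only [mul_assoc, hxx, mul_one]
        _ = _ := by
            rw [hy]
            simp only [mul_assoc, hxx, mul_one]
    have hzd : (e * x) ^ 2 ∈ Cfsg.commutingMembers D e := ⟨hz, hze⟩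
    rw [← h] at hzd
    have hzdc := hzd.2
    generalize hZ : (e * x) ^ 2 = z at *
    have hc1 : z * (d * x) = (d * x) * z := by
      calc z * (d * x) = (z * d) * x := by group
        _ = (d * z) * x := by rw [hzdc]
        _ = d * (z * x) := by group
        _ = d * (x * z) := by rw [hzx]
        _ = _ := by group
    have hn := Cfsg.Agent.Lib.RootInv.not_odd_mul_of_commute hD hzd.1 hx.2.2 hc1
    apply hn
    have e2 : z * (d * x) = e * (d * x) * e⁻¹ := by
      rw [inv_eq hD he]
      calc z * (d * x) = d * (z * x) := by
            calc z * (d * x) = (z * d) * x := by group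
              _ = (d * z) * x := by rw [hzdc]
              _ = _ := by group
        _ = d * (x * z) := by rw [hzx]
        _ = d * (x * ((e * x * e) * x)) := by rw [hzdef]
        _ = d * ((x * (e * x * e)) * x) := by group
        _ = d * (((e * x * e) * x) * x) := by rw [hy]
        _ = d * (e * x * e) * (x * x) := by group
        _ = (d * e) * x * e := by rw [hxx]; group
        _ = (e * d) * x * e := by rw [hde]
        _ = _ := by group
    rw [e2, order_conj]
    exact hx.2.2

end aux

/-- Let G be a finite group generated by a set D of root involutions whose odd-order-product graph is connected, and d ∈ D. Then the members e of D with the same commuting members as d are exactly those for which the union of the commuting members of d and the members whose product with d has order 4 equals the corresponding union for e. -/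
theorem result {G : Type*} [Group G] [Finite G] {D : Set G} (hD : Cfsg.IsRootInvolutionSet D)
    (hc : Cfsg.IsConnectedSet (Cfsg.OddAdj D) D) {d : G} (hd : d ∈ D) :
    Cfsg.sameCommutingClass D d =
      {e | e ∈ D ∧ Cfsg.commutingMembers D d ∪ Cfsg.fourPartners D d = Cfsg.commutingMembers D e ∪ Cfsg.fourPartners D e} := by
  classical
  have hdD := hd
  ext e
  constructor
  · rintro ⟨he, hce⟩
    refine ⟨he, ?_⟩
    rw [union_eq hD d hd, union_eq hD e he]
    have h1 := odd_of_same_comm hD hd he hce
    have h2 := odd_of_same_comm hD he hd hce.symm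
    have h3 : Cfsg.oddPartners D d = Cfsg.oddPartners D e := Set.Subset.antisymm h1 h2
    rw [h3]
  · rintro ⟨he, hu⟩
    refine ⟨he, ?_⟩
    rw [union_eq hD d hd, union_eq hD e he] at hu
    have h3 : Cfsg.oddPartners D d = Cfsg.oddPartners D e := by
      apply Set.Subset.antisymm
      · intro x hx
        by_contra hn
        have : x ∈ {f | f ∈ D ∧ f ∉ Cfsg.oddPartners D e} := ⟨hx.1, hn⟩
        rw [← hu] at this
        exact this.2 hx
      · intro x hx
        by_contra hn
        have : x ∈ {f | f ∈ D ∧ f ∉ Cfsg.oddPartners D d} := ⟨hx.1, hn⟩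
        rw [hu] at this
        exact this.2 hx
    exact Set.Subset.antisymm (Cfsg.Agent.Lib.RootInv.twin_commuting hD hc hd he h3)
      (Cfsg.Agent.Lib.RootInv.twin_commuting hD hc he hd h3.symm)

end Cfsg.Agent.S5046
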