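import Cfsg.Statements.S5049
import Mathlib
import Cfsg.Agent.Lib.Core.Basic

set_option autoImplicit false
open Cfsg

open scoped commutatorElement

namespace Cfsg.Agent.S5049

section aux
variable {G : Type*} [Group G] [Finite G] {D : Set G}

lemma comm_of_sq_mem_core (hD : Cfsg.IsOddTranspositionSet D) {u v : G} (hu : u ∈ D) (hv : v ∈ D)
    (hQ : (u * v) ^ 2 ∈ Cfsg.pCore 2 G) : u * v = v * u := by
  have hf : Fact (Nat.Prime 2) := ⟨Nat.prime_two⟩
  rcases hD.1.pair u hu v hv with h | h | h
  · exact h
  · have hp : IsPGroup 2 (Cfsg.pCore 2 G) := Cfsg.Agent.Lib.Core.pCore_isPGroup 2 G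
    obtain ⟨k, hk⟩ := hp ⟨(u * v) ^ 2, hQ⟩
    have h1 : ((u * v) ^ 2) ^ (2 ^ k) = 1 := congrArg Subtype.val hk
    rw [← pow_mul, ← pow_succ'] at h1
    have h2 : orderOf (u * v) ∣ 2 ^ (k + 1) := orderOf_dvd_of_pow_eq_one h1
    obtain ⟨j, hj, hj2⟩ := (Nat.dvd_prime_pow Nat.prime_two).mp h2
    have h3 : j = 0 := by
      by_contra hne
      rw [hj2] at h
      have : Even (2 ^ j) := (Nat.even_pow.mpr ⟨even_two, hne⟩)
      exact (Nat.not_even_iff_odd.mpr h) this
    rw [h3, pow_zero, orderOf_eq_one_iff] at hj2
    have h4 : v * u = 1 := by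
      have h5 : u = v⁻¹ := eq_inv_of_mul_eq_one_left hj2
      rw [h5]; simp
    rw [hj2, h4]
  · exact absurd h.1 (hD.2 u hu v hv)

lemma self_mul_self (hD : Cfsg.IsOddTranspositionSet D) {u : G} (hu : u ∈ D) : u * u = 1 := by
  rw [← pow_two, ← hD.1.orderOf_eq u hu]; exact pow_orderOf_eq_one u

end aux

/-- Let G be a finite group generated by a set D of odd transpositions (root involutions with no product of order 4), Q = O₂(G), and for a ∈ D let Q_a be the commutator subgroup of Q with a. Then every member of D commuting with a centralizes Q_a; and for b ∈ D with ab of odd order greater than 1, the centralizer of ab in Q is the intersection of the centralizers of a and b in Q. -/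
theorem result {G : Type*} [Group G] [Finite G] {D : Set G} (hD : Cfsg.IsOddTranspositionSet D) {a : G} (ha : a ∈ D) :
    (∀ e ∈ Cfsg.commutingMembers D a, ∀ q ∈ ⁅Cfsg.pCore 2 G, Subgroup.zpowers a⁆, e * q = q * e) ∧
    (∀ b ∈ Cfsg.oddPartners D a,
      Cfsg.pCore 2 G ⊓ Subgroup.centralizer {a * b} = Cfsg.pCore 2 G ⊓ Subgroup.centralizer {a} ⊓ Subgroup.centralizer {b}) := by
  classical
  have hf : Fact (Nat.Prime 2) := ⟨Nat.prime_two⟩
  have hQn : (Cfsg.pCore 2 G).Normal := Cfsg.Agent.Lib.Core.pCore_normal 2 G
  have haa : a * a = 1 := self_mul_self hD ha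
  have hainv : a⁻¹ = a := inv_eq_of_mul_eq_one_left haa
  constructor
  · rintro e ⟨he, hea⟩ q hq
    have hle : ⁅Cfsg.pCore 2 G, Subgroup.zpowers a⁆ ≤ Subgroup.centralizer ({e} : Set G) := by
      rw [Subgroup.commutator_le]
      clear hq
      intro q hq x hx
      have hx' : x = 1 ∨ x = a := by
        obtain ⟨i, rfl⟩ := hx
        have ha2 : a ^ (2 : ℤ) = 1 := by
          rw [show (2 : ℤ) = ((2 : ℕ) : ℤ) from rfl, zpow_natCast, pow_two]; exact haa
        rcases Int.even_or_odd' i with ⟨m, rfl | rfl⟩
        · left; show a ^ (2 * m) = 1; rw [zpow_mul, ha2, one_zpow]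
        · right; show a ^ (2 * m + 1) = a; rw [zpow_add, zpow_mul, ha2, one_zpow, one_mul, zpow_one]
      rcases hx' with rfl | rfl
      · rw [commutatorElement_one_right]; exact Subgroup.one_mem _
      · set b := q * x * q⁻¹ with hb
        have hbD : b ∈ D := hD.1.conj_mem x ha q
        have hc : ⁅q, x⁆ = b * x := by
          rw [commutatorElement_def, hb, hainv]
        have hdQ : b * x ∈ Cfsg.pCore 2 G := by
          have h6 : ⁅q, x⁆ = q * (x * q⁻¹ * x⁻¹) := by
            rw [commutatorElement_def]; group
          rw [← hc, h6]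
          exact (Cfsg.pCore 2 G).mul_mem hq (hQn.conj_mem q⁻¹ ((Cfsg.pCore 2 G).inv_mem hq) x)
        have hsq : (e * b) ^ 2 ∈ Cfsg.pCore 2 G := by
          have hbb : b * b = 1 := self_mul_self hD hbD
          have hee : e * e = 1 := self_mul_self hD he
          have h1 : (e * b) ^ 2 = (e * (b * x) * e⁻¹) * (b * x)⁻¹ := by
            have hxe : x * e⁻¹ = e⁻¹ * x := by
              have h2 : e⁻¹ = e := inv_eq_of_mul_eq_one_left hee
              rw [h2]; exact hea.symm
            have hbinv : b⁻¹ = b := inv_eq_of_mul_eq_one_left hbb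
            have hxinv : x⁻¹ = x := hainv
            calc (e * b) ^ 2 = e * b * (e * b) := pow_two _
              _ = e * b * (e * (x * x) * b) := by rw [haa, mul_one]
              _ = e * b * (e * x * (x * b)) := by group
              _ = e * b * (x * e * (x * b)) := by rw [hea]
              _ = (e * (b * x) * e⁻¹) * (e * e) * (x * b) := by
                  have h2 : e⁻¹ * (e * e) = e := by group
                  calc e * b * (x * e * (x * b)) = e * (b * x) * e * (x * b) := by group
                    _ = e * (b * x) * (e⁻¹ * (e * e)) * (x * b) := by rw [h2]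
                    _ = _ := by group
              _ = (e * (b * x) * e⁻¹) * (b * x)⁻¹ := by
                  rw [hee, mul_one, mul_inv_rev, hbinv, hxinv]
          rw [h1]
          exact (Cfsg.pCore 2 G).mul_mem (hQn.conj_mem _ hdQ e) ((Cfsg.pCore 2 G).inv_mem hdQ)
        have heb := comm_of_sq_mem_core hD he hbD hsq
        rw [hc, Subgroup.mem_centralizer_singleton_iff]
        calc b * x * e = b * (x * e) := by group
          _ = b * (e * x) := by rw [hea]
          _ = (b * e) * x := by group
          _ = (e * b) * x := by rw [heb]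
          _ = e * (b * x) := by group
    have := hle hq
    rw [Subgroup.mem_centralizer_singleton_iff] at this
    exact this.symm
  · rintro b ⟨hb, hne, hodd⟩
    have hbb : b * b = 1 := self_mul_self hD hb
    have hbinv : b⁻¹ = b := inv_eq_of_mul_eq_one_left hbb
    apply le_antisymm
    · intro q hq
      obtain ⟨hqQ, hqx⟩ := Subgroup.mem_inf.mp hq
      have hqx' : q * (a * b) = (a * b) * q := by
        rw [Subgroup.mem_centralizer_singleton_iff] at hqx
        exact hqx
      set a' := q * a * q⁻¹ with ha'
      have ha'D : a' ∈ D := hD.1.conj_mem a ha q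
      have ha'a' : a' * a' = 1 := self_mul_self hD ha'D
      set d := a' * a with hd
      have hdQ : d ∈ Cfsg.pCore 2 G := by
        have h1 : d = q * (a * q⁻¹ * a⁻¹) := by rw [hd, ha', hainv]; group
        rw [h1]
        exact (Cfsg.pCore 2 G).mul_mem hqQ (hQn.conj_mem q⁻¹ ((Cfsg.pCore 2 G).inv_mem hqQ) a)
      have hcomm : a' * a = a * a' :=
        comm_of_sq_mem_core hD ha'D ha ((Cfsg.pCore 2 G).pow_mem hdQ 2)
      have hd2 : d * d = 1 := by
        calc d * d = a' * (a * a') * a := by rw [hd]; group
          _ = a' * (a' * a) * a := by rw [hcomm]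
          _ = (a' * a') * (a * a) := by group
          _ = 1 := by rw [ha'a', haa, mul_one]
      -- b' = d * b
      set b' := q * b * q⁻¹ with hb'
      have hb'D : b' ∈ D := hD.1.conj_mem b hb q
      have hprod : a' * b' = a * b := by
        calc a' * b' = q * (a * b) * q⁻¹ := by rw [ha', hb']; group
          _ = (a * b) * q * q⁻¹ := by rw [hqx']
          _ = a * b := by group
      have hb'eq : b' * b = d := by
        have h1 : b' = a' * (a * b) := by
          rw [← hprod, ← mul_assoc, ha'a', one_mul]
        rw [h1, hd]
        calc a' * (a * b) * b = a' * a * (b * b) := by group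
          _ = a' * a := by rw [hbb, mul_one]
      have hbQ : b' * b ∈ Cfsg.pCore 2 G := by rw [hb'eq]; exact hdQ
      have hcomm2 : b' * b = b * b' :=
        comm_of_sq_mem_core hD hb'D hb ((Cfsg.pCore 2 G).pow_mem hbQ 2)
      have hda : d * a = a * d := by
        calc d * a = a' * a * a := by rw [hd]
          _ = a * a' * a := by rw [hcomm]
          _ = a * (a' * a) := by group
          _ = a * d := by rw [hd]
      have hdb : d * b = b * d := by
        calc d * b = b' * b * b := by rw [hb'eq]
          _ = b * b' * b := by rw [hcomm2]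
          _ = b * (b' * b) := by group
          _ = b * d := by rw [hb'eq]
      have hdx : d * (a * b) = (a * b) * d := by
        calc d * (a * b) = (d * a) * b := by group
          _ = a * (d * b) := by rw [hda]; group
          _ = a * (b * d) := by rw [hdb]
          _ = (a * b) * d := by group
      have hx1 : a * b ≠ 1 := by
        intro h
        apply hne
        have h1 : a = b⁻¹ := eq_inv_of_mul_eq_one_left h
        rw [h1, hbinv]
      have ha'eq : a' = d * a := by
        rw [hd, mul_assoc, haa, mul_one]
      have hy : a' * b = d * (a * b) := by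
        rw [ha'eq]; group
      have hdone : d = 1 := by
        rcases hD.1.pair a' ha'D b hb with h | h | h
        · exfalso
          have h1 : (a' * b) ^ 2 = 1 := by
            calc (a' * b) ^ 2 = a' * (b * a') * b := by rw [pow_two]; group
              _ = a' * (a' * b) * b := by rw [h]
              _ = (a' * a') * (b * b) := by group
              _ = 1 := by rw [ha'a', hbb, mul_one]
          rw [hy, (show Commute d (a * b) from hdx).mul_pow] at h1
          have h2 : d ^ 2 = 1 := by rw [pow_two]; exact hd2
          rw [h2, one_mul] at h1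
          have h3 := orderOf_dvd_of_pow_eq_one h1
          have h4 : orderOf (a * b) = 1 ∨ orderOf (a * b) = 2 := (Nat.dvd_prime Nat.prime_two).mp h3
          rcases h4 with h4 | h4
          · exact hx1 (orderOf_eq_one_iff.mp h4)
          · rw [h4] at hodd
            exact absurd hodd (by decide)
        · obtain ⟨m, hm⟩ := h
          have hn : Odd (orderOf (a' * b) * orderOf (a * b)) := (Nat.odd_mul).mpr ⟨⟨m, hm⟩, hodd⟩
          obtain ⟨t, ht⟩ := hn
          have h1 : (a' * b) ^ (2 * t + 1) = 1 := by
            rw [← ht, pow_mul, pow_orderOf_eq_one, one_pow]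
          have h2 : (a * b) ^ (2 * t + 1) = 1 := by
            rw [← ht, mul_comm, pow_mul, pow_orderOf_eq_one, one_pow]
          rw [hy, (show Commute d (a * b) from hdx).mul_pow, h2, mul_one, pow_succ, pow_mul, pow_two,
            hd2, one_pow, one_mul] at h1
          exact h1
        · exact absurd h.1 (hD.2 a' ha'D b hb)
      have hqa : q * a = a * q := by
        have h1 : a' = a := by rw [ha'eq, hdone, one_mul]
        calc q * a = (q * a * q⁻¹) * q := by group
          _ = a * q := by rw [← ha', h1]
      have hqb : q * b = b * q := by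
        have h1 : b' = b := by
          have h2 : b' * b = 1 := by rw [hb'eq, hdone]
          have h3 : b' = b⁻¹ := eq_inv_of_mul_eq_one_left h2
          rw [h3, hbinv]
        calc q * b = (q * b * q⁻¹) * q := by group
          _ = b * q := by rw [← hb', h1]
      refine Subgroup.mem_inf.mpr ⟨Subgroup.mem_inf.mpr ⟨hqQ, ?_⟩, ?_⟩
      · rw [Subgroup.mem_centralizer_singleton_iff]; exact hqa
      · rw [Subgroup.mem_centralizer_singleton_iff]; exact hqb
    · intro q hq
      obtain ⟨h0, hqb⟩ := Subgroup.mem_inf.mp hq
      obtain ⟨hqQ, hqa⟩ := Subgroup.mem_inf.mp h0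
      rw [Subgroup.mem_centralizer_singleton_iff] at hqa hqb
      refine Subgroup.mem_inf.mpr ⟨hqQ, ?_⟩
      rw [Subgroup.mem_centralizer_singleton_iff]
      calc q * (a * b) = (q * a) * b := by group
        _ = a * (q * b) := by rw [hqa]; group
        _ = a * (b * q) := by rw [hqb]
        _ = a * b * q := by group

end Cfsg.Agent.S5049
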