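import Cfsg.Statements.S5057
import Mathlib

set_option autoImplicit false
open Cfsg

open Equiv

namespace Cfsg.Agent.S5057

section aux

def tZero : Perm (Fin 6) := swap 0 1 * swap 2 3

theorem tZero_aux : Perm.sign tZero = 1 ∧ tZero * tZero = 1 ∧ tZero ≠ 1 := by decide +kernel

theorem conj_aux : ∀ a : Perm (Fin 6), a * a = 1 → a ≠ 1 → Perm.sign a = 1 →
    ∃ g : Perm (Fin 6), Perm.sign g = 1 ∧ g * tZero * g⁻¹ = a := by decide +kernel

theorem order_aux : ∀ g : Perm (Fin 6), Perm.sign g = 1 → g ^ 3 = 1 ∨ g ^ 4 = 1 ∨ g ^ 5 = 1 := by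
  decide +kernel

theorem orderOf_le_aux (g : ↥(alternatingGroup (Fin 6))) : orderOf g ≤ 5 := by
  have hg : Perm.sign (g : Perm (Fin 6)) = 1 := Equiv.Perm.mem_alternatingGroup.mp g.2
  rcases order_aux g hg with h | h | h
  · exact (orderOf_le_of_pow_eq_one (by norm_num) (Subtype.ext h : g ^ 3 = 1)).trans (by norm_num)
  · exact (orderOf_le_of_pow_eq_one (by norm_num) (Subtype.ext h : g ^ 4 = 1)).trans (by norm_num)
  · exact orderOf_le_of_pow_eq_one (by norm_num) (Subtype.ext h : g ^ 5 = 1)

theorem conj_of_order_two (a : ↥(alternatingGroup (Fin 6))) (ha : orderOf a = 2) :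
    ∃ g : ↥(alternatingGroup (Fin 6)), a = g * ⟨tZero, Equiv.Perm.mem_alternatingGroup.mpr tZero_aux.1⟩ * g⁻¹ := by
  have h1 : a * a = 1 := by rw [← pow_two, ← ha]; exact pow_orderOf_eq_one a
  have h2 : a ≠ 1 := by rintro rfl; simp at ha
  have h3 : (a : Perm (Fin 6)) * (a : Perm (Fin 6)) = 1 := congrArg Subtype.val h1
  have h4 : (a : Perm (Fin 6)) ≠ 1 := fun h => h2 (Subtype.ext h)
  obtain ⟨g, hg, hga⟩ := conj_aux a h3 h4 (Equiv.Perm.mem_alternatingGroup.mp a.2)
  refine ⟨⟨g, Equiv.Perm.mem_alternatingGroup.mpr hg⟩, ?_⟩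
  apply Subtype.ext
  exact hga.symm

end aux

/-- The involutions of the alternating group of degree 6 form a class of root involutions (a single conjugacy class of involutions generating the group, any two of which commute, have product of odd order, or have product of order 4 whose square is again an involution of the class), and the product of any two of them has order at most 5. -/
theorem result :
    Cfsg.IsRootInvolutionClass {g : ↥(alternatingGroup (Fin 6)) | orderOf g = 2} ∧
    ∀ d ∈ {g : ↥(alternatingGroup (Fin 6)) | orderOf g = 2}, ∀ e ∈ {g : ↥(alternatingGroup (Fin 6)) | orderOf g = 2},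
      orderOf (d * e) ≤ 5 := by
  classical
  set t : ↥(alternatingGroup (Fin 6)) := ⟨tZero, Equiv.Perm.mem_alternatingGroup.mpr tZero_aux.1⟩ with ht
  have ht2 : orderOf t = 2 := by
    apply orderOf_eq_prime
    · rw [pow_two]; exact Subtype.ext tZero_aux.2.1
    · intro h
      exact tZero_aux.2.2 (congrArg Subtype.val h)
  set D : Set ↥(alternatingGroup (Fin 6)) := {g | orderOf g = 2} with hD
  have hconjmem : ∀ d ∈ D, ∀ g : ↥(alternatingGroup (Fin 6)), g * d * g⁻¹ ∈ D := by
    intro d hd g
    have h1 := (MulAut.conj g).orderOf_eq d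
    rw [MulAut.conj_apply] at h1
    show orderOf (g * d * g⁻¹) = 2
    rw [h1]
    exact hd
  refine ⟨⟨⟨fun d hd => hd, ?_, hconjmem, ?_⟩, ⟨t, ht2⟩, ?_⟩, ?_⟩
  · -- generates
    have hs : IsSimpleGroup ↥(alternatingGroup (Fin 6)) :=
      alternatingGroup.isSimpleGroup (by simp)
    have hn : (Subgroup.closure D).Normal := by
      constructor
      intro n hn g
      have h1 : (Subgroup.closure D).map (MulAut.conj g).toMonoidHom ≤ Subgroup.closure D := by
        rw [MonoidHom.map_closure, Subgroup.closure_le]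
        rintro _ ⟨d, hd, rfl⟩
        exact Subgroup.subset_closure (hconjmem d hd g)
      exact h1 ⟨n, hn, rfl⟩
    rcases hn.eq_bot_or_eq_top with h | h
    · exfalso
      have h1 : t ∈ Subgroup.closure D := Subgroup.subset_closure ht2
      rw [h, Subgroup.mem_bot] at h1
      rw [h1, orderOf_one] at ht2
      exact absurd ht2 (by norm_num)
    · exact h
  · -- pairs
    intro a ha b hb
    have haa : a * a = 1 := by rw [← pow_two, ← (show orderOf a = 2 from ha)]; exact pow_orderOf_eq_one a
    have hbb : b * b = 1 := by rw [← pow_two, ← (show orderOf b = 2 from hb)]; exact pow_orderOf_eq_one b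
    have hle := orderOf_le_aux (a * b)
    have hpos : 0 < orderOf (a * b) := orderOf_pos _
    have hcomm : (a * b) ^ 2 = 1 → a * b = b * a := by
      intro h
      have h1 : a * b * (a * b) = 1 := by rw [← pow_two]; exact h
      have h2 : a * b = (a * b)⁻¹ := eq_inv_of_mul_eq_one_left h1
      have h3 : a⁻¹ = a := inv_eq_of_mul_eq_one_left haa
      have h4 : b⁻¹ = b := inv_eq_of_mul_eq_one_left hbb
      rw [mul_inv_rev, h3, h4] at h2
      exact h2
    obtain h | h | h | h | h : orderOf (a * b) = 1 ∨ orderOf (a * b) = 2 ∨ orderOf (a * b) = 3 ∨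
        orderOf (a * b) = 4 ∨ orderOf (a * b) = 5 := by omega
    · left
      apply hcomm
      rw [orderOf_eq_one_iff.mp h, one_pow]
    · left
      apply hcomm
      rw [← h]; exact pow_orderOf_eq_one _
    · right; left; rw [h]; decide
    · right; right
      refine ⟨h, ?_⟩
      show orderOf ((a * b) ^ 2) = 2
      rw [orderOf_pow_of_dvd (by norm_num) (by rw [h]; norm_num), h]
    · right; left; rw [h]; decide
  · -- conjugacy
    intro a ha b hb
    obtain ⟨g₁, h₁⟩ := conj_of_order_two a ha
    obtain ⟨g₂, h₂⟩ := conj_of_order_two b hb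
    refine ⟨g₂ * g₁⁻¹, ?_⟩
    rw [h₁, h₂]
    group
  · intro d _ e _
    exact orderOf_le_aux _

end Cfsg.Agent.S5057
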