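import Cfsg.Statements.S5058
import Mathlib
import Cfsg.Agent.Lib.RootSubgroups.SLInv

set_option autoImplicit false
open Matrix
open Cfsg

open Cfsg Cfsg.Agent.Lib.RootSubgroups.SLRoot Matrix

namespace Cfsg.Agent.S5058


/-- Let F be a finite field of characteristic 2 and n a natural number. Then the transvections of SL_{n+3}(F) (so in every dimension at least 3) (the conjugates of the elementary matrices 1 + c E₁₂, c ≠ 0) form a class of root involutions of SL_{n+3}(F); when F has two elements they form a class of {3,4}⁺-transpositions (every product of odd order has order 1 or 3). -/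
theorem result (F : Type*) [Field F] [Fintype F] [CharP F 2] (n : ℕ) :
    Cfsg.IsRootInvolutionClass {t : Matrix.SpecialLinearGroup (Fin (n + 3)) F | ∃ c : F, c ≠ 0 ∧
        ∃ g : Matrix.SpecialLinearGroup (Fin (n + 3)) F, ((g⁻¹ * t * g : Matrix.SpecialLinearGroup (Fin (n + 3)) F) :
          Matrix (Fin (n + 3)) (Fin (n + 3)) F) = Matrix.transvection 0 1 c} ∧
    (Fintype.card F = 2 → Cfsg.IsThreeFourPlusTranspositionSet {t : Matrix.SpecialLinearGroup (Fin (n + 3)) F | ∃ c : F, c ≠ 0 ∧
        ∃ g : Matrix.SpecialLinearGroup (Fin (n + 3)) F, ((g⁻¹ * t * g : Matrix.SpecialLinearGroup (Fin (n + 3)) F) :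
          Matrix (Fin (n + 3)) (Fin (n + 3)) F) = Matrix.transvection 0 1 c}) := by
  rw [tvSet_eq (k := F) n]
  have hfin : Finite (SpecialLinearGroup (Fin (n + 3)) F) :=
    Finite.of_injective (fun g => (g : Matrix (Fin (n + 3)) (Fin (n + 3)) F)) Subtype.val_injective
  have hswap : ∀ a b : SpecialLinearGroup (Fin (n + 3)) F, a * a = 1 → a * b = a * (b * a) * a⁻¹ := by
    intro a b _
    group
  have hpair : ∀ a ∈ tvSet F (n + 3), ∀ b ∈ tvSet F (n + 3), a * b = b * a ∨ Odd (orderOf (a * b)) ∨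
      (orderOf (a * b) = 4 ∧ (a * b) ^ 2 ∈ tvSet F (n + 3)) := by
    rintro _ ⟨v, φ, h, hv, hφ, rfl⟩ _ ⟨w, ψ, h', hw, hψ, rfl⟩
    by_cases hp : φ ⬝ᵥ w = 0
    · by_cases hq : ψ ⬝ᵥ v = 0
      · left
        exact el_comm h h' hp hq 1 1
      · right; right
        obtain ⟨h1, h2⟩ := order_four_of_zero h' h hp hw hφ hq
        have e := hswap (el h 1) (el h' 1) (el_one_mul_self h)
        refine ⟨?_, ?_⟩
        · rw [e, ← h1]
          exact MulEquiv.orderOf_eq (MulAut.conj (el h 1)) _
        · rw [e, conj_pow]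
          exact conj_mem_tvSet h2 _
    · by_cases hq : ψ ⬝ᵥ v = 0
      · right; right
        exact order_four_of_zero h h' hq hv hψ hp
      · right; left
        exact odd_order_of_ne h h' hφ hψ hp hq
  have hroot : IsRootInvolutionSet (tvSet F (n + 3)) :=
    { orderOf_eq := fun d hd => orderOf_tv hd
      generates := closure_tvSet (by omega)
      conj_mem := fun d hd g => conj_mem_tvSet hd g
      pair := hpair }
  refine ⟨⟨hroot, ?_, ?_⟩, ?_⟩
  · have h01 : (0 : Fin (n + 3)) ≠ 1 := by simp [Fin.ext_iff]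
    exact ⟨_, _, _, single_dot_single (k := F) h01, single_ne_zero' _, single_ne_zero' _, rfl⟩
  · rintro _ ⟨v, φ, h, hv, hφ, rfl⟩ _ ⟨w, ψ, h', hw, hψ, rfl⟩
    obtain ⟨g, hg1, hg2⟩ := exists_SL_pair (by omega) h h' hv hφ hw hψ
    refine ⟨g, ?_⟩
    have d : (φ ᵥ* ((g⁻¹ : SpecialLinearGroup (Fin (n + 3)) F) : Matrix (Fin (n + 3)) (Fin (n + 3)) F)) ⬝ᵥ
      ((g : Matrix (Fin (n + 3)) (Fin (n + 3)) F) *ᵥ v) = 0 := by
      rw [Cfsg.Agent.Lib.KS2.Reg.dot_conj]; exact h
    rw [conj_el g h d 1]
    apply Cfsg.Agent.Lib.KS2.Reg.sl_ext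
    rw [el_coe, el_coe, hg1, hg2]
  · intro hcard
    refine ⟨hroot, ?_⟩
    have hone : ∀ x : F, x ≠ 0 → x = 1 := by
      intro x hx
      have := FiniteField.pow_card_sub_one_eq_one x hx
      rwa [hcard, show 2 - 1 = 1 by norm_num, pow_one] at this
    rintro _ ⟨v, φ, h, hv, hφ, rfl⟩ _ ⟨w, ψ, h', hw, hψ, rfl⟩ hodd
    by_cases hp : φ ⬝ᵥ w = 0
    · by_cases hq : ψ ⬝ᵥ v = 0
      · left
        have hc := el_comm h h' hp hq 1 1
        have h2 : (el h 1 * el h' 1) ^ 2 = 1 := by
          rw [(show Commute (el h 1) (el h' 1) from hc).mul_pow, sq, sq, el_one_mul_self, el_one_mul_self, one_mul]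
        have h3 := orderOf_dvd_of_pow_eq_one h2
        rcases (Nat.dvd_prime Nat.prime_two).mp h3 with h4 | h4
        · exact h4
        · rw [h4] at hodd
          exact absurd hodd (by decide)
      · exfalso
        obtain ⟨h1, -⟩ := order_four_of_zero h' h hp hw hφ hq
        have e := hswap (el h 1) (el h' 1) (el_one_mul_self h)
        have h4 : orderOf (el h 1 * el h' 1) = 4 := by
          rw [e, ← h1]
          exact MulEquiv.orderOf_eq (MulAut.conj (el h 1)) _
        rw [h4] at hodd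
        exact absurd hodd (by decide)
    · by_cases hq : ψ ⬝ᵥ v = 0
      · exfalso
        have h4 := (order_four_of_zero h h' hq hv hψ hp).1
        rw [h4] at hodd
        exact absurd hodd (by decide)
      · have h3 := orderOf_dvd_of_pow_eq_one (braid_of_one h h' (hone _ hp) (hone _ hq))
        exact (Nat.dvd_prime Nat.prime_three).mp h3

end Cfsg.Agent.S5058
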