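import Cfsg.Statements.S5059
import Mathlib

set_option autoImplicit false
universe u
open Cfsg


namespace Cfsg.Agent.S5059

section aux
open Cfsg
variable {k : Type u} [Field k] {M : Type u} [AddCommGroup M] [Module k M]

/-- the unit `1 + y` for `y * y = 0`. -/
def unitOf (y : M →ₗ[k] M) (hy : y * y = 0) : LinearMap.GeneralLinearGroup k M :=
  ⟨1 + y, 1 - y, by
    rw [mul_sub, mul_one, add_mul, one_mul, hy]; abel, by
    rw [sub_mul, one_mul, mul_add, mul_one, hy]; abel⟩

lemma coe_unitOf (y : M →ₗ[k] M) (hy : y * y = 0) :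
    ((unitOf y hy : LinearMap.GeneralLinearGroup k M) : M →ₗ[k] M) = 1 + y := rfl

/-- two members of the class have zero product -/
lemma mul_zero_of_class {G : Subgroup (LinearMap.GeneralLinearGroup k M)}
    {σ τ₁ τ₂ : LinearMap.GeneralLinearGroup k M} (hσ : σ ∈ minimalQuadraticElements G)
    (h₁ : τ₁ ∈ sameActionClass G σ) (h₂ : τ₂ ∈ sameActionClass G σ) :
    ((τ₁ : M →ₗ[k] M) - 1) * ((τ₂ : M →ₗ[k] M) - 1) = 0 := by
  ext m
  have h3 : ((τ₂ : M →ₗ[k] M) - 1) m ∈ LinearMap.range ((σ : M →ₗ[k] M) - 1) := by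
    rw [← h₂.2.2]; exact LinearMap.mem_range_self _ _
  obtain ⟨n, hn⟩ := h3
  have h5 : ((τ₂ : M →ₗ[k] M) - 1) m ∈ LinearMap.ker ((τ₁ : M →ₗ[k] M) - 1) := by
    rw [h₁.2.1, LinearMap.mem_ker, ← hn]
    have := hσ.1.2.1.1
    exact congrArg (fun f : M →ₗ[k] M => f n) this
  exact h5

lemma mem_class_of_add [FiniteDimensional k M] {G : Subgroup (LinearMap.GeneralLinearGroup k M)}
    {σ w : LinearMap.GeneralLinearGroup k M} (hσ : σ ∈ minimalQuadraticElements G)
    (hwG : w ∈ G) (hsq : ((w : M →ₗ[k] M) - 1) * ((w : M →ₗ[k] M) - 1) = 0)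
    (hne : (w : M →ₗ[k] M) - 1 ≠ 0)
    (hsc : scalarFamily w ⊆ (G : Set (LinearMap.GeneralLinearGroup k M)))
    (hker : LinearMap.ker ((σ : M →ₗ[k] M) - 1) ≤ LinearMap.ker ((w : M →ₗ[k] M) - 1))
    (hran : LinearMap.range ((w : M →ₗ[k] M) - 1) ≤ LinearMap.range ((σ : M →ₗ[k] M) - 1)) :
    w ∈ sameActionClass G σ := by
  have hq : w ∈ quadraticElements G := ⟨hwG, ⟨hsq, hne⟩, hsc⟩
  have hle : commutatorRank σ ≤ commutatorRank w := hσ.2 w hq
  have hle2 : commutatorRank w ≤ commutatorRank σ := Submodule.finrank_mono hran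
  have heq : commutatorRank w = commutatorRank σ := le_antisymm hle2 hle
  have hr : LinearMap.range ((w : M →ₗ[k] M) - 1) = LinearMap.range ((σ : M →ₗ[k] M) - 1) :=
    Submodule.eq_of_le_of_finrank_eq hran heq
  have hk : LinearMap.ker ((w : M →ₗ[k] M) - 1) = LinearMap.ker ((σ : M →ₗ[k] M) - 1) := by
    symm
    apply Submodule.eq_of_le_of_finrank_eq hker
    have h1 := LinearMap.finrank_range_add_finrank_ker ((w : M →ₗ[k] M) - 1)
    have h2 := LinearMap.finrank_range_add_finrank_ker ((σ : M →ₗ[k] M) - 1)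
    have h3 : Module.finrank k (LinearMap.range ((w : M →ₗ[k] M) - 1)) =
        Module.finrank k (LinearMap.range ((σ : M →ₗ[k] M) - 1)) := heq
    omega
  refine ⟨⟨hq, ?_⟩, hk, hr⟩
  intro τ hτ
  rw [heq]
  exact hσ.2 τ hτ

lemma mul_mem_class [FiniteDimensional k M] {G : Subgroup (LinearMap.GeneralLinearGroup k M)}
    {σ τ₁ τ₂ : LinearMap.GeneralLinearGroup k M} (hσ : σ ∈ minimalQuadraticElements G)
    (h₁ : τ₁ ∈ sameActionClass G σ) (h₂ : τ₂ ∈ sameActionClass G σ) :
    τ₁ * τ₂ ∈ sameActionClass G σ ∪ {1} := by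
  set x₁ := (τ₁ : M →ₗ[k] M) - 1 with hx₁
  set x₂ := (τ₂ : M →ₗ[k] M) - 1 with hx₂
  have h12 : x₁ * x₂ = 0 := mul_zero_of_class hσ h₁ h₂
  have h21 : x₂ * x₁ = 0 := mul_zero_of_class hσ h₂ h₁
  have h11 : x₁ * x₁ = 0 := mul_zero_of_class hσ h₁ h₁
  have h22 : x₂ * x₂ = 0 := mul_zero_of_class hσ h₂ h₂
  have hτ₁ : (τ₁ : M →ₗ[k] M) = 1 + x₁ := by rw [hx₁]; abel
  have hτ₂ : (τ₂ : M →ₗ[k] M) = 1 + x₂ := by rw [hx₂]; abel
  have hcoe : (((τ₁ * τ₂ : LinearMap.GeneralLinearGroup k M)) : M →ₗ[k] M) - 1 = x₁ + x₂ := by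
    rw [Units.val_mul, hτ₁, hτ₂, add_mul, mul_add, mul_add, h12, one_mul, one_mul, mul_one]
    abel
  by_cases hy : x₁ + x₂ = 0
  · right
    apply Units.ext
    have : (((τ₁ * τ₂ : LinearMap.GeneralLinearGroup k M)) : M →ₗ[k] M) = 1 := by
      rw [hy] at hcoe
      exact sub_eq_zero.mp hcoe
    exact this
  · left
    apply mem_class_of_add hσ
    · exact G.mul_mem h₁.1.1.1 h₂.1.1.1
    · rw [hcoe, add_mul, mul_add, mul_add, h12, h21, h11, h22]; simp
    · rw [hcoe]; exact hy
    · rintro w ⟨c, hc⟩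
      rw [hcoe] at hc
      have hy1 : (c • x₁) * (c • x₁) = 0 := by
        rw [smul_mul_smul_comm, h11, smul_zero]
      have hy2 : (c • x₂) * (c • x₂) = 0 := by
        rw [smul_mul_smul_comm, h22, smul_zero]
      have hw : w = unitOf (c • x₁) hy1 * unitOf (c • x₂) hy2 := by
        apply Units.ext
        rw [Units.val_mul, coe_unitOf, coe_unitOf, hc, add_mul, mul_add, mul_add,
          smul_mul_smul_comm, h12, smul_zero, smul_add, one_mul, one_mul, mul_one]
        abel
      rw [hw]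
      refine G.mul_mem (h₁.1.1.2.2 ⟨c, ?_⟩) (h₂.1.1.2.2 ⟨c, ?_⟩)
      · rw [coe_unitOf]
      · rw [coe_unitOf]
    · rw [← h₁.2.1]
      intro m hm
      rw [hcoe, LinearMap.mem_ker, LinearMap.add_apply]
      have h3 : x₁ m = 0 := hm
      have h5 : x₂ m = 0 := by
        have : m ∈ LinearMap.ker x₂ := by rw [hx₂, h₂.2.1, ← h₁.2.1]; exact hm
        exact this
      rw [h3, h5, add_zero]
    · rw [hcoe, ← h₁.2.2]
      rintro _ ⟨m, rfl⟩
      rw [LinearMap.add_apply]
      refine Submodule.add_mem _ (LinearMap.mem_range_self _ _) ?_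
      have : x₂ m ∈ LinearMap.range x₂ := LinearMap.mem_range_self _ _
      rw [hx₂, h₂.2.2, ← h₁.2.2] at this
      exact this

lemma inv_mem_class [FiniteDimensional k M] {G : Subgroup (LinearMap.GeneralLinearGroup k M)}
    {σ τ : LinearMap.GeneralLinearGroup k M} (hσ : σ ∈ minimalQuadraticElements G)
    (h : τ ∈ sameActionClass G σ) :
    τ⁻¹ ∈ sameActionClass G σ := by
  set x := (τ : M →ₗ[k] M) - 1 with hx
  have h11 : x * x = 0 := mul_zero_of_class hσ h h
  have hτ : (τ : M →ₗ[k] M) = 1 + x := by rw [hx]; abel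
  have hcoe : ((τ⁻¹ : LinearMap.GeneralLinearGroup k M) : M →ₗ[k] M) = 1 - x := by
    have h2 : τ⁻¹ = (unitOf (-x) (by rw [neg_mul_neg, h11]) : LinearMap.GeneralLinearGroup k M) := by
      apply inv_eq_of_mul_eq_one_right
      apply Units.ext
      rw [Units.val_mul, coe_unitOf, hτ]
      have h3 : (1 + x) * (1 + -x) = 1 - x * x := by noncomm_ring
      rw [h3, h11, sub_zero]
      rfl
    rw [h2, coe_unitOf]; abel
  have hcoe1 : ((τ⁻¹ : LinearMap.GeneralLinearGroup k M) : M →ₗ[k] M) - 1 = -x := by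
    rw [hcoe]; abel
  have hne : x ≠ 0 := h.1.1.2.1.2
  apply mem_class_of_add hσ
  · exact G.inv_mem h.1.1.1
  · rw [hcoe1, neg_mul_neg, h11]
  · rw [hcoe1]; exact neg_ne_zero.mpr hne
  · rintro w ⟨c, hc⟩
    rw [hcoe1] at hc
    apply h.1.1.2.2
    refine ⟨-c, ?_⟩
    rw [hc, neg_smul, smul_neg]
  · rw [hcoe1, LinearMap.ker_neg, ← h.2.1]
  · rw [hcoe1, LinearMap.range_neg, ← h.2.2]

lemma pow_aux (y : M →ₗ[k] M) (h : y * y = 0) (n : ℕ) : (1 + y) ^ n = 1 + (n : k) • y := by
  induction n with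
  | zero => simp
  | succ n ih =>
    rw [pow_succ, ih, add_mul, mul_add, mul_add, smul_mul_assoc, smul_mul_assoc, one_mul, one_mul,
      mul_one, h, smul_zero, add_zero, Nat.cast_succ, add_smul, one_smul]
    abel

lemma class_eq [FiniteDimensional k M] {G : Subgroup (LinearMap.GeneralLinearGroup k M)}
    {σ : LinearMap.GeneralLinearGroup k M} (hσ : σ ∈ minimalQuadraticElements G) :
    (sameActionSubgroup G σ : Set (LinearMap.GeneralLinearGroup k M)) = sameActionClass G σ ∪ {1} := by
  apply Set.Subset.antisymm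
  · intro g hg
    induction hg using Subgroup.closure_induction with
    | mem x hx => exact Or.inl hx
    | one => exact Or.inr rfl
    | mul x y _ _ hx hy =>
      rcases hx with hx | hx
      · rcases hy with hy | hy
        · exact mul_mem_class hσ hx hy
        · rw [Set.mem_singleton_iff.mp hy, mul_one]; exact Or.inl hx
      · rw [Set.mem_singleton_iff.mp hx, one_mul]; exact hy
    | inv x _ hx =>
      rcases hx with hx | hx
      · exact Or.inl (inv_mem_class hσ hx)
      · rw [Set.mem_singleton_iff.mp hx, inv_one]; exact Or.inr rfl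
  · rintro g (hg | hg)
    · exact Subgroup.subset_closure hg
    · rw [Set.mem_singleton_iff.mp hg]; exact Subgroup.one_mem _

end aux

/-- Let k be a field of characteristic not 2 with k not of order 3, M a finite-dimensional k-vector space and G ≤ GL(M) such that (G, M) is a quadratic pair (M irreducible for G, and G generated by its quadratically acting elements σ whose scalar family 1 + c(σ − 1), c ∈ k, lies in G). Write 𝒬_d for the quadratic elements of G of minimal commutator rank, E(σ) for the subgroup generated by the members of 𝒬_d with the same fixed space and commutator space as σ, and Σ for the set of these subgroups. Then for σ ∈ 𝒬_d the subgroup E(σ) consists exactly of those members together with the identity, it is abelian, and if k has prime characteristic p every element of E(σ) has order dividing p. -/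
theorem result {k : Type u} [Field k] (hk2 : ringChar k ≠ 2) (hk3 : Nat.card k ≠ 3)
    {M : Type u} [AddCommGroup M] [Module k M] [FiniteDimensional k M]
    {G : Subgroup (LinearMap.GeneralLinearGroup k M)} (hG : Cfsg.IsQuadraticPair G)
    {σ : LinearMap.GeneralLinearGroup k M} (hσ : σ ∈ Cfsg.minimalQuadraticElements G) :
    (Cfsg.sameActionSubgroup G σ : Set (LinearMap.GeneralLinearGroup k M)) = Cfsg.sameActionClass G σ ∪ {1} ∧
    IsMulCommutative ↥(Cfsg.sameActionSubgroup G σ) ∧
    (∀ p : ℕ, p.Prime → ringChar k = p → ∀ x ∈ Cfsg.sameActionSubgroup G σ, x ^ p = 1) := by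
  classical
  have hset := class_eq hσ
  refine ⟨hset, ?_, ?_⟩
  · refine ⟨⟨?_⟩⟩
    rintro ⟨x, hx⟩ ⟨y, hy⟩
    apply Subtype.ext
    show x * y = y * x
    have hx' : x ∈ (Cfsg.sameActionSubgroup G σ : Set (LinearMap.GeneralLinearGroup k M)) := hx
    have hy' : y ∈ (Cfsg.sameActionSubgroup G σ : Set (LinearMap.GeneralLinearGroup k M)) := hy
    rw [hset] at hx' hy'
    rcases hx' with hx' | hx'
    · rcases hy' with hy' | hy'
      · apply Units.ext
        have h12 := mul_zero_of_class hσ hx' hy'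
        have h21 := mul_zero_of_class hσ hy' hx'
        rw [Units.val_mul, Units.val_mul]
        have e1 : (x : M →ₗ[k] M) = 1 + ((x : M →ₗ[k] M) - 1) := by abel
        have e2 : (y : M →ₗ[k] M) = 1 + ((y : M →ₗ[k] M) - 1) := by abel
        generalize (x : M →ₗ[k] M) - 1 = a at e1 h12 h21
        generalize (y : M →ₗ[k] M) - 1 = b at e2 h12 h21
        rw [e1, e2, add_mul, add_mul, mul_add, mul_add, mul_add, mul_add, h12, h21]
        simp only [one_mul, mul_one, add_zero]
        abel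
      · rw [Set.mem_singleton_iff.mp hy', mul_one, one_mul]
    · rw [Set.mem_singleton_iff.mp hx', mul_one, one_mul]
  · intro p hp hpc x hx
    have hx' : x ∈ (Cfsg.sameActionSubgroup G σ : Set (LinearMap.GeneralLinearGroup k M)) := hx
    rw [hset] at hx'
    rcases hx' with hx' | hx'
    · have h11 := mul_zero_of_class hσ hx' hx'
      apply Units.ext
      have e1 : (x : M →ₗ[k] M) = 1 + ((x : M →ₗ[k] M) - 1) := by abel
      have hpow := pow_aux ((x : M →ₗ[k] M) - 1) h11 p
      rw [← e1] at hpow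
      rw [Units.val_pow_eq_pow_val, hpow]
      have : (p : k) = 0 := by
        rw [← hpc]; exact ringChar.Nat.cast_ringChar
      rw [this, zero_smul, add_zero]
      rfl
    · rw [Set.mem_singleton_iff.mp hx', one_pow]

end Cfsg.Agent.S5059
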