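import Cfsg.Statements.S5061
import Mathlib
import Cfsg.Agent.Lib.LinBS.Main

set_option autoImplicit false
open Cfsg

open Cfsg.Agent.Lib.LinBS

namespace Cfsg.Agent.S5061


/-- Let M be a finite-dimensional vector space over a field k, G ≤ GL(M), and 𝒲 a set of subgroups of G, invariant under conjugation by G, such that any two members of 𝒲 generate a subgroup acting unipotently on M (for some n all products of n endomorphisms g − 1 from it vanish). Then the subgroup generated by all members of 𝒲 acts unipotently on M and is normal in G. -/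
theorem result {k : Type*} [Field k] {M : Type*} [AddCommGroup M] [Module k M] [FiniteDimensional k M]
    {G : Subgroup (LinearMap.GeneralLinearGroup k M)} {W : Set (Subgroup (LinearMap.GeneralLinearGroup k M))} (hWG : ∀ A ∈ W, A ≤ G)
    (hWW : ∀ A ∈ W, ∀ B ∈ W, Cfsg.IsUnipotentOn (A ⊔ B)) (hWconj : ∀ A ∈ W, ∀ g ∈ G, Cfsg.conjBy A g ∈ W) :
    Cfsg.IsUnipotentOn (⨆ A ∈ W, A) ∧ ∀ g ∈ G, Cfsg.conjBy (⨆ A ∈ W, A) g = ⨆ A ∈ W, A := by
  set D : Set (LinearMap.GeneralLinearGroup k M) := {g | ∃ A ∈ W, g ∈ A} with hD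
  have hnil : Nil D := by
    refine main _ M rfl G D ?_ ?_ ?_
    · rintro x ⟨A, hA, hx⟩
      exact hWG A hA hx
    · rintro x ⟨A, hA, hx⟩ g hg
      exact ⟨_, hWconj A hA g hg, x, hx, rfl⟩
    · rintro x ⟨A, hA, hx⟩ y ⟨B, hB, hy⟩
      have h1 := (isUnipotentOn_iff _).1 (hWW A hA B hB)
      apply h1.mono
      rintro z (rfl | hz)
      · exact (le_sup_left : A ≤ A ⊔ B) hx
      · rw [Set.mem_singleton_iff] at hz
        rw [hz]
        exact (le_sup_right : B ≤ A ⊔ B) hy
  have hsup : (⨆ A ∈ W, A) = Subgroup.closure D := by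
    apply le_antisymm
    · apply iSup₂_le
      intro A hA x hx
      exact Subgroup.subset_closure ⟨A, hA, hx⟩
    · rw [Subgroup.closure_le]
      rintro x ⟨A, hA, hx⟩
      exact (le_iSup₂_of_le (f := fun (A : Subgroup (LinearMap.GeneralLinearGroup k M)) (_ : A ∈ W) => A) A hA le_rfl) hx
  constructor
  · rw [isUnipotentOn_iff, hsup]
    exact hnil.closure
  · intro g hg
    apply le_antisymm
    · rw [Subgroup.map_le_iff_le_comap]
      apply iSup₂_le
      intro A hA x hx
      have h1 : (MulAut.conj g).toMonoidHom x ∈ Cfsg.conjBy A g := ⟨x, hx, rfl⟩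
      exact (le_iSup₂_of_le (f := fun (A : Subgroup (LinearMap.GeneralLinearGroup k M)) (_ : A ∈ W) => A) _ (hWconj A hA g hg) le_rfl) h1
    · apply iSup₂_le
      intro A hA x hx
      have h1 : g⁻¹ * x * g ∈ Cfsg.conjBy A g⁻¹ := ⟨x, hx, by simp⟩
      have h2 : g⁻¹ * x * g ∈ ⨆ A ∈ W, A :=
        (le_iSup₂_of_le (f := fun (A : Subgroup (LinearMap.GeneralLinearGroup k M)) (_ : A ∈ W) => A) _ (hWconj A hA g⁻¹ (G.inv_mem hg)) le_rfl) h1
      refine ⟨_, h2, ?_⟩
      simp [mul_assoc]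

end Cfsg.Agent.S5061
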