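import Cfsg.Statements.S5067
import Mathlib

set_option autoImplicit false
open Cfsg

open scoped commutatorElement
open scoped Pointwise

namespace Cfsg.Agent.S5067

section aux
variable {P : Type*} [Group P]

theorem comm_normalClosure_le (E : Subgroup P) (hE : IsMulCommutative ↥E) :
    ⁅Subgroup.normalClosure (E : Set P), Subgroup.normalClosure (E : Set P)⁆ ≤
      (⊤ : Subgroup P).lowerCentralSeries 2 := by
  classical
  set K := (⊤ : Subgroup P).lowerCentralSeries 2 with hK
  have hKn : K.Normal := inferInstance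
  set A := (⊤ : Subgroup P).lowerCentralSeries 1 with hA
  have hAn : A.Normal := inferInstance
  have hAK : ∀ a ∈ A, ∀ g : P, ⁅a, g⁆ ∈ K := by
    intro a ha g
    have : ⁅A, (⊤ : Subgroup P)⁆ ≤ K := le_of_eq rfl
    exact this (Subgroup.commutator_mem_commutator ha (Subgroup.mem_top g))
  have hN : (E ⊔ A).Normal := by
    constructor
    intro n hn g
    have h1 : g * n * g⁻¹ = ⁅g, n⁆ * n := by
      simp [commutatorElement_def]
    rw [h1]
    refine (E ⊔ A).mul_mem ?_ hn
    apply Subgroup.mem_sup_right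
    have h2 : ⁅(⊤ : Subgroup P), (⊤ : Subgroup P)⁆ ≤ A := le_of_eq rfl
    exact h2 (Subgroup.commutator_mem_commutator (Subgroup.mem_top g) (Subgroup.mem_top n))
  have hle : Subgroup.normalClosure (E : Set P) ≤ E ⊔ A :=
    Subgroup.normalClosure_le_normal (fun e he => Subgroup.mem_sup_left he)
  refine le_trans (Subgroup.commutator_mono hle hle) ?_
  rw [Subgroup.commutator_le]
  intro g₁ h₁ g₂ h₂
  have hmul : ((E ⊔ A : Subgroup P) : Set P) = (E : Set P) * (A : Set P) := Subgroup.mul_normal E A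
  have h₁' : g₁ ∈ (E : Set P) * (A : Set P) := by rw [← hmul]; exact h₁
  have h₂' : g₂ ∈ (E : Set P) * (A : Set P) := by rw [← hmul]; exact h₂
  obtain ⟨e₁, he₁, a₁, ha₁, rfl⟩ := Set.mem_mul.mp h₁'
  obtain ⟨e₂, he₂, a₂, ha₂, rfl⟩ := Set.mem_mul.mp h₂'
  have hee : e₁ * e₂ = e₂ * e₁ := by
    have := hE.is_comm.comm ⟨e₁, he₁⟩ ⟨e₂, he₂⟩
    exact congrArg Subtype.val this
  rw [← QuotientGroup.eq_one_iff]
  let π : P →* P ⧸ K := QuotientGroup.mk' K
  have hcentral : ∀ a ∈ A, ∀ g : P, π a * π g = π g * π a := by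
    intro a ha g
    have h3 : π ⁅a, g⁆ = 1 := (QuotientGroup.eq_one_iff _).mpr (hAK a ha g)
    rw [commutatorElement_def, map_mul, map_mul, map_inv, map_inv] at h3
    have h4 : π a * π g * (π a)⁻¹ * (π g)⁻¹ = 1 := h3
    have h5 := mul_inv_eq_one.mp h4
    have h6 := mul_inv_eq_iff_eq_mul.mp h5
    exact h6
  show π ⁅e₁ * a₁, e₂ * a₂⁆ = 1
  have hcomm : π (e₁ * a₁) * π (e₂ * a₂) = π (e₂ * a₂) * π (e₁ * a₁) := by
    simp only [map_mul]
    have hee' : π e₁ * π e₂ = π e₂ * π e₁ := by rw [← map_mul, hee, map_mul]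
    calc π e₁ * π a₁ * (π e₂ * π a₂) = π e₁ * (π a₁ * π e₂) * π a₂ := by group
      _ = π e₁ * (π e₂ * π a₁) * π a₂ := by rw [hcentral a₁ ha₁ e₂]
      _ = (π e₁ * π e₂) * (π a₁ * π a₂) := by group
      _ = (π e₂ * π e₁) * (π a₂ * π a₁) := by rw [hee', hcentral a₁ ha₁ a₂]
      _ = π e₂ * (π e₁ * π a₂) * π a₁ := by group
      _ = π e₂ * (π a₂ * π e₁) * π a₁ := by rw [hcentral a₂ ha₂ e₁]
      _ = π e₂ * π a₂ * (π e₁ * π a₁) := by group
  rw [commutatorElement_def, map_mul, map_mul, map_mul, map_inv, map_inv, hcomm]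
  group

theorem cl_lt (E : Subgroup P) (hE : IsMulCommutative ↥E) [Group.IsNilpotent P]
    (hna : ¬ IsMulCommutative P) :
    Group.nilpotencyClass ↥(Subgroup.normalClosure (E : Set P)) < Group.nilpotencyClass P := by
  set N := Subgroup.normalClosure (E : Set P) with hN
  have hstep : ∀ k : ℕ, N.lowerCentralSeries (k + 1) ≤ (⊤ : Subgroup P).lowerCentralSeries (k + 2) := by
    intro k
    induction k with
    | zero => exact comm_normalClosure_le E hE
    | succ k ih =>
      rw [Subgroup.lowerCentralSeries_succ N (k + 1), Subgroup.lowerCentralSeries_succ ⊤ (k + 2)]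
      exact Subgroup.commutator_mono ih le_top
  have hc : 2 ≤ Group.nilpotencyClass P := by
    by_contra hlt
    have h1 : Group.nilpotencyClass P ≤ 1 := by omega
    exact hna (Group.IsNilpotent.nilpotencyClass_le_one_iff.mp h1)
  obtain ⟨d, hd⟩ : ∃ d, Group.nilpotencyClass P = d + 2 := ⟨Group.nilpotencyClass P - 2, by omega⟩
  have h3 : N.lowerCentralSeries (d + 1) = ⊥ := by
    rw [eq_bot_iff, ← Subgroup.lowerCentralSeries_nilpotencyClass (G := P), hd]
    exact hstep d
  have h4 : (⊤ : Subgroup N).lowerCentralSeries (d + 1) = ⊥ := by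
    rw [← Subgroup.top_subtype_lowerCentralSeries] at h3
    exact (Subgroup.map_eq_bot_iff_of_injective _ N.subtype_injective).mp h3
  have h5 := (Subgroup.lowerCentralSeries_eq_bot_iff_nilpotencyClass_le).mp h4
  omega
end aux

/-- Let P be a non-abelian nilpotent p-group (every element of p-power order; P possibly infinite) generated by two abelian subgroups E and F. Then the normal closure of E in P, and likewise that of F, has nilpotency class strictly smaller than that of P. -/
theorem result {P : Type*} [Group P] {p : ℕ} [Fact p.Prime] (hP : IsPGroup p P) [Group.IsNilpotent P]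
    (hna : ¬ IsMulCommutative P) {E F : Subgroup P} (hE : IsMulCommutative ↥E) (hF : IsMulCommutative ↥F) (hgen : E ⊔ F = ⊤) :
    Group.nilpotencyClass ↥(Subgroup.normalClosure (E : Set P)) < Group.nilpotencyClass P ∧
    Group.nilpotencyClass ↥(Subgroup.normalClosure (F : Set P)) < Group.nilpotencyClass P := by
  exact ⟨cl_lt E hE hna, cl_lt F hF hna⟩

end Cfsg.Agent.S5067
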