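import Cfsg.Statements.S5087
import Cfsg.Agent.Lib.Fusion.NormalSub
import Mathlib

set_option autoImplicit false
open Cfsg

namespace Cfsg.Agent.S5087

open Cfsg.Agent.Lib.Fusion Cfsg.FusionSystem


/-- In a saturated fusion system over a finite p-group S, a subgroup Q is normal in the system if and only if every subgroup P that equals S or is essential contains Q and every element of Aut_F(P) maps Q onto itself. -/
theorem result {Ω : Type*} [Group Ω] {S : Subgroup Ω} [Finite S] (p : ℕ) [Fact p.Prime] (hS : IsPGroup p S) (F : Cfsg.FusionSystem S) (hF : F.IsSaturated p) (Q : Subgroup Ω) : F.IsNormal Q ↔ ∀ P : Subgroup Ω, (P = S ∨ F.IsEssential p P) → (Q ≤ P ∧ ∀ α ∈ F.autGroup P, (Q.subgroupOf P).map α.toMonoidHom = Q.subgroupOf P) := by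
  exact isNormal_iff_aut hS hF

end Cfsg.Agent.S5087
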