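import Cfsg.Statements.S5093
import Cfsg.Agent.Lib.Fusion.Closed
import Cfsg.Agent.Lib.Fusion.Group
import Cfsg.Agent.Lib.Transfer.Hyperfocal
import Cfsg.Agent.Lib.Techniques.Complement
import Mathlib

set_option autoImplicit false
open Cfsg

namespace Cfsg.Agent.S5093

open Cfsg.Agent.Lib.Fusion Cfsg.FusionSystem



theorem commute_mod {G : Type*} [Group G] [Finite G] (p : ℕ) [Fact p.Prime] (g y : G) (m : ℕ)
    (hm : Nat.Coprime m p) (h : g ^ m * y = y * g ^ m) : y⁻¹ * (g * y * g⁻¹) ∈ pResidual p G := by
  haveI hN := Lib.Techniques.pResidual_normal G p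
  have hq := Lib.Techniques.isPGroup_quotient_pResidual (X := G) (p := p)
  set a : G ⧸ pResidual p G := (g : G ⧸ pResidual p G) with ha
  set b : G ⧸ pResidual p G := (y : G ⧸ pResidual p G) with hb
  have hab : a ^ m * b = b * a ^ m := by
    rw [ha, hb, ← QuotientGroup.mk_pow, ← QuotientGroup.mk_mul, ← QuotientGroup.mk_mul, h]
  obtain ⟨k, hk⟩ := IsPGroup.iff_orderOf.1 hq a
  have hco : Nat.Coprime m (orderOf a) := by
    rw [hk]
    exact Nat.Coprime.pow_right k hm
  obtain ⟨u, hu⟩ := exists_pow_eq_self_of_coprime hco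
  have hc : Commute (a ^ m) b := hab
  have hc' : Commute a b := by
    rw [← hu]
    exact hc.pow_left u
  rw [← QuotientGroup.eq_one_iff]
  simp only [QuotientGroup.mk_mul, QuotientGroup.mk_inv]
  rw [← ha, ← hb, hc'.eq]
  group

theorem conjAut_pow_eq {Ω : Type*} [Group Ω] (P : Subgroup Ω) (g : Ω) (hg : g ∈ Subgroup.normalizer (P : Set Ω)) (n : ℕ) :
    conjAut P (g ^ n) (Subgroup.pow_mem _ hg n) = conjAut P g hg ^ n := by
  ext z
  have : ∀ n : ℕ, ∀ z : P, (((conjAut P g hg ^ n) z : P) : Ω) = g ^ n * (z : Ω) * (g ^ n)⁻¹ := by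
    intro n
    induction n with
    | zero => intro z; simp
    | succ n ih =>
      intro z
      rw [pow_succ, MulAut.mul_apply, ih, conjAut_coe]
      group
  rw [this, conjAut_coe]

/-- Hyperfocal subgroup Theorem: for a finite group G with Sylow p-subgroup S, the hyperfocal subgroup of the fusion system of G on S equals S ∩ O^p(G), where O^p(G) is the subgroup generated by the elements of order prime to p. -/
theorem result {G : Type*} [Group G] [Finite G] (p : ℕ) [Fact p.Prime] (S : Sylow p G) : (Cfsg.groupFusionSystem (S : Subgroup G)).hyperfocalSubgroup p = (S : Subgroup G) ⊓ Cfsg.pResidual p G := by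
  set F := groupFusionSystem (S : Subgroup G) with hFd
  haveI hN : (pResidual p G).Normal := Lib.Techniques.pResidual_normal G p
  apply le_antisymm
  · refine (Subgroup.closure_le _).2 ?_
    rintro _ ⟨P, α, x, hP, hα, rfl⟩
    refine ⟨S.1.mul_mem (S.1.inv_mem (hP x.2)) (hP ((α : MulAut P) x).2), ?_⟩
    have := finite_autGroup F hP
    -- closure induction on `α`
    have key : ∀ β : F.autGroup P, β ∈ pResidual p (F.autGroup P) → ∀ y : P, (y : G)⁻¹ * (((β : MulAut P) y : P) : G) ∈ pResidual p G := by
      intro β hβ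
      induction hβ using Subgroup.closure_induction with
      | mem β hβ =>
        intro y
        obtain ⟨-, -, g, hg⟩ := (mem_autGroup_iff hP).1 β.2
        have hg' : ∀ z : P, (((β : MulAut P) z : P) : G) = g * (z : G) * g⁻¹ := hg
        have hordβ : Nat.Coprime (orderOf (β : MulAut P)) p := by
          rw [Subgroup.orderOf_coe]
          exact hβ
        set m := orderOf (β : MulAut P) with hm
        have hpow : ∀ n : ℕ, ∀ z : P, ((((β : MulAut P) ^ n) z : P) : G) = g ^ n * (z : G) * (g ^ n)⁻¹ := by
          intro n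
          induction n with
          | zero => intro z; simp
          | succ n ih =>
            intro z
            rw [pow_succ, MulAut.mul_apply, ih, hg']
            group
        have h1 : g ^ m * (y : G) = y * g ^ m := by
          have := hpow m y
          rw [hm, pow_orderOf_eq_one, ← hm] at this
          simp only [MulAut.one_apply] at this
          exact (eq_mul_inv_iff_mul_eq.1 this).symm
        have := commute_mod p g (y : G) m hordβ h1
        rw [hg']
        exact this
      | one => intro y; simp
      | mul a b _ _ ha hb =>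
        intro y
        have h1 := ha ((b : MulAut P) y)
        have h2 := hb y
        have e : (y : G)⁻¹ * (((a * b : F.autGroup P) : MulAut P) y : P) =
            ((y : G)⁻¹ * (((b : MulAut P) y : P) : G)) * ((((b : MulAut P) y : P) : G)⁻¹ * (((a : MulAut P) ((b : MulAut P) y) : P) : G)) := by
          simp [MulAut.mul_apply]
        rw [e]
        exact Subgroup.mul_mem _ h2 h1
      | inv a _ ha =>
        intro y
        have h1 := ha (((a : MulAut P))⁻¹ y)
        have e : ((((a⁻¹ : F.autGroup P) : MulAut P) y : P) : G) = (((a : MulAut P)⁻¹ y : P) : G) := rfl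
        rw [e]
        have e2 : (a : MulAut P) ((a : MulAut P)⁻¹ y) = y := by simp
        rw [e2] at h1
        have := Subgroup.inv_mem _ h1
        simpa using this
    exact key α hα x
  · have h1 := Lib.Transfer.inf_residual_le_hyperfocal _ G S rfl
    refine h1.trans ?_
    rw [Lib.Transfer.hyperfocal, Subgroup.closure_le]
    rintro _ ⟨Q, hQ, x, hx, g, hg, hgc, rfl⟩
    have hginv : g⁻¹ ∈ Subgroup.normalizer (Q : Set G) := Subgroup.inv_mem _ hg
    have hmem : conjAut Q g⁻¹ hginv ∈ F.autGroup Q := by
      refine (mem_autGroup_iff hQ).2 ⟨hQ, fun y => hQ (conjAut Q g⁻¹ hginv y).2, g⁻¹, fun y => rfl⟩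
    have hord : Nat.Coprime (orderOf (⟨_, hmem⟩ : F.autGroup Q)) p := by
      have hdvd : orderOf (conjAut Q g⁻¹ hginv) ∣ orderOf g⁻¹ := by
        refine orderOf_dvd_of_pow_eq_one ?_
        rw [← conjAut_pow_eq Q g⁻¹ hginv]
        simp only [pow_orderOf_eq_one]
        exact conjAut_one Q
      rw [← Subgroup.orderOf_coe]
      rw [orderOf_inv] at hdvd
      exact Nat.Coprime.coprime_dvd_left hdvd hgc
    refine Subgroup.subset_closure ⟨Q, ⟨_, hmem⟩, ⟨x, hx⟩, hQ, Subgroup.subset_closure hord, ?_⟩
    simp

end Cfsg.Agent.S5093
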