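import Cfsg.Statements.S5094
import Cfsg.Agent.Lib.ZStar.WeakClosed
import Cfsg.Prelude.Def_FusionSystem

set_option autoImplicit false
open Cfsg

namespace Cfsg.Agent.S5094

/-- Glauberman's Z*-Theorem in fusion language: for a finite group G with Sylow 2-subgroup S, the centre of the fusion system of G on S is the set of elements of S whose image in G/O(G) is central, O(G) being the largest normal subgroup of odd order. -/
theorem result {G : Type*} [Group G] [Finite G] (S : Sylow 2 G) : (Cfsg.groupFusionSystem (S : Subgroup G)).center = (S : Subgroup G) ⊓ (Subgroup.center (G ⧸ Cfsg.oddCore G)).comap (QuotientGroup.mk' (Cfsg.oddCore G)) := by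
  have : Fact (Nat.Prime 2) := ⟨Nat.prime_two⟩
  have hcen : ∀ z : G, (QuotientGroup.mk' (Cfsg.oddCore G)) z ∈ Subgroup.center (G ⧸ Cfsg.oddCore G) →
      ∀ a : G, z⁻¹ * (a * z * a⁻¹) ∈ Cfsg.oddCore G := by
    intro z hz a
    rw [← QuotientGroup.eq_one_iff]
    have h1 := (Subgroup.mem_center_iff.mp hz) (QuotientGroup.mk' (Cfsg.oddCore G) a)
    show QuotientGroup.mk' (Cfsg.oddCore G) _ = 1
    simp only [map_mul, map_inv]
    rw [h1]
    group
  apply le_antisymm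
  · apply sSup_le
    rintro Q ⟨hQS, hQ⟩ z hzQ
    refine ⟨hQS hzQ, ?_⟩
    have hzS : z ∈ (S : Subgroup G) := hQS hzQ
    have hwc : ∀ g, g * z * g⁻¹ ∈ (S : Subgroup G) → g * z * g⁻¹ = z := by
      intro g hg
      have hle : Subgroup.zpowers z ≤ (S : Subgroup G) := Subgroup.zpowers_le.mpr hzS
      have hφ : Cfsg.conjHom (Subgroup.zpowers z) g ∈
          (Cfsg.groupFusionSystem (S : Subgroup G)).Hom (Subgroup.zpowers z) := by
        refine ⟨hle, ?_, g, fun x => rfl⟩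
        rintro ⟨_, i, rfl⟩
        show g * z ^ i * g⁻¹ ∈ (S : Subgroup G)
        have h1 := (MulAut.conj g).toMonoidHom.map_zpow z i
        have h2 : g * z ^ i * g⁻¹ = (g * z * g⁻¹) ^ i := h1
        rw [h2]
        exact Subgroup.zpow_mem _ hg _
      obtain ⟨ψ, -, h1, h2⟩ := hQ _ _ hφ
      have e1 := h1 ⟨z, Subgroup.mem_zpowers z⟩
      have e2 := h2 ⟨z, hzQ⟩
      have e3 : Subgroup.inclusion (le_sup_left : Subgroup.zpowers z ≤ Subgroup.zpowers z ⊔ Q)
          ⟨z, Subgroup.mem_zpowers z⟩ = Subgroup.inclusion (le_sup_right : Q ≤ Subgroup.zpowers z ⊔ Q)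
          ⟨z, hzQ⟩ := Subtype.ext rfl
      rw [e3, e2] at e1
      exact e1.symm
    show QuotientGroup.mk' (Cfsg.oddCore G) z ∈ Subgroup.center _
    rw [Subgroup.mem_center_iff]
    intro a
    obtain ⟨b, rfl⟩ := QuotientGroup.mk'_surjective _ a
    have h1 := Cfsg.Agent.Lib.ZStar.central_mod_oddCore S hzS hwc b
    rw [← QuotientGroup.eq_one_iff] at h1
    have h2 : QuotientGroup.mk' (Cfsg.oddCore G) (z⁻¹ * (b * z * b⁻¹)) = 1 := h1
    simp only [map_mul, map_inv] at h2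
    have h3 : QuotientGroup.mk' (Cfsg.oddCore G) z = QuotientGroup.mk' (Cfsg.oddCore G) b *
        QuotientGroup.mk' (Cfsg.oddCore G) z * (QuotientGroup.mk' (Cfsg.oddCore G) b)⁻¹ :=
      eq_of_inv_mul_eq_one h2
    calc QuotientGroup.mk' (Cfsg.oddCore G) b * QuotientGroup.mk' (Cfsg.oddCore G) z
        = (QuotientGroup.mk' (Cfsg.oddCore G) b * QuotientGroup.mk' (Cfsg.oddCore G) z *
            (QuotientGroup.mk' (Cfsg.oddCore G) b)⁻¹) * QuotientGroup.mk' (Cfsg.oddCore G) b := by group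
      _ = _ := by rw [← h3]
  · refine le_sSup ?_
    refine ⟨inf_le_left, fun P φ hφ => ?_⟩
    obtain ⟨hP, hφS, g, hg⟩ := hφ
    set Q₀ : Subgroup G := (S : Subgroup G) ⊓ (Subgroup.center (G ⧸ Cfsg.oddCore G)).comap
      (QuotientGroup.mk' (Cfsg.oddCore G)) with hQ₀
    have hAS : P ⊔ Q₀ ≤ (S : Subgroup G) := sup_le hP inf_le_left
    have hA'p : IsPGroup 2 ((P ⊔ Q₀).map (MulAut.conj g).toMonoidHom) :=
      (S.isPGroup'.to_le hAS).map _
    have hA'K : (P ⊔ Q₀).map (MulAut.conj g).toMonoidHom ≤ Cfsg.oddCore G ⊔ (S : Subgroup G) := by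
      rw [Subgroup.map_le_iff_le_comap]
      apply sup_le
      · intro x hx
        show g * x * g⁻¹ ∈ Cfsg.oddCore G ⊔ (S : Subgroup G)
        have h1 := hφS ⟨x, hx⟩
        rw [hg] at h1
        exact Subgroup.mem_sup_right h1
      · intro q hq
        show g * q * g⁻¹ ∈ Cfsg.oddCore G ⊔ (S : Subgroup G)
        have h1 := hcen q hq.2 g
        have e : g * q * g⁻¹ = q * (q⁻¹ * (g * q * g⁻¹)) := by group
        rw [e]
        exact Subgroup.mul_mem _ (Subgroup.mem_sup_right hq.1) (Subgroup.mem_sup_left h1)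
    obtain ⟨o, ho, hoS⟩ := Cfsg.Agent.Lib.ZStar.exists_conj_into_sylow S _ hA'p hA'K
    have hconj : ∀ x ∈ P ⊔ Q₀, (o⁻¹ * g) * x * (o⁻¹ * g)⁻¹ ∈ (S : Subgroup G) := by
      intro x hx
      have h1 := hoS (g * x * g⁻¹) ⟨x, hx, rfl⟩
      have e : (o⁻¹ * g) * x * (o⁻¹ * g)⁻¹ = o⁻¹ * (g * x * g⁻¹) * o := by group
      rwa [e]
    refine ⟨Cfsg.conjHom (P ⊔ Q₀) (o⁻¹ * g), ⟨hAS, fun x => hconj x x.2, o⁻¹ * g, fun x => rfl⟩,
      fun x => ?_, fun x => ?_⟩
    · show (o⁻¹ * g) * (x : G) * (o⁻¹ * g)⁻¹ = φ x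
      rw [hg]
      have hy := hφS x
      rw [hg] at hy
      have h1 := hconj x (Subgroup.mem_sup_left x.2)
      set y := g * (x : G) * g⁻¹ with hy'
      have e : (o⁻¹ * g) * (x : G) * (o⁻¹ * g)⁻¹ = o⁻¹ * y * o := by
        rw [hy']
        group
      rw [e] at h1 ⊢
      have h2 : y⁻¹ * (o⁻¹ * y * o) ∈ (S : Subgroup G) := Subgroup.mul_mem _ (Subgroup.inv_mem _ hy) h1
      have h3 : y⁻¹ * (o⁻¹ * y * o) ∈ Cfsg.oddCore G := by
        have e2 : y⁻¹ * (o⁻¹ * y * o) = (y⁻¹ * o⁻¹ * y) * o := by group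
        rw [e2]
        refine Subgroup.mul_mem _ ?_ ho
        have := (inferInstance : (Cfsg.oddCore G).Normal).conj_mem _ (Subgroup.inv_mem _ ho) y⁻¹
        simpa using this
      have h4 := Cfsg.Agent.Lib.ZStar.eq_of_sylow_of_oddCore S h2 h3
      exact (eq_of_inv_mul_eq_one h4).symm
    · show (o⁻¹ * g) * (x : G) * (o⁻¹ * g)⁻¹ = x
      have hxQ : (x : G) ∈ Q₀ := x.2
      have h1 := hconj x (Subgroup.mem_sup_right hxQ)
      have h2 : (x : G)⁻¹ * ((o⁻¹ * g) * (x : G) * (o⁻¹ * g)⁻¹) ∈ (S : Subgroup G) :=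
        Subgroup.mul_mem _ (Subgroup.inv_mem _ hxQ.1) h1
      have h3 := hcen x hxQ.2 (o⁻¹ * g)
      have h4 := Cfsg.Agent.Lib.ZStar.eq_of_sylow_of_oddCore S h2 h3
      exact (eq_of_inv_mul_eq_one h4).symm

end Cfsg.Agent.S5094
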