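import Cfsg.Statements.S5102
import Cfsg.Agent.Lib.Fusion.Group
import Mathlib

set_option autoImplicit false
open Cfsg

namespace Cfsg.Agent.S5102

open Cfsg.Agent.Lib.Fusion Cfsg.FusionSystem


/-- A normal p-subgroup of a finite group G is normal in the fusion system of G on a Sylow p-subgroup. -/
theorem result {G : Type*} [Group G] [Finite G] (p : ℕ) [Fact p.Prime] (S : Sylow p G) (R : Subgroup G) [R.Normal] (hR : IsPGroup p R) : (Cfsg.groupFusionSystem (S : Subgroup G)).IsNormal R := by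
  have hRS : R ≤ (S : Subgroup G) := hR.le_sylow_of_normal S
  refine ⟨hRS, fun P φ hφ => ?_⟩
  obtain ⟨hP, hval, g, hv⟩ := hφ
  have hsup : ∀ y : ↥(P ⊔ R), conjHom (P ⊔ R) g y ∈ (S : Subgroup G) := by
    refine map_sup_mem (fun x hx => ?_) (fun x hx => ?_)
    · show g * x * g⁻¹ ∈ (S : Subgroup G)
      rw [← hv ⟨x, hx⟩]
      exact hval _
    · show g * x * g⁻¹ ∈ (S : Subgroup G)
      exact hRS (Subgroup.Normal.conj_mem inferInstance x hx g)
  refine ⟨conjHom (P ⊔ R) g, ⟨sup_le hP hRS, hsup, g, fun _ => rfl⟩, fun x => (hv x).symm, ?_⟩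
  ext y
  rw [mem_subgroupOf_map_iff]
  constructor
  · rintro ⟨x, hxH, hx, rfl⟩
    exact Subgroup.Normal.conj_mem inferInstance x hx g
  · intro hy
    have h1 : g⁻¹ * y * g ∈ R := by
      have := Subgroup.Normal.conj_mem (inferInstance : R.Normal) y hy g⁻¹
      simpa using this
    refine ⟨_, Subgroup.mem_sup_right h1, h1, ?_⟩
    show g * (g⁻¹ * y * g) * g⁻¹ = y
    group

end Cfsg.Agent.S5102
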