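import Cfsg.Statements.S5104
import Cfsg.Agent.Lib.Fusion.Saturated
import Mathlib

set_option autoImplicit false
open Cfsg

namespace Cfsg.Agent.S5104

open Cfsg.Agent.Lib.Fusion Cfsg.FusionSystem

/-- In a saturated fusion system over a finite p-group S, a fully centralized subgroup U with C_S(U) ≤ U is centric. -/
theorem result {Ω : Type*} [Group Ω] {S : Subgroup Ω} [Finite S] (p : ℕ) [Fact p.Prime] (hS : IsPGroup p S) (F : Cfsg.FusionSystem S) (hF : F.IsSaturated p) (U : Subgroup Ω) (hU : F.IsFullyCentralized U) (hC : Cfsg.FusionSystem.centralizerIn S U ≤ U) : F.IsCentric U := by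
  have hrec := IsSat.receptive_of_fullyCentralized hS hF hU
  refine ⟨hU.1, fun Q hQ => ?_⟩
  obtain ⟨e, he⟩ := isConj_iff.1 (conj_symm hQ)
  obtain ⟨ψ, hψ, hv⟩ := IsReceptive.extend_sup (F := F) hrec he (N := centralizerIn S Q) (fun g hg => by
    have hg' := mem_centralizerIn.1 hg
    refine ⟨hg'.1, mem_normalizerIn.1 (centralizerIn_le_normalizerIn hg) |>.2, 1, S.one_mem, fun x hx => ?_⟩
    have h1 : g * (x : Ω) * g⁻¹ = x := by rw [← hg'.2 x x.2]; simp
    have h2 : (⟨g * (x : Ω) * g⁻¹, hx⟩ : Q) = x := Subtype.ext h1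
    rw [h2]; simp)
  intro c hc
  have hmem : ψ ⟨c, Subgroup.mem_sup_right hc⟩ ∈ centralizerIn S U := by
    refine mem_centralizerIn.2 ⟨hom_val F hψ _, fun y hy => ?_⟩
    obtain ⟨x, hxy⟩ := e.surjective ⟨y, hy⟩
    have hy' : y = ψ ⟨x, Subgroup.mem_sup_left x.2⟩ := by
      rw [hv x x.2, hxy]
    rw [hy', ← map_mul, ← map_mul]
    congr 1
    exact Subtype.ext ((mem_centralizerIn.1 hc).2 x x.2)
  obtain ⟨x, hxy⟩ := e.surjective ⟨_, hC hmem⟩
  have h1 : ψ ⟨x, Subgroup.mem_sup_left x.2⟩ = ψ ⟨c, Subgroup.mem_sup_right hc⟩ := by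
    rw [hv x x.2, hxy]
  have h2 := hom_inj F hψ h1
  have h3 : (x : Ω) = c := congrArg Subtype.val h2
  rw [← h3]
  exact x.2

end Cfsg.Agent.S5104
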