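import Cfsg.Statements.S5107
import Cfsg.Agent.Lib.Fusion.Chains
import Cfsg.Agent.Lib.Fusion.Group
import Mathlib

set_option autoImplicit false
open Cfsg

namespace Cfsg.Agent.S5107

open Cfsg.Agent.Lib.Fusion Cfsg.FusionSystem

open scoped commutatorElement


/-- If a Sylow p-subgroup S of a finite group G has nilpotency class at most two and its centre is strongly closed in S with respect to G, then every map of the fusion system of G on S is conjugation by an element of N_G(S), and S is the largest subgroup normal in that fusion system. -/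
theorem result {G : Type*} [Group G] [Finite G] (p : ℕ) [Fact p.Prime] (S : Sylow p G) (hcl : ⁅(S : Subgroup G), (S : Subgroup G)⁆ ≤ (S : Subgroup G) ⊓ Subgroup.centralizer ((S : Subgroup G) : Set G)) (hZ : Cfsg.IsStronglyClosed ((S : Subgroup G) ⊓ Subgroup.centralizer ((S : Subgroup G) : Set G)) (S : Subgroup G)) : (∀ (P : Subgroup G) (φ : P →* G), φ ∈ (Cfsg.groupFusionSystem (S : Subgroup G)).Hom P → ∃ g ∈ Subgroup.normalizer ((S : Subgroup G) : Set G), ∀ x : P, φ x = g * (x : G) * g⁻¹) ∧ (Cfsg.groupFusionSystem (S : Subgroup G)).core = S := by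
  classical
  set T : Subgroup G := (S : Subgroup G) with hT
  have hTp : IsPGroup p T := S.isPGroup'
  set F := Cfsg.groupFusionSystem T with hFdef
  have hF : F.IsSaturated p := by
    rw [hFdef, groupFusionSystem_eq]
    exact isSaturated_fH le_top (isSylowIn_of_sylow S)
  have hscZ : F.StronglyClosed (T ⊓ Subgroup.centralizer (T : Set G)) := by
    refine ⟨inf_le_left, fun R hR φ hφ x => ?_⟩
    obtain ⟨h1, h2, g, hg⟩ := hφ
    have h3 := h2 x
    rw [hg] at h3 ⊢
    exact hZ.2 x (hR x.2) g h3
  have hscT : F.StronglyClosed T := ⟨le_rfl, fun R _ φ hφ x => hom_val F hφ x⟩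
  have hN : F.IsNormal T := by
    rw [isNormal_iff_chain hTp hF]
    refine ⟨2, ![⊥, T ⊓ Subgroup.centralizer (T : Set G), T], rfl, rfl, ?_, fun i => ?_⟩
    · intro i j hij
      fin_cases i <;> fin_cases j
      · exact le_rfl
      · exact bot_le
      · exact bot_le
      · exact absurd hij (by decide)
      · exact le_rfl
      · exact inf_le_left
      · exact absurd hij (by decide)
      · exact absurd hij (by decide)
      · exact le_rfl
    · fin_cases i
      · refine ⟨hscZ, ?_⟩
        show ⁅T, T ⊓ Subgroup.centralizer (T : Set G)⁆ ≤ ⊥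
        rw [Subgroup.commutator_le]
        intro a ha b hb
        have h1 : b ∈ Subgroup.centralizer (T : Set G) := hb.2
        have h2 := (Subgroup.mem_centralizer_iff.1 h1) a ha
        rw [Subgroup.mem_bot, commutatorElement_eq_one_iff_mul_comm]
        exact h2
      · exact ⟨hscT, hcl⟩
  refine ⟨fun P φ hφ => ?_, le_antisymm (sSup_le fun Q hQ => hQ.1) (le_sSup hN)⟩
  have hPT : P ≤ T := hom_le F hφ
  have := hN.2 P φ hφ
  obtain ⟨ψ, hψ, hv, -⟩ := this
  obtain ⟨h1, h2, g, hg⟩ := hψ
  refine ⟨g, ?_, fun x => ?_⟩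
  · have := Finite.of_injective (Subgroup.subtype T) T.subtype_injective
    refine mem_normalizer_of_forall fun x hx => ?_
    have h3 := h2 ⟨x, Subgroup.mem_sup_right hx⟩
    rw [hg] at h3
    exact h3
  · rw [← hv x, hg]
    rfl

end Cfsg.Agent.S5107
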