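import Cfsg.Statements.S5112
import Cfsg.Agent.Lib.Fusion.NormalSub
import Cfsg.Agent.Lib.Fusion.Closed
import Mathlib

set_option autoImplicit false
open Cfsg

namespace Cfsg.Agent.S5112

open Cfsg.Agent.Lib.Fusion Cfsg.FusionSystem


/-- Automorphisms of a `2`-group with a characteristic cyclic subgroup of index two are `2`-elements. -/
theorem aut_two_elt {G : Type*} [Group G] [Finite G] (hG : IsPGroup 2 G) (C : Subgroup G) (hcy : IsCyclic C)
    (hchar : ∀ γ : MulAut G, ∀ x ∈ C, γ x ∈ C) (hidx : ∀ x y, x ∉ C → y ∉ C → x⁻¹ * y ∈ C) (γ : MulAut G) :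
    ∃ N : ℕ, γ ^ (2 ^ N) = 1 := by
  haveI : Fact (Nat.Prime 2) := ⟨Nat.prime_two⟩
  have hCfin : Finite C := inferInstance
  -- restriction to `C`
  have hres : ∀ γ : MulAut G, ∃ γ' : MulAut C, ∀ x : C, (γ' x : G) = γ x := by
    intro γ
    let f : C →* C :=
      { toFun := fun x => ⟨γ x, hchar γ x x.2⟩
        map_one' := by apply Subtype.ext; simp
        map_mul' := fun a b => by apply Subtype.ext; simp }
    have hinj : Function.Injective f := fun a b hab =>
      Subtype.ext (γ.injective (congrArg Subtype.val hab))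
    exact ⟨MulEquiv.ofBijective f ⟨hinj, Finite.injective_iff_surjective.1 hinj⟩, fun x => rfl⟩
  obtain ⟨γ', hγ'⟩ := hres γ
  obtain ⟨a, ha⟩ := IsPGroup.iff_card.1 (hG.to_subgroup C)
  have hcard : Nat.card (MulAut C) ∣ 2 ^ a := by
    rw [IsCyclic.card_mulAut, ha]
    rcases Nat.eq_zero_or_pos a with rfl | hpos
    · simp
    · rw [Nat.totient_prime_pow Nat.prime_two hpos]
      simp only [Nat.add_one_sub_one, pow_one, mul_one]
      exact pow_dvd_pow 2 (Nat.sub_le a 1)
  have hpow : γ' ^ (2 ^ a) = 1 := by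
    obtain ⟨k, hk⟩ := hcard
    have : Finite (MulAut C) := Fintype.finite (Fintype.ofFinite _) 
    rw [hk, pow_mul, pow_card_eq_one', one_pow]
  have hfix : ∀ x ∈ C, (γ ^ (2 ^ a)) x = x := by
    intro x hx
    have h1 : ∀ n : ℕ, ((γ' ^ n) ⟨x, hx⟩ : G) = (γ ^ n) x := by
      intro n
      induction n with
      | zero => simp
      | succ n ih =>
        rw [pow_succ', pow_succ', MulAut.mul_apply, MulAut.mul_apply, hγ', ih]
    rw [← h1, hpow]
    simp
  obtain ⟨N, hN⟩ := Cfsg.Agent.Lib.Fusion.pow_fix_step (p := 2) hG γ (A := C) (B := ⊤) le_top (fun x _ => by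
    by_cases hx : x ∈ C
    · exact C.mul_mem (C.inv_mem hx) (hchar γ x hx)
    · refine hidx x (γ x) hx fun hy => hx ?_
      have hsym := hchar γ⁻¹ _ hy
      simpa using hsym) (N := a) hfix
  refine ⟨N, ?_⟩
  ext x
  simpa using hN x (Subgroup.mem_top x)

theorem aut_dihedral_two {m : ℕ} (hm : m = 2 ^ (Nat.log 2 m)) (hm8 : 8 ≤ m) (γ : MulAut (DihedralGroup m)) :
    ∃ N : ℕ, γ ^ (2 ^ N) = 1 := by
  haveI : NeZero m := ⟨by omega⟩
  have hG : IsPGroup 2 (DihedralGroup m) := by
    refine IsPGroup.iff_card.2 ⟨Nat.log 2 m + 1, ?_⟩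
    rw [DihedralGroup.nat_card, pow_succ, ← hm, mul_comm]
  let C : Subgroup (DihedralGroup m) := Subgroup.zpowers (DihedralGroup.r 1)
  have hrC : ∀ i : ZMod m, DihedralGroup.r i ∈ C := by
    intro i
    refine Subgroup.mem_zpowers_iff.2 ⟨(i.val : ℤ), ?_⟩
    rw [DihedralGroup.r_one_zpow]
    simp
  have hsrC : ∀ i : ZMod m, DihedralGroup.sr i ∉ C := by
    rintro i ⟨k, hk⟩
    simp only [DihedralGroup.r_one_zpow] at hk
    exact absurd hk (by simp)
  refine aut_two_elt hG C (by infer_instance) ?_ ?_ γ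
  · intro γ x hx
    have h1 : γ (DihedralGroup.r 1) ∈ C := by
      rcases h : γ (DihedralGroup.r 1) with i | i
      · exact hrC i
      · have h2 := MulEquiv.orderOf_eq γ (DihedralGroup.r 1)
        rw [h, DihedralGroup.orderOf_sr, DihedralGroup.orderOf_r_one] at h2
        omega
    obtain ⟨k, rfl⟩ := hx
    show γ (DihedralGroup.r 1 ^ k) ∈ C
    rw [map_zpow]
    exact C.zpow_mem h1 k
  · intro x y hx hy
    rcases x with i | i
    · exact absurd (hrC i) hx
    rcases y with j | j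
    · exact absurd (hrC j) hy
    rw [DihedralGroup.inv_sr, DihedralGroup.sr_mul_sr]
    exact hrC _

theorem aut_quaternion_two {m : ℕ} (hm : m = 2 ^ (Nat.log 2 m)) (hm8 : 4 ≤ m) (γ : MulAut (QuaternionGroup m)) :
    ∃ N : ℕ, γ ^ (2 ^ N) = 1 := by
  haveI : NeZero m := ⟨by omega⟩
  haveI : Finite (QuaternionGroup m) := inferInstance
  have hG : IsPGroup 2 (QuaternionGroup m) := by
    refine IsPGroup.iff_card.2 ⟨Nat.log 2 m + 2, ?_⟩
    rw [Nat.card_eq_fintype_card, QuaternionGroup.card, pow_add, ← hm, mul_comm]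
    norm_num
  let C : Subgroup (QuaternionGroup m) := Subgroup.zpowers (QuaternionGroup.a 1)
  have hrC : ∀ i : ZMod (2 * m), QuaternionGroup.a i ∈ C := by
    intro i
    refine Subgroup.mem_zpowers_iff.2 ⟨(i.val : ℕ), ?_⟩
    rw [zpow_natCast, QuaternionGroup.a_one_pow]
    simp
  have hsrC : ∀ i : ZMod (2 * m), QuaternionGroup.xa i ∉ C := by
    rintro i ⟨k, hk⟩
    have h1 := hrC 0
    have : ∀ k : ℤ, ∃ j, (QuaternionGroup.a 1 : QuaternionGroup m) ^ k = QuaternionGroup.a j := by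
      intro k
      induction k using Int.induction_on with
      | zero => exact ⟨0, by simp⟩
      | succ n ih =>
        obtain ⟨j, hj⟩ := ih
        exact ⟨j + 1, by rw [zpow_add, zpow_one, hj, QuaternionGroup.a_mul_a]⟩
      | pred n ih =>
        obtain ⟨j, hj⟩ := ih
        exact ⟨j - 1, by
          rw [zpow_sub, zpow_one, hj, show (QuaternionGroup.a 1 : QuaternionGroup m)⁻¹ = QuaternionGroup.a (-1) from rfl,
            QuaternionGroup.a_mul_a, sub_eq_add_neg]⟩
    obtain ⟨j, hj⟩ := this k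
    have hk' : (QuaternionGroup.a 1 : QuaternionGroup m) ^ k = QuaternionGroup.xa i := hk
    rw [hj] at hk'
    exact absurd hk' (by simp)
  refine aut_two_elt hG C (by infer_instance) ?_ ?_ γ
  · intro γ x hx
    have h1 : γ (QuaternionGroup.a 1) ∈ C := by
      rcases h : γ (QuaternionGroup.a 1) with i | i
      · exact hrC i
      · have h2 := MulEquiv.orderOf_eq γ (QuaternionGroup.a 1)
        rw [h, QuaternionGroup.orderOf_xa, QuaternionGroup.orderOf_a_one] at h2
        omega
    obtain ⟨k, rfl⟩ := hx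
    show γ (QuaternionGroup.a 1 ^ k) ∈ C
    rw [map_zpow]
    exact C.zpow_mem h1 k
  · intro x y hx hy
    rcases x with i | i
    · exact absurd (hrC i) hx
    rcases y with j | j
    · exact absurd (hrC j) hy
    rw [show (QuaternionGroup.xa i : QuaternionGroup m)⁻¹ = QuaternionGroup.xa ((m : ZMod (2 * m)) + i) from rfl, QuaternionGroup.xa_mul_xa]
    exact hrC _


/-- If S is a dihedral or generalized quaternion 2-group of order at least 16, then in every saturated fusion system over S (at the prime 2) the automorphism group Aut_F(S) consists of the inner automorphisms of S. -/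
theorem result {Ω : Type*} [Group Ω] {S : Subgroup Ω} [Finite S] (n : ℕ) (hn : 4 ≤ n) (hshape : Nonempty (S ≃* DihedralGroup (2 ^ (n - 1))) ∨ Nonempty (S ≃* QuaternionGroup (2 ^ (n - 2)))) (F : Cfsg.FusionSystem S) (hF : F.IsSaturated 2) : F.autGroup S = Cfsg.Inn S := by
  haveI : Fact (Nat.Prime 2) := ⟨Nat.prime_two⟩
  -- every automorphism of `S` is a `2`-element
  have h2 : ∀ α : MulAut S, ∃ N : ℕ, α ^ (2 ^ N) = 1 := by
    intro α
    rcases hshape with ⟨⟨e⟩⟩ | ⟨⟨e⟩⟩
    · have hm : 2 ^ (n - 1) = 2 ^ Nat.log 2 (2 ^ (n - 1)) := by rw [Nat.log_pow (by norm_num)]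
      have hm8 : 8 ≤ 2 ^ (n - 1) := by
        calc 8 = 2 ^ 3 := by norm_num
          _ ≤ 2 ^ (n - 1) := Nat.pow_le_pow_right (by norm_num) (by omega)
      obtain ⟨N, hN⟩ := aut_dihedral_two hm hm8 (autTransport e α)
      refine ⟨N, (autTransport e).injective ?_⟩
      rw [map_pow, hN, map_one]
    · have hm : 2 ^ (n - 2) = 2 ^ Nat.log 2 (2 ^ (n - 2)) := by rw [Nat.log_pow (by norm_num)]
      have hm8 : 4 ≤ 2 ^ (n - 2) := by
        calc 4 = 2 ^ 2 := by norm_num
          _ ≤ 2 ^ (n - 2) := Nat.pow_le_pow_right (by norm_num) (by omega)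
      obtain ⟨N, hN⟩ := aut_quaternion_two hm hm8 (autTransport e α)
      refine ⟨N, (autTransport e).injective ?_⟩
      rw [map_pow, hN, map_one]
  have hSp : IsPGroup 2 S := by
    rcases hshape with ⟨⟨e⟩⟩ | ⟨⟨e⟩⟩
    · refine IsPGroup.iff_card.2 ⟨n, ?_⟩
      have : NeZero (2 ^ (n - 1)) := ⟨by positivity⟩
      rw [Nat.card_congr e.toEquiv, DihedralGroup.nat_card]
      rw [← pow_succ']
      congr 1
      omega
    · refine IsPGroup.iff_card.2 ⟨n, ?_⟩
      have : NeZero (2 ^ (n - 2)) := ⟨by positivity⟩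
      rw [Nat.card_congr e.toEquiv, Nat.card_eq_fintype_card, QuaternionGroup.card]
      rw [show 4 = 2 ^ 2 by norm_num, ← pow_add]
      congr 1
      omega
  have hfa := IsSat.fullyAutomized_of_fullyNormalized hSp hF (isFullyNormalized_top (F := F))
  obtain ⟨-, U, hU⟩ := hfa
  apply le_antisymm
  · intro α hα
    -- `Aut_F(S)` is a `2`-group
    have hp : IsPGroup 2 (F.autGroup S) := by
      rintro ⟨a, ha⟩
      obtain ⟨N, hN⟩ := h2 a
      exact ⟨N, Subtype.ext hN⟩
    have htop := U.is_maximal' (Q := ⊤) (hp.to_subgroup ⊤) le_top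
    have hm : (⟨α, hα⟩ : F.autGroup S) ∈ (U : Subgroup (F.autGroup S)) := by
      rw [← htop]
      trivial
    rw [hU] at hm
    have h3 : α ∈ autInducedBy S S := Subgroup.mem_subgroupOf.1 hm
    obtain ⟨g, hg, hv⟩ := mem_autInducedBy_iff.1 h3
    refine ⟨⟨g, hg⟩, ?_⟩
    ext x
    exact (hv x).symm
  · exact inn_le_autGroup F le_rfl

end Cfsg.Agent.S5112
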