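import Cfsg.Statements.S5122
import Cfsg.Agent.Lib.Fusion.Group
import Mathlib

set_option autoImplicit false
open Cfsg

namespace Cfsg.Agent.S5122

open Cfsg.Agent.Lib.Fusion Cfsg.FusionSystem


/-- Let G be a finite group with Sylow p-subgroup S. Every subgroup P of S has a G-conjugate Q ≤ S such that N_S(Q) is a Sylow p-subgroup of N_G(Q); and for any Q ≤ S with that property, C_S(Q) is a Sylow p-subgroup of C_G(Q) and the automorphisms of Q induced by N_S(Q) form a Sylow p-subgroup of those induced by N_G(Q). -/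
theorem result {G : Type*} [Group G] [Finite G] (p : ℕ) [Fact p.Prime] (S : Sylow p G) : (∀ P : Subgroup G, P ≤ S → ∃ g : G, P.map (MulAut.conj g).toMonoidHom ≤ S ∧ (∃ R : Sylow p ↥(Subgroup.normalizer ((P.map (MulAut.conj g).toMonoidHom : Subgroup G) : Set G)), (R : Subgroup ↥(Subgroup.normalizer ((P.map (MulAut.conj g).toMonoidHom : Subgroup G) : Set G))) = (Cfsg.FusionSystem.normalizerIn (S : Subgroup G) (P.map (MulAut.conj g).toMonoidHom)).subgroupOf (Subgroup.normalizer ((P.map (MulAut.conj g).toMonoidHom : Subgroup G) : Set G)))) ∧ ∀ Q : Subgroup G, Q ≤ S → (∃ R : Sylow p ↥(Subgroup.normalizer (Q : Set G)), (R : Subgroup ↥(Subgroup.normalizer (Q : Set G))) = (Cfsg.FusionSystem.normalizerIn (S : Subgroup G) Q).subgroupOf (Subgroup.normalizer (Q : Set G))) → (∃ R : Sylow p ↥(Subgroup.centralizer (Q : Set G)), (R : Subgroup ↥(Subgroup.centralizer (Q : Set G))) = (Cfsg.FusionSystem.centralizerIn (S : Subgroup G) Q).subgroupOf (Subgroup.centralizer (Q : Set G))) ∧ (∃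 R : Sylow p ↥(Cfsg.autInducedBy ⊤ Q), (R : Subgroup ↥(Cfsg.autInducedBy ⊤ Q)) = (Cfsg.autInducedBy (S : Subgroup G) Q).subgroupOf (Cfsg.autInducedBy ⊤ Q)) := by
  have hsyl := isSylowIn_of_sylow S
  have hN : ∀ Q : Subgroup G, normalizerIn ⊤ Q = Subgroup.normalizer (Q : Set G) := fun Q => top_inf_eq _
  have hC : ∀ Q : Subgroup G, centralizerIn ⊤ Q = Subgroup.centralizer (Q : Set G) := fun Q => top_inf_eq _
  constructor
  · intro P hP
    have : Finite (S : Subgroup G) := inferInstance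
    obtain ⟨Q, hQ, hQn⟩ := exists_fullyNormalized_conj (F := fusionSystemOfSubgroup ⊤ (S : Subgroup G) le_top) hP
    obtain ⟨-, hQS, g, -, rfl⟩ := (isConj_fH_iff le_top).1 hQ
    refine ⟨g, hQS, ?_⟩
    have h1 := (isFullyNormalized_fH_iff le_top hsyl hQS).1 hQn
    rw [hN] at h1
    exact h1
  · intro Q hQ h
    have h' : IsSylowIn p (normalizerIn (S : Subgroup G) Q) (normalizerIn ⊤ Q) := by
      rw [hN]; exact h
    have h1 := sylow_centralizer_of_sylow_normalizer (le_top : (S : Subgroup G) ≤ ⊤) h'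
    rw [hC] at h1
    exact ⟨h1, sylow_automizer_of_sylow_normalizer le_top hQ h'⟩

end Cfsg.Agent.S5122
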