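import Cfsg.Statements.S5123
import Cfsg.Agent.Lib.Fusion.Group
import Mathlib

set_option autoImplicit false
open Cfsg

namespace Cfsg.Agent.S5123

open Cfsg.Agent.Lib.Fusion Cfsg.FusionSystem


/-- Let G be a finite group with Sylow p-subgroup S, P, Q ≤ S and g ∈ G with gPg⁻¹ = Q, and suppose N_S(Q) is a Sylow p-subgroup of N_G(Q). Let N be the set of x ∈ N_S(P) with gxg⁻¹ ∈ N_S(Q)C_G(Q). Then some h ∈ C_G(Q) satisfies (hg)N(hg)⁻¹ ≤ S. -/
theorem result {G : Type*} [Group G] [Finite G] (p : ℕ) [Fact p.Prime] (S : Sylow p G) (P Q : Subgroup G) (hP : P ≤ S) (hQ : Q ≤ S) (g : G) (hg : P.map (MulAut.conj g).toMonoidHom = Q) (hN : (∃ R : Sylow p ↥(Subgroup.normalizer (Q : Set G)), (R : Subgroup ↥(Subgroup.normalizer (Q : Set G))) = (Cfsg.FusionSystem.normalizerIn (S : Subgroup G) Q).subgroupOf (Subgroup.normalizer (Q : Set G)))) : ∃ h ∈ Subgroup.centralizer (Q : Set G), ((Cfsg.FusionSystem.normalizerIn (S : Subgroup G) P) ⊓ (Cfsg.FusionSystem.normalizerIn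 (S : Subgroup G) Q ⊔ Subgroup.centralizer (Q : Set G)).comap (MulAut.conj g).toMonoidHom).map (MulAut.conj (h * g)).toMonoidHom ≤ S := by
  have hN₀ : normalizerIn ⊤ Q = Subgroup.normalizer (Q : Set G) := top_inf_eq _
  have h' : IsSylowIn p (normalizerIn (S : Subgroup G) Q) (normalizerIn ⊤ Q) := by
    rw [hN₀]; exact hN
  set N := (normalizerIn (S : Subgroup G) P ⊓ (normalizerIn (S : Subgroup G) Q ⊔ Subgroup.centralizer (Q : Set G)).comap (MulAut.conj g).toMonoidHom) with hNdef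
  have hNS : N ≤ (S : Subgroup G) := inf_le_left.trans (normalizerIn_le P)
  have hWp : IsPGroup p (conjSub g N) := (S.isPGroup'.to_le hNS).map _
  have hYle : normalizerIn (S : Subgroup G) Q ⊔ Subgroup.centralizer (Q : Set G) ≤ automizerPreimage ⊤ Q (autInducedBy (S : Subgroup G) Q) := by
    refine sup_le (fun x hx => ⟨trivial, hx.2, conjAut_mem hx.1 hx.2⟩) (fun c hc => ?_)
    have hcN := centralizer_le_normalizer Q hc
    refine ⟨trivial, hcN, mem_autInducedBy_iff.2 ⟨1, Subgroup.one_mem _, fun y => ?_⟩⟩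
    show c * (y : G) * c⁻¹ = 1 * y * 1⁻¹
    rw [← (Subgroup.mem_centralizer_iff.1 hc) y y.2]
    simp
  have hWY : conjSub g N ≤ automizerPreimage ⊤ Q (autInducedBy (S : Subgroup G) Q) := by
    rintro _ ⟨x, hx, rfl⟩
    exact hYle hx.2
  obtain ⟨c, hc, hcv⟩ := exists_centralizing_conj (le_top : (S : Subgroup G) ≤ ⊤) hQ h' hWp hWY
  refine ⟨c, hc.2, ?_⟩
  rintro _ ⟨x, hx, rfl⟩
  have := hcv _ (conj_mem_conjSub (g := g) hx)
  show c * g * x * (c * g)⁻¹ ∈ (S : Subgroup G)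
  have e : c * g * x * (c * g)⁻¹ = c * (g * x * g⁻¹) * c⁻¹ := by group
  rw [e]
  exact this

end Cfsg.Agent.S5123
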