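import Cfsg.Statements.S5133
import Cfsg.Agent.Lib.Fusion.FactorSat
import Mathlib

set_option autoImplicit false
open Cfsg

namespace Cfsg.Agent.S5133

open Cfsg.Agent.Lib.Fusion Cfsg.FusionSystem


/-- Let F be a saturated fusion system over a finite p-group S, F' a fusion system over S', and α : S → S' a surjective morphism of fusion systems from F to F' (α maps S onto S' and every map of F' with source P' ≤ S' is induced along α by a map of F on the full preimage of P'). Then F' is saturated. -/
theorem result {Ω : Type*} [Group Ω] {S : Subgroup Ω} [Finite S] (p : ℕ) [Fact p.Prime] (hS : IsPGroup p S) (F : Cfsg.FusionSystem S) (hF : F.IsSaturated p) {Ω' : Type*} [Group Ω'] {S' : Subgroup Ω'} (F' : Cfsg.FusionSystem S') (α : S →* Ω') (hα : F.IsSurjectiveMorphism F' α) : F'.IsSaturated p := by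
  exact isSaturated_of_surjective hS hF hα

end Cfsg.Agent.S5133
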