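import Cfsg.Statements.S5139
import Mathlib
import Cfsg.Agent.Lib.Fusion.ResidualUniq
import Cfsg.Agent.S5093

set_option autoImplicit false
open Cfsg

namespace Cfsg.Agent.S5139

open Cfsg.Agent.Lib.Fusion Cfsg.FusionSystem in
theorem aux {G : Type*} [Group G] [Finite G] (p : ℕ) [Fact p.Prime] (S : Sylow p G) (E : Cfsg.FusionSystem ((Cfsg.groupFusionSystem (S : Subgroup G)).hyperfocalSubgroup p)) (hE : (Cfsg.groupFusionSystem (S : Subgroup G)).IsPResidual p E) (hT0 : (Cfsg.groupFusionSystem (S : Subgroup G)).hyperfocalSubgroup p = (S : Subgroup G) ⊓ Cfsg.pResidual p G) (P : Subgroup G) (hTH : (Cfsg.groupFusionSystem (S : Subgroup G)).hyperfocalSubgroup p ≤ Cfsg.pResidual p G) : E.Hom P = (Cfsg.fusionSystemOfSubgroup (Cfsg.pResidual p G) ((Cfsg.groupFusionSystem (S : Subgroup G)).hyperfocalSubgroup p) hTH).Hom P := by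
  have hTS : (Cfsg.groupFusionSystem (S : Subgroup G)).hyperfocalSubgroup p ≤ (S : Subgroup G) := by
    rw [hT0]; exact inf_le_left
  have : Finite ((Cfsg.groupFusionSystem (S : Subgroup G)).hyperfocalSubgroup p : Subgroup G) := inferInstance
  have hTp : IsPGroup p ((Cfsg.groupFusionSystem (S : Subgroup G)).hyperfocalSubgroup p : Subgroup G) := S.isPGroup'.to_le hTS
  have hsat := residual_fH_sat S hT0 hTH
  have hsub := residual_fH_sub S hTS hTH
  exact hom_eq_of_residual hTp hE.1 hsat (autGroup_le_of_subsystem hE.2.1 hTS)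
    (autGroup_le_of_subsystem hsub hTS)
    (fun P hP => hE.2.2.2 P hP) (fun P hP => residual_le_autGroup_fH hTS hTH P hP) P

/-- Let G be a finite group with Sylow p-subgroup S and O^p(G) the subgroup generated by the elements of order prime to p. Then the p-residual subsystem of the fusion system of G on S — the saturated subsystem of p-power index over the hyperfocal subgroup — is the fusion system of O^p(G) on S ∩ O^p(G): its maps are exactly the conjugation maps by elements of O^p(G) between subgroups of S ∩ O^p(G). -/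
theorem result {G : Type*} [Group G] [Finite G] (p : ℕ) [Fact p.Prime] (S : Sylow p G) (E : Cfsg.FusionSystem ((Cfsg.groupFusionSystem (S : Subgroup G)).hyperfocalSubgroup p)) (hE : (Cfsg.groupFusionSystem (S : Subgroup G)).IsPResidual p E) : ∃ h : (S : Subgroup G) ⊓ Cfsg.pResidual p G ≤ Cfsg.pResidual p G, ∀ P : Subgroup G, E.Hom P = (Cfsg.fusionSystemOfSubgroup (Cfsg.pResidual p G) ((S : Subgroup G) ⊓ Cfsg.pResidual p G) h).Hom P := by

  have hT0 := Cfsg.Agent.S5093.result p S
  have hTH : (Cfsg.groupFusionSystem (S : Subgroup G)).hyperfocalSubgroup p ≤ Cfsg.pResidual p G := by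
    rw [hT0]; exact inf_le_right
  refine ⟨inf_le_right, fun P => ?_⟩
  rw [aux p S E hE hT0 P hTH]
  exact Cfsg.Agent.Lib.Fusion.fH_hom_congr hT0 hTH inf_le_right P

end Cfsg.Agent.S5139
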