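import Cfsg.Statements.S5345
import Cfsg.Agent.Lib.ThreeT.Basic
import Cfsg.Agent.Lib.ThreeT.Elem
import Mathlib

set_option autoImplicit false
open Cfsg

namespace Cfsg.Agent.S5345

open Cfsg.Agent.Lib.ThreeT

/-- Members of `D` in a Sylow 2-subgroup commute. -/
theorem comm_in_sylow {G : Type*} [Group G] [Finite G] {D : Set G}
    (hS : Cfsg.IsThreeTranspositionSet D) (T : Sylow 2 G) {a b : G} (ha : a ∈ D) (haT : a ∈ T)
    (hb : b ∈ D) (hbT : b ∈ T) : a * b = b * a := by
  have haa := mul_self_of_mem hS ha
  have hbb := mul_self_of_mem hS hb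
  rcases hS.2 a ha b hb with h | h
  · exact commute_of_mul_sq haa hbb h
  · obtain ⟨k, hk⟩ := T.isPGroup' ⟨a * b, T.mul_mem haT hbT⟩
    have hk' : (a * b) ^ (2 ^ k) = 1 := by simpa [Subtype.ext_iff] using hk
    have hc : Nat.gcd 3 (2 ^ k) = 1 := by
      apply Nat.Coprime.pow_right
      norm_num
    have h1 := (pow_gcd_eq_one (a := a * b)).2 ⟨h, hk'⟩
    rw [hc, pow_one] at h1
    have h2 : a = b⁻¹ := eq_inv_of_mul_eq_one_left h1
    rw [inv_of_mem hS hb] at h2
    rw [h2]

/-- Let D be a conjugation-invariant generating set of 3-transpositions of a finite group G and T a Sylow 2-subgroup of G. Then the members of D lying in T generate an abelian subgroup, and their number is the width of D (the largest number of pairwise commuting members of D). -/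
theorem result {G : Type*} [Group G] [Finite G] {D : Set G} (hD : Cfsg.IsThreeTranspositionGroup D) (T : Sylow 2 G) : IsMulCommutative (Subgroup.closure {d : G | d ∈ D ∧ d ∈ T}) ∧ {d : G | d ∈ D ∧ d ∈ T}.ncard = Cfsg.commutingWidth D := by
  have hS := hD.1
  have : Fact (Nat.Prime 2) := ⟨Nat.prime_two⟩
  constructor
  · apply IsMulCommutative.of_setLike_mul_comm
    intro a ha b hb
    refine closure_comm ?_ a ha b hb
    intro x hx y hy
    exact comm_in_sylow hS T hx.1 hx.2 hy.1 hy.2
  · symm
    apply IsGreatest.csSup_eq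
    constructor
    · refine ⟨{d : G | d ∈ D ∧ d ∈ T}, fun x hx => hx.1, Set.toFinite _, ?_, rfl⟩
      intro a ha b hb
      exact comm_in_sylow hS T ha.1 ha.2 hb.1 hb.2
    · rintro n ⟨E, hED, -, hEc, rfl⟩
      -- closure E is a 2-group
      have hsq : ∀ x ∈ Subgroup.closure E, x ^ 2 = 1 := by
        intro x hx
        induction hx using Subgroup.closure_induction with
        | mem x hx => rw [pow_two]; exact mul_self_of_mem hS (hED hx)
        | one => simp
        | mul x y hx hy ihx ihy =>
          have hxy : x * y = y * x := closure_comm (fun a ha b hb => hEc a ha b hb) x hx y hy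
          rw [(show Commute x y from hxy).mul_pow, ihx, ihy, one_mul]
        | inv x hx ih => rw [inv_pow, ih, inv_one]
      have hp : IsPGroup 2 (Subgroup.closure E) := by
        intro x
        refine ⟨1, ?_⟩
        ext
        simpa using hsq x x.2
      obtain ⟨T', hT'⟩ := hp.exists_le_sylow
      obtain ⟨g, hg⟩ := MulAction.exists_smul_eq G T' T
      apply Set.ncard_le_ncard_of_injOn (fun x => g * x * g⁻¹)
      · intro x hx
        refine ⟨hD.2.1 g x (hED hx), ?_⟩
        rw [← hg]
        have hxT : x ∈ T' := hT' (Subgroup.subset_closure hx)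
        show g * x * g⁻¹ ∈ ((g • T' : Sylow 2 G) : Subgroup G)
        rw [Sylow.coe_subgroup_smul, Subgroup.mem_smul_pointwise_iff_exists]
        exact ⟨x, hxT, by simp [MulAut.smul_def]⟩
      · intro x _ y _ h
        have h' : g * x * g⁻¹ = g * y * g⁻¹ := h
        simpa using h'

end Cfsg.Agent.S5345
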