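import Cfsg.Statements.S5346
import Cfsg.Agent.Lib.ThreeT.Classes

set_option autoImplicit false
open Cfsg

namespace Cfsg.Agent.S5346

/-- Let D be a conjugation-invariant generating set of 3-transpositions of a finite group G and d a member of D. Then D has width 1 (no two different members of D commute) if and only if G is the product of the subgroup generated by d with the largest normal 3-subgroup of G. -/
theorem result {G : Type*} [Group G] [Finite G] {D : Set G} (hD : Cfsg.IsThreeTranspositionGroup D) {d : G} (hd : d ∈ D) : Cfsg.commutingWidth D = 1 ↔ Subgroup.zpowers d ⊔ Cfsg.pCore 3 G = ⊤ := by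
  have : Fact (Nat.Prime 3) := ⟨Nat.prime_three⟩
  have hT := hD.1
  have hc := hD.2.1
  have hno2 := Cfsg.Agent.Lib.ThreeT.no2_of_isPGroup3 (Cfsg.Agent.Lib.Core.pCore_isPGroup 3 G)
  have hn : (Cfsg.pCore 3 G).Normal := Cfsg.Agent.Lib.Core.pCore_normal 3 G
  have hw : Cfsg.commutingWidth D = 1 ↔ ∀ a ∈ D, ∀ b ∈ D, Commute a b → a = b := by
    have hbdd : BddAbove {n : ℕ | ∃ E : Set G, E ⊆ D ∧ E.Finite ∧ (∀ a ∈ E, ∀ b ∈ E, Commute a b) ∧ E.ncard = n} := by
      refine ⟨Nat.card G, ?_⟩
      rintro n ⟨E, -, -, -, rfl⟩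
      rw [← Set.ncard_univ]
      exact Set.ncard_le_ncard (Set.subset_univ _) (Set.toFinite _)
    constructor
    · intro h a ha b hb hab
      by_contra hne
      have h2 : 2 ∈ {n : ℕ | ∃ E : Set G, E ⊆ D ∧ E.Finite ∧ (∀ a ∈ E, ∀ b ∈ E, Commute a b) ∧ E.ncard = n} := by
        refine ⟨{a, b}, ?_, Set.toFinite _, ?_, Set.ncard_pair hne⟩
        · rintro x (rfl | rfl)
          · exact ha
          · exact hb
        · rintro x (rfl | rfl) y (rfl | rfl)
          · exact Commute.refl _
          · exact hab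
          · exact hab.symm
          · exact Commute.refl _
      have h3 := le_csSup hbdd h2
      rw [show sSup _ = Cfsg.commutingWidth D from rfl, h] at h3
      omega
    · intro h
      have hg : IsGreatest {n : ℕ | ∃ E : Set G, E ⊆ D ∧ E.Finite ∧ (∀ a ∈ E, ∀ b ∈ E, Commute a b) ∧ E.ncard = n} 1 := by
        constructor
        · refine ⟨{d}, ?_, Set.toFinite _, ?_, Set.ncard_singleton _⟩
          · rintro x rfl
            exact hd
          · rintro x rfl y rfl
            exact Commute.refl _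
        · rintro n ⟨E, hE, -, hcomm, rfl⟩
          rw [Set.ncard_le_one_iff_subsingleton]
          intro x hx y hy
          exact h x (hE hx) y (hE hy) (hcomm x hx y hy)
      exact hg.csSup_eq
  rw [hw]
  constructor
  · intro hw
    have hconj : ∀ a ∈ conjugatesOf d, a ∈ D := by
      intro a ha
      obtain ⟨g, rfl⟩ := isConj_iff.1 (show IsConj d a from ha)
      exact hc g d hd
    have hprod : ∀ a ∈ conjugatesOf d, ∀ b ∈ conjugatesOf d, ∃ k : ℕ, orderOf (a * b) = 3 ^ k := by
      intro a ha b hb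
      by_cases h : Commute a b
      · have h1 := hw a (hconj a ha) b (hconj b hb) h
        subst h1
        exact ⟨0, by rw [pow_zero, orderOf_eq_one_iff]; exact Cfsg.Agent.Lib.ThreeT.mul_self_of_mem hT (hconj a ha)⟩
      · exact ⟨1, by rw [pow_one]; exact Cfsg.Agent.Lib.ThreeT.orderOf_mul_of_not_commute hT (hconj a ha) (hconj b hb) h⟩
    have hmem := Cfsg.Agent.Lib.ZStar.prod_conj_mem_pCore Nat.prime_three (by norm_num) d (hT.1 d hd) hprod
    rw [eq_top_iff, ← hD.2.2, Subgroup.closure_le]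
    intro a ha
    have hda : a ∈ conjugatesOf d := by
      by_cases h : Commute d a
      · rw [← hw d hd a ha h]
        exact IsConj.refl _
      · exact isConj_iff.2 ⟨d * a, Cfsg.Agent.Lib.ThreeT.conj_of_not_commute hT hd ha h⟩
    have h1 := hmem d (IsConj.refl _) a hda
    have h2 : a = d * (d * a) := by
      rw [← mul_assoc, Cfsg.Agent.Lib.ThreeT.mul_self_of_mem hT hd, one_mul]
    rw [h2]
    exact mul_mem ((le_sup_left : Subgroup.zpowers d ≤ _) (Subgroup.mem_zpowers d)) ((le_sup_right : Cfsg.pCore 3 G ≤ _) h1)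
  · intro htop a ha b hb hab
    have hx : ∀ x ∈ D, d * x ∈ Cfsg.pCore 3 G := by
      intro x hxD
      have hmem : x ∈ ((Subgroup.zpowers d ⊔ Cfsg.pCore 3 G : Subgroup G) : Set G) := by
        rw [htop]; trivial
      rw [Subgroup.mul_normal] at hmem
      obtain ⟨y, hy, z, hz, rfl⟩ := Set.mem_mul.1 hmem
      obtain ⟨k, rfl⟩ := Subgroup.mem_zpowers_iff.1 hy
      have hdd := Cfsg.Agent.Lib.ThreeT.mul_self_of_mem hT hd
      have hdsq : d ^ (2 : ℤ) = 1 := by
        rw [show (2 : ℤ) = ((2 : ℕ) : ℤ) by norm_cast, zpow_natCast, pow_two, hdd]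
      rcases Int.even_or_odd' k with ⟨m, rfl | rfl⟩
      · exfalso
        rw [zpow_mul, hdsq, one_zpow, one_mul] at hxD
        have h2 := hno2 _ (show z ∈ Cfsg.pCore 3 G from hz) (by
          rw [pow_two]; exact Cfsg.Agent.Lib.ThreeT.mul_self_of_mem hT hxD)
        rw [h2] at hxD
        exact Cfsg.Agent.Lib.ThreeT.ne_one_of_mem hT hxD rfl
      · have : d * (d ^ (2 * m + 1) * z) = z := by
          rw [zpow_add, zpow_mul, hdsq, one_zpow, one_mul, zpow_one, ← mul_assoc, hdd, one_mul]
        rw [this]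
        exact hz
    have h1 : a * b ∈ Cfsg.pCore 3 G := by
      have e : a * b = (d * a)⁻¹ * (d * b) := by
        rw [mul_inv_rev, Cfsg.Agent.Lib.ThreeT.inv_of_mem hT ha, Cfsg.Agent.Lib.ThreeT.inv_of_mem hT hd]
        calc a * b = a * (d * d) * b := by rw [Cfsg.Agent.Lib.ThreeT.mul_self_of_mem hT hd, mul_one]
          _ = _ := by group
      rw [e]
      exact mul_mem (inv_mem (hx a ha)) (hx b hb)
    have h2 := hno2 _ h1 (Cfsg.Agent.Lib.ThreeT.mul_sq_of_commute (Cfsg.Agent.Lib.ThreeT.mul_self_of_mem hT ha) (Cfsg.Agent.Lib.ThreeT.mul_self_of_mem hT hb) hab)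
    have := eq_inv_of_mul_eq_one_left h2
    rwa [Cfsg.Agent.Lib.ThreeT.inv_of_mem hT hb] at this

end Cfsg.Agent.S5346
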