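import Cfsg.Statements.S5347
import Cfsg.Agent.Lib.ThreeT.Basic
import Mathlib

set_option autoImplicit false
open Cfsg

namespace Cfsg.Agent.S5347

/-- Let D be a conjugation-invariant generating set of 3-transpositions of a finite group G, p a prime bigger than 3, and P a p-subgroup of G. If a member d of D normalizes P then d centralizes P. -/
theorem result {G : Type*} [Group G] [Finite G] {D : Set G} (hD : Cfsg.IsThreeTranspositionGroup D) {p : ℕ} (hp : p.Prime) (hp3 : 3 < p) (P : Subgroup G) (hP : IsPGroup p P) {d : G} (hd : d ∈ D) (hnorm : d ∈ Subgroup.normalizer (P : Set G)) : ∀ x ∈ P, Commute d x := by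
  intro x hx
  have hS := hD.1
  have hdi := Lib.ThreeT.inv_of_mem hS hd
  have hdd := Lib.ThreeT.mul_self_of_mem hS hd
  have hc : x * d * x⁻¹ ∈ D := hD.2.1 x d hd
  have hdx : d * x * d⁻¹ ∈ P := (Subgroup.mem_normalizer_iff.1 hnorm x).1 hx
  have hy : d * (x * d * x⁻¹) ∈ P := by
    have : d * (x * d * x⁻¹) = d * x * d⁻¹ * x⁻¹ := by rw [hdi]; group
    rw [this]
    exact P.mul_mem hdx (P.inv_mem hx)
  obtain ⟨k, hk⟩ := hP ⟨_, hy⟩
  have hk' : (d * (x * d * x⁻¹)) ^ (p ^ k) = 1 := by
    simpa [Subtype.ext_iff] using hk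
  have h1 := Lib.ThreeT.eq_one_of_pow_prime hp hp3 hk' (hS.2 d hd _ hc)
  have h2 : x * d * x⁻¹ = d := by
    have := eq_inv_of_mul_eq_one_right h1
    rwa [hdi] at this
  have h3 : x * d = d * x := by
    calc x * d = x * d * x⁻¹ * x := by group
      _ = d * x := by rw [h2]
  exact h3.symm

end Cfsg.Agent.S5347
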