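import Cfsg.Statements.S5348
import Mathlib

set_option autoImplicit false
open Cfsg

namespace Cfsg.Agent.S5348

/-- Let D be a conjugation-invariant generating set of 3-transpositions of a finite group G and d a member of D. Let V be the set of members of D commuting with exactly the same members of D as d, and W the set of members w of D such that the members of D other than w commuting with w are precisely the members of D other than d commuting with d. Then V = {d} or W = {d}. -/
theorem result {G : Type*} [Group G] [Finite G] {D : Set G} (hD : Cfsg.IsThreeTranspositionGroup D) {d : G} (hd : d ∈ D) : {v : G | v ∈ D ∧ ∀ e ∈ D, Commute v e ↔ Commute d e} = {d} ∨ {w : G | w ∈ D ∧ {y : G | y ∈ D ∧ y ≠ d ∧ Commute d y} = {y : G | y ∈ D ∧ y ≠ w ∧ Commute w y}} = {d} := by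
  by_contra hcon
  push Not at hcon
  obtain ⟨h1, h2⟩ := hcon
  -- find v ≠ d in V
  have hV : ∃ v, v ∈ D ∧ v ≠ d ∧ ∀ e ∈ D, Commute v e ↔ Commute d e := by
    by_contra hno
    push Not at hno
    apply h1
    ext v
    simp only [Set.mem_ofPred_eq, Set.mem_singleton_iff]
    constructor
    · rintro ⟨hv, hv2⟩
      by_contra hne
      obtain ⟨e, he, hh⟩ := hno v hv hne
      have := hv2 e he
      tauto
    · rintro rfl
      exact ⟨hd, fun e _ => Iff.rfl⟩
  have hW : ∃ w, w ∈ D ∧ w ≠ d ∧ {y : G | y ∈ D ∧ y ≠ d ∧ Commute d y} = {y : G | y ∈ D ∧ y ≠ w ∧ Commute w y} := by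
    by_contra hno
    push Not at hno
    apply h2
    ext w
    simp only [Set.mem_ofPred_eq, Set.mem_singleton_iff]
    constructor
    · rintro ⟨hw, hw2⟩
      by_contra hne
      exact hno w hw hne hw2
    · rintro rfl
      exact ⟨hd, rfl⟩
  obtain ⟨v, hv, hvd, hv2⟩ := hV
  obtain ⟨w, hw, hwd, hw2⟩ := hW
  -- d and v commute
  have hdv : Commute d v := (hv2 v hv).1 (Commute.refl v)
  have hvmem : v ∈ {y : G | y ∈ D ∧ y ≠ d ∧ Commute d y} := ⟨hv, hvd, hdv⟩
  rw [hw2] at hvmem
  obtain ⟨-, hvw, hwv⟩ := hvmem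
  -- so d commutes with w
  have hdw : Commute d w := (hv2 w hw).1 hwv.symm
  have hwmem : w ∈ {y : G | y ∈ D ∧ y ≠ d ∧ Commute d y} := ⟨hw, hwd, hdw⟩
  rw [hw2] at hwmem
  exact hwmem.2.1 rfl

end Cfsg.Agent.S5348
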