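import Cfsg.Statements.S5350
import Cfsg.Agent.Lib.ThreeT.Classes

set_option autoImplicit false
open Cfsg

namespace Cfsg.Agent.S5350

/-- Let D be a conjugacy class of 3-transpositions generating the finite group G, with at least two members, and d a member of D. Then the set of members w of D whose commuting partners in D (other than w) are exactly those of d (other than d) coincides with the set of members of D lying in the coset of d modulo the largest normal 3-subgroup of G, and also with the orbit of d under conjugation by that normal 3-subgroup. -/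
theorem result {G : Type*} [Group G] [Finite G] {D : Set G} (hD : Cfsg.IsThreeTranspositionClass D) (hD2 : ∃ a ∈ D, ∃ b ∈ D, a ≠ b) {d : G} (hd : d ∈ D) : {w : G | w ∈ D ∧ {y : G | y ∈ D ∧ y ≠ d ∧ Commute d y} = {y : G | y ∈ D ∧ y ≠ w ∧ Commute w y}} = {w : G | w ∈ D ∧ d⁻¹ * w ∈ Cfsg.pCore 3 G} ∧ {w : G | w ∈ D ∧ {y : G | y ∈ D ∧ y ≠ d ∧ Commute d y} = {y : G | y ∈ D ∧ y ≠ w ∧ Commute w y}} = {w : G | ∃ g ∈ Cfsg.pCore 3 G, w = g * d * g⁻¹} := by
  have : Fact (Nat.Prime 3) := ⟨Nat.prime_three⟩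
  have hc := fun (g : G) (a : G) (ha : a ∈ D) => Cfsg.Agent.Lib.ThreeT.class_conj_mem hD g ha
  have hn : (Cfsg.pCore 3 G).Normal := Cfsg.Agent.Lib.Core.pCore_normal 3 G
  have hno2 := Cfsg.Agent.Lib.ThreeT.no2_of_isPGroup3 (Cfsg.Agent.Lib.Core.pCore_isPGroup 3 G)
  have hdi := Cfsg.Agent.Lib.ThreeT.inv_of_mem hD.1 hd
  have h1 : {w : G | w ∈ D ∧ {y : G | y ∈ D ∧ y ≠ d ∧ Commute d y} = {y : G | y ∈ D ∧ y ≠ w ∧ Commute w y}} = {w : G | w ∈ D ∧ d⁻¹ * w ∈ Cfsg.pCore 3 G} := by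
    ext v
    constructor
    · rintro ⟨hv, h⟩
      refine ⟨hv, ?_⟩
      rw [hdi]
      exact Cfsg.Agent.Lib.ThreeT.Wrel_mul_mem_pCore hD.1 hc hd hv h
    · rintro ⟨hv, h⟩
      rw [hdi] at h
      exact ⟨hv, Cfsg.Agent.Lib.ThreeT.Wrel_of_mul_mem hD.1 hn hno2 hd hv h⟩
  refine ⟨h1, ?_⟩
  rw [h1]
  ext v
  constructor
  · rintro ⟨hv, h⟩
    rw [hdi] at h
    obtain ⟨g, hg, rfl⟩ := Cfsg.Agent.Lib.ThreeT.Wrel_orbit hD.1 hno2 hd hv h
    exact ⟨g, hg, rfl⟩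
  · rintro ⟨g, hg, rfl⟩
    refine ⟨hc g d hd, ?_⟩
    rw [hdi]
    exact Cfsg.Agent.Lib.ThreeT.mul_mem_of_conj hD.1 hn hd hg

end Cfsg.Agent.S5350
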