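import Cfsg.Statements.S5352
import Cfsg.Agent.Lib.ThreeT.Prim

set_option autoImplicit false
open Cfsg

namespace Cfsg.Agent.S5352

/-- Let D be a conjugacy class of 3-transpositions generating the finite group G, with at least two members, and suppose the largest normal 2-subgroup and the largest normal 3-subgroup of G are both central. Then G has a quasisimple normal subgroup L such that the generalized Fitting subgroup of G is the product of L and the centre; and either L = G or the image of D in G/L has width 1, in the sense that two members of D whose commutator lies in L have the same image modulo L. -/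
theorem result {G : Type*} [Group G] [Finite G] {D : Set G} (hD : Cfsg.IsThreeTranspositionClass D) (hD2 : ∃ a ∈ D, ∃ b ∈ D, a ≠ b) (h2 : Cfsg.pCore 2 G ≤ Subgroup.center G) (h3 : Cfsg.pCore 3 G ≤ Subgroup.center G) : ∃ L : Subgroup G, L.Normal ∧ Cfsg.IsQuasisimple L ∧ Cfsg.generalizedFittingSubgroup G = L ⊔ Subgroup.center G ∧ (L = ⊤ ∨ ∀ a ∈ D, ∀ b ∈ D, a * b * a⁻¹ * b⁻¹ ∈ L → a⁻¹ * b ∈ L) := by
  obtain ⟨K, hK⟩ := Cfsg.Agent.Lib.ThreeT.exists_component hD hD2 h2 h3
  have hc := fun (g : G) (a : G) (ha : a ∈ D) => Cfsg.Agent.Lib.ThreeT.class_conj_mem hD g ha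
  have hKn := Cfsg.Agent.Lib.ThreeT.component_normal hD.1 hc hD.2.2 hK
  refine ⟨K, hKn, hK.2, ?_, Or.inr ?_⟩
  · rw [Cfsg.generalizedFittingSubgroup]
    have e1 : Cfsg.layer G = K :=
      le_antisymm (sSup_le fun K' hK' => (Cfsg.Agent.Lib.ThreeT.component_unique hD hK' hK).le)
        (Cfsg.Agent.Lib.FStar.component_le_layer hK)
    have e2 : Cfsg.fittingSubgroup G = Subgroup.center G :=
      le_antisymm (Cfsg.Agent.Lib.ThreeT.fitting_le_center hD h2 h3)
        Cfsg.Agent.Lib.ThreeT.center_le_fitting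
    rw [e1, e2]
  · intro a ha b hb h
    rw [Cfsg.Agent.Lib.ThreeT.inv_of_mem hD.1 ha]
    apply Cfsg.Agent.Lib.ThreeT.mul_mem_of_sq_mem hD hK hKn ha hb
    rw [Cfsg.Agent.Lib.ThreeT.inv_of_mem hD.1 ha, Cfsg.Agent.Lib.ThreeT.inv_of_mem hD.1 hb] at h
    rw [pow_two]
    have e : a * b * (a * b) = a * b * a * b := by group
    rw [e]
    exact h

end Cfsg.Agent.S5352
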