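import Cfsg.Statements.S5354
import Cfsg.Agent.Lib.ThreeT.Module

set_option autoImplicit false
open Cfsg

namespace Cfsg.Agent.S5354

/-- Let D be a conjugation-invariant generating set of 3-transpositions of the finite group G on which G acts primitively by conjugation, and suppose two different members of D commute (width at least 2). Then G has a quasisimple normal subgroup L of index at most 2 with the generalized Fitting subgroup of G equal to L times the centre, the commuting graph of D is connected, and for d in D the subgroup generated by the members of D commuting with d is a maximal D-subgroup: it is proper, and every subgroup generated by members of D that contains it is either it or G. -/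
theorem result {G : Type*} [Group G] [Finite G] {D : Set G} (hD : Cfsg.IsThreeTranspositionGroup D) (hprim : Cfsg.IsPrimitiveUnderConj D) (hw : ∃ a ∈ D, ∃ b ∈ D, a ≠ b ∧ Commute a b) : (∃ L : Subgroup G, L.Normal ∧ Cfsg.IsQuasisimple L ∧ L.index ≤ 2 ∧ Cfsg.generalizedFittingSubgroup G = L ⊔ Subgroup.center G) ∧ (Cfsg.commutingGraph D).Connected ∧ ∀ d ∈ D, Subgroup.closure {y : G | y ∈ D ∧ Commute d y} ≠ ⊤ ∧ ∀ H : Subgroup G, Cfsg.IsDSubgroup D H → Subgroup.closure {y : G | y ∈ D ∧ Commute d y} ≤ H → H = Subgroup.closure {y : G | y ∈ D ∧ Commute d y} ∨ H = ⊤ := by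
  obtain ⟨a₀, ha₀, b₀, hb₀, hne₀, hcomm₀⟩ := hw
  have hw' : ∃ a ∈ D, ∃ b ∈ D, a ≠ b ∧ Commute a b := ⟨a₀, ha₀, b₀, hb₀, hne₀, hcomm₀⟩
  have hD' : Cfsg.IsThreeTranspositionClass D := by
    refine ⟨hD.1, ⟨a₀, ha₀, ?_⟩, hD.2.2⟩
    ext x
    constructor
    · intro hx
      obtain ⟨g, rfl⟩ := hprim.1 a₀ ha₀ x hx
      exact isConj_iff.2 ⟨g, rfl⟩
    · intro hx
      obtain ⟨g, rfl⟩ := isConj_iff.1 (show IsConj a₀ x from hx)
      exact hD.2.1 g a₀ ha₀
  have hc := hD.2.1
  obtain ⟨h2, h3⟩ := Cfsg.Agent.Lib.ThreeT.cores_central_of_primitive hD' hprim hw'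
  have hCR := Cfsg.Agent.Lib.ThreeT.CR_all hprim hc hw'
  have hconn := Cfsg.Agent.Lib.ThreeT.connected_of_CR ha₀ hCR
  have hD2 : ∃ a ∈ D, ∃ b ∈ D, a ≠ b := ⟨a₀, ha₀, b₀, hb₀, hne₀⟩
  obtain ⟨L, hLn, hL, hF⟩ := Cfsg.Agent.Lib.ThreeT.exists_quasisimple_normal hD' hD2 h2 h3
  have hLc : Cfsg.IsComponent L := ⟨hLn.isSubnormal, hL⟩
  refine ⟨⟨L, hLn, hL, ?_, hF⟩, hconn, ?_⟩
  · apply Cfsg.Agent.Lib.ThreeT.index_le_two_of_mul_mem hD' hLn
    intro a ha b hb
    obtain ⟨w⟩ := hconn.preconnected ⟨a, ha⟩ ⟨b, hb⟩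
    exact Cfsg.Agent.Lib.ThreeT.mul_mem_of_connected hD' hLc hLn w
  · intro d hd
    refine ⟨?_, fun H hH hle => Cfsg.Agent.Lib.ThreeT.closure_commuting_maximal hD' hprim hCR hd H hH hle⟩
    intro htop
    have hle : Subgroup.closure {y : G | y ∈ D ∧ Commute d y} ≤ Subgroup.centralizer {d} := by
      rw [Subgroup.closure_le]
      rintro y ⟨_, hy⟩
      exact Subgroup.mem_centralizer_iff.2 (by
        intro c hc'
        rw [Set.mem_singleton_iff] at hc'
        subst hc'
        exact hy.eq)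
    rw [htop] at hle
    have hall : ∀ e ∈ D, Commute d e := by
      intro e _
      exact (Subgroup.mem_centralizer_iff.1 (hle (Subgroup.mem_top e)) d rfl)
    have h1 := Cfsg.Agent.Lib.ThreeT.class_eq_of_commute_all hD' hd ha₀ hall
    have h2 := Cfsg.Agent.Lib.ThreeT.class_eq_of_commute_all hD' hd hb₀ hall
    exact hne₀ (h1.trans h2.symm)

end Cfsg.Agent.S5354
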