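import Cfsg.Statements.S5355
import Mathlib
import Cfsg.Agent.Lib.ThreeT.Basic
import Cfsg.Agent.Lib.ThreeT.Elem
import Cfsg.Agent.Lib.ThreeT.S4

set_option autoImplicit false
open Cfsg

namespace Cfsg.Agent.S5355


open Cfsg.Agent.Lib.ThreeT Cfsg.Agent.Lib.ThreeT.S4

section
variable {G : Type*} [Group G] {D : Set G}

/-- The partner relation. -/
def Partner (D : Set G) (x x' : G) : Prop :=
  x ∈ D ∧ x' ∈ D ∧ x' ≠ x ∧ (∀ y ∈ D, Commute x y ↔ y = x ∨ y = x') ∧
    (∀ y ∈ D, Commute x' y ↔ y = x ∨ y = x')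

theorem Partner.symm {x x' : G} (h : Partner D x x') : Partner D x' x := by
  obtain ⟨h1, h2, h3, h4, h5⟩ := h
  refine ⟨h2, h1, h3.symm, ?_, ?_⟩
  · intro y hy
    rw [h5 y hy, or_comm]
  · intro y hy
    rw [h4 y hy, or_comm]

theorem Partner.comm {x x' : G} (h : Partner D x x') : Commute x x' :=
  (h.2.2.2.1 x' h.2.1).2 (Or.inr rfl)

theorem Partner.unique {x x₁ x₂ : G} (h1 : Partner D x x₁) (h2 : Partner D x x₂) : x₁ = x₂ := by
  have := (h1.2.2.2.1 x₂ h2.2.1).1 (h2.comm)
  rcases this with h | h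
  · exact absurd h h2.2.2.1
  · exact h.symm

theorem Partner.conj (hcl : ∀ g : G, ∀ d ∈ D, g * d * g⁻¹ ∈ D) {x x' : G} (h : Partner D x x')
    (g : G) : Partner D (g * x * g⁻¹) (g * x' * g⁻¹) := by
  obtain ⟨h1, h2, h3, h4, h5⟩ := h
  have hconj : ∀ a b : G, Commute (g * a * g⁻¹) b ↔ Commute a (g⁻¹ * b * g) := by
    intro a b
    constructor
    · intro h
      have h' : g * a * g⁻¹ * b = b * (g * a * g⁻¹) := h
      show a * (g⁻¹ * b * g) = (g⁻¹ * b * g) * a
      have e1 : a * (g⁻¹ * b * g) = g⁻¹ * (g * a * g⁻¹ * b) * g := by group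
      have e2 : (g⁻¹ * b * g) * a = g⁻¹ * (b * (g * a * g⁻¹)) * g := by group
      rw [e1, e2, h']
    · intro h
      have h' : a * (g⁻¹ * b * g) = (g⁻¹ * b * g) * a := h
      show g * a * g⁻¹ * b = b * (g * a * g⁻¹)
      have e1 : g * a * g⁻¹ * b = g * (a * (g⁻¹ * b * g)) * g⁻¹ := by group
      have e2 : b * (g * a * g⁻¹) = g * ((g⁻¹ * b * g) * a) * g⁻¹ := by group
      rw [e1, e2, h']
  have hbk : ∀ y ∈ D, g⁻¹ * y * g ∈ D := by
    intro y hy
    have := hcl g⁻¹ y hy
    simpa using this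
  have heq : ∀ y z : G, g⁻¹ * y * g = z ↔ y = g * z * g⁻¹ := by
    intro y z
    constructor
    · rintro rfl; group
    · rintro rfl; group
  refine ⟨hcl g x h1, hcl g x' h2, ?_, ?_, ?_⟩
  · intro he
    apply h3
    have : g * x' * g⁻¹ = g * x * g⁻¹ := he
    simpa using this
  · intro y hy
    rw [hconj, h4 _ (hbk y hy), heq, heq]
  · intro y hy
    rw [hconj, h5 _ (hbk y hy), heq, heq]

/-- The data of the `S₄` spanned by a non-commuting pair. -/
theorem key_s4 (hD : Cfsg.IsThreeTranspositionSet D)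
    (hcl : ∀ g : G, ∀ d ∈ D, g * d * g⁻¹ ∈ D) {b b' c c' : G} (hb : Partner D b b')
    (hc : Partner D c c') (hbc : ¬ Commute b c) :
    ∃ φ : Equiv.Perm (Fin 4) →* G, Function.Injective φ ∧ φ (Equiv.swap 0 1) = b ∧
      φ (Equiv.swap 1 2) = c ∧ φ (Equiv.swap 2 3) = b' ∧ φ (Equiv.swap 0 3) = c' := by
  obtain ⟨hbD, hb'D, hne, h1, h2⟩ := id hb
  obtain ⟨hcD, hc'D, hnec, h3, h4⟩ := id hc
  have hb'c : ¬ Commute c b' := by
    intro hh
    rcases (h2 c hcD).1 hh.symm with h5 | h5
    · apply hbc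
      rw [h5]
    · apply hbc
      rw [h5]
      exact hb.comm
  have hbb := mul_self_of_mem hD hbD
  have hcc := mul_self_of_mem hD hcD
  have hb'b' := mul_self_of_mem hD hb'D
  have e1 := line_eq hD hbD hcD hbc
  have e2 := line_eq hD hcD hb'D hb'c
  have e3 : b * b' = b' * b := hb.comm
  let φ := s4Hom hbb hcc hb'b' e1 e2 e3
  have hinj : Function.Injective φ := s4Hom_injective hbb hcc hb'b' e1 e2 e3 hne.symm
  have h01 : φ (Equiv.swap 0 1) = b := s4Hom_swap01 hbb hcc hb'b' e1 e2 e3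
  have h12 : φ (Equiv.swap 1 2) = c := s4Hom_swap12 hbb hcc hb'b' e1 e2 e3
  have h23 : φ (Equiv.swap 2 3) = b' := s4Hom_swap23 hbb hcc hb'b' e1 e2 e3
  refine ⟨φ, hinj, h01, h12, h23, ?_⟩
  -- the transposition (0 3)
  have hp : (Equiv.swap 0 3 : Equiv.Perm (Fin 4)) =
      (Equiv.swap 0 1 * Equiv.swap 2 3) * Equiv.swap 1 2 * (Equiv.swap 0 1 * Equiv.swap 2 3)⁻¹ := by
    decide
  have hv : φ (Equiv.swap 0 3) = (b * b') * c * (b * b')⁻¹ := by
    rw [hp]
    simp only [map_mul, map_inv, h01, h12, h23]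
  have hm : φ (Equiv.swap 0 3) ∈ D := by
    rw [hv]; exact hcl _ c hcD
  have hcomm : Commute c (φ (Equiv.swap 0 3)) := by
    rw [← h12]
    show φ _ * φ _ = φ _ * φ _
    rw [← map_mul, ← map_mul]
    congr 1
    decide
  have hne2 : φ (Equiv.swap 0 3) ≠ c := by
    intro he
    rw [← h12] at he
    have := hinj he
    revert this
    decide
  rcases (h3 _ hm).1 hcomm with h | h
  · exact absurd h hne2
  · exact h

/-- The map `τ` on a noncommuting pair. -/
theorem tau_rel (hD : Cfsg.IsThreeTranspositionSet D)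
    (hcl : ∀ g : G, ∀ d ∈ D, g * d * g⁻¹ ∈ D) {b b' c c' : G} (hb : Partner D b b')
    (hc : Partner D c c') (hbc : ¬ Commute b c) :
    (b * c * b) * (b * c' * b) = (b * b') * (c * c') ∧ (b * b') * (c * c') = (c * c') * (b * b') := by
  obtain ⟨φ, -, h01, h12, h23, h03⟩ := key_s4 hD hcl hb hc hbc
  constructor
  · rw [← h01, ← h12, ← h23, ← h03]
    simp only [← map_mul]
    congr 1
    decide
  · rw [← h01, ← h12, ← h23, ← h03]
    simp only [← map_mul]
    congr 1
    decide

theorem conj_not_comm {x y : G} (a : G) (h : ¬ Commute x y) :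
    ¬ Commute (a * x * a⁻¹) (a * y * a⁻¹) := by
  intro hh
  apply h
  have h' : a * x * a⁻¹ * (a * y * a⁻¹) = a * y * a⁻¹ * (a * x * a⁻¹) := hh
  show x * y = y * x
  have e1 : a⁻¹ * (a * x * a⁻¹ * (a * y * a⁻¹)) * a = x * y := by group
  have e2 : a⁻¹ * (a * y * a⁻¹ * (a * x * a⁻¹)) * a = y * x := by group
  rw [← e1, ← e2, h']

/-- No further member of `D`. -/
theorem main_contra (hD : Cfsg.IsThreeTranspositionSet D)
    (hcl : ∀ g : G, ∀ d ∈ D, g * d * g⁻¹ ∈ D) {a a' b b' c c' : G} (ha : Partner D a a')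
    (hb : Partner D b b') (hc : Partner D c c') (hab : ¬ Commute a b) (hac : ¬ Commute a c)
    (hbc : ¬ Commute b c) : Commute a (b * c * b) := by
  by_contra hau
  have haa := mul_self_of_mem hD ha.1
  have hbb := mul_self_of_mem hD hb.1
  have hcc := mul_self_of_mem hD hc.1
  have ha'a' := mul_self_of_mem hD ha.2.1
  have hai : a⁻¹ = a := inv_eq_of_mul_eq_one_left haa
  have hbi : b⁻¹ = b := inv_eq_of_mul_eq_one_left hbb
  have hai' : a'⁻¹ = a' := inv_eq_of_mul_eq_one_left ha'a'
  -- u = b c b and its partner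
  have hu : Partner D (b * c * b) (b * c' * b) := by
    have := hc.conj hcl b
    rwa [hbi] at this
  have hx : Partner D (a * b * a) (a * b' * a) := by
    have := hb.conj hcl a
    rwa [hai] at this
  have hy : Partner D (a * c * a) (a * c' * a) := by
    have := hc.conj hcl a
    rwa [hai] at this
  have hxy : ¬ Commute (a * b * a) (a * c * a) := by
    have := conj_not_comm a hbc
    rwa [hai] at this
  obtain ⟨t1, -⟩ := tau_rel hD hcl ha hu hau
  obtain ⟨t2, t2c⟩ := tau_rel hD hcl hb hc hbc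
  obtain ⟨t3, t3c⟩ := tau_rel hD hcl ha hb hab
  obtain ⟨t4, -⟩ := tau_rel hD hcl ha hc hac
  obtain ⟨t5, -⟩ := tau_rel hD hcl hx hy hxy
  have e1 : a * (b * c * b) * a = (a * b * a) * (a * c * a) * (a * b * a) := by
    have : (a * b * a) * (a * c * a) * (a * b * a) = a * b * (a * a) * c * (a * a) * b * a := by group
    rw [this, haa]
    group
  have e2 : a * (b * c' * b) * a = (a * b * a) * (a * c' * a) * (a * b * a) := by
    have : (a * b * a) * (a * c' * a) * (a * b * a) = a * b * (a * a) * c' * (a * a) * b * a := by group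
    rw [this, haa]
    group
  rw [← e1, ← e2, t1, t2, t3, t4] at t5
  -- t(a) (t(b) t(c)) = (t(a) t(b)) (t(a) t(c))
  have ta2 : (a * a') * (a * a') = 1 := by
    have hc1 : Commute a a' := ha.comm
    calc (a * a') * (a * a') = a * (a' * a) * a' := by group
      _ = a * (a * a') * a' := by rw [← hc1.eq]
      _ = (a * a) * (a' * a') := by group
      _ = 1 := by rw [haa, ha'a', one_mul]
  have e3 : (a * a') * ((b * b') * (c * c')) = (b * b') * (c * c') := by
    have h5 : (a * a') * (b * b') * ((a * a') * (c * c')) = (a * a') * ((b * b') * (c * c')) := t5.symm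
    have hcm : (a * a') * (b * b') = (b * b') * (a * a') := t3c
    have : (a * a') * (b * b') * ((a * a') * (c * c')) = (b * b') * ((a * a') * (a * a')) * (c * c') := by
      rw [hcm]; group
    rw [this, ta2, mul_one] at h5
    exact h5.symm
  have e4 : a * a' = 1 := by
    have := mul_right_cancel (b := (b * b') * (c * c')) (a := a * a') (c := 1)
      (by rw [e3, one_mul])
    exact this
  apply ha.2.2.1
  have : a' = a⁻¹ := eq_inv_of_mul_eq_one_right e4
  rw [this, hai]

end

/-- Let D be a conjugacy class of 3-transpositions generating the finite group G, with at least two members, and d a member of D. Suppose that every member of D commuting with d commutes with exactly the same members of D as d does, and that exactly one member of D other than d commutes with d. Then G is isomorphic to the symmetric group of degree 4. -/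
theorem result {G : Type*} [Group G] [Finite G] {D : Set G} (hD : Cfsg.IsThreeTranspositionClass D) (hD2 : ∃ a ∈ D, ∃ b ∈ D, a ≠ b) {d : G} (hd : d ∈ D) (hV : {y : G | y ∈ D ∧ Commute d y} = {v : G | v ∈ D ∧ ∀ e ∈ D, Commute v e ↔ Commute d e}) (hm : {y : G | y ∈ D ∧ Commute d y}.ncard = 2) : Nonempty (G ≃* Equiv.Perm (Fin 4)) := by
  classical
  obtain ⟨hS, ⟨d₀, hd₀, hDeq⟩, hgen⟩ := hD
  have hcl : ∀ g : G, ∀ x ∈ D, g * x * g⁻¹ ∈ D := by
    intro g x hx
    rw [hDeq] at hx ⊢
    exact conj_mem_conjugatesOf hx g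
  -- partner of d
  have hdmem : d ∈ {y : G | y ∈ D ∧ Commute d y} := ⟨hd, Commute.refl d⟩
  obtain ⟨x₁, x₂, hne, hset⟩ := Set.ncard_eq_two.1 hm
  obtain ⟨d', hd'ne, hset'⟩ : ∃ d', d' ≠ d ∧ {y : G | y ∈ D ∧ Commute d y} = {d, d'} := by
    rw [hset] at hdmem
    rcases hdmem with h | h
    · exact ⟨x₂, by rw [h]; exact hne.symm, by rw [hset, h]⟩
    · refine ⟨x₁, by rw [h]; exact hne, ?_⟩
      rw [hset, h, Set.pair_comm]
  have hd'mem : d' ∈ {y : G | y ∈ D ∧ Commute d y} := by rw [hset']; simp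
  have hd'V : d' ∈ {v : G | v ∈ D ∧ ∀ e ∈ D, Commute v e ↔ Commute d e} := by rw [← hV]; exact hd'mem
  have hpart : Partner D d d' := by
    refine ⟨hd, hd'mem.1, hd'ne, ?_, ?_⟩
    · intro y hy
      have : y ∈ {y : G | y ∈ D ∧ Commute d y} ↔ y ∈ ({d, d'} : Set G) := by rw [hset']
      simp only [Set.mem_ofPred_eq, Set.mem_insert_iff, Set.mem_singleton_iff, hy, true_and] at this
      exact this
    · intro y hy
      have : y ∈ {y : G | y ∈ D ∧ Commute d y} ↔ y ∈ ({d, d'} : Set G) := by rw [hset']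
      simp only [Set.mem_ofPred_eq, Set.mem_insert_iff, Set.mem_singleton_iff, hy, true_and] at this
      rw [hd'V.2 y hy]
      exact this
  have hDd : D = conjugatesOf d := by
    rw [hDeq]
    ext x
    have h1 : IsConj d₀ d := by
      have := hd
      rw [hDeq] at this
      exact this
    constructor
    · intro hx
      exact h1.symm.trans hx
    · intro hx
      exact h1.trans hx
  have hexP : ∀ x ∈ D, ∃ x', Partner D x x' := by
    intro x hx
    rw [hDd] at hx
    obtain ⟨g, rfl⟩ := isConj_iff.1 hx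
    exact ⟨_, hpart.conj hcl g⟩
  -- a noncommuting partner exists
  have hex : ∃ c ∈ D, ¬ Commute d c := by
    by_contra hno
    push Not at hno
    have hab : ∀ x ∈ D, x = d ∨ x = d' := fun x hx => (hpart.2.2.2.1 x hx).1 (hno x hx)
    -- the group is abelian
    have hcD : ∀ x ∈ D, ∀ y ∈ D, x * y = y * x := by
      intro x hx y hy
      rcases hab x hx with rfl | rfl <;> rcases hab y hy with rfl | rfl
      · rfl
      · exact hpart.comm
      · exact hpart.comm.symm
      · rfl
    have hcg := closure_comm hcD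
    rw [hgen] at hcg
    have hd'conj : d' ∈ conjugatesOf d := by rw [← hDd]; exact hpart.2.1
    obtain ⟨g, hg⟩ := isConj_iff.1 hd'conj
    apply hd'ne
    rw [← hg, hcg g trivial d trivial]
    group
  obtain ⟨c, hc, hdc⟩ := hex
  obtain ⟨c', hpc⟩ := hexP c hc
  obtain ⟨φ, hinj, h01, h12, h23, h03⟩ := key_s4 hS hcl hpart hpc hdc
  have hddi : d⁻¹ = d := inv_eq_of_mul_eq_one_left (mul_self_of_mem hS hd)
  have hu : Partner D (d * c * d) (d * c' * d) := by
    have := hpc.conj hcl d
    rwa [hddi] at this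
  have hallD : ∀ x ∈ D, x ∈ φ.range := by
    intro a ha
    obtain ⟨a', hpa⟩ := hexP a ha
    by_cases h1 : Commute d a
    · rcases (hpart.2.2.2.1 a ha).1 h1 with rfl | rfl
      · exact ⟨_, h01⟩
      · exact ⟨_, h23⟩
    by_cases h2 : Commute c a
    · rcases (hpc.2.2.2.1 a ha).1 h2 with rfl | rfl
      · exact ⟨_, h12⟩
      · exact ⟨_, h03⟩
    have h3 : Commute a (d * c * d) := by
      apply main_contra hS hcl hpa hpart hpc (fun h => h1 h.symm) (fun h => h2 h.symm) hdc
    rcases (hu.2.2.2.1 a ha).1 h3.symm with rfl | rfl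
    · refine ⟨Equiv.swap 0 1 * Equiv.swap 1 2 * Equiv.swap 0 1, ?_⟩
      simp only [map_mul, h01, h12]
    · refine ⟨Equiv.swap 0 1 * Equiv.swap 0 3 * Equiv.swap 0 1, ?_⟩
      simp only [map_mul, h01, h03]
  have hsurj : Function.Surjective φ := by
    rw [← MonoidHom.range_eq_top, eq_top_iff, ← hgen, Subgroup.closure_le]
    exact hallD
  exact ⟨(MulEquiv.ofBijective φ ⟨hinj, hsurj⟩).symm⟩

end Cfsg.Agent.S5355
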