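import Cfsg.Statements.S5356
import Cfsg.Agent.Lib.ThreeT.Sylow3

set_option autoImplicit false
open Cfsg

namespace Cfsg.Agent.S5356

/-- Let D be a conjugacy class of 3-transpositions generating the finite group G, with at least two members, and d a member of D such that every member of D commuting with d commutes with exactly the same members of D as d. Then there is a Sylow 3-subgroup P of G normalized by d such that G is generated by d, P and the largest normal 2-subgroup of G. -/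
theorem result {G : Type*} [Group G] [Finite G] {D : Set G} (hD : Cfsg.IsThreeTranspositionClass D) (hD2 : ∃ a ∈ D, ∃ b ∈ D, a ≠ b) {d : G} (hd : d ∈ D) (hV : {y : G | y ∈ D ∧ Commute d y} = {v : G | v ∈ D ∧ ∀ e ∈ D, Commute v e ↔ Commute d e}) : ∃ P : Sylow 3 G, d ∈ Subgroup.normalizer (P : Set G) ∧ Subgroup.zpowers d ⊔ (P : Subgroup G) ⊔ Cfsg.pCore 2 G = ⊤ := by
  have f2 : Fact (Nat.Prime 2) := ⟨Nat.prime_two⟩
  have hc := fun (g : G) (a : G) (ha : a ∈ D) => Cfsg.Agent.Lib.ThreeT.class_conj_mem hD g ha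
  have hcomm : ∀ a ∈ D, ∀ b ∈ D, Commute a b → a * b ∈ Cfsg.pCore 2 G := by
    intro a ha b hb hab
    obtain ⟨g, rfl⟩ := Cfsg.Agent.Lib.ThreeT.class_exists_conj hD hd ha
    have h1 : g⁻¹ * b * g ∈ D := by
      have := hc g⁻¹ b hb
      rwa [inv_inv] at this
    have h2 : Commute d (g⁻¹ * b * g) := (Cfsg.Agent.Lib.ThreeT.commute_conj_iff g d b).1 hab
    have h3 : g⁻¹ * b * g ∈ {y : G | y ∈ D ∧ Commute d y} := ⟨h1, h2⟩
    rw [hV] at h3
    have h4 : d * (g⁻¹ * b * g) ∈ Cfsg.pCore 2 G :=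
      Cfsg.Agent.Lib.ThreeT.Vrel_mul_mem_pCore hD.1 hc hd h1 (fun e he => (h3.2 e he).symm)
    have h5 := (Cfsg.Agent.Lib.Core.pCore_normal 2 G).conj_mem _ h4 g
    have e : g * (d * (g⁻¹ * b * g)) * g⁻¹ = g * d * g⁻¹ * b := by group
    rwa [e] at h5
  obtain ⟨P, hP, hdP, htop⟩ := Cfsg.Agent.Lib.ThreeT.exists_invariant_three_subgroup _ G D hD d hd hcomm rfl
  obtain ⟨Q, hQ⟩ := Cfsg.Agent.Lib.ThreeT.exists_sylow_of_sup hP (Cfsg.Agent.Lib.Core.pCore_normal 2 G)
    (Cfsg.Agent.Lib.Core.pCore_isPGroup 2 G) (Cfsg.Agent.Lib.ThreeT.mul_self_of_mem hD.1 hd) hdP htop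
  refine ⟨Q, ?_, by rw [hQ]; exact htop⟩
  show d ∈ Subgroup.normalizer (((Q : Subgroup G)) : Set G)
  rw [hQ]
  exact hdP

end Cfsg.Agent.S5356
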