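import Cfsg.Statements.S5357
import Cfsg.Agent.Lib.ThreeT.Refl3

set_option autoImplicit false
open scoped MatrixGroups
open Cfsg

namespace Cfsg.Agent.S5357

theorem map_mul_map_inv_aux {A B : Type*} [Group A] [Group B] (f : A →* B) (a d : A) :
    f (a * d * a⁻¹) = f a * f d * (f a)⁻¹ := by
  simp only [map_mul, map_inv]

/-- Let Q be a non-degenerate quadratic form on the n-dimensional coordinate space over the field with three elements, n ≥ 5, and c a non-zero scalar. In the subgroup of the isometry group of Q generated by the reflections in vectors v with Q(v) = c, these reflections form a single conjugacy class of 3-transpositions generating that subgroup. -/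
theorem result (n : ℕ) (hn : 5 ≤ n) (Q : QuadraticForm (ZMod 3) (Fin n → ZMod 3)) (hQ : (QuadraticMap.polarBilin Q).Nondegenerate) (c : ZMod 3) (hc : c ≠ 0) : Cfsg.IsThreeTranspositionClass {g : ↥(Cfsg.reflectionSubgroup (⇑Q) c) | (g : ↥(Cfsg.isometryGroup (ZMod 3) (⇑Q))) ∈ Cfsg.reflectionsOfNorm (⇑Q) c} := by
  classical
  have hfr : Module.finrank (ZMod 3) (Fin n → ZMod 3) = n := by
    simp
  have hn5 : 5 ≤ Module.finrank (ZMod 3) (Fin n → ZMod 3) := by rw [hfr]; exact hn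
  -- the isomorphism
  let φ := Lib.Classical.Orth.toOG Q
  let ψ : ↥(Cfsg.reflectionSubgroup (⇑Q) c) →* Lib.Classical.Orth.OG Q := φ.toMonoidHom.comp (Cfsg.reflectionSubgroup (⇑Q) c).subtype
  have hψ : Function.Injective ψ := fun a b h => Subtype.ext (φ.injective h)
  have hmem : ∀ g : Cfsg.isometryGroup (ZMod 3) (⇑Q), g ∈ Cfsg.reflectionsOfNorm (⇑Q) c ↔ φ g ∈ Lib.ThreeT.Refl3.Dc Q c := by
    intro g
    constructor
    · rintro ⟨v, hv, hg⟩
      have hv0 : Q v ≠ 0 := by rw [hv]; exact hc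
      exact ⟨v, hv0, hv, (Lib.Classical.Orth.toOG_eq_refl_iff Q g v hv0).2 hg⟩
    · rintro ⟨v, hv0, hv, hg⟩
      exact ⟨v, hv, (Lib.Classical.Orth.toOG_eq_refl_iff Q g v hv0).1 hg⟩
  have hmap : (Cfsg.reflectionSubgroup (⇑Q) c).map φ.toMonoidHom = Lib.ThreeT.Refl3.Rc Q c := by
    rw [Cfsg.reflectionSubgroup, MonoidHom.map_closure, Lib.ThreeT.Refl3.Rc]
    congr 1
    ext g
    constructor
    · rintro ⟨g', hg', rfl⟩
      exact (hmem g').1 hg'
    · intro hg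
      refine ⟨φ.symm g, (hmem _).2 ?_, φ.apply_symm_apply g⟩
      rwa [φ.apply_symm_apply]
  have hzz : ∀ (a : ↥(Cfsg.reflectionSubgroup (⇑Q) c)), a ∈ {g : ↥(Cfsg.reflectionSubgroup (⇑Q) c) | (g : ↥(Cfsg.isometryGroup (ZMod 3) (⇑Q))) ∈ Cfsg.reflectionsOfNorm (⇑Q) c} → ψ a ∈ Lib.ThreeT.Refl3.Dc Q c :=
    fun a ha => (hmem a.1).1 ha
  have hbb : ∀ a : ↥(Cfsg.reflectionSubgroup (⇑Q) c), ψ a ∈ Lib.ThreeT.Refl3.Rc Q c := fun a => by
    rw [← hmap]
    exact ⟨a.1, a.2, rfl⟩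
  have hup : ∀ g ∈ Lib.ThreeT.Refl3.Rc Q c, ∃ a : ↥(Cfsg.reflectionSubgroup (⇑Q) c), ψ a = g := by
    intro g hg
    rw [← hmap] at hg
    obtain ⟨a, ha, rfl⟩ := hg
    exact ⟨⟨a, ha⟩, rfl⟩
  obtain ⟨u, hu⟩ := Lib.ThreeT.Refl3.exists_norm (Q := Q) hQ (by omega) c hc
  have hu0 : Q u ≠ 0 := by rw [hu]; exact hc
  obtain ⟨d, hd⟩ := hup (Lib.Classical.Orth.refl Q u hu0) (Lib.ThreeT.Refl3.refl_mem_Rc hu0 hu)
  refine ⟨⟨?_, ?_⟩, ⟨d, ?_, ?_⟩, ?_⟩
  · -- involutions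
    intro a ha
    obtain ⟨v, hv0, hv, hg⟩ := hzz a ha
    have h1 : ψ a * ψ a = 1 := by rw [hg]; exact Lib.Classical.Orth.refl_mul_self hv0
    have h2 : a ^ 2 = 1 := by
      apply hψ
      rw [map_pow, pow_two, h1, map_one]
    apply orderOf_eq_prime h2
    intro h
    have h3 : ψ a = 1 := by rw [h, map_one]
    rw [hg] at h3
    have h4 : (Lib.Classical.Orth.refl Q v hv0).1 v = v := by
      rw [h3]
      rfl
    rw [Lib.Classical.Orth.refl_self] at h4
    have h5 : (-v) = v := h4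
    have h6 : (2 : ZMod 3) • v = 0 := by
      rw [two_smul]
      nth_rewrite 1 [← h5]
      simp
    have h7 : v = 0 := by
      have h8 : (2 : ZMod 3) ≠ 0 := by decide
      exact (smul_eq_zero.mp h6).resolve_left h8
    apply hv0
    rw [h7, QuadraticMap.map_zero]
  · intro a ha b hb
    obtain ⟨v, hv0, hv, hg⟩ := hzz a ha
    obtain ⟨w, hw0, hw, hg'⟩ := hzz b hb
    rcases Lib.ThreeT.Refl3.prod_order hc hv hw hv0 hw0 with h | h
    · left
      apply hψ
      rw [map_pow, map_mul, hg, hg', h, map_one]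
    · right
      apply hψ
      rw [map_pow, map_mul, hg, hg', h, map_one]
  · show (d : ↥(Cfsg.isometryGroup (ZMod 3) (⇑Q))) ∈ Cfsg.reflectionsOfNorm (⇑Q) c
    rw [hmem]
    exact hd ▸ ⟨u, hu0, hu, rfl⟩
  · ext e
    constructor
    · intro he
      obtain ⟨v, hv0, hv, hg⟩ := hzz e he
      obtain ⟨g, hgm, hg1⟩ := Lib.ThreeT.Refl3.conj_refl hQ hn5 hc hu hv hu0 hv0
      obtain ⟨a, ha⟩ := hup g hgm
      refine isConj_iff.mpr ⟨a, ?_⟩
      apply hψ
      simp only [map_mul, map_inv]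
      rw [ha, hd, hg1, hg]
    · intro he
      obtain ⟨a, rfl⟩ := isConj_iff.mp he
      show ((a * d * a⁻¹ : ↥(Cfsg.reflectionSubgroup (⇑Q) c)) : ↥(Cfsg.isometryGroup (ZMod 3) (⇑Q))) ∈ Cfsg.reflectionsOfNorm (⇑Q) c
      rw [hmem]
      have hrefl : Q ((ψ a).1 u) ≠ 0 := by
        rw [Lib.Classical.Orth.OG_pres]; exact hu0
      refine ⟨(ψ a).1 u, hrefl, ?_, ?_⟩
      · rw [Lib.Classical.Orth.OG_pres, hu]
      · rw [← Lib.Classical.Orth.refl_conj (ψ a) hu0 hrefl, ← hd]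
        exact map_mul_map_inv_aux ψ a d
  · have := Subgroup.closure_closure_coe_preimage (k := Cfsg.reflectionsOfNorm (⇑Q) c)
    exact this

end Cfsg.Agent.S5357
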