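import Cfsg.Statements.S5358
import Mathlib

set_option autoImplicit false
open Cfsg

namespace Cfsg.Agent.S5358

theorem polarVec_dot {n : ℕ} (Q : QuadraticForm (ZMod 3) (Fin n → ZMod 3)) (u x : Fin n → ZMod 3) :
    Cfsg.polarVec (⇑Q) u ⬝ᵥ x = QuadraticMap.polar (⇑Q) u x := by
  have h := LinearMap.pi_apply_eq_sum_univ (QuadraticMap.polarBilin Q u) x
  rw [QuadraticMap.polarBilin_apply_apply] at h
  rw [h]
  unfold dotProduct Cfsg.polarVec
  apply Finset.sum_congr rfl
  intro j _
  rw [QuadraticMap.polarBilin_apply_apply, smul_eq_mul, mul_comm]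
  congr 2
  funext i
  simp [Pi.single_apply, eq_comm]

/-- Let Q be a non-degenerate quadratic form on the n-dimensional coordinate space over the field with three elements and u, v vectors of the same non-zero norm Q(u) = Q(v) spanning different lines (v ≠ u and v ≠ −u). Then the reflection matrices of u and v commute if and only if u and v are orthogonal for the polar form of Q. -/
theorem result (n : ℕ) (Q : QuadraticForm (ZMod 3) (Fin n → ZMod 3)) (hQ : (QuadraticMap.polarBilin Q).Nondegenerate) (u v : Fin n → ZMod 3) (hu : Q u ≠ 0) (huv : Q u = Q v) (h1 : v ≠ u) (h2 : v ≠ -u) : Commute (Cfsg.reflectionMatrix (⇑Q) u) (Cfsg.reflectionMatrix (⇑Q) v) ↔ QuadraticMap.polar (⇑Q) u v = 0 := by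
  unfold Cfsg.reflectionMatrix
  rw [← huv]
  obtain ⟨s, hs⟩ : ∃ s, s = (Q u)⁻¹ := ⟨_, rfl⟩
  have hs0 : s ≠ 0 := by rw [hs]; exact inv_ne_zero hu
  rw [← hs]
  obtain ⟨A, hA⟩ : ∃ A, A = Matrix.vecMulVec u (Cfsg.polarVec (⇑Q) u) := ⟨_, rfl⟩
  obtain ⟨B, hB⟩ : ∃ B, B = Matrix.vecMulVec v (Cfsg.polarVec (⇑Q) v) := ⟨_, rfl⟩
  rw [← hA, ← hB]
  obtain ⟨a, ha⟩ : ∃ a, a = QuadraticMap.polar (⇑Q) u v := ⟨_, rfl⟩
  rw [← ha]
  have hAB : A * B = Matrix.vecMulVec u (a • Cfsg.polarVec (⇑Q) v) := by
    rw [hA, hB, Matrix.vecMulVec_mul_vecMulVec, polarVec_dot, ← ha]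
  have hBA : B * A = Matrix.vecMulVec v (a • Cfsg.polarVec (⇑Q) u) := by
    rw [hA, hB, Matrix.vecMulVec_mul_vecMulVec, polarVec_dot, QuadraticMap.polar_comm, ← ha]
  have hcomm : Commute (1 - s • A) (1 - s • B) ↔ A * B = B * A := by
    have gen : ∀ X Y : Matrix (Fin n) (Fin n) (ZMod 3), (1 - X) * (1 - Y) = 1 - X - Y + X * Y := by
      intro X Y; noncomm_ring
    have e1 : (1 - s • A) * (1 - s • B) = 1 - s • A - s • B + (s * s) • (A * B) := by
      rw [gen, smul_mul_assoc, mul_smul_comm, smul_smul]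
    have e2 : (1 - s • B) * (1 - s • A) = 1 - s • A - s • B + (s * s) • (B * A) := by
      rw [gen, smul_mul_assoc, mul_smul_comm, smul_smul, sub_right_comm]
    unfold Commute SemiconjBy
    rw [e1, e2, add_right_inj]
    constructor
    · intro h
      exact smul_right_injective _ (mul_ne_zero hs0 hs0) h
    · intro h; rw [h]
  rw [hcomm, hAB, hBA]
  constructor
  · intro h
    by_contra hne
    -- entrywise
    have h3 : ∀ i j, u i * Cfsg.polarVec (⇑Q) v j = v i * Cfsg.polarVec (⇑Q) u j := by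
      intro i j
      have := congrFun (congrFun h i) j
      simp only [Matrix.vecMulVec_apply, Pi.smul_apply, smul_eq_mul] at this
      have h4 : a * (u i * Cfsg.polarVec (⇑Q) v j) = a * (v i * Cfsg.polarVec (⇑Q) u j) := by
        linear_combination this
      exact mul_left_cancel₀ hne h4
    have h5 : ∀ i, u i * a = v i * (2 * Q u) := by
      intro i
      have hsum : u i * (Cfsg.polarVec (⇑Q) v ⬝ᵥ u) = v i * (Cfsg.polarVec (⇑Q) u ⬝ᵥ u) := by
        unfold dotProduct
        rw [Finset.mul_sum, Finset.mul_sum]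
        apply Finset.sum_congr rfl
        intro j _
        rw [← mul_assoc, ← mul_assoc, h3]
      rw [polarVec_dot, polarVec_dot, QuadraticMap.polar_comm, ← ha, QuadraticMap.polar_self] at hsum
      simpa [two_nsmul, two_mul] using hsum
    have h2c : (2 * Q u) ≠ 0 := by
      apply mul_ne_zero _ hu
      decide
    obtain ⟨t, ht⟩ : ∃ t, t = a * (2 * Q u)⁻¹ := ⟨_, rfl⟩
    have hvt : v = t • u := by
      funext i
      have := h5 i
      simp only [Pi.smul_apply, smul_eq_mul]
      rw [ht]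
      have h6 : v i = u i * a * (2 * Q u)⁻¹ := by
        rw [this, mul_assoc, mul_inv_cancel₀ h2c, mul_one]
      rw [h6]; ring
    have htcases : ∀ t : ZMod 3, t = 0 ∨ t = 1 ∨ t = -1 := by decide
    rcases htcases t with h0 | h0 | h0
    · rw [h0, zero_smul] at hvt
      rw [hvt, map_zero] at huv
      exact hu huv
    · rw [h0, one_smul] at hvt
      exact h1 hvt
    · rw [h0, neg_one_smul] at hvt
      exact h2 hvt
  · intro h
    rw [h]
    simp

end Cfsg.Agent.S5358
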