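import Cfsg.Statements.S5359
import Cfsg.Agent.Lib.ThreeT.Refl3b

set_option autoImplicit false
open scoped MatrixGroups
open Cfsg

namespace Cfsg.Agent.S5359

/-- Let Q be a non-degenerate quadratic form on the n-dimensional coordinate space over the field with three elements, n odd and at least 5, and c a non-zero scalar. Then the subgroup of the isometry group of Q generated by the reflections in vectors of norm c has index 2 in the isometry group. -/
theorem result (n : ℕ) (hn : 5 ≤ n) (hodd : Odd n) (Q : QuadraticForm (ZMod 3) (Fin n → ZMod 3)) (hQ : (QuadraticMap.polarBilin Q).Nondegenerate) (c : ZMod 3) (hc : c ≠ 0) : (Cfsg.reflectionSubgroup (⇑Q) c).index = 2 := by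
  classical
  have hfr : Module.finrank (ZMod 3) (Fin n → ZMod 3) = n := by
    simp
  have hn5 : 5 ≤ Module.finrank (ZMod 3) (Fin n → ZMod 3) := by rw [hfr]; exact hn
  have hmem : ∀ g : Cfsg.isometryGroup (ZMod 3) (⇑Q), g ∈ Cfsg.reflectionsOfNorm (⇑Q) c ↔ Lib.Classical.Orth.toOG Q g ∈ Lib.ThreeT.Refl3.Dc Q c := by
    intro g
    constructor
    · rintro ⟨v, hv, hg⟩
      have hv0 : Q v ≠ 0 := by rw [hv]; exact hc
      exact ⟨v, hv0, hv, (Lib.Classical.Orth.toOG_eq_refl_iff Q g v hv0).2 hg⟩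
    · rintro ⟨v, hv0, hv, hg⟩
      exact ⟨v, hv, (Lib.Classical.Orth.toOG_eq_refl_iff Q g v hv0).1 hg⟩
  have hmap : (Cfsg.reflectionSubgroup (⇑Q) c).map (Lib.Classical.Orth.toOG Q).toMonoidHom = Lib.ThreeT.Refl3.Rc Q c := by
    rw [Cfsg.reflectionSubgroup, MonoidHom.map_closure, Lib.ThreeT.Refl3.Rc]
    congr 1
    ext g
    constructor
    · rintro ⟨g', hg', rfl⟩
      exact (hmem g').1 hg'
    · intro hg
      refine ⟨(Lib.Classical.Orth.toOG Q).symm g, (hmem _).2 ?_, (Lib.Classical.Orth.toOG Q).apply_symm_apply g⟩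
      rwa [(Lib.Classical.Orth.toOG Q).apply_symm_apply]
  have h2 := Lib.ThreeT.Refl3.index_Rc hQ hn5 hc
  rw [← hmap] at h2
  rwa [Subgroup.index_map_of_bijective (Lib.Classical.Orth.toOG Q).bijective] at h2

end Cfsg.Agent.S5359
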