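import Cfsg.Statements.S5360
import Cfsg.Agent.S5357
import Cfsg.Agent.Lib.ThreeT.Refl3b
import Cfsg.Agent.Lib.ThreeT.Simple5
import Cfsg.Agent.Lib.ThreeT.Prim
import Cfsg.Agent.Lib.Classical.OrthAb
import Cfsg.Agent.Lib.Classical.OrthCenter
import Cfsg.Agent.Lib.Classical.OrthIdx2

set_option autoImplicit false
open scoped MatrixGroups
open Cfsg

namespace Cfsg.Agent.S5360

section abstract
open Subgroup Cfsg.Agent.Lib.FStar Cfsg.Agent.Lib.ThreeT
variable {G : Type*} [Group G]

theorem comm_component (hL : IsQuasisimple (commutator G)) : IsComponent (commutator G) :=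
  ⟨(inferInstance : (commutator G).Normal).isSubnormal, hL⟩

theorem comm_le_of_normal [Finite G] (hL : IsQuasisimple (commutator G))
    (hC : ∀ g : G, (∀ h ∈ commutator G, g * h = h * g) → g ∈ center G)
    (N : Subgroup G) (hN : N.Normal) (hnot : ¬ N ≤ center G) : commutator G ≤ N := by
  rcases component_le_or_commute (comm_component hL) hN.isSubnormal with h | h
  · exact h
  · exfalso
    apply hnot
    intro g hg
    apply hC
    intro k hk
    exact (mul_comm_of_commutator_eq_bot h hk hg).symm

theorem fstar_eq [Finite G] (hL : IsQuasisimple (commutator G))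
    (hC : ∀ g : G, (∀ h ∈ commutator G, g * h = h * g) → g ∈ center G) :
    generalizedFittingSubgroup G = center G ⊔ commutator G := by
  have hcomp := comm_component hL
  apply le_antisymm
  · rw [generalizedFittingSubgroup]
    apply sup_le
    · rw [layer]
      apply sSup_le
      intro K hK
      by_cases hne : K = commutator G
      · rw [hne]; exact le_sup_right
      · exfalso
        have h1 := component_commute hK hcomp hne
        have h2 : K ≤ center G := by
          intro g hg
          apply hC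
          intro k hk
          exact mul_comm_of_commutator_eq_bot h1 hg hk
        have h3 : Group.IsSolvable K := Group.isSolvable_of_comm fun a b => by
          apply Subtype.ext
          exact (mem_center_iff.1 (h2 a.2) b.1).symm
        exact component_not_solvable hK h3
    · refine le_trans ?_ le_sup_left
      have h1 := component_commute_fitting hcomp
      intro g hg
      apply hC
      intro k hk
      exact (mul_comm_of_commutator_eq_bot h1 hk hg).symm
  · apply sup_le
    · exact le_trans center_le_fitting le_sup_right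
    · exact le_trans (component_le_layer hcomp) le_sup_left

end abstract

/-- Let Q be a non-degenerate quadratic form on the n-dimensional coordinate space over the field with three elements, n ≥ 5, c a non-zero scalar, and R the subgroup of the isometry group generated by the reflections of norm c. Then the commutator subgroup of R is quasisimple of index at most 2, the generalized Fitting subgroup of R is the product of the centre and the commutator subgroup, and R acts primitively by conjugation on its reflections of norm c. -/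
theorem result (n : ℕ) (hn : 5 ≤ n) (Q : QuadraticForm (ZMod 3) (Fin n → ZMod 3)) (hQ : (QuadraticMap.polarBilin Q).Nondegenerate) (c : ZMod 3) (hc : c ≠ 0) : Cfsg.IsQuasisimple (commutator ↥(Cfsg.reflectionSubgroup (⇑Q) c)) ∧ (commutator ↥(Cfsg.reflectionSubgroup (⇑Q) c)).index ≤ 2 ∧ Cfsg.generalizedFittingSubgroup ↥(Cfsg.reflectionSubgroup (⇑Q) c) = Subgroup.center ↥(Cfsg.reflectionSubgroup (⇑Q) c) ⊔ commutator ↥(Cfsg.reflectionSubgroup (⇑Q) c) ∧ Cfsg.IsPrimitiveUnderConj {g : ↥(Cfsg.reflectionSubgroup (⇑Q) c) | (g : ↥(Cfsg.isometryGroup (ZMod 3) (⇑Q))) ∈ Cfsg.reflectionsOfNorm (⇑Q) c} := by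
  classical
  have hfr : Module.finrank (ZMod 3) (Fin n → ZMod 3) = n := by
    simp
  have hn5 : 5 ≤ Module.finrank (ZMod 3) (Fin n → ZMod 3) := by rw [hfr]; exact hn
  have h2 : (2 : ZMod 3) ≠ 0 := by decide
  -- the isomorphism
  let φ := Lib.Classical.Orth.toOG Q
  let ψ : ↥(Cfsg.reflectionSubgroup (⇑Q) c) →* Lib.Classical.Orth.OG Q := φ.toMonoidHom.comp (Cfsg.reflectionSubgroup (⇑Q) c).subtype
  have hψ : Function.Injective ψ := fun a b h => Subtype.ext (φ.injective h)
  have hmem : ∀ g : Cfsg.isometryGroup (ZMod 3) (⇑Q), g ∈ Cfsg.reflectionsOfNorm (⇑Q) c ↔ φ g ∈ Lib.ThreeT.Refl3.Dc Q c := by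
    intro g
    constructor
    · rintro ⟨v, hv, hg⟩
      have hv0 : Q v ≠ 0 := by rw [hv]; exact hc
      exact ⟨v, hv0, hv, (Lib.Classical.Orth.toOG_eq_refl_iff Q g v hv0).2 hg⟩
    · rintro ⟨v, hv0, hv, hg⟩
      exact ⟨v, hv, (Lib.Classical.Orth.toOG_eq_refl_iff Q g v hv0).1 hg⟩
  have hmap : (Cfsg.reflectionSubgroup (⇑Q) c).map φ.toMonoidHom = Lib.ThreeT.Refl3.Rc Q c := by
    rw [Cfsg.reflectionSubgroup, MonoidHom.map_closure, Lib.ThreeT.Refl3.Rc]
    congr 1
    ext g
    constructor
    · rintro ⟨g', hg', rfl⟩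
      exact (hmem g').1 hg'
    · intro hg
      refine ⟨φ.symm g, (hmem _).2 ?_, φ.apply_symm_apply g⟩
      rwa [φ.apply_symm_apply]
  have hrange : ψ.range = Lib.ThreeT.Refl3.Rc Q c := by
    rw [← hmap, MonoidHom.range_eq_map]
    ext x
    constructor
    · rintro ⟨a, -, rfl⟩
      exact ⟨a.1, a.2, rfl⟩
    · rintro ⟨a, ha, rfl⟩
      exact ⟨⟨a, ha⟩, Subgroup.mem_top _, rfl⟩
  have hidx : (Lib.ThreeT.Refl3.Rc Q c).index = 2 := Lib.ThreeT.Refl3.index_Rc hQ hn5 hc
  have hK4 : (commutator (Lib.Classical.Orth.OG Q)).index = 4 := Lib.Classical.Orth.index_commutator h2 hQ (by omega)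
  have hKle : commutator (Lib.Classical.Orth.OG Q) ≤ Lib.ThreeT.Refl3.Rc Q c :=
    Lib.Classical.Orth.commutator_le_of_index_two hidx
  have hKqs : Cfsg.IsQuasisimple (commutator (Lib.Classical.Orth.OG Q)) :=
    ⟨⟨Lib.Classical.Orth.comm_perfect hQ hn5⟩, Lib.ThreeT.Simple5.K_quot_simple5 hQ hn5⟩
  have hcommap : (commutator ↥(Cfsg.reflectionSubgroup (⇑Q) c)).map ψ = commutator (Lib.Classical.Orth.OG Q) := by
    apply le_antisymm
    · rw [commutator_def, Subgroup.map_commutator]
      exact Subgroup.commutator_mono le_top le_top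
    · have h1 : commutator (Lib.Classical.Orth.OG Q) = ⁅commutator (Lib.Classical.Orth.OG Q), commutator (Lib.Classical.Orth.OG Q)⁆ :=
        (Lib.FStar.qs_subgroup_perfect hKqs).symm
      rw [h1, commutator_def ↥(Cfsg.reflectionSubgroup (⇑Q) c), Subgroup.map_commutator, ← MonoidHom.range_eq_map, hrange]
      exact Subgroup.commutator_mono hKle hKle
  -- transfer
  have e : ↥(commutator ↥(Cfsg.reflectionSubgroup (⇑Q) c)) ≃* ↥(commutator (Lib.Classical.Orth.OG Q)) :=
    (Subgroup.equivMapOfInjective _ ψ hψ).trans (MulEquiv.subgroupCongr hcommap)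
  have hqs : Cfsg.IsQuasisimple (commutator ↥(Cfsg.reflectionSubgroup (⇑Q) c)) :=
    Lib.FStar.qs_of_mulEquiv e.symm hKqs
  have hindex : (commutator ↥(Cfsg.reflectionSubgroup (⇑Q) c)).index = 2 := by
    have h1 : commutator ↥(Cfsg.reflectionSubgroup (⇑Q) c) = (commutator (Lib.Classical.Orth.OG Q)).comap ψ := by
      rw [← hcommap, Subgroup.comap_map_eq_self_of_injective hψ]
    rw [h1, Subgroup.index_comap, hrange]
    have h3 := Subgroup.relIndex_mul_index hKle
    rw [hidx, hK4] at h3
    omega
  have hcen : ∀ g : ↥(Cfsg.reflectionSubgroup (⇑Q) c), (∀ h ∈ commutator ↥(Cfsg.reflectionSubgroup (⇑Q) c), g * h = h * g) → g ∈ Subgroup.center ↥(Cfsg.reflectionSubgroup (⇑Q) c) := by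
    intro g hg
    have h1 : ∀ h ∈ commutator (Lib.Classical.Orth.OG Q), ψ g * h = h * ψ g := by
      intro h hh
      rw [← hcommap] at hh
      obtain ⟨k, hk, rfl⟩ := hh
      rw [← map_mul, ← map_mul, hg k hk]
    rw [Subgroup.mem_center_iff]
    intro r
    apply hψ
    rw [map_mul, map_mul]
    rcases Lib.Classical.Orth.center_odd h2 hQ (by omega) (ψ g) h1 with h3 | h3
    · rw [h3, one_mul, mul_one]
    · apply Subtype.ext
      apply LinearEquiv.ext
      intro x
      show (ψ r).1 ((ψ g).1 x) = (ψ g).1 ((ψ r).1 x)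
      rw [h3, h3, map_neg]
  have hD := Cfsg.Agent.S5357.result n hn Q hQ c hc
  refine ⟨hqs, by omega, Cfsg.Agent.S5360.fstar_eq hqs hcen, ?_⟩
  refine Lib.ThreeT.primitive_of_index_le_two hD ?_ (L := commutator _) inferInstance (by omega) (fun N hN hnot => Cfsg.Agent.S5360.comm_le_of_normal hqs hcen N hN hnot)
  -- two distinct reflections
  by_contra hcon
  push Not at hcon
  obtain ⟨d, hd, hdD⟩ := hD.2.1
  have htop : Subgroup.closure ({d} : Set ↥(Cfsg.reflectionSubgroup (⇑Q) c)) = ⊤ := by
    rw [← hD.2.2]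
    congr 1
    ext x
    constructor
    · intro hx
      rw [Set.mem_singleton_iff] at hx
      rw [hx]; exact hd
    · intro hx
      exact hcon _ hx _ hd
  have hab : ∀ a b : ↥(Cfsg.reflectionSubgroup (⇑Q) c), a * b = b * a := by
    intro a b
    have ha : a ∈ Subgroup.closure ({d} : Set ↥(Cfsg.reflectionSubgroup (⇑Q) c)) := by rw [htop]; trivial
    have hb : b ∈ Subgroup.closure ({d} : Set ↥(Cfsg.reflectionSubgroup (⇑Q) c)) := by rw [htop]; trivial
    rw [Subgroup.mem_closure_singleton] at ha hb
    obtain ⟨k, rfl⟩ := ha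
    obtain ⟨l, rfl⟩ := hb
    exact (Commute.refl d).zpow_zpow k l
  apply Lib.FStar.qs_not_solvable hqs
  exact Group.isSolvable_of_comm fun a b => Subtype.ext (hab _ _)

end Cfsg.Agent.S5360
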