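import Cfsg.Statements.S5361
import Cfsg.Agent.Lib.ThreeT.Module

set_option autoImplicit false
open Cfsg

namespace Cfsg.Agent.S5361

/-- Let D be a conjugacy class of 3-transpositions generating the finite group G, and suppose the centre of G is trivial and some two different members of D commute. Then the following are equivalent: (1) the commutator subgroup of G is simple (possibly of prime order); (2) G acts primitively on D by conjugation; (3) the largest normal 2-subgroup and the largest normal 3-subgroup of G are trivial and the commuting graph of D is connected. -/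
theorem result {G : Type*} [Group G] [Finite G] {D : Set G} (hD : Cfsg.IsThreeTranspositionClass D) (hZ : Subgroup.center G = ⊥) (hw : ∃ a ∈ D, ∃ b ∈ D, a ≠ b ∧ Commute a b) : (IsSimpleGroup (commutator G) ↔ Cfsg.IsPrimitiveUnderConj D) ∧ (Cfsg.IsPrimitiveUnderConj D ↔ (Cfsg.pCore 2 G = ⊥ ∧ Cfsg.pCore 3 G = ⊥ ∧ (Cfsg.commutingGraph D).Connected)) := by
  have hw' := hw
  obtain ⟨a₀, ha₀, b₀, hb₀, hne₀, hcomm₀⟩ := hw
  have hD2 : ∃ a ∈ D, ∃ b ∈ D, a ≠ b := ⟨a₀, ha₀, b₀, hb₀, hne₀⟩
  have hc := fun (g : G) (a : G) (ha : a ∈ D) => Cfsg.Agent.Lib.ThreeT.class_conj_mem hD g ha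
  have hcomL : ∀ {L : Subgroup G}, L.Normal → L.index ≤ 2 → commutator G ≤ L := by
    intro L hLn hidx
    have hcases : L.index = 1 ∨ L.index = 2 := by
      have := Subgroup.index_ne_zero_of_finite (H := L)
      omega
    rcases hcases with h1 | h2
    · rw [Subgroup.index_eq_one] at h1
      rw [h1]
      exact le_top
    · rw [commutator_def, Subgroup.commutator_le]
      intro x _ y _
      rw [commutatorElement_def]
      simp only [Subgroup.mul_mem_iff_of_index_two h2, inv_mem_iff]
      tauto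
  refine ⟨⟨?_, ?_⟩, ⟨?_, ?_⟩⟩
  · intro hs
    refine Cfsg.Agent.Lib.ThreeT.primitive_of_index_le_two hD hD2 (L := commutator G) inferInstance ?_ ?_
    · apply Cfsg.Agent.Lib.ThreeT.index_le_two_of_mul_mem hD inferInstance
      intro a ha b hb
      obtain ⟨g, rfl⟩ := Cfsg.Agent.Lib.ThreeT.class_exists_conj hD ha hb
      have h1 := Subgroup.commutator_mem_commutator (Subgroup.mem_top a) (Subgroup.mem_top g)
      rw [commutatorElement_def] at h1
      have e : a * (g * a * g⁻¹) = a * g * a⁻¹ * g⁻¹ := by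
        rw [Cfsg.Agent.Lib.ThreeT.inv_of_mem hD.1 ha]; group
      rw [e]
      exact h1
    · intro N hN hnc
      have hX : (N.subgroupOf (commutator G)).Normal := hN.subgroupOf _
      rcases hs.eq_bot_or_eq_top_of_normal _ hX with h | h
      · exfalso
        apply hnc
        intro n hn
        rw [Subgroup.mem_center_iff]
        intro g
        have h1 : n * g * n⁻¹ * g⁻¹ ∈ commutator G := Subgroup.commutator_mem_commutator (Subgroup.mem_top n) (Subgroup.mem_top g)
        have h2 : n * g * n⁻¹ * g⁻¹ ∈ N := by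
          have e : n * g * n⁻¹ * g⁻¹ = n * (g * n⁻¹ * g⁻¹) := by group
          rw [e]
          exact mul_mem hn (hN.conj_mem _ (inv_mem hn) g)
        have h3 : (⟨n * g * n⁻¹ * g⁻¹, h1⟩ : commutator G) ∈ N.subgroupOf (commutator G) := by
          simpa [Subgroup.mem_subgroupOf] using h2
        rw [h] at h3
        have h4 : n * g * n⁻¹ * g⁻¹ = 1 := by simpa using h3
        have h5 : n * g * n⁻¹ = g := mul_inv_eq_one.1 h4
        have h6 : n * g = g * n := mul_inv_eq_iff_eq_mul.1 h5
        exact h6.symm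
      · intro x hx
        have h1 : (⟨x, hx⟩ : commutator G) ∈ N.subgroupOf (commutator G) := by rw [h]; trivial
        simpa [Subgroup.mem_subgroupOf] using h1
  · intro hprim
    obtain ⟨h2, h3⟩ := Cfsg.Agent.Lib.ThreeT.cores_central_of_primitive hD hprim hw'
    have hCR := Cfsg.Agent.Lib.ThreeT.CR_all hprim hc hw'
    have hconn := Cfsg.Agent.Lib.ThreeT.connected_of_CR ha₀ hCR
    obtain ⟨L, hLn, hL, hF⟩ := Cfsg.Agent.Lib.ThreeT.exists_quasisimple_normal hD hD2 h2 h3
    have hLc : Cfsg.IsComponent L := ⟨hLn.isSubnormal, hL⟩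
    have hidx : L.index ≤ 2 := by
      apply Cfsg.Agent.Lib.ThreeT.index_le_two_of_mul_mem hD hLn
      intro a ha b hb
      obtain ⟨w⟩ := hconn.preconnected ⟨a, ha⟩ ⟨b, hb⟩
      exact Cfsg.Agent.Lib.ThreeT.mul_mem_of_connected hD hLc hLn w
    have hcen : Subgroup.center L = ⊥ := by
      rw [eq_bot_iff]
      rintro ⟨x, hx⟩ hxc
      have h4 : x ∈ Subgroup.centralizer (L : Set G) := by
        refine Subgroup.mem_centralizer_iff.2 (fun y hy => ?_)
        have := Subgroup.mem_center_iff.1 hxc ⟨y, hy⟩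
        simpa using congrArg Subtype.val this
      have h5 := Cfsg.Agent.Lib.ThreeT.centralizer_le_center_of_gen hD h2 h3 hLn hF h4
      rw [hZ] at h5
      have h6 : x = 1 := by simpa using h5
      exact Subtype.ext (by simpa using h6)
    have heq : commutator G = L := by
      apply le_antisymm (hcomL hLn hidx)
      have := Cfsg.Agent.Lib.FStar.qs_subgroup_perfect hL
      rw [← this, commutator_def]
      exact Subgroup.commutator_mono le_top le_top
    rw [heq]
    have hnt := Cfsg.Agent.Lib.FStar.qs_nontrivial hL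
    refine ⟨fun N hN => ?_⟩
    rcases Cfsg.Agent.Lib.FStar.qs_normal_eq_top_or_le_center hL N with h | h
    · exact Or.inr h
    · left
      rw [hcen, le_bot_iff] at h
      exact h
  · intro hprim
    obtain ⟨h2, h3⟩ := Cfsg.Agent.Lib.ThreeT.cores_central_of_primitive hD hprim hw'
    rw [hZ, le_bot_iff] at h2 h3
    exact ⟨h2, h3, Cfsg.Agent.Lib.ThreeT.connected_of_CR ha₀ (Cfsg.Agent.Lib.ThreeT.CR_all hprim hc hw')⟩
  · rintro ⟨h2, h3, hconn⟩
    have h2' : Cfsg.pCore 2 G ≤ Subgroup.center G := by rw [h2]; exact bot_le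
    have h3' : Cfsg.pCore 3 G ≤ Subgroup.center G := by rw [h3]; exact bot_le
    obtain ⟨L, hLn, hL, hF⟩ := Cfsg.Agent.Lib.ThreeT.exists_quasisimple_normal hD hD2 h2' h3'
    have hLc : Cfsg.IsComponent L := ⟨hLn.isSubnormal, hL⟩
    refine Cfsg.Agent.Lib.ThreeT.primitive_of_index_le_two hD hD2 hLn ?_
      (fun N hN hnc => Cfsg.Agent.Lib.ThreeT.le_of_not_le_center hD h2' h3' hLn hL hF N hN hnc)
    apply Cfsg.Agent.Lib.ThreeT.index_le_two_of_mul_mem hD hLn
    intro a ha b hb
    obtain ⟨w⟩ := hconn.preconnected ⟨a, ha⟩ ⟨b, hb⟩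
    exact Cfsg.Agent.Lib.ThreeT.mul_mem_of_connected hD hLc hLn w

end Cfsg.Agent.S5361
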