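import Cfsg.Statements.S5363
import Cfsg.Agent.Lib.ThreeT.Dihedral
import Cfsg.Agent.Lib.ThreeT.Basic
import Mathlib

set_option autoImplicit false
open Cfsg

namespace Cfsg.Agent.S5363

open Cfsg.Agent.Lib.ThreeT

/-- Let D be a conjugation-invariant set of involutions of a finite group G. Then every product of two members of D has odd order or order 2 if and only if, for every a in D and every b in D different from a and commuting with a, the members of D commuting with a b are exactly those commuting with both a and b. -/
theorem result {G : Type*} [Group G] [Finite G] {D : Set G} (hinv : ∀ d ∈ D, orderOf d = 2) (hconj : ∀ g : G, ∀ d ∈ D, g * d * g⁻¹ ∈ D) : (∀ a ∈ D, ∀ b ∈ D, Odd (orderOf (a * b)) ∨ orderOf (a * b) = 2) ↔ ∀ a ∈ D, ∀ b ∈ D, b ≠ a → Commute a b → {y : G | y ∈ D ∧ Commute (a * b) y} = {y : G | y ∈ D ∧ Commute a y} ∩ {y : G | y ∈ D ∧ Commute b y} := by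
  have hsq : ∀ d ∈ D, d * d = 1 := fun d hd => mul_self_of_orderOf (hinv d hd)
  constructor
  · intro h a ha b hb hba hab
    have haa := hsq a ha
    have hbb := hsq b hb
    have hai : a⁻¹ = a := inv_eq_of_mul_eq_one_left haa
    have hbi : b⁻¹ = b := inv_eq_of_mul_eq_one_left hbb
    ext y
    constructor
    · rintro ⟨hy, hyab⟩
      have hyy := hsq y hy
      have hyi : y⁻¹ = y := inv_eq_of_mul_eq_one_left hyy
      have hyab' : y * (a * b) = (a * b) * y := hyab.eq.symm
      have e0 : y * a = a * b * y * b := by
        calc y * a = y * a * (b * b) := by rw [hbb, mul_one]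
          _ = y * (a * b) * b := by group
          _ = a * b * y * b := by rw [hyab']
      obtain ⟨u, hu⟩ : ∃ u, u = a * y := ⟨_, rfl⟩
      obtain ⟨v, hv⟩ : ∃ v, v = b * y := ⟨_, rfl⟩
      have hsqeq : u * u = v * v := by
        rw [hu, hv]
        calc a * y * (a * y) = a * (y * a) * y := by group
          _ = a * (a * b * y * b) * y := by rw [e0]
          _ = (a * a) * b * y * b * y := by group
          _ = b * y * (b * y) := by rw [haa, one_mul]; group
      have hfinal : u * u = 1 → y ∈ {y : G | y ∈ D ∧ Commute a y} ∩ {y : G | y ∈ D ∧ Commute b y} := by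
        intro h1
        have hay : Commute a y := by
          apply commute_of_mul_sq haa hyy
          rw [pow_two, ← hu]; exact h1
        refine ⟨⟨hy, hay⟩, hy, ?_⟩
        have h2 : Commute (a * (a * b)) y := hay.mul_left hyab
        have h3 : a * (a * b) = b := by rw [← mul_assoc, haa, one_mul]
        rwa [h3] at h2
      have hprod : u * v⁻¹ = a * b := by
        rw [hu, hv, mul_inv_rev, hyi, hbi]
        calc a * y * (y * b) = a * (y * y) * b := by group
          _ = a * b := by rw [hyy, mul_one]
      rcases h a ha y hy with hu2 | hu2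
      · rcases h b hb y hy with hv2 | hv2
        · exfalso
          rw [← hu] at hu2
          rw [← hv] at hv2
          obtain ⟨k, hk⟩ := hu2
          obtain ⟨l, hl⟩ := hv2
          have hu1 : u ^ (2 * k + 1) = 1 := by rw [← hk]; exact pow_orderOf_eq_one u
          have hv1 : v ^ (2 * l + 1) = 1 := by rw [← hl]; exact pow_orderOf_eq_one v
          have hux : u = (u * u) ^ (k + 1) := by
            rw [← pow_two, ← pow_mul]
            have : 2 * (k + 1) = (2 * k + 1) + 1 := by ring
            rw [this, pow_succ, hu1, one_mul]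
          have hvx : v = (v * v) ^ (l + 1) := by
            rw [← pow_two, ← pow_mul]
            have : 2 * (l + 1) = (2 * l + 1) + 1 := by ring
            rw [this, pow_succ, hv1, one_mul]
          have huv : Commute u v := by
            rw [hux, hvx, ← hsqeq]
            exact ((Commute.refl _).pow_left _).pow_right _
          have h1 : (u * v⁻¹) ^ ((2 * k + 1) * (2 * l + 1)) = 1 := by
            rw [(huv.inv_right).mul_pow, pow_mul, hu1, one_pow, one_mul, inv_pow, mul_comm, pow_mul, hv1,
              one_pow, inv_one]
          rw [hprod] at h1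
          have h2 : (a * b) ^ 2 = 1 := mul_sq_of_commute haa hbb hab
          have hc : Nat.gcd ((2 * k + 1) * (2 * l + 1)) 2 = 1 := by
            apply Nat.Coprime.symm
            rw [Nat.coprime_two_left]
            exact Odd.mul ⟨k, rfl⟩ ⟨l, rfl⟩
          have h3 := (pow_gcd_eq_one (a := a * b)).2 ⟨h1, h2⟩
          rw [hc, pow_one] at h3
          apply hba
          have := eq_inv_of_mul_eq_one_right h3
          rw [this, hai]
        · apply hfinal
          rw [hsqeq, hv]
          have := pow_orderOf_eq_one (b * y)
          rwa [hv2, pow_two] at this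
      · apply hfinal
        rw [hu]
        have := pow_orderOf_eq_one (a * y)
        rwa [hu2, pow_two] at this
    · rintro ⟨⟨hy, hay⟩, -, hby⟩
      exact ⟨hy, hay.mul_left hby⟩
  · intro h a ha b hb
    by_contra hcon
    push Not at hcon
    obtain ⟨h1, h2⟩ := hcon
    rw [Nat.not_odd_iff_even] at h1
    obtain ⟨m, hm⟩ := h1
    have haa := hsq a ha
    have hbb := hsq b hb
    have hpos : 0 < orderOf (a * b) := orderOf_pos _
    have hm0 : 0 < m := by omega
    obtain ⟨hw1, hww, haw, hbw, hcj⟩ := dihedral_central haa hbb hm hm0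
    obtain ⟨w, hw⟩ : ∃ w, w = (a * b) ^ m := ⟨_, rfl⟩
    rw [← hw] at hw1 hww haw hbw hcj
    have ha' : a * w ∈ D := by
      rcases hcj with hc | hc
      · obtain ⟨g, hg⟩ := isConj_iff.1 hc
        rw [← hg]; exact hconj g a ha
      · obtain ⟨g, hg⟩ := isConj_iff.1 hc
        rw [← hg]; exact hconj g b hb
    have hne : a * w ≠ a := by
      intro h3
      exact hw1 (mul_eq_left.1 h3)
    have hcomm : Commute a (a * w) := by
      show a * (a * w) = a * w * a
      rw [mul_assoc, ← haw, ← mul_assoc]
    have hset := h a ha (a * w) ha' hne hcomm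
    have he : a * (a * w) = w := by rw [← mul_assoc, haa, one_mul]
    rw [he] at hset
    have hbmem : b ∈ {y : G | y ∈ D ∧ Commute w y} := ⟨hb, hbw.symm⟩
    rw [hset] at hbmem
    have hab : Commute a b := hbmem.1.2
    have h3 : (a * b) ^ 2 = 1 := mul_sq_of_commute haa hbb hab
    have h4 : orderOf (a * b) ∣ 2 := orderOf_dvd_of_pow_eq_one h3
    have h5 : orderOf (a * b) ≤ 2 := Nat.le_of_dvd (by norm_num) h4
    omega

end Cfsg.Agent.S5363
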