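import Cfsg.Statements.S5364
import Cfsg.Agent.Lib.ThreeT.Basic
import Mathlib

set_option autoImplicit false
open Cfsg

namespace Cfsg.Agent.S5364

/-- Let D be a conjugation-invariant set of involutions of a finite group G and t an involution in the centre of G such that d t does not lie in D for any d in D. If the images of the members of D in G modulo the subgroup generated by t satisfy the 3-transposition order conditions (each has order 2 and any two have product of order at most 3), then so do the members of D. -/
theorem result {G : Type*} [Group G] [Finite G] {D : Set G} (hinv : ∀ d ∈ D, orderOf d = 2) (hconj : ∀ g : G, ∀ d ∈ D, g * d * g⁻¹ ∈ D) (t : G) (ht : orderOf t = 2) (htZ : t ∈ Subgroup.center G) (hDt : ∀ d ∈ D, d * t ∉ D) [(Subgroup.zpowers t).Normal] (himg : Cfsg.IsThreeTranspositionSet ((QuotientGroup.mk : G → G ⧸ Subgroup.zpowers t) '' D)) : Cfsg.IsThreeTranspositionSet D := by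
  refine ⟨hinv, ?_⟩
  intro d hd e he
  have hdd : d * d = 1 := by
    have := pow_orderOf_eq_one d
    rwa [hinv d hd, pow_two] at this
  have hee : e * e = 1 := by
    have := pow_orderOf_eq_one e
    rwa [hinv e he, pow_two] at this
  have hdi : d⁻¹ = d := inv_eq_of_mul_eq_one_left hdd
  have hei : e⁻¹ = e := inv_eq_of_mul_eq_one_left hee
  have htt : t * t = 1 := by
    have := pow_orderOf_eq_one t
    rwa [ht, pow_two] at this
  have hmem : ∀ x : G, ((x : G ⧸ Subgroup.zpowers t) = 1) → x = 1 ∨ x = t := by
    intro x hx
    have hx' : x ∈ Subgroup.zpowers t := (QuotientGroup.eq_one_iff x).1 hx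
    obtain ⟨k, rfl⟩ := hx'
    have : t ^ k = 1 ∨ t ^ k = t := by
      rcases Int.emod_two_eq_zero_or_one k with h | h
      · left
        apply orderOf_dvd_iff_zpow_eq_one.1
        rw [ht]; omega
      · right
        have h1 : ((orderOf t : ℕ) : ℤ) ∣ (k - 1) := by rw [ht]; omega
        have := orderOf_dvd_iff_zpow_eq_one.1 h1
        rw [zpow_sub, zpow_one] at this
        exact mul_inv_eq_one.1 this
    simpa using this
  rcases himg.2 (d : G ⧸ Subgroup.zpowers t) ⟨d, hd, rfl⟩ (e : G ⧸ Subgroup.zpowers t) ⟨e, he, rfl⟩ with h | h
  · rw [← QuotientGroup.mk_mul, ← QuotientGroup.mk_pow] at h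
    rcases hmem _ h with h' | h'
    · exact Or.inl h'
    · -- (de)^2 = t : then e d e = d t
      exfalso
      apply hDt d hd
      have : d * t = e * d * e⁻¹ := by
        rw [← h', hei, pow_two]
        calc d * (d * e * (d * e)) = (d * d) * e * d * e := by group
          _ = e * d * e := by rw [hdd, one_mul]
      rw [this]
      exact hconj e d hd
  · rw [← QuotientGroup.mk_mul, ← QuotientGroup.mk_pow] at h
    rcases hmem _ h with h' | h'
    · exact Or.inr h'
    · exfalso
      apply hDt d hd
      have : d * t = (e * d) * e * (e * d)⁻¹ := by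
        rw [← h', mul_inv_rev, hdi, hei]
        simp only [pow_succ, pow_zero, one_mul]
        calc d * (d * e * (d * e) * (d * e)) = (d * d) * e * d * e * d * e := by group
          _ = e * d * e * d * e := by rw [hdd, one_mul]
          _ = e * d * e * (d * e) := by group
      rw [this]
      exact hconj (e * d) e he

end Cfsg.Agent.S5364
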