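import Cfsg.Statements.S5365
import Cfsg.Agent.Lib.ThreeT.LocS3c

set_option autoImplicit false
open Cfsg

namespace Cfsg.Agent.S5365

/-- Let D be a non-empty conjugation-invariant set of involutions of a finite group G satisfying the 3-transposition order conditions, and suppose that for every d in D the members of D other than d commuting with d generate a subgroup isomorphic to the symmetric group of degree 3, and the largest normal 3-subgroup of the centralizer of d has order 3. Then the subgroup generated by D is isomorphic to the symmetric group of degree 5 or to the direct product of two symmetric groups of degree 3. -/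
theorem result {G : Type*} [Group G] [Finite G] {D : Set G} (hD : Cfsg.IsThreeTranspositionSet D) (hconj : ∀ g : G, ∀ d ∈ D, g * d * g⁻¹ ∈ D) (hne : D.Nonempty) (hloc : ∀ d ∈ D, Nonempty (↥(Subgroup.closure {y : G | y ∈ D ∧ y ≠ d ∧ Commute d y}) ≃* Equiv.Perm (Fin 3)) ∧ Nat.card (Cfsg.pCore 3 ↥(Subgroup.centralizer ({d} : Set G))) = 3) : Nonempty (↥(Subgroup.closure D) ≃* Equiv.Perm (Fin 5)) ∨ Nonempty (↥(Subgroup.closure D) ≃* Equiv.Perm (Fin 3) × Equiv.Perm (Fin 3)) := by
  classical
  have hloc' : ∀ d ∈ D, Nonempty (↥(Subgroup.closure (Cfsg.Agent.Lib.ThreeT.LocS.NN D d)) ≃* Equiv.Perm (Fin 3)) :=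
    fun d hd => (hloc d hd).1
  have hsq : ∀ d ∈ D, d * d = 1 := by
    intro d hd
    have := pow_orderOf_eq_one d
    rw [hD.1 d hd, pow_two] at this
    exact this
  have hne1 : ∀ d ∈ D, d ≠ 1 := by
    rintro d hd rfl
    have := hD.1 1 hd
    rw [orderOf_one] at this
    omega
  -- the symmetric group of degree three
  have hS3 : ∀ s t : Equiv.Perm (Fin 3), s * s = 1 → t * t = 1 → s ≠ 1 → t ≠ 1 → s ≠ t → s * t ≠ t * s → 
      ∀ y : Equiv.Perm (Fin 3), y * y = 1 → y ≠ 1 → y = s ∨ y = t ∨ y = s * t * s := by decide +revert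
  have hcenter : ∀ g : Equiv.Perm (Fin 3), (∀ h, g * h = h * g) → g = 1 := by decide
  have hnoncomm : ¬ ∀ g h : Equiv.Perm (Fin 3), g * h = h * g := by decide
  have hpre : ∀ d ∈ D, (∃ u ∈ Cfsg.Agent.Lib.ThreeT.LocS.NN D d, ∃ v ∈ Cfsg.Agent.Lib.ThreeT.LocS.NN D d, u * v ≠ v * u) ∧
      (Cfsg.Agent.Lib.ThreeT.LocS.NN D d).ncard = 3 := by
    intro d hd
    obtain ⟨e⟩ := hloc' d hd
    have hpair : ∃ u ∈ Cfsg.Agent.Lib.ThreeT.LocS.NN D d, ∃ v ∈ Cfsg.Agent.Lib.ThreeT.LocS.NN D d, u * v ≠ v * u := by
      by_contra hcon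
      push Not at hcon
      apply hnoncomm
      intro g h
      have h1 := Cfsg.Agent.Lib.ThreeT.closure_comm_of_comm (S := Cfsg.Agent.Lib.ThreeT.LocS.NN D d)
        (fun a ha b hb => hcon a ha b hb) (e.symm g).1 (e.symm g).2 (e.symm h).1 (e.symm h).2
      have h2 : e.symm g * e.symm h = e.symm h * e.symm g := Subtype.ext h1
      rw [← map_mul, ← map_mul] at h2
      exact e.symm.injective h2
    refine ⟨hpair, ?_⟩
    obtain ⟨u, hu, v, hv, huv⟩ := hpair
    have su := hsq u hu.1
    have sv := hsq v hv.1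
    have hw : u * v * u ∈ Cfsg.Agent.Lib.ThreeT.LocS.NN D d := by
      refine ⟨?_, fun h => hv.2.1 ?_, ?_⟩
      · have := hconj u v hv.1
        rwa [Cfsg.Agent.Lib.ThreeT.LocS.inv_of_sq su] at this
      · have h1 : v = u * d * u := by
          rw [← h]
          calc v = (u * u) * v * (u * u) := by rw [su]; group
            _ = _ := by group
        have c : d * u = u * d := hu.2.2
        rw [h1, ← c, mul_assoc, su, mul_one]
      · have e1 : d * u = u * d := hu.2.2
        have e2 : d * v = v * d := hv.2.2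
        show d * (u * v * u) = (u * v * u) * d
        calc d * (u * v * u) = (d * u) * v * u := by group
          _ = u * (d * v) * u := by rw [e1]; group
          _ = u * v * (d * u) := by rw [e2]; group
          _ = _ := by rw [e1]; group
    have hmem : ∀ {y : G} (hy : y ∈ Cfsg.Agent.Lib.ThreeT.LocS.NN D d),
        y ∈ Subgroup.closure (Cfsg.Agent.Lib.ThreeT.LocS.NN D d) := fun hy => Subgroup.subset_closure hy
    have hinv : ∀ {y : G} (hy : y ∈ Cfsg.Agent.Lib.ThreeT.LocS.NN D d), (e ⟨y, hmem hy⟩) * (e ⟨y, hmem hy⟩) = 1 ∧ e ⟨y, hmem hy⟩ ≠ 1 := by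
      intro y hy
      constructor
      · rw [← map_mul]
        have : (⟨y, hmem hy⟩ : Subgroup.closure (Cfsg.Agent.Lib.ThreeT.LocS.NN D d)) * ⟨y, hmem hy⟩ = 1 :=
          Subtype.ext (hsq y hy.1)
        rw [this, map_one]
      · intro h
        apply hne1 y hy.1
        have := e.injective (h.trans (map_one e).symm)
        exact congrArg Subtype.val this
    have huv' : u ≠ v := fun h => huv (by rw [h])
    have heuv : e ⟨u, hmem hu⟩ ≠ e ⟨v, hmem hv⟩ := fun h => huv' (congrArg Subtype.val (e.injective h))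
    have hcomm' : e ⟨u, hmem hu⟩ * e ⟨v, hmem hv⟩ ≠ e ⟨v, hmem hv⟩ * e ⟨u, hmem hu⟩ := by
      intro h
      rw [← map_mul, ← map_mul] at h
      exact huv (congrArg Subtype.val (e.injective h))
    have hEq : Cfsg.Agent.Lib.ThreeT.LocS.NN D d = {u, v, u * v * u} := by
      ext y
      constructor
      · intro hy
        have h1 := hS3 _ _ (hinv hu).1 (hinv hv).1 (hinv hu).2 (hinv hv).2 heuv hcomm' _ (hinv hy).1 (hinv hy).2
        simp only [Set.mem_insert_iff, Set.mem_singleton_iff]
        rcases h1 with h1 | h1 | h1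
        · exact Or.inl (congrArg Subtype.val (e.injective h1))
        · exact Or.inr (Or.inl (congrArg Subtype.val (e.injective h1)))
        · right; right
          rw [← map_mul, ← map_mul] at h1
          exact congrArg Subtype.val (e.injective h1)
      · intro hy
        simp only [Set.mem_insert_iff, Set.mem_singleton_iff] at hy
        rcases hy with rfl | rfl | rfl
        · exact hu
        · exact hv
        · exact hw
    rw [hEq]
    refine Set.ncard_eq_three.2 ⟨u, v, u * v * u, huv', fun h => huv ?_, fun h => huv ?_, rfl⟩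
    · have h2 : v = u := by
        have : u * (u * v * u) * u = u * u * u := by rw [← h]
        rw [su, one_mul] at this
        rw [← this]
        calc v = (u * u) * v * (u * u) := by rw [su]; group
          _ = _ := by group
      rw [h2]
    · calc u * v = u * v * u * u := by rw [mul_assoc (u * v), su, mul_one]
        _ = v * u := by rw [← h]
  have L : Cfsg.Agent.Lib.ThreeT.LocS.Loc D := by
    refine ⟨hsq, hne1, ?_, hconj, fun d hd => (hpre d hd).2, fun d hd => (hpre d hd).1⟩
    intro a ha b hb hab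
    rcases hD.2 a ha b hb with h | h
    · exfalso
      apply hab
      have h1 : a * b * (a * b) = 1 := by rw [← pow_two]; exact h
      calc a * b = a * b * ((a * b) * (b * a)) := by
            have : (a * b) * (b * a) = 1 := by
              calc (a * b) * (b * a) = a * (b * b) * a := by group
                _ = 1 := by rw [hsq b hb, mul_one, hsq a ha]
            rw [this, mul_one]
        _ = (a * b * (a * b)) * (b * a) := by group
        _ = b * a := by rw [h1, one_mul]
    · exact h
  obtain ⟨d₀, hd₀⟩ := hne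
  by_cases htw : ∃ a ∈ D, Cfsg.Agent.Lib.ThreeT.LocS.Twin D a
  · right
    obtain ⟨a, ha, hta⟩ := htw
    have AT : ∀ e ∈ D, Cfsg.Agent.Lib.ThreeT.LocS.Twin D e := fun e he => L.twin_all ha hta he
    obtain ⟨p, hp, -, -, -⟩ := L.pair d₀ hd₀
    have hcover : ∀ x ∈ D, x ∈ Cfsg.Agent.Lib.ThreeT.LocS.NN D d₀ ∨ x ∈ Cfsg.Agent.Lib.ThreeT.LocS.NN D p := by
      intro x hx
      by_contra hcon
      push Not at hcon
      obtain ⟨h1, h2⟩ := hcon
      refine Cfsg.Agent.Lib.ThreeT.LocS.no_outside L AT (fun d hd => (hloc d hd).2) hd₀ hp hx ?_ ?_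
      · intro h
        by_cases h3 : x = d₀
        · exact h2 (h3 ▸ L.nn_symm hd₀ hp)
        · exact h1 ⟨hx, h3, h⟩
      · intro h
        by_cases h3 : x = p
        · exact h1 (h3 ▸ hp)
        · exact h2 ⟨hx, h3, h⟩
    obtain ⟨e₁⟩ := hloc' d₀ hd₀
    obtain ⟨e₂⟩ := hloc' p hp.1
    obtain ⟨E⟩ := Cfsg.Agent.Lib.ThreeT.LocS.prod_iso L AT hd₀ hp hcover (by
      intro x hx h
      have h1 : e₁ ⟨x, hx⟩ = 1 := by
        apply hcenter
        intro g
        have h2 := h (e₁.symm g).1 (e₁.symm g).2
        have h3 : (⟨x, hx⟩ : Subgroup.closure (Cfsg.Agent.Lib.ThreeT.LocS.NN D d₀)) * e₁.symm g = e₁.symm g * ⟨x, hx⟩ := Subtype.ext h2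
        have h4 := congrArg e₁ h3
        simpa using h4
      have h2 := e₁.injective (h1.trans (map_one e₁).symm)
      exact congrArg Subtype.val h2)
    exact ⟨E.trans (MulEquiv.prodCongr e₁ e₂)⟩
  · left
    push Not at htw
    exact Cfsg.Agent.Lib.ThreeT.LocS.sym5_of_noTwins L htw hd₀

end Cfsg.Agent.S5365
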