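import Cfsg.Statements.S5367
import Cfsg.Agent.Lib.ThreeT.FischerFQ
import Cfsg.Agent.Lib.ThreeT.Basic

set_option autoImplicit false
open Cfsg

namespace Cfsg.Agent.S5367

/-- Let D be a conjugation-invariant generating set of 3-transpositions of a finite group G. Then the line system on D whose lines are the triples {x, y, y x y⁻¹} for non-commuting members x, y of D is a Fischer space: two points lie on at most one line, lines have three points, and two different meeting lines generate a subspace isomorphic to the dual affine plane of order two or to the affine plane of order three. -/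
theorem result {G : Type*} [Group G] [Finite G] {D : Set G} (hD : Cfsg.IsThreeTranspositionGroup D) : Cfsg.IsFischerSpace (Cfsg.threeTranspositionLines D) := by
  have hT := hD.1
  have hcj := hD.2.1
  let s : D → D → D := fun a b => ⟨(a : G) * b * (a : G)⁻¹, hcj a b b.2⟩
  have hsq : ∀ a : D, (a : G) * a = 1 := fun a => Lib.ThreeT.mul_self_of_mem hT a.2
  have hinv : ∀ a : D, (a : G)⁻¹ = a := fun a => Lib.ThreeT.inv_of_mem hT a.2
  have hQ : Lib.ThreeT.FischerFQ.IsFQ s := by
    refine ⟨?_, ?_, ?_, ?_, ?_⟩
    · intro x
      apply Subtype.ext
      simp [s]
    · intro x y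
      apply Subtype.ext
      simp only [s]
      rw [hinv x]
      calc (x : G) * (x * y * x) * x = (x * x) * y * (x * x) := by group
        _ = y := by rw [hsq x]; group
    · intro x y z
      apply Subtype.ext
      simp only [s]
      group
    · intro x y
      by_cases hc : Commute (x : G) (y : G)
      · left
        apply Subtype.ext
        simp only [s]
        rw [hc.eq]
        group
      · right
        apply Subtype.ext
        simp only [s]
        rw [hinv x, hinv y]
        exact Lib.ThreeT.braid_of_cube (hsq x) (hsq y) (Lib.ThreeT.mul_cube_of_not_commute hT x.2 y.2 hc)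
    · intro x y e
      have e' : (x : G) * y * (x : G)⁻¹ = y := congrArg Subtype.val e
      apply Subtype.ext
      simp only [s]
      have : (x : G) * y = y * x := by
        rw [mul_inv_eq_iff_eq_mul] at e'
        exact e'
      rw [← this]
      group
  have hlines : Cfsg.threeTranspositionLines D = Lib.ThreeT.FischerFQ.fqLines s := by
    ext l
    constructor
    · rintro ⟨x, y, hc, rfl⟩
      refine ⟨x, y, ?_, ?_⟩
      · intro e
        have e' : (y : G) * x * (y : G)⁻¹ = x := congrArg Subtype.val e
        apply hc
        rw [mul_inv_eq_iff_eq_mul] at e'
        exact e'.symm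
      · ext z
        simp only [Set.mem_ofPred_eq, Subtype.ext_iff, s]
    · rintro ⟨x, y, hc, rfl⟩
      refine ⟨x, y, ?_, ?_⟩
      · intro e
        apply hc
        apply Subtype.ext
        simp only [s]
        rw [e.eq.symm]
        group
      · ext z
        simp only [Set.mem_ofPred_eq, Subtype.ext_iff, s]
  rw [hlines]
  exact Lib.ThreeT.FischerFQ.IsFQ.isFischerSpace hQ

end Cfsg.Agent.S5367
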