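import Cfsg.Statements.S5393
import Cfsg.Agent.Lib.M24.Words

set_option autoImplicit false
open Cfsg

namespace Cfsg.Agent.S5393

open Cfsg.Agent.Lib.M24 Cfsg.Agent.Lib.Compute Cfsg.Agent.Lib.Golay

/-- The length-24 code built from the squares modulo 23 contains the all-ones word, and the code modulo the all-ones word is an irreducible module over the field with two elements for the code's automorphism group: a subspace of the code that contains the all-ones word and is invariant under every coordinate permutation preserving the code is either the span of the all-ones word or the whole code. -/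
theorem result : (fun _ : Cfsg.GolayPt => (1 : ZMod 2)) ∈ Cfsg.golayCode ∧ ∀ W : Submodule (ZMod 2) (Cfsg.GolayPt → ZMod 2), (fun _ => (1 : ZMod 2)) ∈ W → W ≤ Cfsg.golayCode → (∀ σ ∈ Cfsg.M24, ∀ w ∈ W, (fun p => w (σ.symm p)) ∈ W) → W = Submodule.span (ZMod 2) {fun _ => (1 : ZMod 2)} ∨ W = Cfsg.golayCode := by
  refine ⟨allOne_mem, fun W h1 hle hinv => ?_⟩
  by_cases hex : ∃ c ∈ W, c ≠ 0 ∧ c ≠ allOne
  · obtain ⟨c, hc, h0, h2⟩ := hex
    exact Or.inr (le_antisymm hle (code_le_of_mem hinv hc (hle hc) h0 h2))
  · left
    push Not at hex
    apply le_antisymm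
    · intro x hx
      rw [mem_span_allOne]
      by_cases hx0 : x = 0
      · exact Or.inl hx0
      · exact Or.inr (hex x hx hx0)
    · rw [Submodule.span_singleton_le_iff_mem]
      exact h1

end Cfsg.Agent.S5393
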