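import Cfsg.Statements.S5394
import Mathlib
import Cfsg.Agent.Lib.M24.Inv

set_option autoImplicit false
open Cfsg Cfsg.Agent.Lib.M24 Cfsg.Agent.Lib.Golay Cfsg.Agent.Lib.Compute

namespace Cfsg.Agent.S5394

/-- The automorphism group of the length-24 code built from the squares modulo 23 has exactly two conjugacy classes of involutions: an involution either fixes exactly the eight points of an octad or has no fixed points, both kinds occur, and any two involutions of the same kind are conjugate in the group. -/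
theorem result : (∀ g ∈ Cfsg.M24, orderOf g = 2 → (Finset.univ.filter fun p => g p = p) ∈ Cfsg.octads ∨ ∀ p, g p ≠ p) ∧ (∃ g ∈ Cfsg.M24, orderOf g = 2 ∧ (Finset.univ.filter fun p => g p = p) ∈ Cfsg.octads) ∧ (∃ g ∈ Cfsg.M24, orderOf g = 2 ∧ ∀ p, g p ≠ p) ∧ ∀ g ∈ Cfsg.M24, ∀ h ∈ Cfsg.M24, orderOf g = 2 → orderOf h = 2 → ((∀ p, g p ≠ p) ↔ (∀ p, h p ≠ p)) → ∃ k ∈ Cfsg.M24, k * g * k⁻¹ = h := by
  have key : ∀ g ∈ Cfsg.M24, orderOf g = 2 → ∃ k ∈ Cfsg.M24, k * g * k⁻¹ = ppm r2a ∨ k * g * k⁻¹ = ppm r2b := by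
    intro g hg h2
    exact involution_classify hg (order_two_iff.1 h2).1 (order_two_iff.1 h2).2
  refine ⟨?_, ⟨ppm r2a, vld_mem r2a_vld, order_two_iff.2 ⟨r2a_sq, r2a_ne_one⟩, ?_⟩,
    ⟨ppm r2b, vld_mem r2b_vld, order_two_iff.2 ⟨r2b_sq, r2b_ne_one⟩, r2b_fpf⟩, ?_⟩
  · intro g hg h2
    obtain ⟨k, hk, h | h⟩ := key g hg h2
    · left
      have h1 : k⁻¹ * (k * g * k⁻¹) * k⁻¹⁻¹ = g := by group
      rw [← h1, filter_conj, h, r2a_filter]
      exact image_mem_octads (M24.inv_mem hk) r2a_fix_octad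
    · right
      exact (fpf_conj_iff h).2 r2b_fpf
  · rw [r2a_filter]
    exact r2a_fix_octad
  · intro g hg h hh h2 h2' hfp
    obtain ⟨k, hk, hk'⟩ := key g hg h2
    obtain ⟨l, hl, hl'⟩ := key h hh h2'
    have conj_of : k * g * k⁻¹ = l * h * l⁻¹ → ∃ c ∈ Cfsg.M24, c * g * c⁻¹ = h := by
      intro e
      refine ⟨l⁻¹ * k, M24.mul_mem (M24.inv_mem hl) hk, ?_⟩
      have : (l⁻¹ * k) * g * (l⁻¹ * k)⁻¹ = l⁻¹ * (k * g * k⁻¹) * l := by group
      rw [this, e]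
      group
    rcases hk' with hk' | hk' <;> rcases hl' with hl' | hl'
    · exact conj_of (hk'.trans hl'.symm)
    · exact absurd ((fpf_conj_iff hk').1 (hfp.2 ((fpf_conj_iff hl').2 r2b_fpf))) r2a_not_fpf
    · exact absurd ((fpf_conj_iff hl').1 (hfp.1 ((fpf_conj_iff hk').2 r2b_fpf))) r2a_not_fpf
    · exact conj_of (hk'.trans hl'.symm)

end Cfsg.Agent.S5394
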