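import Cfsg.Statements.S5395
import Mathlib

set_option autoImplicit false
open Cfsg

namespace Cfsg.Agent.S5395

open scoped IsMulCommutative

/-- For a finite extraspecial 2-group E, an automorphism of E that induces the identity on E modulo its centre is inner (so these automorphisms form exactly the inner automorphism group, an elementary abelian 2-group of order |E|/2). -/
theorem result {E : Type*} [Group E] [Finite E] (hE : Cfsg.IsExtraspecial 2 E) (φ : E ≃* E) (hφ : ∀ x : E, φ x * x⁻¹ ∈ Subgroup.center E) : ∃ g : E, ∀ x : E, φ x = g * x * g⁻¹ := by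
  classical
  obtain ⟨⟨hp, hfr, hcomm⟩, hcard⟩ := hE
  have hc : ∀ g x : E, g * x * g⁻¹ * x⁻¹ ∈ Subgroup.center E := by
    intro g x
    rw [← hcomm]
    have := Subgroup.commutator_mem_commutator (Subgroup.mem_top g) (Subgroup.mem_top x)
    rwa [commutatorElement_def] at this
  have hcentral : ∀ t ∈ Subgroup.center E, ∀ y : E, y * t = t * y := by
    intro t ht y
    exact Subgroup.mem_center_iff.1 ht y
  -- the homomorphisms
  let b : E → (E →* Subgroup.center E) := fun g =>
    MonoidHom.mk' (fun x => ⟨g * x * g⁻¹ * x⁻¹, hc g x⟩) (by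
      intro x y
      apply Subtype.ext
      show g * (x * y) * g⁻¹ * (x * y)⁻¹ = g * x * g⁻¹ * x⁻¹ * (g * y * g⁻¹ * y⁻¹)
      have h1 := hcentral _ (hc g y) x⁻¹
      calc g * (x * y) * g⁻¹ * (x * y)⁻¹ = g * x * g⁻¹ * ((g * y * g⁻¹ * y⁻¹) * x⁻¹) := by group
        _ = g * x * g⁻¹ * (x⁻¹ * (g * y * g⁻¹ * y⁻¹)) := by rw [h1]
        _ = _ := by group)
  let c : E →* Subgroup.center E :=
    MonoidHom.mk' (fun x => ⟨φ x * x⁻¹, hφ x⟩) (by
      intro x y
      apply Subtype.ext
      show φ (x * y) * (x * y)⁻¹ = φ x * x⁻¹ * (φ y * y⁻¹)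
      have h1 := hcentral _ (hφ y) x⁻¹
      rw [map_mul]
      calc φ x * φ y * (x * y)⁻¹ = φ x * ((φ y * y⁻¹) * x⁻¹) := by group
        _ = φ x * (x⁻¹ * (φ y * y⁻¹)) := by rw [h1]
        _ = _ := by group)
  -- every hom E → Z kills Z
  have hkill : ∀ f : E →* Subgroup.center E, ∀ z ∈ Subgroup.center E, f z = 1 := by
    intro f z hz
    have hle : commutator E ≤ f.ker := by
      rw [commutator_def, Subgroup.commutator_le]
      intro g _ h _
      rw [MonoidHom.mem_ker, map_commutatorElement, commutatorElement_eq_one_iff_mul_comm]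
      exact mul_comm' _ _
    rw [← hcomm] at hz
    exact hle hz
  -- E/Z is commutative
  have hAcomm : ∀ a b : E ⧸ Subgroup.center E, a * b = b * a := by
    intro a b
    induction a using QuotientGroup.induction_on with
    | H x =>
      induction b using QuotientGroup.induction_on with
      | H y =>
        rw [← QuotientGroup.mk_mul, ← QuotientGroup.mk_mul, QuotientGroup.eq]
        have := hc y⁻¹ x⁻¹
        have e : (x * y)⁻¹ * (y * x) = y⁻¹ * x⁻¹ * y⁻¹⁻¹ * x⁻¹⁻¹ := by group
        rw [e]; exact this
  letI instA : CommGroup (E ⧸ Subgroup.center E) :=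
    { (inferInstance : Group (E ⧸ Subgroup.center E)) with mul_comm := hAcomm }
  -- injection into characters of E/Z
  have hZ2 : ∃ z : Subgroup.center E, z ≠ 1 := by
    have : Nontrivial (Subgroup.center E) := by
      apply Finite.one_lt_card_iff_nontrivial.1
      rw [hcard]; norm_num
    exact exists_ne 1
  obtain ⟨z, hz⟩ := hZ2
  obtain ⟨χ, hχ⟩ := CommGroup.exists_apply_ne_one_of_hasEnoughRootsOfUnity (Subgroup.center E) ℂ hz
  have hχinj : Function.Injective χ := by
    rw [injective_iff_map_eq_one]
    intro a ha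
    by_contra ha1
    have hzz : ∀ w : Subgroup.center E, w = 1 ∨ w = a := by
      intro w
      by_contra hw
      push Not at hw
      have hs : ({1, a, w} : Set (Subgroup.center E)).ncard = 3 := by
        rw [Set.ncard_eq_three]
        exact ⟨1, a, w, fun h => ha1 h.symm, fun h => hw.1 h.symm, fun h => hw.2 h.symm, rfl⟩
      have := Set.ncard_le_card ({1, a, w} : Set (Subgroup.center E))
      omega
    rcases hzz z with h | h
    · exact hz h
    · exact hχ (by rw [h, ha])
  let toChar : (E →* Subgroup.center E) → ((E ⧸ Subgroup.center E) →* ℂˣ) := fun f =>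
    χ.comp (QuotientGroup.lift (Subgroup.center E) f (hkill f))
  have htoChar : Function.Injective toChar := by
    intro f f' h
    ext x
    have := DFunLike.congr_fun h (x : E ⧸ Subgroup.center E)
    have h2 := hχinj this
    exact congrArg Subtype.val h2
  have hcardle : Nat.card (E →* Subgroup.center E) ≤ Nat.card (E ⧸ Subgroup.center E) := by
    have h1 := Nat.card_le_card_of_injective toChar htoChar
    have h2 := CommGroup.card_monoidHom_of_hasEnoughRootsOfUnity (E ⧸ Subgroup.center E) ℂ
    rwa [h2] at h1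
  -- the map E/Z → Hom
  have hb : ∀ g g' : E, (QuotientGroup.leftRel (Subgroup.center E)).r g g' → b g = b g' := by
    intro g g' h
    rw [QuotientGroup.leftRel_apply] at h
    ext x
    show g * x * g⁻¹ * x⁻¹ = g' * x * g'⁻¹ * x⁻¹
    have h1 := hcentral _ h x
    have e : g' = g * (g⁻¹ * g') := by group
    rw [e]
    obtain ⟨t, ht⟩ : ∃ t, t = g⁻¹ * g' := ⟨_, rfl⟩
    rw [← ht] at h1 ⊢
    calc g * x * g⁻¹ * x⁻¹ = g * (x * t) * t⁻¹ * g⁻¹ * x⁻¹ := by group
      _ = g * (t * x) * t⁻¹ * g⁻¹ * x⁻¹ := by rw [h1]
      _ = _ := by group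
  let F : (E ⧸ Subgroup.center E) → (E →* Subgroup.center E) := Quotient.lift b hb
  have hF : ∀ g : E, F (g : E ⧸ Subgroup.center E) = b g := fun g => rfl
  have hFinj : Function.Injective F := by
    intro a a' h
    induction a using QuotientGroup.induction_on with
    | H g =>
      induction a' using QuotientGroup.induction_on with
      | H g' =>
        rw [hF, hF] at h
        rw [QuotientGroup.eq, Subgroup.mem_center_iff]
        intro x
        have h1 : g * x * g⁻¹ * x⁻¹ = g' * x * g'⁻¹ * x⁻¹ := by
          have := DFunLike.congr_fun h x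
          exact congrArg Subtype.val this
        have h2 : g * x * g⁻¹ = g' * x * g'⁻¹ := mul_right_cancel h1
        calc x * (g⁻¹ * g') = g⁻¹ * (g * x * g⁻¹) * g' := by group
          _ = g⁻¹ * (g' * x * g'⁻¹) * g' := by rw [h2]
          _ = _ := by group
  haveI : Finite (E →* Subgroup.center E) :=
    Finite.of_injective (fun f => (f : E → Subgroup.center E)) DFunLike.coe_injective
  have hbij := hFinj.bijective_of_nat_card_le hcardle
  obtain ⟨a, ha⟩ := hbij.2 c
  induction a using QuotientGroup.induction_on with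
  | H g =>
    refine ⟨g, fun x => ?_⟩
    rw [hF] at ha
    have h1 : g * x * g⁻¹ * x⁻¹ = φ x * x⁻¹ := by
      have := DFunLike.congr_fun ha x
      exact congrArg Subtype.val this
    exact (mul_right_cancel h1).symm

end Cfsg.Agent.S5395
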