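import Cfsg.Statements.S5408
import Cfsg.Agent.Lib.Leech.PlusGroup

set_option autoImplicit false
open Cfsg

namespace Cfsg.Agent.S5408

/-- Let G be a finite group of Monster type at the involution z with Q the extraspecial normal subgroup of order 2^25 of C = C_G(z) (so C/Q is identified with the first Conway group with Q modulo its centre the Leech lattice modulo 2, and z is not weakly closed in Q). Then Q is of plus type: it contains an elementary abelian subgroup of order 2^13. -/
theorem result {G : Type*} [Group G] [Finite G] (z : G) (Q : Subgroup (Subgroup.centralizer ({z} : Set G))) [Q.Normal] (hM : Cfsg.IsOfMonsterType z Q) : ∃ E : Subgroup Q, Cfsg.IsElementaryAbelian 2 E ∧ Nat.card E = 2 ^ 13 := by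
  classical
  obtain ⟨⟨hz, hF, hE, hcard, -⟩, e, ψ, hadd, hsurj, hker, heq⟩ := hM
  refine Lib.Leech.Plus.plus_of_form hE (by rw [hcard]) ψ hadd hsurj hker ?_
  intro g
  obtain ⟨h, hh⟩ := QuotientGroup.mk_surjective (e.symm (QuotientGroup.mk g : Cfsg.Spor.Co1))
  have hh' : (QuotientGroup.mk g : Cfsg.Spor.Co1) = e (QuotientGroup.mk h) := by
    rw [show ((QuotientGroup.mk h : ↥(Subgroup.centralizer ({z} : Set G)) ⧸ Q)) = e.symm (QuotientGroup.mk g : Cfsg.Spor.Co1) from hh]
    simp
  refine ⟨fun q => ⟨h * q * h⁻¹, (inferInstance : Q.Normal).conj_mem (q : Subgroup.centralizer ({z} : Set G)) q.2 h⟩, ?_, ?_⟩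
  · intro x
    constructor
    · intro h1
      have h2 := congrArg (fun y : Q => ((y : Subgroup.centralizer ({z} : Set G)))) h1
      simp only [Subgroup.coe_mul, Subgroup.coe_one] at h2
      apply Subtype.ext
      simp only [Subgroup.coe_mul, Subgroup.coe_one]
      have h3 : h * (x.1 * x.1) * h⁻¹ = 1 := by
        rw [← h2]
        group
      have h4 : x.1 * x.1 = h⁻¹ * (h * (x.1 * x.1) * h⁻¹) * h := by group
      rw [h4, h3]
      group
    · intro h1
      have h2 := congrArg (fun y : Q => ((y : Subgroup.centralizer ({z} : Set G)))) h1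
      simp only [Subgroup.coe_mul, Subgroup.coe_one] at h2
      apply Subtype.ext
      simp only [Subgroup.coe_mul, Subgroup.coe_one]
      have h3 : h * x.1 * h⁻¹ * (h * x.1 * h⁻¹) = h * (x.1 * x.1) * h⁻¹ := by group
      rw [h3, h2]
      group
  · intro v q hv
    exact heq h g hh' v q hv

end Cfsg.Agent.S5408
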