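import Cfsg.Statements.S5420
import Cfsg.Agent.Lib.ThreeT.Elem
import Cfsg.Agent.Lib.Core.Basic
import Mathlib

set_option autoImplicit false
open Cfsg

namespace Cfsg.Agent.S5420

open Cfsg.Agent.Lib.ThreeT

/-- Let Q be an extraspecial 2-subgroup of the finite group G whose centralizer in G is its centre Z and which is normal in the centralizer of Z. If Z lies in the largest normal 2-subgroup of G, then Q is a large extraspecial 2-subgroup of G: it normalizes no non-trivial subgroup of G of odd order. -/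
theorem result {G : Type*} [Group G] [Finite G] (Q : Subgroup G) (hL1 : Cfsg.IsExtraspecial 2 ↥Q) (hL2 : Subgroup.centralizer (Q : Set G) = ((Subgroup.center ↥Q).map Q.subtype)) (hL3 : Subgroup.centralizer (((Subgroup.center ↥Q).map Q.subtype) : Set G) ≤ Subgroup.normalizer (Q : Set G)) (hZ : ((Subgroup.center ↥Q).map Q.subtype) ≤ Cfsg.pCore 2 G) : Cfsg.IsLargeExtraspecial Q := by
  refine ⟨hL1, hL2, hL3, ?_⟩
  intro K hKodd hQK
  have : Fact (Nat.Prime 2) := ⟨Nat.prime_two⟩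
  have hP2 : IsPGroup 2 (Cfsg.pCore 2 G) := Lib.Core.pCore_isPGroup 2 G
  have hQ2 : IsPGroup 2 Q := hL1.1.1
  have hZQ : ((Subgroup.center ↥Q).map Q.subtype) ≤ Q := by
    rintro _ ⟨x, -, rfl⟩
    exact x.2
  -- K centralizes Z
  have h1 : K ≤ Subgroup.centralizer (((Subgroup.center ↥Q).map Q.subtype) : Set G) := by
    intro k hk
    rw [Subgroup.mem_centralizer_iff]
    intro z hz
    have hzQ : z ∈ Q := hZQ hz
    have hzP : z ∈ Cfsg.pCore 2 G := hZ hz
    have hc1 : k * z * k⁻¹ * z⁻¹ ∈ K := by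
      have h2 : z * k⁻¹ * z⁻¹ ∈ K := (Subgroup.mem_normalizer_iff.1 (hQK hzQ) k⁻¹).1 (K.inv_mem hk)
      have : k * z * k⁻¹ * z⁻¹ = k * (z * k⁻¹ * z⁻¹) := by group
      rw [this]
      exact K.mul_mem hk h2
    have hc2 : k * z * k⁻¹ * z⁻¹ ∈ Cfsg.pCore 2 G :=
      Subgroup.mul_mem _ ((Lib.Core.pCore_normal 2 G).conj_mem z hzP k) (Subgroup.inv_mem _ hzP)
    have h3 := eq_one_of_mem_odd_two hKodd hP2 hc1 hc2
    have h4 : k * z * k⁻¹ = z := mul_inv_eq_one.1 h3
    calc z * k = k * z * k⁻¹ * k := by rw [h4]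
      _ = k * z := by group
  -- K centralizes Q
  have h2 : K ≤ Subgroup.centralizer (Q : Set G) := by
    intro k hk
    rw [Subgroup.mem_centralizer_iff]
    intro q hq
    have hkN := hL3 (h1 hk)
    have hc1 : k * q * k⁻¹ * q⁻¹ ∈ Q :=
      Q.mul_mem ((Subgroup.mem_normalizer_iff.1 hkN q).1 hq) (Q.inv_mem hq)
    have hc2 : k * q * k⁻¹ * q⁻¹ ∈ K := by
      have h2 : q * k⁻¹ * q⁻¹ ∈ K := (Subgroup.mem_normalizer_iff.1 (hQK hq) k⁻¹).1 (K.inv_mem hk)
      have : k * q * k⁻¹ * q⁻¹ = k * (q * k⁻¹ * q⁻¹) := by group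
      rw [this]
      exact K.mul_mem hk h2
    have h3 := eq_one_of_mem_odd_two hKodd hQ2 hc2 hc1
    have h4 : k * q * k⁻¹ = q := mul_inv_eq_one.1 h3
    calc q * k = k * q * k⁻¹ * k := by rw [h4]
      _ = k * q := by group
  rw [Subgroup.eq_bot_iff_forall]
  intro k hk
  have hkZ := h2 hk
  rw [hL2] at hkZ
  exact eq_one_of_mem_odd_two hKodd hQ2 hk (hZQ hkZ)

end Cfsg.Agent.S5420
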