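import Cfsg.Statements.S5433
import Mathlib

set_option autoImplicit false
open Cfsg

namespace Cfsg.Agent.S5433

/-- Let Q be a large extraspecial 2-subgroup of the finite group G (extraspecial; centralizer equal to its centre; normal in the centralizer of its centre; normalizing no non-trivial subgroup of odd order), and L a normal subgroup of G containing Q. Then G is the product of L and the normalizer of Q. -/
theorem result {G : Type*} [Group G] [Finite G] (Q : Subgroup G) (hQ : Cfsg.IsLargeExtraspecial Q) (L : Subgroup G) [L.Normal] (hQL : Q ≤ L) : L ⊔ Subgroup.normalizer (Q : Set G) = ⊤ := by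
  have : Fact (Nat.Prime 2) := ⟨Nat.prime_two⟩
  obtain ⟨hE, hC, hN, -⟩ := hQ
  have hQ2 : IsPGroup 2 Q := hE.1.1
  set Z := (Subgroup.center ↥Q).map Q.subtype with hZ
  have hcardZ : Nat.card Z = 2 := by
    rw [hZ, Subgroup.card_map_of_injective Q.subtype_injective]
    exact hE.2
  -- two nontrivial elements of Z coincide
  have hZuniq : ∀ x ∈ Z, ∀ y ∈ Z, x ≠ 1 → y ≠ 1 → x = y := by
    intro x hx y hy hx1 hy1
    by_contra hxy
    have hx' : (⟨x, hx⟩ : Z) ≠ 1 := by simpa [Subtype.ext_iff] using hx1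
    have hy' : (⟨y, hy⟩ : Z) ≠ 1 := by simpa [Subtype.ext_iff] using hy1
    have hxy' : (⟨x, hx⟩ : Z) ≠ ⟨y, hy⟩ := by simpa [Subtype.ext_iff] using hxy
    have h3 : 2 < Nat.card Z := by
      have : Finite Z := inferInstance
      have hs : ({1, ⟨x, hx⟩, ⟨y, hy⟩} : Set Z).ncard = 3 := by
        rw [Set.ncard_eq_three]
        exact ⟨1, ⟨x, hx⟩, ⟨y, hy⟩, hx'.symm, hy'.symm, hxy', rfl⟩
      have := Set.ncard_le_card ({1, ⟨x, hx⟩, ⟨y, hy⟩} : Set Z)
      omega
    omega
  -- Sylow of L containing Q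
  have hQ2' : IsPGroup 2 (Q.subgroupOf L) := IsPGroup.comap_subtype hQ2
  obtain ⟨T, hT⟩ := hQ2'.exists_le_sylow
  have hfr := Sylow.normalizer_sup_eq_top T
  set T' := (T : Subgroup L).map L.subtype with hT'
  have hQT : Q ≤ T' := by
    intro q hq
    exact ⟨⟨q, hQL hq⟩, hT (by simpa [Subgroup.mem_subgroupOf] using hq), rfl⟩
  have hT2 : IsPGroup 2 T' := (T.isPGroup').map L.subtype
  -- centre element of T'
  have hZT : ∀ x ∈ T', (∀ y ∈ T', x * y = y * x) → x ∈ Z := by
    intro x hx hxc
    rw [← hC, Subgroup.mem_centralizer_iff]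
    intro q hq
    exact (hxc q (hQT hq)).symm
  have hnt : Nontrivial T' := by
    have hone : ∃ x ∈ Q, x ≠ 1 := by
      by_contra hno
      push Not at hno
      have : Z = ⊥ := by
        rw [Subgroup.eq_bot_iff_forall]
        rintro _ ⟨x, -, rfl⟩
        exact hno _ x.2
      rw [this] at hcardZ
      simp at hcardZ
    obtain ⟨x, hx, hx1⟩ := hone
    exact ⟨⟨⟨x, hQT hx⟩, 1, by simpa [Subtype.ext_iff] using hx1⟩⟩
  have hcent := hT2.center_nontrivial
  obtain ⟨⟨⟨x, hxT⟩, hxc⟩, hx1⟩ := exists_ne (1 : Subgroup.center T')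
  have hx1' : x ≠ 1 := by
    intro h
    apply hx1
    ext
    simpa using h
  have hxc' : ∀ y ∈ T', x * y = y * x := by
    intro y hy
    have := Subgroup.mem_center_iff.1 hxc ⟨y, hy⟩
    simpa [Subtype.ext_iff] using this.symm
  have hxZ := hZT x hxT hxc'
  -- the normalizer of T' normalizes Q
  have hNN : Subgroup.normalizer (T' : Set G) ≤ Subgroup.normalizer (Q : Set G) := by
    intro g hg
    apply hN
    rw [Subgroup.mem_centralizer_iff]
    intro w hw
    have hgx : g * x * g⁻¹ ∈ T' := (Subgroup.mem_normalizer_iff.1 hg x).1 hxT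
    have hgxc : ∀ y ∈ T', (g * x * g⁻¹) * y = y * (g * x * g⁻¹) := by
      intro y hy
      have hy' : g⁻¹ * y * g ∈ T' := by
        have := (Subgroup.mem_normalizer_iff.1 ((Subgroup.normalizer (T' : Set G)).inv_mem hg) y).1 hy
        simpa using this
      have := hxc' _ hy'
      calc g * x * g⁻¹ * y = g * (x * (g⁻¹ * y * g)) * g⁻¹ := by group
        _ = g * ((g⁻¹ * y * g) * x) * g⁻¹ := by rw [this]
        _ = _ := by group
    have hgxZ := hZT _ hgx hgxc
    have hgx1 : g * x * g⁻¹ ≠ 1 := by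
      intro h
      apply hx1'
      have : x = g⁻¹ * (g * x * g⁻¹) * g := by group
      rw [this, h]; group
    have heq := hZuniq _ hgxZ _ hxZ hgx1 hx1'
    by_cases hw1 : w = 1
    · subst hw1; simp
    · have hwx := hZuniq _ hw _ hxZ hw1 hx1'
      subst hwx
      calc w * g = g * w * g⁻¹ * g := by rw [heq]
        _ = g * w := by group
  have hL : Subgroup.normalizer (T' : Set G) ⊔ L ≤ L ⊔ Subgroup.normalizer (Q : Set G) := by
    rw [sup_comm]
    exact sup_le_sup_left hNN L
  rw [eq_top_iff]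
  rw [← hfr]
  exact hL

end Cfsg.Agent.S5433
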