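import Cfsg.Statements.S5437
import Mathlib

set_option autoImplicit false
open Cfsg

namespace Cfsg.Agent.S5437

theorem smul_mk_eq_iff {G : Type*} [Group G] (H : Subgroup G) (x g : G) :
    x • (g : G ⧸ H) = (g : G ⧸ H) ↔ g⁻¹ * x * g ∈ H := by
  rw [MulAction.Quotient.smul_mk, smul_eq_mul, eq_comm, QuotientGroup.eq]
  have : g⁻¹ * (x * g) = g⁻¹ * x * g := by group
  rw [this]

theorem mem_map_conj {G : Type*} [Group G] (H : Subgroup G) (x g : G) :
    x ∈ H.map (MulAut.conj g).toMonoidHom ↔ g⁻¹ * x * g ∈ H := by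
  constructor
  · rintro ⟨y, hy, rfl⟩
    simpa [mul_assoc] using hy
  · intro h
    exact ⟨_, h, by simp [mul_assoc]⟩

/-- Let I be a set of involutions of the finite group G closed under conjugation, and H a subgroup of G. The following are equivalent: (1) for every member x of I lying in H, the conjugates of x lying in H form a single H-class and the centralizer of x lies in H; (2) for every g outside H, no member of I lies in both H and g H g⁻¹; (3) every member of I lying in H fixes exactly one coset in the action of G on the cosets of H. -/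
theorem result {G : Type*} [Group G] [Finite G] (I : Set G) (hI : ∀ x ∈ I, orderOf x = 2) (hIc : ∀ g : G, ∀ x ∈ I, g * x * g⁻¹ ∈ I) (H : Subgroup G) : ((∀ x ∈ I, x ∈ H → (∀ g : G, g * x * g⁻¹ ∈ H → ∃ h ∈ H, h * x * h⁻¹ = g * x * g⁻¹) ∧ Subgroup.centralizer ({x} : Set G) ≤ H) ↔ (∀ g : G, g ∉ H → ∀ x ∈ I, ¬ (x ∈ H ∧ x ∈ (H : Subgroup G).map (MulAut.conj g).toMonoidHom))) ∧ ((∀ g : G, g ∉ H → ∀ x ∈ I, ¬ (x ∈ H ∧ x ∈ (H : Subgroup G).map (MulAut.conj g).toMonoidHom)) ↔ ∀ x ∈ I, x ∈ H → ∃! c : G ⧸ H, x • c = c) := by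
  refine ⟨⟨?_, ?_⟩, ⟨?_, ?_⟩⟩
  · rintro h1 g hg x hx ⟨hxH, hxg⟩
    rw [mem_map_conj] at hxg
    have hy : g⁻¹ * x * g ∈ I := by
      have := hIc g⁻¹ x hx
      simpa using this
    obtain ⟨h2, h3⟩ := h1 _ hy hxg
    have hx' : g * (g⁻¹ * x * g) * g⁻¹ = x := by group
    obtain ⟨h, hh, he⟩ := h2 g (by rw [hx']; exact hxH)
    apply hg
    have hc : h⁻¹ * g ∈ Subgroup.centralizer ({g⁻¹ * x * g} : Set G) := by
      rw [Subgroup.mem_centralizer_iff]
      intro y hy
      rw [Set.mem_singleton_iff] at hy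
      subst hy
      rw [hx'] at he
      have h4 : g⁻¹ * x * g * h⁻¹ = h⁻¹ * x := by
        calc g⁻¹ * x * g * h⁻¹ = h⁻¹ * (h * (g⁻¹ * x * g) * h⁻¹) := by group
          _ = h⁻¹ * x := by rw [he]
      calc g⁻¹ * x * g * (h⁻¹ * g) = (g⁻¹ * x * g * h⁻¹) * g := by group
        _ = h⁻¹ * x * g := by rw [h4]
        _ = _ := by group
    have := H.mul_mem hh (h3 hc)
    simpa using this
  · intro h2 x hx hxH
    refine ⟨?_, ?_⟩
    · intro g hg
      refine ⟨g, ?_, rfl⟩
      by_contra hgH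
      apply h2 g hgH (g * x * g⁻¹) (hIc g x hx)
      refine ⟨hg, ?_⟩
      rw [mem_map_conj]
      have : g⁻¹ * (g * x * g⁻¹) * g = x := by group
      rwa [this]
    · intro c hc
      rw [Subgroup.mem_centralizer_iff] at hc
      have hc' := hc x rfl
      by_contra hcH
      apply h2 c hcH x hx
      refine ⟨hxH, ?_⟩
      rw [mem_map_conj]
      have : c⁻¹ * x * c = x := by
        calc c⁻¹ * x * c = c⁻¹ * (x * c) := by group
          _ = c⁻¹ * (c * x) := by rw [hc']
          _ = x := by group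
      rwa [this]
  · intro h2 x hx hxH
    refine ⟨(1 : G), ?_, ?_⟩
    · show x • ((1 : G) : G ⧸ H) = ((1 : G) : G ⧸ H)
      rw [smul_mk_eq_iff]
      simpa using hxH
    · intro c hc
      induction c using QuotientGroup.induction_on with
      | H g =>
        rw [smul_mk_eq_iff] at hc
        have hg : g ∈ H := by
          by_contra hgH
          apply h2 g hgH x hx
          refine ⟨hxH, ?_⟩
          rwa [mem_map_conj]
        rw [QuotientGroup.eq]
        simpa using H.inv_mem hg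
  · rintro h3 g hg x hx ⟨hxH, hxg⟩
    rw [mem_map_conj] at hxg
    obtain ⟨c, -, hc⟩ := h3 x hx hxH
    have h1 := hc ((1 : G) : G ⧸ H) ((smul_mk_eq_iff H x 1).2 (by simpa using hxH))
    have h2 := hc (g : G ⧸ H) ((smul_mk_eq_iff H x g).2 hxg)
    apply hg
    have : ((g : G) : G ⧸ H) = ((1 : G) : G ⧸ H) := h2.trans h1.symm
    rw [eq_comm, QuotientGroup.eq] at this
    simpa using this

end Cfsg.Agent.S5437
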