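import Cfsg.Statements.S5438
import Cfsg.Agent.S5437
import Mathlib

set_option autoImplicit false
open Cfsg

namespace Cfsg.Agent.S5438

open Cfsg.Agent.S5437

/-- A 2-subgroup containing `z` lies in `H`, under the unique-coset hypothesis. -/
theorem two_subgroup_le {G : Type*} [Group G] [Finite G] (z : G) (H : Subgroup G)
    (hfix : ∀ g : G, g⁻¹ * z * g ∈ H → g ∈ H) (hodd : Odd H.index) (S : Subgroup G)
    (hS : IsPGroup 2 S) (hz : z ∈ S) : S ≤ H := by
  have : Fact (Nat.Prime 2) := ⟨Nat.prime_two⟩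
  have hcard : ¬ 2 ∣ Nat.card (G ⧸ H) := by
    rw [← Subgroup.index_eq_card]
    exact fun h => (Nat.not_even_iff_odd.2 hodd) (even_iff_two_dvd.2 h)
  obtain ⟨c, hc⟩ := hS.nonempty_fixed_point_of_prime_not_dvd_card (G ⧸ H) hcard
  induction c using QuotientGroup.induction_on with
  | H b =>
    have hfixb : ∀ s : S, (s : G) • (b : G ⧸ H) = (b : G ⧸ H) := fun s => hc s
    have hb : b ∈ H := by
      apply hfix
      exact (smul_mk_eq_iff H z b).1 (hfixb ⟨z, hz⟩)
    intro s hs
    have := (smul_mk_eq_iff H s b).1 (hfixb ⟨s, hs⟩)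
    have h2 : s = b * (b⁻¹ * s * b) * b⁻¹ := by group
    rw [h2]
    exact H.mul_mem (H.mul_mem hb this) (H.inv_mem hb)

/-- Let z be a 2-central involution of the finite group G (an involution central in some Sylow 2-subgroup) and H a subgroup containing z such that the coset H is the only coset of H fixed by z (in the action of G on the cosets of H). Then H has odd index in G, and for every 2-element x of H the conjugates of x lying in H form a single H-class. -/
theorem result {G : Type*} [Group G] [Finite G] (z : G) (hz : Cfsg.IsTwoCentralInvolution z) (H : Subgroup G) (hzH : z ∈ H) (hfix : ∀ g : G, g⁻¹ * z * g ∈ H → g ∈ H) : Odd H.index ∧ ∀ x ∈ H, (∃ k : ℕ, orderOf x = 2 ^ k) → ∀ g : G, g * x * g⁻¹ ∈ H → ∃ h ∈ H, h * x * h⁻¹ = g * x * g⁻¹ := by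
  have : Fact (Nat.Prime 2) := ⟨Nat.prime_two⟩
  obtain ⟨hz2, P, hzP, hPc⟩ := hz
  have hzz : z⁻¹ = z := inv_eq_of_mul_eq_one_left (by
    have := pow_orderOf_eq_one z
    rwa [hz2, pow_two] at this)
  have hPH : (P : Subgroup G) ≤ H := by
    intro x hx
    apply hfix
    have : x⁻¹ * z * x = z := by
      have := hPc x hx
      calc x⁻¹ * z * x = x⁻¹ * (z * x) := by group
        _ = x⁻¹ * (x * z) := by rw [this]
        _ = z := by group
    rw [this]
    exact hzH
  have hodd : Odd H.index := by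
    have h1 : H.index ∣ (P : Subgroup G).index := Subgroup.index_dvd_of_le hPH
    have h2 : ¬ 2 ∣ (P : Subgroup G).index := P.not_dvd_index
    rw [← Nat.not_even_iff_odd, even_iff_two_dvd]
    exact fun h => h2 (h.trans h1)
  refine ⟨hodd, ?_⟩
  -- conjugation into P inside H
  have hconjP : ∀ x ∈ H, (∃ k : ℕ, orderOf x = 2 ^ k) → ∃ h ∈ H, h * x * h⁻¹ ∈ (P : Subgroup G) := by
    intro x hx ⟨k, hk⟩
    have h2 : ¬ 2 ∣ Nat.card (H ⧸ (P.subtype hPH : Subgroup H)) := by
      rw [← Subgroup.index_eq_card]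
      exact (P.subtype hPH).not_dvd_index
    have hxp : IsPGroup 2 (Subgroup.zpowers (⟨x, hx⟩ : H)) := by
      rw [IsPGroup.iff_card, Nat.card_zpowers]
      refine ⟨k, ?_⟩
      rw [← hk]
      simp [orderOf_submonoid]
    obtain ⟨c, hc⟩ := hxp.nonempty_fixed_point_of_prime_not_dvd_card (H ⧸ (P.subtype hPH : Subgroup H)) h2
    induction c using QuotientGroup.induction_on with
    | H b =>
      have hb := (smul_mk_eq_iff (P.subtype hPH : Subgroup H) (⟨x, hx⟩ : H) b).1 (hc ⟨⟨x, hx⟩, Subgroup.mem_zpowers _⟩)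
      refine ⟨(b : H)⁻¹, H.inv_mem b.2, ?_⟩
      have h3 := hb
      rw [Sylow.coe_subtype, Subgroup.mem_subgroupOf] at h3
      simpa using h3
  -- main step
  have hmain : ∀ x y : G, x ∈ (P : Subgroup G) → y ∈ (P : Subgroup G) → ∀ g : G, g * x * g⁻¹ = y → ∃ k ∈ H, k * x * k⁻¹ = y := by
    intro x y hx hy g hg
    have hzy : z ∈ Subgroup.centralizer ({y} : Set G) := by
      rw [Subgroup.mem_centralizer_iff]
      intro w hw
      rw [Set.mem_singleton_iff] at hw
      subst hw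
      exact hPc _ hy
    set C := Subgroup.centralizer ({y} : Set G) with hC
    -- Sylow of C containing z
    have hzp : IsPGroup 2 (Subgroup.zpowers (⟨z, hzy⟩ : C)) := by
      rw [IsPGroup.iff_card, Nat.card_zpowers]
      refine ⟨1, ?_⟩
      simp [orderOf_submonoid, hz2]
    obtain ⟨S, hS⟩ := hzp.exists_le_sylow
    have hSz : (⟨z, hzy⟩ : C) ∈ S := hS (Subgroup.mem_zpowers _)
    have hSH : (S : Subgroup C).map C.subtype ≤ H := by
      apply two_subgroup_le z H hfix hodd _ ((S.isPGroup').map C.subtype)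
      exact ⟨_, hSz, rfl⟩
    -- w = g z g⁻¹
    have hw : g * z * g⁻¹ ∈ C := by
      rw [hC, Subgroup.mem_centralizer_iff]
      intro w hw
      rw [Set.mem_singleton_iff] at hw
      subst hw
      rw [← hg]
      have h1 := hPc x hx
      calc g * x * g⁻¹ * (g * z * g⁻¹) = g * (x * z) * g⁻¹ := by group
        _ = g * (z * x) * g⁻¹ := by rw [h1]
        _ = _ := by group
    have hwp : IsPGroup 2 (Subgroup.zpowers (⟨g * z * g⁻¹, hw⟩ : C)) := by
      rw [IsPGroup.iff_card, Nat.card_zpowers]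
      refine ⟨1, ?_⟩
      have : orderOf (g * z * g⁻¹) = 2 := by
        have := (MulAut.conj g).orderOf_eq z
        rw [MulAut.conj_apply] at this
        rw [this, hz2]
      simp [orderOf_submonoid, this]
    have h2 : ¬ 2 ∣ Nat.card (C ⧸ (S : Subgroup C)) := by
      rw [← Subgroup.index_eq_card]
      exact S.not_dvd_index
    obtain ⟨c, hc⟩ := hwp.nonempty_fixed_point_of_prime_not_dvd_card (C ⧸ (S : Subgroup C)) h2
    induction c using QuotientGroup.induction_on with
    | H b =>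
      have hb := (smul_mk_eq_iff (S : Subgroup C) (⟨g * z * g⁻¹, hw⟩ : C) b).1 (hc ⟨⟨g * z * g⁻¹, hw⟩, Subgroup.mem_zpowers _⟩)
      have hb2 : ((b : G))⁻¹ * (g * z * g⁻¹) * (b : G) ∈ H := by
        apply hSH
        exact ⟨_, hb, rfl⟩
      have hk : (b : G)⁻¹ * g ∈ H := by
        have := hfix (((b : G)⁻¹ * g)⁻¹) (by
          have h3 : (((b : G)⁻¹ * g)⁻¹)⁻¹ * z * ((b : G)⁻¹ * g)⁻¹ = (b : G)⁻¹ * (g * z * g⁻¹) * (b : G) := by group
          rw [h3]
          exact hb2)
        have h5 := H.inv_mem this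
        rwa [inv_inv] at h5
      refine ⟨_, hk, ?_⟩
      have hby : (b : G) * y = y * (b : G) := by
        exact ((Subgroup.mem_centralizer_iff.1 b.2) y rfl).symm
      calc (b : G)⁻¹ * g * x * ((b : G)⁻¹ * g)⁻¹ = (b : G)⁻¹ * (g * x * g⁻¹) * (b : G) := by group
        _ = (b : G)⁻¹ * y * (b : G) := by rw [hg]
        _ = (b : G)⁻¹ * (y * (b : G)) := by group
        _ = (b : G)⁻¹ * ((b : G) * y) := by rw [hby]
        _ = y := by group
  intro x hx hk g hg
  obtain ⟨h1, hh1, hx1⟩ := hconjP x hx hk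
  have hyk : ∃ k : ℕ, orderOf (g * x * g⁻¹) = 2 ^ k := by
    obtain ⟨k, hk⟩ := hk
    refine ⟨k, ?_⟩
    have := (MulAut.conj g).orderOf_eq x
    rw [MulAut.conj_apply] at this
    rw [this, hk]
  obtain ⟨h2, hh2, hy1⟩ := hconjP _ hg hyk
  obtain ⟨k, hk1, hk2⟩ := hmain _ _ hx1 hy1 (h2 * g * h1⁻¹) (by group)
  refine ⟨h2⁻¹ * k * h1, H.mul_mem (H.mul_mem (H.inv_mem hh2) hk1) hh1, ?_⟩
  calc h2⁻¹ * k * h1 * x * (h2⁻¹ * k * h1)⁻¹ = h2⁻¹ * (k * (h1 * x * h1⁻¹) * k⁻¹) * h2 := by group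
    _ = h2⁻¹ * (h2 * (g * x * g⁻¹) * h2⁻¹) * h2 := by rw [hk2]
    _ = _ := by group

end Cfsg.Agent.S5438
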