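import Cfsg.Statements.S5439
import Cfsg.Agent.S5437
import Cfsg.Agent.Lib.ThreeT.Elem
import Mathlib

set_option autoImplicit false
open Cfsg

namespace Cfsg.Agent.S5439

open Cfsg.Agent.S5437 Cfsg.Agent.Lib.ThreeT

/-- Let I and J be two different conjugacy classes of involutions of the finite group G and H a subgroup such that every member of I ∪ J fixes exactly one coset in the action on the cosets of H, and such that for every a in I ∩ H and every b in (I ∪ J) ∩ H different from a and commuting with it, the centralizer of a b lies in H. Then H = G. -/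
theorem result {G : Type*} [Group G] [Finite G] (I J : Set G) (a₀ b₀ : G) (ha₀ : orderOf a₀ = 2) (hb₀ : orderOf b₀ = 2) (hI : I = {x | IsConj a₀ x}) (hJ : J = {x | IsConj b₀ x}) (hIJ : I ≠ J) (H : Subgroup G) (hfix : ∀ x ∈ I ∪ J, ∃! c : G ⧸ H, x • c = c) (hcent : ∀ a ∈ I, a ∈ H → ∀ b ∈ I ∪ J, b ∈ H → a ≠ b → a * b = b * a → Subgroup.centralizer ({a * b} : Set G) ≤ H) : H = ⊤ := by
  have hIm : ∀ x, x ∈ I ↔ IsConj a₀ x := fun x => by rw [hI]; rfl
  have hJm : ∀ x, x ∈ J ↔ IsConj b₀ x := fun x => by rw [hJ]; rfl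
  have hnc : ¬ IsConj a₀ b₀ := by
    intro h
    apply hIJ
    ext x
    rw [hIm, hJm]
    exact ⟨fun h2 => h.symm.trans h2, fun h2 => h.trans h2⟩
  have hIcj : ∀ x ∈ I, ∀ g : G, g * x * g⁻¹ ∈ I := by
    intro x hx g
    rw [hIm] at hx ⊢
    exact hx.trans (isConj_iff.2 ⟨g, rfl⟩)
  have hJcj : ∀ x ∈ J, ∀ g : G, g * x * g⁻¹ ∈ J := by
    intro x hx g
    rw [hJm] at hx ⊢
    exact hx.trans (isConj_iff.2 ⟨g, rfl⟩)
  have hIinv : ∀ x ∈ I, x * x = 1 := by
    intro x hx
    rw [hIm] at hx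
    have := orderOf_eq_of_isConj hx
    exact mul_self_of_orderOf (by rw [← this, ha₀])
  have hJinv : ∀ x ∈ J, x * x = 1 := by
    intro x hx
    rw [hJm] at hx
    have := orderOf_eq_of_isConj hx
    exact mul_self_of_orderOf (by rw [← this, hb₀])
  -- commuting element preserves the fixed coset
  have hcommfix : ∀ x ∈ I ∪ J, ∀ y : G, x * y = y * x → ∀ g : G, g⁻¹ * x * g ∈ H → g⁻¹ * y * g ∈ H := by
    intro x hx y hxy g hg
    obtain ⟨c, -, huniq⟩ := hfix x hx
    have h1 : x • ((g : G) : G ⧸ H) = ((g : G) : G ⧸ H) := (smul_mk_eq_iff H x g).2 hg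
    have h2 : x • ((y * g : G) : G ⧸ H) = ((y * g : G) : G ⧸ H) := by
      apply (smul_mk_eq_iff H x (y * g)).2
      have : (y * g)⁻¹ * x * (y * g) = g⁻¹ * x * g := by
        calc (y * g)⁻¹ * x * (y * g) = g⁻¹ * y⁻¹ * (x * y) * g := by group
          _ = g⁻¹ * y⁻¹ * (y * x) * g := by rw [hxy]
          _ = _ := by group
      rw [this]; exact hg
    have h3 : ((y * g : G) : G ⧸ H) = ((g : G) : G ⧸ H) := (huniq _ h2).trans (huniq _ h1).symm
    rw [eq_comm, QuotientGroup.eq] at h3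
    have : g⁻¹ * y * g = g⁻¹ * (y * g) := by group
    rw [this]; exact h3
  -- main lemma
  have hmain : ∀ a ∈ I, ∀ b ∈ J, ∀ g : G, g⁻¹ * a * g ∈ H → g⁻¹ * b * g ∈ H := by
    intro a ha b hb g hg
    have haa := hIinv a ha
    have hbb := hJinv b hb
    have hai : a⁻¹ = a := inv_eq_of_mul_eq_one_left haa
    have hbi : b⁻¹ = b := inv_eq_of_mul_eq_one_left hbb
    have hnodd : ¬ Odd (orderOf (a * b)) := by
      intro h
      have h1 := isConj_of_odd haa hbb h
      exact hnc (((hIm a).1 ha).trans (h1.trans ((hJm b).1 hb).symm))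
    rw [Nat.not_odd_iff_even] at hnodd
    obtain ⟨m, hm⟩ := hnodd
    obtain ⟨r, hr⟩ : ∃ r, r = a * b := ⟨_, rfl⟩
    rw [← hr] at hm
    have hrpos : 0 < orderOf r := orderOf_pos r
    have hmpos : 0 < m := by omega
    obtain ⟨w, hw⟩ : ∃ w, w = r ^ m := ⟨_, rfl⟩
    have hw1 : w ≠ 1 := by
      rw [hw]
      exact pow_ne_one_of_lt_orderOf (by omega) (by omega)
    have hww : w * w = 1 := by
      rw [hw, ← pow_add, ← hm, pow_orderOf_eq_one]
    have hwi : w⁻¹ = w := inv_eq_of_mul_eq_one_left hww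
    have har : a * r * a = r⁻¹ := by
      rw [hr, mul_inv_rev, hai, hbi]
      calc a * (a * b) * a = (a * a) * b * a := by group
        _ = b * a := by rw [haa, one_mul]
    have hbr : b * r * b = r⁻¹ := by
      rw [hr, mul_inv_rev, hai, hbi]
      calc b * (a * b) * b = b * a * (b * b) := by group
        _ = b * a := by rw [hbb, mul_one]
    have haw : a * w = w * a := by
      have h1 := inv_pow_of_inv haa har m
      rw [← hw, hwi] at h1
      calc a * w = a * w * a * a := by rw [mul_assoc (a * w), haa, mul_one]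
        _ = w * a := by rw [h1]
    have hbw : b * w = w * b := by
      have h1 := inv_pow_of_inv hbb hbr m
      rw [← hw, hwi] at h1
      calc b * w = b * w * b * b := by rw [mul_assoc (b * w), hbb, mul_one]
        _ = w * b := by rw [h1]
    -- a' = a w
    have ha'mem : a * w ∈ I ∪ J := by
      rcases Nat.even_or_odd' m with ⟨s, hs | hs⟩
      · left
        have h1 := inv_pow_of_inv haa har s
        have h2 : a * r ^ s = (r ^ s)⁻¹ * a := by
          calc a * r ^ s = a * r ^ s * a * a := by rw [mul_assoc (a * r ^ s), haa, mul_one]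
            _ = _ := by rw [h1]
        have : a * w = (r ^ s)⁻¹ * a * ((r ^ s)⁻¹)⁻¹ := by
          rw [hw, hs, two_mul, pow_add, ← mul_assoc, h2, inv_inv]
        rw [this]
        exact hIcj a ha _
      · right
        have h1 := inv_pow_of_inv hbb hbr s
        have h2 : b * r ^ s = (r ^ s)⁻¹ * b := by
          calc b * r ^ s = b * r ^ s * b * b := by rw [mul_assoc (b * r ^ s), hbb, mul_one]
            _ = _ := by rw [h1]
        have h3 : a * r = b := by rw [hr, ← mul_assoc, haa, one_mul]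
        have : a * w = (r ^ s)⁻¹ * b * ((r ^ s)⁻¹)⁻¹ := by
          rw [hw, hs, pow_succ', two_mul, pow_add, ← mul_assoc, ← mul_assoc, h3, h2, inv_inv]
        rw [this]
        exact hJcj b hb _
    have hcomm_aa' : a * (a * w) = (a * w) * a := by
      rw [mul_assoc, ← haw, ← mul_assoc]
    have hβ : g⁻¹ * (a * w) * g ∈ H := hcommfix a (Or.inl ha) (a * w) hcomm_aa' g hg
    -- apply hcent
    have hαI : g⁻¹ * a * g ∈ I := by
      have := hIcj a ha g⁻¹
      simpa using this
    have hβmem : g⁻¹ * (a * w) * g ∈ I ∪ J := by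
      rcases ha'mem with h | h
      · left; simpa using hIcj _ h g⁻¹
      · right; simpa using hJcj _ h g⁻¹
    have hne : g⁻¹ * a * g ≠ g⁻¹ * (a * w) * g := by
      intro h
      have h1 : a = a * w := by
        have := mul_right_cancel h
        exact mul_left_cancel this
      apply hw1
      exact (mul_eq_left).1 h1.symm
    have hcommαβ : (g⁻¹ * a * g) * (g⁻¹ * (a * w) * g) = (g⁻¹ * (a * w) * g) * (g⁻¹ * a * g) := by
      calc (g⁻¹ * a * g) * (g⁻¹ * (a * w) * g) = g⁻¹ * (a * (a * w)) * g := by group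
        _ = g⁻¹ * ((a * w) * a) * g := by rw [hcomm_aa']
        _ = _ := by group
    have hC := hcent _ hαI hg _ hβmem hβ hne hcommαβ
    apply hC
    rw [Subgroup.mem_centralizer_iff]
    intro y hy
    rw [Set.mem_singleton_iff] at hy
    subst hy
    have e1 : (g⁻¹ * a * g) * (g⁻¹ * (a * w) * g) = g⁻¹ * w * g := by
      calc (g⁻¹ * a * g) * (g⁻¹ * (a * w) * g) = g⁻¹ * (a * a) * w * g := by group
        _ = _ := by rw [haa, mul_one]
    rw [e1]
    calc g⁻¹ * w * g * (g⁻¹ * b * g) = g⁻¹ * (w * b) * g := by group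
      _ = g⁻¹ * (b * w) * g := by rw [hbw]
      _ = _ := by group
  -- conclude
  have ha₀I : a₀ ∈ I := (hIm a₀).2 (IsConj.refl a₀)
  have hb₀J : b₀ ∈ J := (hJm b₀).2 (IsConj.refl b₀)
  obtain ⟨c, hc, -⟩ := hfix a₀ (Or.inl ha₀I)
  induction c using QuotientGroup.induction_on with
  | H g =>
    have hg0 : g⁻¹ * a₀ * g ∈ H := (smul_mk_eq_iff H a₀ g).1 hc
    have hallJ : ∀ b ∈ J, g⁻¹ * b * g ∈ H := fun b hb => hmain a₀ ha₀I b hb g hg0
    have hb₀g := hallJ b₀ hb₀J
    obtain ⟨c', -, huniq⟩ := hfix b₀ (Or.inr hb₀J)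
    have hfixed : ∀ h : G, g⁻¹ * h * g ∈ H := by
      intro h
      have h1 : b₀ • ((h⁻¹ * g : G) : G ⧸ H) = ((h⁻¹ * g : G) : G ⧸ H) := by
        apply (smul_mk_eq_iff H b₀ (h⁻¹ * g)).2
        have := hallJ _ (hJcj b₀ hb₀J h)
        have e : (h⁻¹ * g)⁻¹ * b₀ * (h⁻¹ * g) = g⁻¹ * (h * b₀ * h⁻¹) * g := by group
        rw [e]
        exact this
      have h2 : b₀ • ((g : G) : G ⧸ H) = ((g : G) : G ⧸ H) := (smul_mk_eq_iff H b₀ g).2 hb₀g
      have h3 : ((h⁻¹ * g : G) : G ⧸ H) = ((g : G) : G ⧸ H) := (huniq _ h1).trans (huniq _ h2).symm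
      rw [QuotientGroup.eq] at h3
      have e : (h⁻¹ * g)⁻¹ * g = g⁻¹ * h * g := by group
      rwa [e] at h3
    rw [eq_top_iff]
    intro y _
    have := hfixed (g * y * g⁻¹)
    have e : g⁻¹ * (g * y * g⁻¹) * g = y := by group
    rwa [e] at this

end Cfsg.Agent.S5439
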