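import Cfsg.Statements.S5459
import Mathlib
import Cfsg.Agent.Lib.FStar.Basic

set_option autoImplicit false
open Cfsg

namespace Cfsg.Agent.S5459


section
variable {G : Type*} [Group G]

theorem conj_mem_D {d x : G} (hx : x ∈ conjugatesOf d) (g : G) : g * x * g⁻¹ ∈ conjugatesOf d := by
  exact IsConj.trans hx (isConj_iff.2 ⟨g, rfl⟩)

theorem exists_root {Z : Subgroup G} [Finite G] (hodd : Odd (Nat.card Z)) (n : ℕ) (hn : n = 2 ∨ n = 4)
    {c : G} (hc : c ∈ Z) :
    ∃ z ∈ Z, z ^ n = c := by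
  have hcop : Nat.Coprime (Nat.card Z) n := by
    rcases hn with rfl | rfl
    · exact Nat.coprime_two_right.2 hodd
    · have : Nat.Coprime (Nat.card Z) 2 := Nat.coprime_two_right.2 hodd
      exact Nat.Coprime.mul_right this this
  obtain ⟨z, hz⟩ := (powCoprime hcop).surjective ⟨c, hc⟩
  refine ⟨z.1, z.2, ?_⟩
  have := congrArg Subtype.val hz
  simpa [powCoprime] using this

/-- The commuting graph on the class of `d`: conjugation preserves reachability. -/
def conjHom (d g : G) : commutingGraph (conjugatesOf d) →g commutingGraph (conjugatesOf d) where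
  toFun x := ⟨g * x.1 * g⁻¹, conj_mem_D x.2 g⟩
  map_rel' := by
    intro a b hab
    rw [commutingGraph, SimpleGraph.fromRel_adj] at hab ⊢
    obtain ⟨h1, h2⟩ := hab
    refine ⟨?_, ?_⟩
    · intro h; apply h1
      apply Subtype.ext
      have := congrArg Subtype.val h
      simpa using this
    · rcases h2 with h2 | h2
      · left
        show g * a.1 * g⁻¹ * (g * b.1 * g⁻¹) = g * b.1 * g⁻¹ * (g * a.1 * g⁻¹)
        have h3 : a.1 * b.1 = b.1 * a.1 := h2
        calc g * a.1 * g⁻¹ * (g * b.1 * g⁻¹) = g * (a.1 * b.1) * g⁻¹ := by group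
          _ = g * (b.1 * a.1) * g⁻¹ := by rw [h3]
          _ = _ := by group
      · right
        show g * b.1 * g⁻¹ * (g * a.1 * g⁻¹) = g * a.1 * g⁻¹ * (g * b.1 * g⁻¹)
        have h3 : b.1 * a.1 = a.1 * b.1 := h2
        calc g * b.1 * g⁻¹ * (g * a.1 * g⁻¹) = g * (b.1 * a.1) * g⁻¹ := by group
          _ = g * (a.1 * b.1) * g⁻¹ := by rw [h3]
          _ = _ := by group

/-- The "stabilizer" of the component of `d`. -/
def compK (d : G) : Subgroup G where
  carrier := {g | (commutingGraph (conjugatesOf d)).Reachable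
    ⟨d, mem_conjugatesOf_self⟩ ⟨g * d * g⁻¹, conj_mem_D mem_conjugatesOf_self g⟩}
  one_mem' := by
    show (commutingGraph (conjugatesOf d)).Reachable _ _
    convert SimpleGraph.Reachable.refl _ using 2
    simp
  mul_mem' := by
    intro a b ha hb
    have h1 := hb.map (conjHom d a)
    have h2 : (conjHom d a) ⟨d, mem_conjugatesOf_self⟩ = ⟨a * d * a⁻¹, conj_mem_D mem_conjugatesOf_self a⟩ := rfl
    have h3 : (conjHom d a) ⟨b * d * b⁻¹, conj_mem_D mem_conjugatesOf_self b⟩ =
        ⟨(a * b) * d * (a * b)⁻¹, conj_mem_D mem_conjugatesOf_self (a * b)⟩ := by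
      apply Subtype.ext
      show a * (b * d * b⁻¹) * a⁻¹ = _
      group
    rw [h2, h3] at h1
    exact SimpleGraph.Reachable.trans ha h1
  inv_mem' := by
    intro a ha
    have h1 := ha.map (conjHom d a⁻¹)
    have h2 : (conjHom d a⁻¹) ⟨d, mem_conjugatesOf_self⟩ = ⟨a⁻¹ * d * a⁻¹⁻¹, conj_mem_D mem_conjugatesOf_self a⁻¹⟩ := rfl
    have h3 : (conjHom d a⁻¹) ⟨a * d * a⁻¹, conj_mem_D mem_conjugatesOf_self a⟩ = ⟨d, mem_conjugatesOf_self⟩ := by
      apply Subtype.ext
      show a⁻¹ * (a * d * a⁻¹) * a⁻¹⁻¹ = _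
      group
    rw [h2, h3] at h1
    exact h1.symm

theorem mem_compK {d g : G} : g ∈ compK d ↔ (commutingGraph (conjugatesOf d)).Reachable
    ⟨d, mem_conjugatesOf_self⟩ ⟨g * d * g⁻¹, conj_mem_D mem_conjugatesOf_self g⟩ := Iff.rfl

end


theorem main {G : Type*} [Group G] [Finite G] (L Z : Subgroup G) [hn : Z.Normal]
    (hLp : commutator L = ⊤) (hZL : Z ≤ L) (hZcen : ∀ l : L, l.1 ∈ Z → l ∈ Subgroup.center ↥L)
    (d : G) (hdd : d * d = 1) (hodd : Odd (Nat.card Z)) (hinv : ∀ c ∈ Z, d * c * d⁻¹ = c⁻¹)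
    (hconn : (Cfsg.commutingGraph (conjugatesOf (QuotientGroup.mk d : G ⧸ Z))).Connected) :
    (Cfsg.commutingGraph (conjugatesOf d)).Connected := by
  classical
  -- involutions inverting Z
  have hDi : ∀ x ∈ conjugatesOf d, x * x = 1 ∧ ∀ c ∈ Z, x * c * x⁻¹ = c⁻¹ := by
    intro x hx
    obtain ⟨g, rfl⟩ := isConj_iff.1 hx
    refine ⟨?_, ?_⟩
    · calc g * d * g⁻¹ * (g * d * g⁻¹) = g * (d * d) * g⁻¹ := by group
        _ = 1 := by rw [hdd]; group
    · intro c hc
      have h1 : g⁻¹ * c * g ∈ Z := by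
        have := hn.conj_mem c hc g⁻¹
        simpa using this
      have h2 := hinv _ h1
      calc g * d * g⁻¹ * c * (g * d * g⁻¹)⁻¹ = g * (d * (g⁻¹ * c * g) * d⁻¹) * g⁻¹ := by group
        _ = c⁻¹ := by rw [h2]; group
  -- fibers
  have hfib : ∀ x ∈ conjugatesOf d, ∀ y ∈ conjugatesOf d, (QuotientGroup.mk x : G ⧸ Z) = QuotientGroup.mk y →
      ∃ z ∈ Z, z * x * z⁻¹ = y := by
    intro x hx y hy hxy
    have h1 : x⁻¹ * y ∈ Z := QuotientGroup.eq.1 hxy
    have h2 : y * x⁻¹ ∈ Z := by
      have := hn.conj_mem _ h1 x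
      convert this using 1
      group
    obtain ⟨z, hz, hzz⟩ := exists_root hodd 2 (Or.inl rfl) h2
    refine ⟨z, hz, ?_⟩
    have h3 := (hDi x hx).2 z⁻¹ (Z.inv_mem hz)
    rw [inv_inv] at h3
    rw [pow_two] at hzz
    calc z * x * z⁻¹ = z * (x * z⁻¹ * x⁻¹) * x := by group
      _ = z * z * x := by rw [h3]
      _ = y := by rw [hzz]; group
  -- lifting of edges
  have hlift : ∀ x ∈ conjugatesOf d, ∀ y ∈ conjugatesOf d,
      (QuotientGroup.mk x : G ⧸ Z) ≠ QuotientGroup.mk y →
      (QuotientGroup.mk x : G ⧸ Z) * QuotientGroup.mk y = QuotientGroup.mk y * QuotientGroup.mk x →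
      ∃ y' ∈ conjugatesOf d, (QuotientGroup.mk y' : G ⧸ Z) = QuotientGroup.mk y ∧ x ≠ y' ∧ x * y' = y' * x := by
    intro x hx y hy hne hcomm
    have hxx := (hDi x hx).1
    have hyy := (hDi y hy).1
    have hxi : x⁻¹ = x := inv_eq_of_mul_eq_one_left hxx
    have hyi : y⁻¹ = y := inv_eq_of_mul_eq_one_left hyy
    have h1 : x * y * (x * y) ∈ Z := by
      rw [← QuotientGroup.eq_one_iff]
      have a1 : ((x * x : G) : G ⧸ Z) = 1 := by rw [hxx]; rfl
      have a2 : ((y * y : G) : G ⧸ Z) = 1 := by rw [hyy]; rfl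
      rw [QuotientGroup.mk_mul] at a1 a2
      simp only [QuotientGroup.mk_mul]
      calc (x : G ⧸ Z) * y * (x * y) = (x : G ⧸ Z) * (y * x) * y := by group
        _ = (x : G ⧸ Z) * (x * y) * y := by rw [hcomm]
        _ = ((x : G ⧸ Z) * x) * (y * y) := by group
        _ = 1 := by rw [a1, a2, one_mul]
    obtain ⟨z, hz, hzz⟩ := exists_root hodd 4 (Or.inr rfl) h1
    have hxz := (hDi x hx).2 z hz
    have hyz := (hDi y hy).2 z hz
    have hxz' : x * z = z⁻¹ * x := by
      calc x * z = x * z * x⁻¹ * x := by group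
        _ = z⁻¹ * x := by rw [hxz]
    have hyz' : y * z = z⁻¹ * y := by
      calc y * z = y * z * y⁻¹ * y := by group
        _ = z⁻¹ * y := by rw [hyz]
    have hyzi : y * z⁻¹ = z * y := by
      calc y * z⁻¹ = (y * z⁻¹ * y⁻¹) * y := by group
        _ = (y * z * y⁻¹)⁻¹ * y := by group
        _ = z * y := by rw [hyz, inv_inv]
    have hy' : z * y * z⁻¹ = z * z * y := by
      calc z * y * z⁻¹ = z * (y * z⁻¹) := by group
        _ = z * (z * y) := by rw [hyzi]
        _ = _ := by group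
    have hmk : (QuotientGroup.mk (z * y * z⁻¹) : G ⧸ Z) = QuotientGroup.mk y := by
      have hz1 : (QuotientGroup.mk z : G ⧸ Z) = 1 := (QuotientGroup.eq_one_iff z).2 hz
      simp only [QuotientGroup.mk_mul, QuotientGroup.mk_inv, hz1, one_mul, inv_one, mul_one]
    refine ⟨z * y * z⁻¹, conj_mem_D hy z, hmk, ?_, ?_⟩
    · intro he
      apply hne
      rw [he, hmk]
    · rw [hy']
      have hzc : (x * y) * (x * y) = z * z * z * z := by
        rw [← hzz]; simp [pow_succ]
      -- x * (z*z*y) = z⁻¹*z⁻¹*x*y ; z*z*y*x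
      have l1 : x * (z * z * y) = z⁻¹ * z⁻¹ * (x * y) := by
        calc x * (z * z * y) = (x * z) * (z * y) := by group
          _ = z⁻¹ * x * (z * y) := by rw [hxz']
          _ = z⁻¹ * (x * z) * y := by group
          _ = z⁻¹ * (z⁻¹ * x) * y := by rw [hxz']
          _ = _ := by group
      rw [l1]
      have l2 : y * x = (x * y)⁻¹ := by simp [hxi, hyi]
      have l3 : z * z * y * x = z * z * (x * y)⁻¹ := by
        rw [mul_assoc, l2]
      rw [l3]
      have l4 : (x * y) * (x * y) * (x * y)⁻¹ = x * y := by group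
      rw [hzc] at l4
      have l5 : z⁻¹ * z⁻¹ * (z * z * z * z * (x * y)⁻¹) = z * z * (x * y)⁻¹ := by
        simp only [mul_assoc, inv_mul_cancel_left]
      calc z⁻¹ * z⁻¹ * (x * y) = z⁻¹ * z⁻¹ * (z * z * z * z * (x * y)⁻¹) := by rw [l4]
        _ = _ := l5
  -- the propagation along the quotient graph
  let D₀ : conjugatesOf d := ⟨d, mem_conjugatesOf_self⟩
  have hP : ∀ a b : conjugatesOf (QuotientGroup.mk d : G ⧸ Z),
      (commutingGraph (conjugatesOf (QuotientGroup.mk d : G ⧸ Z))).Walk a b →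
      (∃ x : conjugatesOf d, (QuotientGroup.mk x.1 : G ⧸ Z) = a.1 ∧
        (commutingGraph (conjugatesOf d)).Reachable D₀ x) →
      (∃ x : conjugatesOf d, (QuotientGroup.mk x.1 : G ⧸ Z) = b.1 ∧
        (commutingGraph (conjugatesOf d)).Reachable D₀ x) := by
    intro a b w
    induction w with
    | nil => exact id
    | @cons u v w' hadj _ ih =>
      rintro ⟨x, hxu, hxr⟩
      apply ih
      rw [commutingGraph, SimpleGraph.fromRel_adj] at hadj
      obtain ⟨hne, hc⟩ := hadj
      have hne' : u.1 ≠ v.1 := fun h => hne (Subtype.ext h)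
      have hc' : u.1 * v.1 = v.1 * u.1 := by
        rcases hc with hc | hc
        · exact hc
        · exact hc.symm
      obtain ⟨g, hg⟩ := isConj_iff.1 v.2
      obtain ⟨g', rfl⟩ := QuotientGroup.mk_surjective g
      have hv : v.1 = QuotientGroup.mk (g' * d * g'⁻¹) := by
        rw [← hg]; rfl
      have hyD : g' * d * g'⁻¹ ∈ conjugatesOf d := conj_mem_D mem_conjugatesOf_self g'
      obtain ⟨y', hy'D, hy'm, hne2, hcomm⟩ := hlift x.1 x.2 _ hyD (by rw [hxu, ← hv]; exact hne')
        (by rw [hxu, ← hv]; exact hc')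
      refine ⟨⟨y', hy'D⟩, by rw [hy'm, ← hv], hxr.trans (SimpleGraph.Adj.reachable ?_)⟩
      rw [commutingGraph, SimpleGraph.fromRel_adj]
      refine ⟨fun h => hne2 (congrArg Subtype.val h), Or.inl hcomm⟩
  have hall : ∀ g : G, ∃ z ∈ Z, z * g ∈ compK d := by
    intro g
    have hgD : (QuotientGroup.mk (g * d * g⁻¹) : G ⧸ Z) ∈ conjugatesOf (QuotientGroup.mk d : G ⧸ Z) := by
      refine isConj_iff.2 ⟨QuotientGroup.mk g, ?_⟩
      simp only [QuotientGroup.mk_mul, QuotientGroup.mk_inv]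
    obtain ⟨w⟩ := hconn.preconnected ⟨(QuotientGroup.mk d : G ⧸ Z), mem_conjugatesOf_self⟩ ⟨_, hgD⟩
    obtain ⟨x, hx, hxr⟩ := hP _ _ w ⟨D₀, rfl, SimpleGraph.Reachable.refl _⟩
    obtain ⟨z, hz, hzx⟩ := hfib _ (conj_mem_D mem_conjugatesOf_self g) x.1 x.2 hx.symm
    refine ⟨z, hz, ?_⟩
    rw [mem_compK]
    convert hxr using 1
    apply Subtype.ext
    show z * g * d * (z * g)⁻¹ = x.1
    rw [← hzx]; group
  -- L is contained in K
  have hLK : L ≤ compK d := by
    have h1 : (compK d).subgroupOf L ⊔ Subgroup.center ↥L = ⊤ := by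
      rw [eq_top_iff]
      rintro l -
      obtain ⟨z, hz, hzl⟩ := hall l.1
      have hzL := hZL hz
      have h2 : (⟨z, hzL⟩ * l : L) ∈ (compK d).subgroupOf L := by
        rw [Subgroup.mem_subgroupOf]; exact hzl
      have h3 : (⟨z, hzL⟩ : L)⁻¹ ∈ Subgroup.center ↥L := by
        apply Subgroup.inv_mem
        exact hZcen ⟨z, hzL⟩ hz
      have h4 := Subgroup.mul_mem_sup h3 h2
      have h5 : (⟨z, hzL⟩ : L)⁻¹ * (⟨z, hzL⟩ * l) = l := by group
      rw [h5, sup_comm] at h4
      exact h4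
    have h2 := Lib.FStar.perfect_le_of_sup_center_eq_top hLp h1
    intro l hl
    have : (⟨l, hl⟩ : L) ∈ (compK d).subgroupOf L := by rw [h2]; trivial
    exact this
  have htop : ∀ g : G, g ∈ compK d := by
    intro g
    obtain ⟨z, hz, hzg⟩ := hall g
    have := (compK d).mul_mem ((compK d).inv_mem (hLK (hZL hz))) hzg
    simpa using this
  have hreach : ∀ y : conjugatesOf d, (commutingGraph (conjugatesOf d)).Reachable D₀ y := by
    intro y
    obtain ⟨g, hg⟩ := isConj_iff.1 y.2
    have := htop g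
    rw [mem_compK] at this
    convert this using 1
    exact Subtype.ext hg.symm
  haveI : Nonempty (conjugatesOf d) := ⟨D₀⟩
  rw [SimpleGraph.connected_iff]
  exact ⟨fun a b => (hreach a).symm.trans (hreach b), ⟨D₀⟩⟩

/-- Let G be a finite group with a quasisimple normal subgroup L and an involution d such that G is generated by L and d, the centre of L has odd order, and d inverts every element of the centre of L. If the commuting graph on the conjugacy class of the image of d in G modulo the centre of L is connected, then the commuting graph on the conjugacy class of d is connected. -/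
theorem result {G : Type*} [Group G] [Finite G] (L : Subgroup G) [L.Normal] (hL : Cfsg.IsQuasisimple ↥L) (d : G) (hd : orderOf d = 2) (hgen : L ⊔ Subgroup.zpowers d = ⊤) (hodd : Odd (Nat.card ↥(Subgroup.center ↥L))) (hinv : ∀ c ∈ (Subgroup.center ↥L).map L.subtype, d * c * d⁻¹ = c⁻¹) [hn : ((Subgroup.center ↥L).map L.subtype).Normal] (hconn : (Cfsg.commutingGraph (conjugatesOf (QuotientGroup.mk d : G ⧸ (Subgroup.center ↥L).map L.subtype))).Connected) : (Cfsg.commutingGraph (conjugatesOf d)).Connected := by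
  have hZL : (Subgroup.center ↥L).map L.subtype ≤ L := by
    rintro _ ⟨x, _, rfl⟩; exact x.2
  have hZcen : ∀ l : L, l.1 ∈ (Subgroup.center ↥L).map L.subtype → l ∈ Subgroup.center ↥L := by
    rintro l ⟨x, hx, hxl⟩
    have : x = l := Subtype.ext hxl
    exact this ▸ hx
  have hoddZ : Odd (Nat.card ((Subgroup.center ↥L).map L.subtype)) := by
    have e : Nat.card ((Subgroup.center ↥L).map L.subtype) = Nat.card (Subgroup.center ↥L) :=
      Nat.card_congr (Subgroup.equivMapOfInjective _ _ L.subtype_injective).symm.toEquiv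
    rw [e]; exact hodd
  have hdd : d * d = 1 := by
    have := pow_orderOf_eq_one d
    rwa [hd, pow_two] at this
  exact main L _ (Lib.FStar.qs_commutator hL) hZL hZcen d hdd hoddZ hinv hconn

end Cfsg.Agent.S5459
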