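import Cfsg.Statements.S5541
import Mathlib

set_option autoImplicit false
open Cfsg

namespace Cfsg.Agent.S5541

/-- Let ρ be a representation of a group H on a finite-dimensional real vector space U whose only ρ-invariant subspaces are the zero subspace and U, and suppose U carries a non-zero ρ-invariant symmetric bilinear form. Then the following are equivalent: (1) there is a non-zero ρ-equivariant commutative bilinear product on U of which every ρ-equivariant bilinear product is a scalar multiple; (2) there is a non-zero ρ-invariant trilinear form on U that is symmetric under all permutations of its arguments and of which every ρ-invariant trilinear form is a scalar multiple. -/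
theorem result {H : Type*} [Group H] {U : Type*} [AddCommGroup U] [Module ℝ U] [FiniteDimensional ℝ U] (ρ : Representation ℝ H U) (hirr : ∀ W : Submodule ℝ U, (∀ g : H, W.map (ρ g) ≤ W) → W = ⊥ ∨ W = ⊤) (B : LinearMap.BilinForm ℝ U) (hB0 : B ≠ 0) (hBs : ∀ u v, B u v = B v u) (hBi : ∀ (g : H) (u v : U), B (ρ g u) (ρ g v) = B u v) : (∃ m : U →ₗ[ℝ] U →ₗ[ℝ] U, m ≠ 0 ∧ (∀ u v, m u v = m v u) ∧ (∀ (g : H) (u v : U), m (ρ g u) (ρ g v) = ρ g (m u v)) ∧ ∀ m' : U →ₗ[ℝ] U →ₗ[ℝ] U, (∀ (g : H) (u v : U), m' (ρ g u) (ρ g v) = ρ g (m' u v)) → ∃ c : ℝ, m' = c • m) ↔ (∃ t : U →ₗ[ℝ] U →ₗ[ℝ] U →ₗ[ℝ] ℝ, t ≠ 0 ∧ (∀ u v w, t u v w = t v u w ∧ t u v w = t u w v) ∧ (∀ (g : H) (u v w : U), t (ρ g u) (ρ g v) (ρ g w) = t u v w) ∧ ∀ t' : U →ₗ[ℝ] U →ₗ[ℝ] U →ₗ[ℝ] ℝ, (∀ (g : H) (u v w : U), t' (ρ g u) (ρ g v) (ρ g w) = t' u v w) → ∃ c : ℝ, t' = c • t) := by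
  have hrr : ∀ (g : H) (w : U), ρ g (ρ g⁻¹ w) = w := by
    intro g w
    rw [← Module.End.mul_apply, ← map_mul, mul_inv_cancel, map_one, Module.End.one_apply]
  have hrr' : ∀ (g : H) (w : U), ρ g⁻¹ (ρ g w) = w := by
    intro g w
    rw [← Module.End.mul_apply, ← map_mul, inv_mul_cancel, map_one, Module.End.one_apply]
  -- nondegeneracy
  have hinj : Function.Injective B := by
    have hi : ∀ g : H, (LinearMap.ker B).map (ρ g) ≤ LinearMap.ker B := by
      intro g
      rintro _ ⟨u, hu, rfl⟩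
      rw [SetLike.mem_coe, LinearMap.mem_ker] at hu
      rw [LinearMap.mem_ker]
      ext v
      have h1 := hBi g u (ρ g⁻¹ v)
      rw [hrr] at h1
      rw [h1, hu]; rfl
    have hker : LinearMap.ker B = ⊥ := by
      rcases hirr (LinearMap.ker B) hi with h | h
      · exact h
      · exfalso
        apply hB0
        ext u v
        have : u ∈ LinearMap.ker B := by rw [h]; trivial
        rw [LinearMap.mem_ker] at this
        rw [this]; rfl
    exact LinearMap.ker_eq_bot.1 hker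
  have hfr : Module.finrank ℝ U = Module.finrank ℝ (Module.Dual ℝ U) := (Subspace.dual_finrank_eq).symm
  let e : U ≃ₗ[ℝ] Module.Dual ℝ U := LinearEquiv.ofInjectiveOfFinrankEq B hinj hfr
  have he : ∀ u, e u = B u := fun u => rfl
  have hBe : ∀ (φ : Module.Dual ℝ U), B (e.symm φ) = φ := by
    intro φ
    rw [← he, LinearEquiv.apply_symm_apply]
  -- conversions
  let toT : (U →ₗ[ℝ] U →ₗ[ℝ] U) → (U →ₗ[ℝ] U →ₗ[ℝ] U →ₗ[ℝ] ℝ) := fun m => m.compr₂ B
  let ofT : (U →ₗ[ℝ] U →ₗ[ℝ] U →ₗ[ℝ] ℝ) → (U →ₗ[ℝ] U →ₗ[ℝ] U) := fun t => t.compr₂ (e.symm : _ →ₗ[ℝ] U)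
  have htoT : ∀ m u v w, toT m u v w = B (m u v) w := fun _ _ _ _ => rfl
  have hofT : ∀ t u v w, B (ofT t u v) w = t u v w := by
    intro t u v w
    show B (e.symm (t u v)) w = _
    rw [hBe]
  have htoTofT : ∀ t, toT (ofT t) = t := by
    intro t
    ext u v w
    rw [htoT, hofT]
  have hofTtoT : ∀ m, ofT (toT m) = m := by
    intro m
    ext u v
    apply hinj
    ext w
    rw [hofT, htoT]
  have htoT_smul : ∀ (c : ℝ) m, toT (c • m) = c • toT m := by
    intro c m
    ext u v w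
    simp only [htoT, LinearMap.smul_apply, map_smul, smul_eq_mul]
  have hofT_smul : ∀ (c : ℝ) t, ofT (c • t) = c • ofT t := by
    intro c t
    ext u v
    apply hinj
    ext w
    simp only [hofT, LinearMap.smul_apply, map_smul, smul_eq_mul]
  have hinv_toT : ∀ m : U →ₗ[ℝ] U →ₗ[ℝ] U, (∀ (g : H) (u v : U), m (ρ g u) (ρ g v) = ρ g (m u v)) →
      ∀ (g : H) (u v w : U), toT m (ρ g u) (ρ g v) (ρ g w) = toT m u v w := by
    intro m hm g u v w
    rw [htoT, htoT, hm, hBi]
  have hinv_ofT : ∀ t : U →ₗ[ℝ] U →ₗ[ℝ] U →ₗ[ℝ] ℝ, (∀ (g : H) (u v w : U), t (ρ g u) (ρ g v) (ρ g w) = t u v w) →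
      ∀ (g : H) (u v : U), ofT t (ρ g u) (ρ g v) = ρ g (ofT t u v) := by
    intro t ht g u v
    apply hinj
    ext w
    rw [hofT]
    have h1 := hBi g (ofT t u v) (ρ g⁻¹ w)
    rw [hrr] at h1
    rw [h1, hofT, ← ht g u v (ρ g⁻¹ w), hrr]
  constructor
  · rintro ⟨m, hm0, hmc, hme, hmu⟩
    have huniq : ∀ t' : U →ₗ[ℝ] U →ₗ[ℝ] U →ₗ[ℝ] ℝ, (∀ (g : H) (u v w : U), t' (ρ g u) (ρ g v) (ρ g w) = t' u v w) → ∃ c : ℝ, t' = c • toT m := by
      intro t' ht'
      obtain ⟨c, hc⟩ := hmu _ (hinv_ofT t' ht')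
      refine ⟨c, ?_⟩
      rw [← htoT_smul, ← hc, htoTofT]
    have ht0 : toT m ≠ 0 := by
      intro h
      apply hm0
      have : ofT (toT m) = 0 := by rw [h]; ext u v; apply hinj; ext w; rw [hofT]; simp
      rwa [hofTtoT] at this
    have hs1 : ∀ u v w, toT m u v w = toT m v u w := by
      intro u v w
      rw [htoT, htoT, hmc]
    -- the flipped form
    let t2 : U →ₗ[ℝ] U →ₗ[ℝ] U →ₗ[ℝ] ℝ :=
      { toFun := fun u => (toT m u).flip
        map_add' := by intro x y; ext v w; simp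
        map_smul' := by intro c x; ext v w; simp }
    have ht2 : ∀ u v w, t2 u v w = toT m u w v := fun _ _ _ => rfl
    obtain ⟨c, hc⟩ := huniq t2 (by
      intro g u v w
      rw [ht2, ht2, hinv_toT m hme])
    have hc' : ∀ u v w, toT m u w v = c * toT m u v w := by
      intro u v w
      rw [← ht2, hc]
      rfl
    have hne : ∃ u v w, toT m u v w ≠ 0 := by
      by_contra hno
      push Not at hno
      apply ht0
      ext u v w
      exact hno u v w
    obtain ⟨u₀, v₀, w₀, hne₀⟩ := hne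
    have hcc : c * c = 1 := by
      have h1 := hc' u₀ v₀ w₀
      have h2 := hc' u₀ w₀ v₀
      rw [h1] at h2
      have h3 : (c * c - 1) * toT m u₀ v₀ w₀ = 0 := by linarith [h2]
      rcases mul_eq_zero.1 h3 with h4 | h4
      · linarith
      · exact absurd h4 hne₀
    have hc1 : c = 1 := by
      have h5 : (c - 1) * (c + 1) = 0 := by ring_nf; linarith
      rcases mul_eq_zero.1 h5 with h6 | h6
      · linarith
      · exfalso
        have hcm : c = -1 := by linarith
        apply hne₀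
        have a1 := hc' u₀ v₀ w₀
        have a2 := hs1 u₀ w₀ v₀
        have a3 := hc' w₀ u₀ v₀
        have a4 := hs1 w₀ v₀ u₀
        have a5 := hc' v₀ w₀ u₀
        have a6 := hs1 v₀ u₀ w₀
        rw [hcm] at a1 a3 a5
        linarith
    refine ⟨toT m, ht0, ?_, hinv_toT m hme, huniq⟩
    intro u v w
    refine ⟨hs1 u v w, ?_⟩
    rw [hc' u v w, hc1, one_mul]
  · rintro ⟨t, ht0, hts, hti, htu⟩
    refine ⟨ofT t, ?_, ?_, hinv_ofT t hti, ?_⟩
    · intro h
      apply ht0
      rw [← htoTofT t, h]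
      ext u v w
      simp [htoT]
    · intro u v
      apply hinj
      ext w
      rw [hofT, hofT]
      exact (hts u v w).1
    · intro m' hm'
      obtain ⟨c, hc⟩ := htu _ (hinv_toT m' hm')
      refine ⟨c, ?_⟩
      rw [← hofT_smul, ← hc, hofTtoT]

end Cfsg.Agent.S5541
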