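import Cfsg.Statements.S5543
import Mathlib

set_option autoImplicit false
open Cfsg

namespace Cfsg.Agent.S5543

open Cfsg.Axial

variable {V : Type*} [AddCommGroup V] [Module ℝ V]

/-- Orthogonality of eigenvectors. -/
theorem orth_of_eigen (mul : V →ₗ[ℝ] V →ₗ[ℝ] V) (B : LinearMap.BilinForm ℝ V)
    (hV : IsMajoranaAmbient mul B) (a v : V) (c₀ : ℝ) (s : Set ℝ) (hs : c₀ ∉ s)
    (hv : v ∈ eigen mul a c₀) (w : V) (hw : w ∈ eigenSum mul a s) : B v w = 0 := by
  have hle : eigenSum mul a s ≤ LinearMap.ker (B v) := by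
    unfold eigenSum
    apply iSup₂_le
    intro c hc x hx
    rw [LinearMap.mem_ker]
    have hv' : mul a v = c₀ • v := Module.End.mem_eigenspace_iff.1 hv
    have hx' : mul a x = c • x := Module.End.mem_eigenspace_iff.1 hx
    have h1 : B v (mul a x) = B (mul v a) x := hV.2.2.2.1 v a x
    rw [hx', hV.1 v a, hv', map_smul, map_smul, LinearMap.smul_apply, smul_eq_mul, smul_eq_mul] at h1
    have hne : c - c₀ ≠ 0 := by
      intro h
      have : c = c₀ := by linarith
      exact hs (this ▸ hc)
    have h2 : (c - c₀) * B v x = 0 := by linarith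
    rcases mul_eq_zero.1 h2 with h3 | h3
    · exact absurd h3 hne
    · exact h3
  exact hle hw

theorem law_quarter : monsterLaw (1 / 4 : ℝ) (1 / 32) (1 / 4) (1 / 4) = {1, 0} := by
  unfold monsterLaw
  rw [if_neg (by norm_num), if_neg (by norm_num), if_pos (by norm_num)]

/-- Let V be a finite-dimensional real vector space with a commutative bilinear product and a positive-definite symmetric bilinear form that associates with the product and satisfies the Norton inequality (the Majorana setting of the definitions). Let X be a group of linear automorphisms of V in which every element squares to the identity, and suppose every non-identity element x of X is a Majorana involution with an axial vector a(x) of squared length 1, such that for any two distinct non-identity x, y the product a(x) ∘ a(y) equals (1/8)(a(x) + a(y) − a(xy)) (the dihedral subalgebra of type 2A whose third axis belongs to the involution xy). Then X has order at most 4. -/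
theorem result {V : Type*} [AddCommGroup V] [Module ℝ V] [FiniteDimensional ℝ V] (mul : V →ₗ[ℝ] V →ₗ[ℝ] V) (B : LinearMap.BilinForm ℝ V) (hV : Cfsg.Axial.IsMajoranaAmbient mul B) (X : Subgroup (V ≃ₗ[ℝ] V)) (hX : ∀ x ∈ X, x * x = 1) (ax : (V ≃ₗ[ℝ] V) → V) (hax : ∀ x ∈ X, x ≠ 1 → Cfsg.Axial.IsMajoranaPair mul B x (ax x)) (h1 : ∀ x ∈ X, x ≠ 1 → B (ax x) (ax x) = 1) (h2A : ∀ x ∈ X, ∀ y ∈ X, x ≠ 1 → y ≠ 1 → x ≠ y → mul (ax x) (ax y) = (1 / 8 : ℝ) • (ax x + ax y - ax (x * y))) : Nat.card ↥X ≤ 4 := by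
  classical
  by_contra hcard
  push Not at hcard
  have hfind : ∀ S : Finset (V ≃ₗ[ℝ] V), S.card ≤ 4 → ∃ z ∈ X, z ∉ S := by
    intro S hS
    by_contra hno
    push Not at hno
    have hsub : (X : Set (V ≃ₗ[ℝ] V)) ⊆ (S : Set _) := fun z hz => hno z hz
    have h2 : (X : Set (V ≃ₗ[ℝ] V)).ncard ≤ (S : Set (V ≃ₗ[ℝ] V)).ncard :=
      Set.ncard_le_ncard hsub S.finite_toSet
    rw [Set.ncard_coe_finset] at h2
    have h3 : Nat.card X = (X : Set (V ≃ₗ[ℝ] V)).ncard := Nat.card_coe_set_eq _
    omega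
  -- commutativity in X
  have hcomm : ∀ x ∈ X, ∀ y ∈ X, x * y = y * x := by
    intro x hx y hy
    have h3 := hX _ (X.mul_mem hx hy)
    have hxi : x⁻¹ = x := inv_eq_of_mul_eq_one_left (hX x hx)
    have hyi : y⁻¹ = y := inv_eq_of_mul_eq_one_left (hX y hy)
    have h4 := eq_inv_of_mul_eq_one_left h3
    rw [mul_inv_rev, hxi, hyi] at h4
    exact h4
  -- choose x, y, z
  obtain ⟨x, hx, hx1⟩ := hfind {1} (by simp)
  have hx1' : x ≠ 1 := by simpa using hx1
  obtain ⟨y, hy, hy1⟩ := hfind {1, x} (Finset.card_le_two.trans (by norm_num))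
  have hy1' : y ≠ 1 := by
    intro h; apply hy1; simp [h]
  have hxy : x ≠ y := by
    intro h; apply hy1; simp [h]
  obtain ⟨z, hz, hz1⟩ := hfind {1, x, y, x * y} Finset.card_le_four
  have hz1' : z ≠ 1 := by intro h; apply hz1; simp [h]
  have hxz : x ≠ z := by intro h; apply hz1; simp [h]
  have hyz : y ≠ z := by intro h; apply hz1; simp [h]
  have hxyz' : z ≠ x * y := by intro h; apply hz1; simp [h]
  have hxx := hX x hx
  have hyy := hX y hy
  have hzz := hX z hz
  -- the general eigenvector statement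
  have heig : ∀ y ∈ X, y ≠ 1 → x ≠ y → ax y - ax (x * y) ∈ eigen mul (ax x) (1 / 4) := by
    intro y hy hy1 hxy
    have hxyX := X.mul_mem hx hy
    have hxy1 : x * y ≠ 1 := by
      intro h
      apply hxy
      have h5 : x = y⁻¹ := eq_inv_of_mul_eq_one_left h
      rwa [inv_eq_of_mul_eq_one_left (hX y hy)] at h5
    have hxxy : x ≠ x * y := by
      intro h
      exact hy1 (mul_eq_left.1 h.symm)
    have h3 := h2A x hx y hy hx1' hy1 hxy
    have h4 := h2A x hx _ hxyX hx1' hxy1 hxxy
    have h5 : x * (x * y) = y := by rw [← mul_assoc, hxx, one_mul]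
    rw [h5] at h4
    rw [eigen, Module.End.mem_eigenspace_iff, map_sub, h3, h4]
    (module)
  have hxyX := X.mul_mem hx hy
  have hxzX := X.mul_mem hx hz
  have hyzX := X.mul_mem hy hz
  have hxyzX := X.mul_mem hx hyzX
  have hxy1 : x * y ≠ 1 := by
    intro h
    apply hxy
    have h5 : x = y⁻¹ := eq_inv_of_mul_eq_one_left h
    rwa [inv_eq_of_mul_eq_one_left hyy] at h5
  have hxz1 : x * z ≠ 1 := by
    intro h
    apply hxz
    have h5 : x = z⁻¹ := eq_inv_of_mul_eq_one_left h
    rwa [inv_eq_of_mul_eq_one_left hzz] at h5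
  have hyz1 : y * z ≠ 1 := by
    intro h
    apply hyz
    have h5 : y = z⁻¹ := eq_inv_of_mul_eq_one_left h
    rwa [inv_eq_of_mul_eq_one_left hzz] at h5
  have hxyz : x ≠ y * z := by
    intro h
    apply hxyz'
    have h6 : y * x = z := by
      calc y * x = y * (y * z) := by rw [← h]
        _ = z := by rw [← mul_assoc, hyy, one_mul]
    rw [hcomm x hx y hy, h6]
  have hu := heig y hy hy1' hxy
  have hw := heig z hz hz1' hxz
  have hv' := heig (y * z) hyzX hyz1 hxyz
  -- the product of u and w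
  have hprod : mul (ax y - ax (x * y)) (ax z - ax (x * z)) = -(1 / 4 : ℝ) • (ax (y * z) - ax (x * (y * z))) := by
    have p1 := h2A y hy z hz hy1' hz1' hyz
    have hyxz : y ≠ x * z := by
      intro h
      apply hxyz'
      rw [h, ← mul_assoc, hxx, one_mul]
    have p2 := h2A y hy (x * z) hxzX hy1' hxz1 hyxz
    have hxyz2 : x * y ≠ z := fun h => hxyz' h.symm
    have p3 := h2A (x * y) hxyX z hz hxy1 hz1' hxyz2
    have hxyxz : x * y ≠ x * z := fun h => hyz (mul_left_cancel h)
    have p4 := h2A (x * y) hxyX (x * z) hxzX hxy1 hxz1 hxyxz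
    have e2 : y * (x * z) = x * (y * z) := by
      rw [← mul_assoc, hcomm y hy x hx, mul_assoc]
    have e3 : x * y * z = x * (y * z) := mul_assoc _ _ _
    have e4 : x * y * (x * z) = y * z := by
      rw [hcomm x hx y hy, mul_assoc, ← mul_assoc x x z, hxx, one_mul]
    rw [e2] at p2
    rw [e3] at p3
    rw [e4] at p4
    simp only [map_sub, LinearMap.sub_apply]
    rw [p1, p2, p3, p4]
    (module)
  -- fusion law
  obtain ⟨-, -, ⟨⟨hne0, hidem, hsum, hfus⟩, -⟩, -⟩ := hax x hx hx1'
  have hquarter : (1 / 4 : ℝ) ∈ majoranaSpectrum := by simp [majoranaSpectrum]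
  have hf := hfus _ hquarter _ hquarter _ hu _ hw
  rw [law_quarter, hprod] at hf
  have hv2 : ax (y * z) - ax (x * (y * z)) ∈ eigenSum mul (ax x) {1, 0} := by
    have := Submodule.smul_mem _ (-(4 : ℝ)) hf
    rw [smul_smul] at this
    norm_num at this
    exact this
  have horth := orth_of_eigen mul B hV (ax x) _ (1 / 4) {1, 0} (by norm_num) hv' _ hv2
  have hvzero : ax (y * z) - ax (x * (y * z)) = 0 := by
    by_contra hne
    have := hV.2.2.1 _ hne
    linarith
  have heq : ax (x * (y * z)) = ax (y * z) := (sub_eq_zero.1 hvzero).symm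
  -- a_x is a 1/8-eigenvector of a_{yz}
  have h8 : mul (ax (y * z)) (ax x) = (1 / 8 : ℝ) • ax x := by
    rw [hV.1, h2A x hx _ hyzX hx1' hyz1 hxyz, heq]
    (module)
  obtain ⟨-, -, ⟨⟨-, -, hsum2, -⟩, -⟩, -⟩ := hax _ hyzX hyz1
  have hmem : ax x ∈ eigen mul (ax (y * z)) (1 / 8) := Module.End.mem_eigenspace_iff.2 h8
  have hnot : (1 / 8 : ℝ) ∉ majoranaSpectrum := by
    simp only [majoranaSpectrum, Set.mem_insert_iff, Set.mem_singleton_iff]
    norm_num
  have hzero := orth_of_eigen mul B hV (ax (y * z)) (ax x) (1 / 8) majoranaSpectrum hnot hmem (ax x)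
    (by rw [hsum2]; trivial)
  rw [h1 x hx hx1'] at hzero
  norm_num at hzero

end Cfsg.Agent.S5543
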