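import Cfsg.Statements.S5545
import Mathlib

set_option autoImplicit false
open Cfsg

namespace Cfsg.Agent.S5545


open Cfsg.Axial

variable {V : Type*} [AddCommGroup V] [Module ℝ V]

/-- Orthogonality of eigenvectors. -/
theorem orth_of_eigen (mul : V →ₗ[ℝ] V →ₗ[ℝ] V) (B : LinearMap.BilinForm ℝ V)
    (hV : IsMajoranaAmbient mul B) (a v : V) (c₀ : ℝ) (s : Set ℝ) (hs : c₀ ∉ s)
    (hv : v ∈ eigen mul a c₀) (w : V) (hw : w ∈ eigenSum mul a s) : B v w = 0 := by
  have hle : eigenSum mul a s ≤ LinearMap.ker (B v) := by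
    unfold eigenSum
    apply iSup₂_le
    intro c hc x hx
    rw [LinearMap.mem_ker]
    have hv' : mul a v = c₀ • v := Module.End.mem_eigenspace_iff.1 hv
    have hx' : mul a x = c • x := Module.End.mem_eigenspace_iff.1 hx
    have h1 : B v (mul a x) = B (mul v a) x := hV.2.2.2.1 v a x
    rw [hx', hV.1 v a, hv', map_smul, map_smul, LinearMap.smul_apply, smul_eq_mul, smul_eq_mul] at h1
    have hne : c - c₀ ≠ 0 := by
      intro h
      have : c = c₀ := by linarith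
      exact hs (this ▸ hc)
    have h2 : (c - c₀) * B v x = 0 := by linarith
    rcases mul_eq_zero.1 h2 with h3 | h3
    · exact absurd h3 hne
    · exact h3
  exact hle hw

/-- Eigenspaces under an automorphism. -/
theorem eigen_map (mul : V →ₗ[ℝ] V →ₗ[ℝ] V) (ν : V ≃ₗ[ℝ] V)
    (hν : ∀ u v : V, ν (mul u v) = mul (ν u) (ν v)) (a : V) (c : ℝ) :
    eigen mul (ν a) c = (eigen mul a c).map (ν : V →ₗ[ℝ] V) := by
  ext v
  rw [Submodule.mem_map]
  constructor
  · intro hv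
    refine ⟨ν.symm v, ?_, by simp⟩
    rw [eigen, Module.End.mem_eigenspace_iff] at hv ⊢
    apply ν.injective
    rw [hν]
    simp [hv]
  · rintro ⟨w, hw, rfl⟩
    rw [eigen, Module.End.mem_eigenspace_iff] at hw ⊢
    have : mul (ν a) (ν w) = ν (mul a w) := (hν a w).symm
    simp only [LinearEquiv.coe_coe]
    rw [this, hw, map_smul]

theorem eigenSum_map (mul : V →ₗ[ℝ] V →ₗ[ℝ] V) (ν : V ≃ₗ[ℝ] V)
    (hν : ∀ u v : V, ν (mul u v) = mul (ν u) (ν v)) (a : V) (S : Set ℝ) :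
    eigenSum mul (ν a) S = (eigenSum mul a S).map (ν : V →ₗ[ℝ] V) := by
  unfold eigenSum
  simp only [Submodule.map_iSup, eigen_map mul ν hν]

/-- Transport of a Majorana pair by a commuting automorphism. -/
theorem pair_transport (mul : V →ₗ[ℝ] V →ₗ[ℝ] V) (B : LinearMap.BilinForm ℝ V)
    (μ ν : V ≃ₗ[ℝ] V) (a : V) (h : IsMajoranaPair mul B μ a)
    (hν : ∀ u v : V, ν (mul u v) = mul (ν u) (ν v)) (hc : ∀ v, μ (ν v) = ν (μ v)) :
    IsMajoranaPair mul B μ (ν a) := by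
  obtain ⟨h1, h2, ⟨⟨hne, hid, hsum, hfus⟩, hprim⟩, hplus, hminus⟩ := h
  refine ⟨h1, h2, ⟨⟨?_, ?_, ?_, ?_⟩, ?_⟩, ?_, ?_⟩
  · intro h0
    apply hne
    apply ν.injective
    rw [h0, map_zero]
  · rw [← hν, hid]
  · rw [eigenSum_map mul ν hν, hsum, Submodule.map_top]
    exact LinearEquiv.range ν
  · intro c hc' d hd u hu v hv
    rw [eigen_map mul ν hν] at hu hv
    obtain ⟨u', hu', rfl⟩ := hu
    obtain ⟨v', hv', rfl⟩ := hv
    rw [eigenSum_map mul ν hν]
    refine ⟨mul u' v', hfus c hc' d hd u' hu' v' hv', ?_⟩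
    simp only [LinearEquiv.coe_coe]
    rw [hν]
  · rw [eigen_map mul ν hν, hprim, Submodule.map_span]
    simp
  · intro v hv
    rw [eigenSum_map mul ν hν] at hv
    obtain ⟨w, hw, rfl⟩ := hv
    have := hplus w hw
    simp only [LinearEquiv.coe_coe] at this ⊢
    rw [hc, this]
  · intro v hv
    rw [eigen_map mul ν hν] at hv
    obtain ⟨w, hw, rfl⟩ := hv
    have := hminus w hw
    simp only [LinearEquiv.coe_coe] at this ⊢
    rw [hc, this, map_neg]

theorem law_00 : monsterLaw (1 / 4 : ℝ) (1 / 32) 0 0 = {0} := by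
  unfold monsterLaw
  rw [if_neg (by norm_num), if_neg (by norm_num), if_neg (by norm_num), if_neg (by norm_num), if_pos rfl]

theorem law_qq : monsterLaw (1 / 4 : ℝ) (1 / 32) (1 / 4) (1 / 4) = {1, 0} := by
  unfold monsterLaw
  rw [if_neg (by norm_num), if_neg (by norm_num), if_pos (by norm_num)]

theorem law_0q : monsterLaw (1 / 4 : ℝ) (1 / 32) 0 (1 / 4) = {1 / 4} := by
  unfold monsterLaw
  rw [if_neg (by norm_num), if_neg (by norm_num), if_neg (by norm_num), if_pos (by norm_num)]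

/-- The decomposition: the relations on one side. -/
theorem side (mul : V →ₗ[ℝ] V →ₗ[ℝ] V) (B : LinearMap.BilinForm ℝ V)
    (hV : IsMajoranaAmbient mul B) (μ : V ≃ₗ[ℝ] V) (a b : V) (hb : IsMajoranaPair mul B μ b)
    (hbb : B b b = 1) (hμa : μ a = a) (haa : mul a a = a) :
    mul b (mul a b) = (1 / 4 : ℝ) • (mul a b + (3 * B a b) • b) ∧
    mul (a + (3 * B a b) • b - (4 : ℝ) • mul a b) ((4 : ℝ) • mul a b - (4 * B a b) • b) =
      ((2 - B a b) / 4) • ((4 : ℝ) • mul a b - (4 * B a b) • b) := by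
  obtain ⟨h1, h2, ⟨⟨hne, hid, hsum, hfus⟩, hprim⟩, hplus, hminus⟩ := hb
  have hcm := hV.1
  -- decompose
  have hmem : a ∈ eigenSum mul b majoranaSpectrum := by rw [hsum]; trivial
  have hsumeq : eigenSum mul b majoranaSpectrum =
      eigen mul b 1 ⊔ (eigen mul b 0 ⊔ (eigen mul b (1 / 4) ⊔ eigen mul b (1 / 32))) := by
    simp only [eigenSum, majoranaSpectrum, iSup_insert, iSup_singleton]
  rw [hsumeq] at hmem
  obtain ⟨a1, ha1, r1, hr1, hd1⟩ := Submodule.mem_sup.1 hmem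
  obtain ⟨x, hx, r2, hr2, hd2⟩ := Submodule.mem_sup.1 hr1
  obtain ⟨y, hy, w, hw, hd3⟩ := Submodule.mem_sup.1 hr2
  rw [hprim, Submodule.mem_span_singleton] at ha1
  obtain ⟨c, rfl⟩ := ha1
  have hae : a = c • b + (x + (y + w)) := by rw [hd3, hd2, hd1]
  have hx' : mul b x = 0 := by
    have := Module.End.mem_eigenspace_iff.1 hx
    simpa using this
  have hy' : mul b y = (1 / 4 : ℝ) • y := Module.End.mem_eigenspace_iff.1 hy
  have hw' : μ w = -w := hminus w hw
  have hbplus : b ∈ eigenSum mul b {1, 0, 1 / 4} := by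
    apply (le_iSup₂_of_le (1 : ℝ) (by simp) le_rfl : eigen mul b 1 ≤ eigenSum mul b {1, 0, 1 / 4})
    exact Module.End.mem_eigenspace_iff.2 (by simpa using hid)
  have hxplus : x ∈ eigenSum mul b {1, 0, 1 / 4} :=
    (le_iSup₂_of_le (0 : ℝ) (by simp) le_rfl : eigen mul b 0 ≤ eigenSum mul b {1, 0, 1 / 4}) hx
  have hyplus : y ∈ eigenSum mul b {1, 0, 1 / 4} :=
    (le_iSup₂_of_le (1 / 4 : ℝ) (by simp) le_rfl : eigen mul b (1 / 4) ≤ eigenSum mul b {1, 0, 1 / 4}) hy
  have hμb := hplus b hbplus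
  have hμx := hplus x hxplus
  have hμy := hplus y hyplus
  have hw0 : w = 0 := by
    have h3 : μ a = c • b + (x + (y - w)) := by
      conv_lhs => rw [hae]
      simp only [map_add, map_smul, LinearEquiv.coe_coe] at hμb hμx hμy ⊢
      rw [hμb, hμx, hμy, hw']
      abel
    rw [hμa] at h3
    have h4 : (2 : ℝ) • w = 0 := by
      have : (c • b + (x + (y + w))) - (c • b + (x + (y - w))) = (2 : ℝ) • w := by
        (module)
      rw [← this, ← hae, ← h3, sub_self]
    exact (smul_eq_zero.1 h4).resolve_left (by norm_num)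
  subst hw0
  rw [add_zero] at hae
  -- c is the inner product
  have hxb : B b x = 0 := by
    have hb1 : b ∈ eigen mul b 1 := Module.End.mem_eigenspace_iff.2 (by simpa using hid)
    apply orth_of_eigen mul B hV b b 1 {0} (by norm_num) hb1 x
    exact (le_iSup₂_of_le (0 : ℝ) (by simp) le_rfl : eigen mul b 0 ≤ eigenSum mul b {0}) hx
  have hyb : B b y = 0 := by
    have hb1 : b ∈ eigen mul b 1 := Module.End.mem_eigenspace_iff.2 (by simpa using hid)
    apply orth_of_eigen mul B hV b b 1 {1 / 4} (by norm_num) hb1 y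
    exact (le_iSup₂_of_le (1 / 4 : ℝ) (by simp) le_rfl : eigen mul b (1 / 4) ≤ eigenSum mul b {1 / 4}) hy
  have ht : B a b = c := by
    rw [hV.2.1 a b, hae]
    simp only [map_add, map_smul, smul_eq_mul, hbb, hxb, hyb]
    ring
  -- the product
  have hp : mul a b = c • b + (1 / 4 : ℝ) • y := by
    rw [hcm a b, hae]
    simp only [map_add, map_smul, hid, hx', hy']
    (module)
  have hyeq : y = (4 : ℝ) • mul a b - (4 * c) • b := by
    rw [hp]; module
  have hxeq : x = a + (3 * c) • b - (4 : ℝ) • mul a b := by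
    rw [hp]
    conv_rhs => rw [hae]
    (module)
  rw [ht]
  constructor
  · -- mul b p
    rw [hp]
    simp only [map_add, map_smul, hid, hy']
    have : y = y := rfl
    (module)
  · -- the fusion
    rw [← hxeq, ← hyeq]
    have hq : (1 / 4 : ℝ) ∈ majoranaSpectrum := by simp [majoranaSpectrum]
    have h0 : (0 : ℝ) ∈ majoranaSpectrum := by simp [majoranaSpectrum]
    have hxy := hfus 0 h0 (1 / 4) hq x hx y hy
    have hxx := hfus 0 h0 0 h0 x hx x hx
    have hyy := hfus (1 / 4) hq (1 / 4) hq y hy y hy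
    rw [law_0q] at hxy
    rw [law_00] at hxx
    rw [law_qq] at hyy
    have hxy' : mul x y ∈ eigen mul b (1 / 4) := by
      simpa [eigenSum] using hxy
    have hxx' : mul x x ∈ eigen mul b 0 := by
      simpa [eigenSum] using hxx
    have hinc0 : eigen mul b 0 ≤ eigenSum mul b {1, 0} :=
      le_iSup₂_of_le (0 : ℝ) (by simp) le_rfl
    have hinc1 : eigen mul b 1 ≤ eigenSum mul b {1, 0} :=
      le_iSup₂_of_le (1 : ℝ) (by simp) le_rfl
    -- idempotency
    have hexp : mul a a = (c * c) • b + mul x x + mul y y + (c / 2) • y + (2 : ℝ) • mul x y := by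
      conv_lhs => rw [hae]
      simp only [map_add, map_smul, LinearMap.add_apply, LinearMap.smul_apply, hid, hx', hy']
      rw [hcm y x, hcm x b, hcm y b, hx', hy']
      (module)
    -- the element
    have hbE : b ∈ eigen mul b 1 := Module.End.mem_eigenspace_iff.2 (by simpa using hid)
    have hv1 : (c / 2) • y + (2 : ℝ) • mul x y - y ∈ eigen mul b (1 / 4) := by
      apply Submodule.sub_mem _ _ hy
      exact Submodule.add_mem _ (Submodule.smul_mem _ _ hy) (Submodule.smul_mem _ _ hxy')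
    have hv2 : (c / 2) • y + (2 : ℝ) • mul x y - y ∈ eigenSum mul b {1, 0} := by
      have e : (c / 2) • y + (2 : ℝ) • mul x y - y =
          (c - c * c) • b + x - mul x x - mul y y := by
        have h5 : a = (c * c) • b + mul x x + mul y y + (c / 2) • y + (2 : ℝ) • mul x y := by
          rw [← hexp, haa]
        have h6 : c • b + (x + y) = (c * c) • b + mul x x + mul y y + (c / 2) • y + (2 : ℝ) • mul x y := by
          rw [← h5, ← hae]
        have h7 := sub_eq_zero.2 h6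
        rw [← sub_eq_zero]
        rw [← neg_eq_zero, ← h7]
        (module)
      rw [e]
      apply Submodule.sub_mem _ (Submodule.sub_mem _ (Submodule.add_mem _ (Submodule.smul_mem _ _ (hinc1 hbE)) (hinc0 hx)) (hinc0 hxx')) hyy
    have hz : B ((c / 2) • y + (2 : ℝ) • mul x y - y) ((c / 2) • y + (2 : ℝ) • mul x y - y) = 0 :=
      orth_of_eigen mul B hV b _ (1 / 4) {1, 0} (by norm_num) hv1 _ hv2
    have hz0 : (c / 2) • y + (2 : ℝ) • mul x y - y = 0 := by
      by_contra hne'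
      have := hV.2.2.1 _ hne'
      linarith
    have hfinal : (2 : ℝ) • mul x y = (1 - c / 2) • y := by
      rw [← sub_eq_zero, ← hz0]
      (module)
    have : mul x y = (1 / 2 : ℝ) • ((2 : ℝ) • mul x y) := by
      rw [smul_smul]; norm_num
    rw [this, hfinal, smul_smul]
    congr 1
    ring

/-- Let V be a finite-dimensional real vector space with a commutative bilinear product and a positive-definite symmetric bilinear form that associates with the product and satisfies the Norton inequality (the Majorana setting of the definitions). Let μ₀, μ₁ be commuting Majorana involutions with distinct axial vectors a₀ ≠ a₁ of squared length 1, each involution having no other axial vector. Then either a₀ and a₁ are orthogonal with a₀ ∘ a₁ = 0 (type 2B), or their inner product is 1/8 and, with a₂ = a₀ + a₁ − 8 a₀ ∘ a₁, the vector a₂ is an idempotent and a₀ ∘ a₂ = (1/8)(a₀ + a₂ − a₁), a₁ ∘ a₂ = (1/8)(a₁ + a₂ − a₀) (type 2A: the three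 idempotents span a subalgebra with aᵢ ∘ aⱼ = (1/8)(aᵢ + aⱼ − aₖ)). -/
theorem result {V : Type*} [AddCommGroup V] [Module ℝ V] [FiniteDimensional ℝ V] (mul : V →ₗ[ℝ] V →ₗ[ℝ] V) (B : LinearMap.BilinForm ℝ V) (hV : Cfsg.Axial.IsMajoranaAmbient mul B) (μ₀ μ₁ : V ≃ₗ[ℝ] V) (a₀ a₁ : V) (h₀ : Cfsg.Axial.IsMajoranaPair mul B μ₀ a₀) (h₁ : Cfsg.Axial.IsMajoranaPair mul B μ₁ a₁) (hu₀ : ∀ a : V, Cfsg.Axial.IsMajoranaPair mul B μ₀ a → a = a₀) (hu₁ : ∀ a : V, Cfsg.Axial.IsMajoranaPair mul B μ₁ a → a = a₁) (hn₀ : B a₀ a₀ = 1) (hn₁ : B a₁ a₁ = 1) (hc : μ₀ * μ₁ = μ₁ * μ₀) (hne : a₀ ≠ a₁) : (B a₀ a₁ = 0 ∧ mul a₀ a₁ = 0) ∨ (B a₀ a₁ = 1 / 8 ∧ mul (a₀ + a₁ - (8 : ℝ) • mul a₀ a₁) (a₀ + a₁ - (8 : ℝ) • mul a₀ a₁) = a₀ + a₁ - (8 : ℝ) • mul a₀ a₁ ∧ mul a₀ (a₀ + a₁ - (8 : ℝ) • mul a₀ a₁) = (1 / 8 : ℝ) • (a₀ + (a₀ + a₁ - (8 : ℝ) • mul a₀ a₁) - a₁) ∧ mul a₁ (a₀ + a₁ - (8 : ℝ) • mul a₀ a₁) = (1 / 8 : ℝ) • (a₁ + (a₀ + a₁ - (8 : ℝ) • mul a₀ a₁) - a₀)) := by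
  have hcm := hV.1
  obtain ⟨h01, h02, ⟨⟨hne0, hid0, -, -⟩, -⟩, -⟩ := id h₀
  obtain ⟨h11, h12, ⟨⟨hne1, hid1, -, -⟩, -⟩, -⟩ := id h₁
  have hcomm : ∀ v, μ₀ (μ₁ v) = μ₁ (μ₀ v) := by
    intro v
    have := congrArg (fun f : V ≃ₗ[ℝ] V => f v) hc
    simpa using this
  have hfix0 : μ₁ a₀ = a₀ := hu₀ _ (pair_transport mul B μ₀ μ₁ a₀ h₀ h11 hcomm)
  have hfix1 : μ₀ a₁ = a₁ := hu₁ _ (pair_transport mul B μ₁ μ₀ a₁ h₁ h01 (fun v => (hcomm v).symm))
  obtain ⟨hb1, hb2⟩ := side mul B hV μ₁ a₀ a₁ h₁ hn₁ hfix0 hid0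
  obtain ⟨ha1, ha2⟩ := side mul B hV μ₀ a₁ a₀ h₀ hn₀ hfix1 hid1
  rw [hcm a₁ a₀, hV.2.1 a₁ a₀] at ha1 ha2
  obtain ⟨p, hp⟩ : ∃ p, p = mul a₀ a₁ := ⟨_, rfl⟩
  obtain ⟨t, ht⟩ : ∃ t, t = B a₀ a₁ := ⟨_, rfl⟩
  rw [← hp, ← ht] at hb1 hb2 ha1 ha2
  have hpb : mul p a₁ = (1 / 4 : ℝ) • (p + (3 * t) • a₁) := by rw [hcm, hb1]
  have hpa : mul p a₀ = (1 / 4 : ℝ) • (p + (3 * t) • a₀) := by rw [hcm, ha1]
  have hba : mul a₁ a₀ = p := by rw [hcm, hp]
  -- expansions
  have E1 : (16 : ℝ) • mul p p = (4 * t - 1) • p + (3 * t) • a₀ + (2 * t + 8 * t * t) • a₁ := by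
    simp only [map_add, map_sub, map_smul, LinearMap.add_apply, LinearMap.sub_apply,
      LinearMap.smul_apply, ha1, hb1, hid1, ← hp, hba, hpb] at hb2
    rw [← sub_eq_zero] at hb2 ⊢
    rw [← neg_eq_zero, ← hb2]
    (module)
  have E2 : (16 : ℝ) • mul p p = (4 * t - 1) • p + (3 * t) • a₁ + (2 * t + 8 * t * t) • a₀ := by
    simp only [map_add, map_sub, map_smul, LinearMap.add_apply, LinearMap.sub_apply,
      LinearMap.smul_apply, ha1, hb1, hid0, ← hp, hpa, hba] at ha2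
    rw [← sub_eq_zero] at ha2 ⊢
    rw [← neg_eq_zero, ← ha2]
    (module)
  have hkey : (t * (1 - 8 * t)) • (a₀ - a₁) = 0 := by
    have := E1.symm.trans E2
    rw [← sub_eq_zero] at this
    rw [← this]
    (module)
  have hsub : a₀ - a₁ ≠ 0 := sub_ne_zero.2 hne
  have htt : t * (1 - 8 * t) = 0 := (smul_eq_zero.1 hkey).resolve_right hsub
  rcases mul_eq_zero.1 htt with h0 | h8
  · left
    refine ⟨by rw [← ht, h0], ?_⟩
    rw [← hp]
    by_contra hne'
    have hpos := hV.2.2.1 p hne'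
    have h4 : B p p = B a₀ (mul a₁ p) := by
      rw [hV.2.2.2.1 a₀ a₁ p, ← hp]
    rw [hb1] at h4
    have h5 : B a₀ p = t := by
      rw [hp, hV.2.2.2.1, hid0, ht]
    simp only [map_smul, map_add, smul_eq_mul, h5, ← ht] at h4
    rw [h0] at h4
    norm_num at h4
    linarith
  · right
    have h18 : t = 1 / 8 := by linarith
    subst h18
    refine ⟨ht.symm, ?_, ?_, ?_⟩
    · rw [← hp]
      simp only [map_add, map_sub, map_smul, LinearMap.add_apply, LinearMap.sub_apply,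
        LinearMap.smul_apply, hid0, hid1, ← hp, hba, hpa, hpb, ha1, hb1]
      have h16 : mul p p = (1 / 16 : ℝ) • ((4 * (1 / 8 : ℝ) - 1) • p + (3 * (1 / 8 : ℝ)) • a₀ + (2 * (1 / 8 : ℝ) + 8 * (1 / 8 : ℝ) * (1 / 8 : ℝ)) • a₁) := by
        rw [← E1, smul_smul]; norm_num
      rw [h16]
      (module)
    · rw [← hp]
      simp only [map_add, map_sub, map_smul, hid0, ← hp, ha1]
      (module)
    · rw [← hp]
      simp only [map_add, map_sub, map_smul, hid1, hb1, hba]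
      (module)

end Cfsg.Agent.S5545
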