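import Cfsg.Statements.S5594
import Cfsg.Agent.S0372
import Cfsg.Agent.Lib.Leech.Basic

set_option autoImplicit false
open Cfsg

namespace Cfsg.Agent.S5594


open Cfsg.Agent.Lib.Leech in
/-- The dodecad of the squares. -/
def sqD : Finset GolayPt := support₂ (qrWord 0)

theorem sqD_mem : sqD ∈ Cfsg.Agent.Lib.Leech.CS :=
  ⟨qrWord 0, Submodule.subset_span (Or.inl ⟨0, rfl⟩), rfl⟩

theorem sqD_swap (i : GolayPt) : (projInv i ∈ sqD) ↔ ¬ (i ∈ sqD) := by
  revert i
  decide +kernel

theorem projInv_invol (i : GolayPt) : projInv (projInv i) = i := by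
  revert i
  decide +kernel

/-- The map `g`. -/
def gFun (v : ↥leechLattice) : ↥leechLattice :=
  ⟨fun i => if i ∈ sqD then -(v.1 (projInv i)) else v.1 (projInv i), by
    apply Cfsg.Agent.Lib.Leech.mem_leechLattice.2
    exact Cfsg.Agent.Lib.Leech.sign_mem sqD_mem
      (Cfsg.Agent.Lib.Leech.comp_mem Cfsg.Agent.S0372.result
        (Cfsg.Agent.Lib.Leech.mem_leechLattice.1 v.2))⟩

theorem gFun_gFun (v : ↥leechLattice) : gFun (gFun v) = -v := by
  apply Subtype.ext
  funext i
  show (if i ∈ sqD then -(if projInv i ∈ sqD then -(v.1 (projInv (projInv i))) else v.1 (projInv (projInv i)))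
      else (if projInv i ∈ sqD then -(v.1 (projInv (projInv i))) else v.1 (projInv (projInv i)))) = -(v.1 i)
  rw [projInv_invol]
  by_cases h : i ∈ sqD
  · have h2 : projInv i ∉ sqD := fun h3 => (sqD_swap i).1 h3 h
    simp [h, h2]
  · have h2 : projInv i ∈ sqD := (sqD_swap i).2 h
    simp [h, h2]

theorem gFun_neg (v : ↥leechLattice) : gFun (-v) = -gFun v := by
  apply Subtype.ext
  funext i
  show (if i ∈ sqD then -(-(v.1 (projInv i))) else -(v.1 (projInv i))) =
    -(if i ∈ sqD then -(v.1 (projInv i)) else v.1 (projInv i))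
  split_ifs <;> rfl

/-- The element `g` as a permutation. -/
def gPerm : Equiv.Perm ↥leechLattice where
  toFun := gFun
  invFun v := -gFun v
  left_inv v := by
    show -gFun (gFun v) = v
    rw [gFun_gFun, neg_neg]
  right_inv v := by
    show gFun (-gFun v) = v
    rw [gFun_neg, gFun_gFun, neg_neg]

theorem gPerm_mem : gPerm ∈ Co0 := by
  refine ⟨fun v w => ?_, fun v => ?_⟩
  · apply Subtype.ext
    funext i
    show (if i ∈ sqD then -((v.1 + w.1) (projInv i)) else (v.1 + w.1) (projInv i)) =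
      (if i ∈ sqD then -(v.1 (projInv i)) else v.1 (projInv i)) +
      (if i ∈ sqD then -(w.1 (projInv i)) else w.1 (projInv i))
    simp only [Pi.add_apply]
    split_ifs <;> ring
  · show ∑ i, (if i ∈ sqD then -(v.1 (projInv i)) else v.1 (projInv i)) ^ 2 = ∑ i, v.1 i ^ 2
    rw [← Equiv.sum_comp projInv (fun i => v.1 i ^ 2)]
    refine Finset.sum_congr rfl fun i _ => ?_
    split_ifs <;> ring

/-- Negation as a permutation. -/
def negPerm : Equiv.Perm ↥leechLattice := Equiv.neg _

theorem negPerm_mem : negPerm ∈ Co0 := by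
  refine ⟨fun v w => ?_, fun v => ?_⟩
  · show -(v + w) = -v + -w
    rw [neg_add]
  · show ∑ i, ((-v : ↥leechLattice).1 i) ^ 2 = ∑ i, v.1 i ^ 2
    refine Finset.sum_congr rfl fun i _ => ?_
    show (-(v.1 i)) ^ 2 = _
    ring

theorem negation_no_complement : ∃ n : ↥Cfsg.Co0, (∀ v : ↥Cfsg.leechLattice, ((n • v : ↥Cfsg.leechLattice) : Cfsg.GolayPt → ℤ) = -(v : Cfsg.GolayPt → ℤ)) ∧
    ∀ K : Subgroup ↥Cfsg.Co0, ¬ (Subgroup.zpowers n).IsComplement' K := by
  let n : ↥Co0 := ⟨negPerm, negPerm_mem⟩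
  let g : ↥Co0 := ⟨gPerm, gPerm_mem⟩
  have hgn : g * g = n := by
    apply Subtype.ext
    ext1 v
    exact gFun_gFun v
  have hnn : n * n = 1 := by
    apply Subtype.ext
    ext1 v
    show - -v = v
    rw [neg_neg]
  have hn1 : n ≠ 1 := by
    intro h
    have h2 := congrArg (fun x : ↥Co0 => x.1 Spor.leechU) h
    have h3 : -Spor.leechU = Spor.leechU := h2
    have h4 : Spor.leechU.1 (some 0) = 4 := by decide
    have h5 := congrArg (fun x : ↥leechLattice => x.1 (some 0)) h3
    have h6 : -(Spor.leechU.1 (some 0)) = Spor.leechU.1 (some 0) := h5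
    omega
  have hcen : ∀ x : ↥Co0, n * x = x * n := by
    intro x
    apply Subtype.ext
    ext1 v
    show -(x.1 v) = x.1 (-v)
    have h1 : x.1 (-v + v) = x.1 (-v) + x.1 v := x.2.1 _ _
    have h2 : x.1 (0 + 0) = x.1 0 + x.1 0 := x.2.1 _ _
    rw [add_zero] at h2
    have h3 : x.1 0 = 0 := by simpa using h2
    rw [neg_add_cancel, h3] at h1
    exact (neg_eq_of_add_eq_zero_right (by rw [add_comm]; exact h1.symm))
  refine ⟨n, fun v => rfl, fun K hK => ?_⟩
  obtain ⟨⟨i, k⟩, hik⟩ := hK.2 g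
  simp only at hik
  obtain ⟨t, ht⟩ := Subgroup.mem_zpowers_iff.1 i.2
  have hi : ∀ x : ↥Co0, i.1 * x = x * i.1 := by
    intro x
    rw [← ht]
    exact (Commute.zpow_left (show Commute n x from hcen x) t)
  have hii : i.1 * i.1 = 1 := by
    rw [← ht, ← zpow_add, ← two_mul, zpow_mul, zpow_two, hnn, one_zpow]
  have hkk : k.1 * k.1 = n := by
    rw [← hgn]
    have : (g : ↥Co0) = i.1 * k.1 := hik.symm
    rw [this]
    calc k.1 * k.1 = (i.1 * i.1) * (k.1 * k.1) := by rw [hii, one_mul]
      _ = i.1 * (i.1 * k.1) * k.1 := by group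
      _ = i.1 * (k.1 * i.1) * k.1 := by rw [hi k.1]
      _ = (i.1 * k.1) * (i.1 * k.1) := by group
  have hnK : n ∈ K := by
    rw [← hkk]
    exact K.mul_mem k.2 k.2
  exact hn1 (Subgroup.disjoint_def.1 hK.disjoint (Subgroup.mem_zpowers n) hnK)

/-- The automorphism group of the Leech lattice contains the negation map, and the subgroup of order 2 it generates has no complement: the automorphism group is a non-split extension of its quotient by that subgroup (it is not the direct product of a group of order 2 with the first Conway group). -/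
theorem result :
    ∃ n : ↥Cfsg.Co0, (∀ v : ↥Cfsg.leechLattice, ((n • v : ↥Cfsg.leechLattice) : Cfsg.GolayPt → ℤ) = -(v : Cfsg.GolayPt → ℤ)) ∧
    ∀ K : Subgroup ↥Cfsg.Co0, ¬ (Subgroup.zpowers n).IsComplement' K := by
  exact negation_no_complement

end Cfsg.Agent.S5594
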