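import Cfsg.Statements.S5599
import Cfsg.Agent.Lib.M24.Six
import Cfsg.Agent.Lib.M24.M22Data

set_option autoImplicit false
open scoped Pointwise
open Cfsg

namespace Cfsg.Agent.S5599

open Cfsg.Agent.Lib.M24 Cfsg.Agent.Lib.Compute Cfsg.Agent.Lib.Golay
open scoped Pointwise

theorem pt23 : pt 23 = none := rfl
theorem pt0 : pt 0 = some 0 := rfl

theorem mem_M22 {x : Equiv.Perm GolayPt} : x ∈ Cfsg.Spor.M22 ↔ x ∈ M24 ∧ x none = none ∧ x (some 0) = some 0 := by
  constructor
  · rintro ⟨⟨h1, h2⟩, h3⟩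
    exact ⟨h1, h2, h3⟩
  · rintro ⟨h1, h2, h3⟩
    exact ⟨⟨h1, h2⟩, h3⟩

/-- The test for the elements `x_y`. -/
noncomputable def xTest (i : ℕ) : Bool :=
  vld (m22X.getD i 0) && Nat.beq (pc (m22X.getD i 0) 23) 23 && Nat.beq (pc (m22X.getD i 0) 0) 0 &&
    Nat.beq (pc (m22X.getD i 0) (i + 1)) (i + 1) &&
    allBelow (fun a => !(tb (fixM (pc (m22X.getD i 0))) a) || Nat.beq a 23 || Nat.beq a 0 || Nat.beq a (i + 1)) 24

theorem xTest_all : allBelow xTest 22 = true := by decide +kernel

theorem c_vld : vld m22C = true := by decide +kernel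

theorem c_check : [5, 4, 3, 2, 1, 0, 23].all (fun i => Nat.blt 0 (pc m22C i) && Nat.blt (pc m22C i) 23) = true := by
  decide +kernel

theorem fix_of_comm {k : Equiv.Perm GolayPt} (h1 : k (pt 23) = pt 0) (h2 : k (pt 0) = pt 23)
    (hc : ∀ x ∈ Cfsg.Spor.M22, k * x = x * k) {y : ℕ} (hy0 : 0 < y) (hy : y < 23) : k (pt y) = pt y := by
  have h := (allBelow_iff _ _).1 xTest_all (y - 1) (by omega)
  have hy' : y - 1 + 1 = y := by omega
  simp only [xTest, Bool.and_eq_true, hy'] at h
  obtain ⟨⟨⟨⟨hv, h23⟩, h0⟩, hfy⟩, hall⟩ := h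
  set p := m22X.getD (y - 1) 0 with hp
  have hcode := vld_code hv
  have hM : ppm p ∈ Cfsg.Spor.M22 := by
    refine mem_M22.2 ⟨vld_mem hv, ?_, ?_⟩
    · have := code_pt hcode (i := 23) (by norm_num)
      rw [Nat.eq_of_beq_eq_true h23] at this
      exact this
    · have := code_pt hcode (i := 0) (by norm_num)
      rw [Nat.eq_of_beq_eq_true h0] at this
      exact this
  have hxy : ppm p (pt y) = pt y := by
    rw [code_pt hcode (by omega), Nat.eq_of_beq_eq_true hfy]
  have h3 : ppm p (k (pt y)) = k (pt y) := by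
    have := congrArg (fun s : Equiv.Perm GolayPt => s (pt y)) (hc _ hM)
    simp only [Equiv.Perm.mul_apply] at this
    rw [← this, hxy]
  have h4 : k (pt y) ∈ (Finset.univ.filter fun q => ppm p q = q) := Finset.mem_filter.2 ⟨Finset.mem_univ _, h3⟩
  rw [filter_fix_eq hcode] at h4
  have h5 := (allBelow_iff _ _).1 hall (idx (k (pt y))) (idx_lt _)
  have h6 : tb (fixM (pc p)) (idx (k (pt y))) = true := by
    rw [tb_eq]
    simpa using h4
  rw [h6] at h5
  simp only [Bool.not_true, Bool.false_or, Bool.or_eq_true] at h5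
  rcases h5 with (h5 | h5) | h5
  · exfalso
    have h7 : k (pt y) = pt 23 := by
      rw [← Nat.eq_of_beq_eq_true h5, pt_idx]
    rw [← h2] at h7
    have h8 := pt_inj (by omega) (by norm_num) (k.injective h7)
    omega
  · exfalso
    have h7 : k (pt y) = pt 0 := by
      rw [← Nat.eq_of_beq_eq_true h5, pt_idx]
    rw [← h1] at h7
    have h8 := pt_inj (by omega) (by norm_num) (k.injective h7)
    omega
  · have h9 : idx (k (pt y)) = y := Nat.eq_of_beq_eq_true h5
    exact (pt_idx _).symm.trans (congrArg pt h9)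

theorem no_central {k : Equiv.Perm GolayPt} (hk : k ∈ M24) (h1 : k (pt 23) = pt 0) (h2 : k (pt 0) = pt 23)
    (hc : ∀ x ∈ Cfsg.Spor.M22, k * x = x * k) : False := by
  have hcc := vld_code c_vld
  have h3 : (ppm m22C)⁻¹ * k * ppm m22C = 1 := by
    apply eq_one_of_fix7 (M24.mul_mem (M24.mul_mem (M24.inv_mem (vld_mem c_vld)) hk) (vld_mem c_vld))
    intro i hi
    have h4 := List.all_eq_true.1 c_check i hi
    simp only [Bool.and_eq_true, Nat.blt_eq] at h4
    have h5 : i < 24 := by
      simp only [List.mem_cons, List.not_mem_nil, or_false] at hi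
      omega
    rw [Equiv.Perm.mul_apply, Equiv.Perm.mul_apply, Equiv.Perm.inv_eq_iff_eq, code_pt hcc h5]
    exact fix_of_comm h1 h2 hc h4.1 h4.2
  have h4 : k = 1 := by
    have h5 : (ppm m22C)⁻¹ * (k * ppm m22C) = 1 := by rw [← mul_assoc]; exact h3
    have h6 := (inv_mul_eq_one.1 h5).symm
    exact mul_eq_right.1 h6
  rw [h4] at h1
  have h7 := pt_inj (i := 23) (j := 0) (by norm_num) (by norm_num) h1
  omega

/-- In the automorphism group of the length-24 code, the two-point Mathieu group (permutations of the code's group fixing the extra point and the residue 0) has index 2 in the setwise stabiliser of that pair of points, and an element of the code's group interchanging the two points normalises the two-point group and induces on it, by conjugation, an automorphism that is not inner. -/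
theorem result (g : Equiv.Perm Cfsg.GolayPt) (hg : g ∈ Cfsg.M24) (h₁ : g none = some 0) (h₂ : g (some 0) = none) : Cfsg.Spor.M22.relIndex (Cfsg.M24 ⊓ MulAction.stabilizer (Equiv.Perm Cfsg.GolayPt) ({none, some 0} : Finset Cfsg.GolayPt)) = 2 ∧ (∀ x ∈ Cfsg.Spor.M22, g * x * g⁻¹ ∈ Cfsg.Spor.M22) ∧ ¬ ∃ h ∈ Cfsg.Spor.M22, ∀ x ∈ Cfsg.Spor.M22, g * x * g⁻¹ = h * x * h⁻¹ := by
  have hnone : (none : GolayPt) ≠ some 0 := by simp
  have hg' : g⁻¹ none = some 0 := by rw [Equiv.Perm.inv_eq_iff_eq, h₂]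
  have hg'' : g⁻¹ (some 0) = none := by rw [Equiv.Perm.inv_eq_iff_eq, h₁]
  refine ⟨?_, ?_, ?_⟩
  · unfold Subgroup.relIndex
    rw [Subgroup.index_eq_two_iff]
    have hgK : g ∈ M24 ⊓ MulAction.stabilizer (Equiv.Perm GolayPt) ({none, some 0} : Finset GolayPt) := by
      refine ⟨hg, ?_⟩
      show g • ({none, some 0} : Finset GolayPt) = {none, some 0}
      rw [Finset.smul_finset_insert, Finset.smul_finset_singleton]
      show ({g none, g (some 0)} : Finset GolayPt) = _
      rw [h₁, h₂, Finset.pair_comm]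
    refine ⟨⟨g, hgK⟩, fun b => ?_⟩
    rw [Subgroup.mem_subgroupOf, Subgroup.mem_subgroupOf]
    obtain ⟨b, hbM, hbS⟩ := b
    have hbS' : b • ({none, some 0} : Finset GolayPt) = {none, some 0} := hbS
    rw [Finset.smul_finset_insert, Finset.smul_finset_singleton] at hbS'
    have h3 : b none ∈ ({none, some 0} : Finset GolayPt) := by
      rw [← hbS']
      exact Finset.mem_insert_self _ _
    have h4 : b (some 0) ∈ ({none, some 0} : Finset GolayPt) := by
      rw [← hbS']
      exact Finset.mem_insert_of_mem (Finset.mem_singleton_self _)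
    simp only [Finset.mem_insert, Finset.mem_singleton] at h3 h4
    show Xor (b * g ∈ Cfsg.Spor.M22) (b ∈ Cfsg.Spor.M22)
    rw [mem_M22, mem_M22]
    simp only [Equiv.Perm.mul_apply, h₁, h₂]
    rcases h3 with h3 | h3
    · rcases h4 with h4 | h4
      · exfalso
        exact hnone (b.injective (h3.trans h4.symm))
      · right
        refine ⟨⟨hbM, h3, h4⟩, ?_⟩
        rintro ⟨_, h5, _⟩
        rw [h4] at h5
        exact hnone h5.symm
    · rcases h4 with h4 | h4
      · left
        refine ⟨⟨M24.mul_mem hbM hg, h4, h3⟩, ?_⟩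
        rintro ⟨_, h5, _⟩
        rw [h3] at h5
        exact hnone h5.symm
      · exfalso
        exact hnone (b.injective (h3.trans h4.symm))
  · intro x hx
    obtain ⟨h3, h4, h5⟩ := mem_M22.1 hx
    refine mem_M22.2 ⟨M24.mul_mem (M24.mul_mem hg h3) (M24.inv_mem hg), ?_, ?_⟩
    · simp only [Equiv.Perm.mul_apply, hg', h5, h₂]
    · simp only [Equiv.Perm.mul_apply, hg'', h4, h₁]
  · rintro ⟨h, hh, hall⟩
    obtain ⟨h3, h4, h5⟩ := mem_M22.1 hh
    have h4' : h⁻¹ none = none := by rw [Equiv.Perm.inv_eq_iff_eq, h4]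
    have h5' : h⁻¹ (some 0) = some 0 := by rw [Equiv.Perm.inv_eq_iff_eq, h5]
    apply no_central (k := h⁻¹ * g) (M24.mul_mem (M24.inv_mem h3) hg)
    · rw [pt23, pt0, Equiv.Perm.mul_apply, h₁, h5']
    · rw [pt23, pt0, Equiv.Perm.mul_apply, h₂, h4']
    · intro x hx
      have h6 := hall x hx
      have h7 : h⁻¹ * g * x = (h⁻¹ * (g * x * g⁻¹)) * g := by group
      rw [h7, h6]
      group

end Cfsg.Agent.S5599
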