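import Cfsg.Statements.S5600
import Mathlib
import Cfsg.Agent.Lib.M24.Six

set_option autoImplicit false
open Cfsg Cfsg.Agent.Lib.M24 Cfsg.Agent.Lib.Golay Cfsg.Agent.Lib.Compute
open scoped Pointwise

namespace Cfsg.Agent.S5600

theorem smul_eq_image (g : ↥Cfsg.M24) (E : Finset Cfsg.GolayPt) :
    g • E = E.image (g : Equiv.Perm Cfsg.GolayPt) := rfl

theorem stab_mem_iff {E : Finset Cfsg.GolayPt} (g : MulAction.stabilizer Cfsg.M24 E)
    (x : Cfsg.GolayPt) : (g.1 : Equiv.Perm Cfsg.GolayPt) x ∈ E ↔ x ∈ E := by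
  have h : Finset.image (g.1 : Equiv.Perm Cfsg.GolayPt) E = E :=
    MulAction.mem_stabilizer_iff.1 g.2
  generalize (g.1 : Equiv.Perm Cfsg.GolayPt) = σ at h ⊢
  constructor
  · intro hx
    rw [← h, Finset.mem_image] at hx
    obtain ⟨a, ha, hax⟩ := hx
    rwa [← σ.injective hax]
  · intro hx
    rw [← h]
    exact Finset.mem_image_of_mem σ hx

/-- Restriction of the set stabiliser to `E`. -/
noncomputable def res (E : Finset Cfsg.GolayPt) :
    MulAction.stabilizer Cfsg.M24 E →* Equiv.Perm ↥E where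
  toFun g := Equiv.Perm.subtypePerm (g.1 : Equiv.Perm Cfsg.GolayPt) (fun x => stab_mem_iff g x)
  map_one' := by
    apply Equiv.ext
    intro x
    rfl
  map_mul' a b := by
    apply Equiv.ext
    intro x
    rfl

theorem res_apply (E : Finset Cfsg.GolayPt) (g : MulAction.stabilizer Cfsg.M24 E) (p : ↥E) :
    ((res E g p : ↥E) : Cfsg.GolayPt) = (g.1 : Equiv.Perm Cfsg.GolayPt) p := rfl

theorem card_set_stab {E : Finset Cfsg.GolayPt} (hE : E.card = 6)
    (hfix : Nat.card (Fixer E) = 3) : Nat.card ↥(MulAction.stabilizer Cfsg.M24 E) = 2160 := by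
  have hsurj : Function.Surjective (res E) := by
    intro τ
    obtain ⟨g, hg, hgτ⟩ := exists_induce hE τ
    have hs : (⟨g, hg⟩ : ↥Cfsg.M24) ∈ MulAction.stabilizer Cfsg.M24 E := by
      rw [MulAction.mem_stabilizer_iff, smul_eq_image]
      apply Finset.eq_of_subset_of_card_le
      · intro x hx
        obtain ⟨a, ha, rfl⟩ := Finset.mem_image.1 hx
        show g a ∈ E
        rw [hgτ ⟨a, ha⟩]
        exact (τ ⟨a, ha⟩).2
      · rw [Finset.card_image_of_injective _ (Equiv.injective _)]
    refine ⟨⟨⟨g, hg⟩, hs⟩, ?_⟩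
    apply Equiv.ext
    intro p
    exact Subtype.ext (hgτ p)
  have hker : Nat.card (res E).ker = 3 := by
    rw [← hfix]
    apply Nat.card_congr
    refine ⟨fun g => ⟨(g.1.1 : Equiv.Perm Cfsg.GolayPt), g.1.1.2, fun p hp => ?_⟩,
      fun g => ⟨⟨⟨g.1, g.2.1⟩, ?_⟩, ?_⟩, ?_, ?_⟩
    · have h : res E g.1 = 1 := g.2
      have h2 := congrArg (fun s : Equiv.Perm ↥E => ((s ⟨p, hp⟩ : ↥E) : Cfsg.GolayPt)) h
      exact h2
    · rw [MulAction.mem_stabilizer_iff, smul_eq_image]
      ext x
      rw [Finset.mem_image]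
      constructor
      · rintro ⟨a, ha, rfl⟩
        show g.1 a ∈ E
        rw [g.2.2 a ha]
        exact ha
      · intro hx
        exact ⟨x, hx, g.2.2 x hx⟩
    · show res E _ = 1
      apply Equiv.ext
      intro p
      exact Subtype.ext (g.2.2 p p.2)
    · intro g
      rfl
    · intro g
      rfl
  have h1 := Subgroup.card_mul_index (res E).ker
  rw [Subgroup.index_ker, hker, MonoidHom.range_eq_top.2 hsurj] at h1
  have h2 : Nat.card (⊤ : Subgroup (Equiv.Perm ↥E)) = 720 := by
    rw [Subgroup.card_top, Nat.card_eq_fintype_card, Fintype.card_perm, Fintype.card_coe, hE]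
    rfl
  rw [h2] at h1
  omega

/-- Although the group of the length-24 code is only 5-transitive on the 24 points, it induces the full symmetric group on every 6-element subset: every permutation of a 6-set E is the restriction of an element of the group mapping E to itself. The pointwise stabiliser of E has order 16 when E lies in an octad and order 3 otherwise; in the latter case the setwise stabiliser of E has order 2160. -/
theorem result (E : Finset Cfsg.GolayPt) (hE : E.card = 6) : (∀ σ : Equiv.Perm ↥E, ∃ g ∈ Cfsg.M24, ∀ p : ↥E, g p = σ p) ∧ ((∃ o ∈ Cfsg.octads, E ⊆ o) → Nat.card {g : Equiv.Perm Cfsg.GolayPt // g ∈ Cfsg.M24 ∧ ∀ p ∈ E, g p = p} = 16) ∧ ((¬ ∃ o ∈ Cfsg.octads, E ⊆ o) → Nat.card {g : Equiv.Perm Cfsg.GolayPt // g ∈ Cfsg.M24 ∧ ∀ p ∈ E, g p = p} = 3 ∧ Nat.card ↥(MulAction.stabilizer Cfsg.M24 E) = 2160) := by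
  obtain ⟨c, hc, x, hx, hcE⟩ := exists_normal_six hE
  refine ⟨exists_induce hE, fun ho => ?_, fun ho => ?_⟩
  · rcases hx with rfl | rfl
    · exact absurd ho (not_six_in_octad_of_four hc hcE)
    · exact card_fixer_five hc hcE
  · rcases hx with rfl | rfl
    · exact ⟨card_fixer_four hc hcE, card_set_stab hE (card_fixer_four hc hcE)⟩
    · exact absurd (six_in_octad_of_five hc hcE) ho

end Cfsg.Agent.S5600
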