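import Cfsg.Statements.S5601
import Mathlib
import Cfsg.Agent.Lib.M24.Three

set_option autoImplicit false
open Cfsg Cfsg.Agent.Lib.M24 Cfsg.Agent.Lib.Golay Cfsg.Agent.Lib.Compute
open scoped Pointwise

namespace Cfsg.Agent.S5601

theorem exists_gen {X : Subgroup ↥Cfsg.M24} (hX : Nat.card X = 3) :
    ∃ x : ↥Cfsg.M24, orderOf x = 3 ∧ X = Subgroup.zpowers x := by
  have hnt : Nontrivial X := Finite.one_lt_card_iff_nontrivial.1 (by omega)
  obtain ⟨⟨x, hx⟩, hne⟩ := exists_ne (1 : X)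
  have hne' : x ≠ 1 := fun h => hne (Subtype.ext h)
  have hord : orderOf x = 3 := by
    have h1 : orderOf (⟨x, hx⟩ : X) ∣ 3 := by
      rw [← hX]
      exact orderOf_dvd_natCard _
    have h2 : orderOf (⟨x, hx⟩ : X) = orderOf x := Subgroup.orderOf_mk _ _
    rw [h2] at h1
    rcases (Nat.dvd_prime Nat.prime_three).1 h1 with h | h
    · exact absurd (orderOf_eq_one_iff.1 h) hne'
    · exact h
  refine ⟨x, hord, ?_⟩
  symm
  apply Subgroup.eq_of_le_of_card_ge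
  · exact (Subgroup.zpowers_le).2 hx
  · rw [hX, Nat.card_zpowers, hord]

theorem fix_set_eq (x : ↥Cfsg.M24) :
    {p : Cfsg.GolayPt | ∀ y ∈ Subgroup.zpowers x, ((y : ↥Cfsg.M24) : Equiv.Perm Cfsg.GolayPt) p = p} =
      ↑(Finset.univ.filter fun p => (x : Equiv.Perm Cfsg.GolayPt) p = p) := by
  ext p
  simp only [Set.mem_ofPred_eq, Finset.coe_filter, Finset.mem_univ, true_and]
  constructor
  · intro h
    exact h x (Subgroup.mem_zpowers x)
  · intro h y hy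
    have hs : x ∈ MulAction.stabilizer ↥Cfsg.M24 p := h
    have := (Subgroup.zpowers_le.2 hs) hy
    exact this

theorem ncard_fix (x : ↥Cfsg.M24) :
    {p : Cfsg.GolayPt | ∀ y ∈ Subgroup.zpowers x, ((y : ↥Cfsg.M24) : Equiv.Perm Cfsg.GolayPt) p = p}.ncard =
      (Finset.univ.filter fun p => (x : Equiv.Perm Cfsg.GolayPt) p = p).card := by
  rw [fix_set_eq, Set.ncard_coe_finset]

theorem classify (x : ↥Cfsg.M24) (h3 : orderOf x = 3) :
    ∃ k : ↥Cfsg.M24, ((k * x * k⁻¹ : ↥Cfsg.M24) : Equiv.Perm Cfsg.GolayPt) = ppm r3a ∧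
        (Finset.univ.filter fun p => (x : Equiv.Perm Cfsg.GolayPt) p = p).card = 6 ∨
      ((k * x * k⁻¹ : ↥Cfsg.M24) : Equiv.Perm Cfsg.GolayPt) = ppm r3b ∧
        (Finset.univ.filter fun p => (x : Equiv.Perm Cfsg.GolayPt) p = p).card = 0 := by
  have h := order3_classify' x.2 (by rw [Subgroup.orderOf_coe]; exact h3)
  obtain ⟨k, hk, h⟩ := h
  exact ⟨⟨k, hk⟩, h⟩

theorem conj_smul (c x y : ↥Cfsg.M24) (h : c * x * c⁻¹ = y) :
    MulAut.conj c • Subgroup.zpowers x = Subgroup.zpowers y := by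
  have h1 : MulAut.conj c • Subgroup.zpowers x =
      Subgroup.map (MulAut.conj c).toMonoidHom (Subgroup.zpowers x) := rfl
  rw [h1, MonoidHom.map_zpowers, ← h]
  rfl

/-- The group of the length-24 code has exactly two conjugacy classes of subgroups of order 3: a subgroup of order 3 fixes either exactly 6 of the 24 points or none of them, both cases occur, and two subgroups of order 3 with the same number of fixed points are conjugate. -/
theorem result : (∀ X : Subgroup ↥Cfsg.M24, Nat.card X = 3 → {p : Cfsg.GolayPt | ∀ x ∈ X, ((x : ↥Cfsg.M24) : Equiv.Perm Cfsg.GolayPt) p = p}.ncard = 6 ∨ {p : Cfsg.GolayPt | ∀ x ∈ X, ((x : ↥Cfsg.M24) : Equiv.Perm Cfsg.GolayPt) p = p}.ncard = 0) ∧ (∃ X : Subgroup ↥Cfsg.M24, Nat.card X = 3 ∧ {p : Cfsg.GolayPt | ∀ x ∈ X, ((x : ↥Cfsg.M24) : Equiv.Perm Cfsg.GolayPt) p = p}.ncard = 6) ∧ (∃ X : Subgroup ↥Cfsg.M24, Nat.card X = 3 ∧ {p : Cfsg.GolayPt |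 ∀ x ∈ X, ((x : ↥Cfsg.M24) : Equiv.Perm Cfsg.GolayPt) p = p}.ncard = 0) ∧ ∀ X Y : Subgroup ↥Cfsg.M24, Nat.card X = 3 → Nat.card Y = 3 → {p : Cfsg.GolayPt | ∀ x ∈ X, ((x : ↥Cfsg.M24) : Equiv.Perm Cfsg.GolayPt) p = p}.ncard = {p : Cfsg.GolayPt | ∀ x ∈ Y, ((x : ↥Cfsg.M24) : Equiv.Perm Cfsg.GolayPt) p = p}.ncard → ∃ k : ↥Cfsg.M24, MulAut.conj k • X = Y := by
  have hA : orderOf (⟨ppm r3a, vld_mem r3a_vld⟩ : ↥Cfsg.M24) = 3 := by
    rw [Subgroup.orderOf_mk]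
    exact order_three_iff.2 ⟨r3a_cube, r3a_ne_one⟩
  have hB : orderOf (⟨ppm r3b, vld_mem r3b_vld⟩ : ↥Cfsg.M24) = 3 := by
    rw [Subgroup.orderOf_mk]
    exact order_three_iff.2 ⟨r3b_cube, r3b_ne_one⟩
  refine ⟨?_, ⟨Subgroup.zpowers ⟨ppm r3a, vld_mem r3a_vld⟩, ?_, ?_⟩,
    ⟨Subgroup.zpowers ⟨ppm r3b, vld_mem r3b_vld⟩, ?_, ?_⟩, ?_⟩
  · intro X hX
    obtain ⟨x, hx, rfl⟩ := exists_gen hX
    rw [ncard_fix]
    obtain ⟨k, ⟨_, h⟩ | ⟨_, h⟩⟩ := classify x hx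
    · exact Or.inl h
    · exact Or.inr h
  · rw [Nat.card_zpowers, hA]
  · rw [ncard_fix]
    exact r3a_card
  · rw [Nat.card_zpowers, hB]
  · rw [ncard_fix]
    show (Finset.univ.filter fun p => ppm r3b p = p).card = 0
    rw [r3b_filter]
    rfl
  · intro X Y hX hY hXY
    obtain ⟨x, hx, rfl⟩ := exists_gen hX
    obtain ⟨y, hy, rfl⟩ := exists_gen hY
    rw [ncard_fix, ncard_fix] at hXY
    have conj_of : ∀ k l : ↥Cfsg.M24, ((k * x * k⁻¹ : ↥Cfsg.M24) : Equiv.Perm Cfsg.GolayPt) =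
        ((l * y * l⁻¹ : ↥Cfsg.M24) : Equiv.Perm Cfsg.GolayPt) →
        ∃ c : ↥Cfsg.M24, MulAut.conj c • Subgroup.zpowers x = Subgroup.zpowers y := by
      intro k l e
      refine ⟨l⁻¹ * k, conj_smul _ _ _ ?_⟩
      have e' : k * x * k⁻¹ = l * y * l⁻¹ := Subtype.ext e
      have : (l⁻¹ * k) * x * (l⁻¹ * k)⁻¹ = l⁻¹ * (k * x * k⁻¹) * l := by group
      rw [this, e']
      group
    obtain ⟨k, ⟨hk, h⟩ | ⟨hk, h⟩⟩ := classify x hx <;>
      obtain ⟨l, ⟨hl, h'⟩ | ⟨hl, h'⟩⟩ := classify y hy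
    · exact conj_of k l (hk.trans hl.symm)
    · omega
    · omega
    · exact conj_of k l (hk.trans hl.symm)

end Cfsg.Agent.S5601
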