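import Cfsg.Statements.S5602
import Mathlib
import Cfsg.Agent.Lib.M24.Counts

set_option autoImplicit false
open Cfsg Cfsg.Agent.Lib.M24 Cfsg.Agent.Lib.Golay Cfsg.Agent.Lib.Compute
open scoped Pointwise

namespace Cfsg.Agent.S5602

/-- An element of order 3 of the group of the length-24 code having exactly 6 fixed points maps to themselves exactly 21 octads, exactly 15 trios, exactly 16 sextets and exactly 20 dodecads. -/
theorem result (g : Equiv.Perm Cfsg.GolayPt) (hg : g ∈ Cfsg.M24) (h₃ : orderOf g = 3) (h₆ : (Finset.univ.filter fun p => g p = p).card = 6) : {o : Finset Cfsg.GolayPt | o ∈ Cfsg.octads ∧ g • o = o}.ncard = 21 ∧ {T : Finset (Finset Cfsg.GolayPt) | T ∈ Cfsg.trios ∧ g • T = T}.ncard = 15 ∧ {S : Finset (Finset Cfsg.GolayPt) | S ∈ Cfsg.sextets ∧ g • S = S}.ncard = 16 ∧ {d : Finset Cfsg.GolayPt | d ∈ Cfsg.dodecads ∧ g • d = d}.ncard = 20 := by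
  obtain ⟨k, hk, ⟨h, _⟩ | ⟨_, h⟩⟩ := order3_classify' hg h₃
  · have hc := vld_code r3a_vld
    refine ⟨?_, ?_, ?_, ?_⟩
    · rw [octads_fixed_conj hk h, ncard_octads_fixed hc, c3a_oct]
    · rw [trios_fixed_conj hk h, ncard_trios_fixed hc, c3a_tr]
    · rw [sextets_fixed_conj hk h, ncard_sextets_fixed hc, c3a_sx]
    · rw [dodecads_fixed_conj hk h, ncard_dodecads_fixed hc, c3a_dd]
  · omega

end Cfsg.Agent.S5602
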