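import Cfsg.Statements.S5603
import Mathlib
import Cfsg.Agent.Lib.M24.Counts

set_option autoImplicit false
open Cfsg Cfsg.Agent.Lib.M24 Cfsg.Agent.Lib.Golay Cfsg.Agent.Lib.Compute
open scoped Pointwise

namespace Cfsg.Agent.S5603

/-- A fixed-point-free element of order 3 of the group of the length-24 code maps to themselves exactly 7 sextets and exactly 15 trios. -/
theorem result (g : Equiv.Perm Cfsg.GolayPt) (hg : g ∈ Cfsg.M24) (h₃ : orderOf g = 3) (h₀ : ∀ p, g p ≠ p) : {S : Finset (Finset Cfsg.GolayPt) | S ∈ Cfsg.sextets ∧ g • S = S}.ncard = 7 ∧ {T : Finset (Finset Cfsg.GolayPt) | T ∈ Cfsg.trios ∧ g • T = T}.ncard = 15 := by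
  obtain ⟨k, hk, ⟨_, h⟩ | ⟨h, _⟩⟩ := order3_classify' hg h₃
  · have h0 : (Finset.univ.filter fun p => g p = p) = ∅ := by
      apply Finset.eq_empty_of_forall_notMem
      intro a ha
      exact h₀ a (Finset.mem_filter.1 ha).2
    rw [h0] at h
    simp at h
  · have hc := vld_code r3b_vld
    refine ⟨?_, ?_⟩
    · rw [sextets_fixed_conj hk h, ncard_sextets_fixed hc, c3b_sx]
    · rw [trios_fixed_conj hk h, ncard_trios_fixed hc, c3b_tr]

end Cfsg.Agent.S5603
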