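import Cfsg.Statements.S5604
import Mathlib
import Cfsg.Agent.Lib.M24.Seven

set_option autoImplicit false
open Cfsg Cfsg.Agent.Lib.M24 Cfsg.Agent.Lib.Golay Cfsg.Agent.Lib.Compute Cfsg.Agent.Lib.Core
open scoped Pointwise

namespace Cfsg.Agent.S5604

/-- Subgroups of order `p` are conjugate when `p^2` does not divide the group order. -/
theorem exists_conj_of_card_prime {G : Type*} [Group G] [Finite G] (p : ℕ) [Fact p.Prime]
    (hp : ¬ p ^ 2 ∣ Nat.card G) (S S' : Subgroup G) (hS : Nat.card S = p) (hS' : Nat.card S' = p) :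
    ∃ k : G, MulAut.conj k • S = S' := by
  have key : ∀ T : Subgroup G, Nat.card T = p → ∃ Q : Sylow p G, (Q : Subgroup G) = T := by
    intro T hT
    have hpg : IsPGroup p T := IsPGroup.of_card (n := 1) (by rw [hT, pow_one])
    obtain ⟨Q, hQ⟩ := hpg.exists_le_sylow
    refine ⟨Q, ?_⟩
    obtain ⟨m, hm⟩ := IsPGroup.iff_card.1 Q.isPGroup'
    have hdvd : Nat.card Q ∣ Nat.card G := Subgroup.card_subgroup_dvd_card _
    have hm1 : m ≤ 1 := by
      by_contra h
      apply hp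
      have h2 : p ^ 2 ∣ p ^ m := pow_dvd_pow p (by omega)
      rw [← hm] at h2
      exact h2.trans hdvd
    symm
    apply Subgroup.eq_of_le_of_card_ge hQ
    rw [hT, hm]
    calc p ^ m ≤ p ^ 1 := Nat.pow_le_pow_right (Fact.out : p.Prime).pos hm1
      _ = p := pow_one p
  obtain ⟨Q, rfl⟩ := key S hS
  obtain ⟨Q', rfl⟩ := key S' hS'
  obtain ⟨k, hk⟩ := MulAction.exists_smul_eq G Q Q'
  refine ⟨k, ?_⟩
  rw [← hk]
  rfl

/-- For a subgroup S of order 7 of the group of the length-24 code (a Sylow 7-subgroup): the normaliser of S has order 126, the centraliser of S has order 42 and is non-abelian, and the whole normaliser leaves some trio invariant. (These are the orders of a Frobenius group of order 21 times a symmetric group of degree 3; the isomorphism type itself is not asserted here.) -/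
theorem result (S : Subgroup ↥Cfsg.M24) (hS : Nat.card S = 7) : Nat.card ↥(Subgroup.normalizer (S : Set ↥Cfsg.M24)) = 126 ∧ Nat.card ↥(Subgroup.centralizer (S : Set ↥Cfsg.M24)) = 42 ∧ (∃ x ∈ Subgroup.centralizer (S : Set ↥Cfsg.M24), ∃ y ∈ Subgroup.centralizer (S : Set ↥Cfsg.M24), x * y ≠ y * x) ∧ ∃ T ∈ Cfsg.trios, ∀ n ∈ Subgroup.normalizer (S : Set ↥Cfsg.M24), ((n : ↥Cfsg.M24) : Equiv.Perm Cfsg.GolayPt) • T = T := by
  haveI : Fact (Nat.Prime 7) := ⟨by norm_num⟩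
  obtain ⟨k, rfl⟩ := exists_conj_of_card_prime 7 (by rw [card_M24]; norm_num) S7 S S7_card hS
  -- membership in the conjugate normaliser and centraliser
  have hN : ∀ g : ↥Cfsg.M24, g ∈ Subgroup.normalizer ((MulAut.conj k • S7 : Subgroup ↥Cfsg.M24) : Set ↥Cfsg.M24) ↔
      k⁻¹ * g * k ∈ Subgroup.normalizer (S7 : Set ↥Cfsg.M24) := by
    intro g
    rw [← conj_smul_eq_self_iff, ← conj_smul_eq_self_iff]
    constructor
    · intro h
      have h1 : MulAut.conj (k⁻¹ * g * k) • S7 = MulAut.conj k⁻¹ • (MulAut.conj g • (MulAut.conj k • S7)) := by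
        rw [conj_smul_conj_smul, conj_smul_conj_smul]
      rw [h1, h, conj_smul_conj_smul]
      have : k⁻¹ * k = 1 := by group
      rw [this, conj_one_smul]
    · intro h
      have h1 : MulAut.conj g • (MulAut.conj k • S7) = MulAut.conj k • (MulAut.conj (k⁻¹ * g * k) • S7) := by
        rw [conj_smul_conj_smul, conj_smul_conj_smul]
        congr 2
        group
      rw [h1, h]
  have hC : ∀ g : ↥Cfsg.M24, g ∈ Subgroup.centralizer ((MulAut.conj k • S7 : Subgroup ↥Cfsg.M24) : Set ↥Cfsg.M24) ↔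
      k⁻¹ * g * k ∈ Subgroup.centralizer (S7 : Set ↥Cfsg.M24) := by
    intro g
    rw [Subgroup.mem_centralizer_iff, Subgroup.mem_centralizer_iff]
    constructor
    · intro h x hx
      have h1 := h (k * x * k⁻¹) (conj_mem_conj_smul hx)
      calc x * (k⁻¹ * g * k) = k⁻¹ * ((k * x * k⁻¹) * g) * k := by group
        _ = k⁻¹ * (g * (k * x * k⁻¹)) * k := by rw [h1]
        _ = k⁻¹ * g * k * x := by group
    · intro h x hx
      rw [SetLike.mem_coe, mem_conj_smul_iff] at hx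
      have h1 := h _ hx
      calc x * g = k * ((k⁻¹ * x * k) * (k⁻¹ * g * k)) * k⁻¹ := by group
        _ = k * ((k⁻¹ * g * k) * (k⁻¹ * x * k)) * k⁻¹ := by rw [h1]
        _ = g * x := by group
  have hcard : ∀ (K L : Subgroup ↥Cfsg.M24), (∀ g, g ∈ K ↔ k⁻¹ * g * k ∈ L) → Nat.card K = Nat.card L := by
    intro K L h
    apply Nat.card_congr
    refine ⟨fun g => ⟨k⁻¹ * g.1 * k, (h _).1 g.2⟩, fun g => ⟨k * g.1 * k⁻¹, (h _).2 ?_⟩, ?_, ?_⟩
    · have : k⁻¹ * (k * g.1 * k⁻¹) * k = g.1 := by group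
      rw [this]
      exact g.2
    · intro g
      apply Subtype.ext
      show k * (k⁻¹ * g.1 * k) * k⁻¹ = g.1
      group
    · intro g
      apply Subtype.ext
      show k⁻¹ * (k * g.1 * k⁻¹) * k = g.1
      group
  refine ⟨by rw [hcard _ _ hN, card_normalizer_S7], by rw [hcard _ _ hC, card_centralizer_S7], ?_, ?_⟩
  · refine ⟨k * ⟨ppm c7x, c7x_mem.1⟩ * k⁻¹, ?_, k * ⟨ppm c7y, c7y_mem.1⟩ * k⁻¹, ?_, ?_⟩
    · rw [hC]
      have : k⁻¹ * (k * ⟨ppm c7x, c7x_mem.1⟩ * k⁻¹) * k = ⟨ppm c7x, c7x_mem.1⟩ := by group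
      rw [this, mem_centralizer_S7_iff]
      exact c7x_mem
    · rw [hC]
      have : k⁻¹ * (k * ⟨ppm c7y, c7y_mem.1⟩ * k⁻¹) * k = ⟨ppm c7y, c7y_mem.1⟩ := by group
      rw [this, mem_centralizer_S7_iff]
      exact c7y_mem
    · intro h
      apply c7_noncomm
      have h1 : (⟨ppm c7x, c7x_mem.1⟩ * ⟨ppm c7y, c7y_mem.1⟩ : ↥Cfsg.M24) = ⟨ppm c7y, c7y_mem.1⟩ * ⟨ppm c7x, c7x_mem.1⟩ := by
        calc (⟨ppm c7x, c7x_mem.1⟩ * ⟨ppm c7y, c7y_mem.1⟩ : ↥Cfsg.M24)
            = k⁻¹ * ((k * ⟨ppm c7x, c7x_mem.1⟩ * k⁻¹) * (k * ⟨ppm c7y, c7y_mem.1⟩ * k⁻¹)) * k := by group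
          _ = k⁻¹ * ((k * ⟨ppm c7y, c7y_mem.1⟩ * k⁻¹) * (k * ⟨ppm c7x, c7x_mem.1⟩ * k⁻¹)) * k := by rw [h]
          _ = _ := by group
      exact congrArg Subtype.val h1
  · refine ⟨(k : Equiv.Perm Cfsg.GolayPt) • trS 2796, smul_mem_trios k.2 (trS_mem_trios (by norm_num)), fun n hn => ?_⟩
    have h1 := (mem_normalizer_S7_iff _).1 ((hN n).1 hn)
    have h2 := N7_trio h1
    have h3 : (n : Equiv.Perm Cfsg.GolayPt) = k * ((k⁻¹ * n * k : ↥Cfsg.M24) : Equiv.Perm Cfsg.GolayPt) * (k : Equiv.Perm Cfsg.GolayPt)⁻¹ := by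
      have : n = k * (k⁻¹ * n * k) * k⁻¹ := by group
      conv_lhs => rw [this]
      rfl
    rw [h3, smul_smul, mul_assoc, mul_assoc, inv_mul_cancel, mul_one, ← smul_smul, h2]

end Cfsg.Agent.S5604
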