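import Cfsg.Statements.S5605
import Mathlib
import Cfsg.Agent.Lib.M24.Counts

set_option autoImplicit false
open Cfsg Cfsg.Agent.Lib.M24 Cfsg.Agent.Lib.Golay Cfsg.Agent.Lib.Compute
open scoped Pointwise

namespace Cfsg.Agent.S5605

/-- An involution of the group of the length-24 code with exactly 8 fixed points maps to themselves exactly 71 octads, exactly 99 trios and exactly 91 sextets. -/
theorem result (g : Equiv.Perm Cfsg.GolayPt) (hg : g ∈ Cfsg.M24) (h₂ : orderOf g = 2) (h₈ : (Finset.univ.filter fun p => g p = p).card = 8) : {o : Finset Cfsg.GolayPt | o ∈ Cfsg.octads ∧ g • o = o}.ncard = 71 ∧ {T : Finset (Finset Cfsg.GolayPt) | T ∈ Cfsg.trios ∧ g • T = T}.ncard = 99 ∧ {S : Finset (Finset Cfsg.GolayPt) | S ∈ Cfsg.sextets ∧ g • S = S}.ncard = 91 := by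
  obtain ⟨h1, h2⟩ := order_two_iff.1 h₂
  obtain ⟨k, hk, h | h⟩ := involution_classify hg h1 h2
  · have hc := vld_code r2a_vld
    refine ⟨?_, ?_, ?_⟩
    · rw [octads_fixed_conj hk h, ncard_octads_fixed hc, c2a_oct]
    · rw [trios_fixed_conj hk h, ncard_trios_fixed hc, c2a_tr]
    · rw [sextets_fixed_conj hk h, ncard_sextets_fixed hc, c2a_sx]
  · have h0 : (Finset.univ.filter fun p => g p = p) = ∅ := by
      apply Finset.eq_empty_of_forall_notMem
      intro a ha
      exact (fpf_conj_iff h).2 r2b_fpf a (Finset.mem_filter.1 ha).2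
    rw [h0] at h₈
    simp at h₈

end Cfsg.Agent.S5605
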