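import Cfsg.Statements.S5606
import Mathlib
import Cfsg.Agent.Lib.M24.Counts

set_option autoImplicit false
open Cfsg Cfsg.Agent.Lib.M24 Cfsg.Agent.Lib.Golay Cfsg.Agent.Lib.Compute
open scoped Pointwise

namespace Cfsg.Agent.S5606

/-- A fixed-point-free involution of the group of the length-24 code maps to themselves exactly 15 octads, exactly 75 trios and exactly 51 sextets. -/
theorem result (g : Equiv.Perm Cfsg.GolayPt) (hg : g ∈ Cfsg.M24) (h₂ : orderOf g = 2) (h₀ : ∀ p, g p ≠ p) : {o : Finset Cfsg.GolayPt | o ∈ Cfsg.octads ∧ g • o = o}.ncard = 15 ∧ {T : Finset (Finset Cfsg.GolayPt) | T ∈ Cfsg.trios ∧ g • T = T}.ncard = 75 ∧ {S : Finset (Finset Cfsg.GolayPt) | S ∈ Cfsg.sextets ∧ g • S = S}.ncard = 51 := by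
  obtain ⟨h1, h2⟩ := order_two_iff.1 h₂
  obtain ⟨k, hk, h | h⟩ := involution_classify hg h1 h2
  · exact absurd ((fpf_conj_iff h).1 h₀) r2a_not_fpf
  · have hc := vld_code r2b_vld
    refine ⟨?_, ?_, ?_⟩
    · rw [octads_fixed_conj hk h, ncard_octads_fixed hc, c2b_oct]
    · rw [trios_fixed_conj hk h, ncard_trios_fixed hc, c2b_tr]
    · rw [sextets_fixed_conj hk h, ncard_sextets_fixed hc, c2b_sx]

end Cfsg.Agent.S5606
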