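import Cfsg.Statements.S5607
import Cfsg.Agent.Lib.M24.Cent2

set_option autoImplicit false
open scoped Pointwise
open Cfsg

namespace Cfsg.Agent.S5607

open Cfsg.Agent.Lib.M24 Cfsg.Agent.Lib.Compute Cfsg.Agent.Lib.Golay

theorem conj_comm {k t c : Equiv.Perm GolayPt} (h : k * t * k⁻¹ = ppm r2b) :
    (k * c * k⁻¹) * ppm r2b = ppm r2b * (k * c * k⁻¹) ↔ c * t = t * c := by
  rw [← h]
  constructor
  · intro e
    have e2 : k * (c * t) * k⁻¹ = k * (t * c) * k⁻¹ := by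
      calc k * (c * t) * k⁻¹ = (k * c * k⁻¹) * (k * t * k⁻¹) := by group
        _ = (k * t * k⁻¹) * (k * c * k⁻¹) := e
        _ = k * (t * c) * k⁻¹ := by group
    exact mul_left_cancel (mul_right_cancel e2)
  · intro e
    calc (k * c * k⁻¹) * (k * t * k⁻¹) = k * (c * t) * k⁻¹ := by group
      _ = k * (t * c) * k⁻¹ := by rw [e]
      _ = (k * t * k⁻¹) * (k * c * k⁻¹) := by group

/-- For a fixed-point-free involution t of the group of the length-24 code: its centraliser in that group has order 7680, is transitive on the 24 points, and is contained, together with t, in the stabiliser of some sextet. -/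
theorem result (t : Equiv.Perm Cfsg.GolayPt) (ht : t ∈ Cfsg.M24) (h₂ : orderOf t = 2) (h₀ : ∀ p, t p ≠ p) : Nat.card {c : Equiv.Perm Cfsg.GolayPt // c ∈ Cfsg.M24 ∧ c * t = t * c} = 7680 ∧ (∀ p q : Cfsg.GolayPt, ∃ c ∈ Cfsg.M24, c * t = t * c ∧ c p = q) ∧ ∃ S ∈ Cfsg.sextets, t • S = S ∧ ∀ c ∈ Cfsg.M24, c * t = t * c → c • S = S := by
  obtain ⟨h1, h2⟩ := order_two_iff.1 h₂
  obtain ⟨k, hk, h | h⟩ := involution_classify ht h1 h2
  · exact absurd ((fpf_conj_iff h).1 h₀) r2a_not_fpf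
  have hconjM : ∀ {c : Equiv.Perm GolayPt}, c ∈ M24 → k * c * k⁻¹ ∈ M24 := fun hc =>
    M24.mul_mem (M24.mul_mem hk hc) (M24.inv_mem hk)
  have hconjM' : ∀ {c : Equiv.Perm GolayPt}, c ∈ M24 → k⁻¹ * c * k ∈ M24 := fun hc =>
    M24.mul_mem (M24.mul_mem (M24.inv_mem hk) hc) hk
  have hback : ∀ c : Equiv.Perm GolayPt, k * (k⁻¹ * c * k) * k⁻¹ = c := fun c => by group
  refine ⟨?_, ?_, ?_⟩
  · rw [← card_centG_r2b]
    apply Nat.card_congr
    refine
      { toFun := fun c => ⟨k * c.1 * k⁻¹, mem_centG.2 ⟨hconjM c.2.1, (conj_comm h).2 c.2.2⟩⟩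
        invFun := fun c => ⟨k⁻¹ * c.1 * k, hconjM' (mem_centG.1 c.2).1, (conj_comm h).1 (by
          rw [hback]
          exact (mem_centG.1 c.2).2)⟩
        left_inv := fun c => ?_
        right_inv := fun c => ?_ }
    · apply Subtype.ext
      show k⁻¹ * (k * c.1 * k⁻¹) * k = c.1
      group
    · apply Subtype.ext
      show k * (k⁻¹ * c.1 * k) * k⁻¹ = c.1
      group
  · intro p q
    obtain ⟨c₁, hc₁, e₁⟩ := c2Y_exists (k p)
    obtain ⟨c₂, hc₂, e₂⟩ := c2Y_exists (k q)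
    have hd : c₂ * c₁⁻¹ ∈ centG (ppm r2b) := (centG _).mul_mem hc₂ ((centG _).inv_mem hc₁)
    obtain ⟨hd1, hd2⟩ := mem_centG.1 hd
    refine ⟨k⁻¹ * (c₂ * c₁⁻¹) * k, hconjM' hd1, (conj_comm h).1 (by rw [hback]; exact hd2), ?_⟩
    show k⁻¹ (c₂ (c₁⁻¹ (k p))) = q
    rw [Equiv.Perm.inv_eq_iff_eq, ← e₂]
    congr 1
    rw [Equiv.Perm.inv_eq_iff_eq, e₁]
  · refine ⟨k⁻¹ • sxS 1714, smul_mem_sextets (M24.inv_mem hk) (sxS_mem_sextets (by norm_num)), ?_, ?_⟩
    · have e1 : t = k⁻¹ * ppm r2b * k := by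
        rw [← h]
        group
      rw [e1, ← mul_smul]
      have e2 : k⁻¹ * ppm r2b * k * k⁻¹ = k⁻¹ * ppm r2b := by group
      rw [e2, mul_smul, r2b_S1714]
    · intro c hc hcc
      have hm : k * c * k⁻¹ ∈ centG (ppm r2b) := mem_centG.2 ⟨hconjM hc, (conj_comm h).2 hcc⟩
      have e1 := sxS1714_centG hm
      rw [← mul_smul]
      have e2 : c * k⁻¹ = k⁻¹ * (k * c * k⁻¹) := by group
      rw [e2, mul_smul, e1]

end Cfsg.Agent.S5607
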