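import Cfsg.Statements.S5608
import Mathlib
import Cfsg.Agent.Lib.M24.Cent3

set_option autoImplicit false
open Cfsg Cfsg.Agent.Lib.M24 Cfsg.Agent.Lib.Golay Cfsg.Agent.Lib.Compute
open scoped Pointwise

namespace Cfsg.Agent.S5608

/-- If an element of order 3 and an involution of the group of the length-24 code commute, then either the element of order 3 has exactly 6 fixed points and the involution exactly 8, or both are fixed-point-free. -/
theorem result (x s : Equiv.Perm Cfsg.GolayPt) (hx : x ∈ Cfsg.M24) (hs : s ∈ Cfsg.M24) (h₃ : orderOf x = 3) (h₂ : orderOf s = 2) (hc : Commute x s) : ((Finset.univ.filter fun p => x p = p).card = 6 ∧ (Finset.univ.filter fun p => s p = p).card = 8) ∨ ((Finset.univ.filter fun p => x p = p).card = 0 ∧ (Finset.univ.filter fun p => s p = p).card = 0) := by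
  obtain ⟨hs2, hs1⟩ := order_two_iff.1 h₂
  have hcard : ∀ k : Equiv.Perm Cfsg.GolayPt, (Finset.univ.filter fun p => (k * s * k⁻¹) p = p).card =
      (Finset.univ.filter fun p => s p = p).card := fun k => by
    rw [filter_conj, Finset.card_image_of_injective _ k.injective]
  obtain ⟨k, hk, ⟨h, h6⟩ | ⟨h, h0⟩⟩ := order3_classify' hx h₃
  · left
    refine ⟨h6, ?_⟩
    rw [← hcard k]
    apply comm_r3a (M24.mul_mem (M24.mul_mem hk hs) (M24.inv_mem hk))
    · rw [← h]
      have hc' : s * x = x * s := hc.symm
      have e1 : (k * s * k⁻¹) * (k * x * k⁻¹) = k * (s * x) * k⁻¹ := by group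
      have e2 : (k * x * k⁻¹) * (k * s * k⁻¹) = k * (x * s) * k⁻¹ := by group
      rw [e1, e2, hc']
    · have e1 : (k * s * k⁻¹) * (k * s * k⁻¹) = k * (s * s) * k⁻¹ := by group
      rw [e1, hs2]
      group
    · intro h1
      apply hs1
      have : s = k⁻¹ * (k * s * k⁻¹) * k := by group
      rw [this, h1]
      group
  · right
    refine ⟨h0, ?_⟩
    rw [← hcard k]
    apply comm_r3b (M24.mul_mem (M24.mul_mem hk hs) (M24.inv_mem hk))
    · rw [← h]
      have hc' : s * x = x * s := hc.symm
      have e1 : (k * s * k⁻¹) * (k * x * k⁻¹) = k * (s * x) * k⁻¹ := by group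
      have e2 : (k * x * k⁻¹) * (k * s * k⁻¹) = k * (x * s) * k⁻¹ := by group
      rw [e1, e2, hc']
    · have e1 : (k * s * k⁻¹) * (k * s * k⁻¹) = k * (s * s) * k⁻¹ := by group
      rw [e1, hs2]
      group
    · intro h1
      apply hs1
      have : s = k⁻¹ * (k * s * k⁻¹) * k := by group
      rw [this, h1]
      group

end Cfsg.Agent.S5608
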