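import Cfsg.Statements.S5609
import Cfsg.Agent.Lib.M24.OctOct

set_option autoImplicit false
open scoped Pointwise
open Cfsg

namespace Cfsg.Agent.S5609

open Cfsg.Agent.Lib.M24 Cfsg.Agent.Lib.Compute Cfsg.Agent.Lib.Golay

theorem octad_nonempty {o : Finset GolayPt} (ho : o ∈ octads) : o.Nonempty := by
  rw [← Finset.card_pos, octads_card ho]
  norm_num

theorem adj_iff (a b : ↥octads) :
    (blockGraph octads).Adj a b ↔ Disjoint (a : Finset GolayPt) (b : Finset GolayPt) := by
  unfold blockGraph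
  rw [SimpleGraph.fromRel_adj]
  constructor
  · rintro ⟨_, h | h⟩
    · exact h
    · exact h.symm
  · intro h
    refine ⟨fun e => ?_, Or.inl h⟩
    rw [e] at h
    have h2 := octad_nonempty b.2
    rw [Finset.disjoint_self_iff_empty] at h
    rw [h] at h2
    exact Finset.not_nonempty_empty h2

theorem disj_smul (g : ↥M24) (a b : Finset GolayPt) : Disjoint (g • a) (g • b) ↔ Disjoint a b :=
  Finset.disjoint_image g.1.injective

theorem dist_two {V : Type*} {G : SimpleGraph V} {u v w : V} (hne : u ≠ v) (hn : ¬ G.Adj u v) (h1 : G.Adj u w)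
    (h2 : G.Adj w v) : G.dist u v = 2 := by
  let p : G.Walk u v := SimpleGraph.Walk.cons h1 (SimpleGraph.Walk.cons h2 SimpleGraph.Walk.nil)
  have hr : G.Reachable u v := ⟨p⟩
  have h3 : G.dist u v ≤ 2 := SimpleGraph.dist_le p
  have h4 : 0 < G.dist u v := hr.pos_dist_of_ne hne
  have h5 : G.dist u v ≠ 1 := fun e => hn (SimpleGraph.dist_eq_one_iff_adj.1 e)
  omega

theorem dist_three {V : Type*} {G : SimpleGraph V} {u v w x : V} (hne : u ≠ v) (hn : ¬ G.Adj u v)
    (hnc : ∀ y, G.Adj u y → G.Adj y v → False) (h1 : G.Adj u w) (h2 : G.Adj w x) (h3 : G.Adj x v) :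
    G.dist u v = 3 := by
  let p : G.Walk u v := SimpleGraph.Walk.cons h1 (SimpleGraph.Walk.cons h2 (SimpleGraph.Walk.cons h3 SimpleGraph.Walk.nil))
  have hr : G.Reachable u v := ⟨p⟩
  have h4 : G.dist u v ≤ 3 := SimpleGraph.dist_le p
  have h5 : 0 < G.dist u v := hr.pos_dist_of_ne hne
  have h6 : G.dist u v ≠ 1 := fun e => hn (SimpleGraph.dist_eq_one_iff_adj.1 e)
  have h7 : G.dist u v ≠ 2 := by
    intro e
    obtain ⟨q, hq⟩ := hr.exists_walk_length_eq_dist
    rw [e] at hq
    cases q with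
    | nil => simp at hq
    | cons a q =>
      cases q with
      | nil => simp at hq
      | cons b q =>
        cases q with
        | nil => exact hnc _ a b
        | cons c q =>
          simp only [SimpleGraph.Walk.length_cons] at hq
          omega
  omega

theorem a0_octad : enc.finOf 337856 ∈ octads := octad_of_mask (by decide +kernel)
theorem b0_octad : enc.finOf 6832158 ∈ octads := octad_of_mask (by decide +kernel)
theorem w0_octad : enc.finOf 4038912 ∈ octads := octad_of_mask (by decide +kernel)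

theorem no_common : allBelow (fun k => !(Nat.beq (Enc.popAux (Nat.land O0 (ocT k)) 24) 0) ||
    !(Nat.beq (Enc.popAux (Nat.land (ocT 2) (ocT k)) 24) 0)) 759 = true := by
  decide +kernel

theorem disjoint_iff_pop (a b : ℕ) : Disjoint (enc.finOf a : Finset GolayPt) (enc.finOf b) ↔ Enc.popAux (Nat.land a b) 24 = 0 := by
  rw [← card_inter_finOf, Finset.card_eq_zero, Finset.disjoint_iff_inter_eq_empty]

theorem main (o o' : ↥octads) (hne : o ≠ o') :
    (blockGraph octads).Reachable o o' ∧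
    (((o.1 ∩ o'.1).card = 0 ∧ (blockGraph octads).dist o o' = 1) ∨
      ((o.1 ∩ o'.1).card = 4 ∧ (blockGraph octads).dist o o' = 2) ∨
      ((o.1 ∩ o'.1).card = 2 ∧ (blockGraph octads).dist o o' = 3)) := by
  obtain ⟨g, r, hr, h1, h2⟩ := octad_pair_normal o.2 o'.2
  have hc : (o.1 ∩ o'.1).card = Enc.popAux (Nat.land O0 (ocT r)) 24 := by
    rw [← card_inter_smul g, h1, h2, card_inter_finOf]
  have hdisj : ∀ (x y : Finset GolayPt) (m n : ℕ), g • x = enc.finOf m → g • y = enc.finOf n →
      Enc.popAux (Nat.land m n) 24 = 0 → Disjoint x y := by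
    intro x y m n hx hy hp
    rw [← disj_smul g, hx, hy, disjoint_iff_pop]
    exact hp
  have hw : ∀ {m : ℕ}, enc.finOf m ∈ octads → ∃ x : ↥octads, g • x.1 = enc.finOf m := by
    intro m hm
    exact ⟨⟨g⁻¹ • enc.finOf m, smul_mem_octads (g⁻¹).2 hm⟩, smul_inv_smul g _⟩
  simp only [List.mem_cons, List.not_mem_nil, or_false] at hr
  have hnadj : Enc.popAux (Nat.land O0 (ocT r)) 24 ≠ 0 → ¬ (blockGraph octads).Adj o o' := by
    intro hp ha
    rw [adj_iff] at ha
    rw [← disj_smul g, h1, h2, disjoint_iff_pop] at ha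
    exact hp ha
  rcases hr with rfl | rfl | rfl | rfl
  · exfalso
    apply hne
    have h3 : ocT 528 = O0 := by decide +kernel
    rw [h3, ← h1] at h2
    exact Subtype.ext (MulAction.injective g h2).symm
  · have h3 : Enc.popAux (Nat.land O0 (ocT 58)) 24 = 0 := by decide +kernel
    have hadj : (blockGraph octads).Adj o o' := (adj_iff _ _).2 (hdisj _ _ _ _ h1 h2 h3)
    exact ⟨hadj.reachable, Or.inl ⟨by rw [hc, h3], SimpleGraph.dist_eq_one_iff_adj.2 hadj⟩⟩
  · have h3 : Enc.popAux (Nat.land O0 (ocT 0)) 24 = 4 := by decide +kernel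
    obtain ⟨w, hw'⟩ := hw w0_octad
    have a1 : (blockGraph octads).Adj o w := (adj_iff _ _).2 (hdisj _ _ _ _ h1 hw' (by decide +kernel))
    have a2 : (blockGraph octads).Adj w o' := (adj_iff _ _).2 (hdisj _ _ _ _ hw' h2 (by decide +kernel))
    exact ⟨a1.reachable.trans a2.reachable, Or.inr (Or.inl ⟨by rw [hc, h3],
      dist_two hne (hnadj (by rw [h3]; norm_num)) a1 a2⟩)⟩
  · have h3 : Enc.popAux (Nat.land O0 (ocT 2)) 24 = 2 := by decide +kernel
    obtain ⟨a, ha⟩ := hw a0_octad
    obtain ⟨b, hb⟩ := hw b0_octad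
    have a1 : (blockGraph octads).Adj o a := (adj_iff _ _).2 (hdisj _ _ _ _ h1 ha (by decide +kernel))
    have a2 : (blockGraph octads).Adj a b := (adj_iff _ _).2 (hdisj _ _ _ _ ha hb (by decide +kernel))
    have a3 : (blockGraph octads).Adj b o' := (adj_iff _ _).2 (hdisj _ _ _ _ hb h2 (by decide +kernel))
    refine ⟨(a1.reachable.trans a2.reachable).trans a3.reachable, Or.inr (Or.inr ⟨by rw [hc, h3],
      dist_three hne (hnadj (by rw [h3]; norm_num)) ?_ a1 a2 a3⟩)⟩
    intro y hy1 hy2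
    rw [adj_iff] at hy1 hy2
    obtain ⟨k, hk, hky⟩ := mem_octads_table.1 (smul_mem_octads g.2 y.2)
    have hky' : g • y.1 = enc.finOf (ocT k) := hky
    rw [← disj_smul g, h1, hky', disjoint_iff_pop] at hy1
    replace hy2 := hy2.symm
    rw [← disj_smul g, h2, hky', disjoint_iff_pop] at hy2
    have h4 := (allBelow_iff _ _).1 no_common k hk
    simp only [Bool.or_eq_true, Bool.not_eq_true', hy1, hy2] at h4
    simp at h4


/-- In the graph on the 759 octads of the length-24 code in which two octads are adjacent when they are disjoint, the graph is connected (of diameter 3) and two distinct octads are at distance 1, 2 or 3 exactly when they meet in 0, 4 or 2 points respectively. -/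
theorem result (o o' : Finset Cfsg.GolayPt) (ho : o ∈ Cfsg.octads) (ho' : o' ∈ Cfsg.octads) (hne : o ≠ o') : (Cfsg.blockGraph Cfsg.octads).Connected ∧ ((Cfsg.blockGraph Cfsg.octads).dist ⟨o, ho⟩ ⟨o', ho'⟩ = 1 ↔ (o ∩ o').card = 0) ∧ ((Cfsg.blockGraph Cfsg.octads).dist ⟨o, ho⟩ ⟨o', ho'⟩ = 2 ↔ (o ∩ o').card = 4) ∧ ((Cfsg.blockGraph Cfsg.octads).dist ⟨o, ho⟩ ⟨o', ho'⟩ = 3 ↔ (o ∩ o').card = 2) := by
  have hm := main ⟨o, ho⟩ ⟨o', ho'⟩ (fun e => hne (congrArg Subtype.val e))
  refine ⟨?_, ?_⟩
  · have : Nonempty ↥octads := ⟨⟨o, ho⟩⟩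
    refine SimpleGraph.Connected.mk ?_
    intro a b
    by_cases hab : a = b
    · rw [hab]
    · exact (main a b hab).1
  · rcases hm.2 with ⟨h1, h2⟩ | ⟨h1, h2⟩ | ⟨h1, h2⟩
    · rw [h2]
      simp only at h1
      rw [h1]
      norm_num
    · rw [h2]
      simp only at h1
      rw [h1]
      norm_num
    · rw [h2]
      simp only at h1
      rw [h1]
      norm_num

end Cfsg.Agent.S5609
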