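import Cfsg.Statements.S5614
import Cfsg.Agent.Lib.M24.Sym6

set_option autoImplicit false
open scoped Pointwise
open Cfsg

namespace Cfsg.Agent.S5614

open Cfsg.Agent.Lib.M24 Cfsg.Agent.Lib.Compute Cfsg.Agent.Lib.Golay
open scoped Pointwise

/-- An octad meeting the base octad exactly in the points `14, 17`. -/
abbrev O2 : ℕ := 252432

/-- An element of the stabiliser of the base octad carrying the octad number 2 to `O2`. -/
abbrev sEl : ℕ := 96886107114179568879927936863440046

theorem O2_octad : enc.finOf O2 ∈ octads := octad_of_mask (by decide +kernel)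

theorem sEl_vld : vld sEl = true := by decide +kernel

theorem sEl_check : (Nat.beq (imgMask (pc sEl) O0 24) O0 && Nat.beq (imgMask (pc sEl) (ocT 2) 24) O2) = true := by
  decide +kernel

theorem inter_card : ((enc.finOf O0 : Finset GolayPt) ∩ enc.finOf O2).card = 2 := by
  rw [card_inter_finOf]
  decide +kernel

theorem base_pts : ∀ i ∈ (5 :: L5), pt i ∈ ((enc.finOf O0 : Finset GolayPt) \ enc.finOf O2) := by
  decide +kernel

theorem base_test : T6.all (fun p => T7.all fun q =>
    !(Nat.beq (pc p (pc q 5)) 5) || !(Nat.beq (imgMask (fun i => pc p (pc q i)) O2 24) O2) ||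
      idF (fun i => pc p (pc q i))) = true := by
  decide +kernel

theorem base_inj {σ : Equiv.Perm GolayPt} (hσ : σ ∈ M24) (h2 : σ • (enc.finOf O2 : Finset GolayPt) = enc.finOf O2)
    (hfix : ∀ p ∈ ((enc.finOf O0 : Finset GolayPt) \ enc.finOf O2), σ p = p) : σ = 1 := by
  have hL : σ ∈ stabL M24 (L5.map pt) := by
    refine ⟨hσ, fun x hx => ?_⟩
    obtain ⟨i, hi, rfl⟩ := List.mem_map.1 hx
    exact hfix _ (base_pts i (List.mem_cons_of_mem _ hi))
  obtain ⟨p, hp, q, hq, rfl⟩ := exists_H_decomp hL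
  have hpv := T6_vld hp
  have hqv := T7_vld hq
  have hcode : enc.IsCode (ppm p * ppm q) (fun i => pc p (pc q i)) := isCode_mul (vld_code hpv) (vld_code hqv)
  have h1 := List.all_eq_true.1 (List.all_eq_true.1 base_test p hp) q hq
  simp only [Bool.or_eq_true, Bool.not_eq_true'] at h1
  have h5 := hfix (pt 5) (base_pts 5 (by simp))
  rw [code_pt hcode (by norm_num)] at h5
  have h5' : pc p (pc q 5) = 5 := pt_inj (code_lt hcode (i := 5) (by norm_num)) (by norm_num) h5
  rw [h5', show Nat.beq 5 5 = true from rfl] at h1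
  have h6 : imgMask (fun i => pc p (pc q i)) O2 24 = O2 := by
    rw [img_finOf hcode] at h2
    exact enc.finOf_injOn (n := 24) (imgMask_lt (fun i hi => code_lt hcode hi) _ 24 le_rfl) (by norm_num) h2
  rw [h6, show Nat.beq O2 O2 = true from Nat.beq_refl _] at h1
  rcases h1 with (h1 | h1) | h1
  · exact Bool.noConfusion h1
  · exact Bool.noConfusion h1
  · exact (idF_iff hcode).1 h1

theorem base_iso : Nonempty (↥(MulAction.stabilizer ↥M24 (enc.finOf O0 : Finset GolayPt) ⊓
    MulAction.stabilizer ↥M24 (enc.finOf O2 : Finset GolayPt)) ≃* Equiv.Perm (Fin 6)) := by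
  have hcard := octad_joint O0_octad O2_octad
  rw [inter_card] at hcard
  have hc : Nat.card ↥(MulAction.stabilizer ↥M24 (enc.finOf O0 : Finset GolayPt) ⊓
      MulAction.stabilizer ↥M24 (enc.finOf O2 : Finset GolayPt)) = 720 := by
    rw [hcard]
    rfl
  have hC : ((enc.finOf O0 : Finset GolayPt) \ enc.finOf O2).card = 6 := by
    have := Finset.card_sdiff_add_card_inter (enc.finOf O0 : Finset GolayPt) (enc.finOf O2)
    rw [inter_card, octads_card O0_octad] at this
    omega
  have hinv : ∀ h ∈ MulAction.stabilizer ↥M24 (enc.finOf O0 : Finset GolayPt) ⊓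
      MulAction.stabilizer ↥M24 (enc.finOf O2 : Finset GolayPt),
      (h : ↥M24).1 • ((enc.finOf O0 : Finset GolayPt) \ enc.finOf O2) = (enc.finOf O0 : Finset GolayPt) \ enc.finOf O2 := by
    intro h hh
    have h1 : (h : ↥M24).1 • (enc.finOf O0 : Finset GolayPt) = enc.finOf O0 := hh.1
    have h2 : (h : ↥M24).1 • (enc.finOf O2 : Finset GolayPt) = enc.finOf O2 := hh.2
    rw [Finset.smul_finset_sdiff, h1, h2]
  refine iso_perm_fin6 hc hC (resHom _ hinv) ?_
  rw [injective_iff_map_eq_one]
  intro s hs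
  apply Subtype.ext
  apply Subtype.ext
  refine base_inj s.1.2 s.2.2 fun p hp => ?_
  have := congrArg (fun τ : Equiv.Perm ↥((enc.finOf O0 : Finset GolayPt) \ enc.finOf O2) =>
    ((τ ⟨p, hp⟩ : ↥((enc.finOf O0 : Finset GolayPt) \ enc.finOf O2)) : GolayPt)) hs
  exact this

theorem exists_normal {o o' : Finset GolayPt} (ho : o ∈ octads) (ho' : o' ∈ octads) (h₂ : (o ∩ o').card = 2) :
    ∃ h : ↥M24, h • o = enc.finOf O0 ∧ h • o' = enc.finOf O2 := by
  obtain ⟨g, r, hr, h1, h2⟩ := octad_pair_normal ho ho'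
  have hc : (o ∩ o').card = Enc.popAux (Nat.land O0 (ocT r)) 24 := by
    rw [← card_inter_smul g, h1, h2, card_inter_finOf]
  rw [h₂] at hc
  have hr2 : r = 2 := by
    simp only [List.mem_cons, List.not_mem_nil, or_false] at hr
    rcases hr with rfl | rfl | rfl | rfl
    · revert hc; decide +kernel
    · revert hc; decide +kernel
    · revert hc; decide +kernel
    · rfl
  subst hr2
  have hcode := vld_code sEl_vld
  have hchk := sEl_check
  simp only [Bool.and_eq_true] at hchk
  refine ⟨⟨ppm sEl, vld_mem sEl_vld⟩ * g, ?_, ?_⟩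
  · rw [mul_smul, h1]
    show ppm sEl • (enc.finOf O0 : Finset GolayPt) = _
    rw [img_finOf hcode, Nat.eq_of_beq_eq_true hchk.1]
  · rw [mul_smul, h2]
    show ppm sEl • (enc.finOf (ocT 2) : Finset GolayPt) = _
    rw [img_finOf hcode, Nat.eq_of_beq_eq_true hchk.2]

/-- In the group of the length-24 code, the joint stabiliser of two octads meeting in exactly two points is isomorphic to the symmetric group of degree 6. -/
theorem result (o o' : Finset Cfsg.GolayPt) (ho : o ∈ Cfsg.octads) (ho' : o' ∈ Cfsg.octads) (h₂ : (o ∩ o').card = 2) : Nonempty (↥(MulAction.stabilizer Cfsg.M24 o ⊓ MulAction.stabilizer Cfsg.M24 o') ≃* Equiv.Perm (Fin 6)) := by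
  obtain ⟨h, h1, h2⟩ := exists_normal ho ho' h₂
  have hb := base_iso
  rw [← h1, ← h2] at hb
  obtain ⟨e⟩ := hb
  exact ⟨(jointConj h o o').trans e⟩

end Cfsg.Agent.S5614
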