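import Cfsg.Statements.S5615
import Cfsg.Agent.Lib.M24.Oct15

set_option autoImplicit false
open scoped Pointwise
open Cfsg

namespace Cfsg.Agent.S5615

open Cfsg.Agent.Lib.M24 Cfsg.Agent.Lib.Compute Cfsg.Agent.Lib.Golay

/-- An octad of the length-24 code lies in exactly 15 trios; the stabiliser of the octad in the code's group acts doubly transitively on these 15 trios, and the kernel of this action is the pointwise stabiliser of the octad. -/
theorem result (o : Finset Cfsg.GolayPt) (ho : o ∈ Cfsg.octads) : {T : Finset (Finset Cfsg.GolayPt) | T ∈ Cfsg.trios ∧ o ∈ T}.ncard = 15 ∧ (∀ T₁ T₂ T₁' T₂' : Finset (Finset Cfsg.GolayPt), T₁ ∈ Cfsg.trios → T₂ ∈ Cfsg.trios → T₁' ∈ Cfsg.trios → T₂' ∈ Cfsg.trios → o ∈ T₁ → o ∈ T₂ → o ∈ T₁' → o ∈ T₂' → T₁ ≠ T₂ → T₁' ≠ T₂' → ∃ g ∈ Cfsg.M24, g • o = o ∧ g • T₁ = T₁' ∧ g • T₂ = T₂') ∧ ∀ g ∈ Cfsg.M24, g • o = o → ((∀ T ∈ Cfsg.trios, o ∈ T → g • T = T) ↔ ∀ p ∈ o, g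 p = p) := by
  obtain ⟨g, rfl⟩ := octads_transitive O0_octad ho
  have hmem : ∀ {T : Finset (Finset GolayPt)}, g • enc.finOf O0 ∈ T → enc.finOf O0 ∈ g⁻¹ • T := by
    intro T hT
    have := Finset.smul_mem_smul_finset (a := g⁻¹) hT
    rwa [inv_smul_smul] at this
  have htr : ∀ {T : Finset (Finset GolayPt)}, T ∈ trios → g⁻¹ • T ∈ trios := fun hT => smul_mem_trios (g⁻¹).2 hT
  refine ⟨?_, ?_, ?_⟩
  · rw [← ncard_through]
    have h : {T : Finset (Finset GolayPt) | T ∈ trios ∧ g • enc.finOf O0 ∈ T} =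
        (fun T => g • T) '' {T : Finset (Finset GolayPt) | T ∈ trios ∧ enc.finOf O0 ∈ T} := by
      ext T
      constructor
      · rintro ⟨h1, h2⟩
        exact ⟨g⁻¹ • T, ⟨htr h1, hmem h2⟩, smul_inv_smul g T⟩
      · rintro ⟨T', ⟨h1, h2⟩, rfl⟩
        exact ⟨smul_mem_trios g.2 h1, Finset.smul_mem_smul_finset h2⟩
    rw [h, Set.ncard_image_of_injective _ (MulAction.injective g)]
  · intro T₁ T₂ T₁' T₂' h1 h2 h1' h2' m1 m2 m1' m2' hne hne'
    obtain ⟨σ, e1, e2⟩ := two_trans_base (htr h1) (htr h2) (htr h1') (htr h2') (hmem m1) (hmem m2) (hmem m1') (hmem m2')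
      (fun e => hne (MulAction.injective _ e)) (fun e => hne' (MulAction.injective _ e))
    have hσ : (σ : ↥M24) • (enc.finOf O0 : Finset GolayPt) = enc.finOf O0 := σ.2
    have e1' : (σ : ↥M24) • (g⁻¹ • T₁) = g⁻¹ • T₁' := e1
    have e2' : (σ : ↥M24) • (g⁻¹ • T₂) = g⁻¹ • T₂' := e2
    refine ⟨(g * (σ : ↥M24) * g⁻¹ : ↥M24).1, (g * (σ : ↥M24) * g⁻¹ : ↥M24).2, ?_, ?_, ?_⟩
    · show (g * (σ : ↥M24) * g⁻¹) • g • (enc.finOf O0 : Finset GolayPt) = g • enc.finOf O0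
      rw [mul_smul, mul_smul, inv_smul_smul, hσ]
    · show (g * (σ : ↥M24) * g⁻¹) • T₁ = T₁'
      rw [mul_smul, mul_smul, e1', smul_inv_smul]
    · show (g * (σ : ↥M24) * g⁻¹) • T₂ = T₂'
      rw [mul_smul, mul_smul, e2', smul_inv_smul]
  · intro h hh h0
    let k : ↥M24 := g⁻¹ * ⟨h, hh⟩ * g
    have hk0 : k.1 • (enc.finOf O0 : Finset GolayPt) = enc.finOf O0 := by
      show (g⁻¹ * ⟨h, hh⟩ * g) • (enc.finOf O0 : Finset GolayPt) = enc.finOf O0
      rw [mul_smul, mul_smul]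
      have h0' : (⟨h, hh⟩ : ↥M24) • g • (enc.finOf O0 : Finset GolayPt) = g • enc.finOf O0 := h0
      rw [h0', inv_smul_smul]
    constructor
    · intro hT p hp
      obtain ⟨q, hq, rfl⟩ := Finset.mem_smul_finset.1 hp
      have hkT : ∀ T ∈ trios, enc.finOf O0 ∈ T → k.1 • T = T := by
        intro T hT1 hT2
        have h1 := hT (g • T) (smul_mem_trios g.2 hT1) (Finset.smul_mem_smul_finset hT2)
        have h1' : (⟨h, hh⟩ : ↥M24) • g • T = g • T := h1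
        show (g⁻¹ * ⟨h, hh⟩ * g) • T = T
        rw [mul_smul, mul_smul, h1', inv_smul_smul]
      have h2 := fix_of_trios k.2 hk0 hkT q hq
      have h3 : g.1⁻¹ (h (g.1 q)) = q := h2
      show h (g.1 q) = g.1 q
      rw [Equiv.Perm.inv_eq_iff_eq] at h3
      exact h3
    · intro hp T hT1 hT2
      have hkf : ∀ q ∈ (enc.finOf O0 : Finset GolayPt), k.1 q = q := by
        intro q hq
        have h3 := hp (g.1 q) (Finset.mem_smul_finset.2 ⟨q, hq, rfl⟩)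
        show g.1⁻¹ (h (g.1 q)) = q
        rw [Equiv.Perm.inv_eq_iff_eq]
        exact h3
      have h2 := trios_of_fix k.2 hkf (htr hT1) (hmem hT2)
      have h2' : (g⁻¹ * ⟨h, hh⟩ * g) • (g⁻¹ • T) = g⁻¹ • T := h2
      rw [mul_smul, mul_smul, smul_inv_smul] at h2'
      exact MulAction.injective g⁻¹ h2'

end Cfsg.Agent.S5615
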