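import Cfsg.Statements.S5616
import Cfsg.Agent.Lib.M24.Y3

set_option autoImplicit false
open scoped Pointwise
open Cfsg

namespace Cfsg.Agent.S5616

open Cfsg.Agent.Lib.M24 Cfsg.Agent.Lib.Compute Cfsg.Agent.Lib.Golay

/-- Let Y be a set of 3 of the 24 points. The sextets of the length-24 code whose tetrads meeting Y number 1, 2 or 3 are respectively 21, 630 and 1120 in number, and two sextets with the same number of tetrads meeting Y are conjugate under the setwise stabiliser of Y in the code's group. -/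
theorem result (Y : Finset Cfsg.GolayPt) (hY : Y.card = 3) : {S : Finset (Finset Cfsg.GolayPt) | S ∈ Cfsg.sextets ∧ (S.filter fun t => (t ∩ Y).Nonempty).card = 1}.ncard = 21 ∧ {S : Finset (Finset Cfsg.GolayPt) | S ∈ Cfsg.sextets ∧ (S.filter fun t => (t ∩ Y).Nonempty).card = 2}.ncard = 630 ∧ {S : Finset (Finset Cfsg.GolayPt) | S ∈ Cfsg.sextets ∧ (S.filter fun t => (t ∩ Y).Nonempty).card = 3}.ncard = 1120 ∧ ∀ S S' : Finset (Finset Cfsg.GolayPt), S ∈ Cfsg.sextets → S' ∈ Cfsg.sextets → (S.filter fun t => (t ∩ Y).Nonempty).card = (S'.filter fun t => (t ∩ Y).Nonempty).card → ∃ g ∈ Cfsg.M24, g • Y = Y ∧ g • S = S' := by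
  obtain ⟨g, rfl⟩ := exists_smul_eq_of_card (by norm_num) Y0_card hY
  refine ⟨?_, ?_, ?_, ?_⟩
  · exact (hit_transport g 1).trans ((hit_ncard 1).trans hit_count1)
  · exact (hit_transport g 2).trans ((hit_ncard 2).trans hit_count2)
  · exact (hit_transport g 3).trans ((hit_ncard 3).trans hit_count3)
  · intro S S' hS hS' h
    have h1 : hit (enc.finOf Y0) (g⁻¹ • S) = hit (enc.finOf Y0) (g⁻¹ • S') := by
      have e1 := hit_smul g.1 (enc.finOf Y0) (g⁻¹ • S)
      have e2 := hit_smul g.1 (enc.finOf Y0) (g⁻¹ • S')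
      have e3 : g.1 • (g⁻¹ • S) = S := smul_inv_smul g S
      have e4 : g.1 • (g⁻¹ • S') = S' := smul_inv_smul g S'
      rw [e3] at e1
      rw [e4] at e2
      rw [← e1, ← e2]
      exact h
    obtain ⟨σ, hσ⟩ := y_same (smul_mem_sextets (g⁻¹).2 hS) (smul_mem_sextets (g⁻¹).2 hS') h1
    have hσ0 : (σ : ↥M24) • (enc.finOf Y0 : Finset GolayPt) = enc.finOf Y0 := σ.2
    have hσ1 : (σ : ↥M24) • (g⁻¹ • S) = g⁻¹ • S' := hσ
    refine ⟨(g * (σ : ↥M24) * g⁻¹ : ↥M24).1, (g * (σ : ↥M24) * g⁻¹ : ↥M24).2, ?_, ?_⟩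
    · show (g * (σ : ↥M24) * g⁻¹) • g • (enc.finOf Y0 : Finset GolayPt) = g • enc.finOf Y0
      rw [mul_smul, mul_smul, inv_smul_smul, hσ0]
    · show (g * (σ : ↥M24) * g⁻¹) • S = S'
      rw [mul_smul, mul_smul, hσ1, smul_inv_smul]

end Cfsg.Agent.S5616
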