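import Cfsg.Statements.S5617
import Cfsg.Agent.Lib.M24.OrbCerts
import Cfsg.Agent.Lib.Golay.Dodecad

set_option autoImplicit false
open scoped Pointwise
open Cfsg

namespace Cfsg.Agent.S5617

open Cfsg.Agent.Lib.M24 Cfsg.Agent.Lib.Compute Cfsg.Agent.Lib.Golay

theorem D0_mem' : enc.finOf (dpT 0) ∈ dodecads := by
  rw [mem_dodecads_iff]
  have h1 : dpT 0 = word 4061 := by decide +kernel
  exact ⟨4061, by norm_num, by decide +kernel, by rw [h1]⟩

theorem dp_eq : famOf dpT 2 = ({enc.finOf (dpT 0), Finset.univ \ enc.finOf (dpT 0)} : Finset (Finset GolayPt)) := by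
  rw [famOf_two]
  have h : (enc.finOf (dpT 1) : Finset GolayPt) = Finset.univ \ enc.finOf (dpT 0) := by decide +kernel
  rw [h]

theorem smul_pair (g : ↥M24) (d : Finset GolayPt) :
    g • ({d, Finset.univ \ d} : Finset (Finset GolayPt)) = {g • d, Finset.univ \ (g • d)} := by
  show g.1 • ({d, Finset.univ \ d} : Finset (Finset GolayPt)) = {g.1 • d, Finset.univ \ (g.1 • d)}
  rw [Finset.smul_finset_insert, Finset.smul_finset_singleton, Finset.smul_finset_sdiff, Finset.smul_finset_univ]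

/-- The setwise stabiliser, in the group of the length-24 code, of a complementary pair of dodecads has exactly three orbits on the 1771 sextets, of sizes 396, 495 and 880. -/
theorem result (d : Finset Cfsg.GolayPt) (hd : d ∈ Cfsg.dodecads) : ∃ X₁ ∈ Cfsg.sextets, ∃ X₂ ∈ Cfsg.sextets, ∃ X₃ ∈ Cfsg.sextets, (MulAction.orbit ↥(MulAction.stabilizer Cfsg.M24 ({d, Finset.univ \ d} : Finset (Finset Cfsg.GolayPt))) X₁).ncard = 396 ∧ (MulAction.orbit ↥(MulAction.stabilizer Cfsg.M24 ({d, Finset.univ \ d} : Finset (Finset Cfsg.GolayPt))) X₂).ncard = 495 ∧ (MulAction.orbit ↥(MulAction.stabilizer Cfsg.M24 ({d, Finset.univ \ d} : Finset (Finset Cfsg.GolayPt))) X₃).ncard = 880 ∧ Cfsg.sextets = MulAction.orbit ↥(MulAction.stabilizer Cfsg.M24 ({d, Finset.univ \ d} : Finset (Finset Cfsg.GolayPt))) X₁ ∪ MulAction.orbit ↥(MulAction.stabilizer Cfsg.M24 ({d, Finset.univ \ d} : Finset (Finset Cfsg.GolayPt))) X₂ ∪ MulAction.orbit ↥(MulAction.stabilizer Cfsg.M24 ({d, Finset.univ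 \ d} : Finset (Finset Cfsg.GolayPt))) X₃ := by
  have hA : ∀ (g : ↥M24), ∀ x ∈ sextets, g • x ∈ sextets := fun g x hx => smul_mem_sextets g.2 hx
  obtain ⟨g, hg⟩ := dodecads_transitive D0_mem' hd
  subst hg
  have h := dpair_sextets.smul hA g
  rw [dp_eq, smul_pair] at h
  exact h

end Cfsg.Agent.S5617
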