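import Cfsg.Statements.S5618
import Cfsg.Agent.Lib.M24.Sym6

set_option autoImplicit false
open scoped Pointwise
open Cfsg

namespace Cfsg.Agent.S5618

open Cfsg.Agent.Lib.M24 Cfsg.Agent.Lib.Compute Cfsg.Agent.Lib.Golay
open scoped Pointwise

theorem hexad_sub {d C : Finset GolayPt} (hC : C ∈ hexadsOn d) : C ⊆ d := by
  obtain ⟨_, o, _, rfl⟩ := hC
  exact Finset.inter_subset_right

theorem ncard_hexadsOn {d : Finset GolayPt} (hd : d ∈ dodecads) : (hexadsOn d).ncard = 132 := by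
  have h1 := (octads_meeting_dodecad hd).1
  have h2 : hexadsOn d = (fun o => o ∩ d) '' {o : Finset GolayPt | o ∈ octads ∧ (o ∩ d).card = 6} := by
    ext C
    constructor
    · rintro ⟨hc, o, ho, rfl⟩
      exact ⟨o, ⟨ho, hc⟩, rfl⟩
    · rintro ⟨o, ⟨ho, hc⟩, rfl⟩
      exact ⟨hc, o, ho, rfl⟩
  rw [h2, Set.InjOn.ncard_image, h1]
  rintro a ⟨ha, hca⟩ b ⟨hb, hcb⟩ hab
  have hab' : a ∩ d = b ∩ d := hab
  obtain ⟨F, hF, hc⟩ := Finset.exists_subset_card_eq (s := a ∩ d) (n := 5) (by rw [hca]; norm_num)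
  refine octads_unique ha hb hc (hF.trans Finset.inter_subset_left) ?_
  exact hF.trans (by rw [hab']; exact Finset.inter_subset_left)

theorem orbit_hexad {d C : Finset GolayPt} (hd : d ∈ dodecads) (hC : C ∈ hexadsOn d) :
    MulAction.orbit ↥(MulAction.stabilizer ↥M24 d) C = hexadsOn d := by
  ext C'
  constructor
  · rintro ⟨⟨g, hg⟩, rfl⟩
    obtain ⟨hc, o, ho, rfl⟩ := hC
    have hg' : g • d = d := hg
    refine ⟨?_, g • o, smul_mem_octads g.2 ho, ?_⟩
    · show (g.1 • (o ∩ d)).card = 6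
      rw [Finset.card_smul_finset, hc]
    · show g.1 • o ∩ d = g.1 • (o ∩ d)
      rw [Finset.smul_finset_inter]
      congr 1
      exact hg'.symm
  · intro hC'
    obtain ⟨hc, o, ho, rfl⟩ := hC
    obtain ⟨hc', o', ho', rfl⟩ := hC'
    obtain ⟨F, hF, hF5⟩ := Finset.exists_subset_card_eq (s := o ∩ d) (n := 5) (by rw [hc]; norm_num)
    obtain ⟨F', hF', hF5'⟩ := Finset.exists_subset_card_eq (s := o' ∩ d) (n := 5) (by rw [hc']; norm_num)
    let x : Fin 5 ↪ GolayPt := ((Finset.equivFinOfCardEq hF5).symm.toEmbedding).trans (Function.Embedding.subtype _)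
    let y : Fin 5 ↪ GolayPt := ((Finset.equivFinOfCardEq hF5').symm.toEmbedding).trans (Function.Embedding.subtype _)
    have hx : ∀ i, x i ∈ F := fun i => ((Finset.equivFinOfCardEq hF5).symm i).2
    have hy : ∀ i, y i ∈ F' := fun i => ((Finset.equivFinOfCardEq hF5').symm i).2
    obtain ⟨g, hg, -⟩ := sharply_five_transitive hd x y
      (fun i => (Finset.mem_inter.1 (hF (hx i))).2) (fun i => (Finset.mem_inter.1 (hF' (hy i))).2)
    refine ⟨g, ?_⟩
    have hgd : (g : ↥M24) • d = d := g.2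
    have hgo : (g : ↥M24) • o = o' := by
      have hsub : F' ⊆ (g : ↥M24) • o := by
        intro a ha
        have hi : ∃ i, y i = a := ⟨(Finset.equivFinOfCardEq hF5') ⟨a, ha⟩, by simp [y]⟩
        obtain ⟨i, rfl⟩ := hi
        rw [← hg i]
        exact Finset.mem_smul_finset.2 ⟨x i, (Finset.mem_inter.1 (hF (hx i))).1, rfl⟩
      exact octads_unique (smul_mem_octads (g : ↥M24).2 ho) ho' hF5' hsub (hF'.trans Finset.inter_subset_left)
    show (g : ↥M24).1 • (o ∩ d) = o' ∩ d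
    rw [Finset.smul_finset_inter]
    have e1 : (g : ↥M24).1 • o = o' := hgo
    have e2 : (g : ↥M24).1 • d = d := hgd
    rw [e1, e2]

/-- For a dodecad d of the length-24 code and a hexad C on it (a 6-point intersection of d with an octad): the joint stabiliser of d and C in the code's group is isomorphic to the symmetric group of degree 6, and it acts faithfully both on the six points of C and on the six points of d outside C. -/
theorem result (d : Finset Cfsg.GolayPt) (hd : d ∈ Cfsg.dodecads) (C : Finset Cfsg.GolayPt) (hC : C ∈ Cfsg.hexadsOn d) : Nonempty (↥(MulAction.stabilizer Cfsg.M24 d ⊓ MulAction.stabilizer Cfsg.M24 C) ≃* Equiv.Perm (Fin 6)) ∧ (∀ g ∈ MulAction.stabilizer Cfsg.M24 d ⊓ MulAction.stabilizer Cfsg.M24 C, (∀ p ∈ C, ((g : ↥Cfsg.M24) : Equiv.Perm Cfsg.GolayPt) p = p) → g = 1) ∧ ∀ g ∈ MulAction.stabilizer Cfsg.M24 d ⊓ MulAction.stabilizer Cfsg.M24 C, (∀ p ∈ d \ C, ((g : ↥Cfsg.M24) : Equiv.Perm Cfsg.GolayPt) p = p) → g = 1 :=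 by
  have hsub := hexad_sub hC
  have hc6 : C.card = 6 := hC.1
  have hcd : d.card = 12 := hd.2
  have hcard : Nat.card ↥(MulAction.stabilizer ↥M24 d ⊓ MulAction.stabilizer ↥M24 C) = 720 := by
    have key := card_inf_stabilizer (G := ↥M24) d C
    rw [orbit_hexad hd hC, ncard_hexadsOn hd, card_stabilizer_dodecad hd] at key
    exact Nat.eq_of_mul_eq_mul_right (m := 132) (by norm_num) (key.trans (by norm_num))
  have hdstab : ∀ g ∈ MulAction.stabilizer ↥M24 d ⊓ MulAction.stabilizer ↥M24 C, (g : ↥M24).1 • d = d := fun g hg => hg.1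
  have hCstab : ∀ g ∈ MulAction.stabilizer ↥M24 d ⊓ MulAction.stabilizer ↥M24 C, (g : ↥M24).1 • C = C := fun g hg => hg.2
  have hfaith : ∀ g ∈ MulAction.stabilizer ↥M24 d ⊓ MulAction.stabilizer ↥M24 C, (∀ p ∈ C, (g : ↥M24).1 p = p) → g = 1 := by
    intro g hg hfix
    exact Subtype.ext (eq_one_of_five g.2 hd (hdstab g hg) hsub (by omega) hfix)
  have hfaith2 : ∀ g ∈ MulAction.stabilizer ↥M24 d ⊓ MulAction.stabilizer ↥M24 C, (∀ p ∈ d \ C, (g : ↥M24).1 p = p) → g = 1 := by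
    intro g hg hfix
    refine Subtype.ext (eq_one_of_five g.2 hd (hdstab g hg) Finset.sdiff_subset ?_ hfix)
    rw [Finset.card_sdiff_of_subset hsub]
    omega
  refine ⟨?_, hfaith, hfaith2⟩
  refine iso_perm_fin6 hcard hc6 (resHom _ hCstab) ?_
  rw [injective_iff_map_eq_one]
  intro s hs
  apply Subtype.ext
  refine hfaith s.1 s.2 fun p hp => ?_
  have := congrArg (fun τ : Equiv.Perm ↥C => ((τ ⟨p, hp⟩ : ↥C) : GolayPt)) hs
  exact this

end Cfsg.Agent.S5618
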