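import Cfsg.Statements.S5620
import Cfsg.Agent.Lib.M24.Sym6

set_option autoImplicit false
open scoped Pointwise
open Cfsg

namespace Cfsg.Agent.S5620

open Cfsg.Agent.Lib.M24 Cfsg.Agent.Lib.Compute Cfsg.Agent.Lib.Golay Cfsg.Spor
open scoped Pointwise

theorem sq_eq : squareDodecad = (enc.finOf 340831 : Finset GolayPt) := by decide +kernel

/-- Element interchanging the dodecad of squares and its complement, and moving `0` to the extra point. -/
abbrev gEl : ℕ := 126159644541486529699497976498109911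
/-- Element of `M12` fixing the extra point, without fixed point on the dodecad. -/
abbrev bEl : ℕ := 974422348340362810657331300373378118

theorem gEl_vld : vld gEl = true := by decide +kernel
theorem bEl_vld : vld bEl = true := by decide +kernel

theorem gEl_img : imgMask (pc gEl) 340831 24 = 16436384 := by decide +kernel
theorem compl_eq : (Finset.univ \ enc.finOf 340831 : Finset GolayPt) = enc.finOf 16436384 := by decide +kernel
theorem bEl_img : imgMask (pc bEl) 340831 24 = 340831 := by decide +kernel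
theorem gEl_zero : pc gEl 0 = 23 := by decide +kernel
theorem bEl_none : pc bEl 23 = 23 := by decide +kernel
theorem bEl_nofix : allBelow (fun a => !(tb 340831 a) || !(Nat.beq (pc bEl a) a)) 24 = true := by decide +kernel

theorem gEl_smul : ppm gEl • squareDodecad = Finset.univ \ squareDodecad := by
  rw [sq_eq, compl_eq, img_finOf (vld_code gEl_vld), gEl_img]

theorem gEl_none : ppm gEl (some 0) = none := by
  have := code_pt (vld_code gEl_vld) (i := 0) (by norm_num)
  rw [gEl_zero] at this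
  exact this

theorem mem_M12 {x : Equiv.Perm GolayPt} : x ∈ M12 ↔ x ∈ M24 ∧ x • squareDodecad = squareDodecad := Iff.rfl

theorem mem_M11 {x : Equiv.Perm GolayPt} : x ∈ M11 ↔ (x ∈ M24 ∧ x • squareDodecad = squareDodecad) ∧ x (some 0) = some 0 :=
  Iff.rfl

theorem mem_B {x : Equiv.Perm GolayPt} : x ∈ M12 ⊓ MulAction.stabilizer (Equiv.Perm GolayPt) (none : GolayPt) ↔
    (x ∈ M24 ∧ x • squareDodecad = squareDodecad) ∧ x none = none := Iff.rfl

theorem smul_compl {x : Equiv.Perm GolayPt} (h : x • squareDodecad = squareDodecad) :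
    x • (Finset.univ \ squareDodecad) = Finset.univ \ squareDodecad := by
  rw [Finset.smul_finset_sdiff, Finset.smul_finset_univ, h]

theorem gEl_smul2 : ppm gEl • (Finset.univ \ squareDodecad) = squareDodecad := by
  rw [Finset.smul_finset_sdiff, Finset.smul_finset_univ, gEl_smul]
  ext a
  simp

theorem gEl_inv_smul : (ppm gEl)⁻¹ • squareDodecad = Finset.univ \ squareDodecad := by
  rw [inv_smul_eq_iff, gEl_smul2]

theorem gEl_inv_smul2 : (ppm gEl)⁻¹ • (Finset.univ \ squareDodecad) = squareDodecad := by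
  rw [inv_smul_eq_iff, gEl_smul]

theorem conj_eq : MulAut.conj (ppm gEl) • M11 = M12 ⊓ MulAction.stabilizer (Equiv.Perm GolayPt) (none : GolayPt) := by
  have hgM := vld_mem gEl_vld
  have hg0 := gEl_none
  have hgi : (ppm gEl)⁻¹ none = some 0 := by rw [Equiv.Perm.inv_eq_iff_eq, hg0]
  ext x
  rw [Subgroup.mem_smul_pointwise_iff_exists, mem_B]
  constructor
  · rintro ⟨s, hs, rfl⟩
    obtain ⟨⟨hs1, hs2⟩, hs3⟩ := mem_M11.1 hs
    show (ppm gEl * s * (ppm gEl)⁻¹ ∈ M24 ∧ (ppm gEl * s * (ppm gEl)⁻¹) • squareDodecad = squareDodecad) ∧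
      (ppm gEl * s * (ppm gEl)⁻¹) none = none
    refine ⟨⟨M24.mul_mem (M24.mul_mem hgM hs1) (M24.inv_mem hgM), ?_⟩, ?_⟩
    · rw [mul_smul, mul_smul, gEl_inv_smul, smul_compl hs2, gEl_smul2]
    · simp only [Equiv.Perm.mul_apply, hgi, hs3, hg0]
  · rintro ⟨⟨hx1, hx2⟩, hx3⟩
    refine ⟨(ppm gEl)⁻¹ * x * ppm gEl, ?_, ?_⟩
    · refine mem_M11.2 ⟨⟨M24.mul_mem (M24.mul_mem (M24.inv_mem hgM) hx1) hgM, ?_⟩, ?_⟩
      · rw [mul_smul, mul_smul, gEl_smul, smul_compl hx2, gEl_inv_smul2]
      · simp only [Equiv.Perm.mul_apply, hg0, hx3, hgi]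
    · show ppm gEl * ((ppm gEl)⁻¹ * x * ppm gEl) * (ppm gEl)⁻¹ = x
      group

/-- Inside the stabiliser of the dodecad of squares (a Mathieu group of degree 12), the stabiliser of the residue 0 (a point of the dodecad) and the stabiliser of the extra point (a point outside the dodecad) are isomorphic but not conjugate; conjugation by a suitable element of the code's group that maps the dodecad of squares onto its complement carries the first onto the second. -/
theorem result : Nonempty (↥(Cfsg.Spor.M12 ⊓ MulAction.stabilizer (Equiv.Perm Cfsg.GolayPt) (none : Cfsg.GolayPt)) ≃* ↥Cfsg.Spor.M11) ∧ (¬ ∃ k ∈ Cfsg.Spor.M12, MulAut.conj k • Cfsg.Spor.M11 = Cfsg.Spor.M12 ⊓ MulAction.stabilizer (Equiv.Perm Cfsg.GolayPt) (none : Cfsg.GolayPt)) ∧ ∃ g ∈ Cfsg.M24, g • Cfsg.Spor.squareDodecad = Finset.univ \ Cfsg.Spor.squareDodecad ∧ MulAut.conj g • Cfsg.Spor.M11 = Cfsg.Spor.M12 ⊓ MulAction.stabilizer (Equiv.Perm Cfsg.GolayPt) (none : Cfsg.GolayPt) := by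
  refine ⟨?_, ?_, ppm gEl, vld_mem gEl_vld, gEl_smul, conj_eq⟩
  · rw [← conj_eq]
    exact ⟨(Subgroup.equivSMul (MulAut.conj (ppm gEl)) M11).symm⟩
  · rintro ⟨k, hk, hconj⟩
    obtain ⟨hk1, hk2⟩ := mem_M12.1 hk
    have hbB : ppm bEl ∈ M12 ⊓ MulAction.stabilizer (Equiv.Perm GolayPt) (none : GolayPt) := by
      refine mem_B.2 ⟨⟨vld_mem bEl_vld, ?_⟩, ?_⟩
      · rw [sq_eq, img_finOf (vld_code bEl_vld), bEl_img]
      · have := code_pt (vld_code bEl_vld) (i := 23) (by norm_num)
        rw [bEl_none] at this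
        exact this
    rw [← hconj, Subgroup.mem_smul_pointwise_iff_exists] at hbB
    obtain ⟨s, hs, hse⟩ := hbB
    obtain ⟨⟨_, _⟩, hs3⟩ := mem_M11.1 hs
    have hse' : k * s * k⁻¹ = ppm bEl := hse
    have hfix : ppm bEl (k (some 0)) = k (some 0) := by
      rw [← hse']
      simp [hs3]
    have hin : k (some 0) ∈ squareDodecad := by
      rw [← hk2]
      refine Finset.mem_smul_finset.2 ⟨some 0, ?_, rfl⟩
      rw [sq_eq]
      decide +kernel
    have h5 := (allBelow_iff _ _).1 bEl_nofix (idx (k (some 0))) (idx_lt _)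
    have h6 : tb 340831 (idx (k (some 0))) = true := by
      rw [tb_eq]
      rw [sq_eq] at hin
      simpa using hin
    have h7 : Nat.beq (pc bEl (idx (k (some 0)))) (idx (k (some 0))) = true := by
      have h8 := vld_code bEl_vld (k (some 0))
      simp only [enc_idx] at h8
      rw [h8, hfix]
      exact Nat.beq_refl _
    rw [h6, h7] at h5
    simp at h5

end Cfsg.Agent.S5620
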