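import Cfsg.Statements.S5625
import Cfsg.Agent.Lib.ThreeT.Steiner
import Mathlib

set_option autoImplicit false
open Cfsg

namespace Cfsg.Agent.S5625

open Finset Cfsg.Agent.Lib.ThreeT

/-- In any Steiner system S(5, 8, 24) and for any set Y of three points, the blocks meeting Y in exactly 3, 2, 1 and 0 points number 21, 168, 360 and 210 respectively (so there are 759 blocks in all). -/
theorem result (α : Type*) [Fintype α] [DecidableEq α] (hα : Fintype.card α = 24) (B : Set (Finset α)) (hB : Cfsg.IsSteinerSystem 5 8 B) (Y : Finset α) (hY : Y.card = 3) : {b : Finset α | b ∈ B ∧ (b ∩ Y).card = 3}.ncard = 21 ∧ {b : Finset α | b ∈ B ∧ (b ∩ Y).card = 2}.ncard = 168 ∧ {b : Finset α | b ∈ B ∧ (b ∩ Y).card = 1}.ncard = 360 ∧ {b : Finset α | b ∈ B ∧ (b ∩ Y).card = 0}.ncard = 210 := by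
  classical
  obtain ⟨BF, hBF⟩ : ∃ BF : Finset (Finset α), ∀ b, b ∈ BF ↔ b ∈ B :=
    ⟨(Set.toFinite B).toFinset, fun b => by simp⟩
  have h1 : ∀ b ∈ BF, b.card = 8 := fun b hb => hB.1 b ((hBF b).1 hb)
  have h2 : ∀ s : Finset α, s.card = 5 → ∃! b, b ∈ BF ∧ s ⊆ b := by
    intro s hs
    obtain ⟨b, hb, hu⟩ := hB.2 s hs
    refine ⟨b, ⟨(hBF b).2 hb.1, hb.2⟩, ?_⟩
    intro c hc
    exact hu c ⟨(hBF c).1 hc.1, hc.2⟩
  have lam : ∀ S : Finset α, S.card ≤ 5 → (BF.filter (fun b => S ⊆ b)).card * (8 - S.card).choose (5 - S.card) =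
      (24 - S.card).choose (5 - S.card) := by
    intro S hS
    have := steiner_lambda 5 8 BF h1 h2 S hS (by norm_num)
    rwa [hα] at this
  have lam0 : ∀ S : Finset α, S.card = 0 → (BF.filter (fun b => S ⊆ b)).card = 759 := by
    intro S hS
    have := lam S (by omega)
    rw [hS] at this
    have h3 : Nat.choose 8 5 = 56 := by decide
    have h4 : Nat.choose 24 5 = 42504 := by decide
    simp only [Nat.sub_zero, h3, h4] at this
    omega
  have lam1 : ∀ S : Finset α, S.card = 1 → (BF.filter (fun b => S ⊆ b)).card = 253 := by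
    intro S hS
    have := lam S (by omega)
    rw [hS] at this
    have h3 : Nat.choose 7 4 = 35 := by decide
    have h4 : Nat.choose 23 4 = 8855 := by decide
    simp only [show 8 - 1 = 7 from rfl, show 5 - 1 = 4 from rfl, show 24 - 1 = 23 from rfl, h3, h4] at this
    omega
  have lam2 : ∀ S : Finset α, S.card = 2 → (BF.filter (fun b => S ⊆ b)).card = 77 := by
    intro S hS
    have := lam S (by omega)
    rw [hS] at this
    have h3 : Nat.choose 6 3 = 20 := by decide
    have h4 : Nat.choose 22 3 = 1540 := by decide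
    simp only [show 8 - 2 = 6 from rfl, show 5 - 2 = 3 from rfl, show 24 - 2 = 22 from rfl, h3, h4] at this
    omega
  have lam3 : ∀ S : Finset α, S.card = 3 → (BF.filter (fun b => S ⊆ b)).card = 21 := by
    intro S hS
    have := lam S (by omega)
    rw [hS] at this
    have h3 : Nat.choose 5 2 = 10 := by decide
    have h4 : Nat.choose 21 2 = 210 := by decide
    simp only [show 8 - 3 = 5 from rfl, show 5 - 3 = 2 from rfl, show 24 - 3 = 21 from rfl, h3, h4] at this
    omega
  -- the sums
  have hsum : ∀ j, (∀ S : Finset α, S.card = j → (BF.filter (fun b => S ⊆ b)).card = (if j = 0 then 759 else if j = 1 then 253 else if j = 2 then 77 else 21)) →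
      ∑ b ∈ BF, ((b ∩ Y).card).choose j = (Nat.choose 3 j) * (if j = 0 then 759 else if j = 1 then 253 else if j = 2 then 77 else 21) := by
    intro j hj
    rw [sum_choose_inter]
    rw [Finset.sum_congr rfl (fun P hP => hj P (mem_powersetCard.1 hP).2)]
    rw [sum_const, card_powersetCard, hY, smul_eq_mul]
  have hs0 := hsum 0 (by simpa using lam0)
  have hs1 := hsum 1 (by simpa using lam1)
  have hs2 := hsum 2 (by simpa using lam2)
  have hs3 := hsum 3 (by simpa using lam3)
  -- fiberwise
  have hle : ∀ b ∈ BF, (b ∩ Y).card ∈ Finset.range 4 := by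
    intro b _
    have := card_le_card (inter_subset_right (s₁ := b) (s₂ := Y))
    rw [mem_range]; omega
  have hfib : ∀ j, ∑ b ∈ BF, ((b ∩ Y).card).choose j =
      ∑ k ∈ Finset.range 4, (BF.filter (fun b => (b ∩ Y).card = k)).card * k.choose j := by
    intro j
    rw [← Finset.sum_fiberwise_of_maps_to hle]
    apply Finset.sum_congr rfl
    intro k _
    rw [Finset.sum_congr rfl (g := fun _ => k.choose j)]
    · rw [sum_const, smul_eq_mul]
    · intro b hb
      rw [(mem_filter.1 hb).2]
  have hset : ∀ k, {b : Finset α | b ∈ B ∧ (b ∩ Y).card = k}.ncard = (BF.filter (fun b => (b ∩ Y).card = k)).card := by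
    intro k
    rw [← Set.ncard_coe_finset]
    congr 1
    ext b
    simp [hBF]
  rw [hset, hset, hset, hset]
  rw [hfib] at hs0 hs1 hs2 hs3
  simp only [Finset.sum_range_succ, Finset.sum_range_zero, zero_add] at hs0 hs1 hs2 hs3
  generalize (BF.filter (fun b => (b ∩ Y).card = 0)).card = n0 at *
  generalize (BF.filter (fun b => (b ∩ Y).card = 1)).card = n1 at *
  generalize (BF.filter (fun b => (b ∩ Y).card = 2)).card = n2 at *
  generalize (BF.filter (fun b => (b ∩ Y).card = 3)).card = n3 at *
  norm_num [Nat.choose] at hs0 hs1 hs2 hs3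
  omega

end Cfsg.Agent.S5625
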