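import Cfsg.Statements.S5627
import Cfsg.Agent.Lib.ThreeT.Plane4Count

set_option autoImplicit false
open Cfsg

namespace Cfsg.Agent.S5627

/-- In a projective plane of order 4 (a Steiner system S(2, 5, 21)), call a set of points independent when no line meets it in more than two points. There are exactly 2520 independent 4-sets and exactly 168 independent 6-sets (hyperovals), and every independent 4-set lies in exactly one hyperoval. -/
theorem result {α : Type*} [Fintype α] [DecidableEq α] (hα : Fintype.card α = 21) (L : Set (Finset α)) (hL : Cfsg.IsSteinerSystem 2 5 L) : {S : Finset α | (S.card = 4 ∧ ∀ l ∈ L, (l ∩ S).card ≤ 2)}.ncard = 2520 ∧ {H : Finset α | (H.card = 6 ∧ ∀ l ∈ L, (l ∩ H).card ≤ 2)}.ncard = 168 ∧ ∀ S : Finset α, (S.card = 4 ∧ ∀ l ∈ L, (l ∩ S).card ≤ 2) → ∃! H : Finset α, (H.card = 6 ∧ ∀ l ∈ L, (l ∩ H).card ≤ 2) ∧ S ⊆ H := by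
  refine ⟨?_, ?_, ?_⟩
  · have h : {S : Finset α | (S.card = 4 ∧ ∀ l ∈ L, (l ∩ S).card ≤ 2)} = ↑(Lib.ThreeT.Plane4.I4 L) := by
      ext S
      simp only [Set.mem_ofPred_eq, Finset.mem_coe, Lib.ThreeT.Plane4.mem_I4]
      rfl
    rw [h, Set.ncard_coe_finset, Lib.ThreeT.Plane4.card_I4 hL hα]
  · have h : {S : Finset α | (S.card = 6 ∧ ∀ l ∈ L, (l ∩ S).card ≤ 2)} = ↑(Lib.ThreeT.Plane4.H6 L) := by
      ext S
      simp only [Set.mem_ofPred_eq, Finset.mem_coe, Lib.ThreeT.Plane4.mem_H6]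
      rfl
    rw [h, Set.ncard_coe_finset, Lib.ThreeT.Plane4.card_H6 hL hα]
  · rintro S ⟨h4, hind⟩
    obtain ⟨h1, h2⟩ := Lib.ThreeT.Plane4.hyp_of_four hL hα h4 hind
    refine ⟨S ∪ Lib.ThreeT.Plane4.EE L S, ⟨⟨h1, h2⟩, Finset.subset_union_left⟩, ?_⟩
    rintro H ⟨⟨hH, hIH⟩, hSH⟩
    exact Lib.ThreeT.Plane4.hyp_unique hL hα h4 hind hH hIH hSH

end Cfsg.Agent.S5627
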