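import Cfsg.Statements.S5628
import Cfsg.Agent.Lib.ThreeT.Plane4Model

set_option autoImplicit false
open Cfsg

namespace Cfsg.Agent.S5628

/-- In a projective plane of order 4 (a Steiner system S(2, 5, 21)), every permutation of the six points of a hyperoval (a 6-set met by no line in more than two points) is the restriction of exactly one automorphism of the plane. In particular the stabiliser of a hyperoval in the automorphism group is isomorphic to the symmetric group of degree 6 acting faithfully on the hyperoval. -/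
theorem result {α : Type*} [Fintype α] [DecidableEq α] (hα : Fintype.card α = 21) (L : Set (Finset α)) (hL : Cfsg.IsSteinerSystem 2 5 L) (H : Finset α) (hH : (H.card = 6 ∧ ∀ l ∈ L, (l ∩ H).card ≤ 2)) (σ : Equiv.Perm ↥H) : ∃! g : Equiv.Perm α, g ∈ Cfsg.setSystemAut L ∧ ∀ p : ↥H, g p = σ p := by
  obtain ⟨hH6, hI⟩ := hH
  have hf : Nonempty (↥H ≃ Fin 6) := ⟨Fintype.equivFinOfCardEq (by simp [hH6])⟩
  obtain ⟨f⟩ := hf
  obtain ⟨e₁, he₁, hM₁⟩ := Lib.ThreeT.Plane4.exists_model hL hα hH6 hI f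
  obtain ⟨e₂, he₂, hM₂⟩ := Lib.ThreeT.Plane4.exists_model hL hα hH6 hI (σ.symm.trans f)
  refine ⟨e₁.trans e₂.symm, ⟨?_, ?_⟩, ?_⟩
  · rw [Lib.ThreeT.Plane4.mem_aut_iff]
    exact Lib.ThreeT.Plane4.iso_of_models e₁ e₂ hM₁ hM₂
  · intro p
    have h1 := he₁ p
    have h2 := he₂ (σ p)
    simp only [Equiv.trans_apply, Equiv.symm_apply_apply] at h2
    simp only [Equiv.trans_apply]
    rw [h1, ← h2, Equiv.symm_apply_apply]
  · rintro g ⟨hg, hgσ⟩
    -- both restrict to `σ`
    set g₀ : Equiv.Perm α := e₁.trans e₂.symm with hg₀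
    have hg₀mem : g₀ ∈ Cfsg.setSystemAut L := by
      rw [Lib.ThreeT.Plane4.mem_aut_iff]
      exact Lib.ThreeT.Plane4.iso_of_models e₁ e₂ hM₁ hM₂
    have hg₀σ : ∀ p : ↥H, g₀ p = σ p := by
      intro p
      have h1 := he₁ p
      have h2 := he₂ (σ p)
      simp only [Equiv.trans_apply, Equiv.symm_apply_apply] at h2
      simp only [hg₀, Equiv.trans_apply]
      rw [h1, ← h2, Equiv.symm_apply_apply]
    have hmem : g₀⁻¹ * g ∈ Cfsg.setSystemAut L := mul_mem (inv_mem hg₀mem) hg
    have h1 := Lib.ThreeT.Plane4.aut_fix hL hα hH6 hI hmem (by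
      intro p hp
      rw [Equiv.Perm.mul_apply, hgσ ⟨p, hp⟩, ← hg₀σ ⟨p, hp⟩]
      simp)
    have h2 : g = g₀ := by
      have := congrArg (fun t => g₀ * t) h1
      simpa using this
    exact h2

end Cfsg.Agent.S5628
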