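import Cfsg.Statements.S5631
import Mathlib
import Cfsg.Agent.Lib.Geo.Parabolic

set_option autoImplicit false

namespace Cfsg.Agent.S5631

theorem result {F : Type*} [Field F] [Fintype F] (n : ℕ) (hn : 13 ≤ n) (W : Submodule F (Fin n → F)) (hW0 : W ≠ ⊥) (hW1 : W ≠ ⊤) : Cfsg.Geo.IsMaximalIn (Cfsg.Geo.specialLinear (Fin n) F) (Cfsg.Geo.subspaceStabilizer W ⊓ Cfsg.Geo.specialLinear (Fin n) F) :=
  Lib.Geo.isMaximalIn_stab (by simpa using by omega) hW0 hW1

end Cfsg.Agent.S5631
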