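import Cfsg.Statements.S5632
import Mathlib
import Cfsg.Agent.Lib.Geo.Transv

set_option autoImplicit false

namespace Cfsg.Agent.S5632

open Cfsg.Agent.Lib.Geo Module

theorem result {F : Type*} [Field F] [Fintype F] (n : ℕ) (W U : Submodule F (Fin n → F)) (hW0 : W ≠ ⊥) (hWU : W < U) (hdim : Module.finrank F W + Module.finrank F U = n) : ∃ K : Subgroup (Matrix.GeneralLinearGroup (Fin n) F), Cfsg.Geo.subspaceStabilizer W ⊓ Cfsg.Geo.subspaceStabilizer U ⊓ Cfsg.Geo.specialLinear (Fin n) F < K ∧ K < Cfsg.Geo.specialLinear (Fin n) F := by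
  have hUtop : U ≠ ⊤ := by
    rintro rfl
    rw [finrank_top, finrank_fin_fun] at hdim
    have : finrank F W = 0 := by omega
    exact hW0 (Submodule.finrank_eq_zero.1 this)
  have hWtop : W ≠ ⊤ := fun h => hUtop (top_le_iff.1 (h ▸ hWU.le))
  obtain ⟨u, huU, huW⟩ := SetLike.exists_of_lt hWU
  obtain ⟨v, hv⟩ : ∃ v, v ∉ U := by
    by_contra hcon
    push Not at hcon
    exact hUtop (eq_top_iff.2 fun x _ => hcon x)
  have hu' : u ∉ W ⊔ Submodule.span F {v} := by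
    intro hmem
    obtain ⟨w, hw, y, hy, hwy⟩ := Submodule.mem_sup.1 hmem
    obtain ⟨c, rfl⟩ := Submodule.mem_span_singleton.1 hy
    by_cases hc : c = 0
    · subst hc
      rw [zero_smul, add_zero] at hwy
      exact huW (hwy ▸ hw)
    · apply hv
      have h1 : c • v ∈ U := by
        have := U.sub_mem huU (hWU.le hw)
        rwa [← hwy, add_sub_cancel_left] at this
      exact (U.smul_mem_iff hc).1 h1
  obtain ⟨g₁, hg₁, hg₁W, hg₁U⟩ := exists_stab_not_stab huU hv hu'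
  obtain ⟨g₂, hg₂, hg₂W⟩ := exists_SL_not_stab hW0 hWtop
  refine ⟨Cfsg.Geo.subspaceStabilizer W ⊓ Cfsg.Geo.specialLinear (Fin n) F, ?_, ?_⟩
  · rw [SetLike.lt_iff_le_and_exists]
    exact ⟨fun x hx => ⟨hx.1.1, hx.2⟩, g₁, ⟨hg₁W, hg₁⟩, fun h => hg₁U h.1.2⟩
  · rw [SetLike.lt_iff_le_and_exists]
    exact ⟨inf_le_right, g₂, hg₂, fun h => hg₂W h.1⟩

end Cfsg.Agent.S5632
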