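import Cfsg.Statements.S5633
import Mathlib
import Cfsg.Agent.Lib.Geo.Transv

set_option autoImplicit false

namespace Cfsg.Agent.S5633

open Cfsg.Agent.Lib.Geo Module

theorem result {F : Type*} [Field F] [Fintype F] (n : ℕ) (W U : Submodule F (Fin n → F)) (hW0 : W ≠ ⊥) (hWU : W ⊓ U = ⊥) (hWU' : W ⊔ U = ⊤) (hdim : Module.finrank F W < Module.finrank F U) : ∃ K : Subgroup (Matrix.GeneralLinearGroup (Fin n) F), Cfsg.Geo.subspaceStabilizer W ⊓ Cfsg.Geo.subspaceStabilizer U ⊓ Cfsg.Geo.specialLinear (Fin n) F < K ∧ K < Cfsg.Geo.specialLinear (Fin n) F := by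
  have hUbot : U ≠ ⊥ := by
    rintro rfl
    rw [finrank_bot] at hdim
    omega
  have hWtop : W ≠ ⊤ := by
    rintro rfl
    rw [top_inf_eq] at hWU
    exact hUbot hWU
  obtain ⟨u, huU, hu0⟩ := (Submodule.ne_bot_iff U).1 hUbot
  obtain ⟨w, hwW, hw0⟩ := (Submodule.ne_bot_iff W).1 hW0
  have hdisj : ∀ x, x ∈ W → x ∈ U → x = 0 := by
    intro x h1 h2
    have : x ∈ W ⊓ U := ⟨h1, h2⟩
    rw [hWU] at this
    exact this
  have hwU : w ∉ U := fun h => hw0 (hdisj w hwW h)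
  have hu' : u ∉ W ⊔ Submodule.span F {w} := by
    rw [sup_eq_left.2 ((Submodule.span_singleton_le_iff_mem _ _).2 hwW)]
    exact fun h => hu0 (hdisj u h huU)
  obtain ⟨g₁, hg₁, hg₁W, hg₁U⟩ := exists_stab_not_stab huU hwU hu'
  obtain ⟨g₂, hg₂, hg₂W⟩ := exists_SL_not_stab hW0 hWtop
  refine ⟨Cfsg.Geo.subspaceStabilizer W ⊓ Cfsg.Geo.specialLinear (Fin n) F, ?_, ?_⟩
  · rw [SetLike.lt_iff_le_and_exists]
    exact ⟨fun x hx => ⟨hx.1.1, hx.2⟩, g₁, ⟨hg₁W, hg₁⟩, fun h => hg₁U h.1.2⟩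
  · rw [SetLike.lt_iff_le_and_exists]
    exact ⟨inf_le_right, g₂, hg₂, fun h => hg₂W h.1⟩

end Cfsg.Agent.S5633
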