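import Cfsg.Statements.S5634
import Mathlib
import Cfsg.Agent.Lib.Geo.SLDec3

set_option autoImplicit false

namespace Cfsg.Agent.S5634

open Cfsg.Agent.Lib.Geo

theorem result {F : Type*} [Field F] [Fintype F] (n : ℕ) (hn : 13 ≤ n) {t : ℕ} (m : ℕ) (D : Fin t → Submodule F (Fin n → F)) (hD : Cfsg.Geo.IsMDecomposition m D) (h1 : ¬ (m = 1 ∧ Fintype.card F ≤ 4)) (h2 : ¬ (m = 2 ∧ Fintype.card F = 2)) : Cfsg.Geo.IsMaximalIn (Cfsg.Geo.specialLinear (Fin n) F) (Cfsg.Geo.decompositionStabilizer D ⊓ Cfsg.Geo.specialLinear (Fin n) F) := by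
  classical
  have hk := hD.finrank_eq
  have hcard := card_eq_of_decomp hD.indep hD.iSup_eq_top hk
  rw [Fintype.card_fin] at hcard
  refine ⟨SD.stab_lt hk hD.pos hD.two_le hD.indep hD.iSup_eq_top, fun M hHM hMS => ?_⟩
  by_cases hle : M ≤ Cfsg.Geo.decompositionStabilizer D ⊓ Cfsg.Geo.specialLinear (Fin n) F
  · exact Or.inl (le_antisymm hle hHM)
  right
  refine le_antisymm hMS ?_
  obtain ⟨g, hg, hgn⟩ := SetLike.not_le_iff_exists.1 hle
  have hgs : g ∉ Cfsg.Geo.decompositionStabilizer D := fun h => hgn ⟨h, hMS hg⟩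
  have hF : 2 ≤ Fintype.card F := by
    have := Fintype.one_lt_card (α := F)
    omega
  by_cases hm1 : m = 1
  · subst hm1
    have hq : 5 ≤ Fintype.card F := by
      by_contra h
      exact h1 ⟨rfl, by omega⟩
    refine SD.sl_le_of_not_stab1 hq (by simpa using hn) hk hD.indep hD.iSup_eq_top hHM hg hgs
  have hm2 : 2 ≤ m := by
    have := hD.pos
    omega
  refine SD.sl_le_of_not_stab hk hm2 hD.indep hD.iSup_eq_top hHM ?_ hg hgs (by simp; omega)
  by_cases hm3 : 3 ≤ m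
  · exact Or.inl hm3
  right
  have hm' : m = 2 := by omega
  subst hm'
  have hq : 3 ≤ Fintype.card F := by
    by_contra h
    exact h2 ⟨rfl, by omega⟩
  refine ⟨by omega, ?_⟩
  exact MN.exists_b hq

end Cfsg.Agent.S5634
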