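import Cfsg.Statements.S5635
import Mathlib
import Cfsg.Agent.Lib.Geo.SLBlocksSmall

set_option autoImplicit false

namespace Cfsg.Agent.S5635

open Cfsg.Agent.Lib.Geo Cfsg.Agent.Lib.Classical

theorem result {F : Type*} [Field F] [Fintype F] (n : ℕ) (hn : 13 ≤ n) {t : ℕ} (m : ℕ) (D : Fin t → Submodule F (Fin n → F)) (hD : Cfsg.Geo.IsMDecomposition m D) (h : (m = 1 ∧ Fintype.card F ≤ 4) ∨ (m = 2 ∧ Fintype.card F = 2)) : ∃ K : Subgroup (Matrix.GeneralLinearGroup (Fin n) F), Cfsg.Geo.decompositionStabilizer D ⊓ Cfsg.Geo.specialLinear (Fin n) F < K ∧ K < Cfsg.Geo.specialLinear (Fin n) F := by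
  exact small_blocks_not_max (by simpa using hn) hD h

end Cfsg.Agent.S5635
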