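import Cfsg.Statements.S5638
import Mathlib
import Cfsg.Agent.Lib.Geo.TensorTwo

set_option autoImplicit false

namespace Cfsg.Agent.S5638

open Cfsg.Agent.Lib.Geo Cfsg.Agent.Lib.Classical

theorem result {F : Type*} [Field F] [Fintype F] (n : ℕ) (hn : 13 ≤ n) (hq : Fintype.card F = 2) (n₂ : ℕ) (e : Fin n ≃ Fin 2 × Fin n₂) (P : Matrix.GeneralLinearGroup (Fin n) F) : ∃ K : Subgroup (Matrix.GeneralLinearGroup (Fin n) F), Cfsg.Geo.tensorProductSubgroup 2 n₂ e P ⊓ Cfsg.Geo.specialLinear (Fin n) F < K ∧ K < Cfsg.Geo.specialLinear (Fin n) F := by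
  exact tensor2_not_max hq (by simpa using hn) e P

end Cfsg.Agent.S5638
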