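import Cfsg.Statements.S5639
import Mathlib
import Cfsg.Agent.Lib.Geo.SubfieldSL

set_option autoImplicit false

namespace Cfsg.Agent.S5639

open Cfsg.Agent.Lib.Geo

theorem result {F : Type*} [Field F] [Fintype F] (n : ℕ) (hn : 13 ≤ n) (F₀ : Subfield F) (r : ℕ) (hr : r.Prime) (hcard : Fintype.card F = Nat.card F₀ ^ r) (P : Matrix.GeneralLinearGroup (Fin n) F) : Cfsg.Geo.IsMaximalIn (Cfsg.Geo.specialLinear (Fin n) F) (Cfsg.Geo.subfieldSubgroup F₀ P ⊓ Cfsg.Geo.specialLinear (Fin n) F) := by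
  exact isMaximalIn_sl_subfield (by simpa using (by omega : 4 ≤ n)) F₀ hr hcard P

end Cfsg.Agent.S5639
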