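import Cfsg.Statements.S5642
import Mathlib
import Cfsg.Agent.Lib.Geo.SympSim

set_option autoImplicit false

namespace Cfsg.Agent.S5642

theorem result {F : Type*} [Field F] [Fintype F] (n : ℕ) (hn : 13 ≤ n) (f : (Fin n → F) → (Fin n → F) → F) (hf : Cfsg.Geo.IsSymplecticForm f) : Cfsg.Geo.IsMaximalIn (Cfsg.Geo.specialLinear (Fin n) F) (Cfsg.Geo.similarityGroup f ⊓ Cfsg.Geo.specialLinear (Fin n) F) :=
  Cfsg.Agent.Lib.Geo.isMaximalIn_sim (by simp; omega) hf

end Cfsg.Agent.S5642
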