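import Cfsg.Statements.S5643
import Mathlib
import Cfsg.Agent.Lib.Geo.UnitarySim

set_option autoImplicit false

namespace Cfsg.Agent.S5643

open Cfsg.Agent.Lib.Geo

theorem result {F : Type*} [Field F] [Fintype F] (n : ℕ) (hn : 13 ≤ n) (σ : F ≃+* F) (f : (Fin n → F) → (Fin n → F) → F) (hf : Cfsg.Geo.IsUnitaryForm σ f) : Cfsg.Geo.IsMaximalIn (Cfsg.Geo.specialLinear (Fin n) F) (Cfsg.Geo.similarityGroup f ⊓ Cfsg.Geo.specialLinear (Fin n) F) := by
  have hS : SForm (σ : F →+* F) f :=
    { inv := hf.involutive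
      add_left := hf.add_left
      smul_left := hf.smul_left
      herm := hf.herm
      nd := fun v hv => (hf.nondegenerate v hv).1 }
  refine isMaximalIn_unitary_sim hS ?_ (by simpa using hn)
  intro h
  apply hf.ne_refl
  ext x
  exact congrArg (fun τ : F →+* F => τ x) h

end Cfsg.Agent.S5643
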