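import Cfsg.Statements.S5644
import Mathlib
import Cfsg.Agent.Lib.Geo.OrthSim

set_option autoImplicit false

namespace Cfsg.Agent.S5644

open Cfsg.Agent.Lib.Geo

theorem result {F : Type*} [Field F] [Fintype F] (n : ℕ) (hn : 13 ≤ n) (hodd : Odd (Fintype.card F)) (Q : (Fin n → F) → F) (hQ : Cfsg.Geo.IsNondegenerateQuadraticForm Q) : Cfsg.Geo.IsMaximalIn (Cfsg.Geo.specialLinear (Fin n) F) (Cfsg.Geo.quadSimilarityGroup Q ⊓ Cfsg.Geo.specialLinear (Fin n) F) := by
  have h2 : (2 : F) ≠ 0 := by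
    intro h
    haveI : CharP F 2 := CharTwo.of_one_ne_zero_of_two_eq_zero one_ne_zero h
    have h3 : ringChar F = 2 := ringChar.eq F 2
    have h4 := FiniteField.even_card_iff_char_two.1 h3
    exact (Nat.not_even_iff_odd.2 hodd) (Nat.even_iff.2 h4)
  exact isMaximalIn_orth_sim hQ h2 (by simpa using hn)

end Cfsg.Agent.S5644
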