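import Cfsg.Statements.S5646
import Mathlib
import Cfsg.Agent.Lib.Geo.SympMax

set_option autoImplicit false

namespace Cfsg.Agent.S5646

theorem result {F : Type*} [Field F] [Fintype F] (m : ℕ) (hm : 7 ≤ m) (W : Submodule F (Fin m ⊕ Fin m → F)) (hW0 : W ≠ ⊥) (hW : Cfsg.Geo.IsNondegenerateOn (Cfsg.sympForm m F) W) (hdim : Module.finrank F W < m) : Cfsg.Geo.IsMaximalIn (Cfsg.spGL m F) (Cfsg.Geo.subspaceStabilizer W ⊓ Cfsg.spGL m F) :=
  Lib.Geo.isMaximalIn_stab_nondeg hW0 (fun w hw h0 => (hW w hw h0).2) hdim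

end Cfsg.Agent.S5646
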