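import Cfsg.Statements.S5647
import Mathlib
import Cfsg.Agent.Lib.Geo.SympDecomp

set_option autoImplicit false

namespace Cfsg.Agent.S5647

open Cfsg.Agent.Lib.Geo

theorem result {F : Type*} [Field F] [Fintype F] (m : ℕ) (hm : 7 ≤ m) {t : ℕ} (k : ℕ) (D : Fin t → Submodule F (Fin m ⊕ Fin m → F)) (hD : Cfsg.Geo.IsNondegenerateMDecomposition (Cfsg.sympForm m F) k D) (hex : ¬ (k = 2 ∧ Fintype.card F = 2)) : Cfsg.Geo.IsMaximalIn (Cfsg.spGL m F) (Cfsg.Geo.decompositionStabilizer D ⊓ Cfsg.spGL m F) :=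
  isMaximalIn_symp_decomp hD hex

end Cfsg.Agent.S5647
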