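import Cfsg.Statements.S5648
import Mathlib
import Cfsg.Agent.Lib.Geo.SympBlocks2

set_option autoImplicit false

namespace Cfsg.Agent.S5648

open Cfsg.Agent.Lib.Geo Cfsg.Agent.Lib.Classical

theorem result {F : Type*} [Field F] [Fintype F] (m : ℕ) (hm : 7 ≤ m) (hq : Fintype.card F = 2) {t : ℕ} (D : Fin t → Submodule F (Fin m ⊕ Fin m → F)) (hD : Cfsg.Geo.IsNondegenerateMDecomposition (Cfsg.sympForm m F) 2 D) : ∃ K : Subgroup (Matrix.GeneralLinearGroup (Fin m ⊕ Fin m) F), Cfsg.Geo.decompositionStabilizer D ⊓ Cfsg.spGL m F < K ∧ K < Cfsg.spGL m F := by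
  exact sympBlocks2_not_max hq hm hD

end Cfsg.Agent.S5648
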