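import Cfsg.Statements.S5649
import Mathlib
import Cfsg.Agent.Lib.Geo.SympPair

set_option autoImplicit false

namespace Cfsg.Agent.S5649

open Cfsg.Agent.Lib.Geo

theorem result {F : Type*} [Field F] [Fintype F] (m : ℕ) (hm : 7 ≤ m) (hodd : Odd (Fintype.card F)) (D : Fin 2 → Submodule F (Fin m ⊕ Fin m → F)) (hD : Cfsg.Geo.IsMDecomposition m D) (hts : ∀ i, Cfsg.Geo.IsTotallySingularFor (Cfsg.sympForm m F) (D i)) : Cfsg.Geo.IsMaximalIn (Cfsg.spGL m F) (Cfsg.Geo.decompositionStabilizer D ⊓ Cfsg.spGL m F) := by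
  have h2 : (2 : F) ≠ 0 := by
    intro h
    haveI : CharP F 2 := CharTwo.of_one_ne_zero_of_two_eq_zero one_ne_zero h
    have h3 : ringChar F = 2 := ringChar.eq F 2
    have h4 := FiniteField.even_card_iff_char_two.1 h3
    exact (Nat.not_even_iff_odd.2 hodd) (Nat.even_iff.2 h4)
  exact isMaximalIn_symp_pair (by omega) h2 hD hts

end Cfsg.Agent.S5649
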