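import Cfsg.Statements.S5652
import Mathlib
import Cfsg.Agent.Lib.Geo.OrthEven

set_option autoImplicit false

namespace Cfsg.Agent.S5652

open Cfsg.Agent.Lib.Geo

theorem result {F : Type*} [Field F] [Fintype F] (m : ℕ) (hm : 7 ≤ m) (heven : ¬ Odd (Fintype.card F)) (Q : (Fin m ⊕ Fin m → F) → F) (hQ : Cfsg.Geo.IsNondegenerateQuadraticForm Q) (hpol : ∀ u v, QuadraticMap.polar Q u v = Cfsg.sympForm m F u v) : Cfsg.Geo.IsMaximalIn (Cfsg.spGL m F) (Cfsg.Geo.quadSimilarityGroup Q ⊓ Cfsg.spGL m F) := by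
  classical
  have hch : ringChar F = 2 := by
    rw [FiniteField.even_card_iff_char_two]
    exact Nat.even_iff.1 (Nat.not_odd_iff_even.1 heven)
  haveI : CharP F 2 := hch ▸ ringChar.charP F
  have h2 : (2 : F) = 0 := CharP.cast_eq_zero F 2
  have hsq : ∀ a : F, ∃ s : F, s * s = a := by
    intro a
    obtain ⟨s, hs⟩ := FiniteField.isSquare_of_char_two (F := F) (by rw [hch]) a
    exact ⟨s, hs.symm⟩
  exact isMaximalIn_orth_even hQ hpol h2 hsq (by omega)

end Cfsg.Agent.S5652
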