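import Cfsg.Statements.S5654
import Mathlib
import Cfsg.Agent.Lib.Geo.HermBridge
import Cfsg.Agent.Lib.Geo.SUNondeg

set_option autoImplicit false

namespace Cfsg.Agent.S5654

open Cfsg.Agent.Lib.Geo Cfsg.Agent.Lib.Classical

theorem result {F : Type*} [Field F] [Fintype F] (n q : ℕ) (hF : Fintype.card F = q ^ 2) (hn : 13 ≤ n) (W : Submodule F (Fin n → F)) (hW0 : W ≠ ⊥) (hW : Cfsg.Geo.IsNondegenerateOn (Cfsg.hermForm n F q) W) (hdim : 2 * Module.finrank F W < n) : Cfsg.Geo.IsMaximalIn (Cfsg.GU n F q ⊓ Cfsg.Geo.specialLinear (Fin n) F) (Cfsg.Geo.subspaceStabilizer W ⊓ (Cfsg.GU n F q ⊓ Cfsg.Geo.specialLinear (Fin n) F)) := by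
  rw [GU_eq_uGroup]
  exact isMaximalIn_su_stab_nondeg (herm_sform hF) (conjQ_ne_id hF) (by simpa using hn) hW0
    (fun w hw h0 => (hW w hw h0).1) (by simpa using hdim)

end Cfsg.Agent.S5654
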