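import Cfsg.Statements.S5656
import Mathlib
import Cfsg.Agent.Lib.Geo.SU2Blocks

set_option autoImplicit false

namespace Cfsg.Agent.S5656

open Cfsg.Agent.Lib.Geo Cfsg.Agent.Lib.Classical

theorem result {F : Type*} [Field F] [Fintype F] (n : ℕ) (hF : Fintype.card F = 4) (hn : 13 ≤ n) {t : ℕ} (D : Fin t → Submodule F (Fin n → F)) (hD : Cfsg.Geo.IsNondegenerateMDecomposition (Cfsg.hermForm n F 2) 2 D) : ∃ K : Subgroup (Matrix.GeneralLinearGroup (Fin n) F), Cfsg.Geo.decompositionStabilizer D ⊓ (Cfsg.GU n F 2 ⊓ Cfsg.Geo.specialLinear (Fin n) F) < K ∧ K < (Cfsg.GU n F 2 ⊓ Cfsg.Geo.specialLinear (Fin n) F) := by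
  have hF' : Fintype.card F = 2 ^ 2 := by rw [hF]; norm_num
  rw [GU_eq_uGroup]
  exact su2_blocks_not_max hF (fun x => conjQ_apply hF' x) (herm_sform hF') (by simpa using hn) hD

end Cfsg.Agent.S5656
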