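import Cfsg.Statements.S5658
import Mathlib
import Cfsg.Agent.Lib.Geo.SURat5

set_option autoImplicit false

namespace Cfsg.Agent.S5658

open Cfsg.Agent.Lib.Geo

theorem result {F : Type*} [Field F] [Fintype F] (n q : ℕ) (hF : Fintype.card F = q ^ 2) (hn : 13 ≤ n) (F₀ : Subfield F) (r : ℕ) (hr : r.Prime) (hro : Odd r) (hcard : Fintype.card F = Nat.card F₀ ^ r) (P : Matrix.GeneralLinearGroup (Fin n) F) (hP : Cfsg.Geo.IsFormRationalStructure (Cfsg.hermForm n F q) F₀ 1 P) : Cfsg.Geo.IsMaximalIn (Cfsg.GU n F q ⊓ Cfsg.Geo.specialLinear (Fin n) F) (Cfsg.Geo.subfieldSubgroup F₀ P ⊓ (Cfsg.GU n F q ⊓ Cfsg.Geo.specialLinear (Fin n) F)) := by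
  have hq0 : 1 < q := by
    have h1 : 1 < Fintype.card F := Fintype.one_lt_card
    rw [hF] at h1
    by_contra hcon
    have : q ≤ 1 := by omega
    interval_cases q <;> simp at h1
  have hq1 : 1 < Nat.card F₀ := Finite.one_lt_card
  have hr2 : r ≠ 2 := by
    rintro rfl
    exact absurd hro (by decide)
  have hf := Cfsg.Agent.Lib.Geo.herm_sform (n := n) hF
  have hne := Cfsg.Agent.Lib.Classical.conjQ_ne_id hF
  have hinv := Cfsg.Agent.Lib.Classical.conjQ_conjQ hF
  have hs : ∀ a ∈ F₀, Cfsg.Agent.Lib.Classical.conjQ hF a ∈ F₀ := by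
    intro a ha
    have h1 := (mem_iff_pow_eq (F₀ := F₀) rfl hq1 a).2 ha
    rw [← mem_iff_pow_eq (F₀ := F₀) rfl hq1, Cfsg.Agent.Lib.Classical.conjQ_apply, ← pow_mul, mul_comm, pow_mul, h1]
  have hσ₀ : ∃ e ∈ F₀, Cfsg.Agent.Lib.Classical.conjQ hF e ≠ e := by
    by_contra hcon
    push Not at hcon
    have hle : F₀ ≤ SUR.fixF (Cfsg.Agent.Lib.Classical.conjQ hF) := fun a ha => hcon a ha
    rcases DS.subfield_prime_index hr hcard hle with h | h
    · have h1 := SUR.card_eq_fix_sq (Cfsg.Agent.Lib.Classical.conjQ hF) hinv hne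
      rw [h, Nat.card_eq_fintype_card, hcard] at h1
      exact hr2 (Nat.pow_right_injective hq1 h1)
    · apply hne
      ext x
      have : x ∈ SUR.fixF (Cfsg.Agent.Lib.Classical.conjQ hF) := by rw [h]; trivial
      exact this
  have D : SUR.RD F₀ P (Cfsg.Agent.Lib.Classical.conjQ hF) (Cfsg.hermForm n F q) :=
    { hf := hf
      hs := hs
      hrat := fun x y => by
        have := hP _ _ (fun i => (x i).2) (fun i => (y i).2)
        rw [one_mul] at this
        exact this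
      hσ₀ := hσ₀ }
  rw [GU_eq_uGroup]
  exact SUR.isMaximalIn_su_subfield D (by simpa using hn) hr hr2 hcard hne

end Cfsg.Agent.S5658
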