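import Cfsg.Statements.S5659
import Mathlib
import Cfsg.Agent.Lib.Geo.HermBridge
import Cfsg.Agent.Lib.Geo.SUOrthMax
import Cfsg.Agent.Lib.Geo.OmegaOdd

set_option autoImplicit false

namespace Cfsg.Agent.S5659

open Cfsg.Agent.Lib.Geo Cfsg.Agent.Lib.Classical

theorem result {F : Type*} [Field F] [Fintype F] (n q : ℕ) (hF : Fintype.card F = q ^ 2) (hn : 13 ≤ n) (hodd : Odd q) (F₀ : Subfield F) (hcard : Fintype.card F = Nat.card F₀ ^ 2) (P : Matrix.GeneralLinearGroup (Fin n) F) (hP : Cfsg.Geo.IsFormRationalStructure (Cfsg.hermForm n F q) F₀ 1 P) : Cfsg.Geo.IsMaximalIn (Cfsg.GU n F q ⊓ Cfsg.Geo.specialLinear (Fin n) F) (Cfsg.Geo.subfieldSubgroup F₀ P ⊓ (Cfsg.GU n F q ⊓ Cfsg.Geo.specialLinear (Fin n) F)) := by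
  classical
  have hq0 : 1 < q := by
    have h1 : 1 < Fintype.card F := Fintype.one_lt_card
    rw [hF] at h1
    by_contra hcon
    have : q ≤ 1 := by omega
    interval_cases q <;> simp at h1
  have hq : Nat.card F₀ = q := by
    have h1 : Nat.card F₀ ^ 2 = q ^ 2 := by rw [← hcard, hF]
    exact Nat.pow_left_injective (n := 2) (by norm_num) h1
  have hfix : ∀ a, conjQ hF a = a ↔ a ∈ F₀ := fun a => by
    rw [conjQ_apply]
    exact mem_iff_pow_eq hq hq0 a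
  have h2 : (2 : F) ≠ 0 := two_ne_zero_of_odd_card (by rw [hF]; exact hodd.pow)
  have hf := herm_sform (n := n) hF
  obtain ⟨ω₀, hω₀, hω⟩ := exists_omega (F₀ := F₀) (by rw [Nat.card_eq_fintype_card, hcard]) (by
    rw [Nat.card_eq_fintype_card]; exact Fintype.one_lt_card)
  have hinv := hf.inv
  set σ := conjQ hF with hσ
  have hmem2 : (2⁻¹ : F) ∈ F₀ := inv_mem (by
    have : (2 : F) = ((2 : F₀) : F) := by push_cast; rfl
    rw [this]
    exact (2 : F₀).2)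
  obtain ⟨ω, hω1⟩ : ∃ ω, ω = ω₀ - σ ω₀ := ⟨_, rfl⟩
  have hωσ : σ ω = -ω := by
    rw [hω1, map_sub, hinv]
    ring
  have hω0 : ω ≠ 0 := by
    intro h
    apply hω₀
    rw [← hfix]
    rw [hω1] at h
    exact (sub_eq_zero.1 h).symm
  have hdec : ∀ x : F, ∃ a b : F₀, x = a + ω * b := by
    intro x
    obtain ⟨a, b, rfl⟩ := hω x
    have h3 : 2⁻¹ * (ω₀ + σ ω₀) ∈ F₀ := by
      rw [← hfix, map_mul, map_add, hinv, map_inv₀, map_ofNat]
      ring
    refine ⟨a + (⟨_, h3⟩ : F₀) * b, (⟨2⁻¹, hmem2⟩ : F₀) * b, ?_⟩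
    simp only [Subfield.coe_add, Subfield.coe_mul]
    rw [hω1]
    field_simp
    ring
  obtain ⟨Q₀, S⟩ := exists_RO (F₀ := F₀) (P := P) hf hfix h2 hω0 hωσ hdec (fun u v => by
    have := hP _ _ (fun i => (u i).2) (fun i => (v i).2)
    rwa [one_mul] at this)
  rw [GU_eq_uGroup]
  haveI : Fintype F₀ := Fintype.ofFinite F₀
  exact S.isMaximal (by simpa using hn)

end Cfsg.Agent.S5659
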