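import Cfsg.Statements.S5660
import Mathlib
import Cfsg.Agent.Lib.Geo.HermBridge
import Cfsg.Agent.Lib.Geo.SubfieldSymp

set_option autoImplicit false

namespace Cfsg.Agent.S5660

open Cfsg.Agent.Lib.Geo Cfsg.Agent.Lib.Classical

theorem result {F : Type*} [Field F] [Fintype F] (n q : ℕ) (hF : Fintype.card F = q ^ 2) (hn : 13 ≤ n) (heven : Even n) (F₀ : Subfield F) (hcard : Fintype.card F = Nat.card F₀ ^ 2) (ζ : F) (hζ0 : ζ ≠ 0) (hζ : ζ + ζ ^ q = 0) (P : Matrix.GeneralLinearGroup (Fin n) F) (hP : Cfsg.Geo.IsFormRationalStructure (Cfsg.hermForm n F q) F₀ ζ P) (halt : ∀ u : Fin n → F, (∀ i, u i ∈ F₀) → Cfsg.hermForm n F q (Matrix.mulVec (P : Matrix (Fin n) (Fin n) F) u) (Matrix.mulVec (P : Matrix (Fin n) (Fin n) F) u) = 0) : Cfsg.Geo.IsMaximalIn (Cfsg.GU n F q ⊓ Cfsg.Geo.specialLinear (Fin n) F) (Cfsg.Geo.subfieldSubgroup F₀ P ⊓ (Cfsg.GU n F q ⊓ Cfsg.Geo.specialLinear (Fin n) F)) := by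
  have hq0 : 1 < q := by
    have h1 : 1 < Fintype.card F := Fintype.one_lt_card
    rw [hF] at h1
    by_contra hcon
    have : q ≤ 1 := by omega
    interval_cases q <;> simp at h1
  have hq : Nat.card F₀ = q := by
    have h1 : Nat.card F₀ ^ 2 = q ^ 2 := by rw [← hcard, hF]
    exact Nat.pow_left_injective (n := 2) (by norm_num) h1
  have hfix : ∀ a, conjQ hF a = a ↔ a ∈ F₀ := fun a => by
    rw [conjQ_apply]
    exact mem_iff_pow_eq hq hq0 a
  obtain ⟨ω, hω0, hω⟩ := exists_omega (F₀ := F₀) (by rw [Nat.card_eq_fintype_card, hcard]) (by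
    rw [Nat.card_eq_fintype_card]; exact Fintype.one_lt_card)
  rw [GU_eq_uGroup]
  refine isMaximalIn_su_symp P (herm_sform hF) (by simpa using hn) (by simpa using heven) hfix hω0 hω
    hζ0 (by rwa [conjQ_apply]) (fun u v => ?_) (fun u => ?_)
  · exact hP _ _ (fun i => (u i).2) (fun i => (v i).2)
  · exact halt _ (fun i => (u i).2)

end Cfsg.Agent.S5660
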