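import Cfsg.Statements.S5667
import Mathlib
import Cfsg.Agent.Lib.Geo.TensorSp3

set_option autoImplicit false

namespace Cfsg.Agent.S5667

open Cfsg.Agent.Lib.Geo Cfsg.Agent.Lib.Classical

theorem result {F : Type*} [Field F] [Fintype F] (m : ℕ) (hm : 7 ≤ m) (hq : Fintype.card F = 3) (n₁ : ℕ) (e : (Fin m ⊕ Fin m) ≃ Fin n₁ × Fin 3) (P : Matrix.GeneralLinearGroup (Fin m ⊕ Fin m) F) (f₁ : (Fin n₁ → F) → (Fin n₁ → F) → F) (f₂ : (Fin 3 → F) → (Fin 3 → F) → F) (hf₁ : Cfsg.Geo.IsSymplecticForm f₁) (hf₂ : Cfsg.Geo.IsSymmetricForm f₂) (hT : Cfsg.Geo.IsTensorFormStructure id (Cfsg.sympForm m F) f₁ f₂ e P) : ∃ K : Subgroup (Matrix.GeneralLinearGroup (Fin m ⊕ Fin m) F), Cfsg.Geo.tensorProductSubgroup n₁ 3 e P ⊓ Cfsg.spGL m F < K ∧ K < Cfsg.spGL m F := by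
  obtain ⟨c, hc, hc'⟩ := hT
  have hform := tau_form e P (σ := id) (fun _ _ => rfl) (bilinear_sesq hf₁.bilinear) (bilinear_sesq hf₂.bilinear) hc'
  have hform' : ∀ u u' w w', Cfsg.sympForm m F (tau (e.trans (Equiv.prodComm _ _)) P u w) (tau (e.trans (Equiv.prodComm _ _)) P u' w') =
      c * (f₂ u u' * f₁ w w') := by
    intro u u' w w'
    rw [tau_swap, tau_swap, hform]
    ring
  have hcard := Fintype.card_congr e
  simp only [Fintype.card_sum, Fintype.card_fin, Fintype.card_prod] at hcard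
  have hpos : 0 < n₁ := by
    rcases Nat.eq_zero_or_pos n₁ with h | h
    · subst h
      omega
    · exact h
  obtain ⟨K, h1, h2⟩ := tensor3_sp_core hq hpos (e.trans (Equiv.prodComm _ _)) P hf₂ hf₁.nondegenerate hc hform'
  have : Cfsg.Geo.tensorProductSubgroup n₁ 3 e P = Cfsg.Geo.tensorProductSubgroup 3 n₁ (e.trans (Equiv.prodComm _ _)) P :=
    Subgroup.ext fun g => mem_tensor_swap e P
  rw [this]
  exact ⟨K, h1, h2⟩

end Cfsg.Agent.S5667
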