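import Cfsg.Statements.S5671
import Mathlib
import Cfsg.Agent.Lib.Geo.TensorSU2

set_option autoImplicit false

namespace Cfsg.Agent.S5671

open Cfsg.Agent.Lib.Geo Cfsg.Agent.Lib.Classical

theorem result {F : Type*} [Field F] [Fintype F] (n : ℕ) (hF : Fintype.card F = 4) (hn : 13 ≤ n) (n₂ : ℕ) (e : Fin n ≃ Fin 2 × Fin n₂) (P : Matrix.GeneralLinearGroup (Fin n) F) (f₁ : (Fin 2 → F) → (Fin 2 → F) → F) (f₂ : (Fin n₂ → F) → (Fin n₂ → F) → F) (hf₁ : Cfsg.Geo.IsUnitaryFormPow 2 f₁) (hf₂ : Cfsg.Geo.IsUnitaryFormPow 2 f₂) (hT : Cfsg.Geo.IsTensorFormStructure (fun x : F => x ^ 2) (Cfsg.hermForm n F 2) f₁ f₂ e P) : ∃ K : Subgroup (Matrix.GeneralLinearGroup (Fin n) F), Cfsg.Geo.tensorProductSubgroup 2 n₂ e P ⊓ (Cfsg.GU n F 2 ⊓ Cfsg.Geo.specialLinear (Fin n) F) < K ∧ K < (Cfsg.GU n F 2 ⊓ Cfsg.Geo.specialLinear (Fin n) F) := by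
  have hF' : Fintype.card F = 2 ^ 2 := by rw [hF]; norm_num
  have hcard := Fintype.card_congr e
  simp only [Fintype.card_fin, Fintype.card_prod] at hcard
  have hs : ∀ {k : ℕ} {g : (Fin k → F) → (Fin k → F) → F}, Cfsg.Geo.IsUnitaryFormPow 2 g → SForm (conjQ hF') g := by
    intro k g hg
    refine ⟨conjQ_conjQ hF', hg.add_left, hg.smul_left, fun v w => ?_, fun v hv => (hg.nondegenerate v hv).1⟩
    rw [conjQ_apply]
    exact hg.herm v w
  rw [GU_eq_uGroup]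
  exact tensor2_su_not_max hF (fun x => conjQ_apply hF' x) (conjQ_ne_id hF') (herm_sform hF') (by omega) e P (hs hf₁) (hs hf₂) hT

end Cfsg.Agent.S5671
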