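import Cfsg.Statements.S5674
import Mathlib
import Cfsg.Agent.Lib.Geo.OmegaOdd

set_option autoImplicit false

namespace Cfsg.Agent.S5674

open Cfsg.Agent.Lib.Geo Cfsg.Agent.Lib.Classical

theorem result {F : Type*} [Field F] [Fintype F] (hodd : Odd (Fintype.card F)) (m : ℕ) (hm : 6 ≤ m) (W : Submodule F (Unit ⊕ (Fin m ⊕ Fin m) → F)) (hW0 : W ≠ ⊥) (hW : Cfsg.Geo.IsTotallySingularQuad (Cfsg.quadFormOdd m F) W) : Cfsg.Geo.IsMaximalIn (Cfsg.Geo.omegaGL (Cfsg.quadFormOdd m F)) (Cfsg.Geo.subspaceStabilizer W ⊓ Cfsg.Geo.omegaGL (Cfsg.quadFormOdd m F)) := by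
  have h2 : (2 : F) ≠ 0 := two_ne_zero_of_odd_card hodd
  have hQ := quadFormOdd_nondeg (F := F) m h2
  have hcard : Fintype.card (Unit ⊕ (Fin m ⊕ Fin m)) = 2 * m + 1 := by
    simp
    omega
  have hn' : 13 ≤ Fintype.card (Unit ⊕ (Fin m ⊕ Fin m)) := by omega
  refine isMaximalIn_omega_stab_ts hQ hn' hW0 hW fun u hu hQu hua => ?_
  have hts : ∀ x ∈ W ⊔ Submodule.span F {u}, Cfsg.quadFormOdd m F x = 0 := by
    intro x hx
    obtain ⟨a, ha, b, hb, rfl⟩ := Submodule.mem_sup.1 hx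
    obtain ⟨c, rfl⟩ := Submodule.mem_span_singleton.1 hb
    rw [Q_add' (Q := Cfsg.quadFormOdd m F), hW a ha, Q_smul' hQ, hQu, pol_smul_right hQ, pol_comm', hua a ha]
    ring
  have h1 := ts_bound hQ hts
  have hlt : W < W ⊔ Submodule.span F {u} := by
    refine lt_of_le_of_ne le_sup_left fun h => hu ?_
    rw [h]
    exact Submodule.mem_sup_right (Submodule.mem_span_singleton_self u)
  have h3 := Submodule.finrank_lt_finrank_of_lt hlt
  omega

end Cfsg.Agent.S5674
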