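import Cfsg.Statements.S5675
import Mathlib
import Cfsg.Agent.Lib.Geo.OmegaNondegApp
import Cfsg.Agent.Lib.Geo.OmegaOdd

set_option autoImplicit false

namespace Cfsg.Agent.S5675

open Cfsg.Agent.Lib.Geo Cfsg.Agent.Lib.Classical

theorem result {F : Type*} [Field F] [Fintype F] (hodd : Odd (Fintype.card F)) (m : ℕ) (hm : 6 ≤ m) (W : Submodule F (Unit ⊕ (Fin m ⊕ Fin m) → F)) (hW0 : W ≠ ⊥) (hev : Even (Module.finrank F W)) (hW : Cfsg.Geo.IsNondegenerateOn (QuadraticMap.polar (Cfsg.quadFormOdd m F)) W) (hex : ¬ (Fintype.card F = 3 ∧ Module.finrank F W = 2 ∧ Cfsg.Geo.IsPlusTypeOn (Cfsg.quadFormOdd m F) W)) : Cfsg.Geo.IsMaximalIn (Cfsg.Geo.omegaGL (Cfsg.quadFormOdd m F)) (Cfsg.Geo.subspaceStabilizer W ⊓ Cfsg.Geo.omegaGL (Cfsg.quadFormOdd m F)) := by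
  have h2 : (2 : F) ≠ 0 := two_ne_zero_of_odd_card hodd
  have hQ := quadFormOdd_nondeg (F := F) m h2
  have hcard : Fintype.card (Unit ⊕ (Fin m ⊕ Fin m)) = 2 * m + 1 := by
    simp
    omega
  have hn' : 13 ≤ Fintype.card (Unit ⊕ (Fin m ⊕ Fin m)) := by omega
  have hdim := finrank_qperp hQ W
  have hW1 : W ≠ ⊤ := by
    rintro rfl
    rw [finrank_top] at hev
    simp only [Module.finrank_fintype_fun_eq_card] at hev
    rw [hcard] at hev
    exact (Nat.not_even_iff_odd.2 ⟨m, rfl⟩) hev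
  have hev' : ∃ r, Module.finrank F W = r + r := hev
  obtain ⟨r, hr⟩ := hev'
  refine isMaximalIn_omega_nondeg_sym hQ hn' hW0 hW1 (fun w hw h0 => (hW w hw h0).1) (fun h => ?_) ?_ ?_
  · exfalso
    omega
  · rintro ⟨h3, h4, s, hs, hs0, hQs⟩
    apply hex
    refine ⟨?_, h4, plus_plane h4 hs hs0 hQs hQ⟩
    have h5 : Fintype.card F ≠ 2 := by
      intro h6
      rw [h6] at hodd
      exact (by decide : ¬ Odd 2) hodd
    have h6 : 1 < Fintype.card F := Fintype.one_lt_card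
    omega
  · rintro ⟨-, h4, -⟩
    omega

end Cfsg.Agent.S5675
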