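import Cfsg.Statements.S5676
import Mathlib
import Cfsg.Agent.Lib.Geo.OmegaPlane
import Cfsg.Agent.Lib.Geo.OmegaOdd

set_option autoImplicit false

namespace Cfsg.Agent.S5676

open Cfsg.Agent.Lib.Geo Cfsg.Agent.Lib.Classical

theorem result {F : Type*} [Field F] [Fintype F] (hq : Fintype.card F = 3) (m : ℕ) (hm : 6 ≤ m) (W : Submodule F (Unit ⊕ (Fin m ⊕ Fin m) → F)) (hdim : Module.finrank F W = 2) (hW : Cfsg.Geo.IsNondegenerateOn (QuadraticMap.polar (Cfsg.quadFormOdd m F)) W) (hplus : Cfsg.Geo.IsPlusTypeOn (Cfsg.quadFormOdd m F) W) : ∃ K : Subgroup (Matrix.GeneralLinearGroup (Unit ⊕ (Fin m ⊕ Fin m)) F), Cfsg.Geo.subspaceStabilizer W ⊓ Cfsg.Geo.omegaGL (Cfsg.quadFormOdd m F) < K ∧ K < Cfsg.Geo.omegaGL (Cfsg.quadFormOdd m F) := by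
  have h2 : (2 : F) ≠ 0 := two_ne_zero_of_odd_card (by rw [hq]; decide)
  have hQ := quadFormOdd_nondeg (F := F) m h2
  exact not_max_plus_plane (by simp; omega) hQ hq.le W hdim hW hplus

end Cfsg.Agent.S5676
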