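import Cfsg.Statements.S5678
import Mathlib
import Cfsg.Agent.Lib.Geo.OmegaFrameBlocks

set_option autoImplicit false

namespace Cfsg.Agent.S5678

open Cfsg.Agent.Lib.Geo Cfsg.Agent.Lib.Classical

theorem result {F : Type*} [Field F] [Fintype F] (hq : Fintype.card F = 3) (m : ℕ) (hm : 6 ≤ m) {t : ℕ} (D : Fin t → Submodule F (Unit ⊕ (Fin m ⊕ Fin m) → F)) (hD : Cfsg.Geo.IsOrthogonalMDecomposition (Cfsg.quadFormOdd m F) 3 D) : ∃ K : Subgroup (Matrix.GeneralLinearGroup (Unit ⊕ (Fin m ⊕ Fin m)) F), Cfsg.Geo.decompositionStabilizer D ⊓ Cfsg.Geo.omegaGL (Cfsg.quadFormOdd m F) < K ∧ K < Cfsg.Geo.omegaGL (Cfsg.quadFormOdd m F) := by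
  have h2 := f3_two hq
  have hQ := quadFormOdd_nondeg (F := F) m h2
  have hcard := card_eq_of_decomp hD.decomp.decomp.indep hD.decomp.decomp.iSup_eq_top hD.decomp.decomp.finrank_eq
  simp only [Fintype.card_sum, Fintype.card_unit, Fintype.card_fin] at hcard
  have ht : 4 ≤ t := by omega
  let l₀ : Fin t := ⟨0, by omega⟩
  obtain ⟨c, hc, b, hb, hQb, hx⟩ := block3_f3 hq hQ (hD.decomp.decomp.finrank_eq l₀) (fun w hw h0 => (hD.decomp.nondegenerate l₀ w hw h0).1)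
  exact frame_not_max hQ (by simp; omega) h2 hD (by omega) ht (S := {c}) hc rfl hb hQb (fun x h1 h3 => hx x h1 h3)

end Cfsg.Agent.S5678
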