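import Cfsg.Statements.S5683
import Mathlib
import Cfsg.Agent.Lib.Geo.OmegaRatMax
import Cfsg.Agent.Lib.Geo.OmegaOdd

set_option autoImplicit false

namespace Cfsg.Agent.S5683

open Cfsg.Agent.Lib.Geo

theorem result {F : Type*} [Field F] [Fintype F] (hodd : Odd (Fintype.card F)) (m : ℕ) (hm : 6 ≤ m) (F₀ : Subfield F) (r : ℕ) (hr : r.Prime) (hcard : Fintype.card F = Nat.card F₀ ^ r) (P : Matrix.GeneralLinearGroup (Unit ⊕ (Fin m ⊕ Fin m)) F) (hP : Cfsg.Geo.IsQuadFormRationalStructure (Cfsg.quadFormOdd m F) F₀ P) : Cfsg.Geo.IsMaximalIn (Cfsg.Geo.omegaGL (Cfsg.quadFormOdd m F)) (Cfsg.Geo.subfieldSubgroup F₀ P ⊓ Cfsg.Geo.omegaGL (Cfsg.quadFormOdd m F)) := by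
  have h2 : (2 : F) ≠ 0 := two_ne_zero_of_odd_card hodd
  have hQ := quadFormOdd_nondeg (F := F) m h2
  have hn' : 13 ≤ Fintype.card (Unit ⊕ (Fin m ⊕ Fin m)) := by
    simp
    omega
  exact isMaximalIn_omega_subfield hQ hn' hr hcard P fun u => hP (incl F₀ u) fun i => (u i).2

end Cfsg.Agent.S5683
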