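import Cfsg.Statements.S5685
import Mathlib
import Cfsg.Agent.Lib.Geo.OmegaMax

set_option autoImplicit false

namespace Cfsg.Agent.S5685

open Cfsg.Agent.Lib.Geo Cfsg.Agent.Lib.Classical

theorem result {F : Type*} [Field F] [Fintype F] {n : ℕ} (hn : 13 ≤ n) (heven : Even n) (Q : (Fin n → F) → F) (hQ : Cfsg.Geo.IsNondegenerateQuadraticForm Q) (hplus : Cfsg.Geo.IsPlusTypeOn Q ⊤) (W : Submodule F (Fin n → F)) (hW0 : W ≠ ⊥) (hW : Cfsg.Geo.IsTotallySingularQuad Q W) (hdim : 2 * (Module.finrank F W + 1) ≠ n) : Cfsg.Geo.IsMaximalIn (Cfsg.Geo.omegaGL Q) (Cfsg.Geo.subspaceStabilizer W ⊓ Cfsg.Geo.omegaGL Q) := by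
  have hn' : 13 ≤ Fintype.card (Fin n) := by simpa using hn
  refine isMaximalIn_omega_stab_ts hQ hn' hW0 hW fun u hu hQu hua => ?_
  -- `W + ⟨u⟩` is totally singular
  have hts : ∀ x ∈ W ⊔ Submodule.span F {u}, Q x = 0 := by
    intro x hx
    obtain ⟨a, ha, b, hb, rfl⟩ := Submodule.mem_sup.1 hx
    obtain ⟨c, rfl⟩ := Submodule.mem_span_singleton.1 hb
    rw [Q_add' (Q := Q), hW a ha, Q_smul' hQ, hQu, pol_smul_right hQ, pol_comm', hua a ha]
    ring
  have h1 := ts_bound hQ hts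
  have hlt : W < W ⊔ Submodule.span F {u} := by
    refine lt_of_le_of_ne le_sup_left fun h => hu ?_
    rw [h]
    exact Submodule.mem_sup_right (Submodule.mem_span_singleton_self u)
  have h2 := Submodule.finrank_lt_finrank_of_lt hlt
  simp only [Fintype.card_fin] at h1 ⊢
  omega

end Cfsg.Agent.S5685
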