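import Cfsg.Statements.S5686
import Mathlib
import Cfsg.Agent.Lib.Geo.OmegaParity

set_option autoImplicit false

namespace Cfsg.Agent.S5686

open Cfsg.Agent.Lib.Geo Cfsg.Agent.Lib.Classical

theorem result {F : Type*} [Field F] [Fintype F] {n : ℕ} (hn : 13 ≤ n) (heven : Even n) (Q : (Fin n → F) → F) (hQ : Cfsg.Geo.IsNondegenerateQuadraticForm Q) (hplus : Cfsg.Geo.IsPlusTypeOn Q ⊤) (W : Submodule F (Fin n → F)) (hW : Cfsg.Geo.IsTotallySingularQuad Q W) (hdim : 2 * (Module.finrank F W + 1) = n) : ∃ K : Subgroup (Matrix.GeneralLinearGroup (Fin n) F), Cfsg.Geo.subspaceStabilizer W ⊓ Cfsg.Geo.omegaGL Q < K ∧ K < Cfsg.Geo.omegaGL Q := by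
  obtain ⟨U₀, -, tU₀, hU₀⟩ := hplus
  have hcard : Fintype.card (Fin n) = n := Fintype.card_fin n
  have hU₀' : 2 * Module.finrank F U₀ = n := by
    rw [hU₀, finrank_top]; simp
  have hk : 2 * Module.finrank F U₀ = Fintype.card (Fin n) := by rw [hcard, hU₀']
  exact not_max_hyper hQ (by rw [hcard]; exact hn) hk rfl tU₀ (by omega) hW

end Cfsg.Agent.S5686
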