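import Cfsg.Statements.S5689
import Mathlib
import Cfsg.Agent.Lib.Geo.OmegaIsoPlus

set_option autoImplicit false

namespace Cfsg.Agent.S5689

open Cfsg.Agent.Lib.Geo Cfsg.Agent.Lib.Classical

theorem result {F : Type*} [Field F] [Fintype F] {n : ℕ} (hn : 13 ≤ n) (heven : Even n) (Q : (Fin n → F) → F) (hQ : Cfsg.Geo.IsNondegenerateQuadraticForm Q) (hminus : ¬ Cfsg.Geo.IsPlusTypeOn Q ⊤) (W : Submodule F (Fin n → F)) (hW0 : W ≠ ⊥) (hW1 : W ≠ ⊤) (hdim : ¬ (2 * Module.finrank F W = n ∧ Odd (Module.finrank F W))) (hW : Cfsg.Geo.IsNondegenerateOn (QuadraticMap.polar Q) W) (hex : ¬ (Fintype.card F ≤ 3 ∧ (∃ U : Submodule F (Fin n → F), Module.finrank F U = 2 ∧ Cfsg.Geo.IsNondegenerateOn (QuadraticMap.polar Q) U ∧ Cfsg.Geo.IsPlusTypeOn Q U ∧ (U = W ∨ (Cfsg.Geo.AreOrthogonalFor (QuadraticMap.polar Q) U W ∧ Module.finrank F U + Module.finrank F W = n))))) : Cfsg.Geo.IsMaximalIn (Cfsg.Geo.omegaGL Q) (Cfsg.Geo.subspaceStabilizer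 W ⊓ Cfsg.Geo.omegaGL Q) := by
  have hn' : 13 ≤ Fintype.card (Fin n) := by simpa using hn
  refine isMaximalIn_omega_nondeg_clause hQ hn' hW0 hW1 hW (fun h => ?_) (by simpa using hex)
  rintro ⟨g, hg, hgW⟩
  have h1 := finrank_qperp hQ W
  simp only [Fintype.card_fin] at h1
  have h2 : 2 * Module.finrank F W = n := by omega
  have h3 : Even (Module.finrank F W) := by
    by_contra h
    exact hdim ⟨h2, Nat.not_even_iff_odd.1 h⟩
  exact hminus (plus_of_iso hQ (k := Module.finrank F W) (by simpa using h2) h3 rfl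
    (fun w hw h0 => (hW w hw h0).1) hg hgW)

end Cfsg.Agent.S5689
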