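import Cfsg.Statements.S5693
import Mathlib
import Cfsg.Agent.Lib.Geo.OmegaFrameTwo

set_option autoImplicit false

namespace Cfsg.Agent.S5693

open Cfsg.Agent.Lib.Geo Cfsg.Agent.Lib.Classical

theorem result {F : Type*} [Field F] [Fintype F] {n : ℕ} (hn : 13 ≤ n) (heven : Even n) (Q : (Fin n → F) → F) (hQ : Cfsg.Geo.IsNondegenerateQuadraticForm Q) (hplus : Cfsg.Geo.IsPlusTypeOn Q ⊤) {t : ℕ} (k : ℕ) (D : Fin t → Submodule F (Fin n → F)) (hD : Cfsg.Geo.IsOrthogonalMDecomposition Q k D) (hke : Even k → ((∀ i, Cfsg.Geo.IsPlusTypeOn Q (D i)) ∨ Even t)) (hko : Odd k → (Odd (Fintype.card F) ∧ Cfsg.Geo.HasSquareDiscriminant Q)) (hcase : ((k = 2 ∧ (Fintype.card F = 3 ∨ ((∀ i, Cfsg.Geo.IsPlusTypeOn Q (D i)) ∧ (Fintype.card F = 2 ∨ Fintype.card F = 4 ∨ Fintype.card F = 5)))) ∨ (k = 3 ∧ Fintype.card F = 3) ∨ (k = 4 ∧ Fintype.card F = 2 ∧ ∀ i, Cfsg.Geo.IsPlusTypeOn Q (D i)))) : ∃ K : Subgroup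 (Matrix.GeneralLinearGroup (Fin n) F), Cfsg.Geo.decompositionStabilizer D ⊓ Cfsg.Geo.omegaGL Q < K ∧ K < Cfsg.Geo.omegaGL Q := by
  have hcard := card_eq_of_decomp hD.decomp.decomp.indep hD.decomp.decomp.iSup_eq_top hD.decomp.decomp.finrank_eq
  simp only [Fintype.card_fin] at hcard
  have hn' : 13 ≤ Fintype.card (Fin n) := by simpa using hn
  have hnd := fun (l₀ : Fin t) w hw h0 => (hD.decomp.nondegenerate l₀ w hw h0).1
  rcases hcase with ⟨rfl, hc⟩ | ⟨rfl, hc⟩ | ⟨rfl, hc, hp⟩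
  · have ht : 4 ≤ t := by omega
    let l₀ : Fin t := ⟨0, by omega⟩
    rcases hc with hc | ⟨hp, hc⟩
    · obtain ⟨S, c, hc0, hcS, b, hb, hQb, hx⟩ := block2_f3 hc hQ (hD.decomp.decomp.finrank_eq l₀) (hnd l₀)
      exact frame_not_max hQ hn' (f3_two hc) hD (le_refl _) ht hc0 hcS hb hQb hx
    · rcases hc with hc | hc | hc
      · exact plus2_f2_not_max hQ hn' hc hD.decomp hp
      · exact plus2_f4_not_max hQ hn' hc hD.decomp hp
      · obtain ⟨S, c, hc0, hcS, b, hb, hQb, hx⟩ := block2_f5 hc hQ (hD.decomp.decomp.finrank_eq l₀) (hnd l₀) (hp l₀)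
        have h2 : (2 : F) ≠ 0 := two_ne_zero_of_odd_card (by rw [hc]; decide)
        exact frame_not_max hQ hn' h2 hD (le_refl _) ht hc0 hcS hb hQb hx
  · have ht : 4 ≤ t := by omega
    let l₀ : Fin t := ⟨0, by omega⟩
    obtain ⟨c, hc0, b, hb, hQb, hx⟩ := block3_f3 hc hQ (hD.decomp.decomp.finrank_eq l₀) (hnd l₀)
    exact frame_not_max hQ hn' (f3_two hc) hD (by omega) ht (S := {c}) hc0 rfl hb hQb (fun x h1 h3 => hx x h1 h3)
  · exact plus4_f2_not_max hQ hn' hc hD.decomp hp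

end Cfsg.Agent.S5693
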