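import Cfsg.Statements.S5695
import Mathlib
import Cfsg.Agent.Lib.Geo.OmegaFrameBlocks

set_option autoImplicit false

namespace Cfsg.Agent.S5695

open Cfsg.Agent.Lib.Geo Cfsg.Agent.Lib.Classical

theorem result {F : Type*} [Field F] [Fintype F] {n : ℕ} (hn : 13 ≤ n) (heven : Even n) (Q : (Fin n → F) → F) (hQ : Cfsg.Geo.IsNondegenerateQuadraticForm Q) (hminus : ¬ Cfsg.Geo.IsPlusTypeOn Q ⊤) (hq : Fintype.card F = 3) {t : ℕ} (k : ℕ) (hk : k = 2 ∨ k = 3) (D : Fin t → Submodule F (Fin n → F)) (hD : Cfsg.Geo.IsOrthogonalMDecomposition Q k D) (hko : Odd k → Cfsg.Geo.HasSquareDiscriminant Q) (hke : Even k → (Odd t ∧ ∀ i, ¬ Cfsg.Geo.IsPlusTypeOn Q (D i))) : ∃ K : Subgroup (Matrix.GeneralLinearGroup (Fin n) F), Cfsg.Geo.decompositionStabilizer D ⊓ Cfsg.Geo.omegaGL Q < K ∧ K < Cfsg.Geo.omegaGL Q := by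
  have h2 := f3_two hq
  have hcard := card_eq_of_decomp hD.decomp.decomp.indep hD.decomp.decomp.iSup_eq_top hD.decomp.decomp.finrank_eq
  simp only [Fintype.card_fin] at hcard
  have ht : 4 ≤ t := by
    rcases hk with rfl | rfl <;> omega
  let l₀ : Fin t := ⟨0, by omega⟩
  have hnd := fun w hw h0 => (hD.decomp.nondegenerate l₀ w hw h0).1
  rcases hk with rfl | rfl
  · obtain ⟨S, c, hc, hcS, b, hb, hQb, hx⟩ := block2_f3 hq hQ (hD.decomp.decomp.finrank_eq l₀) hnd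
    exact frame_not_max hQ (by simpa using hn) h2 hD (le_refl _) ht hc hcS hb hQb hx
  · obtain ⟨c, hc, b, hb, hQb, hx⟩ := block3_f3 hq hQ (hD.decomp.decomp.finrank_eq l₀) hnd
    exact frame_not_max hQ (by simpa using hn) h2 hD (by omega) ht (S := {c}) hc rfl hb hQb (fun x h1 h3 => hx x h1 h3)

end Cfsg.Agent.S5695
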