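import Cfsg.Statements.S5697
import Mathlib
import Cfsg.Agent.Lib.Geo.OmegaPairMax

set_option autoImplicit false

namespace Cfsg.Agent.S5697

open Cfsg.Agent.Lib.Geo Cfsg.Agent.Lib.Classical

theorem result {F : Type*} [Field F] [Fintype F] {n : ℕ} (hn : 13 ≤ n) (heven : Even n) (Q : (Fin n → F) → F) (hQ : Cfsg.Geo.IsNondegenerateQuadraticForm Q) (hplus : Cfsg.Geo.IsPlusTypeOn Q ⊤) (k : ℕ) (hk : 2 * k = n) (hke : Even k) (D : Fin 2 → Submodule F (Fin n → F)) (hD : Cfsg.Geo.IsMDecomposition k D) (hts : ∀ i, Cfsg.Geo.IsTotallySingularQuad Q (D i)) : Cfsg.Geo.IsMaximalIn (Cfsg.Geo.omegaGL Q) (Cfsg.Geo.decompositionStabilizer D ⊓ Cfsg.Geo.omegaGL Q) := by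
  have hn' : 13 ≤ Fintype.card (Fin n) := by simpa using hn
  exact isMaximalIn_omega_pair_ts hQ hn' hD (by simpa using hk) hke hts

end Cfsg.Agent.S5697
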