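import Cfsg.Statements.S5702
import Mathlib
import Cfsg.Agent.Lib.Geo.OmegaRatMax

set_option autoImplicit false

namespace Cfsg.Agent.S5702

open Cfsg.Agent.Lib.Geo

theorem result {F : Type*} [Field F] [Fintype F] {n : ℕ} (hn : 13 ≤ n) (heven : Even n) (Q : (Fin n → F) → F) (hQ : Cfsg.Geo.IsNondegenerateQuadraticForm Q) (F₀ : Subfield F) (r : ℕ) (hr : r.Prime) (hcard : Fintype.card F = Nat.card F₀ ^ r) (P : Matrix.GeneralLinearGroup (Fin n) F) (ζ : F) (hζ : ζ ≠ 0) (hP : Cfsg.Geo.IsQuadFormRationalStructure (fun v : Fin n → F => ζ * Q v) F₀ P) : Cfsg.Geo.IsMaximalIn (Cfsg.Geo.omegaGL Q) (Cfsg.Geo.subfieldSubgroup F₀ P ⊓ Cfsg.Geo.omegaGL Q) := by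
  classical
  set Q' : (Fin n → F) → F := fun v => ζ * Q v with hQ'
  have hpol : ∀ x y, QuadraticMap.polar Q' x y = ζ * QuadraticMap.polar Q x y := by
    intro x y
    simp only [QuadraticMap.polar, hQ']
    ring
  have hnd : Cfsg.Geo.IsNondegenerateQuadraticForm Q' := by
    refine ⟨fun c v => ?_, ⟨fun x y v => ?_, fun c x v => ?_, fun v x y => ?_, fun c v x => ?_⟩, fun v hv => ?_⟩
    · simp only [hQ', hQ.smul]
      ring
    · simp only [hpol, hQ.polar_bilinear.add_left]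
      ring
    · simp only [hpol, hQ.polar_bilinear.smul_left]
      ring
    · simp only [hpol, hQ.polar_bilinear.add_right]
      ring
    · simp only [hpol, hQ.polar_bilinear.smul_right]
      ring
    · obtain ⟨⟨x, hx⟩, ⟨y, hy⟩⟩ := hQ.nondegenerate v hv
      exact ⟨⟨x, by rw [hpol]; exact mul_ne_zero hζ hx⟩, ⟨y, by rw [hpol]; exact mul_ne_zero hζ hy⟩⟩
  have hiso : Cfsg.isometryGroup F Q' = Cfsg.isometryGroup F Q := by
    ext g
    rw [mem_iso, mem_iso]
    simp only [hQ', mul_right_inj' hζ]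
  have hΩ : Cfsg.Geo.omegaGL Q' = Cfsg.Geo.omegaGL Q := by
    rw [omegaGL_eq, omegaGL_eq, hiso]
  rw [← hΩ]
  exact isMaximalIn_omega_subfield hnd (by simpa using hn) hr hcard P fun u => hP (incl F₀ u) fun i => (u i).2

end Cfsg.Agent.S5702
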