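import Cfsg.Statements.S5876
import Mathlib
import Cfsg.Agent.Lib.Geo.PrimSolvable

set_option autoImplicit false

namespace Cfsg.Agent.S5876

open Cfsg.Agent.Lib.Geo Module

theorem result {F : Type*} [Field F] [Fintype F] {n : ℕ} (G : Subgroup (Matrix.GeneralLinearGroup (Fin n) F)) (hsol : IsSolvable G) (hirr : Cfsg.Geo.ActsIrreducibly (Cfsg.Geo.matrixSet G)) (hprim : ∀ (m t : ℕ) (D : Fin t → Submodule F (Fin n → F)), 2 ≤ t → Cfsg.Geo.IsMDecomposition m D → ¬ G ≤ Cfsg.Geo.decompositionStabilizer D) (g : Matrix.GeneralLinearGroup (Fin n) F) (hg : g ∈ G) (hg1 : g ≠ 1) :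
    4 * Module.finrank F (Module.End.eigenspace (Matrix.toLin' (g : Matrix (Fin n) (Fin n) F)) 1) ≤ 3 * n := by
  classical
  -- the representation of `G`
  let ρ : G →* End F (Fin n → F) :=
    { toFun := fun x => Matrix.toLin' ((x : Matrix.GeneralLinearGroup (Fin n) F) : Matrix (Fin n) (Fin n) F)
      map_one' := by
        simp only [OneMemClass.coe_one, Units.val_one, Matrix.toLin'_one]
        rfl
      map_mul' := fun x y => by
        simp [Matrix.toLin'_mul, Module.End.mul_eq_comp] }
  have hρ : Function.Injective ρ := by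
    intro x y h
    apply Subtype.ext
    apply Units.ext
    exact Matrix.toLin'.injective h
  have hirr' : LinIrred F ρ := by
    intro W hW
    apply hirr
    rintro _ ⟨x, hx, rfl⟩
    rintro _ ⟨v, hv, rfl⟩
    exact hW ⟨x, hx⟩ v hv
  have hprim' : LinPrim F ρ := by
    intro m t D ht hm hfin hind hsup hperm
    refine hprim m t D ht ⟨ht, hm, hfin, hind, hsup⟩ ?_
    intro x hx
    obtain ⟨σ, hσ⟩ := hperm ⟨x, hx⟩
    exact ⟨σ, hσ⟩
  have hfinite : Finite (Matrix.GeneralLinearGroup (Fin n) F) := inferInstance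
  have hsol' : Group.IsSolvable G := hsol
  have key := four_mul_fix_le ρ hρ hirr' hprim' ⟨g, hg⟩ (fun h => hg1 (congrArg Subtype.val h))
  have heq : fixSub ρ ⟨g, hg⟩ = Module.End.eigenspace (Matrix.toLin' (g : Matrix (Fin n) (Fin n) F)) 1 := by
    ext v
    rw [mem_fixSub, Module.End.mem_eigenspace_iff, one_smul]
    rfl
  rw [heq] at key
  simpa using key

end Cfsg.Agent.S5876
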