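import Cfsg.Statements.S5938
import Mathlib
import Cfsg.Agent.Lib.Classical.Dick.NV2

set_option autoImplicit false
open Cfsg

namespace Cfsg.Agent.S5938

open Cfsg.Agent.Lib.Classical.Dick in
open Cfsg.Agent.Lib.KS2.SL2 in
private theorem main_aux {F : Type*} [Field F] [Fintype F] (p : ℕ) [hpf : Fact p.Prime] (hF : Fintype.card F = p) (hp : p % 8 = 1 ∨ p % 8 = 7) : ∃ H : Subgroup (Matrix.ProjectiveSpecialLinearGroup (Fin 2) F), IsCoatom H ∧ Nonempty (H ≃* Equiv.Perm (Fin 4)) := by
  classical
  have hpp : p.Prime := Fact.out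
  have hp7 : 7 ≤ p := by
    have := hpp.two_le
    by_contra hlt
    have h1 : p < 7 := by omega
    interval_cases p <;> omega
  haveI hc : CharP F p := by
    obtain ⟨r, hr⟩ := CharP.exists F
    haveI : Fact r.Prime := ⟨CharP.char_is_prime F r⟩
    obtain ⟨m, -, hm⟩ := FiniteField.card F r
    rw [hF] at hm
    have h1 : r = p := by
      have h2 : r ∣ p := by
        rw [hm]
        exact dvd_pow_self _ m.ne_zero
      exact (Nat.prime_dvd_prime_iff_eq Fact.out hpp).mp h2
    rwa [h1] at hr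
  have hp2 : p ≠ 2 := by omega
  have h2 : (2 : F) ≠ 0 := by
    intro h20
    have h3 : ((2 : ℕ) : F) = 0 := by exact_mod_cast h20
    have h4 : p ∣ 2 := (CharP.cast_eq_zero_iff F p 2).mp h3
    exact hp2 ((Nat.prime_dvd_prime_iff_eq hpp Nat.prime_two).mp h4)
  have hch : ringChar F ≠ 2 := by
    intro h
    apply hp2
    have := ringChar.eq F p
    omega
  obtain ⟨H, ⟨i⟩⟩ := exists_S4 (F := F) h2 (by
    rw [FiniteField.isSquare_two_iff, hF]
    omega)
  have hcH : Nat.card H = 24 := by rw [Nat.card_congr i.toEquiv, card_S4]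
  refine ⟨H, ?_, ⟨i⟩⟩
  apply coatom_of_small p hp2 H
  · intro htop
    have h1 : Nat.card H = Nat.card (Matrix.ProjectiveSpecialLinearGroup (Fin 2) F) := by
      rw [htop]
      exact Nat.card_congr Subgroup.topEquiv.toEquiv
    have h3 := card_PP_eq (F := F)
    rw [card_roots1_odd hch, ← h1, hcH, hF] at h3
    have h4 : 49 ≤ p ^ 2 := by nlinarith
    have h5 : 48 ≤ p ^ 2 - 1 := by omega
    have h6 : 7 * 48 ≤ p * (p ^ 2 - 1) := Nat.mul_le_mul hp7 h5
    omega
  · exact a4Data_S4.of_injective i.symm.toMonoidHom i.symm.injective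
  · intro M hM hMt hi
    have h1 : 24 ∣ Nat.card M := by
      rw [← hcH]
      exact Subgroup.card_dvd_of_le hM
    rcases hi with ⟨⟨j⟩⟩ | ⟨⟨j⟩⟩ | ⟨⟨j⟩⟩
    · rw [Nat.card_congr j.toEquiv, card_A4] at h1
      norm_num at h1
    · symm
      apply Subgroup.eq_of_le_of_card_ge hM
      rw [hcH, Nat.card_congr j.toEquiv, card_S4]
    · rw [Nat.card_congr j.toEquiv, card_A5] at h1
      norm_num at h1
  · intro M E hM hE4 hEq hi
    exfalso
    haveI : Fintype E := Fintype.ofFinite _
    have hpow : Nat.card E ^ Module.finrank E F = Fintype.card F := by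
      rw [Nat.card_eq_fintype_card]
      exact (Module.card_eq_pow_finrank (K := E) (V := F)).symm
    have h1 : Nat.card E ∣ Fintype.card F := by
      rw [← hpow]
      exact dvd_pow_self _ Module.finrank_pos.ne'
    rw [hF] at h1 hEq
    rcases (Nat.dvd_prime hpp).mp h1 with h4 | h4
    · omega
    · exact hEq h4

/-- Let p be a prime with p ≡ ±1 (mod 8) and F a field with p elements. Then PSL_2(F) has a maximal subgroup isomorphic to the symmetric group S_4. -/
theorem result {F : Type*} [Field F] [Fintype F] (p : ℕ) [Fact p.Prime] (hF : Fintype.card F = p) (hp : p % 8 = 1 ∨ p % 8 = 7) : ∃ H : Subgroup (Matrix.ProjectiveSpecialLinearGroup (Fin 2) F), IsCoatom H ∧ Nonempty (H ≃* Equiv.Perm (Fin 4)) := by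
  exact main_aux p hF hp

end Cfsg.Agent.S5938
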