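import Cfsg.Statements.S5941
import Mathlib
import Cfsg.Agent.Lib.Classical.Dick.Over

set_option autoImplicit false
open Cfsg

namespace Cfsg.Agent.S5941

open Cfsg.Agent.Lib.Classical.Dick in
open Cfsg.Agent.Lib.KS2.SL2 in
private theorem main_aux {F K : Type*} [Field F] [Fintype F] [Field K] [Fintype K] (q : ℕ) (hK : Fintype.card K = q) (hF : Fintype.card F = q ^ 2) (hq : Odd q) : ∃ H : Subgroup (Matrix.ProjectiveSpecialLinearGroup (Fin 2) F), IsCoatom H ∧ Nonempty (H ≃* Matrix.ProjGenLinGroup (Fin 2) K) := by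
  classical
  obtain ⟨p, hp⟩ := CharP.exists F
  haveI : Fact p.Prime := ⟨CharP.char_is_prime F p⟩
  have hq0 : 2 ≤ q := by
    rw [← hK]
    exact Fintype.one_lt_card
  have hq3 : 3 ≤ q := by
    obtain ⟨u, hu⟩ := hq
    omega
  obtain ⟨E, ⟨rr⟩⟩ := exists_subfield (F := F) (K := K) 2 (by norm_num) (by rw [hK, hF])
  haveI : Fintype E := Fintype.ofFinite _
  have hE : Nat.card E = q := by
    rw [Nat.card_eq_fintype_card, ← Fintype.card_congr rr.toEquiv, hK]
  have hE2 : Nat.card E ^ 2 = Fintype.card F := by rw [hE, hF]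
  have hcPGL : Nat.card (Matrix.ProjGenLinGroup (Fin 2) E) = q * (q ^ 2 - 1) := by
    have := card_PGL2 E
    rw [← Nat.card_eq_fintype_card, hE] at this
    exact this
  have hsq := hsq_top E 2 (by norm_num) hE2
  have hcH : Nat.card (psiP E ⊤ hsq).range = q * (q ^ 2 - 1) := by rw [card_range_psiP, hcPGL]
  refine ⟨(psiP E ⊤ hsq).range, ?_, ⟨(MonoidHom.ofInjective (psiP_injective E ⊤ hsq)).symm.trans ?_⟩⟩
  · refine coatom_of_subfield p E 2 Nat.prime_two hE2 (by omega) _ (range_embP_le_psiP E ⊤ hsq)
      (ne_top_of_card_le _ q 2 (by omega) (by norm_num) hF.symm (le_of_eq hcH)) ?_ ?_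
    · intro M hM hi
      have h1 : q * (q ^ 2 - 1) ∣ Nat.card M := by
        rw [← hcH]
        exact Subgroup.card_dvd_of_le hM
      have hcases : q = 3 ∨ 5 ≤ q := by
        obtain ⟨u, hu⟩ := hq
        omega
      have h7 : 5 ≤ q → 120 ≤ q * (q ^ 2 - 1) := by
        intro h
        have h2 : 25 ≤ q ^ 2 := by nlinarith
        have h3 : 24 ≤ q ^ 2 - 1 := by omega
        have h4 : 5 * 24 ≤ q * (q ^ 2 - 1) := Nat.mul_le_mul h h3
        omega
      rcases hi with ⟨⟨i⟩⟩ | ⟨⟨i⟩⟩ | ⟨⟨i⟩⟩
      · exfalso
        rw [Nat.card_congr i.toEquiv, card_A4] at h1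
        have h8 := Nat.le_of_dvd (by norm_num) h1
        rcases hcases with rfl | h
        · norm_num at h8
        · have := h7 h
          omega
      · symm
        apply Subgroup.eq_of_le_of_card_ge hM
        rw [hcH, Nat.card_congr i.toEquiv, card_S4]
        rw [Nat.card_congr i.toEquiv, card_S4] at h1
        have h8 := Nat.le_of_dvd (by norm_num) h1
        rcases hcases with rfl | h
        · norm_num
        · have := h7 h
          omega
      · exfalso
        rw [Nat.card_congr i.toEquiv, card_A5] at h1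
        have h8 := Nat.le_of_dvd (by norm_num) h1
        rcases hcases with rfl | h
        · norm_num at h1
        · have := h7 h
          omega
    · intro M E' hM hE' hi
      haveI : Fintype E' := Fintype.ofFinite _
      symm
      apply Subgroup.eq_of_le_of_card_ge hM
      rw [hcH]
      have hc' : Nat.card M ≤ q * (q ^ 2 - 1) := by
        rcases hi with ⟨⟨i⟩⟩ | ⟨⟨i⟩⟩
        · rw [Nat.card_congr i.toEquiv]
          have := card_PSL2' E'
          rw [← Nat.card_eq_fintype_card, hE', hE] at this
          rw [← this]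
          exact Nat.le_mul_of_pos_left _ (pos_card_roots E')
        · rw [Nat.card_congr i.toEquiv]
          have := card_PGL2 E'
          rw [← Nat.card_eq_fintype_card, hE', hE] at this
          rw [this]
      exact hc'
  · exact QuotientGroup.congr _ _ (Cfsg.Agent.Lib.Classical.RC.glCongr rr.symm) (Cfsg.Agent.Lib.Classical.RC.map_center_eq _)

/-- Let K and F be finite fields of odd characteristic with #F = (#K)². Then PSL_2(F) has a maximal subgroup isomorphic to PGL_2(K). -/
theorem result {F K : Type*} [Field F] [Fintype F] [Field K] [Fintype K] (q : ℕ) (hK : Fintype.card K = q) (hF : Fintype.card F = q ^ 2) (hq : Odd q) : ∃ H : Subgroup (Matrix.ProjectiveSpecialLinearGroup (Fin 2) F), IsCoatom H ∧ Nonempty (H ≃* Matrix.ProjGenLinGroup (Fin 2) K) := by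
  exact main_aux q hK hF hq

end Cfsg.Agent.S5941
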