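import Cfsg.Statements.S5942
import Mathlib
import Cfsg.Agent.Lib.Classical.Dick.Over

set_option autoImplicit false
open Cfsg

namespace Cfsg.Agent.S5942

private lemma pow9_mod16 (j : ℕ) : 9 ^ (2 * j + 1) % 16 = 9 := by
  induction j with
  | zero => norm_num
  | succ j ih =>
    have e : 9 ^ (2 * (j + 1) + 1) = 81 * 9 ^ (2 * j + 1) := by ring
    rw [e]
    omega

private lemma pow9_mod5 (j : ℕ) : 9 ^ (2 * j + 1) % 5 = 4 := by
  induction j with
  | zero => norm_num
  | succ j ih =>
    have e : 9 ^ (2 * (j + 1) + 1) = 81 * 9 ^ (2 * j + 1) := by ring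
    rw [e]
    omega

open Cfsg.Agent.Lib.Classical.Dick in
open Cfsg.Agent.Lib.KS2.SL2 in
private theorem main_aux {F K : Type*} [Field F] [Fintype F] [Field K] [Fintype K] (q r : ℕ) (hK : Fintype.card K = q) (hF : Fintype.card F = q ^ r) (hq : Odd q) (hr : r.Prime) (hr2 : r ≠ 2) : ∃ H : Subgroup (Matrix.ProjectiveSpecialLinearGroup (Fin 2) F), IsCoatom H ∧ Nonempty (H ≃* Matrix.ProjectiveSpecialLinearGroup (Fin 2) K) := by
  classical
  obtain ⟨p, hp⟩ := CharP.exists F
  haveI : Fact p.Prime := ⟨CharP.char_is_prime F p⟩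
  have hq0 : 2 ≤ q := by
    rw [← hK]
    exact Fintype.one_lt_card
  have hq3 : 3 ≤ q := by
    obtain ⟨u, hu⟩ := hq
    omega
  have hrodd : Odd r := hr.odd_of_ne_two hr2
  obtain ⟨E, ⟨rr⟩, ⟨i⟩⟩ := exists_psl_subgroup (F := F) K r hr.one_le (by rw [hK, hF])
  haveI : Fintype E := Fintype.ofFinite _
  have hE : Nat.card E = q := by
    rw [Nat.card_eq_fintype_card, ← Fintype.card_congr rr.toEquiv, hK]
  have hFodd : Odd (Fintype.card F) := by
    rw [hF]
    exact hq.pow
  have hch : ringChar F ≠ 2 := by
    intro h2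
    exact (Nat.not_even_iff_odd.mpr hFodd) (Nat.even_iff.mpr (FiniteField.even_card_of_char_two h2))
  have hsub : ∀ E' : Subfield F, ringChar E' ≠ 2 := by
    intro E' h2
    haveI : Fintype E' := Fintype.ofFinite _
    have h3 := FiniteField.even_card_of_char_two h2
    have h4 : Fintype.card E' ∣ Fintype.card F := by
      have := Module.card_eq_pow_finrank (K := E') (V := F)
      rw [this]
      exact dvd_pow_self _ (Module.finrank_pos).ne'
    obtain ⟨c, hc⟩ := h4
    rw [hc] at hFodd
    have h5 := (Nat.odd_mul.mp hFodd).1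
    rw [Nat.odd_iff] at h5
    omega
  have hcard : ∀ E' : Subfield F, Nat.card E' = q →
      2 * Nat.card (Matrix.ProjectiveSpecialLinearGroup (Fin 2) E') = q * (q ^ 2 - 1) := by
    intro E' hE'
    haveI : Fintype E' := Fintype.ofFinite _
    have := card_PSL2' E'
    rw [card_roots1_odd (hsub E'), ← Nat.card_eq_fintype_card, hE'] at this
    exact this
  have hcH : 2 * Nat.card (embP E).range = q * (q ^ 2 - 1) := by rw [card_range_embP, hcard E hE]
  have hPP : 2 * Nat.card (Matrix.ProjectiveSpecialLinearGroup (Fin 2) F) = Fintype.card F * (Fintype.card F ^ 2 - 1) := by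
    have := card_PP_eq (F := F)
    rwa [card_roots1_odd hch] at this
  refine ⟨(embP E).range, ?_, ⟨i⟩⟩
  refine coatom_of_subfield p E r hr (by rw [hE, hF]) (by omega) _ le_rfl
    (ne_top_of_card_le _ q r (by omega) hr.two_le hF.symm (by omega)) ?_ ?_
  · intro M hM hi
    have h1 : Nat.card (embP E).range ∣ Nat.card M := Subgroup.card_dvd_of_le hM
    have h2 : Nat.card M ∣ Nat.card (Matrix.ProjectiveSpecialLinearGroup (Fin 2) F) := Subgroup.card_subgroup_dvd_card M
    -- arithmetic of the small cases
    have hcases : q = 3 ∨ q = 5 ∨ 7 ≤ q := by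
      obtain ⟨u, hu⟩ := hq
      omega
    have h7 : 7 ≤ q → 168 ≤ Nat.card (embP E).range := by
      intro h
      have h2 : 49 ≤ q ^ 2 := by nlinarith
      have h3 : 48 ≤ q ^ 2 - 1 := by omega
      have h4 : 7 * 48 ≤ q * (q ^ 2 - 1) := Nat.mul_le_mul h h3
      omega
    obtain ⟨j, hj⟩ := hrodd
    have h3F : q = 3 → ¬ 16 ∣ Fintype.card F * (Fintype.card F ^ 2 - 1) ∧ ¬ 5 ∣ Fintype.card F * (Fintype.card F ^ 2 - 1) := by
      intro h3
      have e1 : Fintype.card F ^ 2 = 9 ^ (2 * j + 1) := by
        rw [hF, h3, hj, ← pow_mul, mul_comm, pow_mul]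
        norm_num
      rw [e1]
      have h5 := pow9_mod16 j
      have h6 := pow9_mod5 j
      have hoddF : ¬ 2 ∣ Fintype.card F := by
        intro h
        rw [Nat.odd_iff] at hFodd
        omega
      have h5F : ¬ 5 ∣ Fintype.card F := by
        intro h
        rw [hF, h3] at h
        have := (Nat.Prime.dvd_of_dvd_pow (by norm_num) h)
        omega
      constructor
      · intro h
        have hcop : Nat.Coprime 16 (Fintype.card F) := by
          have : Nat.Coprime 2 (Fintype.card F) := (Nat.Prime.coprime_iff_not_dvd Nat.prime_two).mpr hoddF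
          exact Nat.Coprime.pow_left 4 this
        have := hcop.dvd_of_dvd_mul_left h
        omega
      · intro h
        rcases (by norm_num : Nat.Prime 5).dvd_mul.mp h with h | h
        · exact h5F h
        · omega
    rcases hi with ⟨⟨i⟩⟩ | ⟨⟨i⟩⟩ | ⟨⟨i⟩⟩
    · rw [Nat.card_congr i.toEquiv, card_A4] at h1
      have h8 := Nat.le_of_dvd (by norm_num) h1
      symm
      apply Subgroup.eq_of_le_of_card_ge hM
      rw [Nat.card_congr i.toEquiv, card_A4]
      rcases hcases with rfl | rfl | h
      · have e : (3 : ℕ) * (3 ^ 2 - 1) = 24 := by norm_num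
        rw [e] at hcH
        omega
      · have e : (5 : ℕ) * (5 ^ 2 - 1) = 120 := by norm_num
        rw [e] at hcH
        omega
      · have := h7 h
        omega
    · exfalso
      rw [Nat.card_congr i.toEquiv, card_S4] at h1 h2
      have h8 := Nat.le_of_dvd (by norm_num) h1
      rcases hcases with rfl | rfl | h
      · apply (h3F rfl).1
        rw [← hPP]
        obtain ⟨c, hc⟩ := h2
        rw [hc]
        exact ⟨3 * c, by ring⟩
      · have e : (5 : ℕ) * (5 ^ 2 - 1) = 120 := by norm_num
        rw [e] at hcH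
        omega
      · have := h7 h
        omega
    · rw [Nat.card_congr i.toEquiv, card_A5] at h1 h2
      have h8 := Nat.le_of_dvd (by norm_num) h1
      symm
      apply Subgroup.eq_of_le_of_card_ge hM
      rw [Nat.card_congr i.toEquiv, card_A5]
      rcases hcases with rfl | rfl | h
      · exfalso
        apply (h3F rfl).2
        rw [← hPP]
        obtain ⟨c, hc⟩ := h2
        rw [hc]
        exact ⟨24 * c, by ring⟩
      · have e : (5 : ℕ) * (5 ^ 2 - 1) = 120 := by norm_num
        rw [e] at hcH
        omega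
      · have := h7 h
        omega
  · intro M E' hM hE' hi
    rcases hi with ⟨⟨i⟩⟩ | ⟨⟨i⟩⟩
    · symm
      apply Subgroup.eq_of_le_of_card_ge hM
      rw [Nat.card_congr i.toEquiv]
      have h1 := hcard E' (by rw [hE', hE])
      omega
    · exfalso
      haveI : Fintype E' := Fintype.ofFinite _
      apply no_pgl_subgroup E' r hrodd hFodd _ M i
      rw [← Nat.card_eq_fintype_card, hE', hE, hF]

/-- Let K and F be finite fields of odd characteristic with #F = (#K)^r for an odd prime r. Then PSL_2(F) has a maximal subgroup isomorphic to PSL_2(K). -/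
theorem result {F K : Type*} [Field F] [Fintype F] [Field K] [Fintype K] (q r : ℕ) (hK : Fintype.card K = q) (hF : Fintype.card F = q ^ r) (hq : Odd q) (hr : r.Prime) (hr2 : r ≠ 2) : ∃ H : Subgroup (Matrix.ProjectiveSpecialLinearGroup (Fin 2) F), IsCoatom H ∧ Nonempty (H ≃* Matrix.ProjectiveSpecialLinearGroup (Fin 2) K) := by
  exact main_aux q r hK hF hq hr hr2

end Cfsg.Agent.S5942
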