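import Cfsg.Statements.S5943
import Mathlib
import Cfsg.Agent.Lib.Classical.Dick.Over

set_option autoImplicit false
open Cfsg

namespace Cfsg.Agent.S5943

open Cfsg.Agent.Lib.Classical.Dick in
open Cfsg.Agent.Lib.KS2.SL2 in
private theorem main_aux {F K : Type*} [Field F] [Fintype F] [Field K] [Fintype K] (q r : ℕ) (hK : Fintype.card K = q) (hF : Fintype.card F = q ^ r) (hq : Even q) (hq2 : q ≠ 2) (hr : r.Prime) : ∃ H : Subgroup (Matrix.ProjectiveSpecialLinearGroup (Fin 2) F), IsCoatom H ∧ Nonempty (H ≃* Matrix.ProjectiveSpecialLinearGroup (Fin 2) K) := by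
  classical
  obtain ⟨p, hp⟩ := CharP.exists F
  haveI : Fact p.Prime := ⟨CharP.char_is_prime F p⟩
  have hq0 : 2 ≤ q := by
    rw [← hK]
    exact Fintype.one_lt_card
  have hq4 : 4 ≤ q := by
    obtain ⟨u, hu⟩ := hq
    omega
  obtain ⟨E, ⟨rr⟩, ⟨i⟩⟩ := exists_psl_subgroup (F := F) K r hr.one_le (by rw [hK, hF])
  haveI : Fintype E := Fintype.ofFinite _
  have hE : Nat.card E = q := by
    rw [Nat.card_eq_fintype_card, ← Fintype.card_congr rr.toEquiv, hK]
  have hFeven : ringChar F = 2 := by
    have hd : 2 ∣ Fintype.card F := by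
      rw [hF]
      exact hq.two_dvd.trans (dvd_pow_self _ hr.ne_zero)
    obtain ⟨n, hn, hqn⟩ := FiniteField.card F p
    have hp2 : p = 2 := by
      rw [hqn] at hd
      exact ((Nat.prime_dvd_prime_iff_eq Nat.prime_two Fact.out).mp (Nat.prime_two.dvd_of_dvd_pow hd)).symm
    subst hp2
    exact ringChar.eq F 2
  have hEeven : ringChar E = 2 := by
    haveI : CharP F 2 := by
      rw [← hFeven]
      exact ringChar.charP F
    haveI : CharP E 2 := RingHom.charP E.subtype E.subtype.injective 2
    exact ringChar.eq E 2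
  have hcPSL : Nat.card (Matrix.ProjectiveSpecialLinearGroup (Fin 2) E) = q * (q ^ 2 - 1) := by
    have := card_PSL2' E
    rw [card_roots1_two hEeven, one_mul, ← Nat.card_eq_fintype_card, hE] at this
    exact this
  have hcPGL : Nat.card (Matrix.ProjGenLinGroup (Fin 2) E) = q * (q ^ 2 - 1) := by
    have := card_PGL2 E
    rw [← Nat.card_eq_fintype_card, hE] at this
    exact this
  have hcH : Nat.card (embP E).range = q * (q ^ 2 - 1) := by rw [card_range_embP, hcPSL]
  refine ⟨(embP E).range, ?_, ⟨i⟩⟩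
  refine coatom_of_subfield p E r hr (by rw [hE, hF]) (by omega) _ le_rfl
    (ne_top_of_card_le _ q r (by omega) hr.two_le hF.symm (le_of_eq hcH)) ?_ ?_
  · intro M hM hi
    have h1 : q * (q ^ 2 - 1) ∣ Nat.card M := by
      rw [← hcH]
      exact Subgroup.card_dvd_of_le hM
    have h60 : 60 ≤ q * (q ^ 2 - 1) := by
      have h2 : 16 ≤ q ^ 2 := by nlinarith
      have h3 : 15 ≤ q ^ 2 - 1 := by omega
      calc 60 = 4 * 15 := by norm_num
        _ ≤ _ := Nat.mul_le_mul hq4 h3
    rcases hi with ⟨⟨i⟩⟩ | ⟨⟨i⟩⟩ | ⟨⟨i⟩⟩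
    · rw [Nat.card_congr i.toEquiv, card_A4] at h1
      have := Nat.le_of_dvd (by norm_num) h1
      omega
    · rw [Nat.card_congr i.toEquiv, card_S4] at h1
      have := Nat.le_of_dvd (by norm_num) h1
      omega
    · rw [Nat.card_congr i.toEquiv, card_A5] at h1
      have := Nat.le_of_dvd (by norm_num) h1
      symm
      apply Subgroup.eq_of_le_of_card_ge hM
      rw [hcH, Nat.card_congr i.toEquiv, card_A5]
      omega
  · intro M E' hM hE' hi
    symm
    apply Subgroup.eq_of_le_of_card_ge hM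
    rw [hcH]
    haveI : Fintype E' := Fintype.ofFinite _
    have hE'2 : ringChar E' = 2 := by
      haveI : CharP F 2 := by
        rw [← hFeven]
        exact ringChar.charP F
      haveI : CharP E' 2 := RingHom.charP E'.subtype E'.subtype.injective 2
      exact ringChar.eq E' 2
    rcases hi with ⟨⟨i⟩⟩ | ⟨⟨i⟩⟩
    · have := card_PSL2' E'
      rw [card_roots1_two hE'2, one_mul, ← Nat.card_eq_fintype_card, hE', hE] at this
      rw [Nat.card_congr i.toEquiv, this]
    · have := card_PGL2 E'
      rw [← Nat.card_eq_fintype_card, hE', hE] at this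
      rw [Nat.card_congr i.toEquiv, this]

/-- Let K and F be finite fields of characteristic 2 with #K = q > 2 and #F = q^r for a prime r. Then PSL_2(F) has a maximal subgroup isomorphic to PSL_2(K) (which equals PGL_2(K) in characteristic 2). -/
theorem result {F K : Type*} [Field F] [Fintype F] [Field K] [Fintype K] (q r : ℕ) (hK : Fintype.card K = q) (hF : Fintype.card F = q ^ r) (hq : Even q) (hq2 : q ≠ 2) (hr : r.Prime) : ∃ H : Subgroup (Matrix.ProjectiveSpecialLinearGroup (Fin 2) F), IsCoatom H ∧ Nonempty (H ≃* Matrix.ProjectiveSpecialLinearGroup (Fin 2) K) := by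
  exact main_aux q r hK hF hq hq2 hr

end Cfsg.Agent.S5943
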