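import Cfsg.Statements.S5944
import Mathlib

set_option autoImplicit false

namespace Cfsg.Agent.S5944

open Equiv.Perm

theorem index_two_eq_alternating {α : Type*} [Fintype α] [DecidableEq α]
    (H : Subgroup (Equiv.Perm α)) (h : H.index = 2) : H = alternatingGroup α := by
  classical
  by_cases hn : 2 ≤ Fintype.card α
  · have hnm : H.Normal := Subgroup.normal_of_index_eq_two h
    have hle : alternatingGroup α ≤ H := by
      rw [← Equiv.Perm.closure_three_cycles_eq_alternating, Subgroup.closure_le]
      intro g hg
      have hg3 : g ^ 3 = 1 := by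
        exact (Equiv.Perm.IsThreeCycle.orderOf hg) ▸ pow_orderOf_eq_one g
      have hsq : ∀ x : Equiv.Perm α, x ^ 2 ∈ H := by
        intro x
        have := Subgroup.pow_index_mem H x
        rwa [h] at this
      have : g = (g ^ 2) ^ 2 := by
        calc g = g ^ 3 * g := by rw [hg3, one_mul]
          _ = (g ^ 2) ^ 2 := by group
      rw [this]
      exact hsq _
    have hnt : Nontrivial α := Fintype.one_lt_card_iff_nontrivial.1 (by omega)
    have hca : Nat.card (alternatingGroup α) * 2 = Nat.card (Equiv.Perm α) := by
      have := alternatingGroup.index_eq_two (α := α)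
      have h2 := (alternatingGroup α).card_mul_index
      rwa [this] at h2
    have hcH : Nat.card H * 2 = Nat.card (Equiv.Perm α) := by
      have h2 := H.card_mul_index
      rwa [h] at h2
    symm
    apply Subgroup.eq_of_le_of_card_ge hle
    omega
  · exfalso
    have hss : Subsingleton (Equiv.Perm α) := by
      have : Subsingleton α := by
        apply Fintype.card_le_one_iff_subsingleton.1; omega
      infer_instance
    have : H = ⊤ := Subsingleton.elim _ _
    rw [this, Subgroup.index_top] at h
    omega

theorem result (n : ℕ) (hn : n ≠ 4) (H : Subgroup (Equiv.Perm (Fin n))) (hH : H ≠ ⊤) (hA : H ≠ alternatingGroup (Fin n)) : n ≤ H.index := by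
  classical
  by_contra hlt
  push Not at hlt
  have hfin : H.FiniteIndex := inferInstance
  have hi0 : H.index ≠ 0 := hfin.index_ne_zero
  have hi1 : H.index ≠ 1 := by
    intro h; exact hH (Subgroup.index_eq_one.1 h)
  have hi2 : H.index ≠ 2 := by
    intro h; exact hA (index_two_eq_alternating H h)
  -- so `3 ≤ index < n`, in particular `n ≥ 5`
  have hn5 : 5 ≤ n := by omega
  -- the core
  set φ := MulAction.toPermHom (Equiv.Perm (Fin n)) (Equiv.Perm (Fin n) ⧸ H) with hφ
  have hker : φ.ker ≤ H := by
    rw [hφ, ← Subgroup.normalCore_eq_ker]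
    exact Subgroup.normalCore_le H
  have hker_nt : Nontrivial φ.ker := by
    by_contra hcon
    rw [not_nontrivial_iff_subsingleton] at hcon
    have hinj : Function.Injective φ := by
      rw [injective_iff_map_eq_one]
      intro x hx
      have : x ∈ φ.ker := hx
      have h := Subsingleton.elim (⟨x, this⟩ : φ.ker) 1
      exact congrArg Subtype.val h
    have hle := Nat.card_le_card_of_injective φ hinj
    rw [Nat.card_perm] at hle
    have : Nat.card (Equiv.Perm (Equiv.Perm (Fin n) ⧸ H)) = (Nat.card (Equiv.Perm (Fin n) ⧸ H)).factorial := by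
      exact Nat.card_perm
    rw [this, ← Subgroup.index_eq_card, Nat.card_eq_fintype_card, Fintype.card_fin] at hle
    have hlt' : H.index.factorial < n.factorial :=
      (Nat.factorial_lt (by omega)).2 hlt
    omega
  have hcardn : 5 ≤ Nat.card (Fin n) := by simpa using hn5
  have hle : alternatingGroup (Fin n) ≤ φ.ker :=
    Equiv.Perm.alternatingGroup_le_of_normal hcardn hker_nt
  have hAH : alternatingGroup (Fin n) ≤ H := hle.trans hker
  have hnt : Nontrivial (Fin n) := by
    apply Fintype.one_lt_card_iff_nontrivial.1; simp; omega
  have hdvd : H.index ∣ (alternatingGroup (Fin n)).index := Subgroup.index_dvd_of_le hAH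
  rw [alternatingGroup.index_eq_two] at hdvd
  have := Nat.le_of_dvd (by norm_num) hdvd
  omega

end Cfsg.Agent.S5944
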