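import Cfsg.Statements.S5949
import Mathlib
import Cfsg.Agent.Lib.Geo.ElusSL

set_option autoImplicit false

namespace Cfsg.Agent.S5949

open Cfsg.Agent.Lib.Geo Polynomial Module

theorem result {F : Type*} [Field F] [Fintype F] {p : ℕ} [Fact p.Prime] [CharP F p] {q : ℕ} (hq : Fintype.card F = q)
    (n m : ℕ) (hn : 2 ≤ n) (hT : (n, q) ≠ (2, 2) ∧ (n, q) ≠ (2, 3)) (hm : 1 ≤ m) (hmn : 2 * m ≤ n)
    (r : ℕ) [Fact r.Prime] (hrΩ : r ∣ Nat.card {W : Submodule F (Fin n → F) // Module.finrank F ↥W = m}) :
    (∀ x : Matrix.SpecialLinearGroup (Fin n) F,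
      (∃ c : F, ((x ^ r : Matrix.SpecialLinearGroup (Fin n) F) : Matrix (Fin n) (Fin n) F) = c • (1 : Matrix (Fin n) (Fin n) F)) →
      (∀ c : F, (x : Matrix (Fin n) (Fin n) F) ≠ c • (1 : Matrix (Fin n) (Fin n) F)) →
      ∃ W : Submodule F (Fin n → F), Module.finrank F ↥W = m ∧ W.map (Matrix.toLin' (x : Matrix (Fin n) (Fin n) F)) ≤ W) ↔
    (r ≠ p ∧
      ((orderOf (q : ZMod r) = 1 ∧ (r ∣ m ∨ (padicValNat r n ≤ padicValNat r (q - 1) ∧ (r = 2 → Even n → q % 4 = 1)))) ∨
       (2 ≤ orderOf (q : ZMod r) ∧ orderOf (q : ZMod r) ≤ m ∧ m % orderOf (q : ZMod r) ≤ n % orderOf (q : ZMod r)))) := by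
  classical
  obtain ⟨i, hi⟩ : ∃ i, i = orderOf (q : ZMod r) := ⟨_, rfl⟩
  rw [← hi]
  have hfinV : finrank F (Fin n → F) = n := by simp
  have hq1 : 1 ≤ q := by rw [← hq]; exact Fintype.card_pos
  have hq2 : 2 ≤ q := by rw [← hq]; exact Fintype.one_lt_card
  have hrpr : r.Prime := Fact.out
  have hmn' : m ≤ finrank F (Fin n → F) := by rw [hfinV]; omega
  obtain ⟨j, hjm, hjd⟩ := prime_dvd_count (K := F) (V := Fin n → F) hrpr m hmn' hrΩ
  rw [hfinV, hq] at hjd
  have hrp : r ≠ p := by
    rintro rfl
    exact char_not_dvd_pow_sub_one (F := F) (p := r) hq (n - j) (by omega) hjd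
  have hipos : 0 < i := by rw [hi]; exact order_pos (F := F) (p := p) hq hrp
  have hidvd : i ∣ n - j := by rw [hi]; exact (order_dvd_iff hq1).1 hjd
  have hi1iff : i = 1 ↔ r ∣ q - 1 := by rw [hi]; exact order_one_iff hq1
  constructor
  · intro hall
    refine ⟨hrp, ?_⟩
    by_cases hi1 : i = 1
    · left
      refine ⟨hi1, ?_⟩
      by_contra hcon
      push Not at hcon
      obtain ⟨hrm, hcon2⟩ := hcon
      have hrq : r ∣ q - 1 := hi1iff.1 hi1
      -- the bad scalar
      have key : ∃ (c : F) (s : ℕ), (∀ d : F, d ^ r ≠ c) ∧ n = r * s ∧ ((-1) ^ r * (-c)) ^ s = 1 := by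
        by_cases hval : padicValNat r n ≤ padicValNat r (q - 1)
        · obtain ⟨hr2, hne, hq4⟩ := hcon2 hval
          subst hr2
          obtain ⟨t, ht⟩ := hne
          refine ⟨-1, t, ?_, by omega, by simp⟩
          intro d hd
          have h1 : IsSquare (-1 : F) := ⟨d, by rw [← hd]; ring⟩
          rw [FiniteField.isSquare_neg_one_iff, hq] at h1
          have h2 : ringChar F ≠ 2 := by
            intro hc
            have hq2' : Even q := by
              rw [← hq]
              exact Nat.even_iff.2 (FiniteField.even_card_of_char_two hc)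
            have : 2 ∣ q - 1 := hrq
            obtain ⟨u, hu⟩ := hq2'
            omega
          have h3 : Odd q := by rw [← hq]; exact Nat.odd_iff.2 (FiniteField.odd_card_of_char_ne_two h2)
          obtain ⟨u, hu⟩ := h3
          omega
        · push Not at hval
          obtain ⟨c, hc0, hno, hcp⟩ := exists_no_root (F := F) hq hrpr hrq
          have hn0 : n ≠ 0 := by omega
          have h1 : r ^ (padicValNat r (q - 1) + 1) ∣ n := (padicValNat_dvd_iff_le hn0).2 hval
          obtain ⟨t, ht⟩ := h1
          refine ⟨c, r ^ padicValNat r (q - 1) * t, hno, by rw [ht]; ring, ?_⟩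
          by_cases hr2 : r = 2
          · subst hr2
            have h5 : 1 ≤ padicValNat 2 (q - 1) := one_le_padicValNat_of_dvd (by omega) hrq
            have h6 : Even (2 ^ padicValNat 2 (q - 1) * t) := by
              apply Even.mul_right
              exact (Nat.even_pow.2 ⟨even_two, by omega⟩)
            have h7 : ((-1 : F) ^ 2 * (-c)) = -c := by ring
            rw [h7, h6.neg_pow, pow_mul, hcp, one_pow]
          · have hodd : Odd r := hrpr.odd_of_ne_two hr2
            have h7 : ((-1 : F) ^ r * (-c)) = c := by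
              rw [hodd.neg_one_pow]; ring
            rw [h7, pow_mul, hcp, one_pow]
      obtain ⟨c, s, hno, hns, hdet1⟩ := key
      obtain ⟨y, hy1, hy2⟩ := exists_binom_model (V := Fin n → F) hrpr hno s (by rw [hfinV, hns])
      obtain ⟨x, hx⟩ := sl_exists_of_det y (by rw [hy2, hdet1])
      obtain ⟨W, hW2, hW1⟩ := hall x ⟨c, by
        apply Matrix.toLin'.injective
        rw [sl_lin_pow, hx, hy1, lin_smul_one]⟩ (by
        intro c' hc'
        have h1 : y = c' • (1 : Module.End F (Fin n → F)) := by
          rw [← hx, hc', lin_smul_one]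
        rw [h1, _root_.smul_pow, one_pow] at hy1
        apply hno c'
        by_contra hne
        have hs : 0 < n := by omega
        have h3 := congrArg (fun f : Module.End F (Fin n → F) => f (fun _ => 1) ⟨0, hs⟩) hy1
        simp at h3
        exact hne h3)
      rw [hx] at hW1
      have h1 := binom_dvd hrpr hno y hy1 W (fun v hv => hW1 (Submodule.mem_map_of_mem hv))
      rw [hW2] at h1
      exact hrm h1
    · right
      have hi2 : 2 ≤ i := by omega
      refine ⟨hi2, ?_⟩
      have hrq : ¬ r ∣ q - 1 := fun h => hi1 (hi1iff.2 h)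
      obtain ⟨s, k, hsk, hk⟩ : ∃ s k, n = s * i + k ∧ k = n % i := ⟨n / i, n % i, by
        rw [mul_comm]; exact (Nat.div_add_mod n i).symm, rfl⟩
      have hki : k < i := by rw [hk]; exact Nat.mod_lt _ hipos
      obtain ⟨y, hy1, hy2⟩ := exists_model (F := F) (V := Fin n → F) (p := p) hq hrp s k (by rw [hfinV, ← hi, hsk])
      have hdet : LinearMap.det y = 1 := by
        apply eq_one_of_pow_coprime (F := F) hq hrpr hrq
        rw [← map_pow, hy1, map_one]
      obtain ⟨x, hx⟩ := sl_exists_of_det y hdet
      have hin : i ≤ n := by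
        have h1 : 0 < n - j := by omega
        have h2 := Nat.le_of_dvd h1 hidvd
        omega
      obtain ⟨W, hW2, hW1⟩ := hall x ⟨1, by
        apply Matrix.toLin'.injective
        rw [sl_lin_pow, hx, hy1, lin_smul_one, one_smul]⟩ (by
        intro c' hc'
        have h1 : y = c' • (1 : Module.End F (Fin n → F)) := by
          rw [← hx, hc', lin_smul_one]
        have h2 : c' ^ r = 1 := by
          rw [h1, _root_.smul_pow, one_pow] at hy1
          have hs : 0 < n := by omega
          have h3 := congrArg (fun f : Module.End F (Fin n → F) => f (fun _ => 1) ⟨0, hs⟩) hy1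
          simpa using h3
        have h3 : c' = 1 := eq_one_of_pow_coprime (F := F) hq hrpr hrq h2
        rw [h3, one_smul] at h1
        rw [h1] at hy2
        have h4 : aeval (1 : Module.End F (Fin n → F)) (X - C 1 : Polynomial F) = 0 := by
          simp
        rw [h4, LinearMap.ker_zero, finrank_top, hfinV] at hy2
        have h5 : n < i := by omega
        omega)
      rw [hx] at hW1
      have hWinv : ∀ v ∈ W, y v ∈ W := fun v hv => hW1 (Submodule.mem_map_of_mem hv)
      obtain ⟨e, he⟩ := finrank_inv_eq (F := F) (p := p) hq hrp hy1 W hWinv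
      rw [← hi, hW2] at he
      have h1 : finrank F (W ⊓ LinearMap.ker (Polynomial.aeval y (X - C 1 : Polynomial F)) : Submodule F (Fin n → F)) ≤ k := by
        rw [← hy2]
        exact Submodule.finrank_mono inf_le_right
      obtain ⟨a, ha⟩ : ∃ a, a = finrank F (W ⊓ LinearMap.ker (Polynomial.aeval y (X - C 1 : Polynomial F)) : Submodule F (Fin n → F)) := ⟨_, rfl⟩
      rw [← ha] at h1 he
      have hai : a < i := by omega
      have hmmod : m % i = a := by
        rw [he, Nat.add_mul_mod_self_right, Nat.mod_eq_of_lt hai]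
      have hmod : m % i ≤ n % i := by
        rw [hmmod, ← hk]; exact h1
      refine ⟨?_, hmod⟩
      by_contra hlt
      push Not at hlt
      -- `m < i`: then `j ≡ k`, contradiction
      have h2 : m % i = m := Nat.mod_eq_of_lt hlt
      have h3 : n % i = j % i := by
        have h4 : n = (n - j) + j := by omega
        rw [h4, Nat.add_mod, Nat.mod_eq_zero_of_dvd hidvd, zero_add, Nat.mod_mod]
      have h5 : j % i = j := Nat.mod_eq_of_lt (by omega)
      omega
  · rintro ⟨-, h⟩ x ⟨c, hc⟩ hns
    obtain ⟨y, hy⟩ : ∃ y, y = Matrix.toLin' (x : Matrix (Fin n) (Fin n) F) := ⟨_, rfl⟩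
    have hyr : y ^ r = c • (1 : Module.End F (Fin n → F)) := by
      rw [hy, ← sl_lin_pow, hc, lin_smul_one]
    have hdet : LinearMap.det y = 1 := by rw [hy]; exact sl_lin_det x
    have hc0 : c ≠ 0 := by
      rintro rfl
      rw [zero_smul] at hyr
      have h1 : (LinearMap.det y) ^ r = 0 := by
        rw [← map_pow, hyr]
        have hs : 0 < n := by omega
        haveI : Nonempty (Fin n) := ⟨⟨0, hs⟩⟩
        haveI : Nontrivial (Fin n → F) := inferInstance
        have : (0 : Module.End F (Fin n → F)) = (0 : F) • LinearMap.id := by simp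
        rw [this, LinearMap.det_smul, zero_pow (by rw [hfinV]; omega), zero_mul]
      rw [hdet, one_pow] at h1
      exact one_ne_zero h1
    suffices hs : ∃ W : Submodule F (Fin n → F), (∀ v ∈ W, y v ∈ W) ∧ finrank F W = m by
      obtain ⟨W, hW1, hW2⟩ := hs
      refine ⟨W, hW2, ?_⟩
      rw [← hy]
      rintro _ ⟨v, hv, rfl⟩
      exact hW1 v hv
    rcases h with ⟨hi1, hcase⟩ | ⟨hi2, him, hmod⟩
    · by_cases hroot : ∃ d : F, d ^ r = c
      · obtain ⟨d, rfl⟩ := hroot
        have hd : d ≠ 0 := by
          rintro rfl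
          rw [zero_pow hrpr.ne_zero] at hc0
          exact hc0 rfl
        have hz := scaled_pow y hd hyr
        obtain ⟨W, hW1, hW2⟩ := exists_inv_of_mod (F := F) (p := p) hq hrp hz m hmn' (by
          rw [← hi, hi1, Nat.mod_one]; exact Nat.zero_le _)
        exact ⟨W, inv_scaled y hd W hW1, hW2⟩
      · push Not at hroot
        by_cases hrm : r ∣ m
        · obtain ⟨e, rfl⟩ := hrm
          obtain ⟨W, hW1, hW2⟩ := binom_exists_inv hrpr hroot y hyr e (by rw [mul_comm]; exact hmn')
          exact ⟨W, hW1, by rw [hW2, mul_comm]⟩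
        · obtain ⟨hval, hq4⟩ := hcase.resolve_left hrm
          exfalso
          obtain ⟨s, hs⟩ := binom_dvd_finrank hrpr hroot y hyr
          have h1 := binom_det hrpr hroot y hyr
          rw [hdet, hs, Nat.mul_div_cancel_left _ hrpr.pos] at h1
          rw [hfinV] at hs
          have h2 := binom_sign_no_root (F := F) hq hrpr hroot hc0 h1.symm (fun hr2 => hq4 hr2 (by
            rw [hs, hr2]; exact even_two_mul s))
          obtain ⟨t, ht⟩ := h2
          have hn0 : n ≠ 0 := by omega
          have h3 : r ^ (padicValNat r (q - 1) + 1) ∣ n := ⟨t, by rw [hs, ht]; ring⟩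
          have h4 := (padicValNat_dvd_iff_le hn0).1 h3
          omega
    · have hrq : ¬ r ∣ q - 1 := fun h => by
        have := hi1iff.2 h
        omega
      obtain ⟨d, rfl⟩ := exists_root_of_coprime (F := F) hq hrpr hrq c
      have hd : d ≠ 0 := by
        rintro rfl
        rw [zero_pow hrpr.ne_zero] at hc0
        exact hc0 rfl
      have hz := scaled_pow y hd hyr
      obtain ⟨e, he⟩ := finrank_inv_eq (F := F) (p := p) hq hrp hz ⊤ (fun _ _ => Submodule.mem_top)
      rw [← hi, top_inf_eq, finrank_top, hfinV] at he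
      obtain ⟨W, hW1, hW2⟩ := exists_inv_of_mod (F := F) (p := p) hq hrp hz m hmn' (by
        rw [← hi]
        refine hmod.trans ?_
        have h8 := congrArg (· % i) he
        simp only [Nat.add_mul_mod_self_right] at h8
        rw [h8]
        exact Nat.mod_le _ _)
      exact ⟨W, inv_scaled y hd W hW1, hW2⟩

end Cfsg.Agent.S5949
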