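import Cfsg.Statements.S5950
import Mathlib
import Cfsg.Agent.Lib.Geo.ElusMaschke
import Cfsg.Agent.S5949

set_option autoImplicit false

namespace Cfsg.Agent.S5950

open Cfsg.Agent.Lib.Geo Polynomial Module

theorem result {F : Type*} [Field F] [Fintype F] {p : ℕ} [Fact p.Prime] [CharP F p] {q : ℕ} (hq : Fintype.card F = q)
    (n m : ℕ) (hn : 3 ≤ n) (hm : 1 ≤ m) (hmn : 2 * m < n)
    (r : ℕ) [Fact r.Prime]
    (hrΩ : r ∣ Nat.card {P : Submodule F (Fin n → F) × Submodule F (Fin n → F) // IsCompl P.1 P.2 ∧ Module.finrank F ↥P.1 = m}) :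
    (∀ x : Matrix.SpecialLinearGroup (Fin n) F,
      (∃ c : F, ((x ^ r : Matrix.SpecialLinearGroup (Fin n) F) : Matrix (Fin n) (Fin n) F) = c • (1 : Matrix (Fin n) (Fin n) F)) →
      (∀ c : F, (x : Matrix (Fin n) (Fin n) F) ≠ c • (1 : Matrix (Fin n) (Fin n) F)) →
      ∃ U W : Submodule F (Fin n → F), IsCompl U W ∧ Module.finrank F ↥U = m ∧
        U.map (Matrix.toLin' (x : Matrix (Fin n) (Fin n) F)) ≤ U ∧ W.map (Matrix.toLin' (x : Matrix (Fin n) (Fin n) F)) ≤ W) ↔
    ((r = p ∧ 2 < p ∧ (∀ μ : Multiset ℕ, (∀ a ∈ μ, 0 < a ∧ a ≤ p) → μ.sum = n → ∃ ν : Multiset ℕ, ν ≤ μ ∧ ν.sum = m)) ∨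
     (r = p ∧ p = 2 ∧ (Odd n ∨ Even m)) ∨
     (r ≠ p ∧
      ((orderOf (q : ZMod r) = 1 ∧ (r ∣ m ∨ (padicValNat r n ≤ padicValNat r (q - 1) ∧ (r = 2 → Even n → q % 4 = 1)))) ∨
       (2 ≤ orderOf (q : ZMod r) ∧ orderOf (q : ZMod r) ≤ m ∧ m % orderOf (q : ZMod r) ≤ n % orderOf (q : ZMod r))))) := by
  classical
  have hfinV : finrank F (Fin n → F) = n := by simp
  have hq1 : 1 ≤ q := by rw [← hq]; exact Fintype.card_pos
  have hrpr : r.Prime := Fact.out
  have hmn' : m ≤ finrank F (Fin n → F) := by rw [hfinV]; omega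
  have hne : ∀ k, 0 < k → n ≠ 0 := fun _ _ => by omega
  by_cases hrp : r = p
  · subst hrp
    constructor
    · intro hall
      have key : ∀ μ : Multiset ℕ, (∀ a ∈ μ, 0 < a ∧ a ≤ r) → μ.sum = n → ∃ ν, ν ≤ μ ∧ ν.sum = m := by
        intro μ hμ hsum
        obtain ⟨N, hN⟩ := nil_model (F := F) μ (Fin n → F) (by rw [hfinV, hsum])
        have hNr : N ^ r = 0 := by
          have h1 : LinearMap.ker (N ^ r) = ⊤ := by
            apply Submodule.eq_top_of_finrank_eq
            rw [hN, hfinV, ← hsum]
            congr 1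
            have : μ.map (fun a => min a r) = μ.map id := by
              apply Multiset.map_congr rfl
              intro a ha
              have := hμ a ha
              simp only [id]
              omega
            rw [this, Multiset.map_id]
          exact LinearMap.ker_eq_top.1 h1
        by_cases hN0 : N = 0
        · obtain ⟨U, -, hU⟩ := exists_sub_of_le (F := F) (V := Fin n → F) ⊤ m (by rw [finrank_top]; exact hmn')
          obtain ⟨W, hW⟩ := Submodule.exists_isCompl U
          obtain ⟨ν, h1, h2⟩ := ks_lemma N r hNr hW (by simp [hN0]) (by simp [hN0]) μ hN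
          exact ⟨ν, h1, by rw [h2, hU]⟩
        · have hy : (1 + N) ^ r = 1 := by
            rw [one_add_pow_char (p := r), hNr, add_zero]
          have hdet : LinearMap.det (1 + N) = 1 := by
            apply eq_one_of_pow_char (p := r)
            rw [← map_pow, hy, map_one]
          obtain ⟨x, hx⟩ := sl_exists_of_det (1 + N) hdet
          obtain ⟨U, W, hcw, hd, hU, hW⟩ := hall x ⟨1, by
            apply Matrix.toLin'.injective
            rw [sl_lin_pow, hx, hy, lin_smul_one, one_smul]⟩ (by
            intro c' hc'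
            have h1 : (1 + N) = c' • (1 : Module.End F (Fin n → F)) := by
              rw [← hx, hc', lin_smul_one]
            have h2 : c' ^ r = 1 := by
              rw [h1, _root_.smul_pow, one_pow] at hy
              have hs : 0 < n := by omega
              have h3 := congrArg (fun f : Module.End F (Fin n → F) => f (fun _ => 1) ⟨0, hs⟩) hy
              simpa using h3
            have h3 : c' = 1 := eq_one_of_pow_char (p := r) h2
            rw [h3, one_smul] at h1
            exact hN0 (by simpa using h1))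
          rw [hx] at hU hW
          have hU' : ∀ v ∈ U, N v ∈ U := by
            intro v hv
            have h1 : (1 + N) v ∈ U := hU (Submodule.mem_map_of_mem hv)
            have h2 : N v = (1 + N) v - v := by simp
            rw [h2]
            exact U.sub_mem h1 hv
          have hW' : ∀ v ∈ W, N v ∈ W := by
            intro v hv
            have h1 : (1 + N) v ∈ W := hW (Submodule.mem_map_of_mem hv)
            have h2 : N v = (1 + N) v - v := by simp
            rw [h2]
            exact W.sub_mem h1 hv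
          obtain ⟨ν, h1, h2⟩ := ks_lemma N r hNr hcw hU' hW' μ hN
          exact ⟨ν, h1, by rw [h2, hd]⟩
      by_cases hp2 : r = 2
      · right; left
        refine ⟨rfl, hp2, ?_⟩
        by_contra hcon
        push Not at hcon
        obtain ⟨h1, h2⟩ := hcon
        have h1' : Even n := Nat.not_odd_iff_even.1 h1
        obtain ⟨t, ht⟩ := h1'
        obtain ⟨ν, h3, h4⟩ := key (Multiset.replicate t 2) (by
          intro a ha
          rw [Multiset.eq_of_mem_replicate ha, hp2]
          omega) (by
          rw [Multiset.sum_replicate]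
          simp
          omega)
        obtain ⟨k, -, hk⟩ := Multiset.le_replicate_iff.1 h3
        rw [hk, Multiset.sum_replicate] at h4
        apply h2
        rw [← h4]
        simp
      · left
        refine ⟨rfl, ?_, key⟩
        have := hrpr.two_le
        omega
    · intro hcond x ⟨c, hc⟩ hns
      obtain ⟨y, hy⟩ : ∃ y, y = Matrix.toLin' (x : Matrix (Fin n) (Fin n) F) := ⟨_, rfl⟩
      have hyr : y ^ r = c • (1 : Module.End F (Fin n → F)) := by
        rw [hy, ← sl_lin_pow, hc, lin_smul_one]
      obtain ⟨d, rfl⟩ := exists_root_of_coprime (F := F) hq hrpr (by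
        have := char_not_dvd_pow_sub_one (F := F) (p := r) hq 1 le_rfl
        simpa using this) c
      have hN : (y - d • (1 : Module.End F (Fin n → F))) ^ r = 0 := by
        rw [sub_scalar_pow_char (p := r), hyr, sub_self]
      obtain ⟨μ, hμ1, hμ2, hμ3⟩ := nil_decomp r n (Fin n → F) _ hfinV hN
      have hν : ∃ ν, ν ≤ μ ∧ ν.sum = m := by
        rcases hcond with ⟨-, -, h3⟩ | ⟨-, h2, h3⟩ | ⟨h, -⟩
        · exact h3 μ hμ1 hμ2
        · apply mset_two_parts μ (by rw [← h2]; exact hμ1) m (by omega) (by rw [hμ2]; exact h3)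
        · exact absurd rfl h
      obtain ⟨ν, hν1, hν2⟩ := hν
      obtain ⟨U, W, h1, h2, h3, h4⟩ := hμ3 ν hν1
      have hinv : ∀ S : Submodule F (Fin n → F), (∀ u ∈ S, (y - d • (1 : Module.End F (Fin n → F))) u ∈ S) → S.map y ≤ S := by
        intro S hS
        rintro _ ⟨v, hv, rfl⟩
        have h5 := S.add_mem (hS v hv) (S.smul_mem d hv)
        simpa using h5
      refine ⟨U, W, h1, by rw [h4, hν2], ?_, ?_⟩
      · rw [← hy]; exact hinv U h2
      · rw [← hy]; exact hinv W h3
  · have hrΩ' : r ∣ Nat.card {W : Submodule F (Fin n → F) // finrank F W = m} := by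
      rw [card_pairs] at hrΩ
      rcases (Nat.Prime.dvd_mul hrpr).1 hrΩ with h | h
      · exact h
      · exfalso
        have h1 := hrpr.dvd_of_dvd_pow h
        obtain ⟨f, hpos, hf⟩ := FiniteField.card F p
        rw [hf] at h1
        have h2 := hrpr.dvd_of_dvd_pow h1
        exact hrp ((Nat.prime_dvd_prime_iff_eq hrpr Fact.out).1 h2)
    have hT' : (n, q) ≠ (2, 2) ∧ (n, q) ≠ (2, 3) := by
      constructor <;> (intro h; have := congrArg Prod.fst h; simp at this; omega)
    have hS := Cfsg.Agent.S5949.result (F := F) (p := p) (q := q) hq n m (by omega) hT' hm (by omega) r hrΩ'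
    constructor
    · intro hall
      refine Or.inr (Or.inr (hS.1 (fun x h1 h2 => ?_)))
      obtain ⟨U, W, -, hd, hU, -⟩ := hall x h1 h2
      exact ⟨U, hd, hU⟩
    · intro hcond
      rcases hcond with ⟨h, -⟩ | ⟨h, -⟩ | hcond'
      · exact absurd h hrp
      · exact absurd h hrp
      intro x hsc hns
      obtain ⟨U, hd, hU⟩ := hS.2 hcond' x hsc hns
      obtain ⟨c, hc⟩ := hsc
      obtain ⟨y, hy⟩ : ∃ y, y = Matrix.toLin' (x : Matrix (Fin n) (Fin n) F) := ⟨_, rfl⟩
      have hyr : y ^ r = c • (1 : Module.End F (Fin n → F)) := by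
        rw [hy, ← sl_lin_pow, hc, lin_smul_one]
      have hdet : LinearMap.det y = 1 := by rw [hy]; exact sl_lin_det x
      have hc0 : c ≠ 0 := by
        rintro rfl
        rw [zero_smul] at hyr
        have h1 : (LinearMap.det y) ^ r = 0 := by
          rw [← map_pow, hyr]
          have : (0 : Module.End F (Fin n → F)) = (0 : F) • LinearMap.id := by simp
          rw [this, LinearMap.det_smul, zero_pow (by rw [hfinV]; omega), zero_mul]
        rw [hdet, one_pow] at h1
        exact one_ne_zero h1
      have hr0 : (r : F) ≠ 0 := by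
        intro h0
        have h1 := (CharP.cast_eq_zero_iff F p r).1 h0
        exact hrp ((Nat.prime_dvd_prime_iff_eq Fact.out hrpr).1 h1).symm
      rw [← hy] at hU ⊢
      obtain ⟨W, hW1, hW2⟩ := inv_compl y hr0 hc0 hyr U (fun v hv => hU (Submodule.mem_map_of_mem hv))
      refine ⟨U, W, hW1, hd, hU, ?_⟩
      rintro _ ⟨v, hv, rfl⟩
      exact hW2 v hv

end Cfsg.Agent.S5950
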