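import Cfsg.Statements.S5951
import Mathlib
import Cfsg.Agent.Lib.Geo.ElusFlags

set_option autoImplicit false

namespace Cfsg.Agent.S5951

open Cfsg.Agent.Lib.Geo Polynomial Module

theorem result {F : Type*} [Field F] [Fintype F] {p : ℕ} [Fact p.Prime] [CharP F p] {q : ℕ} (hq : Fintype.card F = q)
    (n m : ℕ) (hn : 2 ≤ n) (hT : (n, q) ≠ (2, 2) ∧ (n, q) ≠ (2, 3)) (hm : 1 ≤ m) (hmn : 2 * m < n)
    (r : ℕ) [Fact r.Prime]
    (hrΩ : r ∣ Nat.card {P : Submodule F (Fin n → F) × Submodule F (Fin n → F) //
        P.1 ≤ P.2 ∧ Module.finrank F ↥P.1 = m ∧ Module.finrank F ↥P.2 = n - m}) :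
    (∀ x : Matrix.SpecialLinearGroup (Fin n) F,
      (∃ c : F, ((x ^ r : Matrix.SpecialLinearGroup (Fin n) F) : Matrix (Fin n) (Fin n) F) = c • (1 : Matrix (Fin n) (Fin n) F)) →
      (∀ c : F, (x : Matrix (Fin n) (Fin n) F) ≠ c • (1 : Matrix (Fin n) (Fin n) F)) →
      ∃ U W : Submodule F (Fin n → F), U ≤ W ∧ Module.finrank F ↥U = m ∧ Module.finrank F ↥W = n - m ∧
        U.map (Matrix.toLin' (x : Matrix (Fin n) (Fin n) F)) ≤ U ∧ W.map (Matrix.toLin' (x : Matrix (Fin n) (Fin n) F)) ≤ W) ↔
    (r ≠ p ∧
      ((orderOf (q : ZMod r) = 1 ∧ (r ∣ m ∨ (padicValNat r n ≤ padicValNat r (q - 1) ∧ (r = 2 → Even n → q % 4 = 1)))) ∨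
       (2 ≤ orderOf (q : ZMod r) ∧ orderOf (q : ZMod r) ≤ m ∧ 2 * (m % orderOf (q : ZMod r)) ≤ n % orderOf (q : ZMod r)))) := by
  classical
  obtain ⟨i, hi⟩ : ∃ i, i = orderOf (q : ZMod r) := ⟨_, rfl⟩
  rw [← hi]
  have hfinV : finrank F (Fin n → F) = n := by simp
  have hq1 : 1 ≤ q := by rw [← hq]; exact Fintype.card_pos
  have hq2 : 2 ≤ q := by rw [← hq]; exact Fintype.one_lt_card
  have hrpr : r.Prime := Fact.out
  have hmn' : m ≤ finrank F (Fin n → F) := by rw [hfinV]; omega
  have hcount : ∃ j, j < m ∧ (r ∣ q ^ (n - j) - 1 ∨ r ∣ q ^ (n - m - j) - 1) := by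
    have hsy := card_subspaces_symm (K := F) (V := Fin n → F) m hmn'
    rw [hfinV] at hsy
    rw [card_flags, hsy] at hrΩ
    rcases (Nat.Prime.dvd_mul hrpr).1 hrΩ with h | h
    · obtain ⟨j, hj, hd⟩ := prime_dvd_count (K := F) (V := Fin n → F) hrpr m hmn' h
      rw [hfinV, hq] at hd
      exact ⟨j, hj, Or.inl hd⟩
    · obtain ⟨j, hj, hd⟩ := prime_dvd_count (K := F) (V := Fin (n - m) → F) hrpr m (by simp; omega) h
      have h2 : finrank F (Fin (n - m) → F) = n - m := by simp
      rw [h2, hq] at hd
      exact ⟨j, hj, Or.inr hd⟩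
  obtain ⟨j, hjm, hjd⟩ := hcount
  have hrp : r ≠ p := by
    rintro rfl
    rcases hjd with h | h
    · exact char_not_dvd_pow_sub_one (F := F) (p := r) hq (n - j) (by omega) h
    · exact char_not_dvd_pow_sub_one (F := F) (p := r) hq (n - m - j) (by omega) h
  have hipos : 0 < i := by rw [hi]; exact order_pos (F := F) (p := p) hq hrp
  have hidvd : i ∣ n - j ∨ i ∣ n - m - j := by
    rcases hjd with h | h
    · left; rw [hi]; exact (order_dvd_iff hq1).1 h
    · right; rw [hi]; exact (order_dvd_iff hq1).1 h
  have hi1iff : i = 1 ↔ r ∣ q - 1 := by rw [hi]; exact order_one_iff hq1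
  constructor
  · intro hall
    refine ⟨hrp, ?_⟩
    by_cases hi1 : i = 1
    · left
      refine ⟨hi1, ?_⟩
      by_contra hcon
      push Not at hcon
      obtain ⟨hrm, hcon2⟩ := hcon
      have hrq : r ∣ q - 1 := hi1iff.1 hi1
      -- the bad scalar
      have key : ∃ (c : F) (s : ℕ), (∀ d : F, d ^ r ≠ c) ∧ n = r * s ∧ ((-1) ^ r * (-c)) ^ s = 1 := by
        by_cases hval : padicValNat r n ≤ padicValNat r (q - 1)
        · obtain ⟨hr2, hne, hq4⟩ := hcon2 hval
          subst hr2
          obtain ⟨t, ht⟩ := hne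
          refine ⟨-1, t, ?_, by omega, by simp⟩
          intro d hd
          have h1 : IsSquare (-1 : F) := ⟨d, by rw [← hd]; ring⟩
          rw [FiniteField.isSquare_neg_one_iff, hq] at h1
          have h2 : ringChar F ≠ 2 := by
            intro hc
            have hq2' : Even q := by
              rw [← hq]
              exact Nat.even_iff.2 (FiniteField.even_card_of_char_two hc)
            have : 2 ∣ q - 1 := hrq
            obtain ⟨u, hu⟩ := hq2'
            omega
          have h3 : Odd q := by rw [← hq]; exact Nat.odd_iff.2 (FiniteField.odd_card_of_char_ne_two h2)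
          obtain ⟨u, hu⟩ := h3
          omega
        · push Not at hval
          obtain ⟨c, hc0, hno, hcp⟩ := exists_no_root (F := F) hq hrpr hrq
          have hn0 : n ≠ 0 := by omega
          have h1 : r ^ (padicValNat r (q - 1) + 1) ∣ n := (padicValNat_dvd_iff_le hn0).2 hval
          obtain ⟨t, ht⟩ := h1
          refine ⟨c, r ^ padicValNat r (q - 1) * t, hno, by rw [ht]; ring, ?_⟩
          by_cases hr2 : r = 2
          · subst hr2
            have h5 : 1 ≤ padicValNat 2 (q - 1) := one_le_padicValNat_of_dvd (by omega) hrq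
            have h6 : Even (2 ^ padicValNat 2 (q - 1) * t) := by
              apply Even.mul_right
              exact (Nat.even_pow.2 ⟨even_two, by omega⟩)
            have h7 : ((-1 : F) ^ 2 * (-c)) = -c := by ring
            rw [h7, h6.neg_pow, pow_mul, hcp, one_pow]
          · have hodd : Odd r := hrpr.odd_of_ne_two hr2
            have h7 : ((-1 : F) ^ r * (-c)) = c := by
              rw [hodd.neg_one_pow]; ring
            rw [h7, pow_mul, hcp, one_pow]
      obtain ⟨c, s, hno, hns, hdet1⟩ := key
      obtain ⟨y, hy1, hy2⟩ := exists_binom_model (V := Fin n → F) hrpr hno s (by rw [hfinV, hns])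
      obtain ⟨x, hx⟩ := sl_exists_of_det y (by rw [hy2, hdet1])
      obtain ⟨U, W, -, hU2, -, hU1, -⟩ := hall x ⟨c, by
        apply Matrix.toLin'.injective
        rw [sl_lin_pow, hx, hy1, lin_smul_one]⟩ (by
        intro c' hc'
        have h1 : y = c' • (1 : Module.End F (Fin n → F)) := by
          rw [← hx, hc', lin_smul_one]
        rw [h1, _root_.smul_pow, one_pow] at hy1
        apply hno c'
        by_contra hne
        have hs : 0 < n := by omega
        have h3 := congrArg (fun f : Module.End F (Fin n → F) => f (fun _ => 1) ⟨0, hs⟩) hy1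
        simp at h3
        exact hne h3)
      rw [hx] at hU1
      have h1 := binom_dvd hrpr hno y hy1 U (fun v hv => hU1 (Submodule.mem_map_of_mem hv))
      rw [hU2] at h1
      exact hrm h1
    · right
      have hi2 : 2 ≤ i := by omega
      refine ⟨hi2, ?_⟩
      have hrq : ¬ r ∣ q - 1 := fun h => hi1 (hi1iff.2 h)
      obtain ⟨s, k, hsk, hk⟩ : ∃ s k, n = s * i + k ∧ k = n % i := ⟨n / i, n % i, by
        rw [mul_comm]; exact (Nat.div_add_mod n i).symm, rfl⟩
      have hki : k < i := by rw [hk]; exact Nat.mod_lt _ hipos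
      obtain ⟨y, hy1, hy2⟩ := exists_model (F := F) (V := Fin n → F) (p := p) hq hrp s k (by rw [hfinV, ← hi, hsk])
      have hdet : LinearMap.det y = 1 := by
        apply eq_one_of_pow_coprime (F := F) hq hrpr hrq
        rw [← map_pow, hy1, map_one]
      obtain ⟨x, hx⟩ := sl_exists_of_det y hdet
      have hin : i ≤ n := by
        rcases hidvd with h | h
        · have h1 : 0 < n - j := by omega
          have h2 := Nat.le_of_dvd h1 h
          omega
        · have h1 : 0 < n - m - j := by omega
          have h2 := Nat.le_of_dvd h1 h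
          omega
      obtain ⟨U, W, hUW, hU2, hW2, hU1, hW1⟩ := hall x ⟨1, by
        apply Matrix.toLin'.injective
        rw [sl_lin_pow, hx, hy1, lin_smul_one, one_smul]⟩ (by
        intro c' hc'
        have h1 : y = c' • (1 : Module.End F (Fin n → F)) := by
          rw [← hx, hc', lin_smul_one]
        have h2 : c' ^ r = 1 := by
          rw [h1, _root_.smul_pow, one_pow] at hy1
          have hs : 0 < n := by omega
          have h3 := congrArg (fun f : Module.End F (Fin n → F) => f (fun _ => 1) ⟨0, hs⟩) hy1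
          simpa using h3
        have h3 : c' = 1 := eq_one_of_pow_coprime (F := F) hq hrpr hrq h2
        rw [h3, one_smul] at h1
        rw [h1] at hy2
        have h4 : aeval (1 : Module.End F (Fin n → F)) (X - C 1 : Polynomial F) = 0 := by
          simp
        rw [h4, LinearMap.ker_zero, finrank_top, hfinV] at hy2
        have h5 : n < i := by omega
        omega)
      rw [hx] at hU1 hW1
      have hUinv : ∀ v ∈ U, y v ∈ U := fun v hv => hU1 (Submodule.mem_map_of_mem hv)
      have hWinv : ∀ v ∈ W, y v ∈ W := fun v hv => hW1 (Submodule.mem_map_of_mem hv)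
      obtain ⟨e, he⟩ := finrank_inv_eq (F := F) (p := p) hq hrp hy1 U hUinv
      obtain ⟨e', he'⟩ := finrank_inv_eq (F := F) (p := p) hq hrp hy1 W hWinv
      rw [← hi, hU2] at he
      rw [← hi, hW2] at he'
      have h1 : finrank F (W ⊓ LinearMap.ker (Polynomial.aeval y (X - C 1 : Polynomial F)) : Submodule F (Fin n → F)) ≤ k := by
        rw [← hy2]
        exact Submodule.finrank_mono inf_le_right
      have h1' : finrank F (U ⊓ LinearMap.ker (Polynomial.aeval y (X - C 1 : Polynomial F)) : Submodule F (Fin n → F)) ≤ finrank F (W ⊓ LinearMap.ker (Polynomial.aeval y (X - C 1 : Polynomial F)) : Submodule F (Fin n → F)) :=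
        Submodule.finrank_mono (inf_le_inf_right _ hUW)
      obtain ⟨a, ha⟩ : ∃ a, a = finrank F (U ⊓ LinearMap.ker (Polynomial.aeval y (X - C 1 : Polynomial F)) : Submodule F (Fin n → F)) := ⟨_, rfl⟩
      obtain ⟨b, hb⟩ : ∃ b, b = finrank F (W ⊓ LinearMap.ker (Polynomial.aeval y (X - C 1 : Polynomial F)) : Submodule F (Fin n → F)) := ⟨_, rfl⟩
      rw [← ha] at he h1'
      rw [← hb] at he' h1 h1'
      have hai : a < i := by omega
      have hbi : b < i := by omega
      have hmmod : m % i = a := by
        rw [he, Nat.add_mul_mod_self_right, Nat.mod_eq_of_lt hai]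
      have hnsum : n = (e + e') * i + (a + b) := by
        have : n = m + (n - m) := by omega
        rw [this, he', he]
        ring
      have hnmod : n % i = (a + b) % i := by
        rw [hnsum, mul_comm, Nat.mul_add_mod]
      have hab : a + b < i := by
        by_contra hcon
        push Not at hcon
        have h2 : (a + b) % i = a + b - i := by
          rw [Nat.mod_eq_sub_mod hcon, Nat.mod_eq_of_lt (by omega)]
        rw [h2, ← hk] at hnmod
        omega
      have hnmod' : n % i = a + b := by rw [hnmod, Nat.mod_eq_of_lt hab]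
      have hmod : 2 * (m % i) ≤ n % i := by
        rw [hnmod', hmmod]; omega
      refine ⟨?_, hmod⟩
      by_contra hlt
      push Not at hlt
      have h2 : m % i = m := Nat.mod_eq_of_lt hlt
      rcases hidvd with h | h
      · have h3 : n % i = j % i := by
          have h4 : n = (n - j) + j := by omega
          rw [h4, Nat.add_mod, Nat.mod_eq_zero_of_dvd h, zero_add, Nat.mod_mod]
        have h5 : j % i = j := Nat.mod_eq_of_lt (by omega)
        omega
      · have h3 : n % i = (m + j) % i := by
          have h4 : n = (n - m - j) + (m + j) := by omega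
          rw [h4, Nat.add_mod, Nat.mod_eq_zero_of_dvd h, zero_add, Nat.mod_mod]
        have hmj : m + j < i := by omega
        have h5 : (m + j) % i = m + j := Nat.mod_eq_of_lt hmj
        omega
  · rintro ⟨-, h⟩ x ⟨c, hc⟩ hns
    obtain ⟨y, hy⟩ : ∃ y, y = Matrix.toLin' (x : Matrix (Fin n) (Fin n) F) := ⟨_, rfl⟩
    have hyr : y ^ r = c • (1 : Module.End F (Fin n → F)) := by
      rw [hy, ← sl_lin_pow, hc, lin_smul_one]
    have hdet : LinearMap.det y = 1 := by rw [hy]; exact sl_lin_det x
    have hc0 : c ≠ 0 := by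
      rintro rfl
      rw [zero_smul] at hyr
      have h1 : (LinearMap.det y) ^ r = 0 := by
        rw [← map_pow, hyr]
        have hs : 0 < n := by omega
        haveI : Nonempty (Fin n) := ⟨⟨0, hs⟩⟩
        haveI : Nontrivial (Fin n → F) := inferInstance
        have : (0 : Module.End F (Fin n → F)) = (0 : F) • LinearMap.id := by simp
        rw [this, LinearMap.det_smul, zero_pow (by rw [hfinV]; omega), zero_mul]
      rw [hdet, one_pow] at h1
      exact one_ne_zero h1
    suffices hs : ∃ W : Submodule F (Fin n → F), ∃ hW : (∀ v ∈ W, y v ∈ W), finrank F W = n - m ∧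
        ∃ U' : Submodule F W, (∀ v ∈ U', (y.restrict hW) v ∈ U') ∧ finrank F U' = m by
      obtain ⟨W, hW, hW2, U', hU', hU2⟩ := hs
      refine ⟨U'.map W.subtype, W, Submodule.map_subtype_le _ _, ?_, hW2, ?_, ?_⟩
      · rw [Submodule.finrank_map_subtype_eq, hU2]
      · rw [← hy]
        rintro _ ⟨v, hv, rfl⟩
        exact flag_map y W hW U' hU' v hv
      · rw [← hy]
        rintro _ ⟨v, hv, rfl⟩
        exact hW v hv
    have hnm : n - m ≤ finrank F (Fin n → F) := by rw [hfinV]; omega
    rcases h with ⟨hi1, hcase⟩ | ⟨hi2, him, hmod⟩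
    · by_cases hroot : ∃ d : F, d ^ r = c
      · obtain ⟨d, rfl⟩ := hroot
        have hd : d ≠ 0 := by
          rintro rfl
          rw [zero_pow hrpr.ne_zero] at hc0
          exact hc0 rfl
        have hz := scaled_pow y hd hyr
        obtain ⟨W, hW1, hW2⟩ := exists_inv_of_mod (F := F) (p := p) hq hrp hz (n - m) hnm (by
          rw [← hi, hi1, Nat.mod_one]; exact Nat.zero_le _)
        have hW3 := inv_scaled y hd W hW1
        refine ⟨W, hW3, hW2, ?_⟩
        have hz' := restrict_pow_one _ W hW1 hz
        obtain ⟨U', hU1, hU2⟩ := exists_inv_of_mod (F := F) (p := p) hq hrp hz' m (by rw [hW2]; omega) (by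
          rw [← hi, hi1, Nat.mod_one]; exact Nat.zero_le _)
        refine ⟨U', ?_, hU2⟩
        intro v hv
        have h3 := U'.smul_mem d (hU1 v hv)
        have h4 : d • (d⁻¹ • y).restrict hW1 v = y.restrict hW3 v := by
          apply Subtype.ext
          simp [smul_smul, hd]
        rwa [h4] at h3
      · push Not at hroot
        by_cases hrm : r ∣ m
        · obtain ⟨e, rfl⟩ := hrm
          obtain ⟨s, hs⟩ := binom_dvd_finrank hrpr hroot y hyr
          rw [hfinV] at hs
          have hes : e ≤ s := by
            have : r * e ≤ r * s := by rw [← hs]; omega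
            exact Nat.le_of_mul_le_mul_left this hrpr.pos
          obtain ⟨W, hW1, hW2⟩ := binom_exists_inv hrpr hroot y hyr (s - e) (by
            rw [hfinV, hs, mul_comm]
            exact Nat.mul_le_mul_left _ (by omega))
          have hW2' : finrank F W = n - r * e := by
            rw [hW2, hs, Nat.mul_comm, Nat.mul_sub, Nat.mul_comm]
          refine ⟨W, hW1, hW2', ?_⟩
          obtain ⟨U', hU1, hU2⟩ := binom_exists_inv hrpr hroot (y.restrict hW1) (restrict_pow_scalar y W hW1 hyr) e (by
            rw [hW2']; rw [mul_comm]; omega)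
          exact ⟨U', hU1, by rw [hU2, mul_comm]⟩
        · obtain ⟨hval, hq4⟩ := hcase.resolve_left hrm
          exfalso
          obtain ⟨s, hs⟩ := binom_dvd_finrank hrpr hroot y hyr
          have h1 := binom_det hrpr hroot y hyr
          rw [hdet, hs, Nat.mul_div_cancel_left _ hrpr.pos] at h1
          rw [hfinV] at hs
          have h2 := binom_sign_no_root (F := F) hq hrpr hroot hc0 h1.symm (fun hr2 => hq4 hr2 (by
            rw [hs, hr2]; exact even_two_mul s))
          obtain ⟨t, ht⟩ := h2
          have hn0 : n ≠ 0 := by omega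
          have h3 : r ^ (padicValNat r (q - 1) + 1) ∣ n := ⟨t, by rw [hs, ht]; ring⟩
          have h4 := (padicValNat_dvd_iff_le hn0).1 h3
          omega
    · have hrq : ¬ r ∣ q - 1 := fun h => by
        have := hi1iff.2 h
        omega
      obtain ⟨d, rfl⟩ := exists_root_of_coprime (F := F) hq hrpr hrq c
      have hd : d ≠ 0 := by
        rintro rfl
        rw [zero_pow hrpr.ne_zero] at hc0
        exact hc0 rfl
      have hz := scaled_pow y hd hyr
      obtain ⟨e, he⟩ := finrank_inv_eq (F := F) (p := p) hq hrp hz ⊤ (fun _ _ => Submodule.mem_top)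
      rw [← hi, top_inf_eq, finrank_top, hfinV] at he
      have h8 := congrArg (· % i) he
      simp only [Nat.add_mul_mod_self_right] at h8
      have hle : m % i ≤ n % i := by omega
      have hsub := mod_sub_of_le hipos (by omega : m ≤ n) hle
      have h9 : (n - m) % i ≤ finrank F (LinearMap.ker (aeval (d⁻¹ • y) (X - C 1 : F[X]))) := by
        rw [hsub]
        have := Nat.mod_le (finrank F (LinearMap.ker (aeval (d⁻¹ • y) (X - C 1 : F[X])))) i
        omega
      obtain ⟨W, hW1, hW2⟩ := exists_inv_of_mod (F := F) (p := p) hq hrp hz (n - m) hnm (by rw [← hi]; exact h9)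
      have hW3 := inv_scaled y hd W hW1
      refine ⟨W, hW3, hW2, ?_⟩
      have hz' := restrict_pow_one _ W hW1 hz
      obtain ⟨e2, he2⟩ := finrank_inv_eq (F := F) (p := p) hq hrp hz' ⊤ (fun _ _ => Submodule.mem_top)
      rw [← hi, top_inf_eq, finrank_top, hW2] at he2
      have h10 := congrArg (· % i) he2
      simp only [Nat.add_mul_mod_self_right] at h10
      obtain ⟨U', hU1, hU2⟩ := exists_inv_of_mod (F := F) (p := p) hq hrp hz' m (by rw [hW2]; omega) (by
        rw [← hi]
        have := Nat.mod_le (finrank F (LinearMap.ker (aeval ((d⁻¹ • y).restrict hW1) (X - C 1 : F[X])))) i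
        omega)
      refine ⟨U', ?_, hU2⟩
      intro v hv
      have h3 := U'.smul_mem d (hU1 v hv)
      have h4 : d • (d⁻¹ • y).restrict hW1 v = y.restrict hW3 v := by
        apply Subtype.ext
        simp [smul_smul, hd]
      rwa [h4] at h3

end Cfsg.Agent.S5951
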