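import Cfsg.Statements.S5952
import Mathlib

set_option autoImplicit false
open Cfsg

namespace Cfsg.Agent.S5952


theorem exists_sub {F V : Type*} [Field F] [AddCommGroup V] [Module F V] [FiniteDimensional F V]
    (C : Submodule F V) (c : ℕ) (hc : c ≤ Module.finrank F C) :
    ∃ W : Submodule F V, W ≤ C ∧ Module.finrank F W = c := by
  induction c with
  | zero => exact ⟨⊥, bot_le, finrank_bot F V⟩
  | succ c ih =>
    obtain ⟨W, hW, hd⟩ := ih (by omega)
    have hne : ∃ v ∈ C, v ∉ W := by
      by_contra hcon
      push Not at hcon
      have : C ≤ W := hcon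
      have e := le_antisymm hW this
      rw [e] at hd
      omega
    obtain ⟨v, hv, hvW⟩ := hne
    refine ⟨W ⊔ Submodule.span F {v}, sup_le hW ((Submodule.span_singleton_le_iff_mem v C).mpr hv), ?_⟩
    rw [Submodule.finrank_sup_span_singleton hvW, hd]

/-- Which dimensions of invariant subspaces a semisimple linear map has. Let `V` be a finite-dimensional vector space over a field `F` and `f` an invertible semisimple linear map of `V`. Suppose `V` is the internal direct sum of the fixed space `C_V(f)` (the eigenspace for 1) and subspaces `U_1, …, U_s`, each `f`-invariant of dimension `a ≥ 1` on which `f` acts irreducibly (no `f`-invariant subspaces other than 0 and `U_j`). Let `0 < m < dim V` and `ℓ = m mod a`. Then `f` leaves some `m`-dimensional subspace invariant if and only if `dim C_V(f) ≥ m`, or `a ≤ m` and `dim C_V(f) ≥ ℓ`. -/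
theorem result {F V : Type*} [Field F] [AddCommGroup V] [Module F V]
    [FiniteDimensional F V] (f : V →ₗ[F] V) (hf : Function.Bijective f) (hss : Module.End.IsSemisimple f)
    {s a : ℕ} (ha : 1 ≤ a) (U : Fin s → Submodule F V)
    (hUinv : ∀ j, (U j).map f ≤ U j) (hUdim : ∀ j, Module.finrank F ↥(U j) = a)
    (hUirr : ∀ j, ∀ W : Submodule F V, W ≤ U j → W.map f ≤ W → W = ⊥ ∨ W = U j)
    (hdec : DirectSum.IsInternal (fun o : Option (Fin s) => o.elim (Module.End.eigenspace f 1) U))
    (m : ℕ) (hm : 0 < m) (hmV : m < Module.finrank F V) :
    (∃ W : Submodule F V, Module.finrank F ↥W = m ∧ W.map f ≤ W) ↔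
    (m ≤ Module.finrank F ↥(Module.End.eigenspace f 1) ∨
      (a ≤ m ∧ m % a ≤ Module.finrank F ↥(Module.End.eigenspace f 1))) := by
  classical
  set C := Module.End.eigenspace f 1 with hCdef
  set A : Option (Fin s) → Submodule F V := fun o => o.elim C U with hA
  have hind : iSupIndep A := hdec.submodule_iSupIndep
  have htop : iSup A = ⊤ := hdec.submodule_iSup_eq_top
  have hCinv : C.map f ≤ C := by
    rintro _ ⟨x, hx, rfl⟩
    have h1 : f x = x := by
      have := Module.End.mem_eigenspace_iff.mp hx
      simpa using this
    rw [h1]
    exact hx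
  set UT : Finset (Fin s) → Submodule F V := fun T => C ⊔ ⨆ j ∈ T, U j with hUT
  have hUTinv : ∀ T, (UT T).map f ≤ UT T := by
    intro T
    simp only [hUT, Submodule.map_sup, Submodule.map_iSup]
    apply sup_le_sup hCinv
    exact iSup₂_mono fun j _ => hUinv j
  have hdisj : ∀ T j, j ∉ T → Disjoint (UT T) (U j) := by
    intro T j hj
    have h1 := hind (some j)
    have h2 : UT T ≤ ⨆ o, ⨆ (_ : o ≠ some j), A o := by
      apply sup_le
      · exact le_iSup₂_of_le (f := fun o (_ : o ≠ some j) => A o) none (by simp) le_rfl
      · apply iSup₂_le
        intro i hi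
        exact le_iSup₂_of_le (f := fun o (_ : o ≠ some j) => A o) (some i)
          (by
            intro h
            apply hj
            have : i = j := Option.some.inj h
            rw [← this]
            exact hi) le_rfl
    exact (h1.mono_right h2).symm
  have hinsert : ∀ T j, UT (insert j T) = UT T ⊔ U j := by
    intro T j
    simp only [hUT]
    rw [Finset.iSup_insert, sup_assoc, sup_comm (U j)]
  have hdim : ∀ T, Module.finrank F (UT T) = Module.finrank F C + T.card * a := by
    intro T
    induction T using Finset.induction_on with
    | empty =>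
      have hUTe : UT ∅ = C := by
        show C ⊔ (⨆ j ∈ (∅ : Finset (Fin s)), U j) = C
        simp
      rw [hUTe]
      simp
    | insert j T hj ih =>
      rw [hinsert, Finset.card_insert_of_notMem hj]
      have := Submodule.finrank_sup_add_finrank_inf_eq (UT T) (U j)
      rw [(hdisj T j hj).eq_bot, finrank_bot, ih, hUdim j] at this
      rw [add_mul]
      omega
  have huniv : UT Finset.univ = ⊤ := by
    rw [eq_top_iff, ← htop]
    apply iSup_le
    rintro (_ | j)
    · exact le_sup_left
    · exact le_sup_of_le_right (le_iSup₂_of_le (f := fun j (_ : j ∈ Finset.univ) => U j) j (Finset.mem_univ j) le_rfl)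
  have hdimV : Module.finrank F V = Module.finrank F C + s * a := by
    have := hdim Finset.univ
    rw [huniv, finrank_top] at this
    simpa using this
  constructor
  · rintro ⟨W, hWd, hWinv⟩
    -- any invariant subspace has dimension `dim (W ⊓ C) + k a`
    have key : ∀ T : Finset (Fin s), ∀ W : Submodule F V, W ≤ UT T → W.map f ≤ W →
        ∃ k, Module.finrank F W = Module.finrank F (W ⊓ C : Submodule F V) + k * a := by
      intro T
      induction T using Finset.induction_on with
      | empty =>
        intro W hW _
        refine ⟨0, ?_⟩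
        have hUTe : UT ∅ = C := by
          show C ⊔ (⨆ j ∈ (∅ : Finset (Fin s)), U j) = C
          simp
        have h1 : W ≤ C := hUTe ▸ hW
        rw [inf_eq_left.mpr h1]
        simp
      | insert j T hj ih =>
        intro W hW hWi
        rw [hinsert] at hW
        set B := UT T with hB
        have hW₁ : (W ⊓ B).map f ≤ W ⊓ B :=
          (Submodule.map_inf_le f).trans (inf_le_inf hWi (hUTinv T))
        obtain ⟨k, hk⟩ := ih (W ⊓ B) inf_le_right hW₁
        have hCB : C ≤ B := le_sup_left
        have e1 : W ⊓ B ⊓ C = W ⊓ C := by
          rw [inf_assoc, inf_eq_right.mpr hCB]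
        rw [e1] at hk
        set X := (W ⊔ B) ⊓ U j with hX
        have hXinv : X.map f ≤ X := by
          refine (Submodule.map_inf_le f).trans (inf_le_inf ?_ (hUinv j))
          rw [Submodule.map_sup]
          exact sup_le_sup hWi (hUTinv T)
        have hXcases := hUirr j X inf_le_right hXinv
        have hle : W ⊔ B ≤ B ⊔ U j := sup_le hW le_sup_left
        have hsup : W ⊔ B = B ⊔ X := by
          have h1 := sup_inf_assoc_of_le (U j) (le_sup_right : B ≤ W ⊔ B)
          rw [inf_eq_right.mpr hle, inf_comm (U j)] at h1
          exact h1
        have hBX : Disjoint B X := (hdisj T j hj).mono_right inf_le_right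
        have d1 := Submodule.finrank_sup_add_finrank_inf_eq W B
        have d2 := Submodule.finrank_sup_add_finrank_inf_eq B X
        rw [hBX.eq_bot, finrank_bot, ← hsup] at d2
        have d3 : Module.finrank F W = Module.finrank F (W ⊓ B : Submodule F V) + Module.finrank F X := by omega
        rcases hXcases with h | h
        · refine ⟨k, ?_⟩
          rw [h, finrank_bot] at d3
          omega
        · refine ⟨k + 1, ?_⟩
          rw [h, hUdim j] at d3
          rw [add_mul]
          omega
    obtain ⟨k, hk⟩ := key Finset.univ W (by rw [huniv]; exact le_top) hWinv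
    have hc : Module.finrank F (W ⊓ C : Submodule F V) ≤ Module.finrank F C :=
      Submodule.finrank_mono inf_le_right
    rw [hWd] at hk
    by_cases hk0 : k = 0
    · left
      subst hk0
      omega
    · right
      have h1 : a ≤ k * a := Nat.le_mul_of_pos_left a (Nat.pos_of_ne_zero hk0)
      refine ⟨by omega, ?_⟩
      rw [hk, Nat.add_mul_mod_self_right]
      exact (Nat.mod_le _ _).trans hc
  · intro h
    -- construction
    have build : ∀ c : ℕ, c ≤ Module.finrank F C → ∀ T : Finset (Fin s),
        ∃ W : Submodule F V, W ≤ UT T ∧ W.map f ≤ W ∧ Module.finrank F W = c + T.card * a := by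
      intro c hc T
      induction T using Finset.induction_on with
      | empty =>
        obtain ⟨W, hW, hd⟩ := exists_sub C c hc
        refine ⟨W, hW.trans le_sup_left, ?_, by simpa using hd⟩
        rintro _ ⟨x, hx, rfl⟩
        have h1 : f x = x := by
          have := Module.End.mem_eigenspace_iff.mp (hW hx)
          simpa using this
        rw [h1]
        exact hx
      | insert j T hj ih =>
        obtain ⟨W, hW, hWi, hd⟩ := ih
        refine ⟨W ⊔ U j, ?_, ?_, ?_⟩
        · rw [hinsert]
          exact sup_le_sup_right hW _
        · rw [Submodule.map_sup]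
          exact sup_le_sup hWi (hUinv j)
        · have d1 := Submodule.finrank_sup_add_finrank_inf_eq W (U j)
          have hdW : Disjoint W (U j) := (hdisj T j hj).mono_left hW
          rw [hdW.eq_bot, finrank_bot, hd, hUdim j] at d1
          rw [Finset.card_insert_of_notMem hj, add_mul]
          omega
    have hpart : ∀ k c : ℕ, k ≤ s → c ≤ Module.finrank F C → m = c + k * a →
        ∃ W : Submodule F V, Module.finrank F W = m ∧ W.map f ≤ W := by
      intro k c hk hc hm'
      obtain ⟨T, -, hT⟩ := Finset.exists_subset_card_eq (s := (Finset.univ : Finset (Fin s))) (n := k) (by simpa using hk)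
      obtain ⟨W, -, hWi, hd⟩ := build c hc T
      exact ⟨W, by rw [hd, hT, hm'], hWi⟩
    rcases h with h | ⟨h1, h2⟩
    · exact hpart 0 m (Nat.zero_le _) h (by simp)
    · by_cases hk : m / a ≤ s
      · exact hpart (m / a) (m % a) hk h2 (by
          have := Nat.mod_add_div m a
          rw [mul_comm]
          omega)
      · push Not at hk
        have hle : s * a ≤ m := by
          have h3 : s * a ≤ (m / a) * a := Nat.mul_le_mul_right a hk.le
          exact h3.trans (Nat.div_mul_le_self m a)
        exact hpart s (m - s * a) le_rfl (by omega) (by omega)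


end Cfsg.Agent.S5952
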