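import Cfsg.Statements.S5957
import Mathlib
import Cfsg.Agent.Lib.Geo.ElusBlocks

set_option autoImplicit false

namespace Cfsg.Agent.S5957

open Cfsg.Agent.Lib.Geo

theorem result {F : Type*} [Field F] [Fintype F] {p : ℕ} [Fact p.Prime] [CharP F p] {q : ℕ} (hq : Fintype.card F = q)
    (n a t : ℕ) (hn : 2 ≤ n) (hT : (n, q) ≠ (2, 2) ∧ (n, q) ≠ (2, 3)) (hat : n = a * t) (ha : 1 ≤ a) (ht : 2 ≤ t)
    (hΩ : 2 ∣ Nat.card {D : Fin t → Submodule F (Fin n → F) // Cfsg.Geo.IsMDecomposition a D} / Nat.factorial t)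
    (x : Matrix.SpecialLinearGroup (Fin n) F)
    (hx1 : ∃ z : F, ((x ^ 2 : Matrix.SpecialLinearGroup (Fin n) F) : Matrix (Fin n) (Fin n) F) = z • (1 : Matrix (Fin n) (Fin n) F))
    (hx2 : ∀ z : F, (x : Matrix (Fin n) (Fin n) F) ≠ z • (1 : Matrix (Fin n) (Fin n) F)) :
    ∃ D : Fin t → Submodule F (Fin n → F), Cfsg.Geo.IsMDecomposition a D ∧
        ∃ σ : Equiv.Perm (Fin t), ∀ j, (D j).map (Matrix.toLin' (x : Matrix (Fin n) (Fin n) F)) = D (σ j) := by
  classical
  obtain ⟨z, hz⟩ := hx1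
  set X : Matrix (Fin n) (Fin n) F := (x : Matrix (Fin n) (Fin n) F) with hX
  have hXX : X * X = z • (1 : Matrix (Fin n) (Fin n) F) := by
    rw [← hz, hX, pow_two]; rfl
  have hdet : X.det = 1 := x.2
  have hz0 : z ≠ 0 := by
    rintro rfl
    have h1 := congrArg Matrix.det hXX
    rw [Matrix.det_mul, hdet, zero_smul] at h1
    haveI : Nonempty (Fin n) := ⟨⟨0, by omega⟩⟩
    simp at h1
  have hxv : ∀ v, Matrix.toLin' X (Matrix.toLin' X v) = z • v := by
    intro v
    rw [Matrix.toLin'_apply, Matrix.toLin'_apply, Matrix.mulVec_mulVec, hXX, Matrix.smul_mulVec, Matrix.one_mulVec]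
  obtain ⟨M, π, h1, h2, h3, h4⟩ := exists_monomial (Matrix.toLin' X) z hz0 hxv
  have hcard : M.card = a * t := by
    rw [← hat, ← finrank_span_finset_eq_card h1, h2, finrank_top, Module.finrank_fin_fun]
  obtain ⟨B, hB1, hB2, hB3, σ, hσ⟩ := exists_blocks_fin π a t ha M h3 hcard
  refine ⟨fun j => Submodule.span F (B j : Set (Fin n → F)), ⟨ht, by omega, ?_, ?_, ?_⟩, σ, ?_⟩
  · intro j
    rw [finrank_span_finset_eq_card (h1.mono (by exact_mod_cast (hB1 j).1)), (hB1 j).2]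
  · exact block_indep M h1 B (fun j => (hB1 j).1) hB2
  · apply le_antisymm le_top
    rw [← h2, Submodule.span_le]
    intro s hs
    obtain ⟨j, hj⟩ := hB3 s hs
    exact Submodule.mem_iSup_of_mem j (Submodule.subset_span hj)
  · intro j
    show (Submodule.span F (B j : Set (Fin n → F))).map _ = Submodule.span F (B (σ j) : Set (Fin n → F))
    rw [← hσ j]
    exact map_block (Matrix.toLin' X) M π (B j) (hB1 j).1 h4

end Cfsg.Agent.S5957
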