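import Cfsg.Statements.S5958
import Mathlib
import Cfsg.Agent.Lib.Geo.ElusPermFam

set_option autoImplicit false

namespace Cfsg.Agent.S5958

open Cfsg.Agent.Lib.Geo Polynomial Module

theorem result {F : Type*} [Field F] [Fintype F] {p : ℕ} [Fact p.Prime] [CharP F p] {q : ℕ} (hq : Fintype.card F = q)
    (n a t : ℕ) (hn : 2 ≤ n) (hT : (n, q) ≠ (2, 2) ∧ (n, q) ≠ (2, 3)) (hat : n = a * t) (ha : 1 ≤ a) (ht : 2 ≤ t)
    (r : ℕ) [Fact r.Prime] (hr2 : r ≠ 2) (hrp : r ≠ p) (hΩ : r ∣ Nat.card {D : Fin t → Submodule F (Fin n → F) // Cfsg.Geo.IsMDecomposition a D} / Nat.factorial t)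
    (c : ℕ) (hc : c = orderOf (q : ZMod r)) :
    (∀ x : Matrix.SpecialLinearGroup (Fin n) F,
      (∃ z : F, ((x ^ r : Matrix.SpecialLinearGroup (Fin n) F) : Matrix (Fin n) (Fin n) F) = z • (1 : Matrix (Fin n) (Fin n) F)) →
      (∀ z : F, (x : Matrix (Fin n) (Fin n) F) ≠ z • (1 : Matrix (Fin n) (Fin n) F)) →
      ∃ D : Fin t → Submodule F (Fin n → F), Cfsg.Geo.IsMDecomposition a D ∧
        ∃ σ : Equiv.Perm (Fin t), ∀ j, (D j).map (Matrix.toLin' (x : Matrix (Fin n) (Fin n) F)) = D (σ j)) ↔
    ((a = 1 ∧ 1 < c ∧ c = r - 1 ∧ n ≤ (n % c) * r) ∨ (c ≤ a ∧ n % c = t * (a % c))) := by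
  classical
  have hfinV : finrank F (Fin n → F) = n := by simp
  have hq1 : 1 ≤ q := by rw [← hq]; exact Fintype.card_pos
  have hrpr : r.Prime := Fact.out
  have hr0 : (r : F) ≠ 0 := by
    intro h0
    have h1 := (CharP.cast_eq_zero_iff F p r).1 h0
    exact hrp ((Nat.prime_dvd_prime_iff_eq Fact.out hrpr).1 h1).symm
  have hcpos : 0 < c := by rw [hc]; exact order_pos (F := F) (p := p) hq hrp
  have hqr : (q : ZMod r) ≠ 0 := by
    intro h0
    rw [ZMod.natCast_eq_zero_iff] at h0
    obtain ⟨f, hpos, hf⟩ := FiniteField.card F p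
    rw [← hq, hf] at h0
    have h5 := hrpr.dvd_of_dvd_pow h0
    exact hrp ((Nat.prime_dvd_prime_iff_eq hrpr Fact.out).1 h5)
  have hcdvd : c ∣ r - 1 := by
    rw [hc]
    exact ZMod.orderOf_dvd_card_sub_one hqr
  have hcle : c ≤ r - 1 := Nat.le_of_dvd (by have := hrpr.two_le; omega) hcdvd
  have hc1iff : c = 1 ↔ r ∣ q - 1 := by rw [hc]; exact order_one_iff hq1
  constructor
  · intro hall
    by_cases hc1 : c = 1
    · right
      exact ⟨by omega, by rw [hc1]; simp [Nat.mod_one]⟩
    have hrq : ¬ r ∣ q - 1 := fun h => hc1 (hc1iff.2 h)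
    have hcn : c ≤ n := by
      rw [hc]
      exact order_le_of_dvd_decomp (F := F) (p := p) hq hrp ht (by omega) hat hΩ
    have model : ∀ s k, n = s * c + k → 1 ≤ s → ∃ (y : Module.End F (Fin n → F)) (D : Fin t → Submodule F (Fin n → F))
        (σ : Equiv.Perm (Fin t)), y ^ r = 1 ∧ finrank F (LinearMap.ker (aeval y (X - C 1 : F[X]))) = k ∧
        Cfsg.Geo.IsMDecomposition a D ∧ ∀ j, (D j).map y = D (σ j) := by
      intro s k hsk hs
      obtain ⟨y, hy1, hy2⟩ := exists_model (F := F) (V := Fin n → F) (p := p) hq hrp s k (by rw [hfinV, ← hc, hsk])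
      have hdet : LinearMap.det y = 1 := by
        apply eq_one_of_pow_coprime (F := F) hq hrpr hrq
        rw [← map_pow, hy1, map_one]
      obtain ⟨x, hx⟩ := sl_exists_of_det y hdet
      obtain ⟨D, hD, σ, hσ⟩ := hall x ⟨1, by
        apply Matrix.toLin'.injective
        rw [sl_lin_pow, hx, hy1, lin_smul_one, one_smul]⟩ (by
        intro c' hc'
        have h1 : y = c' • (1 : Module.End F (Fin n → F)) := by
          rw [← hx, hc', lin_smul_one]
        have h2 : c' ^ r = 1 := by
          rw [h1, _root_.smul_pow, one_pow] at hy1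
          have hs : 0 < n := by omega
          have h3 := congrArg (fun f : Module.End F (Fin n → F) => f (fun _ => 1) ⟨0, hs⟩) hy1
          simpa using h3
        have h3 : c' = 1 := eq_one_of_pow_coprime (F := F) hq hrpr hrq h2
        rw [h3, one_smul] at h1
        rw [h1] at hy2
        have h4 : aeval (1 : Module.End F (Fin n → F)) (X - C 1 : Polynomial F) = 0 := by
          simp
        rw [h4, LinearMap.ker_zero, finrank_top, hfinV] at hy2
        have h5 : 1 * c ≤ s * c := Nat.mul_le_mul_right _ hs
        omega)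
      rw [hx] at hσ
      exact ⟨y, D, σ, hy1, hy2, hD, hσ⟩
    have hsk : n = (n / c) * c + n % c := (Nat.div_add_mod' n c).symm
    have hs1 : 1 ≤ n / c := (Nat.one_le_div_iff hcpos).2 hcn
    have hk : n % c < c := Nat.mod_lt _ hcpos
    by_cases hca : c ≤ a
    · right
      refine ⟨hca, ?_⟩
      obtain ⟨y, D, σ, hy1, hy2, hD, hσ⟩ := model _ _ hsk hs1
      have hne : ∀ j, D j ≠ ⊥ := by
        intro j h0
        have := hD.finrank_eq j
        rw [h0, finrank_bot] at this
        omega
      have hσr : ∀ j, (σ ^ r) j = j := fun j =>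
        perm_fix_of_scalar y D σ hσ hD.indep hne (c := 1) one_ne_zero (by rw [hy1, one_smul]) j
      have hfix : ∀ j, σ j = j := by
        by_contra hcon
        push Not at hcon
        obtain ⟨j, hj⟩ := hcon
        have h1 := fixed_ge hD.indep hD.iSup_eq_top y σ hσ hrpr hr0 hy1 hσr {j} (by simp) (by simp [hj])
        rw [Finset.sum_singleton, hy2, hD.finrank_eq] at h1
        omega
      have hinjy : Function.Injective y := inj_of_pow_scalar y hrpr.ne_zero (c := 1) one_ne_zero (by rw [hy1, one_smul])
      have hinv : ∀ j, ∀ v ∈ D j, y v ∈ D j := by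
        intro j v hv
        have h2 := hσ j
        rw [hfix j] at h2
        rw [← h2]
        exact Submodule.mem_map_of_mem hv
      have hlow : ∀ j, a % c ≤ finrank F (D j ⊓ LinearMap.ker (aeval y (X - C 1 : F[X])) : Submodule F (Fin n → F)) := by
        intro j
        obtain ⟨e, he⟩ := finrank_inv_eq (F := F) (p := p) hq hrp hy1 (D j) (hinv j)
        rw [← hc, hD.finrank_eq] at he
        rw [he, Nat.add_mul_mod_self_right]
        exact Nat.mod_le _ _
      have hsum := sum_finrank_le_of_indep (fun j => D j ⊓ LinearMap.ker (aeval y (X - C 1 : F[X])))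
        (hD.indep.mono (fun j => inf_le_left)) _ (fun j => inf_le_right)
      rw [hy2] at hsum
      have hsum2 : t * (a % c) ≤ n % c := by
        refine le_trans ?_ hsum
        have := Finset.card_nsmul_le_sum Finset.univ
          (fun j => finrank F (D j ⊓ LinearMap.ker (aeval y (X - C 1 : F[X])) : Submodule F (Fin n → F))) (a % c) (fun j _ => hlow j)
        simpa using this
      have h3 : t * (a % c) < c := by omega
      rw [hat]
      exact mul_mod_of_lt hcpos h3
    · left
      push Not at hca
      have hone : a = 1 ∧ c = r - 1 := by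
        obtain ⟨y, D, σ, hy1, hy2, hD, hσ⟩ := model 1 (n - c) (by omega) le_rfl
        have hne : ∀ j, D j ≠ ⊥ := by
          intro j h0
          have := hD.finrank_eq j
          rw [h0, finrank_bot] at this
          omega
        have hσr : ∀ j, (σ ^ r) j = j := fun j =>
          perm_fix_of_scalar y D σ hσ hD.indep hne (c := 1) one_ne_zero (by rw [hy1, one_smul]) j
        have hmoved : ∃ j, σ j ≠ j := by
          by_contra hcon
          push Not at hcon
          have hinv : ∀ j, ∀ v ∈ D j, y v ∈ D j := by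
            intro j v hv
            have h2 := hσ j
            rw [hcon j] at h2
            rw [← h2]
            exact Submodule.mem_map_of_mem hv
          have hfixall : ∀ j, ∀ v ∈ D j, y v = v := fun j =>
            fixed_part_le (F := F) (p := p) hq hrp hy1 (D j) (hinv j) (by rw [hD.finrank_eq, ← hc]; exact hca)
          have hker : LinearMap.ker (aeval y (X - C 1 : F[X])) = ⊤ := by
            rw [eq_top_iff, ← hD.iSup_eq_top]
            apply iSup_le
            intro j v hv
            exact (mem_ker_sub_one y).2 (hfixall j v hv)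
          rw [hker, finrank_top, hfinV] at hy2
          omega
        obtain ⟨j, hj⟩ := hmoved
        have h1 := moved_bound hD.indep hD.iSup_eq_top y σ hσ hrpr hy1 hσr hD.finrank_eq j hj
        rw [hy2] at h1
        have hr1 : 1 ≤ r - 1 := by have := hrpr.two_le; omega
        have h2 : (r - 1) * a ≤ c := by omega
        have h3 : (r - 1) * 1 ≤ (r - 1) * a := Nat.mul_le_mul_left _ ha
        have h4 : a ≤ 1 := by
          by_contra hcon
          have h5 : (r - 1) * 2 ≤ (r - 1) * a := Nat.mul_le_mul_left _ (by omega)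
          omega
        exact ⟨by omega, by omega⟩
      obtain ⟨ha1, hcr⟩ := hone
      refine ⟨ha1, by omega, hcr, ?_⟩
      obtain ⟨y, D, σ, hy1, hy2, hD, hσ⟩ := model _ _ hsk hs1
      have hne : ∀ j, D j ≠ ⊥ := by
        intro j h0
        have := hD.finrank_eq j
        rw [h0, finrank_bot] at this
        omega
      have hσr : ∀ j, (σ ^ r) j = j := fun j =>
        perm_fix_of_scalar y D σ hσ hD.indep hne (c := 1) one_ne_zero (by rw [hy1, one_smul]) j
      obtain ⟨R, hR1, hR2⟩ := orbit_reps σ hrpr hσr
      have h1 := fixed_ge hD.indep hD.iSup_eq_top y σ hσ hrpr hr0 hy1 hσr R hR1 (by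
        intro l _
        by_cases hl : σ l = l
        · right
          have hinv : ∀ v ∈ D l, y v ∈ D l := by
            intro v hv
            have h2 := hσ l
            rw [hl] at h2
            rw [← h2]
            exact Submodule.mem_map_of_mem hv
          exact fixed_part_le (F := F) (p := p) hq hrp hy1 (D l) hinv (by rw [hD.finrank_eq, ← hc]; exact hca)
        · exact Or.inl hl)
      rw [hy2] at h1
      have h2 : ∑ l ∈ R, finrank F (D l) = R.card := by
        simp [hD.finrank_eq, ha1]
      rw [h2] at h1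
      have h3 : n = t := by rw [hat, ha1, one_mul]
      calc n = t := h3
        _ ≤ R.card * r := hR2
        _ ≤ n % c * r := Nat.mul_le_mul_right _ h1
  · intro hcond x ⟨z, hz⟩ hns
    obtain ⟨y, hy⟩ : ∃ y, y = Matrix.toLin' (x : Matrix (Fin n) (Fin n) F) := ⟨_, rfl⟩
    have hyr : y ^ r = z • (1 : Module.End F (Fin n → F)) := by
      rw [hy, ← sl_lin_pow, hz, lin_smul_one]
    have hdet : LinearMap.det y = 1 := by rw [hy]; exact sl_lin_det x
    have hz0 : z ≠ 0 := by
      rintro rfl
      rw [zero_smul] at hyr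
      have h1 : (LinearMap.det y) ^ r = 0 := by
        rw [← map_pow, hyr]
        have : (0 : Module.End F (Fin n → F)) = (0 : F) • LinearMap.id := by simp
        rw [this, LinearMap.det_smul, zero_pow (by rw [hfinV]; omega), zero_mul]
      rw [hdet, one_pow] at h1
      exact one_ne_zero h1
    rw [← hy]
    have hinjy : Function.Injective y := inj_of_pow_scalar y hrpr.ne_zero hz0 hyr
    by_cases hroot : ∃ d : F, d ^ r = z
    · obtain ⟨d, rfl⟩ := hroot
      have hd : d ≠ 0 := by
        rintro rfl
        rw [zero_pow hrpr.ne_zero] at hz0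
        exact hz0 rfl
      have hw := scaled_pow y hd hyr
      obtain ⟨w, hwdef⟩ : ∃ w, w = d⁻¹ • y := ⟨_, rfl⟩
      rw [← hwdef] at hw
      have hyw : y = d • w := by
        rw [hwdef, smul_smul, mul_inv_cancel₀ hd, one_smul]
      have hmapw : ∀ S : Submodule F (Fin n → F), S.map y = S.map w := by
        intro S
        rw [hyw]
        exact Submodule.map_smul _ _ _ hd
      rcases hcond with ⟨ha1, hc1, hcr, hnk⟩ | ⟨hca, hmod⟩
      · obtain ⟨e, he⟩ := finrank_inv_eq (F := F) (p := p) hq hrp hw ⊤ (fun _ _ => Submodule.mem_top)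
        rw [← hc, top_inf_eq, finrank_top, hfinV] at he
        obtain ⟨g, hg⟩ : ∃ g, g = finrank F (LinearMap.ker (aeval w (X - C 1 : F[X]))) := ⟨_, rfl⟩
        rw [← hg] at he
        have hcr' : orderOf (q : ZMod r) = r - 1 := by rw [← hc, hcr]
        have hmodg : n % c ≤ g := by
          have h8 := congrArg (· % c) he
          simp only [Nat.add_mul_mod_self_right] at h8
          rw [h8]
          exact Nat.mod_le _ _
        have hr' : r = c + 1 := by have := hrpr.two_le; omega
        have hb : n ≤ g * r := hnk.trans (Nat.mul_le_mul_right _ hmodg)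
        have heg : e ≤ g := by
          rw [he, hr'] at hb
          have h9 : g * (c + 1) = g * c + g := by ring
          have h10 : e * c ≤ g * c := by omega
          exact Nat.le_of_mul_le_mul_right h10 hcpos
        obtain ⟨ι, _, b, τ, hb1, hb2, hb3⟩ := mono_lines (F := F) (p := p) hq hrp hcr' (by omega) e (Fin n → F) w g hw hg.symm
          (by rw [hfinV, he, ← hcr, mul_comm]) heg
        obtain ⟨D, hD, σ, hσ⟩ := lines_of_mono b τ hb1 hb2 w hb3 hn
        have htn : t = n := by rw [hat, ha1, one_mul]
        subst htn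
        rw [ha1]
        exact ⟨D, hD, σ, fun j => by rw [hmapw]; exact hσ j⟩
      · have hcond : t * (a % orderOf (q : ZMod r)) < orderOf (q : ZMod r) := by
          rw [← hc, ← hmod]
          exact Nat.mod_lt _ hcpos
        obtain ⟨D, h1, h2, h3⟩ := fam_order (F := F) (p := p) hq hrp w hw a t (by rw [hfinV, hat]) hcond
        refine ⟨D, isMDec_of_family ht (by omega) hat D h2 h3, 1, fun j => ?_⟩
        rw [hmapw]
        exact map_eq_of_inv w (inj_of_pow_scalar w hrpr.ne_zero (c := 1) one_ne_zero (by rw [hw, one_smul])) _ (h1 j)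
    · push Not at hroot
      have hrq : r ∣ q - 1 := by
        by_contra hcon
        obtain ⟨d, hd⟩ := exists_root_of_coprime (F := F) hq hrpr hcon z
        exact hroot d hd
      have hrn : r ∣ a * t := by
        have := binom_dvd_finrank hrpr hroot y hyr
        rwa [hfinV, hat] at this
      rcases (Nat.Prime.dvd_mul hrpr).1 hrn with h | h
      · obtain ⟨D, h1, h2, h3⟩ := fam_binom hrpr hr0 hz0 hroot y hyr a t h (by rw [hfinV, hat])
        exact ⟨D, isMDec_of_family ht (by omega) hat D h2 h3, 1, fun j => map_eq_of_inv y hinjy _ (h1 j)⟩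
      · obtain ⟨t', ht'⟩ : ∃ t', t = t' * r := by
          obtain ⟨u, hu⟩ := h
          exact ⟨u, by rw [hu]; ring⟩
        subst ht'
        exact cycle_of_binom hrpr hr0 hz0 hroot y hyr a t' (by omega) ht hat

end Cfsg.Agent.S5958
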