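import Cfsg.Statements.S5959
import Mathlib
import Cfsg.Agent.Lib.Geo.ElusImprim

set_option autoImplicit false

namespace Cfsg.Agent.S5959

open Cfsg.Agent.Lib.Geo Polynomial Module

theorem result {F : Type*} [Field F] [Fintype F] {p : ℕ} [Fact p.Prime] [CharP F p] {q : ℕ} (hq : Fintype.card F = q)
    (n a t : ℕ) (hn : 2 ≤ n) (hT : (n, q) ≠ (2, 2) ∧ (n, q) ≠ (2, 3)) (hat : n = a * t) (ha : 1 ≤ a) (ht : 2 ≤ t)
    (hp : 2 < p) (hΩ : p ∣ Nat.card {D : Fin t → Submodule F (Fin n → F) // Cfsg.Geo.IsMDecomposition a D} / Nat.factorial t)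
    (h : ∀ x : Matrix.SpecialLinearGroup (Fin n) F,
      (∃ z : F, ((x ^ p : Matrix.SpecialLinearGroup (Fin n) F) : Matrix (Fin n) (Fin n) F) = z • (1 : Matrix (Fin n) (Fin n) F)) →
      (∀ z : F, (x : Matrix (Fin n) (Fin n) F) ≠ z • (1 : Matrix (Fin n) (Fin n) F)) →
      ∃ D : Fin t → Submodule F (Fin n → F), Cfsg.Geo.IsMDecomposition a D ∧
        ∃ σ : Equiv.Perm (Fin t), ∀ j, (D j).map (Matrix.toLin' (x : Matrix (Fin n) (Fin n) F)) = D (σ j)) :
    (∀ μ : Multiset ℕ, (∀ b ∈ μ, 0 < b ∧ b ≤ p) → μ.sum = n → μ.count p < a → ∃ ν : Multiset ℕ, ν ≤ μ ∧ ν.sum = a) := by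
  classical
  intro μ hμ hsum hcount
  have hfinV : finrank F (Fin n → F) = n := by simp
  have han : a ≤ n := by
    rw [hat]
    exact Nat.le_mul_of_pos_right _ (by omega)
  obtain ⟨N, hN⟩ := nil_model (F := F) μ (Fin n → F) (by rw [hfinV, hsum])
  have hNr : N ^ p = 0 := by
    have h1 : LinearMap.ker (N ^ p) = ⊤ := by
      apply Submodule.eq_top_of_finrank_eq
      rw [hN, hfinV, ← hsum]
      congr 1
      have : μ.map (fun a => min a p) = μ.map id := by
        apply Multiset.map_congr rfl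
        intro a ha
        have := hμ a ha
        simp only [id]
        omega
      rw [this, Multiset.map_id]
    exact LinearMap.ker_eq_top.1 h1
  by_cases hN0 : N = 0
  · obtain ⟨U, -, hU⟩ := exists_sub_of_le (F := F) (V := Fin n → F) ⊤ a (by rw [finrank_top, hfinV]; exact han)
    obtain ⟨W, hW⟩ := Submodule.exists_isCompl U
    obtain ⟨ν, h1, h2⟩ := ks_lemma N p hNr hW (by simp [hN0]) (by simp [hN0]) μ hN
    exact ⟨ν, h1, by rw [h2, hU]⟩
  · have hy : (1 + N) ^ p = 1 := by
      rw [one_add_pow_char (p := p), hNr, add_zero]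
    have hdet : LinearMap.det (1 + N) = 1 := by
      apply eq_one_of_pow_char (p := p)
      rw [← map_pow, hy, map_one]
    obtain ⟨x, hx⟩ := sl_exists_of_det (1 + N) hdet
    obtain ⟨D, hD, σ, hσ⟩ := h x ⟨1, by
      apply Matrix.toLin'.injective
      rw [sl_lin_pow, hx, hy, lin_smul_one, one_smul]⟩ (by
      intro c' hc'
      have h1 : (1 + N) = c' • (1 : Module.End F (Fin n → F)) := by
        rw [← hx, hc', lin_smul_one]
      have h2 : c' ^ p = 1 := by
        rw [h1, _root_.smul_pow, one_pow] at hy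
        have hs : 0 < n := by omega
        have h3 := congrArg (fun f : Module.End F (Fin n → F) => f (fun _ => 1) ⟨0, hs⟩) hy
        simpa using h3
      have h3 : c' = 1 := eq_one_of_pow_char (p := p) h2
      rw [h3, one_smul] at h1
      exact hN0 (by simpa using h1))
    rw [hx] at hσ
    have hne : ∀ j, D j ≠ ⊥ := by
      intro j h0
      have := hD.finrank_eq j
      rw [h0, finrank_bot] at this
      omega
    have hfix : ∀ j, σ j = j := by
      by_contra hcon
      push Not at hcon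
      obtain ⟨j₀, hj₀⟩ := hcon
      have hp1 : (σ ^ p) j₀ = j₀ := perm_fix_of_scalar (1 + N) D σ hσ hD.indep hne (c := 1) one_ne_zero (by rw [hy, one_smul]) j₀
      have hkey : D j₀ ⊓ LinearMap.ker (N ^ (p - 1)) = ⊥ := by
        rw [eq_bot_iff]
        rintro v ⟨hv1, hv2⟩
        rw [SetLike.mem_coe, LinearMap.mem_ker] at hv2
        have h3 : N = (1 + N) - 1 := by simp
        have h4 : (N ^ (p - 1)) v = ∑ i ∈ Finset.range p, ((1 + N) ^ i) v := by
          conv_lhs => rw [h3]
          rw [sub_one_pow_pred (p := p), LinearMap.sum_apply]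
        rw [h4] at hv2
        obtain ⟨p', hp'⟩ : ∃ p', p = p' + 1 := ⟨p - 1, by have := (Fact.out : p.Prime).pos; omega⟩
        rw [hp', Finset.sum_range_succ'] at hv2
        simp only [pow_zero, Module.End.one_apply] at hv2
        have h5 : ∑ i ∈ Finset.range p', ((1 + N) ^ (i + 1)) v ∈ ⨆ (k) (_ : k ≠ j₀), D k := by
          apply perm_indep_mem D j₀ (Finset.range p') (fun i => ((1 + N) ^ (i + 1)) v) (fun i => (σ ^ (i + 1)) j₀)
          · intro i _
            exact perm_pow_mem (1 + N) D σ hσ (i + 1) j₀ hv1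
          · intro i hi
            have := Finset.mem_range.1 hi
            exact perm_pow_ne σ Fact.out j₀ hp1 hj₀ (i + 1) (by omega) (by omega)
        have h6 : v ∈ ⨆ (k) (_ : k ≠ j₀), D k := by
          have h7 : v = -∑ i ∈ Finset.range p', ((1 + N) ^ (i + 1)) v := by
            exact eq_neg_of_add_eq_zero_right hv2
          rw [h7]
          exact Submodule.neg_mem _ h5
        have h8 := (iSupIndep_def.1 hD.indep j₀).le_bot ⟨hv1, h6⟩
        exact h8
      have h9 := Submodule.finrank_sup_add_finrank_inf_eq (D j₀) (LinearMap.ker (N ^ (p - 1)))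
      rw [hkey, finrank_bot, hD.finrank_eq, hN] at h9
      have h10 : finrank F (D j₀ ⊔ LinearMap.ker (N ^ (p - 1)) : Submodule F (Fin n → F)) ≤ n := by
        have := Submodule.finrank_le (D j₀ ⊔ LinearMap.ker (N ^ (p - 1)))
        rwa [hfinV] at this
      have h11 := sum_min_pred p (Fact.out : p.Prime).one_le μ (fun b hb => (hμ b hb).2)
      omega
    -- all summands invariant
    have ht0 : 0 < t := by omega
    obtain ⟨j₀⟩ : Nonempty (Fin t) := ⟨⟨0, ht0⟩⟩
    have hinv : ∀ j, ∀ v ∈ D j, N v ∈ D j := by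
      intro j v hv
      have h1 : (1 + N) v ∈ D j := by
        have h2 := hσ j
        rw [hfix j] at h2
        rw [← h2]
        exact Submodule.mem_map_of_mem hv
      have h2 : N v = (1 + N) v - v := by simp
      rw [h2]
      exact (D j).sub_mem h1 hv
    have hcompl : IsCompl (D j₀) (⨆ (k) (_ : k ≠ j₀), D k) := by
      refine ⟨iSupIndep_def.1 hD.indep j₀, ?_⟩
      rw [codisjoint_iff, eq_top_iff, ← hD.iSup_eq_top]
      apply iSup_le
      intro j
      by_cases hj : j = j₀
      · rw [hj]; exact le_sup_left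
      · exact le_sup_of_le_right (le_iSup₂_of_le j hj le_rfl)
    have hinvW : ∀ v ∈ (⨆ (k) (_ : k ≠ j₀), D k), N v ∈ (⨆ (k) (_ : k ≠ j₀), D k) := by
      intro v hv
      have h1 : (⨆ (k) (_ : k ≠ j₀), D k) ≤ (⨆ (k) (_ : k ≠ j₀), D k).comap N := by
        apply iSup₂_le
        intro k hk v hv
        rw [Submodule.mem_comap]
        have h2 : D k ≤ ⨆ (k) (_ : k ≠ j₀), D k := le_iSup₂_of_le k hk le_rfl
        exact h2 (hinv k v hv)
      exact h1 hv
    obtain ⟨ν, h1, h2⟩ := ks_lemma N p hNr hcompl (hinv j₀) hinvW μ hN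
    exact ⟨ν, h1, by rw [h2, hD.finrank_eq]⟩

end Cfsg.Agent.S5959
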