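import Cfsg.Statements.S5960
import Mathlib
import Cfsg.Agent.Lib.Geo.ElusPlanes
import Cfsg.Agent.Lib.Classical.Symplectic

set_option autoImplicit false

namespace Cfsg.Agent.S5960

open Cfsg.Agent.Lib.Geo

theorem result {F : Type*} [Field F] [Fintype F] {p : ℕ} [Fact p.Prime] [CharP F p] {q : ℕ} (hq : Fintype.card F = q)
    (d : ℕ) (hd : 2 ≤ d) (hT : (d, q) ≠ (2, 2))
    (a t : ℕ) (hat : 2 * d = a * t) (ha : 2 ≤ a) (hae : Even a) (ht : 2 ≤ t) (hΩ : 2 ∣ Nat.card {D : Fin t → Submodule F (Fin d ⊕ Fin d → F) // (Cfsg.Geo.IsMDecomposition a D ∧ (∀ j, ∀ u ∈ D j, u ≠ 0 → ∃ v ∈ D j, Cfsg.sympForm d F u v ≠ 0) ∧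
          (∀ j j', j ≠ j' → ∀ u ∈ D j, ∀ v ∈ D j', Cfsg.sympForm d F u v = 0))} / Nat.factorial t)
    (x : ↥(Matrix.symplecticGroup (Fin d) F))
    (hx1 : ∃ z : F, ((x ^ 2 : ↥(Matrix.symplecticGroup (Fin d) F)) : Matrix (Fin d ⊕ Fin d) (Fin d ⊕ Fin d) F) = z • (1 : Matrix (Fin d ⊕ Fin d) (Fin d ⊕ Fin d) F))
    (hx2 : ∀ z : F, (x : Matrix (Fin d ⊕ Fin d) (Fin d ⊕ Fin d) F) ≠ z • (1 : Matrix (Fin d ⊕ Fin d) (Fin d ⊕ Fin d) F)) :
    ∃ D : Fin t → Submodule F (Fin d ⊕ Fin d → F), (Cfsg.Geo.IsMDecomposition a D ∧ (∀ j, ∀ u ∈ D j, u ≠ 0 → ∃ v ∈ D j, Cfsg.sympForm d F u v ≠ 0) ∧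
          (∀ j j', j ≠ j' → ∀ u ∈ D j, ∀ v ∈ D j', Cfsg.sympForm d F u v = 0)) ∧
        ∃ σ : Equiv.Perm (Fin t), ∀ j, (D j).map (Matrix.toLin' (x : Matrix (Fin d ⊕ Fin d) (Fin d ⊕ Fin d) F)) = D (σ j) := by
  classical
  obtain ⟨z, hz⟩ := hx1
  obtain ⟨a', rfl⟩ : ∃ a', a = a' + a' := hae
  set X : Matrix (Fin d ⊕ Fin d) (Fin d ⊕ Fin d) F := (x : Matrix (Fin d ⊕ Fin d) (Fin d ⊕ Fin d) F) with hX
  have hXX : X * X = z • (1 : Matrix (Fin d ⊕ Fin d) (Fin d ⊕ Fin d) F) := by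
    rw [← hz, hX, pow_two]; rfl
  have hxv : ∀ v, Matrix.toLin' X (Matrix.toLin' X v) = z • v := by
    intro v
    rw [Matrix.toLin'_apply, Matrix.toLin'_apply, Matrix.mulVec_mulVec, hXX, Matrix.smul_mulVec, Matrix.one_mulVec]
  have hiso : ∀ u v, Cfsg.sympForm d F (Matrix.toLin' X u) (Matrix.toLin' X v) = Cfsg.sympForm d F u v := by
    intro u v
    exact (Cfsg.Agent.Lib.Classical.mem_symplecticGroup_iff_preserves.1 x.2) u v
  have hf := aform_sympForm d F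
  have hz0 : z ≠ 0 := by
    rintro rfl
    have hne : (Sum.elim (fun i => if i = (⟨0, by omega⟩ : Fin d) then (1 : F) else 0) (fun _ => 0) : Fin d ⊕ Fin d → F) ≠ 0 := by
      intro hc
      have := congrFun hc (Sum.inl ⟨0, by omega⟩)
      simp at this
    obtain ⟨w, hw⟩ := hf.nd _ hne
    have h1 := hiso (Matrix.toLin' X (Sum.elim (fun i => if i = (⟨0, by omega⟩ : Fin d) then (1 : F) else 0) (fun _ => 0))) (Matrix.toLin' X w)
    rw [hxv, hxv, zero_smul, zero_smul, hf.zero_left, hiso] at h1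
    exact hw h1.symm
  have hcard : Module.finrank F (Fin d ⊕ Fin d → F) = 2 * (a' * t) := by
    rw [Module.finrank_fintype_fun_eq_card, Fintype.card_sum, Fintype.card_fin]
    nlinarith
  obtain ⟨D, h1, h2, h3, h4, h5, σ, h6⟩ := exists_plane_blocks hf hz0 hxv hiso a' t (by omega) hcard
  refine ⟨D, ⟨⟨ht, by omega, fun j => ?_, h2, h3⟩, fun j => h4 j, h5⟩, σ, h6⟩
  rw [h1 j]; ring

end Cfsg.Agent.S5960
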