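import Cfsg.Statements.S5961
import Mathlib
import Cfsg.Agent.Lib.Geo.ElusSpOrth

set_option autoImplicit false

namespace Cfsg.Agent.S5961

open Cfsg.Agent.Lib.Geo Polynomial Module

theorem result {F : Type*} [Field F] [Fintype F] {p : ℕ} [Fact p.Prime] [CharP F p] {q : ℕ} (hq : Fintype.card F = q)
    (d : ℕ) (hd : 2 ≤ d) (hT : (d, q) ≠ (2, 2))
    (a t : ℕ) (hat : 2 * d = a * t) (ha : 2 ≤ a) (hae : Even a) (ht : 2 ≤ t)
    (r : ℕ) [Fact r.Prime] (hr2 : r ≠ 2) (hrp : r ≠ p) (hΩ : r ∣ Nat.card {D : Fin t → Submodule F (Fin d ⊕ Fin d → F) // (Cfsg.Geo.IsMDecomposition a D ∧ (∀ j, ∀ u ∈ D j, u ≠ 0 → ∃ v ∈ D j, Cfsg.sympForm d F u v ≠ 0) ∧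
          (∀ j j', j ≠ j' → ∀ u ∈ D j, ∀ v ∈ D j', Cfsg.sympForm d F u v = 0))} / Nat.factorial t)
    (i c : ℕ) (hi : i = orderOf (q : ZMod r)) (hc : c = if Even i then i else 2 * i) :
    (∀ x : ↥(Matrix.symplecticGroup (Fin d) F),
      (∃ z : F, ((x ^ r : ↥(Matrix.symplecticGroup (Fin d) F)) : Matrix (Fin d ⊕ Fin d) (Fin d ⊕ Fin d) F) = z • (1 : Matrix (Fin d ⊕ Fin d) (Fin d ⊕ Fin d) F)) →
      (∀ z : F, (x : Matrix (Fin d ⊕ Fin d) (Fin d ⊕ Fin d) F) ≠ z • (1 : Matrix (Fin d ⊕ Fin d) (Fin d ⊕ Fin d) F)) →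
      ∃ D : Fin t → Submodule F (Fin d ⊕ Fin d → F), (Cfsg.Geo.IsMDecomposition a D ∧ (∀ j, ∀ u ∈ D j, u ≠ 0 → ∃ v ∈ D j, Cfsg.sympForm d F u v ≠ 0) ∧
          (∀ j j', j ≠ j' → ∀ u ∈ D j, ∀ v ∈ D j', Cfsg.sympForm d F u v = 0)) ∧
        ∃ σ : Equiv.Perm (Fin t), ∀ j, (D j).map (Matrix.toLin' (x : Matrix (Fin d ⊕ Fin d) (Fin d ⊕ Fin d) F)) = D (σ j)) ↔
    (c ≤ a ∧ (2 * d) % c = t * (a % c)) := by
  classical
  have hf := aform_sympForm d F
  have hfinV : finrank F (Fin d ⊕ Fin d → F) = 2 * d := by simp [two_mul]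
  have hcardι : Fintype.card (Fin d ⊕ Fin d) = a * t := by simp [← hat, two_mul]
  have hrpr : r.Prime := Fact.out
  have hodd : Odd r := hrpr.odd_of_ne_two hr2
  have hd1 : 1 ≤ d := by omega
  have hq1 : 1 ≤ q := by rw [← hq]; exact Fintype.card_pos
  have hr0 : (r : F) ≠ 0 := r_ne_zero_F (p := p) hrp
  have hipos := order_pos (F := F) (p := p) hq hrp
  have hcOf : c = cOf (orderOf (q : ZMod r)) := by rw [hc, hi]; rfl
  have hcpos : 0 < c := by rw [hcOf]; exact cOf_pos hipos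
  have hqr : (q : ZMod r) ≠ 0 := by
    intro h0
    rw [ZMod.natCast_eq_zero_iff] at h0
    obtain ⟨f, hpos, hf⟩ := FiniteField.card F p
    rw [← hq, hf] at h0
    have h5 := hrpr.dvd_of_dvd_pow h0
    exact hrp ((Nat.prime_dvd_prime_iff_eq hrpr Fact.out).1 h5)
  have hcdvd : c ∣ r - 1 := by
    rw [hcOf]
    exact cOf_dvd (ZMod.orderOf_dvd_card_sub_one hqr) (hodd.tsub_odd odd_one)
  have hcle : c ≤ r - 1 := Nat.le_of_dvd (by have := hrpr.two_le; omega) hcdvd
  constructor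
  · intro hall
    obtain ⟨D₀, hD₀⟩ := exists_orthP (F := F) (ι := Fin d ⊕ Fin d) hf ht (by omega) hae hcardι
    have hcn : c ≤ 2 * d := by
      rw [hcOf]
      exact cOf_le_of_dvd_card hq hrp hf (orthP_card_div hf hD₀ hΩ) d hfinV
    have model : ∀ s k, 2 * d = s * c + k → 1 ≤ s → ∃ (y : Module.End F (Fin d ⊕ Fin d → F)) (D : Fin t → Submodule F (Fin d ⊕ Fin d → F))
        (σ : Equiv.Perm (Fin t)), y ^ r = 1 ∧ (∀ u v, Cfsg.sympForm d F (y u) (y v) = Cfsg.sympForm d F u v) ∧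
        finrank F (LinearMap.ker (aeval y (X - C 1 : F[X]))) = k ∧ OrthP (Cfsg.sympForm d F) a D ∧ ∀ j, (D j).map y = D (σ j) := by
      intro s k hsk hs
      have hsc : c ≤ s * c := Nat.le_mul_of_pos_left _ (by omega)
      obtain ⟨y, hy1, hiso, hy2⟩ := exists_sp_model (F := F) (p := p) hq hrp s (Fin d ⊕ Fin d → F) hf (by rw [hfinV, ← hcOf]; omega)
      rw [hfinV, ← hcOf] at hy2
      obtain ⟨x, hx⟩ := sp_of_iso y hiso
      have hyne : y ≠ 1 := by
        intro h1
        rw [h1] at hy2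
        have h4 : aeval (1 : Module.End F (Fin d ⊕ Fin d → F)) (X - C 1 : Polynomial F) = 0 := by
          simp
        rw [h4, LinearMap.ker_zero, finrank_top, hfinV] at hy2
        omega
      obtain ⟨D, hD, σ, hσ⟩ := hall x ⟨1, by
        apply Matrix.toLin'.injective
        rw [sp_lin_pow, hx, hy1, toLin_smul_one, one_smul]⟩ (sp_nonscalar hd1 hodd hy1 hyne x hx)
      rw [hx] at hσ
      exact ⟨y, D, σ, hy1, hiso, by omega, hD, hσ⟩
    have hne : ∀ {D : Fin t → Submodule F (Fin d ⊕ Fin d → F)}, OrthP (Cfsg.sympForm d F) a D → ∀ j, D j ≠ ⊥ := by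
      intro D hD j h0
      have := hD.1.finrank_eq j
      rw [h0, finrank_bot] at this
      omega
    have hca : c ≤ a := by
      by_contra hca
      push Not at hca
      obtain ⟨y, D, σ, hy1, hiso, hy2, hD, hσ⟩ := model 1 (2 * d - c) (by omega) le_rfl
      have hσr : ∀ j, (σ ^ r) j = j := fun j =>
        perm_fix_of_scalar y D σ hσ hD.1.indep (hne hD) (c := 1) one_ne_zero (by rw [hy1, one_smul]) j
      by_cases hmoved : ∃ j, σ j ≠ j
      · obtain ⟨j, hj⟩ := hmoved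
        have h1 := moved_bound_g hD.1.indep hD.1.iSup_eq_top y σ hσ hrpr hy1 hσr hD.1.finrank_eq j hj
        rw [hy2] at h1
        have h2 : Fintype.card (Fin d ⊕ Fin d) = 2 * d := by simp [two_mul]
        rw [h2] at h1
        have h5 : (r - 1) * 2 ≤ (r - 1) * a := Nat.mul_le_mul_left _ ha
        have hr1 : 1 ≤ r - 1 := by have := hrpr.two_le; omega
        omega
      · push Not at hmoved
        have hinv : ∀ j, ∀ v ∈ D j, y v ∈ D j := by
          intro j v hv
          have h2 := hσ j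
          rw [hmoved j] at h2
          rw [← h2]
          exact Submodule.mem_map_of_mem hv
        have hfixall : ∀ j, ∀ v ∈ D j, y v = v := by
          intro j
          obtain ⟨e, he⟩ := c_dvd_of_nd (F := F) (p := p) hq hrp hf hy1 hiso (hinv j) (hD.2.1 j)
          rw [← hcOf, hD.1.finrank_eq] at he
          have he0 : e = 0 := by
            by_contra h0
            have : c ≤ e * c := Nat.le_mul_of_pos_left _ (Nat.pos_of_ne_zero h0)
            omega
          rw [he0, zero_mul, add_zero] at he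
          have h4 : D j ⊓ LinearMap.ker (aeval y (X - C 1 : F[X])) = D j :=
            Submodule.eq_of_le_of_finrank_eq inf_le_left (by rw [hD.1.finrank_eq]; exact he.symm)
          intro v hv
          rw [← h4] at hv
          exact mem_ker_aeval_sub_one.1 hv.2
        have hker : LinearMap.ker (aeval y (X - C 1 : F[X])) = ⊤ := by
          rw [eq_top_iff, ← hD.1.iSup_eq_top]
          apply iSup_le
          intro j v hv
          exact (mem_ker_sub_one y).2 (hfixall j v hv)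
        rw [hker, finrank_top, hfinV] at hy2
        omega
    refine ⟨hca, ?_⟩
    have hsk : 2 * d = (2 * d / c) * c + 2 * d % c := (Nat.div_add_mod' _ c).symm
    have hs1 : 1 ≤ 2 * d / c := (Nat.one_le_div_iff hcpos).2 hcn
    have hk : 2 * d % c < c := Nat.mod_lt _ hcpos
    obtain ⟨y, D, σ, hy1, hiso, hy2, hD, hσ⟩ := model _ _ hsk hs1
    have hσr : ∀ j, (σ ^ r) j = j := fun j =>
      perm_fix_of_scalar y D σ hσ hD.1.indep (hne hD) (c := 1) one_ne_zero (by rw [hy1, one_smul]) j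
    have hfix : ∀ j, σ j = j := by
      by_contra hcon
      push Not at hcon
      obtain ⟨j, hj⟩ := hcon
      have h1 := fixed_ge_g hD.1.indep hD.1.iSup_eq_top y σ hσ hrpr hr0 hy1 hσr {j} (by simp) (by simp [hj])
      rw [Finset.sum_singleton, hy2, hD.1.finrank_eq] at h1
      omega
    have hinv : ∀ j, ∀ v ∈ D j, y v ∈ D j := by
      intro j v hv
      have h2 := hσ j
      rw [hfix j] at h2
      rw [← h2]
      exact Submodule.mem_map_of_mem hv
    have hlow : ∀ j, a % c ≤ finrank F (D j ⊓ LinearMap.ker (aeval y (X - C 1 : F[X])) : Submodule F (Fin d ⊕ Fin d → F)) := by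
      intro j
      have h1 := mod_le_fix (F := F) (p := p) hq hrp hf hy1 hiso (hinv j) (hD.2.1 j)
      rwa [← hcOf, hD.1.finrank_eq] at h1
    have hsum := sum_finrank_le_of_indep (fun j => D j ⊓ LinearMap.ker (aeval y (X - C 1 : F[X])))
      (hD.1.indep.mono (fun j => inf_le_left)) _ (fun j => inf_le_right)
    rw [hy2] at hsum
    have hsum2 : t * (a % c) ≤ 2 * d % c := by
      refine le_trans ?_ hsum
      have := Finset.card_nsmul_le_sum Finset.univ
        (fun j => finrank F (D j ⊓ LinearMap.ker (aeval y (X - C 1 : F[X])) : Submodule F (Fin d ⊕ Fin d → F))) (a % c) (fun j _ => hlow j)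
      simpa using this
    have h3 : t * (a % c) < c := by omega
    rw [hat]
    exact mul_mod_of_lt hcpos h3
  · rintro ⟨hca, hmod⟩ x ⟨z, hz⟩ _
    obtain ⟨y, hy1, hiso, hmap⟩ := sp_reduce hd1 x hodd hz
    obtain ⟨D, h1, h2, h3, h4, -, h5⟩ := orth_fam hf y hiso a
      (fun t' W => (∀ v ∈ W, y v ∈ W) ∧ NDOn (Cfsg.sympForm d F) W ∧ finrank F W = a * t' ∧ t' * (a % c) < c)
      (fun W h => Submodule.finrank_eq_zero.1 (by rw [h.2.2.1, mul_zero]))
      (fun t' W h => h.2.1)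
      (fun t' W₀ h => by
        obtain ⟨h1, h2, h3, h4⟩ := h
        have h5 := mod_le_fix (F := F) (p := p) hq hrp hf hy1 hiso h1 h2
        rw [← hcOf, h3, mul_mod_of_lt hcpos h4] at h5
        have h6 : (t' + 1) * (a % c) = t' * (a % c) + a % c := by ring
        have h7 : a * (t' + 1) = a * t' + a := by ring
        obtain ⟨U, hU1, hU2, hU3, hU4⟩ := exists_inv_nd (F := F) (p := p) hq hrp hr2 hf hy1 hiso h1 h2 a (by rw [h3, h7]; omega) hae
          (by rw [← hcOf]; omega)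
        obtain ⟨h8, _, _⟩ := rel_perp hf hU3 hU1 h2
        refine ⟨U, hU1, hU2, hU3, hU4, rel_perp_inv hf hiso hU2 h1, h8, ?_, by omega⟩
        rw [finrank_rel_perp hf hU3 hU1 h2, h3, hU4, h7]
        omega)
      t ⊤ ⟨fun _ _ => trivial, fun u _ hne =>
        let ⟨b, hb⟩ := hf.nd u hne
        ⟨b, trivial, hb⟩, by rw [finrank_top, hfinV, hat], by
          rw [← hmod]
          exact Nat.mod_lt _ hcpos⟩
    have hD : OrthP (Cfsg.sympForm d F) a D := orthP_of_fam ht (by omega) hcardι h2 h3 h4 h5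
    refine ⟨D, hD, 1, fun j => ?_⟩
    rw [hmap]
    exact map_eq_of_inv y (iso_inj hf y hiso) (D j) (h1 j)

end Cfsg.Agent.S5961
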