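import Cfsg.Statements.S5962
import Mathlib
import Cfsg.Agent.Lib.Geo.ElusPlanes
import Cfsg.Agent.Lib.Classical.Symplectic

set_option autoImplicit false

namespace Cfsg.Agent.S5962

open Cfsg.Agent.Lib.Geo

theorem result {F : Type*} [Field F] [Fintype F] {p : ℕ} [Fact p.Prime] [CharP F p] {q : ℕ} (hq : Fintype.card F = q)
    (d : ℕ) (hd : 2 ≤ d) (hT : (d, q) ≠ (2, 2)) (hodd : Odd q)
    (hΩ : 2 ∣ Nat.card {P : Submodule F (Fin d ⊕ Fin d → F) × Submodule F (Fin d ⊕ Fin d → F) // IsCompl P.1 P.2 ∧ (∀ u ∈ P.1, ∀ v ∈ P.1, Cfsg.sympForm d F u v = 0) ∧ (∀ u ∈ P.2, ∀ v ∈ P.2, Cfsg.sympForm d F u v = 0)} / 2)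
    (x : ↥(Matrix.symplecticGroup (Fin d) F))
    (hx1 : ∃ z : F, ((x ^ 2 : ↥(Matrix.symplecticGroup (Fin d) F)) : Matrix (Fin d ⊕ Fin d) (Fin d ⊕ Fin d) F) = z • (1 : Matrix (Fin d ⊕ Fin d) (Fin d ⊕ Fin d) F))
    (hx2 : ∀ z : F, (x : Matrix (Fin d ⊕ Fin d) (Fin d ⊕ Fin d) F) ≠ z • (1 : Matrix (Fin d ⊕ Fin d) (Fin d ⊕ Fin d) F)) :
    ∃ U W : Submodule F (Fin d ⊕ Fin d → F), IsCompl U W ∧ (∀ u ∈ U, ∀ v ∈ U, Cfsg.sympForm d F u v = 0) ∧ (∀ u ∈ W, ∀ v ∈ W, Cfsg.sympForm d F u v = 0) ∧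
        ((U.map (Matrix.toLin' (x : Matrix (Fin d ⊕ Fin d) (Fin d ⊕ Fin d) F)) = U ∧ W.map (Matrix.toLin' (x : Matrix (Fin d ⊕ Fin d) (Fin d ⊕ Fin d) F)) = W) ∨
         (U.map (Matrix.toLin' (x : Matrix (Fin d ⊕ Fin d) (Fin d ⊕ Fin d) F)) = W ∧ W.map (Matrix.toLin' (x : Matrix (Fin d ⊕ Fin d) (Fin d ⊕ Fin d) F)) = U)) := by
  classical
  obtain ⟨z, hz⟩ := hx1
  set X : Matrix (Fin d ⊕ Fin d) (Fin d ⊕ Fin d) F := (x : Matrix (Fin d ⊕ Fin d) (Fin d ⊕ Fin d) F) with hX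
  have hXX : X * X = z • (1 : Matrix (Fin d ⊕ Fin d) (Fin d ⊕ Fin d) F) := by
    rw [← hz, hX, pow_two]; rfl
  have hxv : ∀ v, Matrix.toLin' X (Matrix.toLin' X v) = z • v := by
    intro v
    rw [Matrix.toLin'_apply, Matrix.toLin'_apply, Matrix.mulVec_mulVec, hXX, Matrix.smul_mulVec, Matrix.one_mulVec]
  have hiso : ∀ u v, Cfsg.sympForm d F (Matrix.toLin' X u) (Matrix.toLin' X v) = Cfsg.sympForm d F u v := by
    intro u v
    exact (Cfsg.Agent.Lib.Classical.mem_symplecticGroup_iff_preserves.1 x.2) u v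
  have hf := aform_sympForm d F
  have hz0 : z ≠ 0 := by
    rintro rfl
    have hne : (Sum.elim (fun i => if i = (⟨0, by omega⟩ : Fin d) then (1 : F) else 0) (fun _ => 0) : Fin d ⊕ Fin d → F) ≠ 0 := by
      intro hc
      have := congrFun hc (Sum.inl ⟨0, by omega⟩)
      simp at this
    obtain ⟨w, hw⟩ := hf.nd _ hne
    have h1 := hiso (Matrix.toLin' X (Sum.elim (fun i => if i = (⟨0, by omega⟩ : Fin d) then (1 : F) else 0) (fun _ => 0))) (Matrix.toLin' X w)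
    rw [hxv, hxv, zero_smul, zero_smul, hf.zero_left, hiso] at h1
    exact hw h1.symm
  have h2 : (2 : F) ≠ 0 := by
    intro hc
    have hp2 : p = 2 := by
      have h3 : ((2 : ℕ) : F) = 0 := by exact_mod_cast hc
      have := (CharP.cast_eq_zero_iff F p 2).1 h3
      exact (Nat.prime_dvd_prime_iff_eq (Fact.out) Nat.prime_two).1 this
    subst hp2
    obtain ⟨n, _, hn⟩ := FiniteField.card F 2
    rw [hq] at hn
    rw [hn] at hodd
    exact (Nat.not_even_iff_odd.2 hodd) ((Nat.even_pow.2 ⟨even_two, n.pos.ne'⟩))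
  obtain ⟨U, W, h1, h3, h4, h5⟩ := exists_lagr_pair hf h2 hz0 hxv hiso
  exact ⟨U, W, h1, h3, h4, h5⟩

end Cfsg.Agent.S5962
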