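import Cfsg.Statements.S5963
import Mathlib
import Cfsg.Agent.Lib.Geo.ElusSpPair

set_option autoImplicit false

namespace Cfsg.Agent.S5963

open Cfsg.Agent.Lib.Geo Polynomial Module

theorem result {F : Type*} [Field F] [Fintype F] {p : ℕ} [Fact p.Prime] [CharP F p] {q : ℕ} (hq : Fintype.card F = q)
    (d : ℕ) (hd : 2 ≤ d) (hT : (d, q) ≠ (2, 2)) (hodd : Odd q)
    (r : ℕ) [Fact r.Prime] (hr2 : r ≠ 2) (hrp : r ≠ p) (hΩ : r ∣ Nat.card {P : Submodule F (Fin d ⊕ Fin d → F) × Submodule F (Fin d ⊕ Fin d → F) // IsCompl P.1 P.2 ∧ (∀ u ∈ P.1, ∀ v ∈ P.1, Cfsg.sympForm d F u v = 0) ∧ (∀ u ∈ P.2, ∀ v ∈ P.2, Cfsg.sympForm d F u v = 0)} / 2) :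
    ∃ x : ↥(Matrix.symplecticGroup (Fin d) F),
      (∃ z : F, ((x ^ r : ↥(Matrix.symplecticGroup (Fin d) F)) : Matrix (Fin d ⊕ Fin d) (Fin d ⊕ Fin d) F) = z • (1 : Matrix (Fin d ⊕ Fin d) (Fin d ⊕ Fin d) F)) ∧
      (∀ z : F, (x : Matrix (Fin d ⊕ Fin d) (Fin d ⊕ Fin d) F) ≠ z • (1 : Matrix (Fin d ⊕ Fin d) (Fin d ⊕ Fin d) F)) ∧
      ¬ (∃ U W : Submodule F (Fin d ⊕ Fin d → F), IsCompl U W ∧ (∀ u ∈ U, ∀ v ∈ U, Cfsg.sympForm d F u v = 0) ∧ (∀ u ∈ W, ∀ v ∈ W, Cfsg.sympForm d F u v = 0) ∧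
        ((U.map (Matrix.toLin' (x : Matrix (Fin d ⊕ Fin d) (Fin d ⊕ Fin d) F)) = U ∧ W.map (Matrix.toLin' (x : Matrix (Fin d ⊕ Fin d) (Fin d ⊕ Fin d) F)) = W) ∨
         (U.map (Matrix.toLin' (x : Matrix (Fin d ⊕ Fin d) (Fin d ⊕ Fin d) F)) = W ∧ W.map (Matrix.toLin' (x : Matrix (Fin d ⊕ Fin d) (Fin d ⊕ Fin d) F)) = U))) := by
  classical
  have hf := aform_sympForm d F
  have hfinV : finrank F (Fin d ⊕ Fin d → F) = 2 * d := by simp [two_mul]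
  have hrpr : r.Prime := Fact.out
  have hoddr : Odd r := hrpr.odd_of_ne_two hr2
  have hd1 : 1 ≤ d := by omega
  haveI : Nontrivial (Fin d ⊕ Fin d → F) := Module.nontrivial_of_finrank_pos (R := F) (by omega)
  have hipos := order_pos (F := F) (p := p) hq hrp
  have h2 : (2 : F) ≠ 0 := by
    intro hc
    have hp2 : p = 2 := by
      have h3 : ((2 : ℕ) : F) = 0 := by exact_mod_cast hc
      have := (CharP.cast_eq_zero_iff F p 2).1 h3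
      exact (Nat.prime_dvd_prime_iff_eq (Fact.out) Nat.prime_two).1 this
    subst hp2
    obtain ⟨n, _, hn⟩ := FiniteField.card F 2
    rw [hq] at hn
    rw [hn] at hodd
    exact (Nat.not_even_iff_odd.2 hodd) ((Nat.even_pow.2 ⟨even_two, n.pos.ne'⟩))
  obtain ⟨U₀, W₀, h01, h02, h03, _⟩ := exists_lagr_pair hf h2 (one_ne_zero (α := F)) (x := (1 : Module.End F (Fin d ⊕ Fin d → F))) (fun v => by simp) (fun u v => rfl)
  have hx₀ : LagrP (Cfsg.sympForm d F) (U₀, W₀) := ⟨h01, h02, h03⟩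
  obtain ⟨m, hm⟩ := lagrP_even (F := F) hf
  have hΩ' : r ∣ Nat.card {P // LagrP (Cfsg.sympForm d F) P} / 2 := hΩ
  rw [hm, Nat.mul_div_cancel_left _ (by omega)] at hΩ'
  have hΩ'' : r ∣ Nat.card {P // LagrP (Cfsg.sympForm d F) P} := by
    rw [hm]
    exact hΩ'.mul_left 2
  obtain ⟨j, hj, hj2⟩ := lagr_prime_dvd hq hrp hf d hfinV hx₀ hΩ''
  obtain ⟨hev, hile⟩ := order_even_of_dvd (r := r) hr2 (by omega) hj2
  have hcOf : cOf (orderOf (q : ZMod r)) = orderOf (q : ZMod r) := by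
    unfold cOf; rw [if_pos hev]
  obtain ⟨y, hy1, hiso, hy2⟩ := exists_sp_model (F := F) (p := p) hq hrp 1 (Fin d ⊕ Fin d → F) hf (by
    rw [hfinV, hcOf]; omega)
  rw [hfinV, hcOf] at hy2
  obtain ⟨x, hx⟩ := sp_of_iso y hiso
  have hyne : y ≠ 1 := by
    intro h1
    rw [h1] at hy2
    have h4 : aeval (1 : Module.End F (Fin d ⊕ Fin d → F)) (X - C 1 : Polynomial F) = 0 := by
      simp
    rw [h4, LinearMap.ker_zero, finrank_top, hfinV] at hy2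
    omega
  refine ⟨x, ⟨1, ?_⟩, sp_nonscalar hd1 hoddr hy1 hyne x hx, ?_⟩
  · apply Matrix.toLin'.injective
    rw [sp_lin_pow, hx, hy1, toLin_smul_one, one_smul]
  · rintro ⟨U, W, h1, h3, h4, h5⟩
    rw [hx] at h5
    exact no_pair (p := p) hq hrp hr2 hf hy1 hiso hev (by rw [hy2, hfinV]; omega) h1 h3 h4 h5

end Cfsg.Agent.S5963
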