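import Cfsg.Statements.S5964
import Mathlib
import Cfsg.Agent.Lib.Geo.ElusSubfield

set_option autoImplicit false

namespace Cfsg.Agent.S5964

open Cfsg.Agent.Lib.Geo Polynomial Module

theorem result {F : Type*} [Field F] [Fintype F] {p : ℕ} [Fact p.Prime] [CharP F p] {q : ℕ} (hq : Fintype.card F = q)
    (n : ℕ) (hn : 2 ≤ n) (hT : (n, q) ≠ (2, 2) ∧ (n, q) ≠ (2, 3))
    (F₀ : Subfield F) (k q₀ : ℕ) (hk : k.Prime) (hF₀ : Nat.card ↥F₀ = q₀) (hqk : q = q₀ ^ k) (hC5 : ¬ (n = 2 ∧ q₀ = 2)) (hΩ : 2 ∣ ((Cfsg.Geo.subfieldSubgroup F₀ 1).comap (Matrix.SpecialLinearGroup.toGL : Matrix.SpecialLinearGroup (Fin n) F →* GL (Fin n) F)).index) :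
    (∀ x : Matrix.SpecialLinearGroup (Fin n) F,
      (∃ z : F, ((x ^ 2 : Matrix.SpecialLinearGroup (Fin n) F) : Matrix (Fin n) (Fin n) F) = z • (1 : Matrix (Fin n) (Fin n) F)) →
      (∀ z : F, (x : Matrix (Fin n) (Fin n) F) ≠ z • (1 : Matrix (Fin n) (Fin n) F)) →
      ∃ P : Matrix.SpecialLinearGroup (Fin n) F, P⁻¹ * x * P ∈ ((Cfsg.Geo.subfieldSubgroup F₀ 1).comap (Matrix.SpecialLinearGroup.toGL : Matrix.SpecialLinearGroup (Fin n) F →* GL (Fin n) F))) ↔
    (Odd q → (k = 2 ∧ padicValNat 2 n ≤ padicValNat 2 (q - 1))) := by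
  classical
  have hq2 : 2 ≤ q := by rw [← hq]; exact Fintype.one_lt_card
  have hfin : finrank F (Fin n → F) = n := by simp
  haveI hnt : Nontrivial (Fin n → F) := by
    haveI : Nonempty (Fin n) := ⟨⟨0, by omega⟩⟩
    infer_instance
  have hoddF : Odd q → (2 : F) ≠ 0 := by
    intro hodd h
    have h3 : ((2 : ℕ) : F) = 0 := by exact_mod_cast h
    have h4 : p ∣ 2 := (CharP.cast_eq_zero_iff F p 2).1 h3
    have h5 : p = 2 := (Nat.prime_dvd_prime_iff_eq (Fact.out : p.Prime) Nat.prime_two).1 h4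
    subst h5
    obtain ⟨t, _, ht⟩ := FiniteField.card F 2
    rw [hq] at ht
    rw [ht] at hodd
    exact (Nat.not_even_iff_odd.2 hodd) ((even_two).pow_of_ne_zero t.ne_zero)
  have hq04 : Odd q → k = 2 → q % 4 = 1 := by
    intro hodd hk2
    subst hk2
    rw [hqk] at hodd ⊢
    have hq₀ : Odd q₀ := by
      rw [← Nat.not_even_iff_odd]
      intro h
      exact (Nat.not_even_iff_odd.2 hodd) (h.pow_of_ne_zero two_ne_zero)
    obtain ⟨t, ht⟩ := hq₀
    rw [ht]
    have : (2 * t + 1) ^ 2 = 4 * (t * t + t) + 1 := by ring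
    omega
  constructor
  · intro hall hodd
    have hk2 : k = 2 := by
      by_contra hk2
      have hkodd : Odd k := hk.odd_of_ne_two hk2
      exact subfield_index_odd hq (by omega) F₀ hF₀ hqk hkodd hodd hΩ
    refine ⟨hk2, ?_⟩
    by_contra hlt
    push Not at hlt
    subst hk2
    have h2F := hoddF hodd
    haveI : Fact (Nat.Prime 2) := ⟨Nat.prime_two⟩
    have h2q : 2 ∣ q - 1 := by
      obtain ⟨t, ht⟩ := hodd
      exact ⟨t, by omega⟩
    obtain ⟨u, hu0, hno, hu⟩ := exists_no_root hq Nat.prime_two h2q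
    obtain ⟨s, hs⟩ := sq_of_mem_subfield hq hF₀ hqk h2F (neg_mem F₀.one_mem) (neg_ne_zero.2 one_ne_zero)
    have hs0 : s ≠ 0 := by
      rintro rfl
      apply (neg_ne_zero.2 (one_ne_zero (α := F)))
      rw [← hs]
      ring
    have hno2 : ∀ d : F, d ^ 2 ≠ -u := by
      intro d hd
      apply hno (d * s)
      rw [mul_pow, hd, hs]
      ring
    obtain ⟨m, hm⟩ : 2 ^ padicValNat 2 (q - 1) ∣ n / 2 := by
      have h1 : 2 ^ (padicValNat 2 (q - 1) + 1) ∣ n := (pow_dvd_pow 2 hlt).trans pow_padicValNat_dvd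
      obtain ⟨t, ht⟩ := h1
      refine ⟨t, ?_⟩
      rw [ht, pow_succ]
      have h0 : 2 ^ padicValNat 2 (q - 1) * 2 * t = 2 * (2 ^ padicValNat 2 (q - 1) * t) := by ring
      rw [h0, Nat.mul_div_cancel_left _ (by norm_num)]
    have hn2 : n = 2 * (n / 2) := by
      have h1 : 2 ^ (padicValNat 2 (q - 1) + 1) ∣ n := (pow_dvd_pow 2 hlt).trans pow_padicValNat_dvd
      have h3 : 2 ∣ n := (dvd_pow_self 2 (by omega)).trans h1
      omega
    obtain ⟨y, hy1, hy2⟩ := exists_binom_model (F := F) (V := Fin n → F) Nat.prime_two hno2 (n / 2) (by rw [hfin]; exact hn2)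
    have hdet : LinearMap.det y = 1 := by
      rw [hy2, hm]
      have : ((-1 : F) ^ 2 * - -u) = u := by ring
      rw [this, pow_mul, hu, one_pow]
    have hns : ∀ z : F, y ≠ z • (1 : Module.End F (Fin n → F)) := by
      intro z hz
      apply hno2 z
      obtain ⟨v, hv⟩ := exists_ne (0 : Fin n → F)
      have h3 := LinearMap.congr_fun hy1 v
      rw [hz] at h3
      simp only [pow_two, Module.End.mul_apply, LinearMap.smul_apply, Module.End.one_apply, smul_smul] at h3
      have h4 : (z * z - -u) • v = 0 := by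
        rw [_root_.sub_smul, h3, sub_self]
      have h5 := (smul_eq_zero.1 h4).resolve_right hv
      rw [pow_two]
      exact sub_eq_zero.1 h5
    obtain ⟨x, hx, hx1, hx2⟩ := sl_lift (r := 2) y hdet hy1 hns
    obtain ⟨P, hP⟩ := hall x hx1 hx2
    rw [Subgroup.mem_comap] at hP
    obtain ⟨c, a, hc, hca⟩ := entries_of_mem_subfield hP
    -- the square of the conjugate
    have hsq : (((P⁻¹ * x * P : Matrix.SpecialLinearGroup (Fin n) F) ^ 2 : Matrix.SpecialLinearGroup (Fin n) F) : Matrix (Fin n) (Fin n) F) = (-u) • (1 : Matrix (Fin n) (Fin n) F) := by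
      have h1 : (P⁻¹ * x * P) ^ 2 = P⁻¹ * x ^ 2 * P := by
        simp only [pow_two, mul_assoc, mul_inv_cancel_left]
      have h3 : ((x ^ 2 : Matrix.SpecialLinearGroup (Fin n) F) : Matrix (Fin n) (Fin n) F) = (-u) • (1 : Matrix (Fin n) (Fin n) F) := by
        apply Matrix.toLin'.injective
        rw [sl_lin_pow, hx, hy1, lin_smul_one]
      rw [h1, Matrix.SpecialLinearGroup.coe_mul, Matrix.SpecialLinearGroup.coe_mul, h3]
      rw [Matrix.mul_smul, Matrix.mul_one, Matrix.smul_mul, ← Matrix.SpecialLinearGroup.coe_mul, inv_mul_cancel]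
      simp
    let i₀ : Fin n := ⟨0, by omega⟩
    have hent := congrFun (congrFun hsq i₀) i₀
    rw [Matrix.SpecialLinearGroup.coe_pow, pow_two, Matrix.mul_apply] at hent
    simp only [Matrix.smul_apply, Matrix.one_apply_eq, smul_eq_mul, mul_one] at hent
    have hent2 : ∑ j, ((P⁻¹ * x * P : Matrix.SpecialLinearGroup (Fin n) F) : Matrix (Fin n) (Fin n) F) i₀ j *
        ((P⁻¹ * x * P : Matrix.SpecialLinearGroup (Fin n) F) : Matrix (Fin n) (Fin n) F) j i₀ =
        c ^ 2 * ((∑ j, a i₀ j * a j i₀ : F₀) : F) := by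
      rw [AddSubmonoidClass.coe_finset_sum, Finset.mul_sum]
      apply Finset.sum_congr rfl
      intro j _
      have e1 := hca i₀ j
      have e2 := hca j i₀
      rw [Matrix.SpecialLinearGroup.coe_GL_coe_matrix] at e1 e2
      rw [e1, e2, Subfield.coe_mul]
      ring
    rw [hent2] at hent
    obtain ⟨e, he⟩ : ∃ e : F₀, e = ∑ j, a i₀ j * a j i₀ := ⟨_, rfl⟩
    rw [← he] at hent
    have he0 : (e : F) ≠ 0 := by
      intro h0
      rw [h0, mul_zero] at hent
      exact neg_ne_zero.2 hu0 hent.symm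
    obtain ⟨t, ht⟩ := sq_of_mem_subfield hq hF₀ hqk h2F e.2 he0
    apply hno2 (c * t)
    rw [mul_pow, ht]
    exact hent
  · rintro hcond x ⟨z, hz⟩ -
    obtain ⟨y₀, hy₀⟩ : ∃ y₀, y₀ = Matrix.toLin' (x : Matrix (Fin n) (Fin n) F) := ⟨_, rfl⟩
    have hy2 : y₀ ^ 2 = z • (1 : Module.End F (Fin n → F)) := by
      rw [hy₀, ← sl_lin_pow, hz, lin_smul_one]
    have hdet : LinearMap.det y₀ = 1 := by rw [hy₀, sl_lin_det]
    have hz0 : z ≠ 0 := by
      intro h0
      rw [h0, zero_smul] at hy2
      haveI : Nonempty (Fin n) := ⟨⟨0, by omega⟩⟩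
      have := congrArg LinearMap.det hy2
      rw [map_pow, hdet, one_pow, LinearMap.det_zero' (Pi.basisFun F (Fin n))] at this
      · exact absurd this (by simp)
    by_cases hodd : Odd q
    · obtain ⟨hk2, hle⟩ := hcond hodd
      have h2F := hoddF hodd
      by_cases hsq : ∃ w : F, w ^ 2 = z
      · obtain ⟨w, rfl⟩ := hsq
        have hw : w ≠ 0 := fun h0 => hz0 (by rw [h0]; ring)
        obtain ⟨y, hy⟩ : ∃ y : Module.End F (Fin n → F), y = w⁻¹ • y₀ := ⟨_, rfl⟩
        have hxy : Matrix.toLin' (x : Matrix (Fin n) (Fin n) F) = w • y := by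
          rw [hy, smul_smul, mul_inv_cancel₀ hw, one_smul, hy₀]
        have hyy : y ^ 2 = 1 := by
          rw [hy, _root_.smul_pow, hy2, smul_smul]
          have : (w⁻¹) ^ 2 * w ^ 2 = 1 := by field_simp
          rw [this, one_smul]
        refine conj_of_intForm (F₀ := F₀) (by omega) x hw y hxy (intForm_involution h2F y hyy) (fun D _ => ?_)
        -- an eigenvector
        obtain ⟨v, hv⟩ := exists_ne (0 : Fin n → F)
        have hyy' : ∀ u, y (y u) = u := fun u => by
          have := LinearMap.congr_fun hyy u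
          simpa [pow_two] using this
        obtain ⟨u, hu, t, ht⟩ : ∃ u : Fin n → F, u ≠ 0 ∧ ∃ t : F, y u = t • u := by
          by_cases h0 : y v + v = 0
          · exact ⟨v, hv, -1, by rw [neg_one_smul]; exact eq_neg_of_add_eq_zero_left h0⟩
          · exact ⟨y v + v, h0, 1, by rw [map_add, hyy', one_smul, add_comm]⟩
        have hU : ∀ a ∈ Submodule.span F {u}, y a ∈ Submodule.span F {u} := by
          intro a ha
          obtain ⟨s, rfl⟩ := Submodule.mem_span_singleton.1 ha
          rw [map_smul, ht, smul_smul]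
          exact Submodule.mem_span_singleton.2 ⟨_, rfl⟩
        obtain ⟨W, hc, hW⟩ := inv_compl y (r := 2) (by exact_mod_cast h2F) (one_ne_zero (α := F)) (by rw [hyy, one_smul]) _ hU
        obtain ⟨T, hT1, hT2⟩ := exists_dil hc y hU hW D
        rw [finrank_span_singleton hu, pow_one] at hT2
        exact ⟨T, 1, F₀.one_mem, one_ne_zero, hT1, by rw [hT2, mul_one]⟩
      · exfalso
        have hno : ∀ d : F, d ^ 2 ≠ z := fun d hd => hsq ⟨d, hd⟩
        have hdvd := binom_dvd_finrank Nat.prime_two hno y₀ hy2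
        rw [hfin] at hdvd
        have hd2 := binom_det Nat.prime_two hno y₀ hy2
        rw [hfin, hdet] at hd2
        haveI : Fact (Nat.Prime 2) := ⟨Nat.prime_two⟩
        have h5 := binom_sign_no_root hq Nat.prime_two hno hz0 hd2.symm (fun _ => hq04 hodd hk2)
        have h6 : 2 ^ (padicValNat 2 (q - 1) + 1) ∣ n := by
          obtain ⟨t, ht⟩ := h5
          obtain ⟨s, hs⟩ := hdvd
          refine ⟨t, ?_⟩
          rw [pow_succ]
          have h7 : n / 2 = s := by omega
          rw [h7] at ht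
          rw [hs, ht]
          ring
        have h7 := (padicValNat_dvd_iff_le (p := 2) (by omega)).1 h6
        omega
    · -- even order
      have h2F : (2 : F) = 0 := by
        rw [Nat.not_odd_iff_even] at hodd
        have h3 : (q : F) = 0 := by
          rw [← hq]
          exact Nat.cast_card_eq_zero F
        obtain ⟨t, ht⟩ := FiniteField.card F p
        rw [hq] at ht
        obtain ⟨_, ht2⟩ := ht
        have h4 : p = 2 := by
          have h5 : 2 ∣ p ^ (t : ℕ) := by
            rw [← ht2]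
            exact even_iff_two_dvd.1 hodd
          exact ((Nat.prime_dvd_prime_iff_eq Nat.prime_two Fact.out).1 (Nat.prime_two.dvd_of_dvd_pow h5)).symm
        subst h4
        exact_mod_cast CharP.cast_eq_zero F 2
      haveI : CharP F 2 := CharTwo.of_one_ne_zero_of_two_eq_zero one_ne_zero h2F
      have hsqrt : ∀ a : F, ∃ b : F, b ^ 2 = a := by
        intro a
        obtain ⟨b, hb⟩ := FiniteField.isSquare_of_char_two (ringChar.eq F 2) a
        exact ⟨b, by rw [hb]; ring⟩
      obtain ⟨w, hwz⟩ := hsqrt z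
      have hw : w ≠ 0 := fun h0 => hz0 (by rw [← hwz, h0]; ring)
      obtain ⟨y, hy⟩ : ∃ y : Module.End F (Fin n → F), y = w⁻¹ • y₀ := ⟨_, rfl⟩
      have hxy : Matrix.toLin' (x : Matrix (Fin n) (Fin n) F) = w • y := by
        rw [hy, smul_smul, mul_inv_cancel₀ hw, one_smul, hy₀]
      have hyy : y ^ 2 = 1 := by
        rw [hy, _root_.smul_pow, hy2, smul_smul, ← hwz]
        have : (w⁻¹) ^ 2 * w ^ 2 = 1 := by field_simp
        rw [this, one_smul]
      obtain ⟨N, hN⟩ : ∃ N : Module.End F (Fin n → F), N = y - 1 := ⟨_, rfl⟩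
      have hyN : y = 1 + N := by rw [hN]; abel
      have hN2 : N ^ 2 = 0 := by
        have hyy' : ∀ u, y (y u) = u := fun u => by
          have := LinearMap.congr_fun hyy u
          simpa [pow_two] using this
        apply LinearMap.ext
        intro v
        rw [hN, pow_two, Module.End.mul_apply]
        simp only [LinearMap.sub_apply, Module.End.one_apply, map_sub, hyy', LinearMap.zero_apply]
        have h9 : (2 : F) • (y v) = 0 := by rw [h2F, zero_smul]
        have h10 : (2 : F) • v = 0 := by rw [h2F, zero_smul]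
        have h11 : v - y v - (y v - v) = (2 : F) • v - (2 : F) • (y v) := by
          rw [two_smul, two_smul]
          abel
        rw [h11, h9, h10, sub_zero]
      refine conj_of_intForm (F₀ := F₀) (by omega) x hw y hxy (by rw [hyN]; exact intForm_one_add N 2 hN2) (fun D _ => ?_)
      obtain ⟨μ, hμ1, hμ2, hμ3⟩ := nil_decomp 2 n (Fin n → F) N hfin hN2
      have hμne : μ ≠ 0 := by
        rintro rfl
        simp at hμ2
        omega
      obtain ⟨a, ha⟩ := Multiset.exists_mem_of_ne_zero hμne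
      obtain ⟨U, W, hc, hU, hW, hUd⟩ := hμ3 {a} (Multiset.singleton_le.2 ha)
      rw [Multiset.sum_singleton] at hUd
      have hU' : ∀ v ∈ U, y v ∈ U := by
        intro v hv
        rw [hyN]
        simp only [LinearMap.add_apply, Module.End.one_apply]
        exact U.add_mem hv (hU v hv)
      have hW' : ∀ v ∈ W, y v ∈ W := by
        intro v hv
        rw [hyN]
        simp only [LinearMap.add_apply, Module.End.one_apply]
        exact W.add_mem hv (hW v hv)
      have hroot : ∃ t : F, t ^ a = D := by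
        obtain ⟨h1, h3⟩ := hμ1 a ha
        have : a = 1 ∨ a = 2 := by omega
        rcases this with rfl | rfl
        · exact ⟨D, pow_one D⟩
        · exact hsqrt D
      obtain ⟨t, ht⟩ := hroot
      obtain ⟨T, hT1, hT2⟩ := exists_dil hc y hU' hW' t
      rw [hUd, ht] at hT2
      exact ⟨T, 1, F₀.one_mem, one_ne_zero, hT1, by rw [hT2, mul_one]⟩

end Cfsg.Agent.S5964
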