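import Cfsg.Statements.S5966
import Mathlib
import Cfsg.Agent.Lib.Geo.ElusTwist

set_option autoImplicit false

namespace Cfsg.Agent.S5966

open Cfsg.Agent.Lib.Geo Polynomial Module

theorem result {F : Type*} [Field F] [Fintype F] [CharP F 3] {q : ℕ} (hq : Fintype.card F = q)
    (n : ℕ) (hn : 2 ≤ n) (hT : (n, q) ≠ (2, 3))
    (F₀ : Subfield F) (k q₀ : ℕ) (hk : k.Prime) (hF₀ : Nat.card ↥F₀ = q₀) (hqk : q = q₀ ^ k) (hC5 : ¬ (n = 2 ∧ q₀ = 2)) (hΩ : 3 ∣ ((Cfsg.Geo.subfieldSubgroup F₀ 1).comap (Matrix.SpecialLinearGroup.toGL : Matrix.SpecialLinearGroup (Fin n) F →* GL (Fin n) F)).index) :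
    (∀ x : Matrix.SpecialLinearGroup (Fin n) F,
      (∃ z : F, ((x ^ 3 : Matrix.SpecialLinearGroup (Fin n) F) : Matrix (Fin n) (Fin n) F) = z • (1 : Matrix (Fin n) (Fin n) F)) →
      (∀ z : F, (x : Matrix (Fin n) (Fin n) F) ≠ z • (1 : Matrix (Fin n) (Fin n) F)) →
      ∃ P : Matrix.SpecialLinearGroup (Fin n) F, P⁻¹ * x * P ∈ ((Cfsg.Geo.subfieldSubgroup F₀ 1).comap (Matrix.SpecialLinearGroup.toGL : Matrix.SpecialLinearGroup (Fin n) F →* GL (Fin n) F))) ↔
    (Odd n ∨ (Even n ∧ 2 < k)) := by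
  classical
  haveI : Fact (Nat.Prime 3) := ⟨Nat.prime_three⟩
  have h2F : (2 : F) ≠ 0 := by
    intro h
    have h3 : ((2 : ℕ) : F) = 0 := by exact_mod_cast h
    have h4 : 3 ∣ 2 := (CharP.cast_eq_zero_iff F 3 2).1 h3
    omega
  have hfin : finrank F (Fin n → F) = n := by simp
  constructor
  · intro hall
    by_contra hcon
    push Not at hcon
    obtain ⟨hnodd, hk2⟩ := hcon
    have heven : Even n := Nat.not_odd_iff_even.1 hnodd
    have hk2' : k = 2 := by
      have h3 := hk.two_le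
      have h4 := hk2 heven
      omega
    subst hk2'
    obtain ⟨m, hm⟩ := heven
    obtain ⟨x, hx1, hx2, hx3⟩ := twist_derangement hq F₀ hF₀ hqk (m := m) (n := n) (by omega) (by omega)
    obtain ⟨P, hP⟩ := hall x hx1 hx2
    exact hx3 P hP
  · rintro hcond x ⟨z, hz⟩ -
    obtain ⟨y₀, hy₀⟩ : ∃ y₀, y₀ = Matrix.toLin' (x : Matrix (Fin n) (Fin n) F) := ⟨_, rfl⟩
    have hy3 : y₀ ^ 3 = z • (1 : Module.End F (Fin n → F)) := by
      rw [hy₀, ← sl_lin_pow, hz, lin_smul_one]
    have hdet : LinearMap.det y₀ = 1 := by rw [hy₀, sl_lin_det]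
    have hz0 : z ≠ 0 := by
      intro h0
      rw [h0, zero_smul] at hy3
      haveI : Nonempty (Fin n) := ⟨⟨0, by omega⟩⟩
      have := congrArg LinearMap.det hy3
      rw [map_pow, hdet, one_pow, LinearMap.det_zero' (Pi.basisFun F (Fin n))] at this
      · exact absurd this (by simp)
    obtain ⟨w, hwz⟩ := exists_cube_root z
    have hw : w ≠ 0 := fun h0 => hz0 (by rw [← hwz, h0]; ring)
    obtain ⟨y, hy⟩ : ∃ y : Module.End F (Fin n → F), y = w⁻¹ • y₀ := ⟨_, rfl⟩
    have hxy : Matrix.toLin' (x : Matrix (Fin n) (Fin n) F) = w • y := by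
      rw [hy, smul_smul, mul_inv_cancel₀ hw, one_smul, hy₀]
    have hyy : y ^ 3 = 1 := by
      rw [hy, _root_.smul_pow, hy3, smul_smul, ← hwz]
      have : (w⁻¹) ^ 3 * w ^ 3 = 1 := by field_simp
      rw [this, one_smul]
    obtain ⟨N, hN⟩ : ∃ N : Module.End F (Fin n → F), N = y - 1 := ⟨_, rfl⟩
    have hyN : y = 1 + N := by rw [hN]; abel
    have hN3 : N ^ 3 = 0 := by
      have h0 : ((X : F[X]) - 1) ^ 3 = X ^ 3 - 1 := by rw [sub_pow_char, one_pow]
      have h1 := congrArg (aeval y) h0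
      simp only [map_pow, map_sub, aeval_X, map_one] at h1
      rw [hN, h1, hyy, sub_self]
    refine conj_of_intForm (F₀ := F₀) (by omega) x hw y hxy (by rw [hyN]; exact intForm_one_add N 3 hN3) (fun D hD => ?_)
    obtain ⟨μ, hμ1, hμ2, hμ3⟩ := nil_decomp 3 n (Fin n → F) N hfin hN3
    have hμne : μ ≠ 0 := by
      rintro rfl
      simp at hμ2
      omega
    have hinv : ∀ U : Submodule F (Fin n → F), (∀ u ∈ U, N u ∈ U) → ∀ v ∈ U, y v ∈ U := by
      intro U hU v hv
      rw [hyN]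
      simp only [LinearMap.add_apply, Module.End.one_apply]
      exact U.add_mem hv (hU v hv)
    by_cases hall2 : ∀ a ∈ μ, a = 2
    · -- all blocks have size two
      have heven : Even n := by
        have h1 : μ = Multiset.replicate (Multiset.card μ) 2 := Multiset.eq_replicate_card.2 hall2
        rw [h1, Multiset.sum_replicate] at hμ2
        exact ⟨Multiset.card μ, by simp at hμ2; omega⟩
      have hk2 : 2 < k := by
        rcases hcond with h1 | ⟨_, h1⟩
        · exact absurd heven (Nat.not_even_iff_odd.2 h1)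
        · exact h1
      have hkodd : Odd k := hk.odd_of_ne_two (by omega)
      obtain ⟨t, a, _, ha, ha0, hta⟩ := square_mul_subfield hq h2F F₀ hF₀ hqk hkodd D hD
      obtain ⟨b, hb⟩ := Multiset.exists_mem_of_ne_zero hμne
      obtain ⟨U, W, hc, hU, hW, hUd⟩ := hμ3 {b} (Multiset.singleton_le.2 hb)
      rw [Multiset.sum_singleton, hall2 b hb] at hUd
      obtain ⟨T, hT1, hT2⟩ := exists_dil hc y (hinv U hU) (hinv W hW) t
      rw [hUd] at hT2
      exact ⟨T, a, ha, ha0, hT1, by rw [hT2, hta]⟩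
    · push Not at hall2
      obtain ⟨b, hb, hb2⟩ := hall2
      obtain ⟨U, W, hc, hU, hW, hUd⟩ := hμ3 {b} (Multiset.singleton_le.2 hb)
      rw [Multiset.sum_singleton] at hUd
      have hroot : ∃ t : F, t ^ b = D := by
        obtain ⟨h1, h3⟩ := hμ1 b hb
        have : b = 1 ∨ b = 3 := by omega
        rcases this with rfl | rfl
        · exact ⟨D, pow_one D⟩
        · exact exists_cube_root D
      obtain ⟨t, ht⟩ := hroot
      obtain ⟨T, hT1, hT2⟩ := exists_dil hc y (hinv U hU) (hinv W hW) t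
      rw [hUd, ht] at hT2
      exact ⟨T, 1, F₀.one_mem, one_ne_zero, hT1, by rw [hT2, mul_one]⟩

end Cfsg.Agent.S5966
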