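import Cfsg.Statements.S5967
import Mathlib
import Cfsg.Agent.Lib.Geo.ElusInvol

set_option autoImplicit false

namespace Cfsg.Agent.S5967

open Cfsg.Agent.Lib.Geo Polynomial Module

theorem result {F : Type*} [Field F] [Fintype F] {p : ℕ} [Fact p.Prime] [CharP F p] {q : ℕ} (hq : Fintype.card F = q)
    (n : ℕ) (hn : 4 ≤ n) (he : Even n) (f : (Fin n → F) → (Fin n → F) → F) (hf : Cfsg.Geo.IsSymplecticForm f)
    (hΩ : 2 ∣ ((Cfsg.Geo.similarityGroup f).comap (Matrix.SpecialLinearGroup.toGL : Matrix.SpecialLinearGroup (Fin n) F →* GL (Fin n) F)).index) :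
    (∀ x : Matrix.SpecialLinearGroup (Fin n) F,
      (∃ z : F, ((x ^ 2 : Matrix.SpecialLinearGroup (Fin n) F) : Matrix (Fin n) (Fin n) F) = z • (1 : Matrix (Fin n) (Fin n) F)) →
      (∀ z : F, (x : Matrix (Fin n) (Fin n) F) ≠ z • (1 : Matrix (Fin n) (Fin n) F)) →
      ∃ P : Matrix.SpecialLinearGroup (Fin n) F, P⁻¹ * x * P ∈ ((Cfsg.Geo.similarityGroup f).comap (Matrix.SpecialLinearGroup.toGL : Matrix.SpecialLinearGroup (Fin n) F →* GL (Fin n) F))) ↔
    padicValNat 2 (q - 1) ≤ padicValNat 2 n := by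
  classical
  have hn0 : n ≠ 0 := by omega
  constructor
  · intro hall
    by_contra hlt
    push Not at hlt
    obtain ⟨h2, w, hw0, hw⟩ := exists_pow_eq_neg_one (F := F) (p := p) hq hn0 hlt
    obtain ⟨i₀, hi₀⟩ : ∃ i₀ : Fin n, i₀ = ⟨0, by omega⟩ := ⟨_, rfl⟩
    obtain ⟨i₁, hi₁⟩ : ∃ i₁ : Fin n, i₁ = ⟨1, by omega⟩ := ⟨_, rfl⟩
    have h01 : i₁ ≠ i₀ := by rw [hi₀, hi₁]; simp [Fin.ext_iff]
    obtain ⟨dg, hdg⟩ : ∃ dg : Fin n → F, dg = fun i => if i = i₀ then -1 else 1 := ⟨_, rfl⟩
    have hdetM : (w • Matrix.diagonal dg).det = 1 := by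
      rw [Matrix.det_smul, Matrix.det_diagonal, hdg, Fintype.card_fin, hw]
      have : (∏ i : Fin n, (if i = i₀ then (-1 : F) else 1)) = -1 := by
        rw [Finset.prod_ite_eq' Finset.univ i₀ (fun _ => (-1 : F))]
        simp
      rw [this]
      ring
    obtain ⟨x, hx⟩ : ∃ x : Matrix.SpecialLinearGroup (Fin n) F, x = ⟨w • Matrix.diagonal dg, hdetM⟩ := ⟨_, rfl⟩
    have hxc : (x : Matrix (Fin n) (Fin n) F) = w • Matrix.diagonal dg := by rw [hx]
    have hsq : ((x ^ 2 : Matrix.SpecialLinearGroup (Fin n) F) : Matrix (Fin n) (Fin n) F) = (w ^ 2) • (1 : Matrix (Fin n) (Fin n) F) := by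
      rw [Matrix.SpecialLinearGroup.coe_pow, hxc, pow_two, pow_two, Matrix.smul_mul, Matrix.mul_smul,
        Matrix.diagonal_mul_diagonal, smul_smul]
      congr 1
      ext i j
      by_cases hij : i = j
      · subst hij
        simp only [Matrix.diagonal_apply_eq, Matrix.one_apply_eq, hdg]
        split_ifs <;> ring
      · rw [Matrix.diagonal_apply_ne _ hij, Matrix.one_apply_ne hij]
    have hns : ∀ z : F, (x : Matrix (Fin n) (Fin n) F) ≠ z • (1 : Matrix (Fin n) (Fin n) F) := by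
      intro z hz
      rw [hxc] at hz
      have h1 := congrFun (congrFun hz i₀) i₀
      have h3 := congrFun (congrFun hz i₁) i₁
      simp only [Matrix.smul_apply, Matrix.diagonal_apply_eq, Matrix.one_apply_eq, hdg, smul_eq_mul, mul_one, if_true, if_neg h01] at h1 h3
      have h4 : 2 * w = 0 := by linear_combination h3 - h1
      exact (mul_ne_zero h2 hw0) h4
    obtain ⟨P, hP⟩ := hall x ⟨_, hsq⟩ hns
    obtain ⟨c, hc0, g, hg, hgc⟩ := form_of_conj hf x P hP
    refine refl_no_form h2 (by omega : 3 ≤ n) hg (fun u i => if i = (⟨0, by omega⟩ : Fin n) then - u i else u i) (fun u i => rfl)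
      (c * (w ^ 2)⁻¹) (fun u v => ?_)
    have hyD : ∀ u : Fin n → F, Matrix.toLin' (x : Matrix (Fin n) (Fin n) F) u = w • (fun i => if i = (⟨0, by omega⟩ : Fin n) then - u i else u i) := by
      intro u
      rw [hxc, Matrix.toLin'_apply, Matrix.smul_mulVec]
      congr 1
      ext i
      rw [Matrix.mulVec_diagonal]
      simp only [hdg, ← hi₀]
      split_ifs <;> simp
    have h3 := hgc u v
    rw [hyD, hyD, hg.smul_left, hg.smul_right] at h3
    have hw2 : w ^ 2 ≠ 0 := pow_ne_zero 2 hw0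
    field_simp
    linear_combination h3
  · rintro hle x ⟨z, hz⟩ -
    obtain ⟨y, hy⟩ : ∃ y, y = Matrix.toLin' (x : Matrix (Fin n) (Fin n) F) := ⟨_, rfl⟩
    have hy2 : y ^ 2 = z • (1 : Module.End F (Fin n → F)) := by
      rw [hy, ← sl_lin_pow, hz, lin_smul_one]
    have hdet : LinearMap.det y = 1 := by rw [hy, sl_lin_det]
    have hdim : finrank F (Fin n → F) = n := by simp
    have hz0 : z ≠ 0 := by
      intro h0
      rw [h0, zero_smul] at hy2
      haveI : Nonempty (Fin n) := ⟨⟨0, by omega⟩⟩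
      have := congrArg LinearMap.det hy2
      rw [map_pow, hdet, one_pow, LinearMap.det_zero' (Pi.basisFun F (Fin n))] at this
      · exact absurd this (by simp [hn0])
    suffices hsuff : ∃ (Z W : Submodule F (Fin n → F)) (c : F), IsCompl Z W ∧ finrank F Z = 2 ∧ c ≠ 0 ∧
        ∃ (hZ : ∀ v ∈ Z, Matrix.toLin' (x : Matrix (Fin n) (Fin n) F) v ∈ Z) (hW : ∀ v ∈ W, Matrix.toLin' (x : Matrix (Fin n) (Fin n) F) v ∈ W),
        HasForm ((Matrix.toLin' (x : Matrix (Fin n) (Fin n) F)).restrict hZ) c ∧ HasForm ((Matrix.toLin' (x : Matrix (Fin n) (Fin n) F)).restrict hW) c by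
      obtain ⟨Z, W, c, hc, hZ2, hc0, hZ, hW, h1, h2⟩ := hsuff
      exact conj_sim_of_split hf x hc hZ2 hZ hW hc0 h1 h2
    rw [← hy]
    obtain ⟨d, hd⟩ := he
    by_cases h2 : (2 : F) = 0
    · -- characteristic two
      haveI : CharP F 2 := CharTwo.of_one_ne_zero_of_two_eq_zero one_ne_zero h2
      obtain ⟨w, hw⟩ := FiniteField.isSquare_of_char_two (ringChar.eq F 2) z
      have hw0 : w ≠ 0 := by
        rintro rfl
        exact hz0 (by simpa using hw)
      have hwz : w ^ 2 = z := by rw [hw]; ring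
      obtain ⟨Z, W, hc, hZ2, hZ, hW, h3, h4⟩ := step_char_two h2 hw0 hwz (Fin n → F) y (by omega) hy2
      refine ⟨Z, W, z, hc, hZ2, hz0, hZ, hW, ?_, ?_⟩
      · have := plane_hasForm hZ2 (y.restrict hZ)
        rwa [h3] at this
      · have hd2 := Submodule.finrank_add_eq_of_isCompl hc
        exact hasForm_of_step (fun V _ _ _ y' h5 h6 => step_char_two h2 hw0 hwz V y' h5 h6) (d - 1) W (y.restrict hW) (by omega) h4
    · by_cases hsq : ∃ w : F, w ^ 2 = z
      · obtain ⟨w, hwz⟩ := hsq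
        subst hwz
        have hw0 : w ≠ 0 := by
          rintro rfl
          exact hz0 (by simp)
        have hdetE := det_eigen h2 hw0 y hy2
        rw [hdet, hdim] at hdetE
        have hb : Even (finrank F (LinearMap.ker (y - (-w) • (1 : Module.End F (Fin n → F))))) := by
          by_contra hodd
          rw [Nat.not_even_iff_odd] at hodd
          rw [hodd.neg_one_pow] at hdetE
          apply pow_ne_neg_one hq h2 hn0 hle w hw0
          linear_combination hdetE
        have hc := eigen_compl h2 hw0 y hy2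
        have hsum := Submodule.finrank_add_eq_of_isCompl hc
        have ha : Even (finrank F (LinearMap.ker (y - w • (1 : Module.End F (Fin n → F))))) := by
          obtain ⟨t, ht⟩ := hb
          exact ⟨d - t, by omega⟩
        have hy2' : y ^ 2 = ((-w) ^ 2) • (1 : Module.End F (Fin n → F)) := by rw [neg_sq]; exact hy2
        by_cases hge : 2 ≤ finrank F (LinearMap.ker (y - w • (1 : Module.End F (Fin n → F))))
        · obtain ⟨Z, W, hc', hZ2, hZ, hW, h3, h4⟩ := split_sq_aux h2 hw0 y hy2 ha hb hge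
          exact ⟨Z, W, w ^ 2, hc', hZ2, pow_ne_zero 2 hw0, hZ, hW, h3, h4⟩
        · have hge' : 2 ≤ finrank F (LinearMap.ker (y - (-w) • (1 : Module.End F (Fin n → F)))) := by omega
          obtain ⟨Z, W, hc', hZ2, hZ, hW, h3, h4⟩ := split_sq_aux h2 (neg_ne_zero.2 hw0) y hy2' hb (by rwa [neg_neg]) hge'
          rw [neg_sq] at h3 h4
          exact ⟨Z, W, w ^ 2, hc', hZ2, pow_ne_zero 2 hw0, hZ, hW, h3, h4⟩
      · have hno : ∀ d : F, d ^ 2 ≠ z := fun t ht => hsq ⟨t, ht⟩
        obtain ⟨Z, W, hc, hZ2, hZ, hW, h3, h4⟩ := step_nonsquare h2 hno (Fin n → F) y (by omega) hy2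
        refine ⟨Z, W, -z, hc, hZ2, neg_ne_zero.2 hz0, hZ, hW, ?_, ?_⟩
        · have := plane_hasForm hZ2 (y.restrict hZ)
          rwa [h3] at this
        · have hd2 := Submodule.finrank_add_eq_of_isCompl hc
          exact hasForm_of_step (fun V _ _ _ y' h5 h6 => step_nonsquare h2 hno V y' h5 h6) (d - 1) W (y.restrict hW) (by omega) h4

end Cfsg.Agent.S5967
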