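import Cfsg.Statements.S5968
import Mathlib
import Cfsg.Agent.Lib.Geo.ElusGSp

set_option autoImplicit false

namespace Cfsg.Agent.S5968

open Cfsg.Agent.Lib.Geo Polynomial Module

theorem result {F : Type*} [Field F] [Fintype F] {p : ℕ} [Fact p.Prime] [CharP F p] {q : ℕ} (hq : Fintype.card F = q)
    (n : ℕ) (hn : 4 ≤ n) (he : Even n) (f : (Fin n → F) → (Fin n → F) → F) (hf : Cfsg.Geo.IsSymplecticForm f)
    (r : ℕ) [Fact r.Prime] (hr2 : r ≠ 2) (hgap : ¬ (n = 6 ∧ r = 3)) (hΩ : r ∣ ((Cfsg.Geo.similarityGroup f).comap (Matrix.SpecialLinearGroup.toGL : Matrix.SpecialLinearGroup (Fin n) F →* GL (Fin n) F)).index) :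
    ∃ x : Matrix.SpecialLinearGroup (Fin n) F,
      (∃ z : F, ((x ^ r : Matrix.SpecialLinearGroup (Fin n) F) : Matrix (Fin n) (Fin n) F) = z • (1 : Matrix (Fin n) (Fin n) F)) ∧
      (∀ z : F, (x : Matrix (Fin n) (Fin n) F) ≠ z • (1 : Matrix (Fin n) (Fin n) F)) ∧
      ∀ P : Matrix.SpecialLinearGroup (Fin n) F, P⁻¹ * x * P ∉ ((Cfsg.Geo.similarityGroup f).comap (Matrix.SpecialLinearGroup.toGL : Matrix.SpecialLinearGroup (Fin n) F →* GL (Fin n) F)) := by
  classical
  haveI hrpf : Fact r.Prime := inferInstance
  have hrp : r.Prime := Fact.out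
  obtain ⟨m, hm⟩ := he
  have hm2 : n = 2 * m := by omega
  have hq2 : 2 ≤ q := by rw [← hq]; exact Fintype.one_lt_card
  have hfin : finrank F (Fin n → F) = n := by simp
  haveI hnt : Nontrivial (Fin n → F) := by
    haveI : Nonempty (Fin n) := ⟨⟨0, by omega⟩⟩
    infer_instance
  rcases index_prime_cases hq hm2 (by omega) hf hrp hΩ with hrp0 | ⟨i, hi, hdvd⟩
  · -- the defining characteristic
    subst hrp0
    have hp3 : 3 ≤ r := by
      have := hrp.two_le
      omega
    have hmu : finrank F (Fin n → F) = ((3 : ℕ) ::ₘ Multiset.replicate (n - 3) 1 : Multiset ℕ).sum := by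
      rw [hfin]
      simp
      omega
    obtain ⟨N, hN⟩ := nil_model _ (Fin n → F) hmu
    have hk3 := hN 3
    have hk2 := hN 2
    simp only [Multiset.map_cons, Multiset.map_replicate, Multiset.sum_cons, Multiset.sum_replicate, smul_eq_mul] at hk3 hk2
    have hN3 : N ^ 3 = 0 := by
      rw [← LinearMap.ker_eq_top]
      apply Submodule.eq_top_of_finrank_eq
      rw [hk3, hfin]
      norm_num
      omega
    have hrank : finrank F (LinearMap.range (N ^ 2)) = 1 := by
      have h1 := LinearMap.finrank_range_add_finrank_ker (N ^ 2)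
      rw [hk2, hfin] at h1
      norm_num at h1
      omega
    have hyr : (1 + N) ^ r = 1 := by
      rw [one_add_pow_char (p := r) N, pow_eq_zero_of_le hp3 hN3, add_zero]
    have hdet : LinearMap.det (1 + N) = 1 := by
      apply eq_one_of_pow_char (p := r)
      rw [← map_pow, hyr, map_one]
    have hns : ∀ z : F, (1 + N) ≠ z • (1 : Module.End F (Fin n → F)) := by
      intro z hz
      have h1 : N = (z - 1) • (1 : Module.End F (Fin n → F)) := by
        apply LinearMap.ext
        intro v
        have h9 := LinearMap.congr_fun hz v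
        simp only [LinearMap.add_apply, Module.End.one_apply, LinearMap.smul_apply] at h9 ⊢
        rw [_root_.sub_smul, one_smul, ← h9]
        abel
      have h2 : N ^ 2 = ((z - 1) ^ 2) • (1 : Module.End F (Fin n → F)) := by
        rw [h1, _root_.smul_pow, one_pow]
      by_cases h3 : z - 1 = 0
      · have h5 : N ^ 2 = 0 := by rw [h2, h3, zero_pow two_ne_zero, zero_smul]
        rw [h5, LinearMap.range_zero, finrank_bot] at hrank
        omega
      · have h4 : LinearMap.range (N ^ 2) = ⊤ := by
          rw [LinearMap.range_eq_top]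
          intro v
          refine ⟨((z - 1) ^ 2)⁻¹ • v, ?_⟩
          rw [h2]
          simp only [LinearMap.smul_apply, Module.End.one_apply, smul_smul]
          rw [mul_inv_cancel₀ (pow_ne_zero 2 h3), one_smul]
        rw [h4, finrank_top, hfin] at hrank
        omega
    obtain ⟨x, hx, hx1, hx2⟩ := sl_lift (r := r) (1 + N) hdet (c := 1) (by rw [hyr, one_smul]) hns
    refine ⟨x, hx1, hx2, fun P hP => ?_⟩
    obtain ⟨c, g, _, hg, hgc⟩ := form_of_conj' hf x P _ hx hP
    have hc1 : c = 1 := by
      apply eq_one_of_pow_char (p := r)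
      exact mult_pow_eq_one hg _ hgc hyr
    have h2F : (2 : F) ≠ 0 := by
      intro h
      have h3 : ((2 : ℕ) : F) = 0 := by exact_mod_cast h
      have h4 : r ∣ 2 := (CharP.cast_eq_zero_iff F r 2).1 h3
      exact hr2 ((Nat.prime_dvd_prime_iff_eq hrp Nat.prime_two).1 h4)
    refine no_form_J3 h2F hg N hN3 hrank (fun u v => ?_)
    rw [hgc, hc1, one_mul]
  · by_cases hrp0 : r = p
    · -- again the defining characteristic is impossible here only if `r ∤ q^j - 1`
      exfalso
      subst hrp0
      obtain ⟨k, _, hk⟩ := FiniteField.card F r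
      rw [hq] at hk
      have h1 : r ∣ q := by
        rw [hk]
        exact dvd_pow_self r k.ne_zero
      have h2 : r ∣ q ^ (2 * i + 1) := h1.trans (dvd_pow_self q (by omega))
      have h3 : 1 ≤ q ^ (2 * i + 1) := Nat.one_le_pow _ _ (by omega)
      have h4 : r ∣ 1 := (Nat.dvd_sub_iff_right h3 h2).1 hdvd
      exact hrp.one_lt.ne' (Nat.dvd_one.1 h4)
    have hrF : (r : F) ≠ 0 := by
      intro h0
      have h1 : p ∣ r := (CharP.cast_eq_zero_iff F p r).1 h0
      exact hrp0 ((Nat.prime_dvd_prime_iff_eq Fact.out hrp).1 h1).symm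
    have hord := (order_dvd_iff (r := r) (q := q) (k := 2 * i + 1) (by omega)).1 hdvd
    obtain ⟨i₀, hi₀⟩ : ∃ i₀, i₀ = orderOf (q : ZMod r) := ⟨_, rfl⟩
    rw [← hi₀] at hord
    have hodd : Odd i₀ := Odd.of_dvd_nat (by simp) hord
    have hle : i₀ ≤ 2 * i + 1 := Nat.le_of_dvd (by omega) hord
    by_cases hone : i₀ = 1
    · -- `r` divides `q - 1`
      have hr1 : r ∣ q - 1 := (order_one_iff (by omega)).1 (hi₀ ▸ hone)
      have hrc : r ∣ Nat.card Fˣ := by
        rw [Nat.card_eq_fintype_card, Fintype.card_units, hq]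
        exact hr1
      obtain ⟨ζ, hζ⟩ := exists_prime_orderOf_dvd_card' r hrc
      obtain ⟨z, hz⟩ : ∃ z : F, z = (ζ : F) := ⟨_, rfl⟩
      obtain ⟨t, ht⟩ : ∃ t : F, t = ((ζ⁻¹ : Fˣ) : F) := ⟨_, rfl⟩
      have hzt : z * t = 1 := by rw [hz, ht]; simp
      have hz0 : z ≠ 0 := by rw [hz]; exact ζ.ne_zero
      have hzr : z ^ r = 1 := by
        rw [hz, ← Units.val_pow_eq_pow_val, ← hζ, pow_orderOf_eq_one, Units.val_one]
      have htr : t ^ r = 1 := by
        have : (z * t) ^ r = 1 := by rw [hzt, one_pow]
        rw [mul_pow, hzr, one_mul] at this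
        exact this
      have hpowne : ∀ k : ℕ, 0 < k → k < r → z ^ k ≠ 1 := by
        intro k hk hkr h0
        apply pow_ne_one_of_lt_orderOf (x := ζ) hk.ne' (by rw [hζ]; exact hkr)
        ext
        rw [Units.val_pow_eq_pow_val, ← hz, h0, Units.val_one]
      have hr3 : 3 ≤ r := by
        have := hrp.two_le
        omega
      have hz1 : z ≠ 1 := by
        have := hpowne 1 (by omega) (by omega)
        simpa using this
      have hz2 : z ^ 2 ≠ 1 := hpowne 2 (by omega) (by omega)
      obtain ⟨a₀, ha₀⟩ : ∃ a : Fin n, a = ⟨0, by omega⟩ := ⟨_, rfl⟩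
      obtain ⟨a₁, ha₁⟩ : ∃ a : Fin n, a = ⟨1, by omega⟩ := ⟨_, rfl⟩
      obtain ⟨a₂, ha₂⟩ : ∃ a : Fin n, a = ⟨2, by omega⟩ := ⟨_, rfl⟩
      obtain ⟨a₃, ha₃⟩ : ∃ a : Fin n, a = ⟨3, by omega⟩ := ⟨_, rfl⟩
      have h01 : a₀ ≠ a₁ := by rw [ha₀, ha₁]; simp [Fin.ext_iff]
      have h02 : a₀ ≠ a₂ := by rw [ha₀, ha₂]; simp [Fin.ext_iff]
      have h12 : a₁ ≠ a₂ := by rw [ha₁, ha₂]; simp [Fin.ext_iff]
      have h03 : a₀ ≠ a₃ := by rw [ha₀, ha₃]; simp [Fin.ext_iff]
      have h13 : a₁ ≠ a₃ := by rw [ha₁, ha₃]; simp [Fin.ext_iff]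
      have h23 : a₂ ≠ a₃ := by rw [ha₂, ha₃]; simp [Fin.ext_iff]
      obtain ⟨s, hs⟩ : ∃ s : Finset (Fin n), s = {a₀, a₁, a₂} := ⟨_, rfl⟩
      have hs3 : s.card = 3 := by
        rw [hs, Finset.card_insert_of_notMem (by simp [h01, h02]), Finset.card_insert_of_notMem (by simp [h12]),
          Finset.card_singleton]
      have hdiag : ∀ d : Fin n → F, (∀ i, i ∉ s → d i = 1) → d a₀ * d a₁ * d a₂ = 1 → d a₃ = 1 → d a₀ = z →
          (∀ i, d i ^ r = 1) →
          ∃ x : Matrix.SpecialLinearGroup (Fin n) F, (∀ u : Fin n → F, Matrix.toLin' (x : Matrix (Fin n) (Fin n) F) u = fun i => d i * u i) ∧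
            (∃ w : F, ((x ^ r : Matrix.SpecialLinearGroup (Fin n) F) : Matrix (Fin n) (Fin n) F) = w • (1 : Matrix (Fin n) (Fin n) F)) ∧
            (∀ w : F, (x : Matrix (Fin n) (Fin n) F) ≠ w • (1 : Matrix (Fin n) (Fin n) F)) := by
        intro d h1 h2 h3 h4 h5
        have hprod : (Matrix.diagonal d).det = 1 := by
          rw [Matrix.det_diagonal, ← Finset.prod_subset (Finset.subset_univ s) (fun i _ hi => h1 i hi), hs,
            Finset.prod_insert (by simp [h01, h02]), Finset.prod_insert (by simp [h12]), Finset.prod_singleton, ← mul_assoc, h2]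
        obtain ⟨x0, hx0⟩ : ∃ x0 : Matrix.SpecialLinearGroup (Fin n) F, (x0 : Matrix (Fin n) (Fin n) F) = Matrix.diagonal d := ⟨⟨_, hprod⟩, rfl⟩
        refine ⟨x0, fun u => ?_, ⟨1, ?_⟩, fun w hw => ?_⟩
        · rw [Matrix.toLin'_apply, hx0]
          ext i
          exact Matrix.mulVec_diagonal _ _ _
        · rw [Matrix.SpecialLinearGroup.coe_pow, hx0]
          rw [Matrix.diagonal_pow, one_smul]
          have : d ^ r = 1 := by
            ext i
            simpa using h5 i
          rw [this]
          exact Matrix.diagonal_one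
        · rw [hx0] at hw
          have e1 := congrFun (congrFun hw a₀) a₀
          have e2 := congrFun (congrFun hw a₃) a₃
          have e3 : Matrix.diagonal d a₀ a₀ = w := by
            simpa using e1
          have e4 : Matrix.diagonal d a₃ a₃ = w := by
            simpa using e2
          rw [Matrix.diagonal_apply_eq] at e3 e4
          apply hz1
          rw [← h4, e3, ← e4, h3]
      by_cases hr33 : r = 3
      · -- order three
        subst hr33
        have hz3 : z ^ 3 = 1 := hzr
        obtain ⟨x, hx, hx1, hx2⟩ := hdiag (fun i => if i ∈ s then z else 1) (fun i hi => by simp [hi])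
          (by simp [hs]; linear_combination hz3) (by
            have : a₃ ∉ s := by
              rw [hs]
              simp [h03.symm, h13.symm, h23.symm]
            simp [this]) (by simp [hs]) (fun i => by
            split_ifs
            · exact hz3
            · simp)
        refine ⟨x, hx1, hx2, fun P hP => ?_⟩
        obtain ⟨c, _, g, hg, hgc⟩ := form_of_conj hf x P hP
        refine no_form_diag_three hg (fun i => if i ∈ s then z else 1) c (fun u v => ?_) hz0 hz1 hz2 s hs3 hn (fun i => rfl) (fun h6 => hgap ⟨h6, rfl⟩)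
        have := hgc u v
        rwa [hx, hx] at this
      · have hr5 : 5 ≤ r := by
          have h3 : r ≠ 4 := fun h => by
            subst h
            exact absurd hrp (by norm_num)
          omega
        obtain ⟨d, hd⟩ : ∃ d : Fin n → F, d = fun i => if i = a₀ ∨ i = a₁ then z else if i = a₂ then t ^ 2 else 1 := ⟨_, rfl⟩
        have hd0 : d a₀ = z := by simp [hd]
        have hd1 : d a₁ = z := by simp [hd]
        have hd2 : d a₂ = t ^ 2 := by simp [hd, h02.symm, h12.symm]
        have hd3 : d a₃ = 1 := by simp [hd, h03.symm, h13.symm, h23.symm]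
        obtain ⟨x, hx, hx1, hx2⟩ := hdiag d (fun i hi => by
            rw [hs] at hi
            simp only [Finset.mem_insert, Finset.mem_singleton, not_or] at hi
            simp [hd, hi.1, hi.2.1, hi.2.2]) (by
            rw [hd0, hd1, hd2]
            have : z * z * t ^ 2 = (z * t) ^ 2 := by ring
            rw [this, hzt, one_pow]) hd3 hd0 (fun i => by
            rw [hd]
            show (if i = a₀ ∨ i = a₁ then z else if i = a₂ then t ^ 2 else 1) ^ r = 1
            split_ifs
            · exact hzr
            · rw [← pow_mul, mul_comm, pow_mul, htr, one_pow]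
            · simp)
        refine ⟨x, hx1, hx2, fun P hP => ?_⟩
        obtain ⟨c, _, g, hg, hgc⟩ := form_of_conj hf x P hP
        refine no_form_diag_ge5 hg d c (fun u v => ?_) hzt hz1 hz2 (hpowne 3 (by omega) (by omega)) (hpowne 4 (by omega) (by omega))
          a₀ a₂ a₃ hd0 hd2 hd3 (fun j => ?_)
        · have := hgc u v
          rwa [hx, hx] at this
        · by_cases h4 : j = a₂
          · exact Or.inl h4
          · right
            rw [hd]
            simp only [h4, if_false]
            split_ifs
            · exact Or.inl rfl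
            · exact Or.inr rfl
    · -- a block of odd dimension at least three
      have hr1 : ¬ r ∣ q - 1 := fun h => hone (hi₀ ▸ (order_one_iff (by omega)).2 h)
      have hi₀n : i₀ ≤ n := by omega
      obtain ⟨y, hy1, hy2⟩ := exists_model (F := F) (V := Fin n → F) (p := p) hq hrp0 1 (n - i₀) (by
        rw [hfin, ← hi₀, one_mul]
        omega)
      have hker : aeval y (X - C 1 : F[X]) = y - 1 := by simp
      rw [hker] at hy2
      have hdet : LinearMap.det y = 1 := by
        apply eq_one_of_pow_coprime (F := F) hq hrp hr1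
        rw [← map_pow, hy1, map_one]
      have hns : ∀ z : F, y ≠ z • (1 : Module.End F (Fin n → F)) := by
        intro z hz
        by_cases hz1 : z = 1
        · rw [hz, hz1, one_smul, sub_self, LinearMap.ker_zero, finrank_top, hfin] at hy2
          obtain ⟨t, ht⟩ := hodd
          omega
        · have h3 : y - 1 = (z - 1) • (1 : Module.End F (Fin n → F)) := by
            apply LinearMap.ext
            intro v
            simp only [LinearMap.sub_apply, Module.End.one_apply, LinearMap.smul_apply]
            rw [hz, _root_.sub_smul]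
            simp
          have h4 : LinearMap.ker (y - 1) = ⊥ := by
            rw [h3, LinearMap.ker_eq_bot']
            intro v hv
            simp only [LinearMap.smul_apply, Module.End.one_apply] at hv
            exact (smul_eq_zero.1 hv).resolve_left (sub_ne_zero.2 hz1)
          rw [h4, finrank_bot] at hy2
          obtain ⟨t, ht⟩ := hodd
          omega
      obtain ⟨x, hx, hx1, hx2⟩ := sl_lift (r := r) y hdet (c := 1) (by rw [hy1, one_smul]) hns
      refine ⟨x, hx1, hx2, fun P hP => ?_⟩
      obtain ⟨c, g, _, hg, hgc⟩ := form_of_conj' hf x P _ hx hP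
      have hc1 : c = 1 := by
        apply eq_one_of_pow_coprime (F := F) hq hrp hr1
        exact mult_pow_eq_one hg _ hgc hy1
      have hinv : ∀ v ∈ LinearMap.ker (y - 1), y v ∈ LinearMap.ker (y - 1) := by
        intro v hv
        have h1 : y v = v := by
          have : (y - 1) v = 0 := hv
          simpa [sub_eq_zero] using this
        rw [h1]
        exact hv
      obtain ⟨W, hc, hW⟩ := inv_compl y (r := r) hrF one_ne_zero (by rw [hy1, one_smul]) _ hinv
      have hev := even_compl_fixed hg y (fun u v => by rw [hgc, hc1, one_mul]) hW hc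
      have hd := Submodule.finrank_add_eq_of_isCompl hc
      rw [hy2, hfin] at hd
      have h5 : finrank F W = i₀ := by omega
      rw [h5] at hev
      exact (Nat.not_even_iff_odd.2 hodd) hev

end Cfsg.Agent.S5968
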