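import Cfsg.Statements.S5969
import Mathlib
import Cfsg.Agent.Lib.Geo.ElusK2Main

set_option autoImplicit false

namespace Cfsg.Agent.S5969

open Cfsg.Agent.Lib.Geo Polynomial Module

theorem result {F : Type*} [Field F] [Fintype F] {p : ℕ} [Fact p.Prime] [CharP F p] {q : ℕ} (hq : Fintype.card F = q)
    (n : ℕ) (hn : 2 ≤ n) (hT : (n, q) ≠ (2, 2) ∧ (n, q) ≠ (2, 3))
    (k : ℕ) (hk : k.Prime) (hkn : k ∣ n) (K : Subalgebra F (Matrix (Fin n) (Fin n) F)) (hK : Cfsg.Geo.IsFieldSubalgebra k K) (hk2 : k = 2) (hΩ : 2 ∣ ((Cfsg.Geo.subalgebraNormalizer K).comap (Matrix.SpecialLinearGroup.toGL : Matrix.SpecialLinearGroup (Fin n) F →* GL (Fin n) F)).index) :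
    (∀ x : Matrix.SpecialLinearGroup (Fin n) F,
      (∃ z : F, ((x ^ 2 : Matrix.SpecialLinearGroup (Fin n) F) : Matrix (Fin n) (Fin n) F) = z • (1 : Matrix (Fin n) (Fin n) F)) →
      (∀ z : F, (x : Matrix (Fin n) (Fin n) F) ≠ z • (1 : Matrix (Fin n) (Fin n) F)) →
      ∃ P : Matrix.SpecialLinearGroup (Fin n) F, P⁻¹ * x * P ∈ ((Cfsg.Geo.subalgebraNormalizer K).comap (Matrix.SpecialLinearGroup.toGL : Matrix.SpecialLinearGroup (Fin n) F →* GL (Fin n) F))) ↔
    (n = 2 ∨ (Odd q ∧ padicValNat 2 (q - 1) ≤ padicValNat 2 n)) := by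
  classical
  subst hk2
  have hev : Even n := even_iff_two_dvd.2 hkn
  have hn0 : 0 < n := by omega
  obtain ⟨θ, t, m, hθK, hθ1, hexp, hθθ, hirr⟩ := k2_struct hn0 hK
  constructor
  · intro hall
    by_cases hn2 : n = 2
    · exact Or.inl hn2
    · right
      by_contra hnot
      obtain ⟨x, α, hα, hz, hns, hW⟩ := k2_exists_bad (p := p) hq hn hnot
      obtain ⟨P, hP⟩ := hall x hz hns
      obtain ⟨e, he⟩ := hev
      apply k2_ker_bound (by omega) ⟨e, he⟩ hK hθK hθ1 hθθ hirr (Matrix.SpecialLinearGroup.toGL (P⁻¹ * x * P)) hP hα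
      exact (finrank_ker_conj P x α).trans hW
  · rintro hcond x ⟨z, hz⟩ hns
    obtain ⟨y, hyd⟩ : ∃ y : Module.End F (Fin n → F), y = Matrix.toLin' θ := ⟨_, rfl⟩
    have hGy : ∀ (A : Matrix (Fin n) (Fin n) F) (v : Fin n → F), Matrix.toLin' A v = A.mulVec v := fun A v => rfl
    have hyy : ∀ v, y (y v) = t • y v - m • v := by
      intro v
      rw [hyd, hGy, hGy, Matrix.mulVec_mulVec, hθθ, Matrix.sub_mulVec, Matrix.smul_mulVec, Matrix.smul_mulVec, Matrix.one_mulVec]
    have hann : aeval y (X ^ 2 - C t * X + C m : F[X]) = 0 := by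
      apply LinearMap.ext
      intro v
      rw [map_add, map_sub, map_mul, map_pow, aeval_X, aeval_C, aeval_C]
      simp only [LinearMap.add_apply, LinearMap.sub_apply, pow_two, Module.End.mul_apply, Module.algebraMap_end_apply, LinearMap.zero_apply]
      rw [hyy]
      abel
    obtain ⟨T, hTd⟩ : ∃ T : Module.End F (Fin n → F), T = Matrix.toLin' (x : Matrix (Fin n) (Fin n) F) := ⟨_, rfl⟩
    have hT : T ^ 2 = z • (1 : Module.End F (Fin n → F)) := by
      rw [hTd, ← sl_lin_pow, hz, lin_smul_one]
    have hdet : LinearMap.det T = 1 := by rw [hTd, sl_lin_det]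
    have hdim : finrank F (Fin n → F) = n := by simp
    have hz0 : z ≠ 0 := by
      intro h0
      rw [h0, zero_smul] at hT
      haveI : Nonempty (Fin n) := ⟨⟨0, by omega⟩⟩
      have := congrArg LinearMap.det hT
      rw [map_pow, hdet, one_pow, LinearMap.det_zero' (Pi.basisFun F (Fin n))] at this
      exact one_ne_zero this
    have hnsT : ∀ c : F, T ≠ c • (1 : Module.End F (Fin n → F)) := by
      intro c hc
      apply hns c
      apply Matrix.toLin'.injective
      rw [← hTd, hc, lin_smul_one]
    have hfin₁ : ∀ (x' e : Module.End F (Fin n → F)), (∀ v, x' (y v) = y (x' v)) → LinearMap.det e = 1 → (∀ v, e (x' v) = T (e v)) →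
        ∃ P : Matrix.SpecialLinearGroup (Fin n) F, P⁻¹ * x * P ∈ ((Cfsg.Geo.subalgebraNormalizer K).comap (Matrix.SpecialLinearGroup.toGL : Matrix.SpecialLinearGroup (Fin n) F →* GL (Fin n) F)) := by
      intro x' e h1 h3 h4
      apply k2_final hθK hexp x e h3 x' (by rw [← hTd]; exact h4) (a := 0) (b := 1)
      intro v
      rw [← hyd, h1]
      simp
    have hfin₂ : ∀ (x' e : Module.End F (Fin n → F)), (∀ v, x' (y v) = t • x' v - y (x' v)) → LinearMap.det e = 1 → (∀ v, e (x' v) = T (e v)) →
        ∃ P : Matrix.SpecialLinearGroup (Fin n) F, P⁻¹ * x * P ∈ ((Cfsg.Geo.subalgebraNormalizer K).comap (Matrix.SpecialLinearGroup.toGL : Matrix.SpecialLinearGroup (Fin n) F →* GL (Fin n) F)) := by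
      intro x' e h1 h3 h4
      apply k2_final hθK hexp x e h3 x' (by rw [← hTd]; exact h4) (a := t) (b := -1)
      intro v
      rw [← hyd, h1, neg_smul, one_smul, sub_eq_add_neg]
    by_cases h2 : (2 : F) = 0
    · -- characteristic two
      haveI : CharP F 2 := CharTwo.of_one_ne_zero_of_two_eq_zero one_ne_zero h2
      have hn2 : n = 2 := by
        rcases hcond with h | ⟨⟨j, hj⟩, -⟩
        · exact h
        · exfalso
          have h3 : ((q : ℕ) : F) = 0 := by rw [← hq]; exact Nat.cast_card_eq_zero F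
          rw [hj] at h3
          push_cast at h3
          rw [h2, zero_mul, zero_add] at h3
          exact one_ne_zero h3
      obtain ⟨w, hw⟩ := FiniteField.isSquare_of_char_two (ringChar.eq F 2) z
      have hw0 : w ≠ 0 := by
        rintro rfl
        exact hz0 (by simpa using hw)
      have hwz : z = w ^ 2 := by rw [hw]; ring
      rw [hwz] at hT
      obtain ⟨x', e, h3, h4, h5⟩ := k2_case_char2 h2 (by rw [hdim, hn2]) y hirr hyy T hw0 hT (hnsT w)
      exact hfin₂ x' e h3 h4 h5
    · by_cases hsq : ∃ w : F, w ^ 2 = z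
      · obtain ⟨w, hwz⟩ := hsq
        subst hwz
        have hw0 : w ≠ 0 := by
          rintro rfl
          exact hz0 (by simp)
        have hc := eigen_compl h2 hw0 T hT
        have hne₁ : LinearMap.ker (T - w • (1 : Module.End F (Fin n → F))) ≠ ⊥ := by
          intro h
          rw [h] at hc
          have h3 := hc.sup_eq_top
          rw [bot_sup_eq] at h3
          apply hnsT (-w)
          apply LinearMap.ext
          intro v
          exact (ker_sub_smul_mem T (-w) v).1 (by rw [h3]; trivial)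
        have hne₂ : LinearMap.ker (T - (-w) • (1 : Module.End F (Fin n → F))) ≠ ⊥ := by
          intro h
          rw [h] at hc
          have h3 := hc.sup_eq_top
          rw [sup_bot_eq] at h3
          apply hnsT w
          apply LinearMap.ext
          intro v
          exact (ker_sub_smul_mem T w v).1 (by rw [h3]; trivial)
        have hdetE := det_eigen h2 hw0 T hT
        rw [hdet, hdim] at hdetE
        by_cases hb : Even (finrank F (LinearMap.ker (T - (-w) • (1 : Module.End F (Fin n → F)))))
        · have hsum := Submodule.finrank_add_eq_of_isCompl hc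
          rw [hdim] at hsum
          have ha : Even (finrank F (LinearMap.ker (T - w • (1 : Module.End F (Fin n → F))))) := by
            obtain ⟨d, hd⟩ := hev
            obtain ⟨b, hb⟩ := hb
            exact ⟨d - b, by omega⟩
          obtain ⟨x', e, h3, h4, h5⟩ := k2_case_even y hirr (k2_natDegree t m) hann T h2 hw0 hT ha hne₁
          exact hfin₁ x' e h3 h4 h5
        · rw [Nat.not_even_iff_odd] at hb
          rw [hb.neg_one_pow] at hdetE
          have hn2 : n = 2 := by
            rcases hcond with h | ⟨-, hle⟩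
            · exact h
            · exfalso
              apply pow_ne_neg_one hq h2 (by omega) hle w hw0
              linear_combination hdetE
          obtain ⟨x', e, h3, h4, h5⟩ := k2_case_plane (by rw [hdim, hn2]) y hirr hyy T h2 hw0 hT hne₁ hne₂
          exact hfin₂ x' e h3 h4 h5
      · have hno : ∀ d : F, d ^ 2 ≠ z := fun t ht => hsq ⟨t, ht⟩
        obtain ⟨x', e, h3, h4, h5⟩ := k2_case_nonsq y hirr hann (by rw [hdim]; omega) T h2 hno hT
        exact hfin₁ x' e h3 h4 h5

end Cfsg.Agent.S5969
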