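import Cfsg.Statements.S5970
import Mathlib
import Cfsg.Agent.Lib.Geo.ElusFP
import Cfsg.Agent.Lib.Geo.ElusMono

set_option autoImplicit false

namespace Cfsg.Agent.S5970

open Cfsg.Agent.Lib.Geo Polynomial Module

theorem result {F : Type*} [Field F] [Fintype F] {p : ℕ} [Fact p.Prime] [CharP F p] {q : ℕ} (hq : Fintype.card F = q)
    (n : ℕ) (hn : 2 ≤ n) (hT : (n, q) ≠ (2, 2) ∧ (n, q) ≠ (2, 3))
    (k : ℕ) (hk : k.Prime) (hkn : k ∣ n) (K : Subalgebra F (Matrix (Fin n) (Fin n) F)) (hK : Cfsg.Geo.IsFieldSubalgebra k K) (hkn' : k = n) (hn3 : 3 < n) (hnp : n ≠ p) (hΩ : n ∣ ((Cfsg.Geo.subalgebraNormalizer K).comap (Matrix.SpecialLinearGroup.toGL : Matrix.SpecialLinearGroup (Fin n) F →* GL (Fin n) F)).index) :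
    (∀ x : Matrix.SpecialLinearGroup (Fin n) F,
      (∃ z : F, ((x ^ n : Matrix.SpecialLinearGroup (Fin n) F) : Matrix (Fin n) (Fin n) F) = z • (1 : Matrix (Fin n) (Fin n) F)) →
      (∀ z : F, (x : Matrix (Fin n) (Fin n) F) ≠ z • (1 : Matrix (Fin n) (Fin n) F)) →
      ∃ P : Matrix.SpecialLinearGroup (Fin n) F, P⁻¹ * x * P ∈ ((Cfsg.Geo.subalgebraNormalizer K).comap (Matrix.SpecialLinearGroup.toGL : Matrix.SpecialLinearGroup (Fin n) F →* GL (Fin n) F))) ↔
    orderOf (q : ZMod n) = n - 1 := by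
  classical
  have hnP : n.Prime := hkn' ▸ hk
  have hKn : Cfsg.Geo.IsFieldSubalgebra n K := hkn' ▸ hK
  haveI : Fact n.Prime := ⟨hnP⟩
  have hn0 : 0 < n := by omega
  have hq1 : 1 ≤ q := by rw [← hq]; exact Fintype.card_pos
  have hdim : finrank F (Fin n → F) = n := by simp
  have hc1iff : orderOf (q : ZMod n) = 1 ↔ n ∣ q - 1 := order_one_iff hq1
  obtain ⟨θ, hθK, hθ1⟩ := fk_exists_nonscalar hnP.two_le hn0 hKn
  constructor
  · intro hall
    by_contra hne
    obtain ⟨x, hx1, hns, u, v, hu0, hu, hv, hind⟩ := fp_bad (p := p) hq hnp hn3 hne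
    obtain ⟨P, hP⟩ := hall x ⟨1, hx1⟩ hns
    have hPP : ((P⁻¹ * P : Matrix.SpecialLinearGroup (Fin n) F) : Matrix (Fin n) (Fin n) F) = 1 := by
      rw [inv_mul_cancel, Matrix.SpecialLinearGroup.coe_one]
    have hPP2 : ((P * P⁻¹ : Matrix.SpecialLinearGroup (Fin n) F) : Matrix (Fin n) (Fin n) F) = 1 := by
      rw [mul_inv_cancel, Matrix.SpecialLinearGroup.coe_one]
    rw [Matrix.SpecialLinearGroup.coe_mul] at hPP hPP2
    have key : ∀ w : Fin n → F, (x : Matrix (Fin n) (Fin n) F).mulVec w = w →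
        ((P⁻¹ * x * P : Matrix.SpecialLinearGroup (Fin n) F) : Matrix (Fin n) (Fin n) F).mulVec (((P⁻¹ : Matrix.SpecialLinearGroup (Fin n) F) : Matrix (Fin n) (Fin n) F).mulVec w) =
          (1 : F) • (((P⁻¹ : Matrix.SpecialLinearGroup (Fin n) F) : Matrix (Fin n) (Fin n) F).mulVec w) := by
      intro w hw
      rw [one_smul]
      simp only [Matrix.SpecialLinearGroup.coe_mul, Matrix.mulVec_mulVec]
      rw [mul_assoc, mul_assoc, hPP2, mul_one, ← Matrix.mulVec_mulVec, hw]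
    have hinjP : ∀ w : Fin n → F, ((P⁻¹ : Matrix.SpecialLinearGroup (Fin n) F) : Matrix (Fin n) (Fin n) F).mulVec w = 0 → w = 0 := by
      intro w hw
      have h1 := congrArg (Matrix.mulVec (P : Matrix (Fin n) (Fin n) F)) hw
      rw [Matrix.mulVec_mulVec, hPP2, Matrix.one_mulVec, Matrix.mulVec_zero] at h1
      exact h1
    have hfin := fp_fix_bound hnP hKn (Matrix.SpecialLinearGroup.toGL (P⁻¹ * x * P)) hP (c := 1) one_ne_zero
      (u := ((P⁻¹ : Matrix.SpecialLinearGroup (Fin n) F) : Matrix (Fin n) (Fin n) F).mulVec u)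
      (v := ((P⁻¹ : Matrix.SpecialLinearGroup (Fin n) F) : Matrix (Fin n) (Fin n) F).mulVec v)
      (fun h => hu0 (hinjP u h)) (key u hu) (key v hv) (fun d hd => by
        apply hind d
        have h1 : ((P⁻¹ : Matrix.SpecialLinearGroup (Fin n) F) : Matrix (Fin n) (Fin n) F).mulVec (v - d • u) = 0 := by
          rw [Matrix.mulVec_sub, Matrix.mulVec_smul, hd, sub_self]
        exact sub_eq_zero.1 (hinjP _ h1))
    apply hns 1
    have h2 : ((P⁻¹ * x * P : Matrix.SpecialLinearGroup (Fin n) F) : Matrix (Fin n) (Fin n) F) = 1 := by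
      rw [one_smul] at hfin
      exact hfin
    have h3 : P⁻¹ * x * P = 1 := by
      apply Subtype.ext
      exact h2
    have h4 : x = 1 := by
      calc x = P * (P⁻¹ * x * P) * P⁻¹ := by group
        _ = 1 := by rw [h3]; group
    rw [h4, one_smul]
    rfl
  · intro hc
    have hnd : ¬ n ∣ q - 1 := by
      intro h
      have := hc1iff.2 h
      omega
    rintro x ⟨z, hz⟩ hns
    obtain ⟨T, hTd⟩ : ∃ T : Module.End F (Fin n → F), T = Matrix.toLin' (x : Matrix (Fin n) (Fin n) F) := ⟨_, rfl⟩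
    have hT : T ^ n = z • (1 : Module.End F (Fin n → F)) := by
      rw [hTd, ← sl_lin_pow, hz, lin_smul_one]
    have hdet : LinearMap.det T = 1 := by rw [hTd, sl_lin_det]
    have hz1 : z = 1 := by
      apply eq_one_of_pow_coprime (F := F) hq hnP hnd
      have h1 := congrArg LinearMap.det hT
      rw [map_pow, hdet, one_pow, LinearMap.det_smul, hdim, map_one, mul_one] at h1
      exact h1.symm
    rw [hz1, one_smul] at hT
    have hT1 : T ≠ 1 := by
      intro h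
      apply hns 1
      apply Matrix.toLin'.injective
      rw [← hTd, h, lin_smul_one, one_smul]
    obtain ⟨g, hg, hgd, hg0⟩ := fp_min hnP hKn hθK hθ1
    obtain ⟨y, hyd⟩ : ∃ y : Module.End F (Fin n → F), y = Matrix.toLin' θ := ⟨_, rfl⟩
    have hy : aeval y g = 0 := by
      rw [hyd, aeval_toLin', hg0, map_zero]
    obtain ⟨φ, hφ1, hφ2, v₀, hv₀, hφ3, hφ4⟩ := frob_model y hg hy (by rw [hgd, hdim])
    rw [hgd] at hφ2
    have hφn : φ ^ n = 1 := LinearMap.ext hφ2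
    have hφne : φ ≠ 1 := by
      intro h
      haveI : Nontrivial (Fin n → F) := Module.nontrivial_of_finrank_pos (R := F) (by omega)
      obtain ⟨u, hu, v, hv, hu0, hind⟩ := exists_indep_of_two_le (⊤ : Submodule F (Fin n → F)) (by rw [finrank_top, hdim]; omega)
      have hall : ∀ w, ∃ c : F, w = c • v₀ := fun w => hφ4 w (by rw [h]; rfl)
      obtain ⟨c₁, hc₁⟩ := hall u
      obtain ⟨c₂, hc₂⟩ := hall v
      have hc₁0 : c₁ ≠ 0 := by
        rintro rfl
        rw [zero_smul] at hc₁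
        exact hu0 hc₁
      apply hind (c₂ / c₁)
      rw [hc₁, hc₂, smul_smul]
      congr 1
      field_simp
    obtain ⟨A₁, B₁, hc₁, hA₁, hA₁f, hB₁, hB₁g⟩ := prime_split (p := p) hq hnp hn3 hc hdim φ hφn hφne
    obtain ⟨A₂, B₂, hc₂, hA₂, hA₂f, hB₂, hB₂g⟩ := prime_split (p := p) hq hnp hn3 hc hdim T hT hT1
    obtain ⟨e, he⟩ := conj_of_split φ T (cyc_irreducible (F := F) (p := p) hq hnp hc) hc₁ hc₂ hA₁f hA₂f hB₁ hB₂ hB₁g hB₂g (by rw [hA₁, hA₂])
    have hne : A₂ ≠ ⊥ := by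
      intro h
      rw [h, finrank_bot] at hA₂
      omega
    obtain ⟨T', hT'1, hT'2⟩ := exists_eigen_dil hc₂ (y := T) (lam := 1) (fun v hv => by rw [one_smul]; exact hA₂f v hv) hB₂ hne (LinearMap.det (e : (Fin n → F) →ₗ[F] (Fin n → F)))⁻¹
    refine fp_final (θ := θ) (θ' := θ ^ Fintype.card F) (fun k hk => fp_gen hnP hKn hθK hθ1 hk) (K.pow_mem hθK _) x (T' ∘ₗ (e : (Fin n → F) →ₗ[F] (Fin n → F))) ?_ φ ?_ ?_
    · rw [LinearMap.det_comp, hT'2, inv_mul_cancel₀ (LinearEquiv.isUnit_det' e).ne_zero]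
    · intro v
      simp only [LinearMap.comp_apply, LinearEquiv.coe_coe]
      rw [he, ← hTd, hT'1]
    · intro v
      rw [← hyd, hφ1, hyd, ← Matrix.toLin'_pow]

end Cfsg.Agent.S5970
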