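import Cfsg.Statements.S5971
import Mathlib
import Cfsg.Agent.Lib.Geo.ElusFP3

set_option autoImplicit false

namespace Cfsg.Agent.S5971

open Cfsg.Agent.Lib.Geo Polynomial Module

theorem result {F : Type*} [Field F] [Fintype F] {p : ℕ} [Fact p.Prime] [CharP F p] {q : ℕ} (hq : Fintype.card F = q)
    (n : ℕ) (hn : n = 3) (k : ℕ) (hk : k.Prime) (hkn : k ∣ n) (K : Subalgebra F (Matrix (Fin n) (Fin n) F)) (hK : Cfsg.Geo.IsFieldSubalgebra k K) (hk3 : k = 3) (hΩ : 3 ∣ ((Cfsg.Geo.subalgebraNormalizer K).comap (Matrix.SpecialLinearGroup.toGL : Matrix.SpecialLinearGroup (Fin n) F →* GL (Fin n) F)).index) :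
    (∀ x : Matrix.SpecialLinearGroup (Fin n) F,
      (∃ z : F, ((x ^ 3 : Matrix.SpecialLinearGroup (Fin n) F) : Matrix (Fin n) (Fin n) F) = z • (1 : Matrix (Fin n) (Fin n) F)) →
      (∀ z : F, (x : Matrix (Fin n) (Fin n) F) ≠ z • (1 : Matrix (Fin n) (Fin n) F)) →
      ∃ P : Matrix.SpecialLinearGroup (Fin n) F, P⁻¹ * x * P ∈ ((Cfsg.Geo.subalgebraNormalizer K).comap (Matrix.SpecialLinearGroup.toGL : Matrix.SpecialLinearGroup (Fin n) F →* GL (Fin n) F))) ↔
    (q % 9 = 4 ∨ q % 9 = 7 ∨ q % 9 = 8) := by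
  classical
  subst hn
  subst hk3
  haveI : Fact (Nat.Prime 3) := ⟨Nat.prime_three⟩
  have hq1 : 1 ≤ q := by rw [← hq]; exact Fintype.card_pos
  have hdim : finrank F (Fin 3 → F) = 3 := by simp
  obtain ⟨f, hf1, hf2⟩ := FiniteField.card F p
  have hp3iff : 3 ∣ q ↔ p = 3 := by
    rw [← hq, hf2]
    constructor
    · intro h
      exact ((Nat.prime_dvd_prime_iff_eq Nat.prime_three hf1).1 (Nat.prime_three.dvd_of_dvd_pow h)).symm
    · rintro rfl
      exact dvd_pow_self 3 f.pos.ne'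
  constructor
  · intro hall
    by_cases hq3 : 3 ∣ q
    · exfalso
      have hp := hp3iff.1 hq3
      subst hp
      obtain ⟨x, hx, hns, u, v, hu0, hu, hv, hind⟩ := fp3_bad_char (F := F) (by exact_mod_cast CharP.cast_eq_zero F 3)
      obtain ⟨P, hP⟩ := hall x ⟨1, hx⟩ hns
      exact hns 1 (fp_not_conj Nat.prime_three hK x one_ne_zero hu0 hu hv hind P hP)
    · by_cases h9 : q % 9 = 1
      · exfalso
        obtain ⟨x, c, hc, hz, hns, u, v, hu0, hu, hv, hind⟩ := fp3_bad_nine (F := F) hq (by omega : 9 ∣ q - 1)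
        obtain ⟨P, hP⟩ := hall x hz hns
        exact hns c (fp_not_conj Nat.prime_three hK x hc hu0 hu hv hind P hP)
      · by_cases h25 : q % 9 = 2 ∨ q % 9 = 5
        · exfalso
          have h3p : 3 ≠ p := fun h => hq3 (hp3iff.2 h.symm)
          exact fp3_index (p := p) hq h3p h25 _ hall hΩ
        · omega
  · intro hm
    rintro x ⟨z, hz⟩ hns
    have hq3 : ¬ 3 ∣ q := by omega
    have h3p : 3 ≠ p := fun h => hq3 (hp3iff.2 h.symm)
    by_cases h8 : q % 9 = 8
    · have hnd : ¬ 3 ∣ q - 1 := by omega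
      obtain ⟨T, hTd⟩ : ∃ T : Module.End F (Fin 3 → F), T = Matrix.toLin' (x : Matrix (Fin 3) (Fin 3) F) := ⟨_, rfl⟩
      have hT₀ : T ^ 3 = z • (1 : Module.End F (Fin 3 → F)) := by
        rw [hTd, ← sl_lin_pow, hz, lin_smul_one]
      have hdet : LinearMap.det T = 1 := by rw [hTd, sl_lin_det]
      have hz1 : z = 1 := by
        apply eq_one_of_pow_coprime (F := F) hq Nat.prime_three hnd
        have h1 := congrArg LinearMap.det hT₀
        rw [map_pow, hdet, one_pow, LinearMap.det_smul, hdim, map_one, mul_one] at h1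
        exact h1.symm
      rw [hz1, one_smul] at hz
      exact fp_all_conj (p := p) hq Nat.prime_three hK h3p (by norm_num) (order_three_of_mod (by omega)) x hz hns
    · exact fp3_all_conj (p := p) hq hK rfl h3p (by omega) (by omega) x hz hns

end Cfsg.Agent.S5971
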