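import Cfsg.Statements.S5979
import Mathlib
import Cfsg.Agent.Lib.Geo.ElusTensor

set_option autoImplicit false

namespace Cfsg.Agent.S5979

open Cfsg.Agent.Lib.Geo Polynomial Module

theorem result {F : Type*} [Field F] [Fintype F] {p : ℕ} [Fact p.Prime] [CharP F p] {q : ℕ} (hq : Fintype.card F = q)
    (n a b : ℕ) (hab : n = a * b) (ha : 2 ≤ a) (hlt : a < b) (e : Fin n ≃ Fin a × Fin b) (P : GL (Fin n) F)
    (r : ℕ) [Fact r.Prime]
    (hΩ : r ∣ (Cfsg.Geo.tensorProductSubgroup a b e P).relIndex (Cfsg.Geo.specialLinear (Fin n) F)) :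
    (∀ x ∈ Cfsg.Geo.specialLinear (Fin n) F, (∃ z : F, ((x ^ r : GL (Fin n) F) : Matrix (Fin n) (Fin n) F) = z • (1 : Matrix (Fin n) (Fin n) F)) →
      (∀ z : F, (x : Matrix (Fin n) (Fin n) F) ≠ z • (1 : Matrix (Fin n) (Fin n) F)) →
      ∃ g ∈ Cfsg.Geo.specialLinear (Fin n) F, g⁻¹ * x * g ∈ Cfsg.Geo.tensorProductSubgroup a b e P) ↔
    (r = 2 ∧ a = 2 ∧ Odd q ∧ padicValNat 2 (q - 1) ≤ padicValNat 2 n) := by
  classical
  have hrP : r.Prime := Fact.out
  have hq1 : 1 ≤ q := by rw [← hq]; exact Fintype.card_pos
  have hb3 : 3 ≤ b := by omega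
  have hn6 : 6 ≤ n := by
    rw [hab]
    calc 6 = 2 * 3 := rfl
      _ ≤ a * b := Nat.mul_le_mul ha hb3
  have hn : Fintype.card (Fin n) = a * b := by rw [Fintype.card_fin, hab]
  have hnpos : 0 < Fintype.card (Fin n) := by rw [Fintype.card_fin]; omega
  have hdim : finrank F (Fin n → F) = n := by simp
  have hadvd : a ∣ n := ⟨b, hab⟩
  constructor
  · intro hall
    have key : ∀ (x : Matrix.SpecialLinearGroup (Fin n) F) (z : F), ((x ^ r : Matrix.SpecialLinearGroup (Fin n) F) : Matrix (Fin n) (Fin n) F) = z • (1 : Matrix (Fin n) (Fin n) F) →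
        (∀ z : F, (x : Matrix (Fin n) (Fin n) F) ≠ z • (1 : Matrix (Fin n) (Fin n) F)) →
        ∃ (G : Module.End F (Fin n → F)) (A : Matrix (Fin a) (Fin a) F) (B : Matrix (Fin b) (Fin b) F), IsTens e P G A B ∧ Function.Injective G ∧
          G ^ r = z • (1 : Module.End F (Fin n → F)) ∧
          ∀ c : F, finrank F (LinearMap.ker (G - c • (1 : Module.End F (Fin n → F)))) = finrank F (LinearMap.ker (Matrix.toLin' (x : Matrix (Fin n) (Fin n) F) - c • (1 : Module.End F (Fin n → F)))) := by
      intro x z hz hns
      have hz' : ((Matrix.SpecialLinearGroup.toGL x ^ r : GL (Fin n) F) : Matrix (Fin n) (Fin n) F) = z • (1 : Matrix (Fin n) (Fin n) F) := by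
        rw [← hz, Units.val_pow_eq_pow_val, Matrix.SpecialLinearGroup.coe_pow]
        rfl
      obtain ⟨g, -, hg⟩ := hall (Matrix.SpecialLinearGroup.toGL x) (toGL_mem_sl x) ⟨z, hz'⟩ hns
      obtain ⟨G, A, B, h1, h2, h3, h4⟩ := tens_data e P (Matrix.SpecialLinearGroup.toGL x) g z hz' hg
      refine ⟨G, A, B, h1, h2, h3, fun c => ?_⟩
      rw [h4 c]
      rfl
    have hC : ∀ (G : Module.End F (Fin n → F)) (A : Matrix (Fin a) (Fin a) F) (B : Matrix (Fin b) (Fin b) F), IsTens e P G A B → Function.Injective G →
        ∀ (c : F) (d : ℕ), c ≠ 0 → finrank F (LinearMap.ker (G - c • (1 : Module.End F (Fin n → F)))) = n - d → d < b → ¬ a ∣ d → False := by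
      intro G A B hG hinj c d hc hk hdb had
      have hdn : d ≤ n := by
        rw [hab]
        calc d ≤ 1 * b := by omega
          _ ≤ a * b := Nat.mul_le_mul_right _ (by omega)
      obtain ⟨α, hα0, hα⟩ := tens_large_scalar hG hinj hnpos hc (by rw [hk, Fintype.card_fin]; omega)
      have hd := tens_dvd hG hα0 hα c
      rw [hk] at hd
      apply had
      exact (Nat.dvd_sub_iff_right hdn hadvd).1 hd
    -- the characteristic
    have hrp : r ≠ p := by
      intro h
      subst h
      obtain ⟨x, hx, hns, hk⟩ := exists_transv_elt (F := F) (n := n) (by omega) (p := r)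
      obtain ⟨G, A, B, hG, hinj, hGr, hker⟩ := key x 1 hx hns
      exact hC G A B hG hinj 1 1 one_ne_zero (by rw [hker, hk]) (by omega) (by
        intro h
        have := Nat.le_of_dvd one_pos h
        omega)
    by_cases hr2 : r = 2
    · subst hr2
      have h2 : (2 : F) ≠ 0 := by
        intro h0
        have h1 := (CharP.cast_eq_zero_iff F p 2).1 (by exact_mod_cast h0)
        exact hrp ((Nat.prime_dvd_prime_iff_eq Fact.out hrP).1 h1).symm
      have hodd : Odd q := by
        by_contra hev
        rw [Nat.not_odd_iff_even] at hev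
        obtain ⟨f, hf1, hf2⟩ := FiniteField.card F p
        rw [hq] at hf2
        rw [hf2] at hev
        exact hrp ((Nat.prime_dvd_prime_iff_eq Nat.prime_two hf1).1 (Nat.prime_two.dvd_of_dvd_pow hev.two_dvd))
      have ha2 : a = 2 := by
        by_contra hne
        obtain ⟨x, hx, hns, hk, -⟩ := exists_diag2 (F := F) (n := n) (by omega) (neg_ne_zero.2 one_ne_zero) (by
          intro h
          apply h2
          linear_combination -h) (r := 2) (by ring)
        obtain ⟨G, A, B, hG, hinj, hGr, hker⟩ := key x 1 hx hns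
        exact hC G A B hG hinj 1 2 one_ne_zero (by rw [hker, hk]) (by omega) (by
          intro h
          have := Nat.le_of_dvd two_pos h
          omega)
      refine ⟨rfl, ha2, hodd, ?_⟩
      by_contra hval
      obtain ⟨x, α, hα, ⟨z, hz⟩, hns, hk⟩ := k2_exists_bad (p := p) hq (by omega : 2 ≤ n) (fun h => hval h.2)
      obtain ⟨G, A, B, hG, hinj, hGr, hker⟩ := key x z hz hns
      exact hC G A B hG hinj α 1 hα (by rw [hker, hk]) (by omega) (by
        intro h
        have := Nat.le_of_dvd one_pos h
        omega)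
    · exfalso
      by_cases hi1 : r ∣ q - 1
      · -- a diagonal element
        have hdvd : r ∣ Nat.card Fˣ := by
          rw [Nat.card_eq_fintype_card, Fintype.card_units, hq]
          exact hi1
        obtain ⟨ζ, hζ⟩ := exists_prime_orderOf_dvd_card' r hdvd
        have hζ1 : (ζ : F) ≠ 1 := by
          intro h
          have : ζ = 1 := Units.ext h
          rw [this, orderOf_one] at hζ
          exact hrP.one_lt.ne hζ
        have hζn : (ζ : F) ^ r = 1 := by
          have h1 : ζ ^ r = 1 := by rw [← hζ]; exact pow_orderOf_eq_one ζ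
          have h2 := congrArg Units.val h1
          simpa using h2
        have hζ2 : (ζ : F) * ζ ≠ 1 := by
          intro h
          have h1 : ζ ^ 2 = 1 := by
            apply Units.ext
            rw [Units.val_pow_eq_pow_val, pow_two, h, Units.val_one]
          have h3 := orderOf_dvd_of_pow_eq_one h1
          rw [hζ] at h3
          have := Nat.le_of_dvd two_pos h3
          have := hrP.two_le
          omega
        obtain ⟨x, hx, hns, hk, hk2⟩ := exists_diag2 (F := F) (n := n) (by omega) ζ.ne_zero hζ1 hζn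
        obtain ⟨G, A, B, hG, hinj, hGr, hker⟩ := key x 1 hx hns
        obtain ⟨α, hα0, hα⟩ := tens_large_scalar hG hinj hnpos one_ne_zero (by rw [hker, hk, Fintype.card_fin]; omega)
        have hd := tens_dvd hG hα0 hα (ζ : F)
        rw [hker, hk2 hζ2] at hd
        have := Nat.le_of_dvd one_pos hd
        omega
      · -- a block
        have hdvd : r ∣ Nat.card (GL (Fin n) F) := by
          have h1 : r ∣ Nat.card (Cfsg.Geo.specialLinear (Fin n) F) := hΩ.trans (Subgroup.relIndex_dvd_card _ _)
          exact h1.trans (Subgroup.card_subgroup_dvd_card _)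
        have hin := order_le_of_dvd_gl (F := F) (p := p) hq hrp (by omega) hdvd
        obtain ⟨y, hy1, hy2⟩ := exists_model (F := F) (V := Fin n → F) (p := p) (r := r) hq hrp 1 (n - orderOf (q : ZMod r)) (by rw [hdim]; omega)
        have hdet : LinearMap.det y = 1 := by
          apply eq_one_of_pow_coprime (F := F) hq hrP hi1
          rw [← map_pow, hy1, map_one]
        obtain ⟨x, hx⟩ := sl_exists_of_det y hdet
        have hi0 := order_pos (F := F) (p := p) (r := r) hq hrp
        have hx1 : ((x ^ r : Matrix.SpecialLinearGroup (Fin n) F) : Matrix (Fin n) (Fin n) F) = (1 : F) • (1 : Matrix (Fin n) (Fin n) F) := by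
          apply Matrix.toLin'.injective
          rw [sl_lin_pow, hx, hy1, lin_smul_one, one_smul]
        have hns : ∀ z : F, (x : Matrix (Fin n) (Fin n) F) ≠ z • (1 : Matrix (Fin n) (Fin n) F) := by
          intro c' hc'
          have h1 : y = c' • (1 : Module.End F (Fin n → F)) := by
            rw [← hx, hc', lin_smul_one]
          have h2 : c' ^ r = 1 := by
            rw [h1, _root_.smul_pow, one_pow] at hy1
            have hs : 0 < n := by omega
            have h3 := congrArg (fun f : Module.End F (Fin n → F) => f (fun _ => 1) ⟨0, hs⟩) hy1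
            simpa using h3
          have h3 : c' = 1 := eq_one_of_pow_coprime (F := F) hq hrP hi1 h2
          rw [h3, one_smul] at h1
          rw [h1] at hy2
          have h4 : aeval (1 : Module.End F (Fin n → F)) (X - C 1 : Polynomial F) = 0 := by
            simp
          rw [h4, LinearMap.ker_zero, finrank_top, hdim] at hy2
          omega
        obtain ⟨G, A, B, hG, hinj, hGr, hker⟩ := key x 1 hx1 hns
        have hk' : LinearMap.ker (y - (1 : F) • (1 : Module.End F (Fin n → F))) = LinearMap.ker (aeval y (X - C 1 : F[X])) := by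
          ext v
          rw [ker_aeval_X_sub_C, ker_sub_smul_mem]
        refine tens_block hq hrp hi1 ha hlt hn hG (by rw [hGr, one_smul]) ?_
        rw [hker, hx, hk', hy2, Fintype.card_fin]
        omega
  · rintro ⟨rfl, rfl, hodd, hval⟩ x hx ⟨z, hz⟩ hns
    have h2 : (2 : F) ≠ 0 := by
      intro h0
      have h3 : ((q : ℕ) : F) = 0 := by rw [← hq]; exact Nat.cast_card_eq_zero F
      obtain ⟨j, hj⟩ := hodd
      rw [hj] at h3
      push_cast at h3
      rw [h0, zero_mul, zero_add] at h3
      exact one_ne_zero h3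
    obtain ⟨T, hTd⟩ : ∃ T : Module.End F (Fin n → F), T = Matrix.toLin' (x : Matrix (Fin n) (Fin n) F) := ⟨_, rfl⟩
    have hT : T ^ 2 = z • (1 : Module.End F (Fin n → F)) := by
      rw [hTd, ← Matrix.toLin'_pow, ← Units.val_pow_eq_pow_val, hz, lin_smul_one]
    have hdet : LinearMap.det T = 1 := by rw [hTd]; exact det_of_mem_sl hx
    have hz0 : z ≠ 0 := by
      intro h0
      rw [h0, zero_smul] at hT
      haveI : Nonempty (Fin n) := ⟨⟨0, by omega⟩⟩
      have := congrArg LinearMap.det hT
      rw [map_pow, hdet, one_pow, LinearMap.det_zero' (Pi.basisFun F (Fin n))] at this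
      exact one_ne_zero this
    have hnsT : ∀ c : F, T ≠ c • (1 : Module.End F (Fin n → F)) := by
      intro c hc
      apply hns c
      apply Matrix.toLin'.injective
      rw [← hTd, hc, lin_smul_one]
    have hfin : (∃ (g : GL (Fin n) F) (E : Module.End F (Fin n → F)), g ∈ Cfsg.Geo.tensorProductSubgroup 2 b e P ∧ LinearMap.det E = 1 ∧
      ∀ v, E (Matrix.toLin' (g : Matrix (Fin n) (Fin n) F) v) = T (E v)) → ∃ g ∈ Cfsg.Geo.specialLinear (Fin n) F, g⁻¹ * x * g ∈ Cfsg.Geo.tensorProductSubgroup 2 b e P := by
      rintro ⟨g, E, hg, hE1, hE2⟩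
      obtain ⟨k, hk, hkg⟩ := conj_final_gl x g E hE1 (by rw [← hTd]; exact hE2)
      exact ⟨k, hk, by rw [hkg]; exact hg⟩
    apply hfin
    by_cases hsq : ∃ w : F, w ^ 2 = z
    · obtain ⟨w, hwz⟩ := hsq
      subst hwz
      have hw0 : w ≠ 0 := by
        rintro rfl
        exact hz0 (by simp)
      have hc := eigen_compl h2 hw0 T hT
      have hne₁ : LinearMap.ker (T - w • (1 : Module.End F (Fin n → F))) ≠ ⊥ := by
        intro h
        rw [h] at hc
        have h3 := hc.sup_eq_top
        rw [bot_sup_eq] at h3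
        apply hnsT (-w)
        apply LinearMap.ext
        intro v
        exact (ker_sub_smul_mem T (-w) v).1 (by rw [h3]; trivial)
      have hdetE := det_eigen h2 hw0 T hT
      rw [hdet, hdim] at hdetE
      have hb' : Even (finrank F (LinearMap.ker (T - (-w) • (1 : Module.End F (Fin n → F))))) := by
        by_contra hodd'
        rw [Nat.not_even_iff_odd] at hodd'
        rw [hodd'.neg_one_pow] at hdetE
        apply pow_ne_neg_one hq h2 (by omega) hval w hw0
        linear_combination hdetE
      have hsum := Submodule.finrank_add_eq_of_isCompl hc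
      rw [hdim] at hsum
      obtain ⟨t, ht⟩ := hb'
      obtain ⟨s, hs⟩ : ∃ s, finrank F (LinearMap.ker (T - w • (1 : Module.End F (Fin n → F)))) = 2 * s := ⟨b - t, by
        omega⟩
      refine tens_target_even e P T h2 hw0 hT hs ?_ hne₁
      omega
    · have hno : ∀ d : F, d ^ 2 ≠ z := fun t ht => hsq ⟨t, ht⟩
      exact tens_target_nonsq e P rfl (by omega) T hno hT

end Cfsg.Agent.S5979
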