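import Cfsg.Statements.S5997
import Mathlib
import Cfsg.Agent.Lib.Geo.ElusQ8

set_option autoImplicit false

namespace Cfsg.Agent.S5997

open Cfsg.Agent.Lib.Geo

theorem result {F : Type*} [Field F] [Fintype F] {p : ℕ} [Fact p.Prime] [CharP F p] (hF : Fintype.card F = p) (hp : 5 ≤ p)
    (R : Subgroup (GL (Fin 2) F)) (hR : Nonempty (↥R ≃* QuaternionGroup 2))
    (r : ℕ) [Fact r.Prime]
    (hΩ : r ∣ (Cfsg.Geo.subgroupNormalizer R).relIndex (Cfsg.Geo.specialLinear (Fin 2) F)) :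
    (∀ x ∈ Cfsg.Geo.specialLinear (Fin 2) F, (∃ z : F, ((x ^ r : GL (Fin 2) F) : Matrix (Fin 2) (Fin 2) F) = z • (1 : Matrix (Fin 2) (Fin 2) F)) →
      (∀ z : F, (x : Matrix (Fin 2) (Fin 2) F) ≠ z • (1 : Matrix (Fin 2) (Fin 2) F)) →
      ∃ g ∈ Cfsg.Geo.specialLinear (Fin 2) F, g⁻¹ * x * g ∈ Cfsg.Geo.subgroupNormalizer R) ↔ (r = 2 ∨ r = 3) := by
  classical
  obtain ⟨e⟩ := hR
  have hpodd : p ≠ 2 := by omega
  have h2 : (2 : F) ≠ 0 := by
    intro hc
    have h3 : ((2 : ℕ) : F) = 0 := by exact_mod_cast hc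
    have := (CharP.cast_eq_zero_iff F p 2).1 h3
    exact hpodd ((Nat.prime_dvd_prime_iff_eq Fact.out Nat.prime_two).1 this)
  have h3ne : (3 : F) ≠ 0 := by
    intro hc
    have h3 : ((3 : ℕ) : F) = 0 := by exact_mod_cast hc
    have := (CharP.cast_eq_zero_iff F p 3).1 h3
    have := (Nat.prime_dvd_prime_iff_eq Fact.out Nat.prime_three).1 this
    omega
  have h4ne : (4 : F) ≠ 0 := by
    have : (4 : F) = 2 * 2 := by norm_num
    rw [this]; exact mul_ne_zero h2 h2
  have hqr := qrel_of_equiv e h2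
  obtain ⟨I, hI⟩ : ∃ I : GL (Fin 2) F, I = (e.symm (QuaternionGroup.a 1)).1 := ⟨_, rfl⟩
  obtain ⟨J, hJ⟩ : ∃ J : GL (Fin 2) F, J = (e.symm (QuaternionGroup.xa 0)).1 := ⟨_, rfl⟩
  have hIR : I ∈ R := hI ▸ (e.symm (QuaternionGroup.a 1)).2
  have hJR : J ∈ R := hJ ▸ (e.symm (QuaternionGroup.xa 0)).2
  rw [← hI, ← hJ] at hqr
  have hdet1 : ∀ A : Matrix (Fin 2) (Fin 2) F, A.det = 1 → ∃ g : GL (Fin 2) F, (g : Matrix (Fin 2) (Fin 2) F) = A ∧
      g ∈ Cfsg.Geo.specialLinear (Fin 2) F := by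
    intro A hA
    refine ⟨Matrix.GeneralLinearGroup.mkOfDetNeZero A (by rw [hA]; exact one_ne_zero), rfl, ?_⟩
    show Matrix.GeneralLinearGroup.det _ = 1
    apply Units.ext
    exact hA
  have hSL : ∀ x ∈ Cfsg.Geo.specialLinear (Fin 2) F, (x : Matrix (Fin 2) (Fin 2) F).det = 1 := by
    intro x hx
    have h3 : Matrix.GeneralLinearGroup.det x = 1 := hx
    exact congrArg Units.val h3
  constructor
  · intro hall
    by_contra hne
    push Not at hne
    obtain ⟨hr2, hr3⟩ := hne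
    have h1 : r ∣ Nat.card ↥(Cfsg.Geo.specialLinear (Fin 2) F) := hΩ.trans (Subgroup.index_dvd_card _)
    obtain ⟨x, hxo⟩ := exists_prime_orderOf_dvd_card' r h1
    have hxr : (x.1 : GL (Fin 2) F) ^ r = 1 := by
      have := pow_orderOf_eq_one x
      rw [hxo] at this
      exact congrArg Subtype.val this
    have hns : ∀ z : F, ((x.1 : GL (Fin 2) F) : Matrix (Fin 2) (Fin 2) F) ≠ z • (1 : Matrix (Fin 2) (Fin 2) F) := by
      intro z hz
      have hd := hSL _ x.2
      rw [hz, Matrix.det_smul, Matrix.det_one, mul_one, Fintype.card_fin] at hd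
      have hx2 : x ^ 2 = 1 := by
        apply Subtype.ext
        apply Units.ext
        rw [pow_two]
        show ((x.1 : GL (Fin 2) F) : Matrix (Fin 2) (Fin 2) F) * ((x.1 : GL (Fin 2) F) : Matrix (Fin 2) (Fin 2) F) = 1
        simp only [hz, Matrix.smul_mul, Matrix.mul_smul, Matrix.one_mul, smul_smul]
        rw [← pow_two, hd, one_smul]
      have := orderOf_dvd_of_pow_eq_one hx2
      rw [hxo] at this
      exact hr2 ((Nat.prime_dvd_prime_iff_eq Fact.out Nat.prime_two).1 this)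
    obtain ⟨g, -, hg⟩ := hall x.1 x.2 ⟨1, by rw [hxr]; simp⟩ hns
    have hyr : (g⁻¹ * x.1 * g) ^ r = 1 := by
      have h3 : g⁻¹ * x.1 * g = g⁻¹ * x.1 * (g⁻¹)⁻¹ := by rw [inv_inv]
      rw [h3, conj_pow, hxr]
      simp
    have hcomm := q8_comm e h2 hg hr2 hr3 hyr
    have h3 := hcomm I hIR
    have h4 := hcomm J hJR
    obtain ⟨c, hc⟩ := hqr.scalar_of_comm h2 (y := ((g⁻¹ * x.1 * g : GL (Fin 2) F) : Matrix (Fin 2) (Fin 2) F))
      (congrArg Units.val h3) (congrArg Units.val h4)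
    apply hns c
    have h5 : ((x.1 * g : GL (Fin 2) F) : Matrix (Fin 2) (Fin 2) F) = ((g * (g⁻¹ * x.1 * g) : GL (Fin 2) F) : Matrix (Fin 2) (Fin 2) F) := by
      congr 1; group
    rw [Units.val_mul, Units.val_mul, hc] at h5
    simp only [Matrix.mul_smul, Matrix.mul_one] at h5
    have h6 : ((g⁻¹ : GL (Fin 2) F) : Matrix (Fin 2) (Fin 2) F) * (g : Matrix (Fin 2) (Fin 2) F) = 1 := congrArg Units.val (inv_mul_cancel g)
    have h7 : (g : Matrix (Fin 2) (Fin 2) F) * ((g⁻¹ : GL (Fin 2) F) : Matrix (Fin 2) (Fin 2) F) = 1 := congrArg Units.val (mul_inv_cancel g)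
    calc ((x.1 : GL (Fin 2) F) : Matrix (Fin 2) (Fin 2) F)
        = ((x.1 : GL (Fin 2) F) : Matrix (Fin 2) (Fin 2) F) * ((g : Matrix (Fin 2) (Fin 2) F) * ((g⁻¹ : GL (Fin 2) F) : Matrix (Fin 2) (Fin 2) F)) := by rw [h7, mul_one]
      _ = (((x.1 : GL (Fin 2) F) : Matrix (Fin 2) (Fin 2) F) * (g : Matrix (Fin 2) (Fin 2) F)) * ((g⁻¹ : GL (Fin 2) F) : Matrix (Fin 2) (Fin 2) F) := by rw [Matrix.mul_assoc]
      _ = c • (1 : Matrix (Fin 2) (Fin 2) F) := by rw [h5, Matrix.smul_mul, h7]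
  · have hmN : ∀ g : GL (Fin 2) F, ∀ W : GL (Fin 2) F, W ∈ Subgroup.normalizer (R : Set (GL (Fin 2) F)) → ∀ x : GL (Fin 2) F,
        (x : Matrix (Fin 2) (Fin 2) F) * g = g * W → g⁻¹ * x * g ∈ Subgroup.normalizer (R : Set (GL (Fin 2) F)) := by
      intro g W hW x h
      have h3 : x * g = g * W := Units.ext h
      have h4 : g⁻¹ * x * g = W := by
        rw [mul_assoc, h3]; group
      rw [h4]; exact hW
    rintro (rfl | rfl)
    · rintro x hx ⟨z, hz⟩ hns
      have hxx : (x : Matrix (Fin 2) (Fin 2) F) * x = z • (1 : Matrix (Fin 2) (Fin 2) F) := by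
        rw [← hz, pow_two]; rfl
      obtain ⟨ht, -⟩ := m2_sq_scalar hns (hSL x hx) hxx
      obtain ⟨ht', hd'⟩ := m2_tr_det_of_sq (hqr.I_nonscalar h2) hqr.ii
      obtain ⟨G, hG, hXG⟩ := m2_conj (x : Matrix (Fin 2) (Fin 2) F) I hns (hqr.I_nonscalar h2) (hSL x hx) hd' (by rw [ht, ht'])
        (fun c _ => by
          have := m2_norm_surj h2 (I : Matrix (Fin 2) (Fin 2) F).trace (by rw [ht']; simpa using h4ne.symm) c
          simpa using this)
      obtain ⟨g, hg, hgS⟩ := hdet1 G hG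
      refine ⟨g, hgS, hmN g I (Subgroup.le_normalizer hIR) x ?_⟩
      rw [hg]; exact hXG
    · rintro x hx ⟨z, hz⟩ hns
      have hxxx : (x : Matrix (Fin 2) (Fin 2) F) * x * x = z • (1 : Matrix (Fin 2) (Fin 2) F) := by
        rw [← hz, pow_succ, pow_two]; rfl
      have hdx := hSL x hx
      have hzz : z * z = 1 := by
        have h3 := congrArg Matrix.det hxxx
        rw [Matrix.det_mul, Matrix.det_mul, hdx, Matrix.det_smul, Matrix.det_one, Fintype.card_fin] at h3
        simp only [mul_one] at h3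
        rw [← pow_two]; exact h3.symm
      have hz0 : z ≠ 0 := by
        rintro rfl
        simp at hzz
      obtain ⟨Y, hY⟩ : ∃ Y : Matrix (Fin 2) (Fin 2) F, Y = z • (x : Matrix (Fin 2) (Fin 2) F) := ⟨_, rfl⟩
      have hYns : ∀ c : F, Y ≠ c • (1 : Matrix (Fin 2) (Fin 2) F) := by
        intro c hc
        apply hns (z * c)
        rw [mul_smul, ← hc, hY, smul_smul, hzz, one_smul]
      have hdY : Y.det = 1 := by
        rw [hY, Matrix.det_smul, hdx, Fintype.card_fin, mul_one, pow_two, hzz]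
      have hY3 : Y * Y * Y = 1 := by
        rw [hY]
        simp only [Matrix.smul_mul, Matrix.mul_smul, smul_smul, hxxx]
        have : z * (z * z * z) = 1 := by linear_combination (z * z + 1) * hzz
        rw [this, one_smul]
      have htY := m2_cube_one hYns hdY hY3
      obtain ⟨htQ, hdQ⟩ := hqr.qQ_trace_det h2
      have hTns : ∀ c : F, -QRel.qQ (I : Matrix (Fin 2) (Fin 2) F) J ≠ c • (1 : Matrix (Fin 2) (Fin 2) F) := by
        intro c hc
        apply hqr.qQ_nonscalar h2 (-c)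
        rw [neg_smul, ← hc, neg_neg]
      have hdT : (-QRel.qQ (I : Matrix (Fin 2) (Fin 2) F) J).det = 1 := by
        rw [Matrix.det_neg, hdQ]; simp
      have htT : (-QRel.qQ (I : Matrix (Fin 2) (Fin 2) F) J).trace = -1 := by
        rw [Matrix.trace_neg, htQ]
      obtain ⟨G, hG, hXG⟩ := m2_conj Y _ hYns hTns hdY hdT (by rw [htY, htT])
        (fun c _ => by
          have := m2_norm_surj h2 (-QRel.qQ (I : Matrix (Fin 2) (Fin 2) F) J).trace (by
            rw [htT]
            intro hc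
            apply h3ne
            linear_combination -hc) c
          exact this)
      obtain ⟨g, hg, hgS⟩ := hdet1 G hG
      obtain ⟨w, hw, -⟩ := hdet1 ((-z) • QRel.qQ (I : Matrix (Fin 2) (Fin 2) F) J) (by
        rw [Matrix.det_smul, hdQ, Fintype.card_fin, mul_one, neg_sq, pow_two, hzz])
      have hwN : w ∈ Subgroup.normalizer (R : Set (GL (Fin 2) F)) := by
        apply q8_mem_normalizer e
        · rw [← hI, ← hJ]
          apply Units.ext
          show (w : Matrix (Fin 2) (Fin 2) F) * I = J * w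
          rw [hw, Matrix.smul_mul, Matrix.mul_smul, hqr.qQ_mul_I]
        · rw [← hI, ← hJ]
          apply Units.ext
          show (w : Matrix (Fin 2) (Fin 2) F) * J = (I * J) * w
          rw [hw, Matrix.smul_mul, Matrix.mul_smul, hqr.qQ_mul_J]
      refine ⟨g, hgS, hmN g w hwN x ?_⟩
      rw [hg, hw]
      have h3 : (x : Matrix (Fin 2) (Fin 2) F) = z • Y := by
        rw [hY, smul_smul, hzz, one_smul]
      rw [h3, Matrix.smul_mul, hXG, Matrix.mul_smul]
      simp

end Cfsg.Agent.S5997
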